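import Mathlib
import Cfsg.Prelude.Def_RootSubgroups

/-!
# Involutions of the alternating group of degree 6
-/

set_option autoImplicit false
set_option linter.all false
set_option maxRecDepth 20000

namespace CfsgLib.A6root

open Equiv Equiv.Perm

def a0 : Perm (Fin 6) := swap 0 1 * swap 2 3

theorem key : ∀ b : Perm (Fin 6), b * b = 1 → sign b = 1 → a0 * b = b * a0 ∨ (a0 * b) ^ 3 = 1 ∨ (a0 * b) ^ 5 = 1 ∨
    ((a0 * b) ^ 4 = 1 ∧ (a0 * b) ^ 2 ≠ 1) := by decide +kernel

theorem conj0 : ∀ a : Perm (Fin 6), a * a = 1 → a ≠ 1 → sign a = 1 → ∃ g : Perm (Fin 6), sign g = 1 ∧ g * a0 = a * g := by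
  decide +kernel

abbrev A := ↥(alternatingGroup (Fin 6))

theorem mul_self {g : A} (h : orderOf g = 2) : (g : Perm (Fin 6)) * g = 1 := by
  have := pow_orderOf_eq_one g
  rw [h, pow_two] at this
  exact congrArg Subtype.val this

theorem ne_one' {g : A} (h : orderOf g = 2) : (g : Perm (Fin 6)) ≠ 1 := by
  intro h1
  have : g = 1 := Subtype.ext h1
  rw [this, orderOf_one] at h
  omega

theorem conj1 (a b : A) (ha : orderOf a = 2) (hb : orderOf b = 2) : ∃ g : A, b = g * a * g⁻¹ := by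
  obtain ⟨g, hg, hga⟩ := conj0 a (mul_self ha) (ne_one' ha) a.2
  obtain ⟨k, hk, hkb⟩ := conj0 b (mul_self hb) (ne_one' hb) b.2
  refine ⟨⟨k * g⁻¹, by rw [mem_alternatingGroup, map_mul, map_inv, hg, hk]; rfl⟩, ?_⟩
  apply Subtype.ext
  show (b : Perm (Fin 6)) = k * g⁻¹ * a * (k * g⁻¹)⁻¹
  have e1 : (a : Perm (Fin 6)) = g * a0 * g⁻¹ := by rw [hga]; group
  have e2 : (b : Perm (Fin 6)) = k * a0 * k⁻¹ := by rw [hkb]; group
  rw [e1, e2]; group

theorem pair (a b : A) (ha : orderOf a = 2) (hb : orderOf b = 2) :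
    a * b = b * a ∨ (a * b) ^ 3 = 1 ∨ (a * b) ^ 5 = 1 ∨ ((a * b) ^ 4 = 1 ∧ (a * b) ^ 2 ≠ 1) := by
  obtain ⟨g, hg, hga⟩ := conj0 a (mul_self ha) (ne_one' ha) a.2
  have e1 : (a : Perm (Fin 6)) = g * a0 * g⁻¹ := by rw [hga]; group
  set b' : Perm (Fin 6) := g⁻¹ * b * g with hb'
  have e2 : (b : Perm (Fin 6)) = g * b' * g⁻¹ := by rw [hb']; group
  have h1 : b' * b' = 1 := by
    rw [hb']
    calc g⁻¹ * (b : Perm (Fin 6)) * g * (g⁻¹ * b * g) = g⁻¹ * ((b : Perm (Fin 6)) * b) * g := by group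
      _ = 1 := by rw [mul_self hb]; group
  have h2 : sign b' = 1 := by
    rw [hb', map_mul, map_mul, map_inv, hg, (mem_alternatingGroup.1 b.2)]; rfl
  have hp : ∀ n : ℕ, ((a * b : A) : Perm (Fin 6)) ^ n = g * (a0 * b') ^ n * g⁻¹ := by
    intro n
    have : ((a * b : A) : Perm (Fin 6)) = g * (a0 * b') * g⁻¹ := by
      show (a : Perm (Fin 6)) * b = _
      rw [e1, e2]; group
    rw [this, conj_pow]
  have hp1 : ∀ n : ℕ, (a0 * b') ^ n = 1 → (a * b) ^ n = 1 := by
    intro n hn
    apply Subtype.ext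
    show ((a * b : A) : Perm (Fin 6)) ^ n = 1
    rw [hp, hn]; group
  rcases key b' h1 h2 with h | h | h | ⟨h, h'⟩
  · left
    apply Subtype.ext
    show (a : Perm (Fin 6)) * b = b * a
    rw [e1, e2]
    calc g * a0 * g⁻¹ * (g * b' * g⁻¹) = g * (a0 * b') * g⁻¹ := by group
      _ = g * (b' * a0) * g⁻¹ := by rw [h]
      _ = _ := by group
  · exact Or.inr (Or.inl (hp1 3 h))
  · exact Or.inr (Or.inr (Or.inl (hp1 5 h)))
  · right; right; right
    refine ⟨hp1 4 h, fun h3 => h' ?_⟩
    have h4 := congrArg Subtype.val h3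
    have h5 : ((a * b : A) : Perm (Fin 6)) ^ 2 = 1 := h4
    rw [hp] at h5
    calc (a0 * b') ^ 2 = g⁻¹ * (g * (a0 * b') ^ 2 * g⁻¹) * g := by group
      _ = 1 := by rw [h5]; group

theorem s5057 :
    Cfsg.IsRootInvolutionClass {g : ↥(alternatingGroup (Fin 6)) | orderOf g = 2} ∧
    ∀ d ∈ {g : ↥(alternatingGroup (Fin 6)) | orderOf g = 2}, ∀ e ∈ {g : ↥(alternatingGroup (Fin 6)) | orderOf g = 2},
      orderOf (d * e) ≤ 5 := by
  haveI : IsSimpleGroup A := alternatingGroup.isSimpleGroup (by simp)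
  have hconj : ∀ d : A, orderOf d = 2 → ∀ g : A, orderOf (g * d * g⁻¹) = 2 := by
    intro d hd g
    rw [← hd]
    exact orderOf_injective (MulAut.conj g).toMonoidHom (MulAut.conj g).injective d
  have hA0 : (swap 0 1 * swap 2 3 : Perm (Fin 6)) ∈ alternatingGroup (Fin 6) := by
    rw [mem_alternatingGroup]; decide
  have hmem : orderOf (⟨_, hA0⟩ : A) = 2 := by
    apply orderOf_eq_prime
    · apply Subtype.ext
      show (swap 0 1 * swap 2 3 : Perm (Fin 6)) ^ 2 = 1
      decide +kernel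
    · intro h
      have h1 : (swap 0 1 * swap 2 3 : Perm (Fin 6)) = 1 := congrArg Subtype.val h
      revert h1
      decide +kernel
  refine ⟨⟨⟨fun d hd => hd, ?_, fun d hd g => hconj d hd g, ?_⟩, ⟨_, hmem⟩, fun a ha b hb => conj1 a b ha hb⟩, ?_⟩
  · have hn : (Subgroup.closure {g : A | orderOf g = 2}).Normal := by
      constructor
      intro x hx g
      induction hx using Subgroup.closure_induction with
      | mem y hy => exact Subgroup.subset_closure (hconj y hy g)
      | one => rw [mul_one, mul_inv_cancel]; exact one_mem _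
      | mul y z _ _ h1 h2 =>
        have e : g * (y * z) * g⁻¹ = (g * y * g⁻¹) * (g * z * g⁻¹) := by group
        rw [e]; exact mul_mem h1 h2
      | inv y _ h1 =>
        have e : g * y⁻¹ * g⁻¹ = (g * y * g⁻¹)⁻¹ := by group
        rw [e]; exact inv_mem h1
    rcases hn.eq_bot_or_eq_top with h | h
    · exfalso
      have h1 : (⟨_, hA0⟩ : A) ∈ Subgroup.closure {g : A | orderOf g = 2} := Subgroup.subset_closure hmem
      rw [h, Subgroup.mem_bot] at h1
      rw [h1, orderOf_one] at hmem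
      omega
    · exact h
  · intro a ha b hb
    rcases pair a b ha hb with h | h | h | ⟨h, h'⟩
    · exact Or.inl h
    · exact Or.inr (Or.inl (Odd.of_dvd_nat (by decide : Odd 3) (orderOf_dvd_of_pow_eq_one h)))
    · exact Or.inr (Or.inl (Odd.of_dvd_nat (by decide : Odd 5) (orderOf_dvd_of_pow_eq_one h)))
    · refine Or.inr (Or.inr ⟨?_, ?_⟩)
      · haveI : Fact (Nat.Prime 2) := ⟨Nat.prime_two⟩
        exact orderOf_eq_prime_pow (p := 2) (n := 1) (by rwa [pow_one]) h
      · exact orderOf_eq_prime (by rw [← pow_mul]; exact h) h'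
  · intro d hd e he
    rcases pair d e hd he with h | h | h | ⟨h, h'⟩
    · have hd2 : d * d = 1 := Subtype.ext (mul_self hd)
      have he2 : e * e = 1 := Subtype.ext (mul_self he)
      have h1 : (d * e) ^ 2 = 1 := by
        rw [pow_two]
        calc d * e * (d * e) = d * (e * d) * e := by group
          _ = d * (d * e) * e := by rw [h]
          _ = (d * d) * (e * e) := by group
          _ = 1 := by rw [hd2, he2, one_mul]
      exact (orderOf_le_of_pow_eq_one (by norm_num) h1).trans (by norm_num)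
    · exact (orderOf_le_of_pow_eq_one (by norm_num) h).trans (by norm_num)
    · exact orderOf_le_of_pow_eq_one (by norm_num) h
    · exact (orderOf_le_of_pow_eq_one (by norm_num) h).trans (by norm_num)

end CfsgLib.A6root
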