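import Mathlib
import Cfsg.Agent.Lib.BrauerInd7

/-!
# Artin's induction theorem
-/

set_option autoImplicit false
set_option linter.style.haveILetI false
set_option linter.unusedSectionVars false

open scoped ComplexConjugate

namespace CfsgLib.ArtinInd

open Cfsg CfsgLib.CharBasic CfsgLib.CharInd CfsgLib.CharClifford CfsgLib.BrauerInd5 CfsgLib.MonoChar CfsgLib.BrauerInd7

universe u v

open Classical in
/-- the function `|A|` on the generators of `A` -/
noncomputable def th (A : Type u) [Group A] : A → ℂ := fun a => if Subgroup.zpowers a = ⊤ then (Nat.card A : ℂ) else 0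

theorem sum_th {G : Type u} [Group G] [Fintype G] : ∑ A : Subgroup G, indFun A (th A) = fun _ => (Nat.card G : ℂ) := by
  classical
  funext g
  rw [Finset.sum_apply]
  have h1 : ∀ A ∈ (Finset.univ : Finset (Subgroup G)), indFun A (th A) g = ∑ x : G, (if Subgroup.zpowers (x⁻¹ * g * x) = A then (1 : ℂ) else 0) := by
    intro A _
    rw [indFun_apply, Finset.mul_sum]
    apply Finset.sum_congr rfl
    intro x _
    by_cases h : x⁻¹ * g * x ∈ A
    · rw [ext_of_mem h, th]
      by_cases h' : Subgroup.zpowers (x⁻¹ * g * x) = A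
      · have h2 : Subgroup.zpowers (⟨x⁻¹ * g * x, h⟩ : A) = ⊤ := by
          rw [eq_top_iff]
          intro a _
          have h3 : (a : G) ∈ Subgroup.zpowers (x⁻¹ * g * x) := by rw [h']; exact a.2
          obtain ⟨i, hi⟩ := Subgroup.mem_zpowers_iff.mp h3
          exact Subgroup.mem_zpowers_iff.mpr ⟨i, Subtype.ext hi⟩
        rw [if_pos h2, if_pos h', inv_mul_cancel₀ (card_sub_ne_zero A)]
      · have h2 : ¬ Subgroup.zpowers (⟨x⁻¹ * g * x, h⟩ : A) = ⊤ := by
          intro h3
          apply h'
          apply le_antisymm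
          · rw [Subgroup.zpowers_le]; exact h
          · intro a ha
            have h4 : (⟨a, ha⟩ : A) ∈ Subgroup.zpowers (⟨x⁻¹ * g * x, h⟩ : A) := by rw [h3]; trivial
            obtain ⟨i, hi⟩ := Subgroup.mem_zpowers_iff.mp h4
            exact Subgroup.mem_zpowers_iff.mpr ⟨i, congrArg Subtype.val hi⟩
        rw [if_neg h2, if_neg h', mul_zero]
    · rw [ext_of_not_mem h, if_neg, mul_zero]
      intro h'
      apply h
      rw [← h']
      exact Subgroup.mem_zpowers _
  rw [Finset.sum_congr rfl h1, Finset.sum_comm]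
  have h2 : ∀ x ∈ (Finset.univ : Finset G), ∑ A : Subgroup G, (if Subgroup.zpowers (x⁻¹ * g * x) = A then (1 : ℂ) else 0) = 1 := by
    intro x _
    rw [Finset.sum_ite_eq, if_pos (Finset.mem_univ _)]
  rw [Finset.sum_congr rfl h2, Finset.sum_const, Finset.card_univ, nsmul_eq_mul, mul_one, Nat.card_eq_fintype_card]

theorem isClassFunction_th (A : Type u) [Group A] : IsClassFunction A (th A) := by
  classical
  intro g h
  unfold th
  have : Subgroup.zpowers (h * g * h⁻¹) = ⊤ ↔ Subgroup.zpowers g = ⊤ := by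
    have e : Subgroup.zpowers (h * g * h⁻¹) = (Subgroup.zpowers g).map (MulAut.conj h).toMonoidHom := by
      rw [MonoidHom.map_zpowers]; rfl
    rw [e]
    constructor
    · intro h1
      have h2 := congrArg (Subgroup.comap (MulAut.conj h).toMonoidHom) h1
      rw [Subgroup.comap_map_eq_self_of_injective (MulAut.conj h).injective, Subgroup.comap_top] at h2
      exact h2
    · intro h1
      rw [h1, Subgroup.map_top_of_surjective _ (MulAut.conj h).surjective]
  by_cases h1 : Subgroup.zpowers g = ⊤
  · rw [if_pos h1, if_pos (this.mpr h1)]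
  · rw [if_neg h1, if_neg (fun h2 => h1 (this.mp h2))]

theorem ind_top {G : Type u} [Group G] [Fintype G] : indFun (⊤ : Subgroup G) (th (⊤ : Subgroup G)) = th G := by
  classical
  funext g
  rw [indFun_apply]
  have h1 : ∀ x ∈ (Finset.univ : Finset G), extendByZero (⊤ : Subgroup G) (th (⊤ : Subgroup G)) (x⁻¹ * g * x) = th G g := by
    intro x _
    rw [ext_of_mem (Subgroup.mem_top _)]
    have h2 := isClassFunction_th G g x⁻¹
    rw [inv_inv] at h2
    rw [← h2]
    unfold th
    rw [Subgroup.card_top]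
    have h3 : Subgroup.zpowers (⟨x⁻¹ * g * x, Subgroup.mem_top _⟩ : (⊤ : Subgroup G)) = ⊤ ↔ Subgroup.zpowers (x⁻¹ * g * x) = ⊤ := by
      constructor
      · intro h
        rw [eq_top_iff]
        intro a _
        have h4 : (⟨a, Subgroup.mem_top _⟩ : (⊤ : Subgroup G)) ∈ Subgroup.zpowers (⟨x⁻¹ * g * x, Subgroup.mem_top _⟩ : (⊤ : Subgroup G)) := by rw [h]; trivial
        obtain ⟨i, hi⟩ := Subgroup.mem_zpowers_iff.mp h4
        exact Subgroup.mem_zpowers_iff.mpr ⟨i, congrArg Subtype.val hi⟩
      · intro h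
        rw [eq_top_iff]
        intro a _
        have h4 : (a : G) ∈ Subgroup.zpowers (x⁻¹ * g * x) := by rw [h]; trivial
        obtain ⟨i, hi⟩ := Subgroup.mem_zpowers_iff.mp h4
        exact Subgroup.mem_zpowers_iff.mpr ⟨i, Subtype.ext hi⟩
    by_cases h4 : Subgroup.zpowers (x⁻¹ * g * x) = ⊤
    · rw [if_pos h4, if_pos (h3.mpr h4)]
    · rw [if_neg h4, if_neg (fun h => h4 (h3.mp h))]
  rw [Finset.sum_congr rfl h1, Finset.sum_const, Finset.card_univ, Subgroup.card_top, ← Nat.card_eq_fintype_card, nsmul_eq_mul, ← mul_assoc, inv_mul_cancel₀ card_ne_zero, one_mul]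

theorem isGeneralized_th : ∀ (n : ℕ) (A : Type u) [Group A] [Fintype A], Nat.card A = n → IsGeneralizedCharacter A (th A) := by
  classical
  intro n
  induction n using Nat.strong_induction_on with
  | _ n ih =>
  intro A _ _ hn
  have h1 := sum_th (G := A)
  rw [← Finset.add_sum_erase Finset.univ _ (Finset.mem_univ (⊤ : Subgroup A)), ind_top] at h1
  have h2 : th A = (Nat.card A : ℂ) • (1 : A → ℂ) - ∑ B ∈ Finset.univ.erase (⊤ : Subgroup A), indFun B (th B) := by
    rw [eq_sub_iff_add_eq, h1]
    funext a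
    simp
  rw [h2]
  apply IsGeneralizedCharacter.sub
  · have := IsGeneralizedCharacter.zsmul (isGeneralized_one (G := A)) (Nat.card A : ℤ)
    rw [Int.cast_natCast] at this
    exact this
  · apply IsGeneralizedCharacter.sum
    intro B hB
    have hB1 := (Finset.mem_erase.mp hB).1
    haveI : Fintype B := Fintype.ofFinite _
    apply isGeneralized_indFun
    apply ih (Nat.card B) _ B rfl
    rw [← hn]
    have h1 := Subgroup.card_mul_index B
    have h2 : B.index ≠ 1 := fun h => hB1 (Subgroup.index_eq_one.mp h)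
    have h3 : B.index ≠ 0 := Subgroup.index_ne_zero_of_finite
    have h4 : 1 < B.index := by omega
    have h5 : 0 < Nat.card B := Nat.card_pos
    nlinarith

theorem artin {G : Type u} [Group G] [Fintype G] {χ : G → ℂ} (hχ : IsCharacter G χ) :
    (Nat.card G : ℂ) • χ ∈ LL (fun A : Subgroup G => IsCyclic A) := by
  classical
  have h1 : (Nat.card G : ℂ) • χ = (∑ A : Subgroup G, indFun A (th A)) * χ := by
    rw [sum_th]; rfl
  rw [h1, Finset.sum_mul]
  apply AddSubgroup.sum_mem
  intro A _
  rw [← indFun_mul A _ (IsCharacter.isClassFunction hχ)]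
  by_cases hA : IsCyclic A
  · haveI : Fintype A := Fintype.ofFinite _
    have h2 : IsGeneralizedCharacter A (th A * fun h : A => χ h) :=
      IsGeneralizedCharacter.mul (isGeneralized_th _ A rfl) (IsCharacter.isGeneralized (IsCharacter.restrict hχ A))
    obtain ⟨m, hm⟩ := isGeneralized_iff.mp h2
    rw [hm, indFun_sum]
    apply AddSubgroup.sum_mem
    intro ψ _
    rw [indFun_smul]
    have e : (m ψ : ℂ) • indFun A (ψ : A → ℂ) = m ψ • indFun A (ψ : A → ℂ) := Int.cast_smul_eq_zsmul ℂ _ _
    rw [e]
    apply AddSubgroup.zsmul_mem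
    have h3 : (ψ : A → ℂ) 1 = 1 := IsIrrCharacter.degree_one_of_comm ψ.2 (fun a b => by
      letI := IsCyclic.commGroup (α := A)
      exact mul_comm a b)
    obtain ⟨lam, hlam⟩ := IsCharacter.exists_linear (irr_isCharacter ψ) h3
    have h4 : (ψ : A → ℂ) = fun a => (lam a : ℂ) := funext hlam
    rw [h4]
    exact AddSubgroup.subset_closure ⟨A, lam, hA, rfl⟩
  · have h2 : th A * (fun h : A => χ h) = 0 := by
      funext a
      rw [Pi.mul_apply, th, if_neg, zero_mul, Pi.zero_apply]
      intro h
      apply hA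
      exact ⟨a, fun x => Subgroup.mem_zpowers_iff.mp (by rw [h]; trivial)⟩
    rw [h2, indFun_zero]
    exact AddSubgroup.zero_mem _

end CfsgLib.ArtinInd
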