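import Cfsg.Prelude.Def_GeometricClasses
import Cfsg.Agent.Lib.Linear

set_option autoImplicit false

/-! Basic facts about the geometric subgroups of GL. -/
namespace CfsgLib.GeoBase

open Cfsg Cfsg.Geo Module

variable {ι : Type} [Fintype ι] [DecidableEq ι] {F : Type*} [Field F]

theorem mem_sl {g : Matrix.GeneralLinearGroup ι F} : g ∈ specialLinear ι F ↔ (g : Matrix ι ι F).det = 1 := by
  unfold specialLinear
  rw [MonoidHom.mem_ker, ← Units.val_inj]
  rfl

/-- action of a matrix is linear -/
theorem toLin_apply (g : Matrix.GeneralLinearGroup ι F) (x : ι → F) :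
    Matrix.toLin' (g : Matrix ι ι F) x = Matrix.mulVec (g : Matrix ι ι F) x := rfl

theorem mulVec_mul (g h : Matrix.GeneralLinearGroup ι F) (x : ι → F) :
    Matrix.mulVec ((g * h : Matrix.GeneralLinearGroup ι F) : Matrix ι ι F) x
      = Matrix.mulVec (g : Matrix ι ι F) (Matrix.mulVec (h : Matrix ι ι F) x) := by
  rw [Units.val_mul, Matrix.mulVec_mulVec]

theorem mulVec_one (x : ι → F) : Matrix.mulVec ((1 : Matrix.GeneralLinearGroup ι F) : Matrix ι ι F) x = x := by
  rw [Units.val_one, Matrix.one_mulVec]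

theorem inv_mulVec (g : Matrix.GeneralLinearGroup ι F) (x : ι → F) :
    Matrix.mulVec ((g⁻¹ : Matrix.GeneralLinearGroup ι F) : Matrix ι ι F) (Matrix.mulVec (g : Matrix ι ι F) x) = x := by
  rw [← mulVec_mul, inv_mul_cancel, mulVec_one]

theorem mulVec_inv (g : Matrix.GeneralLinearGroup ι F) (x : ι → F) :
    Matrix.mulVec (g : Matrix ι ι F) (Matrix.mulVec ((g⁻¹ : Matrix.GeneralLinearGroup ι F) : Matrix ι ι F) x) = x := by
  rw [← mulVec_mul, mul_inv_cancel, mulVec_one]

theorem ext_mulVec {g h : Matrix.GeneralLinearGroup ι F}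
    (H : ∀ x, Matrix.mulVec (g : Matrix ι ι F) x = Matrix.mulVec (h : Matrix ι ι F) x) : g = h := by
  apply Units.ext
  apply Matrix.toLin'.injective
  exact LinearMap.ext H

/-- membership in the stabiliser -/
theorem mem_stab_iff {g : Matrix.GeneralLinearGroup ι F} {W : Submodule F (ι → F)} :
    g ∈ subspaceStabilizer W ↔ ∀ x ∈ W, Matrix.mulVec (g : Matrix ι ι F) x ∈ W := by
  constructor
  · intro h x hx
    exact (h x).1 hx
  · intro h x
    constructor
    · intro hx
      exact h x hx
    · intro hx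
      have h1 : W.map (Matrix.toLin' (g : Matrix ι ι F)) = W := by
        apply Submodule.eq_of_le_of_finrank_eq
        · rintro _ ⟨y, hy, rfl⟩
          exact h y hy
        · have hinj : Function.Injective (Matrix.toLin' (g : Matrix ι ι F)) := by
            intro y z hyz
            have := congrArg (Matrix.mulVec ((g⁻¹ : Matrix.GeneralLinearGroup ι F) : Matrix ι ι F)) hyz
            rw [toLin_apply, toLin_apply, inv_mulVec, inv_mulVec] at this
            exact this
          exact (Submodule.equivMapOfInjective _ hinj W).finrank_eq.symm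
      have h2 : Matrix.mulVec (g : Matrix ι ι F) x ∈ W.map (Matrix.toLin' (g : Matrix ι ι F)) := by
        rw [h1]; exact hx
      obtain ⟨y, hy, hyx⟩ := h2
      have := congrArg (Matrix.mulVec ((g⁻¹ : Matrix.GeneralLinearGroup ι F) : Matrix ι ι F)) hyx
      rw [toLin_apply, inv_mulVec, inv_mulVec] at this
      rw [← this]
      exact hy

/-- transvections in GL -/
theorem exists_tv (f : Dual F (ι → F)) (v : ι → F) (h : f v = 0) :
    ∃ g : Matrix.GeneralLinearGroup ι F, g ∈ specialLinear ι F ∧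
      ∀ x, Matrix.mulVec (g : Matrix ι ι F) x = x + f x • v := by
  have hdet : (LinearMap.toMatrix' (LinearMap.transvection f v)).det = 1 := by
    rw [LinearMap.det_toMatrix', LinearMap.transvection.det, h, add_zero]
  refine ⟨Matrix.GeneralLinearGroup.mk'' (LinearMap.toMatrix' (LinearMap.transvection f v)) (by rw [hdet]; exact isUnit_one), ?_, ?_⟩
  · rw [mem_sl]
    exact hdet
  · intro x
    change Matrix.mulVec (LinearMap.toMatrix' (LinearMap.transvection f v)) x = _
    rw [← Matrix.toLin'_apply, Matrix.toLin'_toMatrix']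
    rfl

/-- the transvection -/
noncomputable def tv (f : Dual F (ι → F)) (v : ι → F) (h : f v = 0) : Matrix.GeneralLinearGroup ι F :=
  (exists_tv f v h).choose

theorem tv_mem_sl (f : Dual F (ι → F)) (v : ι → F) (h : f v = 0) : tv f v h ∈ specialLinear ι F :=
  (exists_tv f v h).choose_spec.1

theorem tv_apply (f : Dual F (ι → F)) (v : ι → F) (h : f v = 0) (x : ι → F) :
    Matrix.mulVec (tv f v h : Matrix ι ι F) x = x + f x • v :=
  (exists_tv f v h).choose_spec.2 x

theorem mulVec_add' (g : Matrix.GeneralLinearGroup ι F) (x y : ι → F) :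
    Matrix.mulVec (g : Matrix ι ι F) (x + y) = Matrix.mulVec (g : Matrix ι ι F) x + Matrix.mulVec (g : Matrix ι ι F) y :=
  Matrix.mulVec_add _ _ _

theorem mulVec_smul' (g : Matrix.GeneralLinearGroup ι F) (c : F) (x : ι → F) :
    Matrix.mulVec (g : Matrix ι ι F) (c • x) = c • Matrix.mulVec (g : Matrix ι ι F) x :=
  Matrix.mulVec_smul _ _ _

theorem mulVec_injective (g : Matrix.GeneralLinearGroup ι F) : Function.Injective (Matrix.mulVec (g : Matrix ι ι F)) := by
  intro y z hyz
  have := congrArg (Matrix.mulVec ((g⁻¹ : Matrix.GeneralLinearGroup ι F) : Matrix ι ι F)) hyz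
  rw [inv_mulVec, inv_mulVec] at this
  exact this

/-- conjugation of a transvection -/
theorem tv_conj (g : Matrix.GeneralLinearGroup ι F) (f : Dual F (ι → F)) (v : ι → F) (h : f v = 0) :
    ∃ h' : (f ∘ₗ Matrix.toLin' ((g⁻¹ : Matrix.GeneralLinearGroup ι F) : Matrix ι ι F)) (Matrix.mulVec (g : Matrix ι ι F) v) = 0,
    g * tv f v h * g⁻¹ = tv (f ∘ₗ Matrix.toLin' ((g⁻¹ : Matrix.GeneralLinearGroup ι F) : Matrix ι ι F)) (Matrix.mulVec (g : Matrix ι ι F) v) h' := by
  have h' : (f ∘ₗ Matrix.toLin' ((g⁻¹ : Matrix.GeneralLinearGroup ι F) : Matrix ι ι F)) (Matrix.mulVec (g : Matrix ι ι F) v) = 0 := by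
    rw [LinearMap.comp_apply, toLin_apply, inv_mulVec, h]
  refine ⟨h', ?_⟩
  apply ext_mulVec
  intro x
  rw [mulVec_mul, mulVec_mul, tv_apply, tv_apply, mulVec_add', mulVec_smul', mulVec_inv]
  rfl

/-- SL is generated by transvections -/
theorem sl_le_of_tv [Nontrivial ι] {M : Subgroup (Matrix.GeneralLinearGroup ι F)}
    (hM : ∀ (f : Dual F (ι → F)) (v : ι → F) (h : f v = 0), tv f v h ∈ M) : specialLinear ι F ≤ M := by
  intro g hg
  rw [mem_sl] at hg
  have h1 : (M.comap (Matrix.SpecialLinearGroup.toGL (n := ι) (R := F))) = ⊤ := by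
    apply CfsgLib.Linear.le_of_transvections_mem
    intro i j hij c
    rw [Subgroup.mem_comap]
    have h0 : (c • (LinearMap.proj (R := F) (φ := fun _ : ι => F) j)) (Pi.single i (1 : F)) = 0 := by
      rw [LinearMap.smul_apply, LinearMap.proj_apply, Pi.single_eq_of_ne hij.symm, smul_zero]
    have h2 : Matrix.SpecialLinearGroup.toGL (Matrix.SpecialLinearGroup.transvection hij c)
        = tv (c • (LinearMap.proj (R := F) (φ := fun _ : ι => F) j)) (Pi.single i (1 : F)) h0 := by
      apply ext_mulVec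
      intro x
      rw [tv_apply]
      change Matrix.mulVec (Matrix.transvection i j c) x = _
      rw [Matrix.transvection, Matrix.add_mulVec, Matrix.one_mulVec, Matrix.single_mulVec]
      funext k
      simp only [Pi.add_apply, Pi.smul_apply, LinearMap.smul_apply, LinearMap.proj_apply, smul_eq_mul]
      by_cases hk : k = i
      · subst hk
        simp
      · simp [hk, Pi.single_apply]
    rw [h2]
    exact hM _ _ _
  let s : Matrix.SpecialLinearGroup ι F := ⟨(g : Matrix ι ι F), hg⟩
  have h2 : s ∈ M.comap (Matrix.SpecialLinearGroup.toGL (n := ι) (R := F)) := by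
    rw [h1]; exact Subgroup.mem_top _
  rw [Subgroup.mem_comap] at h2
  have h3 : Matrix.SpecialLinearGroup.toGL s = g := by
    apply Units.ext
    rfl
  rwa [h3] at h2

/-- a functional vanishing on a subspace, with a given value outside -/
theorem exists_dual {W : Submodule F (ι → F)} {x : ι → F} (hx : x ∉ W) (c : F) :
    ∃ f : Dual F (ι → F), (∀ w ∈ W, f w = 0) ∧ f x = c := by
  obtain ⟨f, hf1, hf2⟩ := Submodule.exists_le_ker_of_notMem hx
  refine ⟨(c / f x) • f, fun w hw => ?_, ?_⟩
  · rw [LinearMap.smul_apply, hf2 hw, smul_zero]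
  · rw [LinearMap.smul_apply, smul_eq_mul, div_mul_cancel₀ _ hf1]

/-- the subspace stabiliser in SL is maximal -/
theorem stab_maximal [Nontrivial ι] (W : Submodule F (ι → F)) (hW0 : W ≠ ⊥) (hW1 : W ≠ ⊤) :
    IsMaximalIn (specialLinear ι F) (subspaceStabilizer W ⊓ specialLinear ι F) := by
  classical
  obtain ⟨w0, hw0, hw0'⟩ := (Submodule.ne_bot_iff W).1 hW0
  obtain ⟨v0, hv0⟩ : ∃ v, v ∉ W := by
    by_contra hcon
    push Not at hcon
    exact hW1 (Submodule.eq_top_iff'.2 hcon)
  have hlt : subspaceStabilizer W ⊓ specialLinear ι F < specialLinear ι F := by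
    refine lt_of_le_of_ne inf_le_right ?_
    intro heq
    have h1 : w0 ∉ Submodule.span F {v0} := by
      intro h
      obtain ⟨c, hc⟩ := Submodule.mem_span_singleton.1 h
      have hc0 : c ≠ 0 := by
        rintro rfl
        rw [zero_smul] at hc
        exact hw0' hc.symm
      apply hv0
      have : v0 = c⁻¹ • w0 := by rw [← hc, smul_smul, inv_mul_cancel₀ hc0, one_smul]
      rw [this]
      exact W.smul_mem _ hw0
    obtain ⟨f, hf1, hf2⟩ := exists_dual h1 1
    have hfv : f v0 = 0 := hf1 v0 (Submodule.mem_span_singleton_self v0)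
    have h2 := tv_mem_sl f v0 hfv
    rw [← heq] at h2
    have h3 := mem_stab_iff.1 h2.1 w0 hw0
    rw [tv_apply, hf2, one_smul] at h3
    exact hv0 ((Submodule.add_mem_iff_right W hw0).1 h3)
  refine ⟨hlt, fun M hM1 hM2 => ?_⟩
  by_cases hM : M ≤ subspaceStabilizer W
  · left
    exact le_antisymm (le_inf hM hM2) hM1
  right
  apply le_antisymm hM2
  apply sl_le_of_tv
  -- the set of centres
  let X : Set (ι → F) := {v | ∀ (f : Dual F (ι → F)) (h : f v = 0), tv f v h ∈ M}
  have hXs : ∀ (c : F) (v : ι → F), v ∈ X → c • v ∈ X := by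
    intro c v hv f hf
    by_cases hc : c = 0
    · have : tv f (c • v) hf = 1 := by
        apply ext_mulVec
        intro x
        rw [tv_apply, mulVec_one, hc, zero_smul, smul_zero, add_zero]
      rw [this]; exact one_mem M
    · have hfv : (c • f) v = 0 := by
        rw [map_smul, smul_eq_mul, mul_eq_zero] at hf
        rw [LinearMap.smul_apply, hf.resolve_left hc, smul_zero]
      have : tv f (c • v) hf = tv (c • f) v hfv := by
        apply ext_mulVec
        intro x
        rw [tv_apply, tv_apply, LinearMap.smul_apply, smul_eq_mul, smul_smul, mul_comm]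
      rw [this]
      exact hv _ _
  have hXM : ∀ (g : Matrix.GeneralLinearGroup ι F), g ∈ M → ∀ v ∈ X, Matrix.mulVec (g : Matrix ι ι F) v ∈ X := by
    intro g hg v hv f hf
    have hf' : (f ∘ₗ Matrix.toLin' (g : Matrix ι ι F)) v = 0 := hf
    obtain ⟨h', h1⟩ := tv_conj g (f ∘ₗ Matrix.toLin' (g : Matrix ι ι F)) v hf'
    have h2 : tv f (Matrix.mulVec (g : Matrix ι ι F) v) hf = g * tv (f ∘ₗ Matrix.toLin' (g : Matrix ι ι F)) v hf' * g⁻¹ := by
      rw [h1]
      apply ext_mulVec
      intro x
      rw [tv_apply, tv_apply, LinearMap.comp_apply, LinearMap.comp_apply, toLin_apply, toLin_apply, mulVec_inv]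
    rw [h2]
    exact mul_mem (mul_mem hg (hv _ _)) (inv_mem hg)
  -- transvections in the stabiliser
  have hT1 : ∀ (f : Dual F (ι → F)) (v : ι → F) (h : f v = 0), v ∈ W → tv f v h ∈ M := by
    intro f v h hv
    apply hM1
    refine ⟨mem_stab_iff.2 (fun x hx => ?_), tv_mem_sl f v h⟩
    rw [tv_apply]
    exact W.add_mem hx (W.smul_mem _ hv)
  have hT2 : ∀ (f : Dual F (ι → F)) (v : ι → F) (h : f v = 0), (∀ w ∈ W, f w = 0) → tv f v h ∈ M := by
    intro f v h hf
    apply hM1
    refine ⟨mem_stab_iff.2 (fun x hx => ?_), tv_mem_sl f v h⟩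
    rw [tv_apply, hf x hx, zero_smul, add_zero]
    exact hx
  have hWX : ∀ v ∈ W, v ∈ X := fun v hv f h => hT1 f v h hv
  obtain ⟨g, hgM, hgW⟩ := Set.not_subset.1 hM
  obtain ⟨w, hw, hgw⟩ : ∃ w ∈ W, Matrix.mulVec (g : Matrix ι ι F) w ∉ W := by
    by_contra hcon
    push Not at hcon
    exact hgW (mem_stab_iff.2 hcon)
  have hvX := hXM g hgM w (hWX w hw)
  set v := Matrix.mulVec (g : Matrix ι ι F) w with hv
  intro f v' hfv'
  by_cases hv'W : v' ∈ W
  · exact hT1 f v' hfv' hv'W
  suffices h : v' ∈ X from h f hfv'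
  -- move v to v'
  have hcase1 : ∀ u ∈ W, v + u ∈ X := by
    intro u hu
    have h1 : v ∉ Submodule.span F {u} := by
      intro h
      obtain ⟨c, hc⟩ := Submodule.mem_span_singleton.1 h
      exact hgw (hc ▸ W.smul_mem c hu)
    obtain ⟨k, hk1, hk2⟩ := exists_dual h1 1
    have hku : k u = 0 := hk1 u (Submodule.mem_span_singleton_self u)
    have h2 := hXM _ (hT1 k u hku hu) v hvX
    rwa [tv_apply, hk2, one_smul] at h2
  by_cases hdep : v' ∈ W ⊔ Submodule.span F {v}
  · obtain ⟨u, hu, z, hz, huz⟩ := Submodule.mem_sup.1 hdep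
    obtain ⟨c, rfl⟩ := Submodule.mem_span_singleton.1 hz
    have hc0 : c ≠ 0 := by
      rintro rfl
      rw [zero_smul, add_zero] at huz
      exact hv'W (huz ▸ hu)
    have h2 := hXs c _ (hcase1 (c⁻¹ • u) (W.smul_mem _ hu))
    rw [smul_add, smul_smul, mul_inv_cancel₀ hc0, one_smul, add_comm, huz] at h2
    exact h2
  · have h1 : v ∉ W ⊔ Submodule.span F {v' - v} := by
      intro h
      obtain ⟨u, hu, z, hz, huz⟩ := Submodule.mem_sup.1 h
      obtain ⟨c, rfl⟩ := Submodule.mem_span_singleton.1 hz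
      have hc0 : c ≠ 0 := by
        rintro rfl
        rw [zero_smul, add_zero] at huz
        exact hgw (huz ▸ hu)
      apply hdep
      have h3 : c • (v' - v) = v - u := eq_sub_of_add_eq' huz
      have h4 : v' - v = c⁻¹ • (v - u) := by rw [← h3, smul_smul, inv_mul_cancel₀ hc0, one_smul]
      have h5 : v' = c⁻¹ • (v - u) + v := by rw [← h4, sub_add_cancel]
      have hvm : v ∈ W ⊔ Submodule.span F {v} := Submodule.mem_sup_right (Submodule.mem_span_singleton_self v)
      rw [h5]
      exact Submodule.add_mem _ (Submodule.smul_mem _ _ (Submodule.sub_mem _ hvm (Submodule.mem_sup_left hu))) hvm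
    obtain ⟨k, hk1, hk2⟩ := exists_dual h1 1
    have hku : k (v' - v) = 0 := hk1 _ (Submodule.mem_sup_right (Submodule.mem_span_singleton_self _))
    have h2 := hXM _ (hT2 k (v' - v) hku (fun w hw => hk1 w (Submodule.mem_sup_left hw))) v hvX
    rw [tv_apply, hk2, one_smul, add_sub_cancel] at h2
    exact h2

end CfsgLib.GeoBase
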