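import Cfsg.Prelude.Def_GeometricClasses
import Cfsg.Agent.Lib.GeoBase

set_option autoImplicit false
set_option maxHeartbeats 400000

/-! Clifford theory in prime dimension, in matrix form. -/
namespace CfsgLib.Asch1

open Cfsg Cfsg.Geo Module CfsgLib.GeoBase

universe u v

variable {ι : Type} [Fintype ι] [DecidableEq ι] {F : Type u} [Field F]

/-- `W` is invariant under `N` -/
def Inv (N : Subgroup (Matrix.GeneralLinearGroup ι F)) (W : Submodule F (ι → F)) : Prop :=
  ∀ g ∈ N, ∀ w ∈ W, Matrix.mulVec (g : Matrix ι ι F) w ∈ W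

/-- `N` is irreducible -/
def Irr (N : Subgroup (Matrix.GeneralLinearGroup ι F)) : Prop :=
  ∀ W : Submodule F (ι → F), Inv N W → W = ⊥ ∨ W = ⊤

theorem irr_iff {N : Subgroup (Matrix.GeneralLinearGroup ι F)} : ActsIrreducibly (matrixSet N) ↔ Irr N := by
  constructor
  · intro h W hW
    apply h W
    rintro _ ⟨g, hg, rfl⟩ _ ⟨w, hw, rfl⟩
    exact hW g hg w hw
  · intro h W hW
    apply h W
    intro g hg w hw
    exact hW _ ⟨g, hg, rfl⟩ ⟨w, hw, rfl⟩

/-- image of a subspace under a group element -/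
def mp (g : Matrix.GeneralLinearGroup ι F) (W : Submodule F (ι → F)) : Submodule F (ι → F) :=
  W.map (Matrix.toLin' (g : Matrix ι ι F))

theorem mem_mp {g : Matrix.GeneralLinearGroup ι F} {W : Submodule F (ι → F)} {v : ι → F} :
    v ∈ mp g W ↔ Matrix.mulVec ((g⁻¹ : Matrix.GeneralLinearGroup ι F) : Matrix ι ι F) v ∈ W := by
  constructor
  · rintro ⟨w, hw, rfl⟩
    rw [toLin_apply, inv_mulVec]
    exact hw
  · intro h
    exact ⟨_, h, by rw [toLin_apply, mulVec_inv]⟩

theorem mp_mem {g : Matrix.GeneralLinearGroup ι F} {W : Submodule F (ι → F)} {v : ι → F} (hv : v ∈ W) :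
    Matrix.mulVec (g : Matrix ι ι F) v ∈ mp g W := ⟨v, hv, rfl⟩

theorem mp_mul (g h : Matrix.GeneralLinearGroup ι F) (W : Submodule F (ι → F)) : mp (g * h) W = mp g (mp h W) := by
  ext v
  rw [mem_mp, mem_mp, mem_mp, mul_inv_rev, mulVec_mul]

theorem mp_one (W : Submodule F (ι → F)) : mp (1 : Matrix.GeneralLinearGroup ι F) W = W := by
  ext v
  rw [mem_mp, inv_one, mulVec_one]

theorem mp_bot (g : Matrix.GeneralLinearGroup ι F) : mp g (⊥ : Submodule F (ι → F)) = ⊥ := Submodule.map_bot _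

theorem toLin_inj (g : Matrix.GeneralLinearGroup ι F) : Function.Injective (Matrix.toLin' (g : Matrix ι ι F)) := by
  intro x y h
  exact mulVec_injective g h

theorem finrank_mp (g : Matrix.GeneralLinearGroup ι F) (W : Submodule F (ι → F)) : finrank F (mp g W) = finrank F W :=
  (LinearEquiv.finrank_eq (Submodule.equivMapOfInjective _ (toLin_inj g) W)).symm

theorem inv_iff_mp {N : Subgroup (Matrix.GeneralLinearGroup ι F)} {W : Submodule F (ι → F)} : Inv N W ↔ ∀ g ∈ N, mp g W ≤ W := by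
  constructor
  · rintro h g hg _ ⟨w, hw, rfl⟩
    exact h g hg w hw
  · intro h g hg w hw
    exact h g hg (mp_mem hw)

theorem inv_bot (N : Subgroup (Matrix.GeneralLinearGroup ι F)) : Inv N ⊥ := by
  intro g _ w hw
  rw [Submodule.mem_bot] at hw ⊢
  rw [hw, Matrix.mulVec_zero]

theorem inv_top (N : Subgroup (Matrix.GeneralLinearGroup ι F)) : Inv N ⊤ := fun _ _ _ _ => trivial

theorem inv_sup {N : Subgroup (Matrix.GeneralLinearGroup ι F)} {U W : Submodule F (ι → F)} (hU : Inv N U) (hW : Inv N W) : Inv N (U ⊔ W) := by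
  intro g hg w hw
  obtain ⟨a, ha, b, hb, rfl⟩ := Submodule.mem_sup.1 hw
  rw [mulVec_add']
  exact Submodule.add_mem_sup (hU g hg a ha) (hW g hg b hb)

theorem inv_inf {N : Subgroup (Matrix.GeneralLinearGroup ι F)} {U W : Submodule F (ι → F)} (hU : Inv N U) (hW : Inv N W) : Inv N (U ⊓ W) :=
  fun g hg w hw => ⟨hU g hg w hw.1, hW g hg w hw.2⟩

/-- `N` is normalised by `H` and contained in it -/
def NI (N H : Subgroup (Matrix.GeneralLinearGroup ι F)) : Prop :=
  N ≤ H ∧ ∀ h ∈ H, ∀ x ∈ N, h * x * h⁻¹ ∈ N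

theorem NI.refl (H : Subgroup (Matrix.GeneralLinearGroup ι F)) : NI H H :=
  ⟨le_rfl, fun _ hh _ hx => H.mul_mem (H.mul_mem hh hx) (H.inv_mem hh)⟩

theorem inv_mp {N H : Subgroup (Matrix.GeneralLinearGroup ι F)} (hN : NI N H) {W : Submodule F (ι → F)} (hW : Inv N W)
    {h : Matrix.GeneralLinearGroup ι F} (hh : h ∈ H) : Inv N (mp h W) := by
  intro g hg w hw
  rw [mem_mp] at hw ⊢
  have h1 : h⁻¹ * g * h ∈ N := by
    have := hN.2 h⁻¹ (H.inv_mem hh) g hg
    rwa [inv_inv] at this
  have h2 := hW _ h1 _ hw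
  rwa [← mulVec_mul, mul_assoc, mul_assoc, mul_inv_cancel, mul_one, mulVec_mul] at h2

/-- a divisibility lemma -/
theorem dvd_of_family {K : Type u} {V : Type v} [Field K] [AddCommGroup V] [Module K V] [FiniteDimensional K V] (d : ℕ)
    (P : Submodule K V → Prop) (hP : P ⊥) (S : Set (Submodule K V)) (hd : ∀ W ∈ S, finrank K W = d)
    (hs : ∀ U, P U → ∀ W ∈ S, (W ≤ U ∨ U ⊓ W = ⊥) ∧ P (U ⊔ W))
    (ht : ∀ U, P U → (∀ W ∈ S, W ≤ U) → U = ⊤) : d ∣ finrank K V := by
  by_contra hne
  have key : ∀ k : ℕ, ∃ U : Submodule K V, P U ∧ d ∣ finrank K U ∧ k ≤ finrank K U := by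
    intro k
    induction k with
    | zero => exact ⟨⊥, hP, by rw [finrank_bot]; exact dvd_zero d, Nat.zero_le _⟩
    | succ k ih =>
      obtain ⟨U, hU, hdU, hk⟩ := ih
      by_cases hUt : U = ⊤
      · exfalso
        apply hne
        rw [← finrank_top K V, ← hUt]
        exact hdU
      · have : ¬ ∀ W ∈ S, W ≤ U := fun h => hUt (ht U hU h)
        push Not at this
        obtain ⟨W, hW, hWU⟩ := this
        obtain ⟨h1, h2⟩ := hs U hU W hW
        have h3 := h1.resolve_left hWU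
        have h4 := Submodule.finrank_sup_add_finrank_inf_eq U W
        rw [h3, finrank_bot, add_zero, hd W hW] at h4
        refine ⟨U ⊔ W, h2, ?_, ?_⟩
        · rw [h4]
          exact dvd_add hdU (dvd_refl d)
        · have : 0 < d := by
            rw [← hd W hW]
            apply Nat.pos_of_ne_zero
            intro h0
            apply hWU
            rw [Submodule.finrank_eq_zero.1 h0]
            exact bot_le
          omega
  obtain ⟨U, -, -, hU⟩ := key (finrank K V + 1)
  have := Submodule.finrank_le U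
  omega

/-- minimal invariant subspaces -/
theorem exists_min [Nonempty ι] (N : Subgroup (Matrix.GeneralLinearGroup ι F)) : ∃ W : Submodule F (ι → F), W ≠ ⊥ ∧ Inv N W ∧
    ∀ U : Submodule F (ι → F), U ≠ ⊥ → Inv N U → finrank F W ≤ finrank F U := by
  classical
  have hex : ∃ d, ∃ W : Submodule F (ι → F), W ≠ ⊥ ∧ Inv N W ∧ finrank F W = d :=
    ⟨_, ⊤, top_ne_bot, inv_top N, rfl⟩
  obtain ⟨W, h1, h2, h3⟩ := Nat.find_spec hex
  refine ⟨W, h1, h2, fun U hU hU' => ?_⟩
  rw [h3]
  exact Nat.find_min' hex ⟨U, hU, hU', rfl⟩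

/-- the sum of the translates is everything -/
theorem sum_translates {H : Subgroup (Matrix.GeneralLinearGroup ι F)} (hirr : Irr H) {W : Submodule F (ι → F)} (hW : W ≠ ⊥)
    {U : Submodule F (ι → F)} (hU : ∀ h ∈ H, mp h W ≤ U) : U = ⊤ := by
  have h1 : Inv H (⨆ h : H, mp (h : Matrix.GeneralLinearGroup ι F) W) := by
    rw [inv_iff_mp]
    intro g hg
    unfold mp
    rw [Submodule.map_iSup]
    apply iSup_le
    intro h
    refine le_trans ?_ (le_iSup _ ⟨g * h, H.mul_mem hg h.2⟩)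
    change mp g (mp _ W) ≤ mp _ W
    rw [← mp_mul]
  rcases hirr _ h1 with h2 | h2
  · exfalso
    apply hW
    rw [eq_bot_iff, ← h2]
    refine le_trans ?_ (le_iSup _ (1 : H))
    change W ≤ mp 1 W
    rw [mp_one]
  · rw [eq_top_iff, ← h2]
    exact iSup_le fun h => hU h h.2

/-- the dimension of a minimal invariant subspace of a normal subgroup divides the dimension -/
theorem min_dvd {N H : Subgroup (Matrix.GeneralLinearGroup ι F)} (hirr : Irr H) (hN : NI N H) {W : Submodule F (ι → F)} (hW : W ≠ ⊥)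
    (hW1 : Inv N W) (hW2 : ∀ U : Submodule F (ι → F), U ≠ ⊥ → Inv N U → finrank F W ≤ finrank F U) :
    finrank F W ∣ Fintype.card ι := by
  have := dvd_of_family (K := F) (V := ι → F) (finrank F W) (Inv N) (inv_bot N) {X | ∃ h ∈ H, X = mp h W} ?_ ?_ ?_
  · rwa [finrank_fintype_fun_eq_card] at this
  · rintro _ ⟨h, -, rfl⟩
    exact finrank_mp h W
  · rintro U hU _ ⟨h, hh, rfl⟩
    refine ⟨?_, inv_sup hU (inv_mp hN hW1 hh)⟩
    by_cases h0 : U ⊓ mp h W = ⊥
    · exact Or.inr h0
    · left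
      have h1 := hW2 _ h0 (inv_inf hU (inv_mp hN hW1 hh))
      rw [← finrank_mp h W] at h1
      have h2 : U ⊓ mp h W = mp h W := Submodule.eq_of_le_of_finrank_le inf_le_right h1
      rw [← h2]
      exact inf_le_left
  · intro U _ hU
    exact sum_translates hirr hW fun h hh => hU _ ⟨h, hh, rfl⟩

/-- dichotomy in prime dimension -/
theorem cliff_d (hp : (Fintype.card ι).Prime) {N H : Subgroup (Matrix.GeneralLinearGroup ι F)} (hirr : Irr H) (hN : NI N H) :
    Irr N ∨ ∃ w : ι → F, w ≠ 0 ∧ ∃ χ : Matrix.GeneralLinearGroup ι F → F, ∀ x ∈ N, Matrix.mulVec (x : Matrix ι ι F) w = χ x • w := by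
  haveI : Nonempty ι := Fintype.card_pos_iff.1 hp.pos
  obtain ⟨W, h1, h2, h3⟩ := exists_min N
  rcases (Nat.dvd_prime hp).1 (min_dvd hirr hN h1 h2 h3) with h | h
  · right
    obtain ⟨w, hw, hw'⟩ := finrank_eq_one_iff'.1 h
    refine ⟨w, fun h0 => hw (Subtype.ext h0), ?_⟩
    have : ∀ x : Matrix.GeneralLinearGroup ι F, ∃ c : F, x ∈ N → Matrix.mulVec (x : Matrix ι ι F) w = c • (w : ι → F) := by
      intro x
      by_cases hx : x ∈ N
      · obtain ⟨c, hc⟩ := hw' ⟨_, h2 x hx w w.2⟩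
        exact ⟨c, fun _ => by rw [← Submodule.coe_smul, hc]⟩
      · exact ⟨0, fun h => absurd h hx⟩
    choose χ hχ using this
    exact ⟨χ, hχ⟩
  · left
    intro U hU
    by_cases hU0 : U = ⊥
    · exact Or.inl hU0
    · right
      have := h3 U hU0 hU
      apply Submodule.eq_top_of_finrank_eq
      rw [finrank_fintype_fun_eq_card]
      apply le_antisymm
      · have := Submodule.finrank_le U
        rwa [finrank_fintype_fun_eq_card] at this
      · rw [← h]; exact this

end CfsgLib.Asch1
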