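import Cfsg.Agent.Lib.Asch9

set_option autoImplicit false
set_option maxHeartbeats 400000

/-! The geometric subgroups are proper in the special linear group. -/
namespace CfsgLib.Asch10

open Cfsg Cfsg.Geo Module CfsgLib.GeoBase CfsgLib.Asch1 CfsgLib.Asch2 CfsgLib.Asch3 CfsgLib.Asch4 CfsgLib.Asch5 CfsgLib.Asch6 CfsgLib.Asch7 CfsgLib.Asch8 CfsgLib.Asch9
open scoped commutatorElement

universe u v

variable {ι : Type} [Fintype ι] [DecidableEq ι] {F : Type u} [Field F]

theorem max_eq {H M : Subgroup (Matrix.GeneralLinearGroup ι F)} (hH : IsMaximalIn (specialLinear ι F) H) (hM : H ≤ M)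
    (hne : ¬ specialLinear ι F ≤ M) : H = M ⊓ specialLinear ι F := by
  rcases hH.2 (M ⊓ specialLinear ι F) (le_inf hM hH.1.le) inf_le_right with h | h
  · exact h.symm
  · exact absurd (h ▸ inf_le_left) hne

theorem not_stab [Nontrivial ι] {W : Submodule F (ι → F)} (h0 : W ≠ ⊥) (h1 : W ≠ ⊤) : ¬ specialLinear ι F ≤ subspaceStabilizer W := by
  intro h
  exact (stab_maximal W h0 h1).1.ne (inf_eq_right.2 h)

theorem not_decomp {t : ℕ} {D : Fin t → Submodule F (ι → F)} (hD : IsMDecomposition 1 D) : ¬ specialLinear ι F ≤ decompositionStabilizer D := by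
  intro h
  have h2 := hD.two_le
  let i₀ : Fin t := ⟨0, by omega⟩
  let i₁ : Fin t := ⟨1, by omega⟩
  have hne : i₀ ≠ i₁ := by intro h3; have := congrArg Fin.val h3; simp [i₀, i₁] at this
  have hnb : ∀ i, D i ≠ ⊥ := by
    intro i h0
    have := hD.finrank_eq i
    rw [h0, finrank_bot] at this
    omega
  obtain ⟨d₀, hd₀, hd₀'⟩ := Submodule.exists_mem_ne_zero_of_ne_bot (hnb i₀)
  obtain ⟨d₁, hd₁, hd₁'⟩ := Submodule.exists_mem_ne_zero_of_ne_bot (hnb i₁)
  have hdis : ∀ i j, i ≠ j → ∀ x, x ∈ D i → x ∈ D j → x = 0 := by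
    intro i j hij x hx hx'
    exact Submodule.disjoint_def.1 (hD.indep.pairwiseDisjoint hij) x hx hx'
  have hd01 : d₀ ∉ D i₁ := fun h3 => hd₀' (hdis i₀ i₁ hne d₀ hd₀ h3)
  obtain ⟨f, hf, hf'⟩ := exists_dual hd01 1
  have hfd : f d₁ = 0 := hf d₁ hd₁
  obtain ⟨π, hπ⟩ := h (tv_mem_sl f d₁ hfd)
  have h3 : d₀ + d₁ ∈ D (π i₀) := by
    rw [← hπ i₀]
    refine ⟨d₀, hd₀, ?_⟩
    rw [toLin_apply, tv_apply, hf', one_smul]
  by_cases hk0 : π i₀ = i₀
  · rw [hk0] at h3
    have h4 : d₁ ∈ D i₀ := by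
      have := (D i₀).sub_mem h3 hd₀
      rwa [add_sub_cancel_left] at this
    exact hd₁' (hdis i₀ i₁ hne d₁ h4 hd₁)
  · by_cases hk1 : π i₀ = i₁
    · rw [hk1] at h3
      have h4 : d₀ ∈ D i₁ := by
        have := (D i₁).sub_mem h3 hd₁
        rwa [add_sub_cancel_right] at this
      exact hd01 h4
    · have h4 := hD.indep (π i₀)
      have h5 : d₀ + d₁ ∈ ⨆ (j) (_ : j ≠ π i₀), D j := by
        apply Submodule.add_mem
        · exact Submodule.mem_iSup_of_mem i₀ (Submodule.mem_iSup_of_mem (Ne.symm hk0) hd₀)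
        · exact Submodule.mem_iSup_of_mem i₁ (Submodule.mem_iSup_of_mem (Ne.symm hk1) hd₁)
      have h6 := Submodule.disjoint_def.1 h4 _ h3 h5
      have h7 : d₀ = -d₁ := eq_neg_of_add_eq_zero_left h6
      apply hd01
      rw [h7]
      exact (D i₁).neg_mem hd₁

/-- a matrix for which every vector is an eigenvector is scalar -/
theorem scalar_of_eig {M : Matrix ι ι F} (h : ∀ v : ι → F, Matrix.mulVec M v ∈ Submodule.span F {v}) : ∃ c : F, M = c • (1 : Matrix ι ι F) := by
  obtain ⟨c, hc⟩ := (Matrix.toLin' M).exists_eq_smul_id_of_forall_notLinearIndependent (by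
    intro v
    rw [LinearIndependent.pair_iff]
    intro h1
    obtain ⟨c, hc⟩ := Submodule.mem_span_singleton.1 (h v)
    have h2 := h1 c (-1) (by rw [Matrix.toLin'_apply, ← hc, neg_one_smul, add_neg_cancel])
    exact (neg_ne_zero.2 one_ne_zero) h2.2)
  refine ⟨c, ?_⟩
  apply Matrix.toLin'.injective
  rw [hc, map_smul, Matrix.toLin'_one]
  rfl

theorem not_field (h3 : 3 ≤ Fintype.card ι) {r : ℕ} (hr : 1 < r) {K : Subalgebra F (Matrix ι ι F)} (hK : IsFieldSubalgebra r K) :
    ¬ specialLinear ι F ≤ subalgebraNormalizer K := by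
  intro h
  haveI : Nonempty ι := Fintype.card_pos_iff.1 (by omega)
  -- a non-scalar element
  obtain ⟨k, hk, v, hkv⟩ : ∃ k ∈ K, ∃ v : ι → F, Matrix.mulVec k v ∉ Submodule.span F {v} := by
    by_contra hne
    push Not at hne
    have h1 : ∀ x : K, ∃ c : F, c • (1 : K) = x := by
      intro x
      obtain ⟨c, hc⟩ := scalar_of_eig (hne x x.2)
      exact ⟨c, Subtype.ext hc.symm⟩
    have h2 : finrank F K = 1 := (finrank_eq_one_iff_of_nonzero' (1 : K) one_ne_zero).2 h1
    rw [hK.finrank_eq] at h2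
    omega
  obtain ⟨f, hf, hf'⟩ := exists_dual hkv 1
  have hfv : f v = 0 := hf v (Submodule.mem_span_singleton_self v)
  set t := tv f v hfv with ht
  have h1 : (t : Matrix ι ι F) * k * ((t⁻¹ : Matrix.GeneralLinearGroup ι F) : Matrix ι ι F) ∈ K := (h (tv_mem_sl f v hfv) k).1 hk
  have h2 : (t : Matrix ι ι F) * k * ((t⁻¹ : Matrix.GeneralLinearGroup ι F) : Matrix ι ι F) - k ∈ K := K.sub_mem h1 hk
  have key : ∀ x, Matrix.mulVec ((t : Matrix ι ι F) * k * ((t⁻¹ : Matrix.GeneralLinearGroup ι F) : Matrix ι ι F) - k) (Matrix.mulVec (t : Matrix ι ι F) x)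
      = f (Matrix.mulVec k x) • v - f x • Matrix.mulVec k v := by
    intro x
    rw [Matrix.sub_mulVec, ← Matrix.mulVec_mulVec, inv_mulVec, ← Matrix.mulVec_mulVec]
    rw [ht, tv_apply, tv_apply, Matrix.mulVec_add, Matrix.mulVec_smul]
    abel
  have hne : (t : Matrix ι ι F) * k * ((t⁻¹ : Matrix.GeneralLinearGroup ι F) : Matrix ι ι F) - k ≠ 0 := by
    intro h0
    have h4 := key v
    rw [h0, Matrix.zero_mulVec, hf', hfv, zero_smul, sub_zero, one_smul] at h4
    apply hkv
    rw [← h4, Matrix.mulVec_zero]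
    exact Submodule.zero_mem _
  obtain ⟨y, -, hy⟩ := hK.inv _ h2 hne
  -- surjectivity
  have hle : (⊤ : Submodule F (ι → F)) ≤ Submodule.span F {v, Matrix.mulVec k v} := by
    intro x _
    have h4 : x = Matrix.mulVec ((t : Matrix ι ι F) * k * ((t⁻¹ : Matrix.GeneralLinearGroup ι F) : Matrix ι ι F) - k)
        (Matrix.mulVec (t : Matrix ι ι F) (Matrix.mulVec ((t⁻¹ : Matrix.GeneralLinearGroup ι F) : Matrix ι ι F) (Matrix.mulVec y x))) := by
      rw [mulVec_inv, Matrix.mulVec_mulVec, hy, Matrix.one_mulVec]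
    rw [h4, key]
    apply Submodule.sub_mem
    · exact Submodule.smul_mem _ _ (Submodule.subset_span (Set.mem_insert _ _))
    · exact Submodule.smul_mem _ _ (Submodule.subset_span (Set.mem_insert_of_mem _ (Set.mem_singleton _)))
  have h5 := Submodule.finrank_mono hle
  rw [finrank_top, finrank_fintype_fun_eq_card] at h5
  have h6 : finrank F (Submodule.span F {v, Matrix.mulVec k v}) ≤ 2 := by
    classical
    have := finrank_span_finset_le_card (R := F) ({v, Matrix.mulVec k v} : Finset (ι → F))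
    rw [Finset.coe_insert, Finset.coe_singleton] at this
    exact this.trans Finset.card_le_two
  omega

theorem not_subfield [Nontrivial ι] {F₀ : Subfield F} (hF : F₀ ≠ ⊤) (P : Matrix.GeneralLinearGroup ι F) : ¬ specialLinear ι F ≤ subfieldSubgroup F₀ P := by
  intro h
  obtain ⟨a, ha⟩ : ∃ a : F, a ∉ F₀ := by
    by_contra hne
    push Not at hne
    exact hF (eq_top_iff.2 fun x _ => hne x)
  obtain ⟨i, j, hij⟩ := exists_pair_ne ι
  have hf : (a • (LinearMap.proj j : (ι → F) →ₗ[F] F)) (Pi.single i 1) = 0 := by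
    rw [LinearMap.smul_apply, LinearMap.proj_apply, Pi.single_eq_of_ne (Ne.symm hij), smul_zero]
  set t := tv (a • (LinearMap.proj j : (ι → F) →ₗ[F] F)) (Pi.single i 1) hf with ht
  have ht' : P * t * P⁻¹ ∈ specialLinear ι F := by
    have := tv_mem_sl (a • (LinearMap.proj j : (ι → F) →ₗ[F] F)) (Pi.single i 1) hf
    exact (inferInstance : (MonoidHom.ker (Matrix.GeneralLinearGroup.det : Matrix.GeneralLinearGroup ι F →* Fˣ)).Normal).conj_mem _ this P
  obtain ⟨y, hy, hyt⟩ := h ht'
  have hyt' : y = t := by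
    have h1 : P * y * P⁻¹ = P * t * P⁻¹ := hyt
    exact mul_left_cancel (mul_right_cancel h1)
  rw [hyt', SetLike.mem_coe, ← SetLike.mem_coe, Subgroup.mul_normal] at hy
  obtain ⟨g, ⟨g₀, rfl⟩, z, hz, hgz⟩ := hy
  obtain ⟨c, rfl⟩ := exists_sc hz
  have hent : ∀ k l, (t : Matrix ι ι F) k l = (g₀ : Matrix ι ι F₀) k l * (c : F) := by
    intro k l
    have h1 := congrArg (fun s : Matrix.GeneralLinearGroup ι F => (s : Matrix ι ι F) k l) hgz
    simp only at h1
    rw [Units.val_mul, sc_val, Matrix.mul_smul, mul_one] at h1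
    rw [← h1, Matrix.smul_apply, smul_eq_mul, mul_comm]
    rfl
  have htii : (t : Matrix ι ι F) i i = 1 := by
    have h1 := congrFun (tv_apply _ _ hf (Pi.single i 1)) i
    rw [hf, zero_smul, add_zero, Matrix.mulVec_single_one, Pi.single_eq_same] at h1
    exact h1
  have htij : (t : Matrix ι ι F) i j = a := by
    have h1 := congrFun (tv_apply _ _ hf (Pi.single j 1)) i
    rw [Matrix.mulVec_single_one, LinearMap.smul_apply, LinearMap.proj_apply, Pi.single_eq_same, Pi.add_apply, Pi.smul_apply, Pi.single_eq_same,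
      Pi.single_eq_of_ne hij, zero_add] at h1
    simp at h1
    exact h1
  have h1 := hent i i
  rw [htii] at h1
  have hc : (c : F) ∈ F₀ := by
    have h2 : (c : F) = (((g₀ : Matrix ι ι F₀) i i : F₀) : F)⁻¹ := by
      rw [eq_comm, inv_eq_iff_eq_inv]
      exact eq_inv_of_mul_eq_one_left h1.symm
    rw [h2]
    exact F₀.inv_mem (SetLike.coe_mem _)
  apply ha
  rw [← htij, hent i j]
  exact F₀.mul_mem (SetLike.coe_mem _) hc

/-- special linear groups do not preserve forms up to scalars -/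
theorem not_similarity (h3 : 3 ≤ Fintype.card ι) {σ : F ≃+* F} {f : (ι → F) → (ι → F) → F} (hf : SF σ f) (hnd : IsNondegenerateForm f) :
    ¬ specialLinear ι F ≤ similarityGroup f := by
  intro h
  haveI : Nonempty ι := Fintype.card_pos_iff.1 (by omega)
  obtain ⟨u, hu⟩ := exists_ne (0 : ι → F)
  let L : (ι → F) →ₗ[F] F :=
    { toFun := fun x => f x u
      map_add' := fun x y => hf.add_left x y u
      map_smul' := fun c x => hf.smul_left c x u }
  obtain ⟨⟨w, hw⟩, -⟩ := hnd u hu
  have hker : 2 ≤ finrank F (LinearMap.ker L) := by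
    have h1 := LinearMap.finrank_range_add_finrank_ker L
    have h2 : finrank F (LinearMap.range L) ≤ 1 := by
      have := Submodule.finrank_le (LinearMap.range L)
      rwa [finrank_self] at this
    rw [finrank_fintype_fun_eq_card] at h1
    omega
  obtain ⟨v, hv, hv'⟩ : ∃ v ∈ LinearMap.ker L, v ∉ Submodule.span F {u, w} := by
    by_contra hne
    push Not at hne
    have h1 : LinearMap.ker L < Submodule.span F {u, w} := by
      refine lt_of_le_of_ne hne fun h2 => hw ?_
      have : w ∈ LinearMap.ker L := by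
        rw [h2]
        exact Submodule.subset_span (Set.mem_insert_of_mem _ (Set.mem_singleton _))
      exact this
    have h2 := Submodule.finrank_lt_finrank_of_lt h1
    have h6 : finrank F (Submodule.span F {u, w}) ≤ 2 := by
      classical
      have := finrank_span_finset_le_card (R := F) ({u, w} : Finset (ι → F))
      rw [Finset.coe_insert, Finset.coe_singleton] at this
      exact this.trans Finset.card_le_two
    omega
  obtain ⟨φ, hφ, hφ'⟩ := exists_dual hv' 1
  have hφw : φ w = 0 := hφ w (Submodule.subset_span (Set.mem_insert_of_mem _ (Set.mem_singleton _)))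
  have hφu : φ u = 0 := hφ u (Submodule.subset_span (Set.mem_insert _ _))
  obtain ⟨c, hc⟩ := h (tv_mem_sl φ w hφw)
  have h1 := hc v u
  rw [tv_apply, tv_apply, hφ', hφu, zero_smul, add_zero, one_smul, hf.add_left] at h1
  have h2 : f v u = 0 := hv
  rw [h2, zero_add, mul_zero] at h1
  exact hw h1

theorem not_quad (h3 : 3 ≤ Fintype.card ι) {Q : (ι → F) → F} (hQ : IsNondegenerateQuadraticForm Q) :
    ¬ specialLinear ι F ≤ quadSimilarityGroup Q := by
  intro h
  apply not_similarity h3 (sf_bilin hQ.polar_bilinear) hQ.nondegenerate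
  intro g hg
  obtain ⟨c, hc⟩ := h hg
  refine ⟨c, fun u v => ?_⟩
  unfold QuadraticMap.polar
  rw [← Matrix.mulVec_add, hc, hc, hc]
  ring

/-- special linear groups do not normalise non-scalar `r`-groups of exponent `r` -/
theorem not_rgroup [Finite F] (h3 : 3 ≤ Fintype.card ι) {R : Subgroup (Matrix.GeneralLinearGroup ι F)} {r p : ℕ} (hr : r.Prime) (hp : p.Prime) [CharP F p] (hrp : r ≠ p)
    (hexp : ∀ x ∈ R, x ^ r = 1) (hns : ¬ R ≤ scalars ι F) : ¬ specialLinear ι F ≤ subgroupNormalizer R := by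
  intro h
  haveI : Nonempty ι := Fintype.card_pos_iff.1 (by omega)
  haveI := Fact.mk hp
  obtain ⟨x, hx, hxs⟩ := Set.not_subset.1 hns
  obtain ⟨u, hu⟩ : ∃ u : ι → F, Matrix.mulVec (x : Matrix ι ι F) u ∉ Submodule.span F {u} := by
    by_contra hne
    push Not at hne
    obtain ⟨c, hc⟩ := scalar_of_eig hne
    apply hxs
    have h0 : c ≠ 0 := by
      rintro rfl
      rw [zero_smul] at hc
      exact x.ne_zero hc
    exact (mem_scalars_iff x).2 ⟨Units.mk0 c h0, hc⟩
  set xu := Matrix.mulVec (x : Matrix ι ι F) u with hxu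
  -- a functional vanishing on both
  obtain ⟨y, hy⟩ : ∃ y : ι → F, y ∉ Submodule.span F {u, xu} := by
    by_contra hne
    push Not at hne
    have h1 := Submodule.finrank_mono (show (⊤ : Submodule F (ι → F)) ≤ Submodule.span F {u, xu} from fun z _ => hne z)
    rw [finrank_top, finrank_fintype_fun_eq_card] at h1
    have h6 : finrank F (Submodule.span F {u, xu}) ≤ 2 := by
      classical
      have := finrank_span_finset_le_card (R := F) ({u, xu} : Finset (ι → F))
      rw [Finset.coe_insert, Finset.coe_singleton] at this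
      exact this.trans Finset.card_le_two
    omega
  obtain ⟨f, hf, hf'⟩ := exists_dual hy 1
  have hfu : f u = 0 := hf u (Submodule.subset_span (Set.mem_insert _ _))
  have hfx : f xu = 0 := hf xu (Submodule.subset_span (Set.mem_insert_of_mem _ (Set.mem_singleton _)))
  set t := tv f u hfu with ht
  have htn : t ∈ subgroupNormalizer R := h (tv_mem_sl f u hfu)
  set g := t * x * t⁻¹ * x⁻¹ with hg
  have hgR : g ∈ R := R.mul_mem ((Subgroup.mem_normalizer_iff.1 htn x).1 hx) (R.inv_mem hx)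
  have hgr := hexp g hgR
  have htinv : ∀ z, Matrix.mulVec ((t⁻¹ : Matrix.GeneralLinearGroup ι F) : Matrix ι ι F) z = z - f z • u := by
    intro z
    apply mulVec_injective t
    rw [mulVec_inv, ht, tv_apply, map_sub, map_smul, hfu, smul_zero, sub_zero, sub_add_cancel]
  have hgz : ∀ z, Matrix.mulVec (g : Matrix ι ι F) z = z + (f z • u - f (Matrix.mulVec ((x⁻¹ : Matrix.GeneralLinearGroup ι F) : Matrix ι ι F) z) • xu) := by
    intro z
    rw [hg, mulVec_mul, mulVec_mul, mulVec_mul, htinv, sub_eq_add_neg, mulVec_add', mulVec_inv, ← neg_smul, mulVec_smul', ← hxu, ht, tv_apply,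
      map_add, map_smul, hfx, smul_zero, add_zero, neg_smul]
    abel
  -- unipotent
  set A : Matrix ι ι F := (g : Matrix ι ι F) - 1 with hA
  have hAz : ∀ z, Matrix.mulVec A z = f z • u - f (Matrix.mulVec ((x⁻¹ : Matrix.GeneralLinearGroup ι F) : Matrix ι ι F) z) • xu := by
    intro z
    rw [hA, Matrix.sub_mulVec, hgz, Matrix.one_mulVec, add_sub_cancel_left]
  have hAxu : Matrix.mulVec A xu = 0 := by
    rw [hAz, hfx, hxu, inv_mulVec, hfu, zero_smul, zero_smul, sub_zero]
  have hAu : Matrix.mulVec A u = - (f (Matrix.mulVec ((x⁻¹ : Matrix.GeneralLinearGroup ι F) : Matrix ι ι F) u)) • xu := by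
    rw [hAz, hfu, zero_smul, zero_sub, neg_smul]
  have hA3 : A ^ 3 = 0 := by
    apply Matrix.toLin'.injective
    apply LinearMap.ext
    intro z
    rw [map_zero, LinearMap.zero_apply, Matrix.toLin'_apply, pow_succ, pow_two, ← Matrix.mulVec_mulVec, ← Matrix.mulVec_mulVec, hAz z,
      Matrix.mulVec_sub, Matrix.mulVec_smul, Matrix.mulVec_smul, hAxu, smul_zero, sub_zero, Matrix.mulVec_smul, hAu, Matrix.mulVec_smul, hAxu, smul_zero, smul_zero]
  have hgp : (g : Matrix ι ι F) ^ (p ^ 2) = 1 := by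
    haveI : CharP (Matrix ι ι F) p := inferInstance
    have h1 : A ^ (p ^ 2) = (g : Matrix ι ι F) ^ (p ^ 2) - 1 ^ (p ^ 2) := by
      rw [hA]
      exact sub_pow_char_pow_of_commute p 2 (Commute.one_right _)
    have h2 : A ^ (p ^ 2) = 0 := by
      have : 3 ≤ p ^ 2 := by nlinarith [hp.two_le]
      obtain ⟨k, hk⟩ := Nat.exists_eq_add_of_le this
      rw [hk, pow_add, hA3, zero_mul]
    rw [h2, one_pow] at h1
    exact (sub_eq_zero.1 h1.symm)
  have hgp' : g ^ (p ^ 2) = 1 := Units.ext (by rw [Units.val_pow_eq_pow_val, hgp, Units.val_one])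
  have hg1 : g = 1 := by
    have h1 := Nat.dvd_gcd (orderOf_dvd_of_pow_eq_one hgr) (orderOf_dvd_of_pow_eq_one hgp')
    have h2 : Nat.gcd r (p ^ 2) = 1 := Nat.Coprime.pow_right 2 ((Nat.coprime_primes hr hp).2 hrp)
    rw [h2, Nat.dvd_one] at h1
    exact orderOf_eq_one_iff.1 h1
  have h4 := hgz y
  rw [hg1, mulVec_one, hf', one_smul] at h4
  have h5 : u = f (Matrix.mulVec ((x⁻¹ : Matrix.GeneralLinearGroup ι F) : Matrix ι ι F) y) • xu := by
    have h6 : u - f (Matrix.mulVec ((x⁻¹ : Matrix.GeneralLinearGroup ι F) : Matrix ι ι F) y) • xu = 0 := by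
      have := h4.symm
      rwa [add_eq_left] at this
    exact sub_eq_zero.1 h6
  set c := f (Matrix.mulVec ((x⁻¹ : Matrix.GeneralLinearGroup ι F) : Matrix ι ι F) y) with hc
  have hc0 : c ≠ 0 := by
    intro h0
    rw [h0, zero_smul] at h5
    apply hu
    rw [hxu, h5, Matrix.mulVec_zero]
    exact Submodule.zero_mem _
  apply hu
  rw [Submodule.mem_span_singleton]
  exact ⟨c⁻¹, by nth_rewrite 1 [h5]; rw [smul_smul, inv_mul_cancel₀ hc0, one_smul]⟩

end CfsgLib.Asch10
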