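import Cfsg.Agent.Lib.Asch10

set_option autoImplicit false
set_option maxHeartbeats 400000

/-! Small fields, and the field conditions in the extraspecial case. -/
namespace CfsgLib.Asch11

open Cfsg Cfsg.Geo Module CfsgLib.GeoBase CfsgLib.Asch1 CfsgLib.Asch2 CfsgLib.Asch3 CfsgLib.Asch4 CfsgLib.Asch5 CfsgLib.Asch6 CfsgLib.Asch7 CfsgLib.Asch8 CfsgLib.Asch9 CfsgLib.Asch10
open CfsgLib.Mob16 CfsgLib.Mob35

universe u v

variable {ι : Type} [Fintype ι] [DecidableEq ι] {F : Type u} [Field F]

/-- standard sesquilinear form in a basis -/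
def uf (Q : Matrix.GeneralLinearGroup ι F) (σ : F ≃+* F) (x y : ι → F) : F :=
  ∑ i, Matrix.mulVec ((Q⁻¹ : Matrix.GeneralLinearGroup ι F) : Matrix ι ι F) x i * σ (Matrix.mulVec ((Q⁻¹ : Matrix.GeneralLinearGroup ι F) : Matrix ι ι F) y i)

theorem uf_nd (Q : Matrix.GeneralLinearGroup ι F) (σ : F ≃+* F) : IsNondegenerateForm (uf Q σ) := by
  intro v hv
  have hqv : Matrix.mulVec ((Q⁻¹ : Matrix.GeneralLinearGroup ι F) : Matrix ι ι F) v ≠ 0 := by
    intro h0
    apply hv
    rw [← mulVec_inv Q v, h0, Matrix.mulVec_zero]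
  obtain ⟨i, hi⟩ := Function.ne_iff.1 hqv
  rw [Pi.zero_apply] at hi
  constructor
  · refine ⟨Matrix.mulVec (Q : Matrix ι ι F) (Pi.single i 1), ?_⟩
    unfold uf
    rw [inv_mulVec, Finset.sum_eq_single i]
    · rw [Pi.single_eq_same, one_mul]
      exact (map_ne_zero σ).2 hi
    · intro j _ hj
      rw [Pi.single_eq_of_ne hj, zero_mul]
    · intro h1; exact absurd (Finset.mem_univ _) h1
  · refine ⟨Matrix.mulVec (Q : Matrix ι ι F) (Pi.single i 1), ?_⟩
    unfold uf
    rw [inv_mulVec, Finset.sum_eq_single i]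
    · rw [Pi.single_eq_same, map_one, mul_one]
      exact hi
    · intro j _ hj
      rw [Pi.single_eq_of_ne hj, map_zero, mul_zero]
    · intro h1; exact absurd (Finset.mem_univ _) h1

theorem uf_sf (Q : Matrix.GeneralLinearGroup ι F) (σ : F ≃+* F) : SF σ (uf Q σ) := by
  refine ⟨fun x y v => ?_, fun c x v => ?_, fun v x y => ?_, fun c v x => ?_⟩
  · unfold uf
    rw [mulVec_add', ← Finset.sum_add_distrib]
    exact Finset.sum_congr rfl fun i _ => by rw [Pi.add_apply, add_mul]
  · unfold uf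
    rw [mulVec_smul', Finset.mul_sum]
    exact Finset.sum_congr rfl fun i _ => by rw [Pi.smul_apply, smul_eq_mul, mul_assoc]
  · unfold uf
    rw [mulVec_add', ← Finset.sum_add_distrib]
    exact Finset.sum_congr rfl fun i _ => by rw [Pi.add_apply, map_add, mul_add]
  · unfold uf
    rw [mulVec_smul', Finset.mul_sum]
    exact Finset.sum_congr rfl fun i _ => by rw [Pi.smul_apply, smul_eq_mul, map_mul]; ring

theorem uf_unitary (Q : Matrix.GeneralLinearGroup ι F) (σ : F ≃+* F) (hσ : σ ≠ RingEquiv.refl F) (hσ2 : ∀ x, σ (σ x) = x) : IsUnitaryForm σ (uf Q σ) := by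
  refine ⟨hσ, hσ2, (uf_sf Q σ).add_left, (uf_sf Q σ).smul_left, fun v w => ?_, uf_nd Q σ⟩
  unfold uf
  rw [map_sum]
  exact Finset.sum_congr rfl fun i _ => by rw [map_mul, hσ2, mul_comm]

/-- standard quadratic form in a basis -/
def qf (Q : Matrix.GeneralLinearGroup ι F) (x : ι → F) : F :=
  ∑ i, Matrix.mulVec ((Q⁻¹ : Matrix.GeneralLinearGroup ι F) : Matrix ι ι F) x i ^ 2

theorem qf_polar (Q : Matrix.GeneralLinearGroup ι F) (x y : ι → F) : QuadraticMap.polar (qf Q) x y = 2 * uf Q (RingEquiv.refl F) x y := by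
  unfold QuadraticMap.polar qf uf
  rw [mulVec_add', ← Finset.sum_sub_distrib, ← Finset.sum_sub_distrib, Finset.mul_sum]
  apply Finset.sum_congr rfl
  intro i _
  rw [Pi.add_apply, RingEquiv.refl_apply]
  ring

theorem qf_nd (h2 : (2 : F) ≠ 0) (Q : Matrix.GeneralLinearGroup ι F) : IsNondegenerateQuadraticForm (qf Q) := by
  refine ⟨fun c v => ?_, ⟨fun x y v => ?_, fun c x v => ?_, fun v x y => ?_, fun c v x => ?_⟩, fun v hv => ?_⟩
  · unfold qf
    rw [mulVec_smul', Finset.mul_sum]
    exact Finset.sum_congr rfl fun i _ => by rw [Pi.smul_apply, smul_eq_mul, mul_pow]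
  · rw [qf_polar, qf_polar, qf_polar, (uf_sf Q _).add_left]; ring
  · rw [qf_polar, qf_polar, (uf_sf Q _).smul_left]; ring
  · rw [qf_polar, qf_polar, qf_polar, (uf_sf Q _).add_right]; ring
  · rw [qf_polar, qf_polar, (uf_sf Q _).smul_right]
    change 2 * (c * _) = _
    ring
  · obtain ⟨⟨x, hx⟩, ⟨y, hy⟩⟩ := uf_nd Q (RingEquiv.refl F) v hv
    exact ⟨⟨x, by rw [qf_polar]; exact mul_ne_zero h2 hx⟩, ⟨y, by rw [qf_polar]; exact mul_ne_zero h2 hy⟩⟩

/-- monomial structure of the stabiliser of a decomposition into lines -/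
theorem monomial {t : ℕ} (ht : t = Fintype.card ι) {D : Fin t → Submodule F (ι → F)} (hD : IsMDecomposition 1 D) :
    ∃ Q : Matrix.GeneralLinearGroup ι F, ∀ h ∈ decompositionStabilizer D, ∃ (π : Equiv.Perm ι) (c : ι → F), (∀ i, c i ≠ 0) ∧
      ∀ w : ι → F, Matrix.mulVec (h : Matrix ι ι F) (Matrix.mulVec (Q : Matrix ι ι F) w) = Matrix.mulVec (Q : Matrix ι ι F) (fun i => c i * w (π i)) := by
  have hnb : ∀ i, D i ≠ ⊥ := by
    intro i h0
    have := hD.finrank_eq i
    rw [h0, finrank_bot] at this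
    omega
  choose d hd hd0 using fun i => Submodule.exists_mem_ne_zero_of_ne_bot (hnb i)
  let e : ι ≃ Fin t := Fintype.equivOfCardEq (by rw [Fintype.card_fin, ht])
  have hli : LinearIndependent F fun i : ι => d (e i) :=
    (hD.indep.comp e.injective).linearIndependent _ (fun i => hd (e i)) (fun i => hd0 (e i))
  let Qm : Matrix ι ι F := Matrix.of fun i j => d (e j) i
  obtain ⟨Q, hQ⟩ := Matrix.linearIndependent_cols_iff_isUnit.1 (show LinearIndependent F Qm.col from hli)
  have hQe : ∀ j, Matrix.mulVec (Q : Matrix ι ι F) (Pi.single j 1) = d (e j) := by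
    intro j
    rw [hQ, Matrix.mulVec_single_one]
    rfl
  refine ⟨Q, fun h hh => ?_⟩
  obtain ⟨σ, hσ⟩ := hh
  have hspan : ∀ i, ∀ x ∈ D i, ∃ c : F, x = c • d i := by
    intro i x hx
    obtain ⟨c, hc⟩ := (finrank_eq_one_iff_of_nonzero' (⟨d i, hd i⟩ : D i) (fun h0 => hd0 i (congrArg Subtype.val h0))).1 (hD.finrank_eq i) ⟨x, hx⟩
    exact ⟨c, (congrArg Subtype.val hc).symm⟩
  have h1 : ∀ i, ∃ c : F, Matrix.mulVec (h : Matrix ι ι F) (d i) = c • d (σ i) := by
    intro i
    apply hspan
    rw [← hσ i]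
    exact ⟨d i, hd i, rfl⟩
  choose c hc using h1
  have hc0 : ∀ i, c i ≠ 0 := by
    intro i h0
    have h2 := hc i
    rw [h0, zero_smul, ← Matrix.mulVec_zero (h : Matrix ι ι F)] at h2
    exact hd0 i (mulVec_injective _ h2)
  -- permutation of ι
  let π : Equiv.Perm ι := (e.trans σ.symm).trans e.symm
  refine ⟨π, fun i => c (e (π i)), fun i => hc0 _, fun w => ?_⟩
  have : (Matrix.toLin' (h : Matrix ι ι F)).comp (Matrix.toLin' (Q : Matrix ι ι F)) =
      (Matrix.toLin' (Q : Matrix ι ι F)).comp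
        ((Matrix.toLin' (Matrix.diagonal fun i => c (e (π i)))).comp (LinearMap.funLeft F F π)) := by
    apply (Pi.basisFun F ι).ext
    intro j
    rw [Pi.basisFun_apply, LinearMap.comp_apply, LinearMap.comp_apply, LinearMap.comp_apply, toLin_apply, toLin_apply, hQe, hc]
    have h3 : Matrix.toLin' (Matrix.diagonal fun i => c (e (π i))) (LinearMap.funLeft F F π (Pi.single j 1)) = c (e j) • (Pi.single (e.symm (σ (e j))) 1 : ι → F) := by
      rw [Matrix.toLin'_apply]
      funext i
      rw [Matrix.mulVec_diagonal, LinearMap.funLeft_apply, Pi.smul_apply, Pi.single_apply, Pi.single_apply, smul_eq_mul]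
      have h4 : π i = j ↔ i = e.symm (σ (e j)) := by
        change e.symm (σ.symm (e i)) = j ↔ _
        constructor
        · rintro rfl; simp
        · rintro rfl; simp
      by_cases h5 : π i = j
      · rw [if_pos h5, if_pos (h4.1 h5), h5]
      · rw [if_neg h5, if_neg (fun h6 => h5 (h4.2 h6)), mul_zero, mul_zero]
    rw [h3, map_smul, toLin_apply, hQe, Equiv.apply_symm_apply]
  have h6 := LinearMap.congr_fun this w
  rw [LinearMap.comp_apply, LinearMap.comp_apply, LinearMap.comp_apply, toLin_apply, toLin_apply, toLin_apply, Matrix.toLin'_apply] at h6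
  rw [h6]
  congr 1
  funext i
  rw [Matrix.mulVec_diagonal]
  rfl

/-- decompositions over small fields: the group is reducible or preserves a form -/
theorem small_q [Fintype F] (hn : 1 < Fintype.card ι) {t : ℕ} (ht : t = Fintype.card ι) {D : Fin t → Submodule F (ι → F)} (hD : IsMDecomposition 1 D)
    (hq : Fintype.card F < 5) {H : Subgroup (Matrix.GeneralLinearGroup ι F)} (hirr : Irr H) (hH : H ≤ decompositionStabilizer D) :
    (Odd (Fintype.card F) ∧ ∃ Q : (ι → F) → F, IsNondegenerateQuadraticForm Q ∧ H ≤ quadSimilarityGroup Q) ∨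
    (∃ (σ : F ≃+* F) (f : (ι → F) → (ι → F) → F), IsUnitaryForm σ f ∧ H ≤ similarityGroup f) := by
  obtain ⟨Q, hQ⟩ := monomial ht hD
  haveI : Nonempty ι := Fintype.card_pos_iff.1 (by omega)
  have hq2 : 1 < Fintype.card F := Fintype.one_lt_card
  have hcp : ∀ c : F, c ≠ 0 → c ^ (Fintype.card F - 1) = 1 := fun c hc => FiniteField.pow_card_sub_one_eq_one c hc
  have hq' : Fintype.card F = 2 ∨ Fintype.card F = 3 ∨ Fintype.card F = 4 := by omega
  rcases hq' with h | h | h
  · exfalso
    -- the sum of the basis vectors is fixed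
    have hone : ∀ c : F, c ≠ 0 → c = 1 := by
      intro c hc
      have := hcp c hc
      rwa [h, pow_one] at this
    set s := Matrix.mulVec (Q : Matrix ι ι F) (fun _ => 1) with hs
    have hinv : Inv H (Submodule.span F {s}) := by
      intro g hg v hv
      obtain ⟨a, rfl⟩ := Submodule.mem_span_singleton.1 hv
      obtain ⟨π, c, hc, hw⟩ := hQ g (hH hg)
      rw [mulVec_smul', hs, hw]
      have : (fun i => c i * (1 : F)) = fun _ => 1 := by
        funext i
        rw [hone _ (hc i), mul_one]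
      rw [this]
      exact Submodule.smul_mem _ _ (Submodule.mem_span_singleton_self _)
    have hs0 : s ≠ 0 := by
      intro h0
      rw [hs, ← Matrix.mulVec_zero (Q : Matrix ι ι F)] at h0
      have := mulVec_injective _ h0
      obtain ⟨i⟩ := (inferInstance : Nonempty ι)
      exact one_ne_zero (congrFun this i)
    have h2 := finrank_span_singleton (K := F) hs0
    rcases hirr _ hinv with h3 | h3
    · rw [h3, finrank_bot] at h2
      omega
    · rw [h3, finrank_top, finrank_fintype_fun_eq_card] at h2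
      omega
  · left
    have hodd : Odd (Fintype.card F) := by rw [h]; decide
    have h2 : (2 : F) ≠ 0 := by
      apply Ring.two_ne_zero
      intro h0
      have := FiniteField.even_card_iff_char_two.1 h0
      rw [h] at this
      omega
    refine ⟨hodd, qf Q, qf_nd h2 Q, fun g hg => ⟨1, fun v => ?_⟩⟩
    obtain ⟨π, c, hc, hw⟩ := hQ g (hH hg)
    have h1 := hw (Matrix.mulVec ((Q⁻¹ : Matrix.GeneralLinearGroup ι F) : Matrix ι ι F) v)
    rw [mulVec_inv] at h1
    unfold qf
    rw [h1, inv_mulVec, Units.val_one, one_mul]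
    rw [← Equiv.sum_comp π (fun i => Matrix.mulVec ((Q⁻¹ : Matrix.GeneralLinearGroup ι F) : Matrix ι ι F) v i ^ 2)]
    apply Finset.sum_congr rfl
    intro i _
    have h4 := hcp (c i) (hc i)
    rw [h] at h4
    rw [mul_pow, h4, one_mul]
  · right
    haveI : Fact (Nat.Prime 2) := ⟨Nat.prime_two⟩
    have hchar : CharP F 2 := by
      apply charP_of_card_eq_prime_pow (p := 2) (f := 2)
      rw [h]
      norm_num
    let σ : F ≃+* F := frobeniusEquiv F 2
    have hσ : ∀ x, σ x = x ^ 2 := fun x => frobeniusEquiv_apply F 2 x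
    have hσ2 : ∀ x, σ (σ x) = x := by
      intro x
      rw [hσ, hσ, ← pow_mul]
      have := FiniteField.pow_card x
      rwa [h] at this
    have hσ1 : σ ≠ RingEquiv.refl F := by
      intro h0
      have h1 : ∀ x : F, x ^ 2 = x := by
        intro x
        rw [← hσ, h0]; rfl
      have h2 : Fintype.card F ≤ 2 := by
        classical
        have h3 : (Finset.univ : Finset F) ⊆ {0, 1} := by
          intro x _
          have : x * (x - 1) = 0 := by linear_combination h1 x
          rcases mul_eq_zero.1 this with h4 | h4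
          · rw [h4]; exact Finset.mem_insert_self _ _
          · rw [sub_eq_zero.1 h4]; exact Finset.mem_insert_of_mem (Finset.mem_singleton_self _)
        exact (Finset.card_le_card h3).trans Finset.card_le_two
      omega
    refine ⟨σ, uf Q σ, uf_unitary Q σ hσ1 hσ2, fun g hg => ⟨1, fun u v => ?_⟩⟩
    obtain ⟨π, c, hc, hw⟩ := hQ g (hH hg)
    have h1 := hw (Matrix.mulVec ((Q⁻¹ : Matrix.GeneralLinearGroup ι F) : Matrix ι ι F) v)
    have h1' := hw (Matrix.mulVec ((Q⁻¹ : Matrix.GeneralLinearGroup ι F) : Matrix ι ι F) u)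
    rw [mulVec_inv] at h1 h1'
    unfold uf
    rw [h1, h1', inv_mulVec, inv_mulVec, Units.val_one, one_mul]
    rw [← Equiv.sum_comp π (fun i => Matrix.mulVec ((Q⁻¹ : Matrix.GeneralLinearGroup ι F) : Matrix ι ι F) u i * σ (Matrix.mulVec ((Q⁻¹ : Matrix.GeneralLinearGroup ι F) : Matrix ι ι F) v i))]
    apply Finset.sum_congr rfl
    intro i _
    have h4 := hcp (c i) (hc i)
    rw [h] at h4
    rw [map_mul, hσ (c i)]
    linear_combination (Matrix.mulVec ((Q⁻¹ : Matrix.GeneralLinearGroup ι F) : Matrix ι ι F) u (π i) * σ (Matrix.mulVec ((Q⁻¹ : Matrix.GeneralLinearGroup ι F) : Matrix ι ι F) v (π i))) * h4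

/-- field conditions for extraspecial groups -/
theorem xs_final [Fintype F] {N H : Subgroup (Matrix.GeneralLinearGroup ι F)} {a b : Matrix.GeneralLinearGroup ι F} {ζ : Fˣ} (hp : (Fintype.card ι).Prime)
    (hodd : Odd (Fintype.card ι)) (h : XS N a b ζ) (hNI : NI N H) (hall : ∀ M, NI M H → ¬ M ≤ scalars ι F → ActsAbsolutelyIrreducibly (matrixSet M))
    (hns : ¬ N ≤ scalars ι F) :
    (∃ F₀ : Subfield F, F₀ ≠ ⊤ ∧ RealisableOver F₀ (matrixSet N)) ∨
    (∃ (σ : F ≃+* F) (f : (ι → F) → (ι → F) → F), IsUnitaryForm σ f ∧ FixesForm (matrixSet N) f) ∨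
    (∃ p e : ℕ, p.Prime ∧ CharP F p ∧ Fintype.card F = p ^ e ∧ Odd e ∧ orderOf (p : ZMod (Fintype.card ι)) = e ∧ Fintype.card ι ≠ p ∧
      IsLinearSymplecticTypeData (Fintype.card ι) N) := by
  haveI : Nonempty ι := Fintype.card_pos_iff.1 hp.pos
  haveI := Fact.mk hp
  obtain ⟨p, hcp⟩ := CharP.exists F
  obtain ⟨⟨n, hn⟩, hpp, hcard⟩ := FiniteField.card F p
  change Fintype.card F = p ^ n at hcard
  haveI := Fact.mk hpp
  set r := Fintype.card ι with hr
  have hprim := xs_prim hp h
  have hr3 : 3 ≤ r := by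
    have := hp.two_le
    rcases hodd with ⟨k, hk⟩
    omega
  -- divisibility criterion
  have hdiv : ∀ m : ℕ, r ∣ p ^ m - 1 ↔ (p : ZMod r) ^ m = 1 := by
    intro m
    have h1 : 1 ≤ p ^ m := Nat.one_le_pow _ _ hpp.pos
    rw [← ZMod.natCast_eq_zero_iff, Nat.cast_sub h1, Nat.cast_pow, Nat.cast_one, sub_eq_zero]
  have hrn : r ∣ p ^ n - 1 := by
    classical
    have h1 : orderOf ζ = r := by
      rw [← orderOf_units]
      exact hprim.eq_orderOf.symm
    rw [← h1, ← hcard, ← Fintype.card_units]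
    exact orderOf_dvd_card
  have hrp : r ≠ p := by
    intro h0
    rw [h0] at hrn
    have h1 : p ∣ p ^ n := dvd_pow_self p hn.ne'
    have h2 : p ∣ 1 := by
      have h3 : 1 ≤ p ^ n := Nat.one_le_pow _ _ hpp.pos
      have := Nat.dvd_sub h1 hrn
      rwa [Nat.sub_sub_self h3] at this
    exact hpp.one_lt.ne' (Nat.dvd_one.1 h2)
  set d := orderOf (p : ZMod r) with hd
  have hdn : d ∣ n := orderOf_dvd_of_pow_eq_one ((hdiv n).1 hrn)
  have hd0 : 0 < d := Nat.pos_of_dvd_of_pos hdn hn
  by_cases hdn' : d = n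
  · rcases Nat.even_or_odd n with hev | hon
    · right; left
      obtain ⟨m, hm⟩ := hev
      have hm0 : 0 < m := by omega
      -- the involutory automorphism
      let σ : F ≃+* F := iterateFrobeniusEquiv F p m
      have hσ : ∀ x, σ x = x ^ p ^ m := fun x => iterateFrobeniusEquiv_def F p m x
      have hσ2 : ∀ x, σ (σ x) = x := by
        intro x
        rw [hσ, hσ, ← pow_mul, ← pow_add, ← hm, ← hcard, FiniteField.pow_card]
      have hpm : (p : ZMod r) ^ m = -1 := by
        have h1 : ((p : ZMod r) ^ m - 1) * ((p : ZMod r) ^ m + 1) = 0 := by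
          have h2 := (hdiv n).1 hrn
          rw [hm, pow_add] at h2
          linear_combination h2
        rcases mul_eq_zero.1 h1 with h2 | h2
        · exfalso
          have h3 := orderOf_dvd_of_pow_eq_one (sub_eq_zero.1 h2)
          have h4 := Nat.le_of_dvd hm0 h3
          omega
        · exact eq_neg_of_add_eq_zero_left h2
      have hζ : (ζ : F) * σ ζ = 1 := by
        rw [hσ, ← pow_succ', hprim.pow_eq_one_iff_dvd, ← ZMod.natCast_eq_zero_iff]
        push_cast
        rw [hpm]
        ring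
      have hσ1 : σ ≠ RingEquiv.refl F := by
        intro h0
        rw [h0] at hζ
        have h1 : (ζ : F) ^ 2 = 1 := by rw [pow_two]; exact hζ
        have h2 := Nat.le_of_dvd two_pos ((hprim.pow_eq_one_iff_dvd 2).1 h1)
        omega
      obtain ⟨f, hf1, hf2⟩ := xs_unitary hp h σ hσ1 hσ2 hζ
      exact ⟨σ, f, hf1, hf2⟩
    · right; right
      refine ⟨p, n, hpp, hcp, hcard, hon, hdn', hrp, ⟨xs_symplectic hp h hodd hNI hall, hall N hNI hns, p, n, hrp, ?_, Or.inl ⟨hodd, hon, xs_center hp h, 1, le_rfl, ?_⟩⟩⟩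
      · rw [xs_center hp h]
        refine ⟨hpp, hcp, hcard, hrn, fun d' h1 h2 h3 => ?_⟩
        have h4 := Nat.le_of_dvd h1 (orderOf_dvd_of_pow_eq_one ((hdiv d').1 h3))
        omega
      · rw [xs_card hp h]
  · left
    obtain ⟨s, hs⟩ := hdn
    have hs1 : s ≠ 1 := by
      rintro rfl
      rw [mul_one] at hs
      exact hdn' hs.symm
    have h1 := GaloisField.card p d hd0.ne'
    haveI : Finite (GaloisField p d) := inferInstance
    obtain ⟨k', ⟨e⟩⟩ := exists_subfield (k := GaloisField p d) (F := F) (m := s) (by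
      rw [h1, Nat.card_eq_fintype_card, hcard, ← pow_mul, ← hs])
    have h2 : Nat.card k' = p ^ d := by rw [← Nat.card_congr e.toEquiv, h1]
    refine ⟨k', ?_, ?_⟩
    · intro h3
      rw [h3] at h2
      have h4 : Nat.card (⊤ : Subfield F) = Nat.card F := Nat.card_congr Subfield.topEquiv.toEquiv
      rw [h4, Nat.card_eq_fintype_card, hcard] at h2
      exact hdn' (Nat.pow_right_injective hpp.two_le h2).symm
    · apply xs_realisable hp h
      rw [mem_iff_pow, h2]
      have h3 : r ∣ p ^ d - 1 := (hdiv d).2 (pow_orderOf_eq_one _)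
      have h4 : 1 ≤ p ^ d := Nat.one_le_pow _ _ hpp.pos
      have h5 : (ζ : F) ^ (p ^ d - 1) = 1 := (hprim.pow_eq_one_iff_dvd _).2 h3
      calc (ζ : F) ^ p ^ d = (ζ : F) ^ (p ^ d - 1 + 1) := by rw [Nat.sub_add_cancel h4]
        _ = ζ := by rw [pow_succ, h5, one_mul]

end CfsgLib.Asch11
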