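import Cfsg.Agent.Lib.Asch11

set_option autoImplicit false
set_option maxHeartbeats 400000

/-! Maximal subgroups of special linear groups in odd prime dimension. -/
namespace CfsgLib.Asch12

open Cfsg Cfsg.Geo Module CfsgLib.GeoBase CfsgLib.Asch1 CfsgLib.Asch2 CfsgLib.Asch3 CfsgLib.Asch4 CfsgLib.Asch5 CfsgLib.Asch6 CfsgLib.Asch7 CfsgLib.Asch8 CfsgLib.Asch9 CfsgLib.Asch10 CfsgLib.Asch11
open CfsgLib.Mob16 CfsgLib.Mob24 CfsgLib.Mob35

universe u v

variable {ι : Type} [Fintype ι] [DecidableEq ι] {F : Type u} [Field F]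

theorem realisable_mono {F₀ F₁ : Subfield F} (h : F₀ ≤ F₁) {S : Set (Matrix ι ι F)} (hr : RealisableOver F₀ S) : RealisableOver F₁ S := by
  obtain ⟨B, hB⟩ := hr
  exact ⟨B, fun s hs i j => h (hB s hs i j)⟩

/-- a proper subfield lies in one of prime index -/
theorem exists_prime_index [Fintype F] {F₀ : Subfield F} (h : F₀ ≠ ⊤) :
    ∃ (F₁ : Subfield F) (s : ℕ), F₀ ≤ F₁ ∧ F₁ ≠ ⊤ ∧ s.Prime ∧ Fintype.card F = Nat.card F₁ ^ s := by
  obtain ⟨m, hm⟩ : ∃ m, Fintype.card F = Nat.card F₀ ^ m := by
    haveI : Fintype F₀ := Fintype.ofFinite F₀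
    have := Module.card_eq_pow_finrank (K := F₀) (V := F)
    rw [← Nat.card_eq_fintype_card (α := F₀)] at this
    exact ⟨_, this⟩
  have h1 : 1 < Nat.card F₀ := Finite.one_lt_card
  have hm1 : m ≠ 1 := by
    rintro rfl
    apply h
    rw [pow_one, ← Nat.card_eq_fintype_card] at hm
    rw [← SetLike.coe_set_eq, Subfield.coe_top]
    apply Set.eq_of_subset_of_ncard_le (Set.subset_univ _)
    rw [Set.ncard_univ, hm]
    exact le_rfl
  have hm0 : m ≠ 0 := by
    rintro rfl
    rw [pow_zero] at hm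
    have := Fintype.one_lt_card (α := F)
    omega
  have hsp := Nat.minFac_prime hm1
  obtain ⟨t, ht⟩ := Nat.minFac_dvd m
  have ht0 : t ≠ 0 := by
    rintro rfl
    rw [mul_zero] at ht
    exact hm0 ht
  obtain ⟨k', hk1, hk2, hk3⟩ := exists_between (k := F₀) (r := m.minFac) (s := t) ht0 (by
    rw [mul_comm, ← ht, ← hm, Nat.card_eq_fintype_card])
  refine ⟨k', m.minFac, hk1, ?_, hsp, by rw [hk3, Nat.card_eq_fintype_card]⟩
  rintro rfl
  have h4 : Nat.card (⊤ : Subfield F) = Nat.card F := Nat.card_congr Subfield.topEquiv.toEquiv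
  rw [h4] at hk3
  have h5 : 1 < Nat.card F := Finite.one_lt_card
  have h6 : Nat.card F ^ 1 < Nat.card F ^ m.minFac := Nat.pow_lt_pow_right h5 hsp.one_lt
  rw [pow_one] at h6
  omega

theorem subfield_case [Fintype F] [Nontrivial ι] {P H : Subgroup (Matrix.GeneralLinearGroup ι F)} (hH : IsMaximalIn (specialLinear ι F) H)
    (hNI : NI P H) (habs : ActsAbsolutelyIrreducibly (matrixSet P)) {F₀ : Subfield F} (hF : F₀ ≠ ⊤) (hr : RealisableOver F₀ (matrixSet P)) :
    ∃ (F₀ : Subfield F) (r : ℕ) (P : Matrix.GeneralLinearGroup ι F), r.Prime ∧ Fintype.card F = Nat.card F₀ ^ r ∧ H = subfieldSubgroup F₀ P ⊓ specialLinear ι F := by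
  obtain ⟨F₁, s, h1, h2, h3, h4⟩ := exists_prime_index hF
  obtain ⟨Q, hQ⟩ := le_subfield hNI habs (realisable_mono h1 hr)
  exact ⟨F₁, s, Q, h3, h4, max_eq hH hQ (not_subfield h2 Q)⟩

theorem odd_two_ne [Fintype F] (h : Odd (Fintype.card F)) : (2 : F) ≠ 0 := by
  apply Ring.two_ne_zero
  intro h0
  have := FiniteField.even_card_iff_char_two.1 h0
  rw [← Nat.even_iff] at this
  exact Nat.not_even_iff_odd.2 h this

theorem lin_cases [Fintype F] (hp : (Fintype.card ι).Prime) (hodd : Odd (Fintype.card ι)) {H : Subgroup (Matrix.GeneralLinearGroup ι F)}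
    (hH : IsMaximalIn (specialLinear ι F) H) :
    (∃ W : Submodule F (ι → F), W ≠ ⊥ ∧ W ≠ ⊤ ∧ H = subspaceStabilizer W ⊓ specialLinear ι F) ∨
    (5 ≤ Fintype.card F ∧ ∃ D : Fin (Fintype.card ι) → Submodule F (ι → F), IsMDecomposition 1 D ∧ H = decompositionStabilizer D ⊓ specialLinear ι F) ∨
    (∃ K : Subalgebra F (Matrix ι ι F), IsFieldSubalgebra (Fintype.card ι) K ∧ H = subalgebraNormalizer K ⊓ specialLinear ι F) ∨
    (∃ (F₀ : Subfield F) (r : ℕ) (P : Matrix.GeneralLinearGroup ι F), r.Prime ∧ Fintype.card F = Nat.card F₀ ^ r ∧ H = subfieldSubgroup F₀ P ⊓ specialLinear ι F) ∨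
    ((∃ p e : ℕ, p.Prime ∧ CharP F p ∧ Fintype.card F = p ^ e ∧ Odd e ∧ orderOf (p : ZMod (Fintype.card ι)) = e ∧ Fintype.card ι ≠ p) ∧
      ∃ R : Subgroup (Matrix.GeneralLinearGroup ι F), IsLinearSymplecticTypeData (Fintype.card ι) R ∧ H = subgroupNormalizer R ⊓ specialLinear ι F) ∨
    (Odd (Fintype.card F) ∧ ∃ Q : (ι → F) → F, IsNondegenerateQuadraticForm Q ∧ H = quadSimilarityGroup Q ⊓ specialLinear ι F) ∨
    (∃ (σ : F ≃+* F) (f : (ι → F) → (ι → F) → F), IsUnitaryForm σ f ∧ H = similarityGroup f ⊓ specialLinear ι F) ∨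
    InLinearResidualClass H := by
  haveI : Nonempty ι := Fintype.card_pos_iff.1 hp.pos
  haveI : Nontrivial ι := Fintype.one_lt_card_iff_nontrivial.1 hp.one_lt
  have h3 : 3 ≤ Fintype.card ι := by
    have := hp.two_le
    rcases hodd with ⟨k, hk⟩
    omega
  -- reducible case
  by_cases hirr : Irr H
  swap
  · left
    unfold Irr at hirr
    push Not at hirr
    obtain ⟨W, hW, hW0, hW1⟩ := hirr
    exact ⟨W, hW0, hW1, max_eq hH (fun g hg => mem_stab_iff.2 (hW g hg)) (not_stab hW0 hW1)⟩
  rcases struct hp hirr with ⟨D, hD, hHD⟩ | ⟨K, hK, hHK⟩ | ⟨hall, N, hNI, hns, hmin⟩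
  · by_cases hq : Fintype.card F < 5
    · rcases small_q hp.one_lt rfl hD hq hirr hHD with ⟨ho, Q, hQ, hHQ⟩ | ⟨σ, f, hf, hHf⟩
      · right; right; right; right; right; left
        exact ⟨ho, Q, hQ, max_eq hH hHQ (not_quad h3 hQ)⟩
      · right; right; right; right; right; right; left
        exact ⟨σ, f, hf, max_eq hH hHf (not_similarity h3 (sf_unitary hf) hf.nondegenerate)⟩
    · right; left
      exact ⟨not_lt.1 hq, D, hD, max_eq hH hHD (not_decomp hD)⟩
  · right; right; left
    exact ⟨K, hK, max_eq hH hHK (not_field h3 hp.one_lt hK)⟩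
  · have habs := hall N hNI hns
    by_cases hcomm : ⁅N, N⁆ ≤ scalars ι F
    · obtain ⟨a, b, ζ, hx⟩ := exists_XS hp hodd hNI hns hmin habs hcomm
      rcases xs_final hp hodd hx hNI hall hns with ⟨F₀, hF, hr⟩ | ⟨σ, f, hf, hfix⟩ | ⟨p, e, h1, h2, h4, h5, h6, h7, h8⟩
      · right; right; right; left
        exact subfield_case hH hNI habs hF hr
      · right; right; right; right; right; right; left
        exact ⟨σ, f, hf, max_eq hH (le_similarity hNI habs (sf_unitary hf) hf.nondegenerate hfix) (not_similarity h3 (sf_unitary hf) hf.nondegenerate)⟩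
      · right; right; right; right; left
        refine ⟨⟨p, e, h1, h2, h4, h5, h6, h7⟩, N, h8, ?_⟩
        apply max_eq hH
        · intro g hg
          change g ∈ Subgroup.normalizer _
          rw [Subgroup.mem_normalizer_iff]
          intro x
          constructor
          · exact hNI.2 g hg x
          · intro hx'
            have := hNI.2 g⁻¹ (H.inv_mem hg) _ hx'
            have e1 : g⁻¹ * (g * x * g⁻¹) * g⁻¹⁻¹ = x := by group
            rwa [e1] at this
        · haveI := h2
          exact not_rgroup h3 hp h1 h7 hx.exp hns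
    · have hperf : ⁅N, N⁆ = N := hmin _ (ni_comm hNI) (comm_le_self N) hcomm
      have hpc := preCore_of hp hNI hns hmin habs hperf
      by_cases hsub : ∃ F₀ : Subfield F, F₀ ≠ ⊤ ∧ RealisableOver F₀ (matrixSet N)
      · obtain ⟨F₀, hF, hr⟩ := hsub
        right; right; right; left
        exact subfield_case hH hNI habs hF hr
      · by_cases hu : ∃ (σ : F ≃+* F) (f : (ι → F) → (ι → F) → F), IsUnitaryForm σ f ∧ FixesForm (matrixSet N) f
        · obtain ⟨σ, f, hf, hfix⟩ := hu
          right; right; right; right; right; right; left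
          exact ⟨σ, f, hf, max_eq hH (le_similarity hNI habs (sf_unitary hf) hf.nondegenerate hfix) (not_similarity h3 (sf_unitary hf) hf.nondegenerate)⟩
        · have hs : ¬ ∃ f : (ι → F) → (ι → F) → F, IsSymplecticForm f ∧ FixesForm (matrixSet N) f := by
            rintro ⟨f, hf, -⟩
            exact no_symplectic hodd hf
          by_cases hq : ∃ Q : (ι → F) → F, IsNondegenerateQuadraticForm Q ∧ FixesQuadForm (matrixSet N) Q
          · obtain ⟨Q, hQ, hfix⟩ := hq
            -- characteristic is odd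
            have h2 : (2 : F) ≠ 0 := by
              intro h2
              apply no_symplectic hodd (f := QuadraticMap.polar Q)
              have hneg : ∀ x : F, -x = x := by
                intro x
                linear_combination (-x) * h2
              refine ⟨hQ.polar_bilinear, fun v w => ?_, fun v => ?_, hQ.nondegenerate⟩
              · rw [hneg, QuadraticMap.polar_comm]
              · unfold QuadraticMap.polar
                rw [← two_smul F v, hQ.smul, h2]
                linear_combination (-(Q v)) * h2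
            have ho : Odd (Fintype.card F) := by
              rw [← Nat.not_even_iff_odd]
              intro hev
              apply h2
              have h4 := FiniteField.even_card_iff_char_two.2 (Nat.even_iff.1 hev)
              have h5 := ringChar.spec F 2
              rw [h4] at h5
              have := (ringChar.spec F 2).2 (by rw [h4])
              exact_mod_cast this
            right; right; right; right; right; left
            exact ⟨ho, Q, hQ, max_eq hH (le_quadSimilarity hNI habs h2 hQ hfix) (not_quad h3 hQ)⟩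
          · right; right; right; right; right; right; right
            exact ⟨N, hpc.core (fun F₀ hF hr => hsub ⟨F₀, hF, hr⟩), hq, hs, hu⟩

theorem lin_cases' [Fintype F] {n : ℕ} (hn : Fintype.card ι = n) (hp : n.Prime) (hodd : Odd n) {H : Subgroup (Matrix.GeneralLinearGroup ι F)}
    (hH : IsMaximalIn (specialLinear ι F) H) :
    (∃ W : Submodule F (ι → F), W ≠ ⊥ ∧ W ≠ ⊤ ∧ H = subspaceStabilizer W ⊓ specialLinear ι F) ∨
    (5 ≤ Fintype.card F ∧ ∃ D : Fin n → Submodule F (ι → F), IsMDecomposition 1 D ∧ H = decompositionStabilizer D ⊓ specialLinear ι F) ∨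
    (∃ K : Subalgebra F (Matrix ι ι F), IsFieldSubalgebra n K ∧ H = subalgebraNormalizer K ⊓ specialLinear ι F) ∨
    (∃ (F₀ : Subfield F) (r : ℕ) (P : Matrix.GeneralLinearGroup ι F), r.Prime ∧ Fintype.card F = Nat.card F₀ ^ r ∧ H = subfieldSubgroup F₀ P ⊓ specialLinear ι F) ∨
    ((∃ p e : ℕ, p.Prime ∧ CharP F p ∧ Fintype.card F = p ^ e ∧ Odd e ∧ orderOf (p : ZMod n) = e ∧ n ≠ p) ∧
      ∃ R : Subgroup (Matrix.GeneralLinearGroup ι F), IsLinearSymplecticTypeData n R ∧ H = subgroupNormalizer R ⊓ specialLinear ι F) ∨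
    (Odd (Fintype.card F) ∧ ∃ Q : (ι → F) → F, IsNondegenerateQuadraticForm Q ∧ H = quadSimilarityGroup Q ⊓ specialLinear ι F) ∨
    (∃ (σ : F ≃+* F) (f : (ι → F) → (ι → F) → F), IsUnitaryForm σ f ∧ H = similarityGroup f ⊓ specialLinear ι F) ∨
    InLinearResidualClass H := by
  subst hn
  exact lin_cases hp hodd hH

theorem cast_ne_zero {n p : ℕ} (hn : n.Prime) (hp : p.Prime) (hne : n ≠ p) : (p : ZMod n) ≠ 0 := by
  intro h
  rw [ZMod.natCast_eq_zero_iff] at h
  exact hne ((Nat.prime_dvd_prime_iff_eq hn hp).1 h)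

theorem arith_mod {n p r : ℕ} (h : (p : ZMod n) = (r : ZMod n)) (hr : r < n) : p % n = r := by
  have := (ZMod.natCast_eq_natCast_iff' p r n).1 h
  rwa [Nat.mod_eq_of_lt hr] at this

theorem arith3 {p e : ℕ} (hp : p.Prime) (hne : 3 ≠ p) (he : Odd e) (ho : orderOf (p : ZMod 3) = e) : e = 1 ∧ p % 3 = 1 := by
  have h0 := cast_ne_zero Nat.prime_three hp hne
  have key : ∀ x : ZMod 3, x ≠ 0 → x ^ 2 = 1 := by decide
  have h1 := orderOf_dvd_of_pow_eq_one (key _ h0)
  rw [ho] at h1
  have he1 : e = 1 := by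
    have h2 := Nat.le_of_dvd (by norm_num) h1
    interval_cases e
    · exact absurd he (by decide)
    · rfl
    · exact absurd he (by decide)
  refine ⟨he1, ?_⟩
  rw [he1, orderOf_eq_one_iff] at ho
  exact arith_mod (by rw [ho, Nat.cast_one]) (by norm_num)

theorem arith5 {p e : ℕ} (hp : p.Prime) (hne : 5 ≠ p) (he : Odd e) (ho : orderOf (p : ZMod 5) = e) : e = 1 ∧ p % 5 = 1 := by
  have h0 := cast_ne_zero Nat.prime_five hp hne
  have key : ∀ x : ZMod 5, x ≠ 0 → x ^ 4 = 1 := by decide
  have h1 := orderOf_dvd_of_pow_eq_one (key _ h0)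
  rw [ho] at h1
  have he1 : e = 1 := by
    have h2 := Nat.le_of_dvd (by norm_num) h1
    interval_cases e
    · exact absurd he (by decide)
    · rfl
    · exact absurd he (by decide)
    · exact absurd h1 (by decide)
    · exact absurd he (by decide)
  refine ⟨he1, ?_⟩
  rw [he1, orderOf_eq_one_iff] at ho
  exact arith_mod (by rw [ho, Nat.cast_one]) (by norm_num)

theorem arith7 {p e : ℕ} (hp : p.Prime) (hne : 7 ≠ p) (he : Odd e) (ho : orderOf (p : ZMod 7) = e) :
    (e = 1 ∧ p % 7 = 1) ∨ (e = 3 ∧ (p % 7 = 2 ∨ p % 7 = 4)) := by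
  have h0 := cast_ne_zero (by norm_num) hp hne
  have key : ∀ x : ZMod 7, x ≠ 0 → x ^ 6 = 1 := by decide
  have h1 := orderOf_dvd_of_pow_eq_one (key _ h0)
  rw [ho] at h1
  have he1 : e = 1 ∨ e = 3 := by
    have h2 := Nat.le_of_dvd (by norm_num) h1
    interval_cases e
    · exact absurd he (by decide)
    · exact Or.inl rfl
    · exact absurd he (by decide)
    · exact Or.inr rfl
    · exact absurd he (by decide)
    · exact absurd h1 (by decide)
    · exact absurd he (by decide)
  rcases he1 with he1 | he1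
  · left
    refine ⟨he1, ?_⟩
    rw [he1, orderOf_eq_one_iff] at ho
    exact arith_mod (by rw [ho, Nat.cast_one]) (by norm_num)
  · right
    refine ⟨he1, ?_⟩
    have h3 := pow_orderOf_eq_one (p : ZMod 7)
    rw [ho, he1] at h3
    have h4 : (p : ZMod 7) ≠ 1 := by
      intro h5
      rw [← orderOf_eq_one_iff, ho] at h5
      omega
    have key2 : ∀ x : ZMod 7, x ^ 3 = 1 → x ≠ 1 → x = 2 ∨ x = 4 := by decide
    rcases key2 _ h3 h4 with h5 | h5
    · left; exact arith_mod (by rw [h5]; rfl) (by norm_num)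
    · right; exact arith_mod (by rw [h5]; rfl) (by norm_num)

theorem arith11 {p e : ℕ} (hp : p.Prime) (hne : 11 ≠ p) (he : Odd e) (ho : orderOf (p : ZMod 11) = e) :
    (e = 1 ∧ p % 11 = 1) ∨ (e = 5 ∧ (p % 11 = 3 ∨ p % 11 = 4 ∨ p % 11 = 5 ∨ p % 11 = 9)) := by
  have h0 := cast_ne_zero (by norm_num) hp hne
  have key : ∀ x : ZMod 11, x ≠ 0 → x ^ 10 = 1 := by decide
  have h1 := orderOf_dvd_of_pow_eq_one (key _ h0)
  rw [ho] at h1
  have he1 : e = 1 ∨ e = 5 := by
    have h2 := Nat.le_of_dvd (by norm_num) h1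
    interval_cases e
    · exact absurd he (by decide)
    · exact Or.inl rfl
    · exact absurd he (by decide)
    · exact absurd h1 (by decide)
    · exact absurd he (by decide)
    · exact Or.inr rfl
    · exact absurd he (by decide)
    · exact absurd h1 (by decide)
    · exact absurd he (by decide)
    · exact absurd h1 (by decide)
    · exact absurd he (by decide)
  rcases he1 with he1 | he1
  · left
    refine ⟨he1, ?_⟩
    rw [he1, orderOf_eq_one_iff] at ho
    exact arith_mod (by rw [ho, Nat.cast_one]) (by norm_num)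
  · right
    refine ⟨he1, ?_⟩
    have h3 := pow_orderOf_eq_one (p : ZMod 11)
    rw [ho, he1] at h3
    have h4 : (p : ZMod 11) ≠ 1 := by
      intro h5
      rw [← orderOf_eq_one_iff, ho] at h5
      omega
    have key2 : ∀ x : ZMod 11, x ^ 5 = 1 → x ≠ 1 → x = 3 ∨ x = 4 ∨ x = 5 ∨ x = 9 := by decide
    rcases key2 _ h3 h4 with h5 | h5 | h5 | h5
    · left; exact arith_mod (by rw [h5]; rfl) (by norm_num)
    · right; left; exact arith_mod (by rw [h5]; rfl) (by norm_num)
    · right; right; left; exact arith_mod (by rw [h5]; rfl) (by norm_num)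
    · right; right; right; exact arith_mod (by rw [h5]; rfl) (by norm_num)

end CfsgLib.Asch12
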