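import Cfsg.Agent.Lib.Asch12

set_option autoImplicit false
set_option maxHeartbeats 400000

/-! The normaliser of a cubic field over the field of four elements. -/
namespace CfsgLib.Asch13

open Cfsg Cfsg.Geo Module CfsgLib.GeoBase CfsgLib.Asch1 CfsgLib.Asch2 CfsgLib.Asch3 CfsgLib.Asch4 CfsgLib.Asch5 CfsgLib.Asch6 CfsgLib.Asch7 CfsgLib.Asch8 CfsgLib.Asch9 CfsgLib.Asch10 CfsgLib.Asch11
open CfsgLib.Mob16 CfsgLib.Mob24 CfsgLib.Mob35

universe u v

variable {F : Type u} [Field F]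

/-- the unit group of a field subalgebra, inside the general linear group -/
def KU (K : Subalgebra F (Matrix (Fin 3) (Fin 3) F)) {r : ℕ} (hK : IsFieldSubalgebra r K) : Subgroup (Matrix.GeneralLinearGroup (Fin 3) F) where
  carrier := {g | (g : Matrix (Fin 3) (Fin 3) F) ∈ K}
  mul_mem' := fun {a b} ha hb => by
    change ((a * b : Matrix.GeneralLinearGroup (Fin 3) F) : Matrix (Fin 3) (Fin 3) F) ∈ K
    rw [Units.val_mul]
    exact K.mul_mem ha hb
  one_mem' := K.one_mem
  inv_mem' := fun {a} ha => by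
    change ((a⁻¹ : Matrix.GeneralLinearGroup (Fin 3) F) : Matrix (Fin 3) (Fin 3) F) ∈ K
    obtain ⟨y, hy, h1⟩ := hK.inv _ ha a.ne_zero
    have h2 : y = ((a⁻¹ : Matrix.GeneralLinearGroup (Fin 3) F) : Matrix (Fin 3) (Fin 3) F) := by
      calc y = (((a⁻¹ : Matrix.GeneralLinearGroup (Fin 3) F) : Matrix (Fin 3) (Fin 3) F) * a) * y := by
            rw [← Units.val_mul, inv_mul_cancel, Units.val_one, one_mul]
        _ = _ := by rw [mul_assoc, h1, mul_one]
    rw [← h2]
    exact hy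

theorem KU_comm {K : Subalgebra F (Matrix (Fin 3) (Fin 3) F)} {r : ℕ} (hK : IsFieldSubalgebra r K) {a b : Matrix.GeneralLinearGroup (Fin 3) F}
    (ha : a ∈ KU K hK) (hb : b ∈ KU K hK) : a * b = b * a := Units.ext (hK.comm _ ha _ hb)

theorem KU_card [Fintype F] {K : Subalgebra F (Matrix (Fin 3) (Fin 3) F)} {r : ℕ} (hK : IsFieldSubalgebra r K) :
    Nat.card (KU K hK) = Fintype.card F ^ r - 1 := by
  classical
  haveI : Finite K := Subtype.finite
  haveI : Fintype K := Fintype.ofFinite K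
  have h1 : Nat.card K = Fintype.card F ^ r := by
    have := Module.card_eq_pow_finrank (K := F) (V := K)
    rw [hK.finrank_eq] at this
    rw [Nat.card_eq_fintype_card, this]
  have h2 : Nat.card (KU K hK) = Nat.card {x : K // x ≠ 0} := by
    apply Nat.card_congr
    refine ⟨fun g => ⟨⟨(g : Matrix.GeneralLinearGroup (Fin 3) F), g.2⟩, fun h => (g : Matrix.GeneralLinearGroup (Fin 3) F).ne_zero (congrArg Subtype.val h)⟩,
      fun x => ⟨⟨x.1.1, Classical.choose (hK.inv x.1.1 x.1.2 fun h => x.2 (Subtype.ext h)), ?_, ?_⟩, x.1.2⟩, fun g => ?_, fun x => ?_⟩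
    · exact (Classical.choose_spec (hK.inv x.1.1 x.1.2 fun h => x.2 (Subtype.ext h))).2
    · have h3 := Classical.choose_spec (hK.inv x.1.1 x.1.2 fun h => x.2 (Subtype.ext h))
      rw [hK.comm _ h3.1 _ x.1.2]
      exact h3.2
    · apply Subtype.ext
      apply Units.ext
      rfl
    · rfl
  rw [h2, ← h1]
  have h3 : Nat.card {x : K // x ≠ 0} = Nat.card K - 1 := by
    rw [Nat.card_eq_fintype_card, Nat.card_eq_fintype_card, Fintype.card_subtype_compl, Fintype.card_subtype_eq]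
  exact h3

/-- the determinant is not trivial on the unit group -/
theorem KU_det [Fintype F] (hq : Fintype.card F = 4) {K : Subalgebra F (Matrix (Fin 3) (Fin 3) F)} (hK : IsFieldSubalgebra 3 K) :
    ¬ KU K hK ≤ specialLinear (Fin 3) F := by
  classical
  intro hle
  -- an element outside F
  obtain ⟨k, hk, hks⟩ : ∃ k ∈ K, ¬ ∃ c : F, k = c • (1 : Matrix (Fin 3) (Fin 3) F) := by
    by_contra hne
    push Not at hne
    have h1 : ∀ x : K, ∃ c : F, c • (1 : K) = x := by
      intro x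
      obtain ⟨c, hc⟩ := hne x x.2
      exact ⟨c, Subtype.ext hc.symm⟩
    have h2 : finrank F K = 1 := (finrank_eq_one_iff_of_nonzero' (1 : K) one_ne_zero).2 h1
    rw [hK.finrank_eq] at h2
    omega
  have h1 : ∀ x : F, (k.charpoly - Polynomial.C 1).eval x = 0 := by
    intro x
    rw [Polynomial.eval_sub, Polynomial.eval_C, Matrix.eval_charpoly, sub_eq_zero]
    have hmem : Matrix.scalar (Fin 3) x - k ∈ K := by
      apply K.sub_mem _ hk
      have : Matrix.scalar (Fin 3) x = x • (1 : Matrix (Fin 3) (Fin 3) F) := by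
        simp [Matrix.smul_one_eq_diagonal]
      rw [this]
      exact K.smul_mem K.one_mem x
    have hne : Matrix.scalar (Fin 3) x - k ≠ 0 := by
      intro h0
      apply hks
      refine ⟨x, ?_⟩
      rw [← sub_eq_zero.1 h0]
      simp [Matrix.smul_one_eq_diagonal]
    obtain ⟨y, hy, h2⟩ := hK.inv _ hmem hne
    have h3 := hle (show (⟨Matrix.scalar (Fin 3) x - k, y, h2, by rw [hK.comm _ hy _ hmem, h2]⟩ : Matrix.GeneralLinearGroup (Fin 3) F) ∈ KU K hK from hmem)
    rw [mem_sl] at h3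
    exact h3
  have hdeg : (k.charpoly - Polynomial.C 1).natDegree = 3 := by
    rw [Polynomial.natDegree_sub_C, Matrix.charpoly_natDegree_eq_dim, Fintype.card_fin]
  have hne : (k.charpoly - Polynomial.C 1) ≠ 0 := by
    intro h0
    rw [h0, Polynomial.natDegree_zero] at hdeg
    omega
  have h2 := Polynomial.card_roots' (k.charpoly - Polynomial.C 1)
  have h3 : Fintype.card F ≤ (k.charpoly - Polynomial.C 1).roots.card := by
    have h4 : (Finset.univ : Finset F) ⊆ (k.charpoly - Polynomial.C 1).roots.toFinset := by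
      intro x _
      rw [Multiset.mem_toFinset, Polynomial.mem_roots hne]
      exact h1 x
    exact (Finset.card_le_card h4).trans (Multiset.toFinset_card_le _)
  rw [hq] at h3
  omega

/-- the cubic field normaliser over four elements is contained in a subfield group -/
theorem four_case [Fintype F] (hq : Fintype.card F = 4) {K : Subalgebra F (Matrix (Fin 3) (Fin 3) F)} (hK : IsFieldSubalgebra 3 K)
    {H : Subgroup (Matrix.GeneralLinearGroup (Fin 3) F)} (hHS : H ≤ specialLinear (Fin 3) F) (hHK : H ≤ subalgebraNormalizer K) :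
    ∃ (F₀ : Subfield F) (P : Matrix.GeneralLinearGroup (Fin 3) F), Nat.card F₀ = 2 ∧ H ≤ subfieldSubgroup F₀ P := by
  classical
  haveI : Fact (Nat.Prime 2) := ⟨Nat.prime_two⟩
  haveI : Fact (Nat.Prime 7) := ⟨by norm_num⟩
  have hchar : CharP F 2 := by
    apply charP_of_card_eq_prime_pow (p := 2) (f := 2)
    rw [hq]
    norm_num
  have h2F : (2 : F) = 0 := by exact_mod_cast CharP.cast_eq_zero F 2
  -- the prime field
  obtain ⟨F₀, ⟨e₀⟩⟩ := exists_subfield (k := ZMod 2) (F := F) (m := 2) (by rw [Nat.card_eq_fintype_card, ZMod.card, Nat.card_eq_fintype_card, hq]; rfl)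
  have hF₀ : Nat.card F₀ = 2 := by rw [← Nat.card_congr e₀.toEquiv, Nat.card_eq_fintype_card, ZMod.card]
  -- unit group
  have hcard : Nat.card (KU K hK) = 63 := by rw [KU_card, hq]; rfl
  obtain ⟨s', hs'⟩ := exists_prime_orderOf_dvd_card' (G := KU K hK) 7 (by rw [hcard]; norm_num)
  obtain ⟨s, hsK⟩ := s'
  have hs7 : orderOf s = 7 := by rw [← hs']; exact (Subgroup.orderOf_mk _ _).symm
  -- elements of order 7
  have hE : ∀ t ∈ KU K hK, t ^ 7 = 1 → ∃ j : ℕ, t = s ^ j := by
    intro t ht ht7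
    by_cases ht1 : t = 1
    · exact ⟨0, by rw [ht1, pow_zero]⟩
    have hn : ∀ X : Subgroup (KU K hK), X.Normal := fun X => ⟨fun a ha g => by
      have : g * a * g⁻¹ = a := by
        rw [show g * a = a * g from Subtype.ext (KU_comm hK g.2 a.2), mul_inv_cancel_right]
      rw [this]; exact ha⟩
    have hsyl : ∀ X : Subgroup (KU K hK), Nat.card X = 7 → ∃ P : Sylow 7 (KU K hK), X = P := by
      intro X hX
      obtain ⟨P, hP⟩ := (IsPGroup.of_card (p := 7) (n := 1) (by rw [hX, pow_one]) : IsPGroup 7 X).exists_le_sylow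
      refine ⟨P, Subgroup.eq_of_le_of_card_ge hP ?_⟩
      obtain ⟨k, hk⟩ := IsPGroup.iff_card.1 P.2
      have h1 := Subgroup.card_subgroup_dvd_card (P : Subgroup (KU K hK))
      rw [hcard] at h1
      change Nat.card (P : Subgroup (KU K hK)) = 7 ^ k at hk
      rw [hk] at h1
      have hk1 : k ≤ 1 := by
        by_contra hk1
        have h2 : 7 ^ 2 ∣ 63 := (pow_dvd_pow 7 (by omega : 2 ≤ k)).trans h1
        norm_num at h2
      change Nat.card (P : Subgroup (KU K hK)) ≤ _
      rw [hk, hX]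
      calc 7 ^ k ≤ 7 ^ 1 := Nat.pow_le_pow_right (by norm_num) hk1
        _ = 7 := pow_one _
    obtain ⟨P, hP⟩ := hsyl (Subgroup.zpowers ⟨s, hsK⟩) (by rw [Nat.card_zpowers, hs'])
    obtain ⟨P', hP'⟩ := hsyl (Subgroup.zpowers ⟨t, ht⟩) (by
      rw [Nat.card_zpowers]
      apply orderOf_eq_prime
      · exact Subtype.ext ht7
      · exact fun h => ht1 (congrArg Subtype.val h))
    have hPP : P' = P := by
      haveI := Sylow.unique_of_normal P (hn _)
      exact Subsingleton.elim _ _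
    have h4 : (⟨t, ht⟩ : KU K hK) ∈ Subgroup.zpowers (⟨s, hsK⟩ : KU K hK) := by
      rw [hP, ← hPP, ← hP']
      exact Subgroup.mem_zpowers _
    obtain ⟨j, hj⟩ := (Subgroup.mem_zpowers_iff.1 h4)
    have h5 : s ^ j = t := congrArg Subtype.val hj
    have h6 : t ∈ Subgroup.zpowers s := ⟨j, h5⟩
    rw [← mem_powers_iff_mem_zpowers] at h6
    obtain ⟨m, hm⟩ := h6
    exact ⟨m, hm.symm⟩
  have hs1 : s ≠ 1 := by
    intro h
    rw [h, orderOf_one] at hs7
    omega
  have hu3 : ∀ c : Fˣ, c ^ 3 = 1 := by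
    intro c
    have h1 : Fintype.card Fˣ = 3 := by rw [Fintype.card_units, hq]
    rw [← h1]
    exact pow_card_eq_one
  have hs7' : s ^ 7 = 1 := by rw [← hs7]; exact pow_orderOf_eq_one s
  have hsd : s ∈ specialLinear (Fin 3) F := by
    change Matrix.GeneralLinearGroup.det s = 1
    have h1 := hu3 (Matrix.GeneralLinearGroup.det s)
    have h2 : (Matrix.GeneralLinearGroup.det s) ^ 7 = 1 := by rw [← map_pow, hs7', map_one]
    calc Matrix.GeneralLinearGroup.det s = (Matrix.GeneralLinearGroup.det s) ^ 7 * ((Matrix.GeneralLinearGroup.det s ^ 3) ^ 2)⁻¹ := by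
          rw [← pow_mul, ← div_eq_mul_inv, eq_div_iff_mul_eq', ← pow_succ']
      _ = 1 := by rw [h1, h2, one_pow, inv_one, mul_one]
  -- elements of determinant one
  have hdet : ∀ t ∈ KU K hK, t ∈ specialLinear (Fin 3) F → ∃ (c : Fˣ) (m : ℕ), t = sc c * s ^ m := by
    let D := KU K hK ⊓ specialLinear (Fin 3) F
    have hscK : ∀ c : Fˣ, sc c ∈ KU K hK := by
      intro c
      change ((sc c : Matrix.GeneralLinearGroup (Fin 3) F) : Matrix (Fin 3) (Fin 3) F) ∈ K
      rw [sc_val]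
      exact K.smul_mem K.one_mem _
    have hscd : ∀ c : Fˣ, sc c ∈ specialLinear (Fin 3) F := by
      intro c
      rw [mem_sl, det_sc, Fintype.card_fin, ← Units.val_pow_eq_pow_val, hu3, Units.val_one]
    let φ : Fˣ × Fin 7 → D := fun x => ⟨sc x.1 * s ^ x.2.val,
      ⟨(KU K hK).mul_mem (hscK _) ((KU K hK).pow_mem hsK _), (specialLinear (Fin 3) F).mul_mem (hscd _) ((specialLinear (Fin 3) F).pow_mem hsd _)⟩⟩
    have hφ : Function.Injective φ := by
      rintro ⟨c, m⟩ ⟨c', m'⟩ heq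
      have heq' : sc c * s ^ m.val = sc c' * s ^ m'.val := congrArg Subtype.val heq
      have h1 : ∀ (c : Fˣ) (m : ℕ), (sc c * s ^ m) ^ 3 = s ^ (3 * m) := by
        intro c m
        have hcm : Commute (sc c) (s ^ m) := scalar_comm (sc_mem c) _
        rw [hcm.mul_pow, ← map_pow, hu3, map_one, one_mul, ← pow_mul, mul_comm m]
      have h2 : (sc c * s ^ m.val) ^ 3 = (sc c' * s ^ m'.val) ^ 3 := by rw [heq']
      rw [h1, h1, pow_eq_pow_iff_modEq, hs7] at h2
      have h3 : m.val = m'.val := by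
        have := m.2
        have := m'.2
        unfold Nat.ModEq at h2
        omega
      rw [h3] at heq'
      have h4 := sc_inj (mul_right_cancel heq')
      rw [h4, Fin.ext h3]
    have hDc : Nat.card D ∣ 63 := by rw [← hcard]; exact Subgroup.card_dvd_of_le inf_le_left
    have hDne : Nat.card D ≠ 63 := by
      intro h1
      apply KU_det hq hK
      have h2 : D = KU K hK := Subgroup.eq_of_le_of_card_ge inf_le_left (by rw [h1, hcard])
      rw [← h2]
      exact inf_le_right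
    have hD21 : Nat.card D ≤ 21 := by
      obtain ⟨k, hk⟩ := hDc
      by_contra h1
      have h2 : k < 3 := by
        by_contra h2
        have : Nat.card D * 3 ≤ Nat.card D * k := Nat.mul_le_mul_left _ (by omega)
        omega
      interval_cases k
      · omega
      · omega
      · omega
    have hc21 : Nat.card (Fˣ × Fin 7) = 21 := by
      rw [Nat.card_prod, Nat.card_fin, Nat.card_eq_fintype_card, Fintype.card_units, hq]
    have hbij := hφ.bijective_of_nat_card_le (by rw [hc21]; exact hD21)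
    intro t ht htd
    obtain ⟨⟨c, m⟩, hcm⟩ := hbij.2 ⟨t, ht, htd⟩
    exact ⟨c, m, (congrArg Subtype.val hcm).symm⟩
  -- cubic relation
  set S : Matrix (Fin 3) (Fin 3) F := (s : Matrix (Fin 3) (Fin 3) F) with hSdef
  have hSK : S ∈ K := hsK
  have hdbl : ∀ A : Matrix (Fin 3) (Fin 3) F, A + A = 0 := by
    intro A
    rw [← two_smul F, h2F, zero_smul]
  have hneg : ∀ A : Matrix (Fin 3) (Fin 3) F, -A = A := fun A => neg_eq_of_add_eq_zero_left (hdbl A)
  have hcub : S ^ 3 = S + 1 ∨ S ^ 3 = S ^ 2 + 1 := by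
    have e7 : S ^ 7 = 1 := by rw [hSdef, ← Units.val_pow_eq_pow_val, hs7', Units.val_one]
    have e1 : (S - 1) * (S ^ 6 + S ^ 5 + S ^ 4 + S ^ 3 + S ^ 2 + S + 1) = 0 := by
      have : (S - 1) * (S ^ 6 + S ^ 5 + S ^ 4 + S ^ 3 + S ^ 2 + S + 1) = S ^ 7 - 1 := by noncomm_ring
      rw [this, e7, sub_self]
    have hS1 : S - 1 ≠ 0 := by
      intro h
      apply hs1
      apply Units.ext
      rw [Units.val_one]
      exact sub_eq_zero.1 h
    obtain ⟨y, hy, hy1⟩ := hK.inv _ (K.sub_mem hSK K.one_mem) hS1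
    have e2 : S ^ 6 + S ^ 5 + S ^ 4 + S ^ 3 + S ^ 2 + S + 1 = 0 := by
      rw [hK.comm _ (K.sub_mem hSK K.one_mem) _ hy] at hy1
      calc S ^ 6 + S ^ 5 + S ^ 4 + S ^ 3 + S ^ 2 + S + 1 = (y * (S - 1)) * (S ^ 6 + S ^ 5 + S ^ 4 + S ^ 3 + S ^ 2 + S + 1) := by rw [hy1, one_mul]
        _ = 0 := by rw [mul_assoc, e1, mul_zero]
    have e3 : (S ^ 3 + S + 1) * (S ^ 3 + S ^ 2 + 1) = 0 := by
      have : (S ^ 3 + S + 1) * (S ^ 3 + S ^ 2 + 1) = (S ^ 6 + S ^ 5 + S ^ 4 + S ^ 3 + S ^ 2 + S + 1) + (S ^ 3 + S ^ 3) := by noncomm_ring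
      rw [this, e2, hdbl, add_zero]
    by_cases h0 : S ^ 3 + S + 1 = 0
    · left
      rw [add_assoc] at h0
      rw [eq_neg_of_add_eq_zero_left h0, hneg]
    · right
      have hm : S ^ 3 + S + 1 ∈ K := K.add_mem (K.add_mem (K.pow_mem hSK 3) hSK) K.one_mem
      obtain ⟨z, hz, hz1⟩ := hK.inv _ hm h0
      rw [hK.comm _ hm _ hz] at hz1
      have e4 : S ^ 3 + S ^ 2 + 1 = 0 := by
        calc S ^ 3 + S ^ 2 + 1 = (z * (S ^ 3 + S + 1)) * (S ^ 3 + S ^ 2 + 1) := by rw [hz1, one_mul]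
          _ = 0 := by rw [mul_assoc, e3, mul_zero]
      rw [add_assoc] at e4
      rw [eq_neg_of_add_eq_zero_left e4, hneg]
  -- no relation of degree at most two
  have hF4 : ∀ c : F, c ≠ 0 → c ^ 3 = 1 := by
    intro c hc
    have := FiniteField.pow_card_sub_one_eq_one c hc
    rwa [hq] at this
  have hns : ∀ c : F, S ≠ c • (1 : Matrix (Fin 3) (Fin 3) F) := by
    intro c hc
    have hc0 : c ≠ 0 := by
      rintro rfl
      rw [zero_smul] at hc
      exact s.ne_zero hc
    have h1 : S ^ 3 = 1 := by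
      rw [hc, smul_pow, one_pow, hF4 c hc0, one_smul]
    have h2 : s ^ 3 = 1 := Units.ext (by rw [Units.val_pow_eq_pow_val, Units.val_one]; exact h1)
    have h3 := orderOf_dvd_of_pow_eq_one h2
    rw [hs7] at h3
    omega
  have hrel1 : ∀ a b : F, a • (1 : Matrix (Fin 3) (Fin 3) F) + b • S = 0 → a = 0 ∧ b = 0 := by
    intro a b hab
    have hb : b = 0 := by
      by_contra hb
      apply hns (-(b⁻¹ * a))
      have h1 : b • S = -(a • (1 : Matrix (Fin 3) (Fin 3) F)) := eq_neg_of_add_eq_zero_right hab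
      calc S = b⁻¹ • (b • S) := by rw [smul_smul, inv_mul_cancel₀ hb, one_smul]
        _ = _ := by rw [h1, smul_neg, smul_smul, neg_smul]
    rw [hb, zero_smul, add_zero] at hab
    exact ⟨(smul_eq_zero.1 hab).resolve_right one_ne_zero, hb⟩
  have hrel2 : ∀ a b c : F, a • (1 : Matrix (Fin 3) (Fin 3) F) + b • S + c • S ^ 2 = 0 → a = 0 ∧ b = 0 ∧ c = 0 := by
    intro a b c habc
    have hc : c = 0 := by
      by_contra hc
      -- S² = b' S + a'
      obtain ⟨a', b', hS2⟩ : ∃ a' b' : F, S ^ 2 = a' • (1 : Matrix (Fin 3) (Fin 3) F) + b' • S := by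
        refine ⟨-(c⁻¹ * a), -(c⁻¹ * b), ?_⟩
        have h1 : c • S ^ 2 = -(a • (1 : Matrix (Fin 3) (Fin 3) F) + b • S) := eq_neg_of_add_eq_zero_right habc
        calc S ^ 2 = c⁻¹ • (c • S ^ 2) := by rw [smul_smul, inv_mul_cancel₀ hc, one_smul]
          _ = _ := by rw [h1, smul_neg, smul_add, smul_smul, smul_smul, neg_smul, neg_smul, neg_add]
      have hS3 : S ^ 3 = (a' * b') • (1 : Matrix (Fin 3) (Fin 3) F) + (b' ^ 2 + a') • S := by
        calc S ^ 3 = S ^ 2 * S := pow_succ S 2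
          _ = a' • S + b' • S ^ 2 := by rw [hS2, add_mul, smul_mul_assoc, one_mul, smul_mul_assoc, ← pow_two, hS2]
          _ = _ := by rw [hS2, smul_add, smul_smul, smul_smul, add_smul, pow_two, mul_comm b' a']; abel
      rcases hcub with h1 | h1
      · have h2 : (a' * b' - 1) • (1 : Matrix (Fin 3) (Fin 3) F) + (b' ^ 2 + a' - 1) • S = 0 := by
          have h3 : (a' * b') • (1 : Matrix (Fin 3) (Fin 3) F) + (b' ^ 2 + a') • S - (S + 1) = 0 := by rw [← hS3, h1, sub_self]
          rw [← h3, sub_smul, sub_smul, one_smul, one_smul]; abel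
        obtain ⟨h4, h5⟩ := hrel1 _ _ h2
        have h6 : b' ^ 3 + b' + 1 = 0 := by linear_combination (-1 : F) * h4 + b' * h5 + (b' + 0) * h2F
        by_cases hb : b' = 0
        · rw [hb] at h6; simp at h6
        · rw [hF4 b' hb] at h6
          apply hb
          linear_combination h6 - h2F
      · have h2 : (a' * b' - a' - 1) • (1 : Matrix (Fin 3) (Fin 3) F) + (b' ^ 2 + a' - b') • S = 0 := by
          have h3 : (a' * b') • (1 : Matrix (Fin 3) (Fin 3) F) + (b' ^ 2 + a') • S - (a' • (1 : Matrix (Fin 3) (Fin 3) F) + b' • S + 1) = 0 := by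
            rw [← hS3, h1, hS2, sub_self]
          rw [← h3, sub_smul, sub_smul, sub_smul, one_smul]; abel
        obtain ⟨h4, h5⟩ := hrel1 _ _ h2
        have h6 : b' ^ 3 + b' + 1 = 0 := by linear_combination (-1 : F) * h4 + (b' - 1) * h5 + (b' ^ 2 + 0) * h2F
        by_cases hb : b' = 0
        · rw [hb] at h6; simp at h6
        · rw [hF4 b' hb] at h6
          apply hb
          linear_combination h6 - h2F
    rw [hc, zero_smul, add_zero] at habc
    obtain ⟨h1, h2⟩ := hrel1 a b habc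
    exact ⟨h1, h2, hc⟩
  -- a basis
  obtain ⟨v, hv⟩ := exists_ne (0 : Fin 3 → F)
  have hKinj : ∀ A ∈ K, Matrix.mulVec A v = 0 → A = 0 := by
    intro A hA hAv
    by_contra hA0
    obtain ⟨y, hy, h1⟩ := hK.inv _ hA hA0
    rw [hK.comm _ hA _ hy] at h1
    apply hv
    calc v = Matrix.mulVec (y * A) v := by rw [h1, Matrix.one_mulVec]
      _ = 0 := by rw [← Matrix.mulVec_mulVec, hAv, Matrix.mulVec_zero]
  have hKv : ∀ w : Fin 3 → F, w ≠ 0 → ∃ k ∈ KU K hK, w = Matrix.mulVec (k : Matrix (Fin 3) (Fin 3) F) v := by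
    let L : K →ₗ[F] (Fin 3 → F) :=
      { toFun := fun c => Matrix.mulVec (c : Matrix (Fin 3) (Fin 3) F) v
        map_add' := fun a b => by rw [← Matrix.add_mulVec]; rfl
        map_smul' := fun a b => by rw [RingHom.id_apply, ← Matrix.smul_mulVec]; rfl }
    have hL : Function.Injective L := by
      rw [← LinearMap.ker_eq_bot, eq_bot_iff]
      intro c hc
      exact Subtype.ext (hKinj c c.2 hc)
    have hLs : Function.Surjective L := (LinearMap.injective_iff_surjective_of_finrank_eq_finrank (by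
      rw [hK.finrank_eq, finrank_fintype_fun_eq_card, Fintype.card_fin])).1 hL
    intro w hw
    obtain ⟨k, hk⟩ := hLs w
    have hk0 : (k : Matrix (Fin 3) (Fin 3) F) ≠ 0 := by
      intro h
      apply hw
      rw [← hk]
      change Matrix.mulVec (k : Matrix (Fin 3) (Fin 3) F) v = 0
      rw [h, Matrix.zero_mulVec]
    obtain ⟨y, hy, h1⟩ := hK.inv _ k.2 hk0
    exact ⟨⟨k, y, h1, by rw [hK.comm _ hy _ k.2, h1]⟩, k.2, hk.symm⟩
  obtain ⟨Q, hQ⟩ : ∃ Q : Matrix.GeneralLinearGroup (Fin 3) F, ∀ j : Fin 3,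
      Matrix.mulVec (Q : Matrix (Fin 3) (Fin 3) F) (Pi.single j 1) = Matrix.mulVec (S ^ j.val) v := by
    have hli : LinearIndependent F (fun j : Fin 3 => Matrix.mulVec (S ^ j.val) v) := by
      rw [Fintype.linearIndependent_iff]
      intro g hg
      rw [Fin.sum_univ_three] at hg
      have h1 : Matrix.mulVec (g 0 • (1 : Matrix (Fin 3) (Fin 3) F) + g 1 • S + g 2 • S ^ 2) v = 0 := by
        rw [Matrix.add_mulVec, Matrix.add_mulVec, Matrix.smul_mulVec, Matrix.smul_mulVec, Matrix.smul_mulVec]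
        simpa using hg
      have h2 := hKinj _ (K.add_mem (K.add_mem (K.smul_mem K.one_mem _) (K.smul_mem hSK _)) (K.smul_mem (K.pow_mem hSK 2) _)) h1
      obtain ⟨h3, h4, h5⟩ := hrel2 _ _ _ h2
      intro i
      fin_cases i
      · exact h3
      · exact h4
      · exact h5
    obtain ⟨Q, hQ⟩ := Matrix.linearIndependent_cols_iff_isUnit.1
      (show LinearIndependent F (Matrix.of fun i j : Fin 3 => Matrix.mulVec (S ^ j.val) v i).col from hli)
    refine ⟨Q, fun j => ?_⟩
    rw [hQ, Matrix.mulVec_single_one]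
    rfl
  -- the lattice
  let Lt : (Fin 3 → F) → Prop := fun x => ∀ i, Matrix.mulVec ((Q⁻¹ : Matrix.GeneralLinearGroup (Fin 3) F) : Matrix (Fin 3) (Fin 3) F) x i ∈ F₀
  have hLadd : ∀ x y, Lt x → Lt y → Lt (x + y) := by
    intro x y hx hy i
    rw [mulVec_add', Pi.add_apply]
    exact F₀.add_mem (hx i) (hy i)
  have hLsmul : ∀ (c : F) x, c ∈ F₀ → Lt x → Lt (c • x) := by
    intro c x hc hx i
    rw [mulVec_smul', Pi.smul_apply, smul_eq_mul]
    exact F₀.mul_mem hc (hx i)
  have hLb : ∀ j : Fin 3, Lt (Matrix.mulVec (S ^ j.val) v) := by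
    intro j i
    rw [← hQ j, inv_mulVec, Pi.single_apply]
    split_ifs
    · exact F₀.one_mem
    · exact F₀.zero_mem
  have hL0 : Lt v := by simpa using hLb 0
  have hL1 : Lt (Matrix.mulVec S v) := by simpa using hLb 1
  have hL2 : Lt (Matrix.mulVec (S ^ 2) v) := by simpa using hLb 2
  have hL3 : Lt (Matrix.mulVec (S ^ 3) v) := by
    rcases hcub with h1 | h1
    · rw [h1, Matrix.add_mulVec, Matrix.one_mulVec]
      exact hLadd _ _ hL1 hL0
    · rw [h1, Matrix.add_mulVec, Matrix.one_mulVec]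
      exact hLadd _ _ hL2 hL0
  have hLall : ∀ m : ℕ, Lt (Matrix.mulVec (S ^ m) v) ∧ Lt (Matrix.mulVec (S ^ (m + 1)) v) ∧ Lt (Matrix.mulVec (S ^ (m + 2)) v) := by
    intro m
    induction m with
    | zero => exact ⟨by rw [pow_zero, Matrix.one_mulVec]; exact hL0, by rw [zero_add, pow_one]; exact hL1, hL2⟩
    | succ m ih =>
      obtain ⟨i1, i2, i3⟩ := ih
      refine ⟨i2, i3, ?_⟩
      have h1 : S ^ (m + 1 + 2) = S ^ m * S ^ 3 := by rw [← pow_add]
      rcases hcub with h2 | h2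
      · rw [h1, h2, mul_add, mul_one, ← pow_succ, Matrix.add_mulVec]
        exact hLadd _ _ i2 i1
      · rw [h1, h2, mul_add, mul_one, ← pow_add, Matrix.add_mulVec]
        exact hLadd _ _ i3 i1
  have hX : ∀ g : Matrix.GeneralLinearGroup (Fin 3) F, (∀ j : Fin 3, Lt (Matrix.mulVec (g : Matrix (Fin 3) (Fin 3) F) (Matrix.mulVec (S ^ j.val) v))) →
      g ∈ cg Q (Matrix.GeneralLinearGroup.map (F₀.subtype : F₀ →+* F)).range := by
    intro g hg
    rw [mem_cg]
    apply exists_map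
    intro i j
    have := hg j i
    rw [← hQ, ← mulVec_mul, ← mulVec_mul, Matrix.mulVec_single_one] at this
    exact this
  have hsX : s ∈ cg Q (Matrix.GeneralLinearGroup.map (F₀.subtype : F₀ →+* F)).range := by
    apply hX
    intro j
    rw [Matrix.mulVec_mulVec, ← hSdef, ← pow_succ']
    exact (hLall j.val).2.1
  refine ⟨F₀, Q, hF₀, fun h hh => ?_⟩
  -- action on s
  have htK : h * s * h⁻¹ ∈ KU K hK := (hHK hh _).1 hSK
  obtain ⟨j, hj⟩ := hE _ htK (by rw [conj_pow, hs7', mul_one, mul_inv_cancel])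
  have hhv : Matrix.mulVec (h : Matrix (Fin 3) (Fin 3) F) v ≠ 0 := by
    intro h0
    rw [← Matrix.mulVec_zero (h : Matrix (Fin 3) (Fin 3) F)] at h0
    exact hv (mulVec_injective _ h0)
  obtain ⟨k, hk, hkv⟩ := hKv _ hhv
  have hhs : ∀ m : ℕ, h * s ^ m = s ^ (j * m) * h := by
    intro m
    rw [pow_mul, ← hj, conj_pow, inv_mul_cancel_right]
  have hT : k⁻¹ * h ∈ cg Q (Matrix.GeneralLinearGroup.map (F₀.subtype : F₀ →+* F)).range := by
    apply hX
    intro m
    have h1 : Matrix.mulVec ((k⁻¹ * h : Matrix.GeneralLinearGroup (Fin 3) F) : Matrix (Fin 3) (Fin 3) F) (Matrix.mulVec (S ^ m.val) v)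
        = Matrix.mulVec (S ^ (j * m.val)) v := by
      have e1 : S ^ m.val = ((s ^ m.val : Matrix.GeneralLinearGroup (Fin 3) F) : Matrix (Fin 3) (Fin 3) F) := by rw [Units.val_pow_eq_pow_val]
      have e2 : S ^ (j * m.val) = ((s ^ (j * m.val) : Matrix.GeneralLinearGroup (Fin 3) F) : Matrix (Fin 3) (Fin 3) F) := by rw [Units.val_pow_eq_pow_val]
      rw [e1, e2, ← mulVec_mul, mul_assoc, hhs, mulVec_mul, mulVec_mul, hkv, ← mulVec_mul _ k, KU_comm hK ((KU K hK).pow_mem hsK _) hk, mulVec_mul, inv_mulVec]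
    rw [h1]
    exact (hLall _).1
  have hdT : (k⁻¹ * h) ∈ specialLinear (Fin 3) F := by
    obtain ⟨y, ⟨g, rfl⟩, hg⟩ := hT
    have e1 : k⁻¹ * h = Q * Matrix.GeneralLinearGroup.map (F₀.subtype : F₀ →+* F) g * Q⁻¹ := hg.symm
    change Matrix.GeneralLinearGroup.det (k⁻¹ * h) = 1
    rw [e1, map_mul, map_mul, map_inv, mul_comm (Matrix.GeneralLinearGroup.det Q), mul_inv_cancel_right]
    apply Units.ext
    rw [Units.val_one]
    have e2 : ((Matrix.GeneralLinearGroup.det (Matrix.GeneralLinearGroup.map (F₀.subtype : F₀ →+* F) g) : Fˣ) : F) = F₀.subtype ((g : Matrix (Fin 3) (Fin 3) F₀).det) :=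
      (RingHom.map_det F₀.subtype (g : Matrix (Fin 3) (Fin 3) F₀)).symm
    have e3 : ((Matrix.GeneralLinearGroup.det (Matrix.GeneralLinearGroup.map (F₀.subtype : F₀ →+* F) g) : Fˣ) : F) ∈ F₀ := by
      rw [e2]
      exact ((g : Matrix (Fin 3) (Fin 3) F₀).det).2
    rw [mem_iff_pow, hF₀] at e3
    have e4 := Units.ne_zero (Matrix.GeneralLinearGroup.det (Matrix.GeneralLinearGroup.map (F₀.subtype : F₀ →+* F) g))
    apply mul_right_cancel₀ e4
    rw [one_mul, ← pow_two, e3]
  have hkd : k ∈ specialLinear (Fin 3) F := by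
    have e1 : k = h * (k⁻¹ * h)⁻¹ := by group
    rw [e1]
    exact (specialLinear (Fin 3) F).mul_mem (hHS hh) ((specialLinear (Fin 3) F).inv_mem hdT)
  obtain ⟨c, m, hkc⟩ := hdet k hk hkd
  have e5 : h = (s ^ m * (k⁻¹ * h)) * sc c := by
    rw [← scalar_comm (sc_mem c), ← mul_assoc, ← hkc, mul_inv_cancel_left]
  have hmem : s ^ m * (k⁻¹ * h) ∈ cg Q (Matrix.GeneralLinearGroup.map (F₀.subtype : F₀ →+* F)).range := Subgroup.mul_mem _ (Subgroup.pow_mem _ hsX m) hT
  rw [mem_cg] at hmem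
  refine ⟨Q⁻¹ * h * Q, ?_, ?_⟩
  · have e6 : Q⁻¹ * h * Q = (Q⁻¹ * (s ^ m * (k⁻¹ * h)) * Q) * sc c := by
      rw [mul_assoc _ Q (sc c), ← scalar_comm (sc_mem c) Q]
      nth_rewrite 1 [e5]
      simp only [mul_assoc]
    rw [e6]
    exact Subgroup.mul_mem_sup hmem (sc_mem c)
  · change Q * (Q⁻¹ * h * Q) * Q⁻¹ = h
    group

end CfsgLib.Asch13
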