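import Cfsg.Agent.Lib.Asch1

set_option autoImplicit false
set_option maxHeartbeats 400000

/-! Line decompositions and field subalgebras. -/
namespace CfsgLib.Asch2

open Cfsg Cfsg.Geo Module CfsgLib.GeoBase CfsgLib.Asch1

universe u v

variable {ι : Type} [Fintype ι] [DecidableEq ι] {F : Type u} [Field F]

/-- weight space -/
def Ws (N : Subgroup (Matrix.GeneralLinearGroup ι F)) (χ : N → F) : Submodule F (ι → F) :=
  ⨅ x : N, Module.End.eigenspace (Matrix.toLin' ((x : Matrix.GeneralLinearGroup ι F) : Matrix ι ι F)) (χ x)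

theorem mem_Ws {N : Subgroup (Matrix.GeneralLinearGroup ι F)} {χ : N → F} {v : ι → F} :
    v ∈ Ws N χ ↔ ∀ x : N, Matrix.mulVec ((x : Matrix.GeneralLinearGroup ι F) : Matrix ι ι F) v = χ x • v := by
  unfold Ws
  rw [Submodule.mem_iInf]
  exact forall_congr' fun x => by rw [Module.End.mem_eigenspace_iff]; rfl

/-- twist of a weight -/
def tw {N H : Subgroup (Matrix.GeneralLinearGroup ι F)} (hN : NI N H) (h : H) (χ : N → F) : N → F :=
  fun x => χ ⟨(h : Matrix.GeneralLinearGroup ι F)⁻¹ * x * h, by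
    have := hN.2 (h : Matrix.GeneralLinearGroup ι F)⁻¹ (H.inv_mem h.2) x x.2
    rwa [inv_inv] at this⟩

theorem mp_Ws_le {N H : Subgroup (Matrix.GeneralLinearGroup ι F)} (hN : NI N H) (h : H) (χ : N → F) :
    mp (h : Matrix.GeneralLinearGroup ι F) (Ws N χ) ≤ Ws N (tw hN h χ) := by
  intro v hv
  rw [mem_mp, mem_Ws] at hv
  rw [mem_Ws]
  intro x
  have h1 := hv ⟨(h : Matrix.GeneralLinearGroup ι F)⁻¹ * x * h, by
    have := hN.2 (h : Matrix.GeneralLinearGroup ι F)⁻¹ (H.inv_mem h.2) x x.2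
    rwa [inv_inv] at this⟩
  have h2 := congrArg (fun w => Matrix.mulVec ((h : Matrix.GeneralLinearGroup ι F) : Matrix ι ι F) w) h1
  simp only at h2
  rw [← mulVec_mul, ← mulVec_mul, mulVec_smul', mulVec_inv] at h2
  refine Eq.trans ?_ h2
  congr 2
  group

theorem tw_inv {N H : Subgroup (Matrix.GeneralLinearGroup ι F)} (hN : NI N H) (h : H) (χ : N → F) :
    tw hN h⁻¹ (tw hN h χ) = χ := by
  funext x
  unfold tw
  congr 1
  apply Subtype.ext
  change (h : Matrix.GeneralLinearGroup ι F)⁻¹ * (((h⁻¹ : H) : Matrix.GeneralLinearGroup ι F)⁻¹ * x * ((h⁻¹ : H) : Matrix.GeneralLinearGroup ι F)) * h = x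
  rw [Subgroup.coe_inv]
  group

theorem tw_inv' {N H : Subgroup (Matrix.GeneralLinearGroup ι F)} (hN : NI N H) (h : H) (χ : N → F) :
    tw hN h (tw hN h⁻¹ χ) = χ := by
  have := tw_inv hN h⁻¹ χ
  rwa [inv_inv] at this

theorem mp_Ws {N H : Subgroup (Matrix.GeneralLinearGroup ι F)} (hN : NI N H) (h : H) (χ : N → F) :
    mp (h : Matrix.GeneralLinearGroup ι F) (Ws N χ) = Ws N (tw hN h χ) := by
  apply le_antisymm (mp_Ws_le hN h χ)
  intro v hv
  have h1 := mp_Ws_le hN h⁻¹ (tw hN h χ)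
  rw [tw_inv] at h1
  rw [mem_mp]
  apply h1
  rw [mem_mp, Subgroup.coe_inv, inv_inv, mulVec_inv]
  exact hv

/-- all weight spaces together span, hence the group is commutative -/
theorem comm_of_span {N : Subgroup (Matrix.GeneralLinearGroup ι F)} (ht : ⨆ χ : N → F, Ws N χ = ⊤) (x y : N) :
    Commute (Matrix.toLin' ((x : Matrix.GeneralLinearGroup ι F) : Matrix ι ι F)) (Matrix.toLin' ((y : Matrix.GeneralLinearGroup ι F) : Matrix ι ι F)) := by
  have hle : ⨆ χ : N → F, Ws N χ ≤ LinearMap.eqLocus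
      (Matrix.toLin' ((x : Matrix.GeneralLinearGroup ι F) : Matrix ι ι F) * Matrix.toLin' ((y : Matrix.GeneralLinearGroup ι F) : Matrix ι ι F))
      (Matrix.toLin' ((y : Matrix.GeneralLinearGroup ι F) : Matrix ι ι F) * Matrix.toLin' ((x : Matrix.GeneralLinearGroup ι F) : Matrix ι ι F)) := by
    apply iSup_le
    intro χ v hv
    rw [mem_Ws] at hv
    rw [LinearMap.mem_eqLocus]
    change Matrix.mulVec _ (Matrix.mulVec _ v) = Matrix.mulVec _ (Matrix.mulVec _ v)
    rw [hv y, hv x, mulVec_smul', mulVec_smul', hv x, hv y, smul_smul, smul_smul, mul_comm]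
  rw [ht, top_le_iff] at hle
  exact LinearMap.eqLocus_eq_top.1 hle

theorem indep_Ws {N : Subgroup (Matrix.GeneralLinearGroup ι F)} (ht : ⨆ χ : N → F, Ws N χ = ⊤) : iSupIndep (Ws N) := by
  have h1 := Module.End.independent_iInf_maxGenEigenspace_of_forall_mapsTo
    (fun x : N => Matrix.toLin' ((x : Matrix.GeneralLinearGroup ι F) : Matrix ι ι F))
    (fun i j φ => Module.End.mapsTo_maxGenEigenspace_of_comm (comm_of_span ht j i) φ)
  apply h1.mono
  intro χ
  unfold Ws
  apply iInf_mono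
  intro x
  exact (Module.End.genEigenspace _ _).mono le_top

/-- the line case: scalar or a decomposition into lines -/
theorem lines (hp : (Fintype.card ι).Prime) {N H : Subgroup (Matrix.GeneralLinearGroup ι F)} (hirr : Irr H) (hN : NI N H)
    {w : ι → F} (hw : w ≠ 0) {χ₀ : Matrix.GeneralLinearGroup ι F → F} (hχ₀ : ∀ x ∈ N, Matrix.mulVec (x : Matrix ι ι F) w = χ₀ x • w) :
    N ≤ scalars ι F ∨ ∃ D : Fin (Fintype.card ι) → Submodule F (ι → F), IsMDecomposition 1 D ∧ H ≤ decompositionStabilizer D := by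
  classical
  let χ : N → F := fun x => χ₀ x
  have hχ : w ∈ Ws N χ := mem_Ws.2 fun x => hχ₀ x x.2
  have hχb : Ws N χ ≠ ⊥ := by
    intro h
    rw [h, Submodule.mem_bot] at hχ
    exact hw hχ
  have ht : ⨆ ψ : N → F, Ws N ψ = ⊤ := by
    apply sum_translates hirr hχb
    intro h hh
    rw [mp_Ws hN ⟨h, hh⟩ χ]
    exact le_iSup (Ws N) _
  have hind := indep_Ws ht
  -- every non-zero weight space is a translate
  have htr : ∀ ψ : N → F, Ws N ψ ≠ ⊥ → ∃ h : H, tw hN h χ = ψ := by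
    intro ψ hψ
    by_contra hne
    push Not at hne
    apply hψ
    have h1 : ⨆ (φ : N → F) (_ : φ ≠ ψ), Ws N φ = ⊤ := by
      apply sum_translates hirr hχb
      intro h hh
      rw [mp_Ws hN ⟨h, hh⟩ χ]
      exact le_iSup₂_of_le (tw hN ⟨h, hh⟩ χ) (hne _) le_rfl
    have h2 := hind ψ
    rw [h1] at h2
    exact disjoint_top.1 h2
  have hfr : ∀ ψ : N → F, Ws N ψ ≠ ⊥ → finrank F (Ws N ψ) = finrank F (Ws N χ) := by
    intro ψ hψ
    obtain ⟨h, rfl⟩ := htr ψ hψ
    rw [← mp_Ws hN h χ, finrank_mp]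
  -- the finite index set
  haveI : Fintype {ψ : N → F // Ws N ψ ≠ ⊥} := hind.fintypeNeBotOfFiniteDimensional
  let E : {ψ : N → F // Ws N ψ ≠ ⊥} → Submodule F (ι → F) := fun ψ => Ws N ψ
  have hEi : iSupIndep E := hind.comp Subtype.val_injective
  have hEt : iSup E = ⊤ := by
    rw [eq_top_iff, ← ht]
    apply iSup_le
    intro ψ
    by_cases h : Ws N ψ = ⊥
    · rw [h]; exact bot_le
    · exact le_iSup E ⟨ψ, h⟩
  have hint : DirectSum.IsInternal E := DirectSum.isInternal_submodule_of_iSupIndep_of_iSup_eq_top hEi hEt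
  have hcard : Fintype.card {ψ : N → F // Ws N ψ ≠ ⊥} * finrank F (Ws N χ) = Fintype.card ι := by
    have h1 := LinearEquiv.finrank_eq (LinearEquiv.ofBijective (DirectSum.coeLinearMap E) hint)
    rw [Module.finrank_directSum, finrank_fintype_fun_eq_card] at h1
    rw [← h1, Finset.sum_congr rfl (fun ψ _ => hfr ψ.1 ψ.2), Finset.sum_const, Finset.card_univ, smul_eq_mul]
  have hdvd : finrank F (Ws N χ) ∣ Fintype.card ι := ⟨_, by rw [mul_comm]; exact hcard.symm⟩
  rcases (Nat.dvd_prime hp).1 hdvd with h1 | h1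
  · right
    rw [h1, mul_one] at hcard
    let e : Fin (Fintype.card ι) ≃ {ψ : N → F // Ws N ψ ≠ ⊥} := (finCongr hcard.symm).trans (Fintype.equivFin _).symm
    refine ⟨fun i => E (e i), ⟨hp.two_le, Nat.one_pos, fun i => ?_, hEi.comp e.injective, ?_⟩, ?_⟩
    · rw [← h1]
      exact hfr _ (e i).2
    · rw [e.iSup_comp (g := E)]
      exact hEt
    · intro h hh
      have hne : ∀ (g : H) (ψ : {ψ : N → F // Ws N ψ ≠ ⊥}), Ws N (tw hN g ψ) ≠ ⊥ := by
        intro g ψ h0
        rw [← mp_Ws hN g ψ.1] at h0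
        apply ψ.2
        rw [← Submodule.finrank_eq_zero, ← finrank_mp (g : Matrix.GeneralLinearGroup ι F), h0, finrank_bot]
      let s : {ψ : N → F // Ws N ψ ≠ ⊥} ≃ {ψ : N → F // Ws N ψ ≠ ⊥} :=
        { toFun := fun ψ => ⟨tw hN ⟨h, hh⟩ ψ, hne _ ψ⟩
          invFun := fun ψ => ⟨tw hN ⟨h, hh⟩⁻¹ ψ, hne _ ψ⟩
          left_inv := fun ψ => Subtype.ext (tw_inv hN _ _)
          right_inv := fun ψ => Subtype.ext (tw_inv' hN _ _) }
      refine ⟨(e.trans s).trans e.symm, fun i => ?_⟩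
      change mp h (Ws N (e i)) = E (e (e.symm (s (e i))))
      rw [Equiv.apply_symm_apply]
      exact mp_Ws hN ⟨h, hh⟩ _
  · left
    have htop : Ws N χ = ⊤ := Submodule.eq_top_of_finrank_eq (by rw [h1, finrank_fintype_fun_eq_card])
    intro x hx
    rw [mem_scalars_iff]
    have h2 : ∀ v : ι → F, Matrix.mulVec (x : Matrix ι ι F) v = χ ⟨x, hx⟩ • v := by
      intro v
      have : v ∈ Ws N χ := by rw [htop]; trivial
      exact mem_Ws.1 this ⟨x, hx⟩
    have h0 : χ ⟨x, hx⟩ ≠ 0 := by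
      intro h0
      have h3 := h2 w
      rw [h0, zero_smul, ← Matrix.mulVec_zero (x : Matrix ι ι F)] at h3
      exact hw (mulVec_injective x h3)
    refine ⟨Units.mk0 _ h0, ?_⟩
    apply Matrix.toLin'.injective
    apply LinearMap.ext
    intro v
    rw [Matrix.toLin'_apply, h2, Matrix.toLin'_apply, Matrix.smul_mulVec, Matrix.one_mulVec]
    rfl

end CfsgLib.Asch2
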