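import Cfsg.Agent.Lib.Asch2

set_option autoImplicit false
set_option maxHeartbeats 400000

/-! The centraliser algebra of an irreducible group. -/
namespace CfsgLib.Asch3

open Cfsg Cfsg.Geo Module CfsgLib.GeoBase CfsgLib.Asch1 CfsgLib.Asch2

universe u v

variable {ι : Type} [Fintype ι] [DecidableEq ι] {F : Type u} [Field F]

/-- centraliser algebra -/
def Cn (N : Subgroup (Matrix.GeneralLinearGroup ι F)) : Subalgebra F (Matrix ι ι F) := Subalgebra.centralizer F (matrixSet N)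

theorem mem_Cn {N : Subgroup (Matrix.GeneralLinearGroup ι F)} {M : Matrix ι ι F} :
    M ∈ Cn N ↔ ∀ x ∈ N, (x : Matrix ι ι F) * M = M * x := by
  unfold Cn
  rw [Subalgebra.mem_centralizer_iff]
  constructor
  · intro h x hx
    exact h _ ⟨x, hx, rfl⟩
  · rintro h _ ⟨x, hx, rfl⟩
    exact h x hx

/-- non-zero elements are invertible -/
theorem Cn_unit {N : Subgroup (Matrix.GeneralLinearGroup ι F)} (hN : Irr N) {M : Matrix ι ι F} (hM : M ∈ Cn N) (h0 : M ≠ 0) : IsUnit M := by
  rw [mem_Cn] at hM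
  have hinv : Inv N (LinearMap.ker (Matrix.toLin' M)) := by
    intro g hg w hw
    rw [LinearMap.mem_ker, Matrix.toLin'_apply] at hw ⊢
    rw [Matrix.mulVec_mulVec, ← hM g hg, ← Matrix.mulVec_mulVec, hw, Matrix.mulVec_zero]
  rcases hN _ hinv with h | h
  · have h1 : Function.Injective (Matrix.toLin' M) := LinearMap.ker_eq_bot.1 h
    exact Matrix.mulVec_injective_iff_isUnit.1 h1
  · exfalso
    apply h0
    apply Matrix.toLin'.injective
    rw [map_zero]
    exact LinearMap.ker_eq_top.1 h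

theorem Cn_inv_mem {N : Subgroup (Matrix.GeneralLinearGroup ι F)} {M : Matrix ι ι F} (hM : M ∈ Cn N) (h0 : IsUnit M) : M⁻¹ ∈ Cn N := by
  rw [mem_Cn] at hM ⊢
  intro x hx
  have hd : IsUnit M.det := (Matrix.isUnit_iff_isUnit_det M).1 h0
  have h1 := hM x hx
  calc (x : Matrix ι ι F) * M⁻¹ = M⁻¹ * (M * x) * M⁻¹ := by rw [← mul_assoc, Matrix.nonsing_inv_mul _ hd, one_mul]
    _ = M⁻¹ * (x * M) * M⁻¹ := by rw [h1]
    _ = M⁻¹ * x := by rw [mul_assoc, mul_assoc, Matrix.mul_nonsing_inv _ hd, mul_one]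

theorem Cn_comm [Finite F] [Nonempty ι] {N : Subgroup (Matrix.GeneralLinearGroup ι F)} (hN : Irr N) {x y : Matrix ι ι F} (hx : x ∈ Cn N) (hy : y ∈ Cn N) :
    x * y = y * x := by
  haveI : Finite (Cn N) := Subtype.finite
  haveI : NoZeroDivisors (Cn N) := by
    refine ⟨fun {a b} hab => ?_⟩
    by_cases ha : a = 0
    · exact Or.inl ha
    · right
      have h1 : IsUnit (a : Matrix ι ι F) := Cn_unit hN a.2 fun h => ha (Subtype.ext h)
      have h2 : (a : Matrix ι ι F) * b = 0 := congrArg Subtype.val hab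
      apply Subtype.ext
      exact (h1.mul_right_eq_zero).1 h2
  haveI : Nontrivial (Cn N) := inferInstance
  haveI : IsDomain (Cn N) := NoZeroDivisors.to_isDomain _
  have h := (Finite.isDomain_to_isField (Cn N)).mul_comm ⟨x, hx⟩ ⟨y, hy⟩
  exact congrArg Subtype.val h

/-- the dimension of the centraliser algebra divides the degree -/
theorem Cn_dvd {N : Subgroup (Matrix.GeneralLinearGroup ι F)} (hN : Irr N) : finrank F (Cn N) ∣ Fintype.card ι := by
  let L : (ι → F) → (Cn N →ₗ[F] (ι → F)) := fun v =>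
    { toFun := fun c => Matrix.mulVec (c : Matrix ι ι F) v
      map_add' := fun a b => by rw [← Matrix.add_mulVec]; rfl
      map_smul' := fun a b => by
        rw [RingHom.id_apply, ← Matrix.smul_mulVec]; rfl }
  have hL : ∀ v : ι → F, v ≠ 0 → Function.Injective (L v) := by
    intro v hv
    rw [← LinearMap.ker_eq_bot, eq_bot_iff]
    intro c hc
    rw [LinearMap.mem_ker] at hc
    rw [Submodule.mem_bot]
    by_contra hc0
    have h1 : IsUnit (c : Matrix ι ι F) := Cn_unit hN c.2 fun h => hc0 (Subtype.ext h)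
    apply hv
    apply Matrix.mulVec_injective_iff_isUnit.2 h1
    rw [Matrix.mulVec_zero]
    exact hc
  have := dvd_of_family (K := F) (V := ι → F) (finrank F (Cn N)) (fun U => ∀ c ∈ Cn N, ∀ u ∈ U, Matrix.mulVec c u ∈ U) ?_
    {X | ∃ v : ι → F, v ≠ 0 ∧ X = LinearMap.range (L v)} ?_ ?_ ?_
  · rwa [finrank_fintype_fun_eq_card] at this
  · intro c _ u hu
    rw [Submodule.mem_bot] at hu ⊢
    rw [hu, Matrix.mulVec_zero]
  · rintro _ ⟨v, hv, rfl⟩
    exact LinearMap.finrank_range_of_inj (hL v hv)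
  · rintro U hU _ ⟨v, hv, rfl⟩
    refine ⟨?_, ?_⟩
    · by_cases h0 : U ⊓ LinearMap.range (L v) = ⊥
      · exact Or.inr h0
      · left
        obtain ⟨x, hx, hx0⟩ := Submodule.exists_mem_ne_zero_of_ne_bot h0
        obtain ⟨hxU, ⟨c, rfl⟩⟩ := hx
        have hc0 : (c : Matrix ι ι F) ≠ 0 := by
          intro h
          apply hx0
          change Matrix.mulVec (c : Matrix ι ι F) v = 0
          rw [h, Matrix.zero_mulVec]
        have h1 : IsUnit (c : Matrix ι ι F) := Cn_unit hN c.2 hc0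
        have h2 := hU _ (Cn_inv_mem c.2 h1) _ hxU
        have h3 : v ∈ U := by
          have h4 : Matrix.mulVec (c : Matrix ι ι F)⁻¹ (L v c) = v := by
            change Matrix.mulVec (c : Matrix ι ι F)⁻¹ (Matrix.mulVec (c : Matrix ι ι F) v) = v
            rw [Matrix.mulVec_mulVec, Matrix.nonsing_inv_mul _ ((Matrix.isUnit_iff_isUnit_det _).1 h1), Matrix.one_mulVec]
          rwa [h4] at h2
        rintro _ ⟨d, rfl⟩
        exact hU d d.2 v h3
    · intro c hc u hu
      obtain ⟨a, ha, b, ⟨d, rfl⟩, rfl⟩ := Submodule.mem_sup.1 hu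
      rw [Matrix.mulVec_add]
      apply Submodule.add_mem_sup (hU c hc a ha)
      refine ⟨⟨c, hc⟩ * d, ?_⟩
      change Matrix.mulVec (c * (d : Matrix ι ι F)) v = Matrix.mulVec c (Matrix.mulVec (d : Matrix ι ι F) v)
      rw [Matrix.mulVec_mulVec]
  · intro U _ hU
    rw [eq_top_iff]
    intro v _
    by_cases hv : v = 0
    · rw [hv]; exact U.zero_mem
    · apply hU _ ⟨v, hv, rfl⟩
      refine ⟨1, ?_⟩
      change Matrix.mulVec (1 : Matrix ι ι F) v = v
      rw [Matrix.one_mulVec]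

/-- absolutely irreducible, or a field of degree `n` is normalised -/
theorem field_case [Finite F] (hp : (Fintype.card ι).Prime) {N H : Subgroup (Matrix.GeneralLinearGroup ι F)} (hN : Irr N) (hNI : NI N H) :
    ActsAbsolutelyIrreducibly (matrixSet N) ∨
      ∃ K : Subalgebra F (Matrix ι ι F), IsFieldSubalgebra (Fintype.card ι) K ∧ H ≤ subalgebraNormalizer K := by
  haveI : Nonempty ι := Fintype.card_pos_iff.1 hp.pos
  rcases (Nat.dvd_prime hp).1 (Cn_dvd hN) with h | h
  · left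
    refine ⟨irr_iff.2 hN, fun M hM => ?_⟩
    have hM' : M ∈ Cn N := mem_Cn.2 fun x hx => (hM _ ⟨x, hx, rfl⟩).symm
    obtain ⟨c, hc⟩ := (finrank_eq_one_iff_of_nonzero' (1 : Cn N) one_ne_zero).1 h ⟨M, hM'⟩
    exact ⟨c, (congrArg Subtype.val hc).symm⟩
  · right
    refine ⟨Cn N, ⟨fun x hx y hy => Cn_comm hN hx hy, fun x hx hx0 => ?_, h⟩, ?_⟩
    · have h1 := Cn_unit hN hx hx0
      exact ⟨x⁻¹, Cn_inv_mem hx h1, Matrix.mul_nonsing_inv _ ((Matrix.isUnit_iff_isUnit_det _).1 h1)⟩
    · have key : ∀ g ∈ H, ∀ k ∈ Cn N, (g : Matrix ι ι F) * k * ((g⁻¹ : Matrix.GeneralLinearGroup ι F) : Matrix ι ι F) ∈ Cn N := by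
        intro g hg k hk
        rw [mem_Cn] at hk ⊢
        intro x hx
        have h1 : g⁻¹ * x * g ∈ N := by
          have := hNI.2 g⁻¹ (H.inv_mem hg) x hx
          rwa [inv_inv] at this
        have h2 := hk _ h1
        rw [Units.val_mul, Units.val_mul] at h2
        have e1 : (g : Matrix ι ι F) * ((g⁻¹ : Matrix.GeneralLinearGroup ι F) : Matrix ι ι F) = 1 := by rw [← Units.val_mul, mul_inv_cancel, Units.val_one]
        calc (x : Matrix ι ι F) * (g * k * ((g⁻¹ : Matrix.GeneralLinearGroup ι F) : Matrix ι ι F))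
            = (g * ((g⁻¹ : Matrix.GeneralLinearGroup ι F) : Matrix ι ι F)) * x * (g * k * ((g⁻¹ : Matrix.GeneralLinearGroup ι F) : Matrix ι ι F)) := by rw [e1, one_mul]
          _ = g * ((((g⁻¹ : Matrix.GeneralLinearGroup ι F) : Matrix ι ι F) * x * g) * k) * ((g⁻¹ : Matrix.GeneralLinearGroup ι F) : Matrix ι ι F) := by simp only [mul_assoc]
          _ = g * (k * (((g⁻¹ : Matrix.GeneralLinearGroup ι F) : Matrix ι ι F) * x * g)) * ((g⁻¹ : Matrix.GeneralLinearGroup ι F) : Matrix ι ι F) := by rw [h2]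
          _ = g * k * ((g⁻¹ : Matrix.GeneralLinearGroup ι F) : Matrix ι ι F) * x * (g * ((g⁻¹ : Matrix.GeneralLinearGroup ι F) : Matrix ι ι F)) := by simp only [mul_assoc]
          _ = _ := by rw [e1, mul_one]
      intro g hg k
      refine ⟨key g hg k, fun hk => ?_⟩
      have h1 := key g⁻¹ (H.inv_mem hg) _ hk
      rw [inv_inv] at h1
      have e1 : ((g⁻¹ : Matrix.GeneralLinearGroup ι F) : Matrix ι ι F) * g = 1 := by rw [← Units.val_mul, inv_mul_cancel, Units.val_one]
      have e2 : ((g⁻¹ : Matrix.GeneralLinearGroup ι F) : Matrix ι ι F) * ((g : Matrix ι ι F) * k * ((g⁻¹ : Matrix.GeneralLinearGroup ι F) : Matrix ι ι F)) * g = k := by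
        rw [← mul_assoc, ← mul_assoc, e1, one_mul, mul_assoc, e1, mul_one]
      rwa [e2] at h1

end CfsgLib.Asch3
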