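import Cfsg.Agent.Lib.Asch3

set_option autoImplicit false
set_option maxHeartbeats 400000

/-! Minimal non-scalar normal subgroups of irreducible groups of prime degree. -/
namespace CfsgLib.Asch4

open Cfsg Cfsg.Geo Module CfsgLib.GeoBase CfsgLib.Asch1 CfsgLib.Asch2 CfsgLib.Asch3
open scoped commutatorElement

universe u v

variable {ι : Type} [Fintype ι] [DecidableEq ι] {F : Type u} [Field F]

theorem scalar_comm {z : Matrix.GeneralLinearGroup ι F} (hz : z ∈ scalars ι F) (g : Matrix.GeneralLinearGroup ι F) : z * g = g * z := by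
  obtain ⟨c, hc⟩ := (mem_scalars_iff z).1 hz
  apply Units.ext
  rw [Units.val_mul, Units.val_mul, hc, Matrix.smul_mul, Matrix.mul_smul, one_mul, mul_one]

/-- conjugate subgroup -/
def cg (h : Matrix.GeneralLinearGroup ι F) (M : Subgroup (Matrix.GeneralLinearGroup ι F)) : Subgroup (Matrix.GeneralLinearGroup ι F) :=
  M.map (MulAut.conj h).toMonoidHom

theorem mem_cg {h x : Matrix.GeneralLinearGroup ι F} {M : Subgroup (Matrix.GeneralLinearGroup ι F)} : x ∈ cg h M ↔ h⁻¹ * x * h ∈ M := by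
  constructor
  · rintro ⟨y, hy, rfl⟩
    change h⁻¹ * (h * y * h⁻¹) * h ∈ M
    have : h⁻¹ * (h * y * h⁻¹) * h = y := by group
    rw [this]; exact hy
  · intro hx
    refine ⟨_, hx, ?_⟩
    change h * (h⁻¹ * x * h) * h⁻¹ = x
    group

theorem cg_mem {h x : Matrix.GeneralLinearGroup ι F} {M : Subgroup (Matrix.GeneralLinearGroup ι F)} (hx : x ∈ M) : h * x * h⁻¹ ∈ cg h M :=
  ⟨x, hx, rfl⟩

theorem cg_one (M : Subgroup (Matrix.GeneralLinearGroup ι F)) : cg 1 M = M := by
  ext x
  rw [mem_cg, inv_one, one_mul, mul_one]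

theorem cg_mul (h k : Matrix.GeneralLinearGroup ι F) (M : Subgroup (Matrix.GeneralLinearGroup ι F)) : cg (h * k) M = cg h (cg k M) := by
  ext x
  rw [mem_cg, mem_cg, mem_cg, mul_inv_rev]
  simp only [mul_assoc]

theorem card_cg (h : Matrix.GeneralLinearGroup ι F) (M : Subgroup (Matrix.GeneralLinearGroup ι F)) : Nat.card (cg h M) = Nat.card M :=
  (Nat.card_congr (M.equivMapOfInjective _ (MulAut.conj h).injective).toEquiv).symm

theorem cg_mono {h : Matrix.GeneralLinearGroup ι F} {M M' : Subgroup (Matrix.GeneralLinearGroup ι F)} (hM : M ≤ M') : cg h M ≤ cg h M' :=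
  Subgroup.map_mono hM

theorem cg_scalars (h : Matrix.GeneralLinearGroup ι F) {M : Subgroup (Matrix.GeneralLinearGroup ι F)} : cg h M ≤ scalars ι F ↔ M ≤ scalars ι F := by
  constructor
  · intro H x hx
    have h1 := H (cg_mem (h := h) hx)
    have h2 := scalar_comm h1 h⁻¹
    have h3 : h⁻¹ * (h * x * h⁻¹) = (h * x * h⁻¹) * h⁻¹ := h2.symm
    have h4 : x = h⁻¹ * (h * x * h⁻¹) * h := by group
    rw [h4, h3, inv_mul_cancel_right]
    exact h1
  · rintro H _ ⟨x, hx, rfl⟩
    exact scalars_normal.conj_mem x (H hx) h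

theorem cg_comm (h : Matrix.GeneralLinearGroup ι F) (M : Subgroup (Matrix.GeneralLinearGroup ι F)) : cg h ⁅M, M⁆ = ⁅cg h M, cg h M⁆ :=
  Subgroup.map_commutator _ _ _

theorem ni_iff {N H : Subgroup (Matrix.GeneralLinearGroup ι F)} : NI N H ↔ N ≤ H ∧ ∀ h ∈ H, cg h N ≤ N := by
  constructor
  · rintro ⟨h1, h2⟩
    refine ⟨h1, fun h hh => ?_⟩
    rintro _ ⟨x, hx, rfl⟩
    exact h2 h hh x hx
  · rintro ⟨h1, h2⟩
    exact ⟨h1, fun h hh x hx => h2 h hh (cg_mem hx)⟩

theorem cg_eq {N H : Subgroup (Matrix.GeneralLinearGroup ι F)} (hN : NI N H) {h : Matrix.GeneralLinearGroup ι F} (hh : h ∈ H) : cg h N = N := by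
  apply le_antisymm ((ni_iff.1 hN).2 h hh)
  have h1 := cg_mono (h := h) ((ni_iff.1 hN).2 h⁻¹ (H.inv_mem hh))
  rwa [← cg_mul, mul_inv_cancel, cg_one] at h1

theorem ni_comm {N H : Subgroup (Matrix.GeneralLinearGroup ι F)} (hN : NI N H) : NI ⁅N, N⁆ H := by
  rw [ni_iff]
  have hle : ⁅N, N⁆ ≤ N := Subgroup.commutator_le.2 fun a ha b hb => N.mul_mem (N.mul_mem (N.mul_mem ha hb) (N.inv_mem ha)) (N.inv_mem hb)
  refine ⟨hle.trans hN.1, fun h hh => ?_⟩
  rw [cg_comm, cg_eq hN hh]

theorem comm_le_self (N : Subgroup (Matrix.GeneralLinearGroup ι F)) : ⁅N, N⁆ ≤ N :=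
  Subgroup.commutator_le.2 fun a ha b hb => N.mul_mem (N.mul_mem (N.mul_mem ha hb) (N.inv_mem ha)) (N.inv_mem hb)

theorem ni_inf {N M H : Subgroup (Matrix.GeneralLinearGroup ι F)} (hN : NI N H) (hM : NI M H) : NI (N ⊓ M) H :=
  ⟨inf_le_left.trans hN.1, fun h hh x hx => ⟨hN.2 h hh x hx.1, hM.2 h hh x hx.2⟩⟩

/-- a conjugate of a normal subgroup of `N` under `H` is again normal in `N` -/
theorem ni_cg {M N H : Subgroup (Matrix.GeneralLinearGroup ι F)} (hN : NI N H) (hM : NI M N) {h : Matrix.GeneralLinearGroup ι F} (hh : h ∈ H) :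
    NI (cg h M) N := by
  rw [ni_iff]
  constructor
  · have := cg_mono (h := h) hM.1
    rwa [cg_eq hN hh] at this
  · intro g hg
    have h1 : h⁻¹ * g * h ∈ N := by
      have := hN.2 h⁻¹ (H.inv_mem hh) g hg
      rwa [inv_inv] at this
    have h2 := cg_mono (h := h) ((ni_iff.1 hM).2 _ h1)
    rw [← cg_mul, ← mul_assoc, ← mul_assoc, mul_inv_cancel, one_mul, cg_mul] at h2
    exact h2

/-- elements commuting with `y` modulo scalars -/
def CS (y : Matrix.GeneralLinearGroup ι F) : Subgroup (Matrix.GeneralLinearGroup ι F) :=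
  (Subgroup.centralizer {QuotientGroup.mk' (scalars ι F) y}).comap (QuotientGroup.mk' (scalars ι F))

theorem mem_CS {x y : Matrix.GeneralLinearGroup ι F} : x ∈ CS y ↔ ⁅x, y⁆ ∈ scalars ι F := by
  unfold CS
  rw [Subgroup.mem_comap, Subgroup.mem_centralizer_singleton_iff, ← commutatorElement_eq_one_iff_mul_comm, ← map_commutatorElement]
  exact QuotientGroup.eq_one_iff _

theorem mem_CS_symm {x y : Matrix.GeneralLinearGroup ι F} : x ∈ CS y ↔ y ∈ CS x := by
  rw [mem_CS, mem_CS, ← commutatorElement_inv]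
  exact inv_mem_iff

theorem conj_z {z : Matrix.GeneralLinearGroup ι F} (hz : z ∈ scalars ι F) (a X : Matrix.GeneralLinearGroup ι F) : (z * a) * X * (z * a)⁻¹ = a * X * a⁻¹ := by
  have h1 := scalar_comm hz (a * X * a⁻¹)
  calc (z * a) * X * (z * a)⁻¹ = z * (a * X * a⁻¹) * z⁻¹ := by group
    _ = a * X * a⁻¹ := by rw [h1, mul_inv_cancel_right]

/-- commutators of elements commuting modulo scalars with `y` commute with `y` -/
theorem key_comm {y a b : Matrix.GeneralLinearGroup ι F} (ha : a ∈ CS y) (hb : b ∈ CS y) : ⁅a, b⁆ * y = y * ⁅a, b⁆ := by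
  rw [mem_CS_symm, mem_CS] at ha hb
  have h1 : y * a * y⁻¹ = ⁅y, a⁆ * a := by rw [commutatorElement_def]; group
  have h2 : y * b * y⁻¹ = ⁅y, b⁆ * b := by rw [commutatorElement_def]; group
  have h3 : y * ⁅a, b⁆ * y⁻¹ = ⁅a, b⁆ := by
    calc y * ⁅a, b⁆ * y⁻¹ = (y * a * y⁻¹) * (y * b * y⁻¹) * (y * a * y⁻¹)⁻¹ * (y * b * y⁻¹)⁻¹ := by rw [commutatorElement_def]; group
      _ = a * (⁅y, b⁆ * b) * a⁻¹ * (⁅y, b⁆ * b)⁻¹ := by rw [h1, h2, conj_z ha]
      _ = ⁅y, b⁆ * (a * b * a⁻¹ * b⁻¹) * ⁅y, b⁆⁻¹ := by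
          rw [← mul_assoc a, ← scalar_comm hb a]; group
      _ = ⁅a, b⁆ := by rw [scalar_comm hb, mul_inv_cancel_right, commutatorElement_def]
  calc ⁅a, b⁆ * y = (y * ⁅a, b⁆ * y⁻¹) * y := by rw [h3]
    _ = y * ⁅a, b⁆ := by group

/-- a perfect group commuting with `y` modulo scalars commutes with `y` -/
theorem perfect_comm {M : Subgroup (Matrix.GeneralLinearGroup ι F)} (hM : ⁅M, M⁆ = M) {y : Matrix.GeneralLinearGroup ι F} (hy : M ≤ CS y) :
    ∀ x ∈ M, x * y = y * x := by
  have h1 : ⁅M, M⁆ ≤ Subgroup.centralizer {y} := by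
    rw [Subgroup.commutator_le]
    intro a ha b hb
    rw [Subgroup.mem_centralizer_singleton_iff]
    exact key_comm (hy ha) (hy hb)
  intro x hx
  rw [hM] at h1
  exact Subgroup.mem_centralizer_singleton_iff.1 (h1 hx)

theorem scalars_of_Ws [Nonempty ι] {N : Subgroup (Matrix.GeneralLinearGroup ι F)} {χ : N → F} (htop : Ws N χ = ⊤) : N ≤ scalars ι F := by
  intro x hx
  rw [mem_scalars_iff]
  have h2 : ∀ v : ι → F, Matrix.mulVec (x : Matrix ι ι F) v = χ ⟨x, hx⟩ • v := by
    intro v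
    have : v ∈ Ws N χ := by rw [htop]; trivial
    exact mem_Ws.1 this ⟨x, hx⟩
  obtain ⟨w, hw⟩ := exists_ne (0 : ι → F)
  have h0 : χ ⟨x, hx⟩ ≠ 0 := by
    intro h0
    have h3 := h2 w
    rw [h0, zero_smul, ← Matrix.mulVec_zero (x : Matrix ι ι F)] at h3
    exact hw (mulVec_injective x h3)
  refine ⟨Units.mk0 _ h0, ?_⟩
  apply Matrix.toLin'.injective
  apply LinearMap.ext
  intro v
  rw [Matrix.toLin'_apply, h2, Matrix.toLin'_apply, Matrix.smul_mulVec, Matrix.one_mulVec]
  rfl

theorem not_scalars_of_irr (hp : (Fintype.card ι).Prime) {H : Subgroup (Matrix.GeneralLinearGroup ι F)} (hirr : Irr H) : ¬ H ≤ scalars ι F := by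
  intro h
  haveI : Nonempty ι := Fintype.card_pos_iff.1 hp.pos
  obtain ⟨w, hw⟩ := exists_ne (0 : ι → F)
  have h1 : Inv H (Submodule.span F {w}) := by
    intro g hg v hv
    obtain ⟨c, hc⟩ := (mem_scalars_iff g).1 (h hg)
    rw [hc, Matrix.smul_mulVec, Matrix.one_mulVec]
    exact Submodule.smul_mem _ _ hv
  have h2 := finrank_span_singleton (K := F) hw
  rcases hirr _ h1 with h3 | h3
  · rw [h3, finrank_bot] at h2
    omega
  · rw [h3, finrank_top, finrank_fintype_fun_eq_card] at h2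
    exact hp.one_lt.ne' h2

/-- first reduction -/
theorem struct [Finite F] (hp : (Fintype.card ι).Prime) {H : Subgroup (Matrix.GeneralLinearGroup ι F)} (hirr : Irr H) :
    (∃ D : Fin (Fintype.card ι) → Submodule F (ι → F), IsMDecomposition 1 D ∧ H ≤ decompositionStabilizer D) ∨
    (∃ K : Subalgebra F (Matrix ι ι F), IsFieldSubalgebra (Fintype.card ι) K ∧ H ≤ subalgebraNormalizer K) ∨
    ((∀ M, NI M H → ¬ M ≤ scalars ι F → ActsAbsolutelyIrreducibly (matrixSet M)) ∧
      ∃ N, NI N H ∧ ¬ N ≤ scalars ι F ∧ ∀ M, NI M H → M ≤ N → ¬ M ≤ scalars ι F → M = N) := by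
  by_cases hall : ∀ M, NI M H → ¬ M ≤ scalars ι F → ActsAbsolutelyIrreducibly (matrixSet M)
  · right; right
    refine ⟨hall, ?_⟩
    classical
    haveI : Finite (Matrix.GeneralLinearGroup ι F) := inferInstance
    have hex : ∃ c, ∃ N, NI N H ∧ ¬ N ≤ scalars ι F ∧ Nat.card N = c := ⟨_, H, NI.refl H, not_scalars_of_irr hp hirr, rfl⟩
    obtain ⟨N, h1, h2, h3⟩ := Nat.find_spec hex
    refine ⟨N, h1, h2, fun M hM hMN hMs => ?_⟩
    apply Subgroup.eq_of_le_of_card_ge hMN
    rw [h3]
    exact Nat.find_min' hex ⟨M, hM, hMs, rfl⟩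
  · push Not at hall
    obtain ⟨M, hM, hMs, hMa⟩ := hall
    rcases cliff_d hp hirr hM with h | ⟨w, hw, χ, hχ⟩
    · right; left
      exact (field_case hp h hM).resolve_left hMa
    · left
      exact (lines hp hirr hM hw hχ).resolve_left hMs

/-- a perfect minimal non-scalar normal subgroup is simple modulo scalars -/
theorem simple_of_perfect [Finite F] (hp : (Fintype.card ι).Prime) {N H : Subgroup (Matrix.GeneralLinearGroup ι F)} (hNI : NI N H)
    (hns : ¬ N ≤ scalars ι F) (hmin : ∀ M, NI M H → M ≤ N → ¬ M ≤ scalars ι F → M = N) (hirrN : Irr N) (hperf : ⁅N, N⁆ = N) :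
    ∀ M, NI M N → ¬ M ≤ scalars ι F → M = N := by
  classical
  haveI : Nonempty ι := Fintype.card_pos_iff.1 hp.pos
  have hex : ∃ c, ∃ M, NI M N ∧ ¬ M ≤ scalars ι F ∧ Nat.card M = c := ⟨_, N, NI.refl N, hns, rfl⟩
  obtain ⟨M, hM, hMs, hMc⟩ := Nat.find_spec hex
  have hmc : ∀ M', NI M' N → ¬ M' ≤ scalars ι F → Nat.card M ≤ Nat.card M' := by
    intro M' h1 h2
    rw [hMc]
    exact Nat.find_min' hex ⟨M', h1, h2, rfl⟩
  suffices hMN : M = N by
    intro M' h1 h2
    apply Subgroup.eq_of_le_of_card_ge h1.1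
    rw [← hMN]
    exact hmc M' h1 h2
  -- conjugates
  have hcg : ∀ h ∈ H, NI (cg h M) N := fun h hh => ni_cg hNI hM hh
  have hcgs : ∀ h, ¬ cg h M ≤ scalars ι F := fun h h1 => hMs ((cg_scalars h).1 h1)
  have hdis : ∀ h ∈ H, ∀ k ∈ H, cg h M ≠ cg k M → cg h M ⊓ cg k M ≤ scalars ι F := by
    intro h hh k hk hne
    by_contra hs
    apply hne
    have h1 := hmc _ (ni_inf (hcg h hh) (hcg k hk)) hs
    have h2 : cg h M ⊓ cg k M = cg h M := Subgroup.eq_of_le_of_card_ge inf_le_left (by rw [card_cg]; exact h1)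
    have h3 : cg h M ⊓ cg k M = cg k M := Subgroup.eq_of_le_of_card_ge inf_le_right (by rw [card_cg]; exact h1)
    rw [← h2, h3]
  have hcomm : ∀ h ∈ H, ∀ k ∈ H, cg h M ≠ cg k M → ∀ x ∈ cg h M, ∀ y ∈ cg k M, x ∈ CS y := by
    intro h hh k hk hne x hx y hy
    rw [mem_CS]
    apply hdis h hh k hk hne
    constructor
    · rw [commutatorElement_def]
      have h1 := (hcg h hh).2 y ((hcg k hk).1 hy) x⁻¹ ((cg h M).inv_mem hx)
      have h2 := (cg h M).mul_mem hx h1
      have : x * (y * x⁻¹ * y⁻¹) = x * y * x⁻¹ * y⁻¹ := by group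
      rwa [this] at h2
    · rw [commutatorElement_def]
      have h1 := (hcg k hk).2 x ((hcg h hh).1 hx) y hy
      exact (cg k M).mul_mem h1 ((cg k M).inv_mem hy)
  -- the join of all conjugates
  have hJ : ⨆ h : H, cg (h : Matrix.GeneralLinearGroup ι F) M = N := by
    apply hmin
    · rw [ni_iff]
      refine ⟨iSup_le fun h => (hcg h h.2).1.trans hNI.1, fun g hg => ?_⟩
      unfold cg
      rw [Subgroup.map_iSup]
      apply iSup_le
      intro h
      refine le_trans ?_ (le_iSup _ ⟨g * h, H.mul_mem hg h.2⟩)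
      change cg g (cg _ M) ≤ cg (g * (h : Matrix.GeneralLinearGroup ι F)) M
      rw [cg_mul]
    · exact iSup_le fun h => (hcg h h.2).1
    · intro h1
      apply hcgs 1
      exact (le_iSup (fun h : H => cg (h : Matrix.GeneralLinearGroup ι F) M) 1).trans h1
  have hJle : ∀ X : Subgroup (Matrix.GeneralLinearGroup ι F), (∀ h ∈ H, cg h M ≤ X) → N ≤ X := by
    intro X hX
    rw [← hJ]
    exact iSup_le fun h => hX h h.2
  by_cases hMM : ⁅M, M⁆ ≤ scalars ι F
  · exfalso
    have h1 : ∀ h ∈ H, ∀ k ∈ H, ∀ x ∈ cg h M, ∀ y ∈ cg k M, x ∈ CS y := by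
      intro h hh k hk x hx y hy
      by_cases hne : cg h M = cg k M
      · rw [mem_CS]
        rw [hne] at hx
        have h2 := (cg_scalars k).2 hMM
        rw [cg_comm] at h2
        exact h2 (Subgroup.commutator_mem_commutator hx hy)
      · exact hcomm h hh k hk hne x hx y hy
    have h2 : ∀ k ∈ H, ∀ y ∈ cg k M, N ≤ CS y := fun k hk y hy => hJle _ fun h hh x hx => h1 h hh k hk x hx y hy
    have h3 : ∀ x ∈ N, N ≤ CS x := fun x hx => hJle _ fun k hk y hy => mem_CS_symm.1 (h2 k hk y hy hx)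
    apply hns
    rw [← hperf, Subgroup.commutator_le]
    intro a ha b hb
    exact mem_CS.1 (h3 b hb ha)
  · have hMp : ⁅M, M⁆ = M := Subgroup.eq_of_le_of_card_ge (comm_le_self M) (hmc _ (ni_comm hM) hMM)
    by_cases hinv : ∀ h ∈ H, cg h M = M
    · exact hmin M (ni_iff.2 ⟨hM.1.trans hNI.1, fun h hh => (hinv h hh).le⟩) hM.1 hMs
    · exfalso
      push Not at hinv
      obtain ⟨h₀, hh₀, hne₀⟩ := hinv
      have hcen : ∀ h ∈ H, cg h M ≠ M → cg h M ≤ Subgroup.centralizer (M : Set (Matrix.GeneralLinearGroup ι F)) := by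
        intro h hh hne y hy
        rw [Subgroup.mem_centralizer_iff]
        intro x hx
        apply perfect_comm hMp (y := y) _ x hx
        intro x' hx'
        apply hcomm 1 H.one_mem h hh (by rw [cg_one]; exact Ne.symm hne) x' (by rwa [cg_one]) y hy
      rcases cliff_d hp hirrN hM with h | ⟨w, hw, χ₀, hχ₀⟩
      · -- the conjugate commutes with an irreducible group
        have h1 : ⁅cg h₀ M, cg h₀ M⁆ = ⊥ := by
          rw [eq_bot_iff, Subgroup.commutator_le]
          intro a ha b hb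
          rw [Subgroup.mem_bot, commutatorElement_eq_one_iff_mul_comm]
          have h2 := hcen h₀ hh₀ hne₀ ha
          have h3 := hcen h₀ hh₀ hne₀ hb
          rw [Subgroup.mem_centralizer_iff] at h2 h3
          apply Units.ext
          rw [Units.val_mul, Units.val_mul]
          apply Cn_comm h
          · rw [mem_Cn]
            intro x hx
            rw [← Units.val_mul, ← Units.val_mul, h2 x hx]
          · rw [mem_Cn]
            intro x hx
            rw [← Units.val_mul, ← Units.val_mul, h3 x hx]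
        rw [← cg_comm, hMp] at h1
        apply hcgs h₀
        rw [h1]
        exact bot_le
      · let χ : M → F := fun x => χ₀ x
        have hχ : w ∈ Ws M χ := mem_Ws.2 fun x => hχ₀ x x.2
        let X : Subgroup (Matrix.GeneralLinearGroup ι F) :=
          { carrier := {g | mp g (Ws M χ) = Ws M χ}
            mul_mem' := fun {a b} ha hb => by
              change mp (a * b) _ = _
              rw [mp_mul, Set.mem_ofPred.1 hb, Set.mem_ofPred.1 ha]
            one_mem' := mp_one _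
            inv_mem' := fun {a} ha => by
              change mp a⁻¹ _ = _
              have := congrArg (mp a⁻¹) (Set.mem_ofPred.1 ha)
              rw [← mp_mul, inv_mul_cancel, mp_one] at this
              exact this.symm }
        have hX : N ≤ X := by
          apply hJle
          intro h hh
          have haux : ∀ Y : Subgroup (Matrix.GeneralLinearGroup ι F), (∀ g ∈ Y, mp g (Ws M χ) ≤ Ws M χ) → Y ≤ X := by
            intro Y hY g hg
            apply le_antisymm (hY g hg)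
            have h1 := Submodule.map_mono (f := Matrix.toLin' (g : Matrix ι ι F)) (hY g⁻¹ (Y.inv_mem hg))
            change mp g (mp g⁻¹ _) ≤ mp g _ at h1
            rwa [← mp_mul, mul_inv_cancel, mp_one] at h1
          apply haux
          intro g hg
          by_cases hne : cg h M = M
          · rw [hne] at hg
            rintro _ ⟨v, hv, rfl⟩
            rw [toLin_apply, mem_Ws.1 hv ⟨g, hg⟩]
            exact Submodule.smul_mem _ _ hv
          · have h2 := hcen h hh hne hg
            rw [Subgroup.mem_centralizer_iff] at h2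
            rintro _ ⟨v, hv, rfl⟩
            have hv' := mem_Ws.1 hv
            rw [toLin_apply, mem_Ws]
            intro x
            rw [← mulVec_mul, h2 x x.2, mulVec_mul, hv' x, mulVec_smul']
        rcases hirrN (Ws M χ) (inv_iff_mp.2 fun g hg => (hX hg).le) with h | h
        · rw [h, Submodule.mem_bot] at hχ
          exact hw hχ
        · exact hMs (scalars_of_Ws h)

end CfsgLib.Asch4
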