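import Cfsg.Agent.Lib.Asch4

set_option autoImplicit false
set_option maxHeartbeats 400000

/-! The almost simple case, and the action of the normaliser on rational structures and forms. -/
namespace CfsgLib.Asch5

open Cfsg Cfsg.Geo Module CfsgLib.GeoBase CfsgLib.Asch1 CfsgLib.Asch2 CfsgLib.Asch3 CfsgLib.Asch4
open scoped commutatorElement

universe u v

variable {ι : Type} [Fintype ι] [DecidableEq ι] {F : Type u} [Field F]

theorem quot_simple {P : Subgroup (Matrix.GeneralLinearGroup ι F)} (hns : ¬ P ≤ scalars ι F)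
    (hs : ∀ M, NI M P → ¬ M ≤ scalars ι F → M = P) : IsSimpleGroup (P ⧸ (scalars ι F).subgroupOf P) := by
  haveI : Nontrivial (P ⧸ (scalars ι F).subgroupOf P) := by
    obtain ⟨x, hx, hxs⟩ := Set.not_subset.1 hns
    refine ⟨⟨QuotientGroup.mk ⟨x, hx⟩, 1, fun h => hxs ?_⟩⟩
    rw [QuotientGroup.eq_one_iff] at h
    exact h
  refine ⟨fun K hK => ?_⟩
  by_cases hM : (K.comap (QuotientGroup.mk' _)).map P.subtype ≤ scalars ι F
  · left
    rw [eq_bot_iff]
    intro k hk
    obtain ⟨x, rfl⟩ := QuotientGroup.mk_surjective k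
    rw [Subgroup.mem_bot, QuotientGroup.eq_one_iff]
    exact hM ⟨x, hk, rfl⟩
  · right
    have hNI : NI ((K.comap (QuotientGroup.mk' _)).map P.subtype) P := by
      constructor
      · rintro _ ⟨x, -, rfl⟩
        exact x.2
      · rintro h hh _ ⟨x, hx, rfl⟩
        refine ⟨⟨h, hh⟩ * x * ⟨h, hh⟩⁻¹, ?_, rfl⟩
        exact (hK.comap (QuotientGroup.mk' _)).conj_mem x hx ⟨h, hh⟩
    have h1 := hs _ hNI hM
    rw [eq_top_iff]
    intro k _
    obtain ⟨x, rfl⟩ := QuotientGroup.mk_surjective k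
    have h2 : (x : Matrix.GeneralLinearGroup ι F) ∈ (K.comap (QuotientGroup.mk' _)).map P.subtype := by
      rw [h1]; exact x.2
    obtain ⟨y, hy, hyx⟩ := h2
    have : y = x := Subtype.ext hyx
    rw [← this]
    exact hy

theorem quot_noncomm {P : Subgroup (Matrix.GeneralLinearGroup ι F)} (hns : ¬ P ≤ scalars ι F) (hperf : ⁅P, P⁆ = P) :
    ¬ IsMulCommutative (P ⧸ (scalars ι F).subgroupOf P) := by
  intro h
  apply hns
  rw [← hperf, Subgroup.commutator_le]
  intro a ha b hb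
  have h1 : (QuotientGroup.mk (⁅(⟨a, ha⟩ : P), ⟨b, hb⟩⁆) : P ⧸ (scalars ι F).subgroupOf P) = 1 := by
    change QuotientGroup.mk' _ _ = _
    rw [map_commutatorElement, commutatorElement_eq_one_iff_mul_comm]
    exact h.is_comm.comm _ _
  rw [QuotientGroup.eq_one_iff] at h1
  exact h1

/-- the residual core conditions without the subfield condition -/
structure PreCore (H P : Subgroup (Matrix.GeneralLinearGroup ι F)) : Prop where
  le : P ≤ H
  normal : ∀ h ∈ H, ∀ x ∈ P, h * x * h⁻¹ ∈ P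
  perfect : ⁅P, P⁆ = P
  simple : IsSimpleGroup (P ⧸ (scalars ι F).subgroupOf P)
  nonabelian : ¬ IsMulCommutative (P ⧸ (scalars ι F).subgroupOf P)
  centralizer_scalar : ∀ h ∈ H, (∀ x ∈ P, h * x * h⁻¹ * x⁻¹ ∈ scalars ι F) → h ∈ scalars ι F
  absIrred : ActsAbsolutelyIrreducibly (matrixSet P)

theorem PreCore.core {H P : Subgroup (Matrix.GeneralLinearGroup ι F)} (h : PreCore H P)
    (hs : ∀ F₀ : Subfield F, F₀ ≠ ⊤ → ¬ RealisableOver F₀ (matrixSet P)) : IsResidualCore H P :=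
  ⟨h.le, h.normal, h.perfect, h.simple, h.nonabelian, h.centralizer_scalar, h.absIrred, hs⟩

/-- an element commuting with an absolutely irreducible group is a scalar -/
theorem scalar_of_comm {P : Subgroup (Matrix.GeneralLinearGroup ι F)} (hP : ActsAbsolutelyIrreducibly (matrixSet P))
    {h : Matrix.GeneralLinearGroup ι F} (hc : ∀ x ∈ P, x * h = h * x) [Nonempty ι] : h ∈ scalars ι F := by
  obtain ⟨c, hc'⟩ := hP.2 (h : Matrix ι ι F) (by
    rintro _ ⟨x, hx, rfl⟩
    change (h : Matrix ι ι F) * (x : Matrix ι ι F) = (x : Matrix ι ι F) * (h : Matrix ι ι F)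
    rw [← Units.val_mul, ← Units.val_mul, hc x hx])
  rw [mem_scalars_iff]
  have h0 : c ≠ 0 := by
    intro h0
    rw [h0, zero_smul] at hc'
    exact h.ne_zero hc'
  exact ⟨Units.mk0 c h0, hc'⟩

theorem preCore_of [Finite F] (hp : (Fintype.card ι).Prime) {N H : Subgroup (Matrix.GeneralLinearGroup ι F)} (hNI : NI N H)
    (hns : ¬ N ≤ scalars ι F) (hmin : ∀ M, NI M H → M ≤ N → ¬ M ≤ scalars ι F → M = N)
    (habs : ActsAbsolutelyIrreducibly (matrixSet N)) (hperf : ⁅N, N⁆ = N) : PreCore H N := by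
  haveI : Nonempty ι := Fintype.card_pos_iff.1 hp.pos
  refine ⟨hNI.1, hNI.2, hperf, quot_simple hns (simple_of_perfect hp hNI hns hmin (irr_iff.1 habs.1) hperf), quot_noncomm hns hperf, ?_, habs⟩
  intro h _ hx
  apply scalar_of_comm habs
  apply perfect_comm hperf
  intro x hxN
  rw [mem_CS_symm, mem_CS, commutatorElement_def]
  exact hx x hxN

/-! ### rational structures -/

theorem conj_val (B g : Matrix.GeneralLinearGroup ι F) :
    ((B * g * B⁻¹ : Matrix.GeneralLinearGroup ι F) : Matrix ι ι F) = (B : Matrix ι ι F) * g * ((B⁻¹ : Matrix.GeneralLinearGroup ι F) : Matrix ι ι F) := rfl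

/-- matrices over the subfield -/
theorem exists_map (F₀ : Subfield F) {g : Matrix.GeneralLinearGroup ι F} (hg : ∀ i j, (g : Matrix ι ι F) i j ∈ F₀) :
    g ∈ (Matrix.GeneralLinearGroup.map (F₀.subtype : F₀ →+* F)).range := by
  let M : Matrix ι ι F₀ := fun i j => ⟨(g : Matrix ι ι F) i j, hg i j⟩
  have hM : M.map F₀.subtype = (g : Matrix ι ι F) := by
    ext i j
    rfl
  have hdet : IsUnit M.det := by
    rw [isUnit_iff_ne_zero]
    intro h0
    have h1 : (g : Matrix ι ι F).det = 0 := by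
      rw [← hM]
      have := (RingHom.map_det F₀.subtype M).symm
      rw [h0, map_zero] at this
      exact this
    exact (Matrix.isUnits_det_units g).ne_zero h1
  refine ⟨Matrix.GeneralLinearGroup.mk'' M hdet, ?_⟩
  apply Units.ext
  exact hM

/-- intertwiners between rational representations can be chosen rational -/
theorem rational_intertwiner (F₀ : Subfield F) {S : Set (Matrix ι ι F × Matrix ι ι F)}
    (hS : ∀ s ∈ S, (∀ i j, s.1 i j ∈ F₀) ∧ (∀ i j, s.2 i j ∈ F₀)) {T : Matrix ι ι F} (hT0 : T ≠ 0) (hT : ∀ s ∈ S, T * s.1 = s.2 * T)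
    (huniq : ∀ T' : Matrix ι ι F, (∀ s ∈ S, T' * s.1 = s.2 * T') → ∃ c : F, T' = c • T) :
    ∃ (c : F) (T' : Matrix ι ι F), c ≠ 0 ∧ (∀ i j, T' i j ∈ F₀) ∧ T' = c • T := by
  classical
  let b := Module.Basis.ofVectorSpace F₀ F
  -- the coordinate maps
  have hcoord : ∀ k, ∀ s ∈ S, (T.map fun x => ((b.coord k x : F₀) : F)) * s.1 = s.2 * (T.map fun x => ((b.coord k x : F₀) : F)) := by
    intro k s hs
    have h1 := hT s hs
    ext i j
    have h2 := congrFun (congrFun h1 i) j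
    rw [Matrix.mul_apply, Matrix.mul_apply] at h2
    rw [Matrix.mul_apply, Matrix.mul_apply]
    have h3 := congrArg (b.coord k) h2
    rw [map_sum, map_sum] at h3
    have h4 : ∀ (x y : F) (hy : y ∈ F₀), b.coord k (x * y) = b.coord k x * ⟨y, hy⟩ := by
      intro x y hy
      have : x * y = (⟨y, hy⟩ : F₀) • x := mul_comm x y
      rw [this, map_smul, smul_eq_mul, mul_comm]
    have h5 : ∀ (x y : F) (hy : y ∈ F₀), b.coord k (y * x) = ⟨y, hy⟩ * b.coord k x := by
      intro x y hy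
      have : y * x = (⟨y, hy⟩ : F₀) • x := rfl
      rw [this, map_smul, smul_eq_mul]
    rw [Finset.sum_congr rfl (fun x _ => h4 _ _ ((hS s hs).1 x j)), Finset.sum_congr rfl (fun x _ => h5 _ _ ((hS s hs).2 i x))] at h3
    have h6 := congrArg (F₀.subtype) h3
    rw [map_sum, map_sum] at h6
    exact h6
  -- some coordinate is non-zero
  obtain ⟨i, j, hij⟩ : ∃ i j, T i j ≠ 0 := by
    by_contra hne
    push Not at hne
    apply hT0
    ext i j
    exact hne i j
  obtain ⟨k, hk⟩ : ∃ k, b.coord k (T i j) ≠ 0 := by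
    by_contra hne
    push Not at hne
    exact hij (b.forall_coord_eq_zero_iff.1 hne)
  obtain ⟨c, hc⟩ := huniq _ (hcoord k)
  refine ⟨c, _, ?_, fun i j => (b.coord k (T i j)).2, hc⟩
  rintro rfl
  rw [zero_smul] at hc
  apply hk
  apply Subtype.ext
  exact congrFun (congrFun hc i) j

/-- a group normalising a realisable absolutely irreducible group lies in a subfield group -/
theorem le_subfield [Nonempty ι] {P H : Subgroup (Matrix.GeneralLinearGroup ι F)} (hNI : NI P H) (habs : ActsAbsolutelyIrreducibly (matrixSet P))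
    {F₀ : Subfield F} (hr : RealisableOver F₀ (matrixSet P)) : ∃ Q : Matrix.GeneralLinearGroup ι F, H ≤ subfieldSubgroup F₀ Q := by
  obtain ⟨B, hB⟩ := hr
  refine ⟨B⁻¹, fun h hh => ?_⟩
  have hB' : ∀ x ∈ P, ∀ i j, ((B * x * B⁻¹ : Matrix.GeneralLinearGroup ι F) : Matrix ι ι F) i j ∈ F₀ := fun x hx => hB _ ⟨x, hx, rfl⟩
  -- the conjugated element
  have hT : ∀ x ∈ P, (B * h * B⁻¹) * (B * x * B⁻¹) = (B * (h * x * h⁻¹) * B⁻¹) * (B * h * B⁻¹) := by
    intro x _
    group
  obtain ⟨c, T', hc, hT', hT'c⟩ := rational_intertwiner F₀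
    (S := {s | ∃ x ∈ P, s = (((B * x * B⁻¹ : Matrix.GeneralLinearGroup ι F) : Matrix ι ι F), ((B * (h * x * h⁻¹) * B⁻¹ : Matrix.GeneralLinearGroup ι F) : Matrix ι ι F))})
    (T := ((B * h * B⁻¹ : Matrix.GeneralLinearGroup ι F) : Matrix ι ι F))
    (by
      rintro _ ⟨x, hx, rfl⟩
      exact ⟨hB' x hx, hB' _ (hNI.2 h hh x hx)⟩)
    (Units.ne_zero _)
    (by
      rintro _ ⟨x, hx, rfl⟩
      have := congrArg (Units.val) (hT x hx)
      rw [Units.val_mul, Units.val_mul] at this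
      exact this)
    (by
      intro T' hT'
      -- (B h B⁻¹)⁻¹ T' commutes with P
      obtain ⟨c, hc⟩ := habs.2 (((h⁻¹ * B⁻¹ : Matrix.GeneralLinearGroup ι F) : Matrix ι ι F) * T' * (B : Matrix ι ι F)) (by
        rintro _ ⟨x, hx, rfl⟩
        have h1 := hT' _ ⟨x, hx, rfl⟩
        simp only at h1
        change ((h⁻¹ * B⁻¹ : Matrix.GeneralLinearGroup ι F) : Matrix ι ι F) * T' * (B : Matrix ι ι F) * (x : Matrix ι ι F) = (x : Matrix ι ι F) * (((h⁻¹ * B⁻¹ : Matrix.GeneralLinearGroup ι F) : Matrix ι ι F) * T' * (B : Matrix ι ι F))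
        have e1 : (B : Matrix ι ι F) * (x : Matrix ι ι F) = ((B * x * B⁻¹ : Matrix.GeneralLinearGroup ι F) : Matrix ι ι F) * (B : Matrix ι ι F) := by
          rw [← Units.val_mul, ← Units.val_mul, inv_mul_cancel_right]
        have e2 : ((h⁻¹ * B⁻¹ : Matrix.GeneralLinearGroup ι F) : Matrix ι ι F) * ((B * (h * x * h⁻¹) * B⁻¹ : Matrix.GeneralLinearGroup ι F) : Matrix ι ι F) = (x : Matrix ι ι F) * ((h⁻¹ * B⁻¹ : Matrix.GeneralLinearGroup ι F) : Matrix ι ι F) := by
          rw [← Units.val_mul, ← Units.val_mul]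
          congr 1
          group
        calc ((h⁻¹ * B⁻¹ : Matrix.GeneralLinearGroup ι F) : Matrix ι ι F) * T' * (B : Matrix ι ι F) * (x : Matrix ι ι F)
            = ((h⁻¹ * B⁻¹ : Matrix.GeneralLinearGroup ι F) : Matrix ι ι F) * (T' * ((B * x * B⁻¹ : Matrix.GeneralLinearGroup ι F) : Matrix ι ι F)) * (B : Matrix ι ι F) := by
              rw [mul_assoc, e1]; simp only [mul_assoc]
          _ = (((h⁻¹ * B⁻¹ : Matrix.GeneralLinearGroup ι F) : Matrix ι ι F) * ((B * (h * x * h⁻¹) * B⁻¹ : Matrix.GeneralLinearGroup ι F) : Matrix ι ι F)) * T' * (B : Matrix ι ι F) := by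
              rw [h1]; simp only [mul_assoc]
          _ = _ := by rw [e2]; simp only [mul_assoc])
      refine ⟨c, ?_⟩
      have e3 : ((B * h : Matrix.GeneralLinearGroup ι F) : Matrix ι ι F) * (((h⁻¹ * B⁻¹ : Matrix.GeneralLinearGroup ι F) : Matrix ι ι F) * T' * (B : Matrix ι ι F)) * ((B⁻¹ : Matrix.GeneralLinearGroup ι F) : Matrix ι ι F) = T' := by
        have f1 : ((B * h : Matrix.GeneralLinearGroup ι F) : Matrix ι ι F) * ((h⁻¹ * B⁻¹ : Matrix.GeneralLinearGroup ι F) : Matrix ι ι F) = 1 := by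
          rw [← Units.val_mul]
          have : (B * h) * (h⁻¹ * B⁻¹) = 1 := by group
          rw [this, Units.val_one]
        have f2 : (B : Matrix ι ι F) * ((B⁻¹ : Matrix.GeneralLinearGroup ι F) : Matrix ι ι F) = 1 := by
          rw [← Units.val_mul, mul_inv_cancel, Units.val_one]
        calc _ = (((B * h : Matrix.GeneralLinearGroup ι F) : Matrix ι ι F) * ((h⁻¹ * B⁻¹ : Matrix.GeneralLinearGroup ι F) : Matrix ι ι F)) * T' * ((B : Matrix ι ι F) * ((B⁻¹ : Matrix.GeneralLinearGroup ι F) : Matrix ι ι F)) := by simp only [mul_assoc]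
          _ = T' := by rw [f1, f2, one_mul, mul_one]
      rw [← e3, hc, Matrix.mul_smul, Matrix.smul_mul, mul_one]
      rfl)
  -- write the element as rational times scalar
  have hu : IsUnit T' := by
    rw [hT'c]
    have : IsUnit ((Units.mk0 c hc • (1 : Matrix ι ι F)) * ((B * h * B⁻¹ : Matrix.GeneralLinearGroup ι F) : Matrix ι ι F)) :=
      (isUnit_one.smul (Units.mk0 c hc)).mul (Units.isUnit _)
    rw [Matrix.smul_mul, one_mul] at this
    exact this
  obtain ⟨T'', hT''⟩ := hu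
  have h1 : T'' ∈ (Matrix.GeneralLinearGroup.map (F₀.subtype : F₀ →+* F)).range := exists_map F₀ (by rw [hT'']; exact hT')
  have h2 : (B * h * B⁻¹) * T''⁻¹ ∈ scalars ι F := by
    rw [mem_scalars_iff]
    refine ⟨(Units.mk0 c hc)⁻¹, ?_⟩
    have h3 : ((B * h * B⁻¹ : Matrix.GeneralLinearGroup ι F) : Matrix ι ι F) = c⁻¹ • (T'' : Matrix ι ι F) := by
      rw [hT'', hT'c, smul_smul, inv_mul_cancel₀ hc, one_smul]
    rw [Units.val_mul, h3, Matrix.smul_mul, ← Units.val_mul, mul_inv_cancel, Units.val_one]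
    rfl
  refine ⟨B * h * B⁻¹, ?_, ?_⟩
  · have h3 : B * h * B⁻¹ = T'' * ((B * h * B⁻¹) * T''⁻¹) := by
      rw [← scalar_comm h2 T'', inv_mul_cancel_right]
    rw [h3]
    exact Subgroup.mul_mem_sup h1 h2
  · change B⁻¹ * (B * h * B⁻¹) * B⁻¹⁻¹ = h
    group

end CfsgLib.Asch5
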