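import Cfsg.Agent.Lib.Asch5

set_option autoImplicit false
set_option maxHeartbeats 400000

/-! Invariant forms of absolutely irreducible normal subgroups. -/
namespace CfsgLib.Asch6

open Cfsg Cfsg.Geo Module CfsgLib.GeoBase CfsgLib.Asch1 CfsgLib.Asch2 CfsgLib.Asch3 CfsgLib.Asch4 CfsgLib.Asch5

universe u v

variable {ι : Type} [Fintype ι] [DecidableEq ι] {F : Type u} [Field F]

/-- sesquilinear forms as functions -/
structure SF (σ : F ≃+* F) (f : (ι → F) → (ι → F) → F) : Prop where
  add_left : ∀ x y v, f (x + y) v = f x v + f y v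
  smul_left : ∀ (c : F) (x v : ι → F), f (c • x) v = c * f x v
  add_right : ∀ v x y, f v (x + y) = f v x + f v y
  smul_right : ∀ (c : F) (v x : ι → F), f v (c • x) = σ c * f v x

theorem sf_bilin {f : (ι → F) → (ι → F) → F} (h : IsBilinearForm f) : SF (RingEquiv.refl F) f :=
  ⟨h.add_left, h.smul_left, h.add_right, h.smul_right⟩

theorem sf_unitary {σ : F ≃+* F} {f : (ι → F) → (ι → F) → F} (h : IsUnitaryForm σ f) : SF σ f := by
  refine ⟨h.add_left, h.smul_left, fun v x y => ?_, fun c v x => ?_⟩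
  · rw [h.herm, h.add_left, map_add, ← h.herm, ← h.herm]
  · rw [h.herm, h.smul_left, map_mul, ← h.herm]

/-- matrix of a form -/
theorem sf_rep {σ : F ≃+* F} {f : (ι → F) → (ι → F) → F} (h : SF σ f) :
    ∃ A : Matrix ι ι F, ∀ u v, f u v = u ⬝ᵥ (A.mulVec fun i => σ (v i)) := by
  refine ⟨fun i j => f (Pi.single i 1) (Pi.single j 1), fun u v => ?_⟩
  let L : (ι → F) → (ι → F) →ₗ[F] F := fun v =>
    { toFun := fun u => f u v
      map_add' := fun x y => h.add_left x y v
      map_smul' := fun c x => h.smul_left c x v }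
  let R : (ι → F) → (ι → F) →ₗ[F] F := fun u =>
    { toFun := fun v => σ.symm (f u v)
      map_add' := fun x y => by rw [h.add_right, map_add]
      map_smul' := fun c x => by rw [h.smul_right, map_mul, RingEquiv.symm_apply_apply]; rfl }
  have h1 : f u v = ∑ i, u i * f (Pi.single i 1) v := by
    conv_lhs => rw [show f u v = L v u from rfl, pi_eq_sum_univ' u, map_sum]
    apply Finset.sum_congr rfl
    intro i _
    rw [map_smul, smul_eq_mul]
    congr 2
  have h2 : ∀ w, f w v = ∑ j, f w (Pi.single j 1) * σ (v j) := by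
    intro w
    have : σ.symm (f w v) = ∑ j, v j * σ.symm (f w (Pi.single j 1)) := by
      conv_lhs => rw [show σ.symm (f w v) = R w v from rfl, pi_eq_sum_univ' v, map_sum]
      apply Finset.sum_congr rfl
      intro i _
      rw [map_smul, smul_eq_mul]
      change v i * σ.symm (f w _) = _
      congr 3
    have h3 := congrArg σ this
    rw [RingEquiv.apply_symm_apply, map_sum] at h3
    rw [h3]
    apply Finset.sum_congr rfl
    intro j _
    rw [map_mul, RingEquiv.apply_symm_apply, mul_comm]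
  rw [h1]
  simp only [dotProduct, Matrix.mulVec]
  apply Finset.sum_congr rfl
  intro i _
  rw [h2]

theorem rep_unique {σ : F ≃+* F} {A B : Matrix ι ι F}
    (h : ∀ u v : ι → F, u ⬝ᵥ (A.mulVec fun i => σ (v i)) = u ⬝ᵥ (B.mulVec fun i => σ (v i))) : A = B := by
  apply Matrix.toLin'.injective
  apply LinearMap.ext
  intro w
  rw [Matrix.toLin'_apply, Matrix.toLin'_apply]
  apply dotProduct_eq
  intro u
  have := h u (fun i => σ.symm (w i))
  simp only [RingEquiv.apply_symm_apply] at this
  rw [dotProduct_comm, this, dotProduct_comm]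

theorem rep_conj {σ : F ≃+* F} (A h : Matrix ι ι F) (u v : ι → F) :
    (h.mulVec u) ⬝ᵥ (A.mulVec fun i => σ (h.mulVec v i)) = u ⬝ᵥ ((h.transpose * A * h.map σ).mulVec fun i => σ (v i)) := by
  have h1 : (fun i => σ (h.mulVec v i)) = (h.map σ).mulVec fun i => σ (v i) := by
    funext i
    exact RingHom.map_mulVec (σ : F →+* F) h v i
  rw [h1, ← Matrix.mulVec_mulVec, ← Matrix.mulVec_mulVec, Matrix.dotProduct_mulVec u, Matrix.vecMul_transpose]

theorem rep_isUnit {σ : F ≃+* F} {f : (ι → F) → (ι → F) → F} {A : Matrix ι ι F} (hA : ∀ u v, f u v = u ⬝ᵥ (A.mulVec fun i => σ (v i)))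
    (hf : IsNondegenerateForm f) : IsUnit A := by
  rw [← Matrix.mulVec_injective_iff_isUnit]
  have h1 : Function.Injective (Matrix.toLin' A) := by
    rw [← LinearMap.ker_eq_bot, eq_bot_iff]
    intro w hw
    rw [LinearMap.mem_ker, Matrix.toLin'_apply] at hw
    rw [Submodule.mem_bot]
    by_contra hw0
    have hv : (fun i => σ.symm (w i)) ≠ 0 := by
      intro h
      apply hw0
      funext i
      have := congrFun h i
      have h2 := congrArg σ this
      rwa [RingEquiv.apply_symm_apply, Pi.zero_apply, map_zero] at h2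
    obtain ⟨⟨x, hx⟩, -⟩ := hf _ hv
    apply hx
    rw [hA]
    simp only [RingEquiv.apply_symm_apply]
    rw [hw, dotProduct_zero]
  exact h1

/-- the normaliser of an absolutely irreducible group preserves its forms up to scalars -/
theorem le_similarity [Nonempty ι] {P H : Subgroup (Matrix.GeneralLinearGroup ι F)} (hNI : NI P H) (habs : ActsAbsolutelyIrreducibly (matrixSet P))
    {σ : F ≃+* F} {f : (ι → F) → (ι → F) → F} (hf : SF σ f) (hnd : IsNondegenerateForm f) (hfix : FixesForm (matrixSet P) f) :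
    H ≤ similarityGroup f := by
  intro h hh
  obtain ⟨A, hA⟩ := sf_rep hf
  have hu := rep_isUnit hA hnd
  have hd : IsUnit A.det := (Matrix.isUnit_iff_isUnit_det A).1 hu
  have hinv : ∀ x ∈ P, (x : Matrix ι ι F).transpose * A * (x : Matrix ι ι F).map σ = A := by
    intro x hx
    apply rep_unique (σ := σ)
    intro u v
    rw [← rep_conj, ← hA, ← hA]
    exact hfix _ ⟨x, hx, rfl⟩ u v
  have hinv' : ∀ x ∈ P, (x : Matrix ι ι F).transpose * ((h : Matrix ι ι F).transpose * A * (h : Matrix ι ι F).map σ) * (x : Matrix ι ι F).map σ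
      = (h : Matrix ι ι F).transpose * A * (h : Matrix ι ι F).map σ := by
    intro x hx
    apply rep_unique (σ := σ)
    intro u v
    rw [← rep_conj, ← rep_conj, ← rep_conj, ← hA, ← hA]
    have h1 := hfix _ ⟨h * x * h⁻¹, hNI.2 h hh x hx, rfl⟩ (Matrix.mulVec (h : Matrix ι ι F) u) (Matrix.mulVec (h : Matrix ι ι F) v)
    simp only at h1
    rw [← mulVec_mul, ← mulVec_mul, inv_mul_cancel_right, mulVec_mul, mulVec_mul] at h1
    exact h1
  set A' := (h : Matrix ι ι F).transpose * A * (h : Matrix ι ι F).map σ with hA'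
  obtain ⟨c, hc⟩ := habs.2 (A' * A⁻¹).transpose (by
    rintro _ ⟨x, hx, rfl⟩
    change (A' * A⁻¹).transpose * (x : Matrix ι ι F) = (x : Matrix ι ι F) * (A' * A⁻¹).transpose
    have h1 : (x : Matrix ι ι F).transpose * (A' * A⁻¹) = (A' * A⁻¹) * (x : Matrix ι ι F).transpose := by
      have h2 := hinv x hx
      have h3 := hinv' x hx
      -- x.map σ = A⁻¹ * xᵀ⁻¹ * A
      have hxu : IsUnit (x : Matrix ι ι F).transpose.det := by
        rw [Matrix.det_transpose]
        exact Matrix.isUnits_det_units x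
      have h4 : (x : Matrix ι ι F).map σ = A⁻¹ * (x : Matrix ι ι F).transpose⁻¹ * A := by
        calc (x : Matrix ι ι F).map σ = A⁻¹ * ((x : Matrix ι ι F).transpose⁻¹ * (x : Matrix ι ι F).transpose) * A * (x : Matrix ι ι F).map σ := by
              rw [Matrix.nonsing_inv_mul _ hxu, mul_one, Matrix.nonsing_inv_mul _ hd, one_mul]
          _ = A⁻¹ * (x : Matrix ι ι F).transpose⁻¹ * ((x : Matrix ι ι F).transpose * A * (x : Matrix ι ι F).map σ) := by simp only [mul_assoc]
          _ = _ := by rw [h2]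
      rw [h4] at h3
      calc (x : Matrix ι ι F).transpose * (A' * A⁻¹)
          = ((x : Matrix ι ι F).transpose * A' * (A⁻¹ * (x : Matrix ι ι F).transpose⁻¹ * A)) * (A⁻¹ * (x : Matrix ι ι F).transpose) := by
            simp only [mul_assoc]
            rw [← mul_assoc A A⁻¹, Matrix.mul_nonsing_inv _ hd, one_mul, Matrix.nonsing_inv_mul _ hxu, mul_one]
        _ = A' * (A⁻¹ * (x : Matrix ι ι F).transpose) := by rw [h3]
        _ = _ := (mul_assoc A' A⁻¹ _).symm
    have h5 := congrArg Matrix.transpose h1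
    rw [Matrix.transpose_mul, Matrix.transpose_mul (A' * A⁻¹), Matrix.transpose_transpose] at h5
    exact h5)
  have h6 : A' = c • A := by
    have h7 := congrArg Matrix.transpose hc
    rw [Matrix.transpose_transpose, Matrix.transpose_smul, Matrix.transpose_one] at h7
    calc A' = (A' * A⁻¹) * A := by rw [mul_assoc, Matrix.nonsing_inv_mul _ hd, mul_one]
      _ = c • A := by rw [h7, Matrix.smul_mul, one_mul]
  have hAn : ∀ u v, f (Matrix.mulVec (h : Matrix ι ι F) u) (Matrix.mulVec (h : Matrix ι ι F) v) = c * f u v := by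
    intro u v
    rw [hA, rep_conj, ← hA', h6, hA u v, Matrix.smul_mulVec, dotProduct_smul, smul_eq_mul]
  have hc0 : c ≠ 0 := by
    rintro rfl
    obtain ⟨w, hw⟩ := exists_ne (0 : ι → F)
    have hw' : Matrix.mulVec ((h⁻¹ : Matrix.GeneralLinearGroup ι F) : Matrix ι ι F) w ≠ 0 := by
      intro h0
      rw [← Matrix.mulVec_zero ((h⁻¹ : Matrix.GeneralLinearGroup ι F) : Matrix ι ι F)] at h0
      exact hw (mulVec_injective _ h0)
    obtain ⟨⟨x, hx⟩, -⟩ := hnd w hw
    apply hx
    have := hAn (Matrix.mulVec ((h⁻¹ : Matrix.GeneralLinearGroup ι F) : Matrix ι ι F) x) (Matrix.mulVec ((h⁻¹ : Matrix.GeneralLinearGroup ι F) : Matrix ι ι F) w)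
    rw [mulVec_inv, mulVec_inv, zero_mul] at this
    exact this
  exact ⟨Units.mk0 c hc0, hAn⟩

theorem le_quadSimilarity [Nonempty ι] {P H : Subgroup (Matrix.GeneralLinearGroup ι F)} (hNI : NI P H) (habs : ActsAbsolutelyIrreducibly (matrixSet P))
    (h2 : (2 : F) ≠ 0) {Q : (ι → F) → F} (hQ : IsNondegenerateQuadraticForm Q) (hfix : FixesQuadForm (matrixSet P) Q) :
    H ≤ quadSimilarityGroup Q := by
  have h1 : FixesForm (matrixSet P) (QuadraticMap.polar Q) := by
    intro s hs u v
    unfold QuadraticMap.polar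
    rw [← Matrix.mulVec_add, hfix s hs, hfix s hs, hfix s hs]
  have h3 := le_similarity hNI habs (sf_bilin hQ.polar_bilinear) hQ.nondegenerate h1
  have h4 : ∀ v, QuadraticMap.polar Q v v = 2 * Q v := by
    intro v
    unfold QuadraticMap.polar
    rw [← two_smul F v, hQ.smul]
    ring
  intro h hh
  obtain ⟨c, hc⟩ := h3 hh
  refine ⟨c, fun v => ?_⟩
  have h5 := hc v v
  rw [h4, h4] at h5
  apply mul_left_cancel₀ h2
  rw [h5]
  ring

/-- alternating matrices of odd size are singular -/
theorem det_alt_odd {R : Type v} [CommRing R] (A : Matrix ι ι R) (hT : ∀ i j, A i j = -A j i) (hd : ∀ i, A i i = 0)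
    (hodd : Odd (Fintype.card ι)) : A.det = 0 := by
  rw [Matrix.det_apply]
  apply Finset.sum_involution (fun σ _ => σ⁻¹)
  · intro σ _
    have h1 : ∏ i, A (σ⁻¹ i) i = ∏ i, A i (σ i) := by
      rw [← Equiv.prod_comp σ (fun i => A (σ⁻¹ i) i)]
      apply Finset.prod_congr rfl
      intro i _
      simp
    have h2 : ∏ i, A i (σ i) = - ∏ i, A (σ i) i := by
      rw [Finset.prod_congr rfl (fun i _ => hT i (σ i)), Finset.prod_neg, Finset.card_univ, hodd.neg_one_pow, neg_one_mul]
    rw [h1, h2, Equiv.Perm.sign_inv, smul_neg, add_neg_cancel]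
  · intro σ _ hne heq
    apply hne
    obtain ⟨a, ha⟩ := Equiv.Perm.exists_fixed_point_of_prime (p := 2) (n := 1) (α := ι)
      (fun h => (Nat.not_even_iff_odd.2 hodd) (even_iff_two_dvd.2 h)) (σ := σ) (by
        rw [pow_one, pow_two]
        nth_rewrite 1 [← heq]
        exact inv_mul_cancel σ)
    rw [Finset.prod_eq_zero (Finset.mem_univ a) (by rw [ha, hd]), smul_zero]
  · intro σ _
    exact inv_inv σ
  · intro σ _
    exact Finset.mem_univ _

theorem no_symplectic (hodd : Odd (Fintype.card ι)) {f : (ι → F) → (ι → F) → F} (hf : IsSymplecticForm f) : False := by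
  obtain ⟨A, hA⟩ := sf_rep (sf_bilin hf.bilinear)
  have hu := rep_isUnit hA hf.nondegenerate
  have hent : ∀ i j, f (Pi.single i 1) (Pi.single j 1) = A i j := by
    intro i j
    rw [hA]
    have : (fun k => (RingEquiv.refl F) ((Pi.single j 1 : ι → F) k)) = Pi.single j 1 := rfl
    rw [this, single_dotProduct, Matrix.mulVec_single, one_mul]
    simp
  have h0 := det_alt_odd A (fun i j => by rw [← hent, ← hent]; exact hf.skew _ _) (fun i => by rw [← hent]; exact hf.alternating _) hodd
  have h1 := (Matrix.isUnit_iff_isUnit_det A).1 hu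
  rw [h0] at h1
  exact not_isUnit_zero h1

end CfsgLib.Asch6
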