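import Cfsg.Agent.Lib.Asch6

set_option autoImplicit false
set_option maxHeartbeats 400000

/-! The extraspecial case in odd prime dimension. -/
namespace CfsgLib.Asch7

open Cfsg Cfsg.Geo Module CfsgLib.GeoBase CfsgLib.Asch1 CfsgLib.Asch2 CfsgLib.Asch3 CfsgLib.Asch4 CfsgLib.Asch5 CfsgLib.Asch6
open scoped commutatorElement

universe u v

section
variable {G : Type v} [Group G]

theorem pow_mul_c {x y c : G} (hc : ∀ g, c * g = g * c) (h : y * x = c * (x * y)) (k : ℕ) : y ^ k * x = c ^ k * (x * y ^ k) := by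
  induction k with
  | zero => simp
  | succ k ih =>
    calc y ^ (k + 1) * x = y ^ k * (y * x) := by rw [pow_succ, mul_assoc]
      _ = y ^ k * (c * (x * y)) := by rw [h]
      _ = c * (y ^ k * x) * y := by rw [← mul_assoc (y ^ k) c, ← hc (y ^ k)]; simp only [mul_assoc]
      _ = c ^ (k + 1) * (x * y ^ (k + 1)) := by rw [ih, pow_succ' c, pow_succ y]; simp only [mul_assoc]

theorem mul_pow_c {x y c : G} (hc : ∀ g, c * g = g * c) (h : y * x = c * (x * y)) (k : ℕ) :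
    (x * y) ^ k = c ^ (∑ i ∈ Finset.range k, i) * (x ^ k * y ^ k) := by
  induction k with
  | zero => simp
  | succ k ih =>
    have h1 : ∀ m : ℕ, ∀ g, c ^ m * g = g * c ^ m := by
      intro m g
      have : Commute c g := hc g
      exact this.pow_left m
    calc (x * y) ^ (k + 1) = c ^ (∑ i ∈ Finset.range k, i) * (x ^ k * (y ^ k * x) * y) := by
          rw [pow_succ, ih]; simp only [mul_assoc]
      _ = c ^ (∑ i ∈ Finset.range k, i) * (x ^ k * (c ^ k * (x * y ^ k)) * y) := by rw [pow_mul_c hc h]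
      _ = c ^ (∑ i ∈ Finset.range k, i) * (c ^ k * (x ^ k * x * (y ^ k * y))) := by
          rw [← mul_assoc (x ^ k) (c ^ k), ← h1 k (x ^ k)]; simp only [mul_assoc]
      _ = _ := by rw [Finset.sum_range_succ, pow_add, pow_succ x, pow_succ y]; simp only [mul_assoc]

theorem dvd_tri {r : ℕ} (hr : Odd r) : r ∣ ∑ i ∈ Finset.range r, i := by
  have h1 := Finset.sum_range_id_mul_two r
  have h2 : r ∣ (∑ i ∈ Finset.range r, i) * 2 := by rw [h1]; exact dvd_mul_right _ _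
  exact (Nat.Coprime.dvd_of_dvd_mul_right (Nat.coprime_two_right.2 hr) h2)

end

variable {ι : Type} [Fintype ι] [DecidableEq ι] {F : Type u} [Field F]

/-- scalar matrices -/
def sc : Fˣ →* Matrix.GeneralLinearGroup ι F := Units.map (Matrix.scalar ι : F →+* Matrix ι ι F).toMonoidHom

theorem sc_val (c : Fˣ) : ((sc c : Matrix.GeneralLinearGroup ι F) : Matrix ι ι F) = (c : F) • (1 : Matrix ι ι F) := by
  change Matrix.scalar ι (c : F) = _
  simp [Matrix.smul_one_eq_diagonal]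

theorem sc_mem (c : Fˣ) : (sc c : Matrix.GeneralLinearGroup ι F) ∈ scalars ι F := ⟨c, rfl⟩

theorem exists_sc {g : Matrix.GeneralLinearGroup ι F} (hg : g ∈ scalars ι F) : ∃ c : Fˣ, g = sc c := by
  obtain ⟨c, rfl⟩ := hg
  exact ⟨c, rfl⟩

theorem sc_mulVec (c : Fˣ) (v : ι → F) : Matrix.mulVec ((sc c : Matrix.GeneralLinearGroup ι F) : Matrix ι ι F) v = (c : F) • v := by
  rw [sc_val, Matrix.smul_mulVec, Matrix.one_mulVec]

theorem sc_inj [Nonempty ι] : Function.Injective (sc : Fˣ → Matrix.GeneralLinearGroup ι F) := by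
  intro c d h
  obtain ⟨i⟩ := (inferInstance : Nonempty ι)
  have h1 := congrArg Units.val h
  rw [sc_val, sc_val] at h1
  have h2 := congrFun (congrFun h1 i) i
  simp at h2
  exact Units.ext h2

theorem det_sc (c : Fˣ) : ((sc c : Matrix.GeneralLinearGroup ι F) : Matrix ι ι F).det = (c : F) ^ Fintype.card ι := by
  rw [sc_val, Matrix.det_smul, Matrix.det_one, mul_one]

/-- commutator relation -/
theorem comm_rel {x y : Matrix.GeneralLinearGroup ι F} : y * x = ⁅y, x⁆ * (x * y) := by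
  rw [commutatorElement_def]
  group

/-- elements whose `s`-th power is scalar -/
def Om {N : Subgroup (Matrix.GeneralLinearGroup ι F)} (hc : ∀ x ∈ N, ∀ y ∈ N, ⁅x, y⁆ ∈ scalars ι F) (s : ℕ) : Subgroup (Matrix.GeneralLinearGroup ι F) where
  carrier := {x | x ∈ N ∧ x ^ s ∈ scalars ι F}
  mul_mem' := fun {x y} hx hy => by
    refine ⟨N.mul_mem hx.1 hy.1, ?_⟩
    rw [mul_pow_c (c := ⁅y, x⁆) (scalar_comm (hc y hy.1 x hx.1)) comm_rel]
    exact (scalars ι F).mul_mem ((scalars ι F).pow_mem (hc y hy.1 x hx.1) _) ((scalars ι F).mul_mem hx.2 hy.2)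
  one_mem' := ⟨N.one_mem, by rw [one_pow]; exact (scalars ι F).one_mem⟩
  inv_mem' := fun {x} hx => ⟨N.inv_mem hx.1, by rw [inv_pow]; exact (scalars ι F).inv_mem hx.2⟩

/-- elements whose `r`-th power is trivial -/
def Oe {N : Subgroup (Matrix.GeneralLinearGroup ι F)} (hc : ∀ x ∈ N, ∀ y ∈ N, ⁅x, y⁆ ∈ scalars ι F) {r : ℕ} (hr : Odd r)
    (hcr : ∀ x ∈ N, ∀ y ∈ N, ⁅x, y⁆ ^ r = 1) : Subgroup (Matrix.GeneralLinearGroup ι F) where
  carrier := {x | x ∈ N ∧ x ^ r = 1}
  mul_mem' := fun {x y} hx hy => by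
    refine ⟨N.mul_mem hx.1 hy.1, ?_⟩
    rw [mul_pow_c (c := ⁅y, x⁆) (scalar_comm (hc y hy.1 x hx.1)) comm_rel, hx.2, hy.2]
    obtain ⟨k, hk⟩ := dvd_tri hr
    rw [hk, pow_mul, hcr y hy.1 x hx.1, one_pow, one_mul, one_mul]
  one_mem' := ⟨N.one_mem, one_pow _⟩
  inv_mem' := fun {x} hx => ⟨N.inv_mem hx.1, by rw [inv_pow, hx.2, inv_one]⟩

theorem ni_of_pow {N H : Subgroup (Matrix.GeneralLinearGroup ι F)} (hN : NI N H) (hc : ∀ x ∈ N, ∀ y ∈ N, ⁅x, y⁆ ∈ scalars ι F) (s : ℕ) : NI (Om hc s) H := by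
  refine ⟨fun x hx => hN.1 hx.1, fun h hh x hx => ⟨hN.2 h hh x hx.1, ?_⟩⟩
  rw [conj_pow]
  exact scalars_normal.conj_mem _ hx.2 h

theorem ni_of_pow' {N H : Subgroup (Matrix.GeneralLinearGroup ι F)} (hN : NI N H) (hc : ∀ x ∈ N, ∀ y ∈ N, ⁅x, y⁆ ∈ scalars ι F) {r : ℕ} (hr : Odd r)
    (hcr : ∀ x ∈ N, ∀ y ∈ N, ⁅x, y⁆ ^ r = 1) : NI (Oe hc hr hcr) H := by
  refine ⟨fun x hx => hN.1 hx.1, fun h hh x hx => ⟨hN.2 h hh x hx.1, ?_⟩⟩
  rw [conj_pow, hx.2, mul_one, mul_inv_cancel]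

/-- the data of an extraspecial group in prime dimension -/
structure XS (N : Subgroup (Matrix.GeneralLinearGroup ι F)) (a b : Matrix.GeneralLinearGroup ι F) (ζ : Fˣ) : Prop where
  ha : a ∈ N
  hb : b ∈ N
  hab : a * b = sc ζ * (b * a)
  hζ : ζ ≠ 1
  comm : ∀ x ∈ N, ∀ y ∈ N, ⁅x, y⁆ ∈ scalars ι F
  exp : ∀ x ∈ N, x ^ Fintype.card ι = 1

theorem scalars_cyclic [Finite F] : IsCyclic (scalars ι F) := by
  let f : Fˣ →* scalars ι F := sc.codRestrict _ sc_mem
  apply isCyclic_of_surjective f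
  rintro ⟨x, hx⟩
  obtain ⟨c, rfl⟩ := exists_sc hx
  exact ⟨c, rfl⟩

theorem exists_XS [Finite F] (hp : (Fintype.card ι).Prime) (hodd : Odd (Fintype.card ι)) {N H : Subgroup (Matrix.GeneralLinearGroup ι F)}
    (hNI : NI N H) (hns : ¬ N ≤ scalars ι F) (hmin : ∀ M, NI M H → M ≤ N → ¬ M ≤ scalars ι F → M = N)
    (habs : ActsAbsolutelyIrreducibly (matrixSet N)) (hcomm : ⁅N, N⁆ ≤ scalars ι F) : ∃ a b ζ, XS N a b ζ := by
  haveI : Nonempty ι := Fintype.card_pos_iff.1 hp.pos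
  have hc : ∀ x ∈ N, ∀ y ∈ N, ⁅x, y⁆ ∈ scalars ι F := fun x hx y hy => hcomm (Subgroup.commutator_mem_commutator hx hy)
  -- a non-scalar element with scalar prime power
  obtain ⟨a₀, ha₀, ha₀s⟩ := Set.not_subset.1 hns
  have hex : ∃ m : ℕ, 0 < m ∧ a₀ ^ m ∈ scalars ι F := ⟨orderOf a₀, orderOf_pos a₀, by rw [pow_orderOf_eq_one]; exact (scalars ι F).one_mem⟩
  classical
  obtain ⟨hm0, hm⟩ := Nat.find_spec hex
  set m := Nat.find hex with hmdef
  have hm1 : m ≠ 1 := by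
    intro h
    rw [h, pow_one] at hm
    exact ha₀s hm
  have hsp := Nat.minFac_prime hm1
  set s := m.minFac with hs
  have hΩ : Om hc s = N := by
    apply hmin _ (ni_of_pow hNI hc s) (fun x hx => hx.1)
    intro hle
    have h1 : a₀ ^ (m / s) ∈ Om hc s := by
      refine ⟨N.pow_mem ha₀ _, ?_⟩
      rw [← pow_mul, Nat.div_mul_cancel (Nat.minFac_dvd m)]
      exact hm
    have h2 := hle h1
    have h3 : m / s < m := Nat.div_lt_self hm0 hsp.one_lt
    have h4 : 0 < m / s := Nat.div_pos (Nat.minFac_le hm0) hsp.pos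
    exact Nat.find_min hex h3 ⟨h4, h2⟩
  -- two non-commuting elements
  have hnc : ∀ a ∈ N, a ∉ scalars ι F → ∃ b ∈ N, ∃ ζ : Fˣ, a * b = sc ζ * (b * a) ∧ ζ ≠ 1 := by
    intro a ha has
    by_contra hne
    push Not at hne
    apply has
    apply scalar_of_comm habs
    intro x hx
    obtain ⟨ζ, hζ⟩ := exists_sc (hc a ha x hx)
    have h1 : a * x = sc ζ * (x * a) := by rw [← hζ]; exact comm_rel
    have h2 := hne x hx ζ h1
    rw [h1, h2, map_one, one_mul]
  have hpow : ∀ a ∈ N, ∀ b ∈ N, ∀ ζ : Fˣ, a * b = sc ζ * (b * a) → ζ ^ s = 1 ∧ ζ ^ Fintype.card ι = 1 := by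
    intro a ha b _ ζ hab
    constructor
    · have h1 := pow_mul_c (scalar_comm (sc_mem ζ)) hab s
      rw [← hΩ] at ha
      rw [scalar_comm ha.2 b] at h1
      have h2 : (sc ζ : Matrix.GeneralLinearGroup ι F) ^ s = 1 := by
        have := mul_right_cancel (b := b * a ^ s) (a := 1) (c := (sc ζ) ^ s) (by rw [one_mul]; exact h1)
        exact this.symm
      rw [← map_pow, ← map_one sc] at h2
      exact sc_inj h2
    · have h1 := congrArg (fun g : Matrix.GeneralLinearGroup ι F => (g : Matrix ι ι F).det) hab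
      rw [Units.val_mul, Units.val_mul, Units.val_mul, Matrix.det_mul, Matrix.det_mul, Matrix.det_mul, det_sc] at h1
      have h2 : ((a : Matrix ι ι F).det * (b : Matrix ι ι F).det) ≠ 0 :=
        mul_ne_zero (Matrix.isUnits_det_units a).ne_zero (Matrix.isUnits_det_units b).ne_zero
      have h3 : ((ζ : F) ^ Fintype.card ι) * ((a : Matrix ι ι F).det * (b : Matrix ι ι F).det) = 1 * ((a : Matrix ι ι F).det * (b : Matrix ι ι F).det) := by
        rw [one_mul]
        nth_rewrite 2 [h1]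
        ring
      have h4 := mul_right_cancel₀ h2 h3
      apply Units.ext
      rw [Units.val_pow_eq_pow_val, h4, Units.val_one]
  obtain ⟨b₀, hb₀, ζ₀, hab₀, hζ₀⟩ := hnc a₀ ha₀ ha₀s
  have hsr : s = Fintype.card ι := by
    obtain ⟨h1, h2⟩ := hpow a₀ ha₀ b₀ hb₀ ζ₀ hab₀
    have h4 := orderOf_dvd_of_pow_eq_one h2
    haveI := Fact.mk hsp
    have h5 : orderOf ζ₀ = s := orderOf_eq_prime h1 hζ₀
    rw [h5] at h4
    exact (Nat.prime_dvd_prime_iff_eq hsp hp).1 h4
  have hcr : ∀ x ∈ N, ∀ y ∈ N, ⁅x, y⁆ ^ Fintype.card ι = 1 := by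
    intro x hx y hy
    obtain ⟨ζ, hζ⟩ := exists_sc (hc x hx y hy)
    have h1 : x * y = sc ζ * (y * x) := by rw [← hζ]; exact comm_rel
    rw [hζ, ← map_pow, (hpow x hx y hy ζ h1).2, map_one]
  have hexp : Oe hc hodd hcr = N := by
    apply hmin _ (ni_of_pow' hNI hc hodd hcr) (fun x hx => hx.1)
    intro hle
    -- N would be commutative
    haveI := scalars_cyclic (ι := ι) (F := F)
    have hps : ∀ x : N, (x : Matrix.GeneralLinearGroup ι F) ^ Fintype.card ι ∈ scalars ι F := by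
      intro x
      have hx : (x : Matrix.GeneralLinearGroup ι F) ∈ Om hc s := by rw [hΩ]; exact x.2
      rw [← hsr]
      exact hx.2
    let f : N →* scalars ι F :=
      { toFun := fun x => ⟨(x : Matrix.GeneralLinearGroup ι F) ^ Fintype.card ι, hps x⟩
        map_one' := Subtype.ext (one_pow _)
        map_mul' := fun x y => by
          apply Subtype.ext
          change ((x : Matrix.GeneralLinearGroup ι F) * y) ^ Fintype.card ι = _
          rw [mul_pow_c (c := ⁅(y : Matrix.GeneralLinearGroup ι F), (x : Matrix.GeneralLinearGroup ι F)⁆) (scalar_comm (hc y y.2 x x.2)) comm_rel]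
          obtain ⟨k, hk⟩ := dvd_tri hodd
          rw [hk, pow_mul, hcr y y.2 x x.2, one_pow, one_mul]
          rfl }
    have hker : f.ker ≤ Subgroup.center N := by
      intro x hx
      rw [Subgroup.mem_center_iff]
      intro g
      have h1 : (x : Matrix.GeneralLinearGroup ι F) ∈ Oe hc hodd hcr := ⟨x.2, congrArg Subtype.val (MonoidHom.mem_ker.1 hx)⟩
      apply Subtype.ext
      exact (scalar_comm (hle h1) g).symm
    have h2 := (f.isMulCommutative_of_isCyclic_of_ker_le_center hker).is_comm.comm ⟨a₀, ha₀⟩ ⟨b₀, hb₀⟩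
    have h3 : a₀ * b₀ = b₀ * a₀ := congrArg Subtype.val h2
    rw [hab₀] at h3
    have h4 : (sc ζ₀ : Matrix.GeneralLinearGroup ι F) = 1 := mul_right_cancel (h3.trans (one_mul _).symm)
    rw [← map_one sc] at h4
    exact hζ₀ (sc_inj h4)
  refine ⟨a₀, b₀, ζ₀, ha₀, hb₀, hab₀, hζ₀, hc, fun x hx => ?_⟩
  rw [← hexp] at hx
  exact hx.2

end CfsgLib.Asch7
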