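import Cfsg.Agent.Lib.Asch7

set_option autoImplicit false
set_option maxHeartbeats 400000

/-! The standard basis for an extraspecial group in odd prime dimension. -/
namespace CfsgLib.Asch8

open Cfsg Cfsg.Geo Module CfsgLib.GeoBase CfsgLib.Asch1 CfsgLib.Asch2 CfsgLib.Asch3 CfsgLib.Asch4 CfsgLib.Asch5 CfsgLib.Asch6 CfsgLib.Asch7
open scoped commutatorElement

universe u v

variable {ι : Type} [Fintype ι] [DecidableEq ι] {F : Type u} [Field F]

theorem xs_zpow {N : Subgroup (Matrix.GeneralLinearGroup ι F)} {a b : Matrix.GeneralLinearGroup ι F} {ζ : Fˣ} [Nonempty ι] (h : XS N a b ζ) :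
    ζ ^ Fintype.card ι = 1 := by
  have h1 := pow_mul_c (scalar_comm (sc_mem ζ)) h.hab (Fintype.card ι)
  rw [h.exp a h.ha, one_mul, mul_one] at h1
  have h2 : (sc ζ : Matrix.GeneralLinearGroup ι F) ^ Fintype.card ι = 1 := by
    have := mul_right_cancel (b := b) (a := 1) (c := (sc ζ) ^ Fintype.card ι) (by rw [one_mul]; exact h1)
    exact this.symm
  rw [← map_pow, ← map_one sc] at h2
  exact sc_inj h2

theorem xs_prim {N : Subgroup (Matrix.GeneralLinearGroup ι F)} {a b : Matrix.GeneralLinearGroup ι F} {ζ : Fˣ} (hp : (Fintype.card ι).Prime) (h : XS N a b ζ) :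
    IsPrimitiveRoot (ζ : F) (Fintype.card ι) := by
  haveI : Nonempty ι := Fintype.card_pos_iff.1 hp.pos
  haveI := Fact.mk hp
  rw [IsPrimitiveRoot.coe_units_iff, ← orderOf_eq_prime (xs_zpow h) h.hζ]
  exact IsPrimitiveRoot.orderOf ζ

theorem xs_comm_pow {N : Subgroup (Matrix.GeneralLinearGroup ι F)} {a b : Matrix.GeneralLinearGroup ι F} {ζ : Fˣ} (h : XS N a b ζ) (k : ℕ) :
    a * b ^ k = sc ζ ^ k * (b ^ k * a) := by
  have h1 : b * a = (sc ζ)⁻¹ * (a * b) := by rw [h.hab, inv_mul_cancel_left]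
  have h2 := pow_mul_c (c := (sc ζ)⁻¹) (scalar_comm ((scalars ι F).inv_mem (sc_mem ζ))) h1 k
  rw [h2, inv_pow, mul_inv_cancel_left]

/-- an eigenvector with eigenvalue one -/
theorem xs_exists_v {N : Subgroup (Matrix.GeneralLinearGroup ι F)} {a b : Matrix.GeneralLinearGroup ι F} {ζ : Fˣ} (hp : (Fintype.card ι).Prime) (h : XS N a b ζ) :
    ∃ v : ι → F, v ≠ 0 ∧ Matrix.mulVec (a : Matrix ι ι F) v = v := by
  haveI : Nonempty ι := Fintype.card_pos_iff.1 hp.pos
  haveI : NeZero (Fintype.card ι) := ⟨hp.pos.ne'⟩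
  have hprim := xs_prim hp h
  set T : Module.End F (ι → F) := Matrix.toLin' (a : Matrix ι ι F) with hT
  have hTr : T ^ Fintype.card ι = 1 := by
    have h1 := congrArg Units.val (h.exp a h.ha)
    rw [Units.val_pow_eq_pow_val, Units.val_one] at h1
    have h2 := congrArg Matrix.toLin' h1
    rw [Matrix.toLin'_pow, Matrix.toLin'_one] at h2
    exact h2
  have hdvd : minpoly F T ∣ Polynomial.X ^ Fintype.card ι - Polynomial.C 1 := by
    apply minpoly.dvd
    rw [map_sub, map_pow, Polynomial.aeval_X, hTr, Polynomial.aeval_C, map_one, sub_self]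
  have hne : (Polynomial.X ^ Fintype.card ι - Polynomial.C (1 : F)) ≠ 0 := Polynomial.X_pow_sub_C_ne_zero hp.pos 1
  have hsplit := (Polynomial.X_pow_sub_one_splits hprim).of_dvd hne hdvd
  obtain ⟨μ, hμ⟩ := hsplit.exists_eval_eq_zero (minpoly.degree_pos (Algebra.IsIntegral.isIntegral T)).ne'
  obtain ⟨w, hw⟩ := (Module.End.hasEigenvalue_of_isRoot (f := T) hμ).exists_hasEigenvector
  have hw1 : T w = μ • w := hw.apply_eq_smul
  have hw0 : w ≠ 0 := hw.2
  have hμr : μ ^ Fintype.card ι = 1 := by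
    have h1 := hw.pow_apply (Fintype.card ι)
    rw [hTr, Module.End.one_apply] at h1
    have h2 : (1 - μ ^ Fintype.card ι) • w = 0 := by rw [sub_smul, one_smul, ← h1, sub_self]
    rcases smul_eq_zero.1 h2 with h3 | h3
    · exact (sub_eq_zero.1 h3).symm
    · exact absurd h3 hw0
  obtain ⟨i, hi, rfl⟩ := hprim.eq_pow_of_pow_eq_one hμr
  refine ⟨Matrix.mulVec ((b ^ (Fintype.card ι - i) : Matrix.GeneralLinearGroup ι F) : Matrix ι ι F) w, ?_, ?_⟩
  · intro h0
    rw [← Matrix.mulVec_zero ((b ^ (Fintype.card ι - i) : Matrix.GeneralLinearGroup ι F) : Matrix ι ι F)] at h0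
    exact hw0 (mulVec_injective _ h0)
  · rw [← mulVec_mul, xs_comm_pow h, mulVec_mul, mulVec_mul, ← map_pow, sc_mulVec]
    have h1 : Matrix.mulVec (a : Matrix ι ι F) w = (ζ : F) ^ i • w := hw1
    rw [h1, mulVec_smul', smul_smul, Units.val_pow_eq_pow_val, ← pow_add, Nat.sub_add_cancel hi.le, hprim.pow_eq_one, one_smul]

theorem scalar_of_forall [Nonempty ι] {y : Matrix.GeneralLinearGroup ι F} {m : F} (hy : ∀ x, Matrix.mulVec (y : Matrix ι ι F) x = m • x) :
    y ∈ scalars ι F := by
  obtain ⟨w, hw⟩ := exists_ne (0 : ι → F)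
  have h0 : m ≠ 0 := by
    rintro rfl
    have h3 := hy w
    rw [zero_smul, ← Matrix.mulVec_zero (y : Matrix ι ι F)] at h3
    exact hw (mulVec_injective y h3)
  rw [mem_scalars_iff]
  refine ⟨Units.mk0 m h0, ?_⟩
  apply Matrix.toLin'.injective
  apply LinearMap.ext
  intro v
  rw [Matrix.toLin'_apply, hy, Matrix.toLin'_apply, Matrix.smul_mulVec, Matrix.one_mulVec]
  rfl

/-- a standard basis -/
structure BS (a b : Matrix.GeneralLinearGroup ι F) (ζ : Fˣ) (Q : Matrix.GeneralLinearGroup ι F) (e : ι ≃ ZMod (Fintype.card ι)) : Prop where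
  qa : ∀ w, Matrix.mulVec (a : Matrix ι ι F) (Matrix.mulVec (Q : Matrix ι ι F) w) = Matrix.mulVec (Q : Matrix ι ι F) (fun i => (ζ : F) ^ (e i).val * w i)
  qb : ∀ w, Matrix.mulVec (b : Matrix ι ι F) (Matrix.mulVec (Q : Matrix ι ι F) w) = Matrix.mulVec (Q : Matrix ι ι F) (fun i => w (e.symm (e i - 1)))

theorem xs_exists_BS {N : Subgroup (Matrix.GeneralLinearGroup ι F)} {a b : Matrix.GeneralLinearGroup ι F} {ζ : Fˣ} (hp : (Fintype.card ι).Prime) (h : XS N a b ζ) :
    ∃ Q e, BS a b ζ Q e := by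
  haveI : Nonempty ι := Fintype.card_pos_iff.1 hp.pos
  haveI : NeZero (Fintype.card ι) := ⟨hp.pos.ne'⟩
  haveI : Fact (1 < Fintype.card ι) := ⟨hp.one_lt⟩
  have hprim := xs_prim hp h
  obtain ⟨v, hv0, hv⟩ := xs_exists_v hp h
  let e : ι ≃ ZMod (Fintype.card ι) := Fintype.equivOfCardEq (ZMod.card _).symm
  let V : ι → ι → F := fun i => Matrix.mulVec ((b ^ (e i).val : Matrix.GeneralLinearGroup ι F) : Matrix ι ι F) v
  have hVa : ∀ i, Matrix.mulVec (a : Matrix ι ι F) (V i) = (ζ : F) ^ (e i).val • V i := by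
    intro i
    change Matrix.mulVec _ (Matrix.mulVec _ v) = _
    rw [← mulVec_mul, xs_comm_pow h, mulVec_mul, mulVec_mul, ← map_pow, sc_mulVec, hv, Units.val_pow_eq_pow_val]
  have hVb : ∀ i, Matrix.mulVec (b : Matrix ι ι F) (V i) = V (e.symm (e i + 1)) := by
    intro i
    change Matrix.mulVec _ (Matrix.mulVec _ v) = Matrix.mulVec _ v
    rw [← mulVec_mul, ← pow_succ', Equiv.apply_symm_apply, ZMod.val_add, ZMod.val_one, ← pow_eq_pow_mod _ (h.exp b h.hb)]
  have hV0 : ∀ i, V i ≠ 0 := by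
    intro i h0
    have h0' : Matrix.mulVec ((b ^ (e i).val : Matrix.GeneralLinearGroup ι F) : Matrix ι ι F) v = 0 := h0
    rw [← Matrix.mulVec_zero ((b ^ (e i).val : Matrix.GeneralLinearGroup ι F) : Matrix ι ι F)] at h0'
    exact hv0 (mulVec_injective _ h0')
  have hli : LinearIndependent F V := by
    apply Module.End.eigenvectors_linearIndependent' (Matrix.toLin' (a : Matrix ι ι F)) (fun i => (ζ : F) ^ (e i).val)
    · intro i j hij
      apply e.injective
      apply ZMod.val_injective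
      exact hprim.pow_inj (ZMod.val_lt _) (ZMod.val_lt _) hij
    · intro i
      exact ⟨Module.End.mem_eigenspace_iff.2 (hVa i), hV0 i⟩
  let Qm : Matrix ι ι F := Matrix.of fun i j => V j i
  have hQm : IsUnit Qm := Matrix.linearIndependent_cols_iff_isUnit.1 hli
  obtain ⟨Q, hQ⟩ := hQm
  have hQe : ∀ j, Matrix.mulVec (Q : Matrix ι ι F) (Pi.single j 1) = V j := by
    intro j
    rw [hQ, Matrix.mulVec_single_one]
    rfl
  refine ⟨Q, e, ⟨fun w => ?_, fun w => ?_⟩⟩
  · have : (Matrix.toLin' (a : Matrix ι ι F)).comp (Matrix.toLin' (Q : Matrix ι ι F)) =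
        (Matrix.toLin' (Q : Matrix ι ι F)).comp (Matrix.toLin' (Matrix.diagonal fun i => (ζ : F) ^ (e i).val)) := by
      apply (Pi.basisFun F ι).ext
      intro j
      have hD : Matrix.toLin' (Matrix.diagonal fun i => (ζ : F) ^ (e i).val) (Pi.single j 1) = (ζ : F) ^ (e j).val • (Pi.single j 1 : ι → F) := by
        rw [Matrix.toLin'_apply]
        funext i
        rw [Matrix.mulVec_diagonal, Pi.smul_apply, Pi.single_apply]
        by_cases hij : i = j
        · rw [if_pos hij, smul_eq_mul, hij]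
        · rw [if_neg hij, smul_zero, mul_zero]
      rw [Pi.basisFun_apply, LinearMap.comp_apply, LinearMap.comp_apply, hD, map_smul, toLin_apply, toLin_apply, hQe, hVa]
    have h1 := LinearMap.congr_fun this w
    rw [LinearMap.comp_apply, LinearMap.comp_apply, toLin_apply, toLin_apply, toLin_apply, Matrix.toLin'_apply] at h1
    rw [h1]
    congr 1
    funext i
    rw [Matrix.mulVec_diagonal]
  · have : (Matrix.toLin' (b : Matrix ι ι F)).comp (Matrix.toLin' (Q : Matrix ι ι F)) =
        (Matrix.toLin' (Q : Matrix ι ι F)).comp (LinearMap.funLeft F F fun i => e.symm (e i - 1)) := by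
      apply (Pi.basisFun F ι).ext
      intro j
      rw [Pi.basisFun_apply, LinearMap.comp_apply, LinearMap.comp_apply, toLin_apply, toLin_apply, hQe, hVb, toLin_apply, ← hQe]
      congr 1
      funext i
      rw [LinearMap.funLeft_apply, Pi.single_apply, Pi.single_apply]
      have : i = e.symm (e j + 1) ↔ e.symm (e i - 1) = j := by
        constructor
        · rintro rfl
          rw [Equiv.apply_symm_apply, add_sub_cancel_right, Equiv.symm_apply_apply]
        · rintro rfl
          rw [Equiv.apply_symm_apply, sub_add_cancel, Equiv.symm_apply_apply]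
      simp only [this]
    have h1 := LinearMap.congr_fun this w
    rw [LinearMap.comp_apply, LinearMap.comp_apply, toLin_apply, toLin_apply, toLin_apply] at h1
    exact h1

/-- matrices commuting with both generators are scalar -/
theorem xs_scalar {N : Subgroup (Matrix.GeneralLinearGroup ι F)} {a b : Matrix.GeneralLinearGroup ι F} {ζ : Fˣ} (hp : (Fintype.card ι).Prime) (h : XS N a b ζ)
    {y : Matrix.GeneralLinearGroup ι F} (hya : y * a = a * y) (hyb : y * b = b * y) : y ∈ scalars ι F := by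
  haveI : Nonempty ι := Fintype.card_pos_iff.1 hp.pos
  haveI : NeZero (Fintype.card ι) := ⟨hp.pos.ne'⟩
  haveI : Fact (1 < Fintype.card ι) := ⟨hp.one_lt⟩
  have hprim := xs_prim hp h
  obtain ⟨Q, e, hQ⟩ := xs_exists_BS hp h
  let i₀ := e.symm 0
  -- first basis vector
  set v := Matrix.mulVec (Q : Matrix ι ι F) (Pi.single i₀ 1) with hv
  have hva : Matrix.mulVec (a : Matrix ι ι F) v = v := by
    rw [hv, hQ.qa]
    congr 1
    funext i
    rw [Pi.single_apply]
    by_cases hi : i = i₀
    · rw [if_pos hi, hi]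
      change (ζ : F) ^ (e (e.symm 0)).val * 1 = 1
      rw [Equiv.apply_symm_apply, ZMod.val_zero, pow_zero, mul_one]
    · rw [if_neg hi, mul_zero]
  have hvb : ∀ k : ℕ, Matrix.mulVec ((b ^ k : Matrix.GeneralLinearGroup ι F) : Matrix ι ι F) v = Matrix.mulVec (Q : Matrix ι ι F) (Pi.single (e.symm k) 1) := by
    intro k
    induction k with
    | zero => rw [pow_zero, mulVec_one, Nat.cast_zero]
    | succ k ih =>
      rw [pow_succ', mulVec_mul, ih, hQ.qb]
      congr 1
      funext i
      rw [Pi.single_apply, Pi.single_apply]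
      have : i = e.symm ((k + 1 : ℕ) : ZMod _) ↔ e.symm (e i - 1) = e.symm (k : ZMod _) := by
        rw [e.symm.injective.eq_iff]
        constructor
        · rintro rfl
          rw [Equiv.apply_symm_apply, Nat.cast_succ, add_sub_cancel_right]
        · intro h1
          rw [Nat.cast_succ, ← h1, sub_add_cancel, Equiv.symm_apply_apply]
      simp only [this]
  -- y v is a multiple of v
  obtain ⟨m, hm⟩ : ∃ m : F, Matrix.mulVec (y : Matrix ι ι F) v = m • v := by
    set w := Matrix.mulVec ((Q⁻¹ : Matrix.GeneralLinearGroup ι F) : Matrix ι ι F) (Matrix.mulVec (y : Matrix ι ι F) v) with hw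
    have hQw : Matrix.mulVec (Q : Matrix ι ι F) w = Matrix.mulVec (y : Matrix ι ι F) v := mulVec_inv _ _
    have h1 : Matrix.mulVec (a : Matrix ι ι F) (Matrix.mulVec (Q : Matrix ι ι F) w) = Matrix.mulVec (Q : Matrix ι ι F) w := by
      rw [hQw, ← mulVec_mul, ← hya, mulVec_mul, hva]
    rw [hQ.qa] at h1
    have h2 := mulVec_injective _ h1
    have h3 : ∀ i, i ≠ i₀ → w i = 0 := by
      intro i hi
      have h4 : (ζ : F) ^ (e i).val * w i = w i := congrFun h2 i
      have h5 : ((ζ : F) ^ (e i).val - 1) * w i = 0 := by rw [sub_mul, h4, one_mul, sub_self]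
      rcases mul_eq_zero.1 h5 with h6 | h6
      · exfalso
        apply hi
        have h7 : (ζ : F) ^ (e i).val = (ζ : F) ^ 0 := by rw [pow_zero]; exact sub_eq_zero.1 h6
        have h8 := hprim.pow_inj (ZMod.val_lt _) hp.pos h7
        rw [ZMod.val_eq_zero] at h8
        change i = e.symm 0
        rw [← h8, Equiv.symm_apply_apply]
      · exact h6
    refine ⟨w i₀, ?_⟩
    rw [← hQw, hv, ← mulVec_smul']
    congr 1
    funext i
    rw [Pi.smul_apply, Pi.single_apply]
    by_cases hi : i = i₀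
    · rw [if_pos hi, hi, smul_eq_mul, mul_one]
    · rw [if_neg hi, smul_zero, h3 i hi]
  -- y acts as m
  have hall : ∀ j, Matrix.mulVec (y : Matrix ι ι F) (Matrix.mulVec (Q : Matrix ι ι F) (Pi.single j 1)) = m • Matrix.mulVec (Q : Matrix ι ι F) (Pi.single j 1) := by
    intro j
    have h1 := hvb (e j).val
    rw [ZMod.natCast_zmod_val, Equiv.symm_apply_apply] at h1
    have h2 : y * b ^ (e j).val = b ^ (e j).val * y := by
      have : Commute y b := hyb
      exact this.pow_right _
    rw [← h1, ← mulVec_mul, h2, mulVec_mul, hm, mulVec_smul']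
  have hyQ : (Matrix.toLin' (y : Matrix ι ι F)).comp (Matrix.toLin' (Q : Matrix ι ι F)) = m • Matrix.toLin' (Q : Matrix ι ι F) := by
    apply (Pi.basisFun F ι).ext
    intro j
    rw [Pi.basisFun_apply, LinearMap.comp_apply, LinearMap.smul_apply, toLin_apply, toLin_apply]
    exact hall j
  have hy : ∀ x, Matrix.mulVec (y : Matrix ι ι F) x = m • x := by
    intro x
    have h1 := LinearMap.congr_fun hyQ (Matrix.mulVec ((Q⁻¹ : Matrix.GeneralLinearGroup ι F) : Matrix ι ι F) x)
    rw [LinearMap.comp_apply, LinearMap.smul_apply, toLin_apply, toLin_apply, mulVec_inv] at h1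
    exact h1
  exact scalar_of_forall hy

end CfsgLib.Asch8
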