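import Cfsg.Agent.Lib.Asch8
import Cfsg.Agent.Lib.Mob35

set_option autoImplicit false
set_option maxHeartbeats 400000

/-! Extraspecial groups in odd prime dimension: order, subfields, unitary forms. -/
namespace CfsgLib.Asch9

open Cfsg Cfsg.Geo Module CfsgLib.GeoBase CfsgLib.Asch1 CfsgLib.Asch2 CfsgLib.Asch3 CfsgLib.Asch4 CfsgLib.Asch5 CfsgLib.Asch6 CfsgLib.Asch7 CfsgLib.Asch8
open scoped commutatorElement

universe u v

variable {ι : Type} [Fintype ι] [DecidableEq ι] {F : Type u} [Field F]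

theorem rel_pow [Nonempty ι] {x y : Matrix.GeneralLinearGroup ι F} {ξ : Fˣ} {r : ℕ} (hx : x ^ r = 1) (h : x * y = sc ξ * (y * x)) : ξ ^ r = 1 := by
  have h1 := pow_mul_c (scalar_comm (sc_mem ξ)) h r
  rw [hx, one_mul, mul_one] at h1
  have h2 : (sc ξ : Matrix.GeneralLinearGroup ι F) ^ r = 1 := by
    have := mul_right_cancel (b := y) (a := 1) (c := (sc ξ) ^ r) (by rw [one_mul]; exact h1)
    exact this.symm
  rw [← map_pow, ← map_one sc] at h2
  exact sc_inj h2

theorem unit_pow {ζ ξ : Fˣ} {r : ℕ} [NeZero r] (h : IsPrimitiveRoot (ζ : F) r) (hξ : ξ ^ r = 1) : ∃ i < r, ξ = ζ ^ i := by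
  obtain ⟨i, hi, h1⟩ := h.eq_pow_of_pow_eq_one (ξ := (ξ : F)) (by rw [← Units.val_pow_eq_pow_val, hξ, Units.val_one])
  exact ⟨i, hi, Units.ext (by rw [Units.val_pow_eq_pow_val, h1])⟩

theorem xs_sc_mem {N : Subgroup (Matrix.GeneralLinearGroup ι F)} {a b : Matrix.GeneralLinearGroup ι F} {ζ : Fˣ} (h : XS N a b ζ) : sc ζ ∈ N := by
  have h1 : (sc ζ : Matrix.GeneralLinearGroup ι F) = a * b * (b * a)⁻¹ := by rw [h.hab]; group
  rw [h1]
  exact N.mul_mem (N.mul_mem h.ha h.hb) (N.inv_mem (N.mul_mem h.hb h.ha))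

theorem xs_repr {N : Subgroup (Matrix.GeneralLinearGroup ι F)} {a b : Matrix.GeneralLinearGroup ι F} {ζ : Fˣ} (hp : (Fintype.card ι).Prime) (h : XS N a b ζ)
    {x : Matrix.GeneralLinearGroup ι F} (hx : x ∈ N) : ∃ i j k : ℕ, x * b ^ i * a ^ j = sc ζ ^ k := by
  haveI : Nonempty ι := Fintype.card_pos_iff.1 hp.pos
  haveI : NeZero (Fintype.card ι) := ⟨hp.pos.ne'⟩
  have hprim := xs_prim hp h
  have hZ : ∀ (m : ℕ) (g : Matrix.GeneralLinearGroup ι F), sc ζ ^ m * g = g * sc ζ ^ m := fun m g =>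
    scalar_comm ((scalars ι F).pow_mem (sc_mem ζ) m) g
  -- commutator with a
  obtain ⟨ξ, hξ⟩ := exists_sc (h.comm x hx a h.ha)
  have e1 : x * a = sc ξ * (a * x) := by rw [← hξ]; exact comm_rel
  obtain ⟨i, -, rfl⟩ := unit_pow hprim (rel_pow (h.exp x hx) e1)
  obtain ⟨ξ', hξ'⟩ := exists_sc (h.comm x hx b h.hb)
  have e3 : x * b = sc ξ' * (b * x) := by rw [← hξ']; exact comm_rel
  obtain ⟨j', hj', rfl⟩ := unit_pow hprim (rel_pow (h.exp x hx) e3)
  rw [map_pow] at e1 e3
  have e2 := xs_comm_pow h i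
  set j := Fintype.card ι - j' with hj
  have e4 := pow_mul_c (scalar_comm (sc_mem ζ)) h.hab j
  have hya : (x * b ^ i) * a = a * (x * b ^ i) := by
    have f1 : b ^ i * a = (sc ζ ^ i)⁻¹ * (a * b ^ i) := by rw [e2, inv_mul_cancel_left]
    have hZi : (sc ζ ^ i)⁻¹ * x = x * (sc ζ ^ i)⁻¹ := scalar_comm ((scalars ι F).inv_mem ((scalars ι F).pow_mem (sc_mem ζ) i)) x
    calc (x * b ^ i) * a = x * (b ^ i * a) := mul_assoc _ _ _
      _ = (x * (sc ζ ^ i)⁻¹) * (a * b ^ i) := by rw [f1, mul_assoc]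
      _ = (sc ζ ^ i)⁻¹ * (x * a) * b ^ i := by rw [← hZi]; simp only [mul_assoc]
      _ = a * (x * b ^ i) := by rw [e1, inv_mul_cancel_left, mul_assoc]
  have hyb : (x * b ^ i * a ^ j) * b = b * (x * b ^ i * a ^ j) := by
    calc (x * b ^ i * a ^ j) * b = (x * b ^ i) * (a ^ j * b) := by rw [mul_assoc]
      _ = (x * b ^ i) * sc ζ ^ j * (b * a ^ j) := by rw [e4]; simp only [mul_assoc]
      _ = sc ζ ^ j * ((x * b ^ i) * (b * a ^ j)) := by rw [← hZ j]; simp only [mul_assoc]
      _ = sc ζ ^ j * (x * (b ^ i * b) * a ^ j) := by simp only [mul_assoc]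
      _ = sc ζ ^ j * ((x * b) * b ^ i * a ^ j) := by rw [← pow_succ, pow_succ']; simp only [mul_assoc]
      _ = sc ζ ^ j * sc ζ ^ j' * (b * (x * b ^ i * a ^ j)) := by rw [e3]; simp only [mul_assoc]
      _ = b * (x * b ^ i * a ^ j) := by
        rw [← pow_add, hj, Nat.sub_add_cancel hj'.le, ← map_pow, xs_zpow h, map_one, one_mul]
  have hya' : (x * b ^ i * a ^ j) * a = a * (x * b ^ i * a ^ j) := by
    rw [mul_assoc, ← pow_succ, pow_succ', ← mul_assoc, hya]
    simp only [mul_assoc]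
  have hs := xs_scalar hp h hya' hyb
  obtain ⟨η, hη⟩ := exists_sc hs
  have hyN : x * b ^ i * a ^ j ∈ N := N.mul_mem (N.mul_mem hx (N.pow_mem h.hb i)) (N.pow_mem h.ha j)
  have hη1 : η ^ Fintype.card ι = 1 := by
    have h1 := h.exp _ hyN
    rw [hη, ← map_pow, ← map_one sc] at h1
    exact sc_inj h1
  obtain ⟨k, -, rfl⟩ := unit_pow hprim hη1
  exact ⟨i, j, k, by rw [hη, map_pow]⟩

theorem xs_gen {N : Subgroup (Matrix.GeneralLinearGroup ι F)} {a b : Matrix.GeneralLinearGroup ι F} {ζ : Fˣ} (hp : (Fintype.card ι).Prime) (h : XS N a b ζ)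
    {X : Subgroup (Matrix.GeneralLinearGroup ι F)} (hXa : a ∈ X) (hXb : b ∈ X) (hXz : sc ζ ∈ X) : N ≤ X := by
  intro x hx
  obtain ⟨i, j, k, e⟩ := xs_repr hp h hx
  have h1 : x = sc ζ ^ k * (a ^ j)⁻¹ * (b ^ i)⁻¹ := by rw [← e]; group
  rw [h1]
  exact X.mul_mem (X.mul_mem (X.pow_mem hXz k) (X.inv_mem (X.pow_mem hXa j))) (X.inv_mem (X.pow_mem hXb i))

theorem xs_sc_order {N : Subgroup (Matrix.GeneralLinearGroup ι F)} {a b : Matrix.GeneralLinearGroup ι F} {ζ : Fˣ} (hp : (Fintype.card ι).Prime) (h : XS N a b ζ) :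
    orderOf (sc ζ : Matrix.GeneralLinearGroup ι F) = Fintype.card ι := by
  haveI : Nonempty ι := Fintype.card_pos_iff.1 hp.pos
  haveI := Fact.mk hp
  apply orderOf_eq_prime
  · rw [← map_pow, xs_zpow h, map_one]
  · rw [← map_one sc]
    exact fun h1 => h.hζ (sc_inj h1)

theorem xs_card [Finite F] {N : Subgroup (Matrix.GeneralLinearGroup ι F)} {a b : Matrix.GeneralLinearGroup ι F} {ζ : Fˣ} (hp : (Fintype.card ι).Prime) (h : XS N a b ζ) :
    Nat.card N = Fintype.card ι ^ 3 := by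
  haveI : Nonempty ι := Fintype.card_pos_iff.1 hp.pos
  haveI : NeZero (Fintype.card ι) := ⟨hp.pos.ne'⟩
  set r := Fintype.card ι with hr
  have hord := xs_sc_order hp h
  have hZ : ∀ (m : ℕ) (g : Matrix.GeneralLinearGroup ι F), sc ζ ^ m * g = g * sc ζ ^ m := fun m g =>
    scalar_comm ((scalars ι F).pow_mem (sc_mem ζ) m) g
  have hinj : ∀ {i j : ℕ}, i < r → j < r → (sc ζ : Matrix.GeneralLinearGroup ι F) ^ i = sc ζ ^ j → i = j := by
    intro i j hi hj hij
    rw [hr, ← hord] at hi hj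
    exact pow_injOn_Iio_orderOf hi hj hij
  let f : Fin r × Fin r × Fin r → N := fun t => ⟨sc ζ ^ t.1.val * (a ^ t.2.1.val * b ^ t.2.2.val),
    N.mul_mem (N.pow_mem (xs_sc_mem h) _) (N.mul_mem (N.pow_mem h.ha _) (N.pow_mem h.hb _))⟩
  have hf : Function.Bijective f := by
    constructor
    · rintro ⟨k, i, j⟩ ⟨k', i', j'⟩ heq
      have heq' : (sc ζ : Matrix.GeneralLinearGroup ι F) ^ k.val * (a ^ i.val * b ^ j.val) = sc ζ ^ k'.val * (a ^ i'.val * b ^ j'.val) := congrArg Subtype.val heq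
      have fa : ∀ k i j : ℕ, a * (sc ζ ^ k * (a ^ i * b ^ j)) = sc ζ ^ j * ((sc ζ ^ k * (a ^ i * b ^ j)) * a) := by
        intro k i j
        have e2 := xs_comm_pow h j
        calc a * (sc ζ ^ k * (a ^ i * b ^ j)) = (a * sc ζ ^ k) * (a ^ i * b ^ j) := by rw [mul_assoc]
          _ = sc ζ ^ k * ((a * a ^ i) * b ^ j) := by rw [← hZ k a]; simp only [mul_assoc]
          _ = sc ζ ^ k * (a ^ i * (a * b ^ j)) := by rw [← pow_succ', pow_succ]; simp only [mul_assoc]
          _ = sc ζ ^ k * (a ^ i * sc ζ ^ j * (b ^ j * a)) := by rw [e2]; simp only [mul_assoc]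
          _ = sc ζ ^ k * (sc ζ ^ j * (a ^ i * (b ^ j * a))) := by rw [← hZ j (a ^ i)]; simp only [mul_assoc]
          _ = sc ζ ^ j * (sc ζ ^ k * (a ^ i * (b ^ j * a))) := by rw [← mul_assoc, ← pow_add, add_comm, pow_add, mul_assoc]
          _ = _ := by simp only [mul_assoc]
      have fb : ∀ k i j : ℕ, (sc ζ ^ k * (a ^ i * b ^ j)) * b = sc ζ ^ i * (b * (sc ζ ^ k * (a ^ i * b ^ j))) := by
        intro k i j
        have e4 := pow_mul_c (scalar_comm (sc_mem ζ)) h.hab i
        calc (sc ζ ^ k * (a ^ i * b ^ j)) * b = sc ζ ^ k * (a ^ i * (b ^ j * b)) := by simp only [mul_assoc]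
          _ = sc ζ ^ k * ((a ^ i * b) * b ^ j) := by rw [← pow_succ, pow_succ']; simp only [mul_assoc]
          _ = (sc ζ ^ k * sc ζ ^ i) * (b * (a ^ i * b ^ j)) := by rw [e4]; simp only [mul_assoc]
          _ = sc ζ ^ i * ((sc ζ ^ k * b) * (a ^ i * b ^ j)) := by rw [← pow_add, add_comm, pow_add]; simp only [mul_assoc]
          _ = _ := by rw [hZ k b]; simp only [mul_assoc]
      have hj : j.val = j'.val := by
        apply hinj j.2 j'.2
        have h1 := fa k i j
        rw [heq', fa k' i' j'] at h1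
        exact (mul_right_cancel h1).symm
      have hi : i.val = i'.val := by
        apply hinj i.2 i'.2
        have h1 := fb k i j
        rw [heq', fb k' i' j'] at h1
        exact (mul_right_cancel h1).symm
      rw [hi, hj] at heq'
      have hk := hinj k.2 k'.2 (mul_right_cancel heq')
      rw [Prod.mk.injEq, Prod.mk.injEq]
      exact ⟨Fin.ext hk, Fin.ext hi, Fin.ext hj⟩
    · rintro ⟨x, hx⟩
      obtain ⟨i, j, k, e⟩ := xs_repr hp h hx
      have hmod : ∀ (g : Matrix.GeneralLinearGroup ι F) (m : ℕ), g ^ r = 1 → g ^ (m % r) = g ^ m := fun g m hg => (pow_eq_pow_mod m hg).symm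
      have hinv : ∀ (g : Matrix.GeneralLinearGroup ι F) (m : ℕ), g ^ r = 1 → (g ^ m)⁻¹ = g ^ (m * (r - 1)) := by
        intro g m hg
        rw [inv_eq_iff_mul_eq_one, ← pow_add]
        have : m + m * (r - 1) = r * m := by
          have := hp.pos
          obtain ⟨t, ht⟩ : ∃ t, r = t + 1 := ⟨r - 1, by omega⟩
          rw [ht]; simp; ring
        rw [this, pow_mul, hg, one_pow]
      have har : a ^ r = 1 := h.exp a h.ha
      have hbr : b ^ r = 1 := h.exp b h.hb
      have hzr : (sc ζ : Matrix.GeneralLinearGroup ι F) ^ r = 1 := by rw [hr, ← hord]; exact pow_orderOf_eq_one _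
      refine ⟨⟨⟨k % r, Nat.mod_lt _ hp.pos⟩, ⟨(j * (r - 1)) % r, Nat.mod_lt _ hp.pos⟩, ⟨(i * (r - 1)) % r, Nat.mod_lt _ hp.pos⟩⟩, ?_⟩
      apply Subtype.ext
      change sc ζ ^ (k % r) * (a ^ ((j * (r - 1)) % r) * b ^ ((i * (r - 1)) % r)) = x
      rw [hmod _ _ har, hmod _ _ hbr, hmod _ _ hzr, ← hinv _ _ har, ← hinv _ _ hbr, ← e]
      group
  rw [← Nat.card_congr (Equiv.ofBijective f hf), Nat.card_prod, Nat.card_prod, Nat.card_fin]
  ring

theorem xs_center [Finite F] {N : Subgroup (Matrix.GeneralLinearGroup ι F)} {a b : Matrix.GeneralLinearGroup ι F} {ζ : Fˣ} (hp : (Fintype.card ι).Prime) (h : XS N a b ζ) :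
    Nat.card (Subgroup.center N) = Fintype.card ι := by
  have h1 : Subgroup.center N = Subgroup.zpowers (⟨sc ζ, xs_sc_mem h⟩ : N) := by
    apply le_antisymm
    · intro x hx
      rw [Subgroup.mem_center_iff] at hx
      have hxa : (x : Matrix.GeneralLinearGroup ι F) * a = a * x := (congrArg Subtype.val (hx ⟨a, h.ha⟩)).symm
      have hxb : (x : Matrix.GeneralLinearGroup ι F) * b = b * x := (congrArg Subtype.val (hx ⟨b, h.hb⟩)).symm
      haveI : Nonempty ι := Fintype.card_pos_iff.1 hp.pos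
      haveI : NeZero (Fintype.card ι) := ⟨hp.pos.ne'⟩
      obtain ⟨η, hη⟩ := exists_sc (xs_scalar hp h hxa hxb)
      have hη1 : η ^ Fintype.card ι = 1 := by
        have h1 := h.exp _ x.2
        rw [hη, ← map_pow, ← map_one sc] at h1
        exact sc_inj h1
      obtain ⟨k, -, rfl⟩ := unit_pow (xs_prim hp h) hη1
      refine ⟨k, ?_⟩
      apply Subtype.ext
      change ((sc ζ : Matrix.GeneralLinearGroup ι F) ^ (k : ℤ)) = x
      rw [hη, map_pow, zpow_natCast]
    · rw [Subgroup.zpowers_le, Subgroup.mem_center_iff]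
      intro g
      apply Subtype.ext
      exact (scalar_comm (sc_mem ζ) (g : Matrix.GeneralLinearGroup ι F)).symm
  rw [h1, Nat.card_zpowers, ← xs_sc_order hp h]
  exact Subgroup.orderOf_mk _ _

theorem xs_symplectic [Finite F] {N H : Subgroup (Matrix.GeneralLinearGroup ι F)} {a b : Matrix.GeneralLinearGroup ι F} {ζ : Fˣ} (hp : (Fintype.card ι).Prime) (h : XS N a b ζ)
    (hodd : Odd (Fintype.card ι)) (hNI : NI N H) (hall : ∀ M, NI M H → ¬ M ≤ scalars ι F → ActsAbsolutelyIrreducibly (matrixSet M)) :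
    IsSymplecticTypeGroup (Fintype.card ι) N := by
  haveI : Nonempty ι := Fintype.card_pos_iff.1 hp.pos
  refine ⟨hp, fun x => ⟨1, ?_⟩, ?_, ?_⟩
  · rw [pow_one]
    exact Subtype.ext (h.exp x x.2)
  · intro A hA hAc
    have hNI' : NI (A.map N.subtype) H := by
      constructor
      · rintro _ ⟨x, -, rfl⟩
        exact hNI.1 x.2
      · rintro g hg _ ⟨x, hx, rfl⟩
        let φ : N ≃* N :=
          { toFun := fun y => ⟨g * y * g⁻¹, hNI.2 g hg y y.2⟩
            invFun := fun y => ⟨g⁻¹ * y * g, by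
              have := hNI.2 g⁻¹ (H.inv_mem hg) y y.2
              rwa [inv_inv] at this⟩
            left_inv := fun y => Subtype.ext (by change g⁻¹ * (g * y * g⁻¹) * g = y; group)
            right_inv := fun y => Subtype.ext (by change g * (g⁻¹ * y * g) * g⁻¹ = y; group)
            map_mul' := fun y z => Subtype.ext (by change g * (y * z) * g⁻¹ = (g * y * g⁻¹) * (g * z * g⁻¹); group) }
        refine ⟨φ x, ?_, rfl⟩
        have h1 := hA.fixed φ
        rw [← h1] at hx
        exact hx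
    have hAs : A.map N.subtype ≤ scalars ι F := by
      by_contra hne
      have h1 := hall _ hNI' hne
      apply hne
      intro x hx
      apply scalar_of_comm h1
      rintro y ⟨y', hy', rfl⟩
      obtain ⟨x', hx', rfl⟩ := hx
      have h2 := hAc.is_comm.comm ⟨y', hy'⟩ ⟨x', hx'⟩
      exact congrArg (fun t : A => ((t : N) : Matrix.GeneralLinearGroup ι F)) h2
    haveI := scalars_cyclic (ι := ι) (F := F)
    let f : A →* scalars ι F :=
      { toFun := fun x => ⟨((x : N) : Matrix.GeneralLinearGroup ι F), hAs ⟨x, x.2, rfl⟩⟩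
        map_one' := rfl
        map_mul' := fun _ _ => rfl }
    exact isCyclic_of_injective f fun x y hxy => Subtype.ext (Subtype.ext (by have := congrArg (fun t : scalars ι F => (t : Matrix.GeneralLinearGroup ι F)) hxy; exact this))
  · have h1 : Monoid.exponent N ∣ Fintype.card ι := Monoid.exponent_dvd_of_forall_pow_eq_one fun x => Subtype.ext (h.exp x x.2)
    have h2 : Nat.gcd 2 (Fintype.card ι) = 1 := Nat.coprime_two_left.2 hodd
    rw [h2, mul_one]
    refine ((Nat.dvd_prime hp).1 h1).resolve_left fun h3 => ?_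
    have h4 := Monoid.pow_exponent_eq_one (⟨sc ζ, xs_sc_mem h⟩ : N)
    rw [h3, pow_one] at h4
    have h5 : (sc ζ : Matrix.GeneralLinearGroup ι F) = 1 := congrArg Subtype.val h4
    rw [← map_one sc] at h5
    exact h.hζ (sc_inj h5)

/-! ### rational form and unitary form -/

theorem xs_realisable {N : Subgroup (Matrix.GeneralLinearGroup ι F)} {a b : Matrix.GeneralLinearGroup ι F} {ζ : Fˣ} (hp : (Fintype.card ι).Prime) (h : XS N a b ζ)
    {F₀ : Subfield F} (hF : (ζ : F) ∈ F₀) : RealisableOver F₀ (matrixSet N) := by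
  haveI : Nonempty ι := Fintype.card_pos_iff.1 hp.pos
  obtain ⟨Q, e, hQ⟩ := xs_exists_BS hp h
  let X : Subgroup (Matrix.GeneralLinearGroup ι F) := cg Q (Matrix.GeneralLinearGroup.map (F₀.subtype : F₀ →+* F)).range
  have hX : ∀ g : Matrix.GeneralLinearGroup ι F, (∀ j, ∀ i, Matrix.mulVec ((Q⁻¹ : Matrix.GeneralLinearGroup ι F) : Matrix ι ι F) (Matrix.mulVec (g : Matrix ι ι F) (Matrix.mulVec (Q : Matrix ι ι F) (Pi.single j 1))) i ∈ F₀) → g ∈ X := by
    intro g hg
    change g ∈ cg Q _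
    rw [mem_cg]
    apply exists_map
    intro i j
    have := hg j i
    rw [← mulVec_mul, ← mulVec_mul, Matrix.mulVec_single_one] at this
    exact this
  have hN : N ≤ X := by
    apply xs_gen hp h
    · apply hX
      intro j i
      rw [hQ.qa, inv_mulVec]
      apply F₀.mul_mem (F₀.pow_mem hF _)
      rw [Pi.single_apply]
      split_ifs
      · exact F₀.one_mem
      · exact F₀.zero_mem
    · apply hX
      intro j i
      rw [hQ.qb, inv_mulVec, Pi.single_apply]
      split_ifs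
      · exact F₀.one_mem
      · exact F₀.zero_mem
    · apply hX
      intro j i
      rw [sc_mulVec, mulVec_smul', inv_mulVec, Pi.smul_apply, Pi.single_apply, smul_eq_mul]
      apply F₀.mul_mem hF
      split_ifs
      · exact F₀.one_mem
      · exact F₀.zero_mem
  refine ⟨Q⁻¹, ?_⟩
  rintro _ ⟨x, hx, rfl⟩ i j
  obtain ⟨y, ⟨g, rfl⟩, hg⟩ := hN hx
  have h1 : Q⁻¹ * x * Q = Matrix.GeneralLinearGroup.map (F₀.subtype : F₀ →+* F) g := by
    rw [← hg]
    change Q⁻¹ * (Q * _ * Q⁻¹) * Q = _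
    group
  have h2 := congrArg (fun t : Matrix.GeneralLinearGroup ι F => (t : Matrix ι ι F) i j) h1
  have h3 : ((Q⁻¹ : Matrix.GeneralLinearGroup ι F) : Matrix ι ι F) * (x : Matrix ι ι F) * ((Q⁻¹⁻¹ : Matrix.GeneralLinearGroup ι F) : Matrix ι ι F) = ((Q⁻¹ * x * Q : Matrix.GeneralLinearGroup ι F) : Matrix ι ι F) := by
    rw [inv_inv, Units.val_mul, Units.val_mul]
  rw [h3]
  change ((Q⁻¹ * x * Q : Matrix.GeneralLinearGroup ι F) : Matrix ι ι F) i j ∈ F₀
  rw [h1]
  exact ((g : Matrix ι ι F₀) i j).2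

theorem xs_unitary {N : Subgroup (Matrix.GeneralLinearGroup ι F)} {a b : Matrix.GeneralLinearGroup ι F} {ζ : Fˣ} (hp : (Fintype.card ι).Prime) (h : XS N a b ζ)
    (σ : F ≃+* F) (hσ : σ ≠ RingEquiv.refl F) (hσ2 : ∀ x, σ (σ x) = x) (hσζ : (ζ : F) * σ ζ = 1) :
    ∃ f : (ι → F) → (ι → F) → F, IsUnitaryForm σ f ∧ FixesForm (matrixSet N) f := by
  haveI : Nonempty ι := Fintype.card_pos_iff.1 hp.pos
  obtain ⟨Q, e, hQ⟩ := xs_exists_BS hp h
  let q : (ι → F) → ι → F := fun x => Matrix.mulVec ((Q⁻¹ : Matrix.GeneralLinearGroup ι F) : Matrix ι ι F) x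
  have hqQ : ∀ w, q (Matrix.mulVec (Q : Matrix ι ι F) w) = w := fun w => inv_mulVec Q w
  have hQq : ∀ x, Matrix.mulVec (Q : Matrix ι ι F) (q x) = x := fun x => mulVec_inv Q x
  let f : (ι → F) → (ι → F) → F := fun x y => ∑ i, q x i * σ (q y i)
  have hadd : ∀ x y, q (x + y) = q x + q y := fun x y => mulVec_add' _ _ _
  have hsmul : ∀ (c : F) x, q (c • x) = c • q x := fun c x => mulVec_smul' _ _ _
  refine ⟨f, ⟨hσ, hσ2, ?_, ?_, ?_, ?_⟩, ?_⟩
  · intro x y v
    change ∑ i, _ = _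
    rw [hadd, ← Finset.sum_add_distrib]
    apply Finset.sum_congr rfl
    intro i _
    rw [Pi.add_apply, add_mul]
  · intro c x v
    change ∑ i, _ = _
    rw [hsmul, Finset.mul_sum]
    apply Finset.sum_congr rfl
    intro i _
    rw [Pi.smul_apply, smul_eq_mul, mul_assoc]
  · intro v w
    change ∑ i, _ = σ (∑ i, _)
    rw [map_sum]
    apply Finset.sum_congr rfl
    intro i _
    rw [map_mul, hσ2, mul_comm]
  · intro v hv
    have hqv : q v ≠ 0 := by
      intro h0
      apply hv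
      rw [← hQq v, h0, Matrix.mulVec_zero]
    obtain ⟨i, hi⟩ := Function.ne_iff.1 hqv
    rw [Pi.zero_apply] at hi
    constructor
    · refine ⟨Matrix.mulVec (Q : Matrix ι ι F) (Pi.single i 1), ?_⟩
      change ∑ j, q _ j * _ ≠ 0
      rw [hqQ, Finset.sum_eq_single i]
      · rw [Pi.single_eq_same, one_mul]
        exact (map_ne_zero σ).2 hi
      · intro j _ hj
        rw [Pi.single_eq_of_ne hj, zero_mul]
      · intro h1; exact absurd (Finset.mem_univ _) h1
    · refine ⟨Matrix.mulVec (Q : Matrix ι ι F) (Pi.single i 1), ?_⟩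
      change ∑ j, _ * σ (q _ j) ≠ 0
      rw [hqQ, Finset.sum_eq_single i]
      · rw [Pi.single_eq_same, map_one, mul_one]
        exact hi
      · intro j _ hj
        rw [Pi.single_eq_of_ne hj, map_zero, mul_zero]
      · intro h1; exact absurd (Finset.mem_univ _) h1
  · let X : Subgroup (Matrix.GeneralLinearGroup ι F) :=
      { carrier := {g | ∀ x y, f (Matrix.mulVec (g : Matrix ι ι F) x) (Matrix.mulVec (g : Matrix ι ι F) y) = f x y}
        mul_mem' := fun {g g'} hg hg' x y => by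
          rw [mulVec_mul, mulVec_mul, hg, hg']
        one_mem' := fun x y => by rw [mulVec_one, mulVec_one]
        inv_mem' := fun {g} hg x y => by
          have := hg (Matrix.mulVec ((g⁻¹ : Matrix.GeneralLinearGroup ι F) : Matrix ι ι F) x) (Matrix.mulVec ((g⁻¹ : Matrix.GeneralLinearGroup ι F) : Matrix ι ι F) y)
          rw [mulVec_inv, mulVec_inv] at this
          exact this.symm }
    have hN : N ≤ X := by
      apply xs_gen hp h
      · intro x y
        change ∑ i, _ = ∑ i, _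
        apply Finset.sum_congr rfl
        intro i _
        have e1 : ∀ x, q (Matrix.mulVec (a : Matrix ι ι F) x) i = (ζ : F) ^ (e i).val * q x i := by
          intro x
          conv_lhs => rw [← hQq x, hQ.qa, hqQ]
        rw [e1, e1, map_mul, map_pow]
        have e2 : (ζ : F) ^ (e i).val * (σ ζ) ^ (e i).val = 1 := by rw [← mul_pow, hσζ, one_pow]
        linear_combination (q x i * σ (q y i)) * e2
      · intro x y
        change ∑ i, _ = ∑ i, _
        have e1 : ∀ x i, q (Matrix.mulVec (b : Matrix ι ι F) x) i = q x (e.symm (e i - 1)) := by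
          intro x i
          conv_lhs => rw [← hQq x, hQ.qb, hqQ]
        rw [Finset.sum_congr rfl (fun i _ => by rw [e1, e1])]
        exact Equiv.sum_comp ((e.trans (Equiv.subRight 1)).trans e.symm) (fun i => q x i * σ (q y i))
      · intro x y
        change ∑ i, _ = ∑ i, _
        apply Finset.sum_congr rfl
        intro i _
        rw [sc_mulVec, sc_mulVec, hsmul, hsmul, Pi.smul_apply, Pi.smul_apply, smul_eq_mul, smul_eq_mul, map_mul]
        linear_combination (q x i * σ (q y i)) * hσζ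
    rintro _ ⟨x, hx, rfl⟩ u v
    exact hN hx u v

end CfsgLib.Asch9
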