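import Cfsg.Agent.Lib.Quad13

/-!
# Quadratic forms XIV: Siegel matrices, maximal singular subspaces
-/

namespace CfsgLib.Quad

open Module CfsgLib.IsomDecomp Cfsg

set_option linter.unusedSimpArgs false
set_option linter.unusedSectionVars false

variable {F V : Type*} [Field F] [AddCommGroup V] [Module F V] [FiniteDimensional F V]

local notation "β[" Q "]" => QuadraticMap.polarBilin Q

section Mat

variable {ι : Type} [Fintype ι] [DecidableEq ι]

lemma siegel_eq_eichO (Q : QuadraticForm F (ι → F)) {u v : ι → F} (hu : Q u = 0) (hv : Q v = 0)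
    (c : F) (h : β[Q] u (c • v) = 0) (x : ι → F) :
    (siegelMatrix ⇑Q u v c).mulVec x = (eichO hu h).1 x := by
  rw [CfsgLib.QuadMat.siegel_mulVec, eichO_apply, map_smul, hv]
  have h1 : QuadraticMap.polar ⇑Q u x = β[Q] u x := rfl
  have h2 : QuadraticMap.polar ⇑Q v x = β[Q] v x := rfl
  rw [h1, h2, LinearMap.map_smul, LinearMap.smul_apply, smul_eq_mul]
  module

theorem siegel_mem_commutatorSet (h2 : (2 : F) ≠ 0) {Q : QuadraticForm F (ι → F)}
    (hQ : (β[Q]).Nondegenerate) (u v : ι → F) (hu : Q u = 0) (hv : Q v = 0)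
    (huv : QuadraticMap.polar ⇑Q u v = 0) (c : F) (g : ↥(isometryGroup F ⇑Q))
    (hg : ((g : GL ι F) : Matrix ι ι F) = siegelMatrix ⇑Q u v c) :
    g ∈ commutatorSet ↥(isometryGroup F ⇑Q) := by
  have h : β[Q] u (c • v) = 0 := by
    rw [LinearMap.map_smul]
    change c • QuadraticMap.polar ⇑Q u v = 0
    rw [huv, smul_zero]
  obtain ⟨a, b, hab⟩ := eichO_mem_commutatorSet hQ (neg_ne_zero.mpr one_ne_zero)
    (fun h => h2 (by linear_combination -h) : (-1 : F) ≠ 1) hu h
  refine ⟨(isometryGroupEquiv Q).symm a, (isometryGroupEquiv Q).symm b, ?_⟩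
  rw [← map_commutatorElement, hab, MulEquiv.symm_apply_eq]
  apply O_ext
  intro x
  rw [← siegel_eq_eichO Q hu hv c h, isometryGroupEquiv_apply, hg]

theorem Omega_eq_closure_siegel [Finite F] (h2 : (2 : F) ≠ 0) {Q : QuadraticForm F (ι → F)}
    (hQ : (β[Q]).Nondegenerate) (hn : 5 ≤ Fintype.card ι) :
    Omega F ⇑Q = Subgroup.closure {g : ↥(isometryGroup F ⇑Q) | ∃ (u v : ι → F) (c : F),
      Q u = 0 ∧ Q v = 0 ∧ QuadraticMap.polar ⇑Q u v = 0 ∧
        ((g : GL ι F) : Matrix ι ι F) = siegelMatrix ⇑Q u v c} := by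
  have hV : 5 ≤ finrank F (ι → F) := by rw [Module.finrank_fintype_fun_eq_card]; exact hn
  apply le_antisymm
  · set G := Subgroup.closure {g : ↥(isometryGroup F ⇑Q) | ∃ (u v : ι → F) (c : F),
      Q u = 0 ∧ Q v = 0 ∧ QuadraticMap.polar ⇑Q u v = 0 ∧
        ((g : GL ι F) : Matrix ι ι F) = siegelMatrix ⇑Q u v c} with hG
    have h3 : eichG Q ≤ G.comap (isometryGroupEquiv Q).symm.toMonoidHom := by
      apply eichG_le_of_singular hQ hV
      intro u y hu hy huy
      rw [Subgroup.mem_comap]
      refine Subgroup.subset_closure ⟨u, y, 1, hu, hy, huy, ?_⟩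
      apply coe_isometryGroupEquiv_symm
      intro x
      have h : β[Q] u ((1 : F) • y) = 0 := by rw [one_smul]; exact huy
      rw [siegel_eq_eichO Q hu hy 1 h, eichO_congr hu h hu huy rfl (one_smul F y)]
    intro g hg
    have h4 : isometryGroupEquiv Q g ∈ commutator (O Q) :=
      (mem_commutator_congr (isometryGroupEquiv Q) g).mpr hg
    have h5 := h3 (commutator_le_eichG hQ (by omega) h4)
    rw [Subgroup.mem_comap] at h5
    have h6 : (isometryGroupEquiv Q).symm.toMonoidHom (isometryGroupEquiv Q g) = g :=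
      (isometryGroupEquiv Q).symm_apply_apply g
    rwa [h6] at h5
  · rw [Subgroup.closure_le]
    rintro g ⟨u, v, c, hu, hv, huv, hg⟩
    change g ∈ commutator _
    rw [commutator_eq_closure]
    exact Subgroup.subset_closure (siegel_mem_commutatorSet h2 hQ u v hu hv huv c g hg)

end Mat

/-! ### Maximal singular subspaces -/

/-- Subspaces of functions with given support. -/
def suppS {ι : Type*} (F : Type*) [Field F] (p : ι → Prop) : Submodule F (ι → F) where
  carrier := {v | ∀ i, ¬ p i → v i = 0}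
  add_mem' := by
    intro v w hv hw i hi
    rw [Pi.add_apply, hv i hi, hw i hi, add_zero]
  zero_mem' := fun i _ => rfl
  smul_mem' := by
    intro c v hv i hi
    rw [Pi.smul_apply, hv i hi, smul_zero]

lemma mem_suppS {ι : Type*} {p : ι → Prop} {v : ι → F} :
    v ∈ suppS F p ↔ ∀ i, ¬ p i → v i = 0 := Iff.rfl

lemma finrank_suppS {ι : Type*} [Fintype ι] (p : ι → Prop) :
    finrank F (suppS F p) = Nat.card {i // p i} := by
  classical
  have e : suppS F p ≃ₗ[F] ({i // p i} → F) :=
    { toFun := fun v i => v.1 i.1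
      invFun := fun w => ⟨fun i => if h : p i then w ⟨i, h⟩ else 0, fun i hi => by simp [hi]⟩
      map_add' := fun v w => rfl
      map_smul' := fun c v => rfl
      left_inv := fun v => by
        apply Subtype.ext
        funext i
        by_cases h : p i
        · simp [h]
        · simp [h, v.2 i h]
      right_inv := fun w => by
        funext i
        simp [i.2] }
  rw [e.finrank_eq, Module.finrank_fintype_fun_eq_card, Nat.card_eq_fintype_card]

/-- The plus form as a quadratic form on the coordinate space. -/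
noncomputable def QP (m : ℕ) (F : Type*) [Field F] : QuadraticForm F (Fin m ⊕ Fin m → F) :=
  (hypSum m (zeroQ F)).comp (ePlus m F).toLinearMap

lemma QP_apply (m : ℕ) (v : Fin m ⊕ Fin m → F) : QP m F v = quadFormPlus m F v :=
  ePlus_apply m v

lemma QP_nondegenerate (m : ℕ) : (QuadraticMap.polarBilin (QP m F)).Nondegenerate :=
  nondegenerate_congr (ePlus m F).symm (Q := hypSum m (zeroQ F)) (fun u => by
    change hypSum m (zeroQ F) ((ePlus m F) ((ePlus m F).symm u)) = _
    rw [LinearEquiv.apply_symm_apply]) (hypSum_nondegenerate m zeroQ_nondegenerate)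

lemma finrank_QP (m : ℕ) : finrank F (Fin m ⊕ Fin m → F) = 2 * m := by
  rw [Module.finrank_fintype_fun_eq_card, Fintype.card_sum, Fintype.card_fin]; ring

/-- The standard maximal singular subspace. -/
lemma exists_max_singular (m : ℕ) : ∃ W : Submodule F (Fin m ⊕ Fin m → F), finrank F W = m ∧
    ∀ w ∈ W, QP m F w = 0 := by
  refine ⟨suppS F (fun i => ∃ j, i = Sum.inl j), ?_, ?_⟩
  · rw [finrank_suppS]
    have e : {i : Fin m ⊕ Fin m // ∃ j, i = Sum.inl j} ≃ Fin m :=
      { toFun := fun i => i.2.choose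
        invFun := fun j => ⟨Sum.inl j, j, rfl⟩
        left_inv := fun i => Subtype.ext i.2.choose_spec.symm
        right_inv := fun j => by
          have := (⟨j, rfl⟩ : ∃ k, (Sum.inl j : Fin m ⊕ Fin m) = Sum.inl k).choose_spec
          exact (Sum.inl_injective this).symm }
    rw [Nat.card_congr e, Nat.card_fin]
  · intro w hw
    rw [QP_apply, quadFormPlus]
    refine Finset.sum_eq_zero fun i _ => ?_
    rw [mem_suppS.mp hw (Sum.inr i) (by rintro ⟨j, hj⟩; cases hj), mul_zero]

/-- Over a field, a singular subspace of codimension one in a maximal one lies in exactly two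
maximal ones. -/
theorem card_two_of_hyperplane {Q : QuadraticForm F V} (hQ : (β[Q]).Nondegenerate) {m : ℕ}
    (hV : finrank F V = 2 * m) (U : Submodule F V) (hU : finrank F U + 1 = m)
    (W₀ : Submodule F V) (hW₀ : finrank F W₀ = m) (hs₀ : ∀ w ∈ W₀, Q w = 0) (hUW : U ≤ W₀) :
    Nat.card {W : Submodule F V // finrank F W = m ∧ (∀ w ∈ W, Q w = 0) ∧ U ≤ W} = 2 := by
  have hsU : ∀ u ∈ U, Q u = 0 := fun u hu => hs₀ u (hUW hu)
  obtain ⟨e, heW, heU⟩ : ∃ e ∈ W₀, e ∉ U := by
    by_contra hcon
    push Not at hcon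
    have := Submodule.finrank_mono (show W₀ ≤ U from hcon)
    omega
  have he : Q e = 0 := hs₀ e heW
  have heU' : ∀ u ∈ U, β[Q] u e = 0 := fun u hu => polar_eq_zero_of_singular hs₀ (hUW hu) heW
  obtain ⟨r, hr, hre⟩ := CfsgLib.AltForm.exists_orthogonal_ne_zero hQ (polar_isRefl Q) heU
  rw [LinearMap.BilinForm.mem_orthogonal_iff] at hr
  obtain ⟨f, hf, hef, hfU⟩ : ∃ f, Q f = 0 ∧ β[Q] e f = 1 ∧ ∀ u ∈ U, β[Q] u f = 0 := by
    set f₀ := (β[Q] r e)⁻¹ • r with hf₀
    have h1 : β[Q] e f₀ = 1 := by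
      rw [hf₀, LinearMap.map_smul, smul_eq_mul, polar_comm Q e r, inv_mul_cancel₀ hre]
    have h2 : ∀ u ∈ U, β[Q] u f₀ = 0 := fun u hu => by
      rw [hf₀, LinearMap.map_smul]
      have : β[Q] u r = 0 := hr u hu
      rw [this, smul_zero]
    clear_value f₀
    refine ⟨f₀ - Q f₀ • e, ?_, ?_, fun u hu => ?_⟩
    · rw [map_sub, map_smul, he, LinearMap.map_smul, polar_comm Q f₀ e, h1]
      simp
    · rw [LinearMap.map_sub, LinearMap.map_smul, polar_self, he, h1]
      simp
    · rw [LinearMap.map_sub, LinearMap.map_smul, h2 u hu, heU' u hu]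
      simp
  have hfe : β[Q] f e = 1 := by rw [polar_comm]; exact hef
  -- `(U + ⟨e, f⟩)^⊥ = U`
  have hfU0 : f ∉ U ⊔ (F ∙ e) := by
    intro h
    obtain ⟨u, hu, v, hv, huv⟩ := Submodule.mem_sup.mp h
    obtain ⟨c, rfl⟩ := Submodule.mem_span_singleton.mp hv
    have h1 : β[Q] e f = 0 := by
      rw [← huv, LinearMap.map_add, LinearMap.map_smul, polar_self, he, polar_comm Q e u,
        heU' u hu]
      simp
    rw [hef] at h1
    exact one_ne_zero h1
  have hd1 : finrank F ↥(U ⊔ (F ∙ e)) = m := by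
    have h1 : Disjoint U (F ∙ e) := by
      rw [Submodule.disjoint_def]
      intro x hx hx'
      obtain ⟨c, rfl⟩ := Submodule.mem_span_singleton.mp hx'
      by_cases hc : c = 0
      · rw [hc, zero_smul]
      · exfalso
        apply heU
        have := U.smul_mem c⁻¹ hx
        rwa [smul_smul, inv_mul_cancel₀ hc, one_smul] at this
    have h2 := Submodule.finrank_sup_add_finrank_inf_eq U (F ∙ e)
    have he0 : e ≠ 0 := ne_zero_of_polar (Q := Q) (f := f) (by rw [hef]; exact one_ne_zero)
    rw [h1.eq_bot, finrank_bot, finrank_span_singleton he0] at h2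
    omega
  have hd2 : finrank F ↥(U ⊔ (F ∙ e) ⊔ (F ∙ f)) = m + 1 := by
    have h1 : Disjoint (U ⊔ (F ∙ e)) (F ∙ f) := by
      rw [Submodule.disjoint_def]
      intro x hx hx'
      obtain ⟨c, rfl⟩ := Submodule.mem_span_singleton.mp hx'
      by_cases hc : c = 0
      · rw [hc, zero_smul]
      · exfalso
        apply hfU0
        have := (U ⊔ (F ∙ e)).smul_mem c⁻¹ hx
        rwa [smul_smul, inv_mul_cancel₀ hc, one_smul] at this
    have h2 := Submodule.finrank_sup_add_finrank_inf_eq (U ⊔ (F ∙ e)) (F ∙ f)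
    have hf0 : f ≠ 0 := ne_zero_of_polar (Q := Q) (f := e) (by rw [hfe]; exact one_ne_zero)
    rw [h1.eq_bot, finrank_bot, finrank_span_singleton hf0, hd1] at h2
    omega
  have hperp : LinearMap.BilinForm.orthogonal (β[Q]) (U ⊔ (F ∙ e) ⊔ (F ∙ f)) = U := by
    symm
    apply Submodule.eq_of_le_of_finrank_eq
    · intro x hx
      rw [mem_orth]
      intro w hw
      obtain ⟨y, hy, z, hz, rfl⟩ := Submodule.mem_sup.mp hw
      obtain ⟨u, hu, v, hv, rfl⟩ := Submodule.mem_sup.mp hy
      obtain ⟨c, rfl⟩ := Submodule.mem_span_singleton.mp hv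
      obtain ⟨d, rfl⟩ := Submodule.mem_span_singleton.mp hz
      simp only [LinearMap.map_add, LinearMap.map_smul, LinearMap.add_apply, LinearMap.smul_apply,
        polar_eq_zero_of_singular hsU hu hx, polar_comm Q e x, heU' x hx, polar_comm Q f x,
        hfU x hx, smul_zero, add_zero]
    · rw [LinearMap.BilinForm.finrank_orthogonal hQ, hd2, hV]
      omega
  have hsing : ∀ g : V, Q g = 0 → (∀ u ∈ U, β[Q] u g = 0) → ∀ w ∈ U ⊔ (F ∙ g), Q w = 0 := by
    intro g hg hUg w hw
    obtain ⟨u, hu, v, hv, rfl⟩ := Submodule.mem_sup.mp hw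
    obtain ⟨c, rfl⟩ := Submodule.mem_span_singleton.mp hv
    rw [map_add, map_smul, hsU u hu, hg, LinearMap.map_smul, hUg u hu]
    simp
  have hd1f : finrank F ↥(U ⊔ (F ∙ f)) = m := by
    have h1 : Disjoint U (F ∙ f) := by
      rw [Submodule.disjoint_def]
      intro x hx hx'
      obtain ⟨c, rfl⟩ := Submodule.mem_span_singleton.mp hx'
      by_cases hc : c = 0
      · rw [hc, zero_smul]
      · exfalso
        apply hfU0
        apply Submodule.mem_sup_left
        have := U.smul_mem c⁻¹ hx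
        rwa [smul_smul, inv_mul_cancel₀ hc, one_smul] at this
    have h2 := Submodule.finrank_sup_add_finrank_inf_eq U (F ∙ f)
    have hf0 : f ≠ 0 := ne_zero_of_polar (Q := Q) (f := e) (by rw [hfe]; exact one_ne_zero)
    rw [h1.eq_bot, finrank_bot, finrank_span_singleton hf0] at h2
    omega
  rw [Nat.card_eq_two_iff]
  refine ⟨⟨U ⊔ (F ∙ e), hd1, hsing e he heU', le_sup_left⟩,
    ⟨U ⊔ (F ∙ f), hd1f, hsing f hf hfU, le_sup_left⟩, ?_, ?_⟩
  · intro h
    have h1 : U ⊔ (F ∙ e) = U ⊔ (F ∙ f) := congrArg Subtype.val h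
    apply hfU0
    rw [h1]
    exact Submodule.mem_sup_right (Submodule.mem_span_singleton_self f)
  · rw [Set.eq_univ_iff_forall]
    rintro ⟨W, hW, hs, hUW'⟩
    obtain ⟨w, hwW, hwU⟩ : ∃ w ∈ W, w ∉ U := by
      by_contra hcon
      push Not at hcon
      have := Submodule.finrank_mono (show W ≤ U from hcon)
      omega
    have hwU' : ∀ u ∈ U, β[Q] u w = 0 := fun u hu => polar_eq_zero_of_singular hs (hUW' hu) hwW
    set a := β[Q] f w with ha
    set b := β[Q] e w with hb
    have h1 : w - a • e - b • f ∈ U := by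
      rw [← hperp, mem_orth]
      intro x hx
      obtain ⟨y, hy, z, hz, rfl⟩ := Submodule.mem_sup.mp hx
      obtain ⟨u, hu, v, hv, rfl⟩ := Submodule.mem_sup.mp hy
      obtain ⟨c, rfl⟩ := Submodule.mem_span_singleton.mp hv
      obtain ⟨d, rfl⟩ := Submodule.mem_span_singleton.mp hz
      simp only [LinearMap.map_add, LinearMap.map_sub, LinearMap.map_smul, LinearMap.add_apply,
        LinearMap.smul_apply, hwU' u hu, heU' u hu, hfU u hu, polar_self, he, hf, hef, hfe,
        ← ha, ← hb, smul_eq_mul]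
      ring
    have hab : a * b = 0 := by
      have h2 : Q w = 0 := hs w hwW
      have h3 : w = (w - a • e - b • f) + a • e + b • f := by abel
      rw [h3, map_add_two, hsU _ h1, he, hf, hef, heU' _ h1, hfU _ h1] at h2
      linear_combination h2
    rcases mul_eq_zero.mp hab with h2 | h2
    · -- `a = 0`: `W = U + ⟨f⟩`
      right
      have hb0 : b ≠ 0 := by
        intro hb0
        rw [h2, hb0, zero_smul, zero_smul, sub_zero, sub_zero] at h1
        exact hwU h1
      apply Subtype.ext
      change W = U ⊔ (F ∙ f)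
      symm
      apply Submodule.eq_of_le_of_finrank_eq
      · refine sup_le hUW' ?_
        rw [Submodule.span_singleton_le_iff_mem]
        have h3 : f = b⁻¹ • (w - (w - a • e - b • f)) := by
          rw [h2, zero_smul, sub_zero, sub_sub_cancel, smul_smul, inv_mul_cancel₀ hb0, one_smul]
        rw [h3]
        exact W.smul_mem _ (W.sub_mem hwW (hUW' h1))
      · rw [hd1f, hW]
    · left
      have ha0 : a ≠ 0 := by
        intro ha0
        rw [h2, ha0, zero_smul, zero_smul, sub_zero, sub_zero] at h1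
        exact hwU h1
      apply Subtype.ext
      change W = U ⊔ (F ∙ e)
      symm
      apply Submodule.eq_of_le_of_finrank_eq
      · refine sup_le hUW' ?_
        rw [Submodule.span_singleton_le_iff_mem]
        have h3 : e = a⁻¹ • (w - (w - a • e - b • f)) := by
          rw [h2, zero_smul, sub_zero, sub_sub_cancel, smul_smul, inv_mul_cancel₀ ha0, one_smul]
        rw [h3]
        exact W.smul_mem _ (W.sub_mem hwW (hUW' h1))
      · rw [hd1, hW]

/-- Extension of a singular subspace to one of any dimension occurring. -/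
lemma exists_singular_ge {Q : QuadraticForm F V} (hQ : (β[Q]).Nondegenerate)
    {U W : Submodule F V} (hU : ∀ w ∈ U, Q w = 0) (hW : ∀ w ∈ W, Q w = 0)
    (h : finrank F U ≤ finrank F W) :
    ∃ W₀ : Submodule F V, U ≤ W₀ ∧ finrank F W₀ = finrank F W ∧ ∀ w ∈ W₀, Q w = 0 := by
  obtain ⟨φ, hφ⟩ := exists_injective_of_finrank_le h
  obtain ⟨g, hg, hgx⟩ := exists_O_extension hQ U (W.subtype.comp φ)
      (Subtype.val_injective.comp hφ) (fun x => by
        rw [hU _ x.2]; exact hW _ (φ x).2)
  refine ⟨W.comap (g : V →ₗ[F] V), fun x hx => ?_, finrank_comap_equiv g W, fun w hw => ?_⟩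
  · rw [Submodule.mem_comap]
    change g x ∈ W
    have := hgx ⟨x, hx⟩
    rw [this]
    exact (φ ⟨x, hx⟩).2
  · rw [← mem_O.mp hg]
    exact hW _ hw

end CfsgLib.Quad
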