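import Cfsg.Agent.Lib.Asu5
import Cfsg.Agent.Lib.Quad14

set_option autoImplicit false
set_option maxHeartbeats 400000

/-! Subgroups of orthogonal groups in odd prime dimension: reducible, monomial and field cases. -/
namespace CfsgLib.Aso1

open Cfsg Cfsg.Geo Module CfsgLib.GeoBase CfsgLib.Asch1 CfsgLib.Asch2 CfsgLib.Asch3 CfsgLib.Asch4 CfsgLib.Asch7 CfsgLib.Asu1
open CfsgLib.Quad (O O_ext eichO eichO_apply eichG exists_singular_polar_ne two_mul_finrank_singular_le polar_comm polar_self eichG_le_commutator eichO_mem)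

local notation "β[" Q "]" => QuadraticMap.polarBilin Q

universe u v

variable {ι : Type} [Fintype ι] [DecidableEq ι] {F : Type u} [Field F]

section
variable {Q : QuadraticForm F (ι → F)}
set_option linter.unusedSectionVars false

theorem qsub (x y : ι → F) : Q (x - y) = Q x + Q y - β[Q] x y := CfsgLib.Quad.map_sub Q x y
theorem qadd (x y : ι → F) : Q (x + y) = Q x + Q y + β[Q] x y := CfsgLib.Quad.map_add Q x y
theorem qsmul (a : F) (x : ι → F) : Q (a • x) = a ^ 2 * Q x := CfsgLib.Quad.map_smul Q a x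

theorem om_Q {g : Matrix.GeneralLinearGroup ι F} (hg : g ∈ omegaGL ⇑Q) (x : ι → F) : Q (Matrix.mulVec (g : Matrix ι ι F) x) = Q x := by
  obtain ⟨y, -, rfl⟩ := hg
  exact y.2 x x

theorem q_polar {g : Matrix.GeneralLinearGroup ι F} (hg : ∀ x : ι → F, Q (Matrix.mulVec (g : Matrix ι ι F) x) = Q x) (x y : ι → F) :
    β[Q] (Matrix.mulVec (g : Matrix ι ι F) x) (Matrix.mulVec (g : Matrix ι ι F) y) = β[Q] x y := by
  have h1 := hg (x + y)
  rw [mulVec_add', qadd, qadd, hg, hg] at h1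
  linear_combination h1

/-- the isometry group -/
def IQ (Q : QuadraticForm F (ι → F)) : Subgroup (Matrix.GeneralLinearGroup ι F) := isometryGroup F ⇑Q

theorem mem_IQ {g : Matrix.GeneralLinearGroup ι F} : g ∈ IQ Q ↔ ∀ x : ι → F, Q (Matrix.mulVec (g : Matrix ι ι F) x) = Q x :=
  ⟨fun h x => h x x, fun h x _ => h x⟩

theorem om_le : omegaGL ⇑Q ≤ IQ Q := fun _ hg => mem_IQ.2 (om_Q hg)

theorem om_eich (hQ : (β[Q]).Nondegenerate) (h2 : (2 : F) ≠ 0) {u y : ι → F} (hu : Q u = 0) (hy : β[Q] u y = 0) :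
    ∃ g ∈ omegaGL ⇑Q, ∀ x, Matrix.mulVec (g : Matrix ι ι F) x = x + (β[Q] u x) • y + (- β[Q] y x - Q y * β[Q] u x) • u := by
  have h1 : eichO hu hy ∈ commutator (O Q) := eichG_le_commutator hQ (t := -1) (neg_ne_zero.2 one_ne_zero) (fun h => h2 (by linear_combination -h)) (eichO_mem hu hy)
  have h3 : (CfsgLib.Quad.isometryGroupEquiv Q).symm (eichO hu hy) ∈ commutator (isometryGroup F ⇑Q) := by
    rw [← CfsgLib.Quad.mem_commutator_congr (CfsgLib.Quad.isometryGroupEquiv Q), MulEquiv.apply_symm_apply]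
    exact h1
  refine ⟨((CfsgLib.Quad.isometryGroupEquiv Q).symm (eichO hu hy) : Matrix.GeneralLinearGroup ι F), ⟨_, h3, rfl⟩, fun x => ?_⟩
  have h4 := CfsgLib.Quad.isometryGroupEquiv_apply Q ((CfsgLib.Quad.isometryGroupEquiv Q).symm (eichO hu hy)) x
  rw [MulEquiv.apply_symm_apply] at h4
  rw [← h4, eichO_apply]

theorem pself_ne (h2 : (2 : F) ≠ 0) {x : ι → F} : β[Q] x x = 0 ↔ Q x = 0 := by
  rw [polar_self]
  constructor
  · intro h
    exact (mul_eq_zero.1 h).resolve_left h2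
  · intro h
    rw [h, mul_zero]

theorem o_irr [Finite F] (hQ : (β[Q]).Nondegenerate) (h2 : (2 : F) ≠ 0) (h3 : 3 ≤ Fintype.card ι) : Irr (omegaGL ⇑Q) := by
  have hV : finrank F (ι → F) = Fintype.card ι := finrank_fintype_fun_eq_card F
  intro W hW
  by_contra hne
  push Not at hne
  obtain ⟨x, hx, hx0⟩ := Submodule.exists_mem_ne_zero_of_ne_bot hne.1
  obtain ⟨u, hu, hux⟩ := exists_singular_polar_ne hQ (by omega) hx0
  have hw : ∀ y, β[Q] u y = 0 → (β[Q] u x) • y + (- β[Q] y x - Q y * β[Q] u x) • u ∈ W := by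
    intro y hy
    obtain ⟨g, hg, hg'⟩ := om_eich hQ h2 hu hy
    have h4 := W.sub_mem (hW g hg x hx) hx
    rw [hg', add_assoc, add_sub_cancel_left] at h4
    exact h4
  obtain ⟨y, hy, hQy⟩ : ∃ y, β[Q] u y = 0 ∧ Q y ≠ 0 := by
    by_contra hcon
    push Not at hcon
    have h4 := two_mul_finrank_singular_le hQ (W := LinearMap.ker (β[Q] u)) hcon
    have h5 := LinearMap.finrank_range_add_finrank_ker (β[Q] u)
    have h6 := Submodule.finrank_le (LinearMap.range (β[Q] u))
    rw [finrank_self] at h6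
    omega
  have hu' : u ∈ W := by
    have h4 := W.add_mem (hw y hy) (hw (-y) (by rw [map_neg, hy, neg_zero]))
    have e : (β[Q] u x) • y + (- β[Q] y x - Q y * β[Q] u x) • u + ((β[Q] u x) • (-y) + (- β[Q] (-y) x - Q (-y) * β[Q] u x) • u) = (-(2 * Q y * β[Q] u x)) • u := by
      rw [LinearMap.map_neg, LinearMap.neg_apply, QuadraticMap.map_neg]
      module
    rw [e] at h4
    have hc : -(2 * Q y * β[Q] u x) ≠ 0 := neg_ne_zero.2 (mul_ne_zero (mul_ne_zero h2 hQy) hux)
    have := W.smul_mem (-(2 * Q y * β[Q] u x))⁻¹ h4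
    rwa [smul_smul, inv_mul_cancel₀ hc, one_smul] at this
  have hy' : ∀ y, β[Q] u y = 0 → y ∈ W := by
    intro y hy
    have h4 := W.sub_mem (hw y hy) (W.smul_mem (- β[Q] y x - Q y * β[Q] u x) hu')
    rw [add_sub_cancel_right] at h4
    have := W.smul_mem (β[Q] u x)⁻¹ h4
    rwa [smul_smul, inv_mul_cancel₀ hux, one_smul] at this
  apply hne.2
  rw [eq_top_iff]
  intro v _
  have h4 := hy' (v - (β[Q] u v * (β[Q] u x)⁻¹) • x) (by
    rw [map_sub, map_smul, smul_eq_mul, mul_assoc, inv_mul_cancel₀ hux, mul_one, sub_self])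
  have := W.add_mem h4 (W.smul_mem (β[Q] u v * (β[Q] u x)⁻¹) hx)
  rwa [sub_add_cancel] at this

/-- orthogonal complement -/
def pp (Q : QuadraticForm F (ι → F)) (W : Submodule F (ι → F)) : Submodule F (ι → F) := LinearMap.BilinForm.orthogonal (β[Q]) W

theorem mem_pp {W : Submodule F (ι → F)} {x : ι → F} : x ∈ pp Q W ↔ ∀ w ∈ W, β[Q] w x = 0 := LinearMap.BilinForm.mem_orthogonal_iff

theorem finrank_pp (hQ : (β[Q]).Nondegenerate) (W : Submodule F (ι → F)) : finrank F (pp Q W) + finrank F W = Fintype.card ι := by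
  have h1 := LinearMap.BilinForm.finrank_orthogonal hQ W
  have h2 := Submodule.finrank_le W
  rw [finrank_fintype_fun_eq_card] at h1 h2
  change finrank F (pp Q W) = _ at h1
  omega

theorem pp_pp (hQ : (β[Q]).Nondegenerate) (W : Submodule F (ι → F)) : pp Q (pp Q W) = W := by
  symm
  apply Submodule.eq_of_le_of_finrank_eq
  · intro x hx
    rw [mem_pp]
    intro w hw
    rw [polar_comm]
    exact (mem_pp.1 hw) x hx
  · have h1 := finrank_pp hQ W
    have h2 := finrank_pp hQ (pp Q W)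
    omega

theorem nd_of_disjoint {W : Submodule F (ι → F)} (hd : W ⊓ pp Q W = ⊥) : IsNondegenerateOn (QuadraticMap.polar ⇑Q) W := by
  intro w hw hw0
  have h1 : ∃ x ∈ W, β[Q] x w ≠ 0 := by
    by_contra hne
    push Not at hne
    apply hw0
    rw [← Submodule.mem_bot F, ← hd]
    exact ⟨hw, mem_pp.2 hne⟩
  obtain ⟨x, hx, hxw⟩ := h1
  refine ⟨⟨x, hx, hxw⟩, ⟨x, hx, ?_⟩⟩
  change β[Q] w x ≠ 0
  rw [polar_comm]
  exact hxw

theorem f3 [Fintype F] (h3 : Fintype.card F = 3) {a b : F} (hab : a * b = 1) : a = b ∧ (a = 1 ∨ a = -1) := by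
  have h1 : a ^ 3 = a := by
    have := FiniteField.pow_card a
    rwa [h3] at this
  have ha : a ≠ 0 := left_ne_zero_of_mul_eq_one hab
  have h2 : a * a = 1 := by
    apply mul_left_cancel₀ ha
    linear_combination h1
  constructor
  · apply mul_left_cancel₀ ha
    rw [h2, hab]
  · exact mul_self_eq_one_iff.1 h2

theorem red_o [Fintype F] (hQ : (β[Q]).Nondegenerate) (h2 : (2 : F) ≠ 0) (hodd : Odd (Fintype.card ι)) (h4 : 4 ≤ Fintype.card ι)
    {H : Subgroup (Matrix.GeneralLinearGroup ι F)} (hH : IsMaximalIn (omegaGL ⇑Q) H) {W : Submodule F (ι → F)} (hW : Inv H W) (h0 : W ≠ ⊥) (h1 : W ≠ ⊤) :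
    (∃ W : Submodule F (ι → F), W ≠ ⊥ ∧ IsTotallySingularQuad ⇑Q W ∧ H = subspaceStabilizer W ⊓ omegaGL ⇑Q) ∨
    (∃ W : Submodule F (ι → F), W ≠ ⊥ ∧ Even (finrank F W) ∧ IsNondegenerateOn (QuadraticMap.polar ⇑Q) W ∧
      ¬ (Fintype.card F = 3 ∧ finrank F W = 2 ∧ IsPlusTypeOn ⇑Q W) ∧ H = subspaceStabilizer W ⊓ omegaGL ⇑Q) := by
  have hirr := o_irr hQ h2 (by omega)
  have hIQ : ∀ g ∈ H, ∀ x : ι → F, Q (Matrix.mulVec (g : Matrix ι ι F) x) = Q x := fun g hg => om_Q (hH.1.le hg)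
  have key : ∀ U : Submodule F (ι → F), U ≠ ⊥ → U ≠ ⊤ → Inv H U → H = subspaceStabilizer U ⊓ omegaGL ⇑Q := by
    intro U hU0 hU1 hUi
    apply max_eq hH (fun g hg => mem_stab_iff.2 (hUi g hg))
    intro hle
    rcases hirr U (fun g hg w hw => mem_stab_iff.1 (hle hg) w hw) with h3 | h3
    · exact hU0 h3
    · exact hU1 h3
  have hpi : ∀ W, Inv H W → Inv H (pp Q W) := by
    intro W hW g hg v hv
    rw [mem_pp] at hv ⊢
    intro x hx
    have h3 := q_polar (hIQ g hg) (Matrix.mulVec ((g⁻¹ : Matrix.GeneralLinearGroup ι F) : Matrix ι ι F) x) v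
    rw [mulVec_inv] at h3
    rw [h3]
    exact hv _ (hW g⁻¹ (H.inv_mem hg) x hx)
  by_cases hd : W ⊓ pp Q W = ⊥
  · right
    have hW'0 : pp Q W ≠ ⊥ := by
      intro h7
      have h3 := finrank_pp hQ W
      rw [h7, finrank_bot, zero_add] at h3
      exact h1 (Submodule.eq_top_of_finrank_eq (by rw [h3, finrank_fintype_fun_eq_card]))
    have hW'1 : pp Q W ≠ ⊤ := by
      intro h7
      have h3 := finrank_pp hQ W
      rw [h7, finrank_top, finrank_fintype_fun_eq_card] at h3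
      exact h0 (Submodule.finrank_eq_zero.1 (by omega))
    obtain ⟨W₁, hW₁0, hW₁1, hW₁i, hW₁d, hW₁e⟩ : ∃ W₁ : Submodule F (ι → F), W₁ ≠ ⊥ ∧ W₁ ≠ ⊤ ∧ Inv H W₁ ∧ W₁ ⊓ pp Q W₁ = ⊥ ∧ Even (finrank F W₁) := by
      rcases Nat.even_or_odd (finrank F W) with he | ho
      · exact ⟨W, h0, h1, hW, hd, he⟩
      · refine ⟨pp Q W, hW'0, hW'1, hpi W hW, ?_, ?_⟩
        · rw [pp_pp hQ, inf_comm]; exact hd
        · have h3 := finrank_pp hQ W
          rw [← h3] at hodd
          rw [Nat.odd_add'] at hodd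
          exact hodd.1 ho
    by_cases hex : Fintype.card F = 3 ∧ finrank F W₁ = 2 ∧ IsPlusTypeOn ⇑Q W₁
    swap
    · exact ⟨W₁, hW₁0, hW₁e, nd_of_disjoint hW₁d, hex, key W₁ hW₁0 hW₁1 hW₁i⟩
    -- the exceptional hyperbolic plane
    obtain ⟨h3, hf2, U, hU, hUs, hUf⟩ := hex
    rw [hf2] at hUf
    have hU0 : U ≠ ⊥ := by
      intro h5
      rw [h5, finrank_bot] at hUf
      omega
    obtain ⟨e, heU, he0⟩ := Submodule.exists_mem_ne_zero_of_ne_bot hU0
    have he : Q e = 0 := hUs e heU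
    have heW := hU heU
    obtain ⟨z, hz, hez⟩ := ((nd_of_disjoint hW₁d) e heW he0).2
    change β[Q] e z ≠ 0 at hez
    obtain ⟨z', hz'W, hez'⟩ : ∃ z' ∈ W₁, β[Q] e z' = 1 :=
      ⟨(β[Q] e z)⁻¹ • z, W₁.smul_mem _ hz, by rw [map_smul, smul_eq_mul, inv_mul_cancel₀ hez]⟩
    have hee : β[Q] e e = 0 := (pself_ne h2).2 he
    obtain ⟨f, hfW, hef, hff⟩ : ∃ f ∈ W₁, β[Q] e f = 1 ∧ Q f = 0 := by
      refine ⟨z' - Q z' • e, W₁.sub_mem hz'W (W₁.smul_mem _ heW), ?_, ?_⟩
      · rw [map_sub, map_smul, hee, smul_zero, sub_zero, hez']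
      · rw [qsub, qsmul, he, map_smul, polar_comm, hez', smul_eq_mul]; ring
    have hspan : ∀ x ∈ W₁, ∃ a b : F, x = a • e + b • f := by
      have hli : LinearIndependent F ![e, f] := by
        rw [LinearIndependent.pair_iff]
        intro s t hst
        have h5 := congrArg (β[Q] e) hst
        have h6 := congrArg (β[Q] f) hst
        rw [map_add, map_smul, map_smul, hee, hef, smul_zero, zero_add, map_zero, smul_eq_mul, mul_one] at h5
        rw [map_add, map_smul, map_smul, (pself_ne h2).2 hff, polar_comm Q f e, hef, smul_zero, add_zero, map_zero, smul_eq_mul, mul_one] at h6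
        exact ⟨h6, h5⟩
      have h5 : Submodule.span F (Set.range ![e, f]) = W₁ := by
        apply Submodule.eq_of_le_of_finrank_eq
        · rw [Submodule.span_le]
          rintro _ ⟨i, rfl⟩
          fin_cases i
          · exact heW
          · exact hfW
        · rw [finrank_span_eq_card hli, Fintype.card_fin, hf2]
      intro x hx
      rw [← h5, Matrix.range_cons, Matrix.range_cons, Matrix.range_empty, Set.union_empty, Set.singleton_union, Submodule.mem_span_pair] at hx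
      obtain ⟨a, b, hab⟩ := hx
      exact ⟨a, b, hab.symm⟩
    have hvQ : Q (e + f) = 1 := by rw [qadd, he, hff, hef]; ring
    have hv0 : e + f ≠ 0 := by
      intro h5
      rw [h5, QuadraticMap.map_zero] at hvQ
      exact zero_ne_one hvQ
    have hLi : Inv H (Submodule.span F {e + f}) := by
      intro g hg x hx
      obtain ⟨c, rfl⟩ := Submodule.mem_span_singleton.1 hx
      rw [mulVec_smul']
      apply Submodule.smul_mem
      have h5 := hW₁i g hg _ (W₁.add_mem heW hfW)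
      obtain ⟨a, b, hab⟩ := hspan _ h5
      have h6 := hIQ g hg (e + f)
      have e1 : β[Q] (a • e) (b • f) = a * b := by
        rw [map_smul, smul_eq_mul, LinearMap.map_smul, LinearMap.smul_apply, smul_eq_mul, hef]; ring
      rw [hab, hvQ, qadd, qsmul, qsmul, he, hff, e1] at h6
      have h7 : a * b = 1 := by linear_combination h6
      obtain ⟨h8, -⟩ := f3 h3 h7
      rw [hab, h8, ← smul_add]
      exact Submodule.smul_mem _ _ (Submodule.mem_span_singleton_self _)
    set L := Submodule.span F {e + f} with hL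
    have hLf : finrank F L = 1 := finrank_span_singleton hv0
    have hLp := finrank_pp hQ L
    have hLd : pp Q L ⊓ pp Q (pp Q L) = ⊥ := by
      rw [pp_pp hQ, eq_bot_iff]
      rintro x ⟨hx1, hx2⟩
      obtain ⟨c, rfl⟩ := Submodule.mem_span_singleton.1 hx2
      have h5 := (mem_pp.1 hx1) (e + f) (Submodule.mem_span_singleton_self _)
      rw [map_smul, polar_self, hvQ, smul_eq_mul, mul_one] at h5
      rw [(mul_eq_zero.1 h5).resolve_right h2, zero_smul]
      exact Submodule.zero_mem _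
    refine ⟨pp Q L, ?_, ?_, nd_of_disjoint hLd, ?_, key _ ?_ ?_ (hpi L hLi)⟩
    · intro h5
      rw [h5, finrank_bot] at hLp
      omega
    · rw [← hLp, hLf] at hodd
      rw [Nat.odd_add] at hodd
      by_contra h5
      rw [Nat.not_even_iff_odd] at h5
      have := hodd.1 h5
      exact absurd this (by decide)
    · rintro ⟨-, h5, -⟩
      rw [h5, hLf] at hLp
      omega
    · intro h5
      rw [h5, finrank_bot] at hLp
      omega
    · intro h5
      rw [h5, finrank_top, finrank_fintype_fun_eq_card, hLf] at hLp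
      omega
  · left
    refine ⟨W ⊓ pp Q W, hd, fun u hu => ?_, key _ hd ?_ ?_⟩
    · rw [← pself_ne h2]
      exact (mem_pp.1 hu.2) u hu.1
    · intro h3
      apply h1
      rw [eq_top_iff, ← h3]
      exact inf_le_left
    · exact fun g hg w hw => ⟨hW g hg w hw.1, hpi W hW g hg w hw.2⟩

end

end CfsgLib.Aso1
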