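import Cfsg.Agent.Lib.Aso1

set_option autoImplicit false
set_option maxHeartbeats 400000
set_option linter.unusedSectionVars false

/-! Monomial, field and extraspecial cases; non-containments. -/
namespace CfsgLib.Aso2

open Cfsg Cfsg.Geo Module CfsgLib.GeoBase CfsgLib.Asch1 CfsgLib.Asch2 CfsgLib.Asch3 CfsgLib.Asch4 CfsgLib.Asch7 CfsgLib.Asch10 CfsgLib.Asu1 CfsgLib.Asu2 CfsgLib.Aso1
open CfsgLib.Mob35
open CfsgLib.Quad (O O_ext eichO eichO_apply eichG exists_singular_polar_ne two_mul_finrank_singular_le polar_comm polar_self eichG_le_commutator eichO_mem)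

local notation "β[" Q "]" => QuadraticMap.polarBilin Q

universe u v

variable {ι : Type} [Fintype ι] [DecidableEq ι] {F : Type u} [Field F] {Q : QuadraticForm F (ι → F)}

theorem lines_o (hQ : (β[Q]).Nondegenerate) (h2 : (2 : F) ≠ 0) (hp : (Fintype.card ι).Prime) (hodd : Odd (Fintype.card ι)) {N H : Subgroup (Matrix.GeneralLinearGroup ι F)}
    (hirr : Irr H) (hN : NI N H) (hHU : H ≤ IQ Q)
    {w : ι → F} (hw : w ≠ 0) {χ₀ : Matrix.GeneralLinearGroup ι F → F} (hχ₀ : ∀ x ∈ N, Matrix.mulVec (x : Matrix ι ι F) w = χ₀ x • w) :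
    N ≤ scalars ι F ∨ ∃ D : Fin (Fintype.card ι) → Submodule F (ι → F), IsOrthogonalMDecomposition ⇑Q 1 D ∧ H ≤ decompositionStabilizer D := by
  rcases lines' hp hirr hN hw hχ₀ with h1 | ⟨D, χ, hD, hHD, hχ, hDχ⟩
  · exact Or.inl h1
  · right
    have hne : ∀ i, ∃ d ∈ D i, d ≠ 0 := by
      intro i
      apply Submodule.exists_mem_ne_zero_of_ne_bot
      intro h0
      have := hD.finrank_eq i
      rw [h0, finrank_bot] at this
      omega
    choose d hd hd0 using hne
    have hspan : ∀ i, ∀ x ∈ D i, ∃ c : F, x = c • d i := by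
      intro i x hx
      obtain ⟨c, hc⟩ := (finrank_eq_one_iff_of_nonzero' (⟨d i, hd i⟩ : D i) (fun h0 => hd0 i (congrArg Subtype.val h0))).1 (hD.finrank_eq i) ⟨x, hx⟩
      exact ⟨c, (congrArg Subtype.val hc).symm⟩
    have htop : ∀ L : (ι → F) →ₗ[F] F, (∀ j, L (d j) = 0) → L = 0 := by
      intro L hL
      have h2 : (⊤ : Submodule F (ι → F)) ≤ LinearMap.ker L := by
        rw [← hD.iSup_eq_top]
        apply iSup_le
        intro j x hx
        obtain ⟨c, rfl⟩ := hspan j x hx
        rw [LinearMap.mem_ker, map_smul, hL, smul_zero]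
      exact LinearMap.ext fun x => h2 trivial
    have hex : ∀ i, ∃ j, β[Q] (d i) (d j) ≠ 0 := by
      intro i
      by_contra hcon
      push Not at hcon
      apply hd0 i
      apply hQ.1
      intro y
      rw [htop _ hcon]
      rfl
    choose τ hτ using hex
    have hpol : ∀ g ∈ H, ∀ x y : ι → F, β[Q] (Matrix.mulVec (g : Matrix ι ι F) x) (Matrix.mulVec (g : Matrix ι ι F) y) = β[Q] x y :=
      fun g hg => q_polar (mem_IQ.1 (hHU hg))
    have huniq : ∀ i j, β[Q] (d i) (d j) ≠ 0 → ∀ x : N, χ i x * χ j x = 1 := by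
      intro i j hij x
      have h2 := hpol x (hN.1 x.2) (d i) (d j)
      have h3 := mem_Ws.1 ((hDχ i) ▸ hd i) x
      have h4 := mem_Ws.1 ((hDχ j) ▸ hd j) x
      rw [h3, h4, map_smul, LinearMap.map_smul, LinearMap.smul_apply, smul_eq_mul, smul_eq_mul] at h2
      apply mul_right_cancel₀ hij
      rw [one_mul]
      linear_combination h2
    have huniq' : ∀ i j k, β[Q] (d i) (d j) ≠ 0 → β[Q] (d i) (d k) ≠ 0 → j = k := by
      intro i j k h2 h3
      apply hχ
      funext x
      have h4 := huniq i j h2 x
      have h5 := huniq i k h3 x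
      have h6 : χ i x ≠ 0 := by
        intro h0
        rw [h0, zero_mul] at h4
        exact zero_ne_one h4
      apply mul_left_cancel₀ h6
      rw [h4, h5]
    have hττ : ∀ i, τ (τ i) = i := by
      intro i
      apply huniq' (τ i) _ _ (hτ (τ i))
      rw [polar_comm]
      exact hτ i
    obtain ⟨i₀, hi₀⟩ : ∃ i, τ i = i := by
      haveI : Fact (Nat.Prime 2) := ⟨Nat.prime_two⟩
      let s : Equiv.Perm (Fin (Fintype.card ι)) := ⟨τ, τ, hττ, hττ⟩
      obtain ⟨a, ha⟩ := Equiv.Perm.exists_fixed_point_of_prime (p := 2) (n := 1) (σ := s) (by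
        rw [Fintype.card_fin]
        intro h2
        exact (Nat.not_even_iff_odd.2 hodd) (even_iff_two_dvd.2 h2)) (by
        rw [pow_one, pow_two]
        apply Equiv.ext
        exact hττ)
      exact ⟨a, ha⟩
    have hi₀' : Q (d i₀) ≠ 0 := by
      intro h0
      have := hτ i₀
      rw [hi₀] at this
      exact this ((pself_ne h2).2 h0)
    -- lines isometric to the distinguished one
    let U : Submodule F (ι → F) := Submodule.span F {v | (∃ i, v ∈ D i) ∧ Q v = Q (d i₀)}
    have hUinv : Inv H U := by
      intro g hg v hv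
      have hle : U ≤ U.comap (Matrix.toLin' (g : Matrix ι ι F)) := by
        apply Submodule.span_le.2
        rintro x ⟨⟨i, hi⟩, hx⟩
        apply Submodule.subset_span
        constructor
        · obtain ⟨s, hs⟩ := hHD hg
          refine ⟨s i, ?_⟩
          rw [← hs i]
          exact ⟨x, hi, rfl⟩
        · rw [toLin_apply, mem_IQ.1 (hHU hg)]
          exact hx
      exact hle hv
    have hUtop : U = ⊤ := by
      rcases hirr U hUinv with h2 | h2
      · exfalso
        have h3 : d i₀ ∈ U := Submodule.subset_span ⟨⟨i₀, hd i₀⟩, rfl⟩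
        rw [h2, Submodule.mem_bot] at h3
        exact hd0 i₀ h3
      · exact h2
    have hiso : ∀ j, ∃ c : F, Q (c • d j) = Q (d i₀) := by
      intro j
      by_contra hj
      push Not at hj
      apply hd0 j
      apply hQ.1
      intro y
      have hle : U ≤ LinearMap.ker (β[Q] (d j)) := by
        apply Submodule.span_le.2
        rintro x ⟨⟨i, hi⟩, hx⟩
        obtain ⟨c, rfl⟩ := hspan i x hi
        change β[Q] (d j) (c • d i) = 0
        rw [map_smul]
        by_contra h4
        have h3 : β[Q] (d j) (d i) ≠ 0 := fun h0 => h4 (by rw [h0, smul_zero])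
        have hii : Q (d i) ≠ 0 := by
          intro h0
          rw [qsmul, h0, mul_zero] at hx
          exact hi₀' hx.symm
        have h5 : β[Q] (d i) (d i) ≠ 0 := fun h0 => hii ((pself_ne h2).1 h0)
        have h6 := huniq' i i j h5 (by rw [polar_comm]; exact h3)
        rw [h6] at hx
        exact hj c hx
      rw [hUtop] at hle
      exact hle trivial
    choose c hc using hiso
    have hc0 : ∀ j, c j ≠ 0 := by
      intro j h0
      have := hc j
      rw [h0, zero_smul, QuadraticMap.map_zero] at this
      exact hi₀' this.symm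
    have hself : ∀ j, β[Q] (d j) (d j) ≠ 0 := by
      intro j h0
      have := hc j
      rw [qsmul, (pself_ne h2).1 h0, mul_zero] at this
      exact hi₀' this.symm
    refine ⟨D, ⟨⟨hD, fun i w hw hw0 => ?_, fun i j hij u hu v hv => ?_⟩, fun i j => ?_⟩, hHD⟩
    · obtain ⟨a, rfl⟩ := hspan i w hw
      have ha : a ≠ 0 := by
        rintro rfl
        exact hw0 (zero_smul _ _)
      refine ⟨⟨d i, hd i, ?_⟩, ⟨d i, hd i, ?_⟩⟩
      · change β[Q] (d i) (a • d i) ≠ 0
        rw [map_smul, smul_eq_mul]
        exact mul_ne_zero ha (hself i)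
      · change β[Q] (a • d i) (d i) ≠ 0
        rw [LinearMap.map_smul, LinearMap.smul_apply, smul_eq_mul]
        exact mul_ne_zero ha (hself i)
    · obtain ⟨a, rfl⟩ := hspan i u hu
      obtain ⟨b, rfl⟩ := hspan j v hv
      change β[Q] (a • d i) (b • d j) = 0
      rw [map_smul, LinearMap.map_smul, LinearMap.smul_apply]
      by_contra h4
      have h3 : β[Q] (d i) (d j) ≠ 0 := fun h0 => h4 (by rw [h0, smul_zero, smul_zero])
      exact hij (huniq' i i j (hself i) h3)
    · -- isometry of lines
      have hne' : ∀ j, c j • d j ≠ 0 := fun j => smul_ne_zero (hc0 j) (hd0 j)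
      let e : ∀ j, F ≃ₗ[F] D j := fun j =>
        LinearEquiv.ofBijective (LinearMap.toSpanSingleton F (D j) ⟨c j • d j, (D j).smul_mem _ (hd j)⟩) (by
          constructor
          · intro a b hab
            have h3 : a • (c j • d j) = b • (c j • d j) := congrArg Subtype.val hab
            exact smul_left_injective F (hne' j) h3
          · rintro ⟨x, hx⟩
            obtain ⟨a, rfl⟩ := hspan j x hx
            refine ⟨a * (c j)⁻¹, Subtype.ext ?_⟩
            change (a * (c j)⁻¹) • (c j • d j) = a • d j
            rw [smul_smul, inv_mul_cancel_right₀ (hc0 j)])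
      refine ⟨(e i).symm.trans (e j), fun x => ?_⟩
      obtain ⟨a, rfl⟩ := (e i).surjective x
      rw [LinearEquiv.trans_apply, LinearEquiv.symm_apply_apply]
      change Q (a • (c j • d j)) = Q (a • (c i • d i))
      rw [qsmul, qsmul a, hc, hc]

/-- the field case does not occur -/
theorem field_o [Finite F] (hQ : (β[Q]).Nondegenerate) (h2 : (2 : F) ≠ 0) (hp : (Fintype.card ι).Prime) (hodd : Odd (Fintype.card ι))
    {N H : Subgroup (Matrix.GeneralLinearGroup ι F)} (hN : Irr N) (hNI : NI N H) (hNQ : N ≤ IQ Q) (hns : ¬ N ≤ scalars ι F) : ActsAbsolutelyIrreducibly (matrixSet N) := by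
  haveI : Nonempty ι := Fintype.card_pos_iff.1 hp.pos
  rcases field_case' hp hN hNI with h1 | ⟨hK, -⟩
  · exact h1
  · exfalso
    have hpol : ∀ g ∈ N, ∀ x y : ι → F, β[Q] (Matrix.mulVec (g : Matrix ι ι F) x) (Matrix.mulVec (g : Matrix ι ι F) y) = β[Q] x y :=
      fun g hg => q_polar (mem_IQ.1 (hNQ hg))
    have hnd : ∀ a b : ι → F, (∀ x, β[Q] a x = β[Q] b x) → a = b := by
      intro a b hab
      apply sub_eq_zero.1
      apply hQ.1
      intro x
      rw [map_sub, LinearMap.sub_apply, hab, sub_self]
    have hrepr : ∀ φ : (ι → F) →ₗ[F] F, ∃ y, ∀ x, β[Q] y x = φ x := by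
      intro φ
      have hinj : Function.Injective (β[Q]) := by
        intro x y hxy
        exact hnd x y fun z => LinearMap.congr_fun hxy z
      have hsurj : Function.Surjective (β[Q]) :=
        (LinearMap.injective_iff_surjective_of_finrank_eq_finrank (Subspace.dual_finrank_eq (K := F) (V := ι → F)).symm).1 hinj
      obtain ⟨y, hy⟩ := hsurj φ
      exact ⟨y, fun x => by rw [hy]⟩
    -- adjoints
    have hadj : ∀ k ∈ Cn N, ∃ k' ∈ Cn N, ∀ y x, β[Q] (Matrix.mulVec k' y) x = β[Q] y (Matrix.mulVec k x) := by
      intro c hc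
      choose L hL using fun y : ι → F => hrepr ((β[Q] y).comp (Matrix.toLin' c))
      let L' : (ι → F) →ₗ[F] (ι → F) :=
        { toFun := L
          map_add' := by
            intro a b
            apply hnd
            intro x
            rw [map_add, LinearMap.add_apply, hL, hL, hL, LinearMap.comp_apply, map_add, LinearMap.add_apply]
            rfl
          map_smul' := by
            intro c a
            apply hnd
            intro x
            rw [RingHom.id_apply, LinearMap.map_smul, LinearMap.smul_apply, hL, hL, LinearMap.comp_apply, LinearMap.map_smul, LinearMap.smul_apply]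
            rfl }
      have hLm : ∀ v, Matrix.mulVec (LinearMap.toMatrix' L') v = L v := by
        intro v
        rw [LinearMap.toMatrix'_mulVec]
        rfl
      have hL2 : ∀ y x, β[Q] (L y) x = β[Q] y (Matrix.mulVec c x) := by
        intro y x
        rw [hL, LinearMap.comp_apply, Matrix.toLin'_apply]
      refine ⟨LinearMap.toMatrix' L', ?_, fun y x => by rw [hLm, hL2]⟩
      rw [mem_Cn] at hc ⊢
      intro x hx
      apply Matrix.toLin'.injective
      apply LinearMap.ext
      intro v
      rw [Matrix.toLin'_apply, Matrix.toLin'_apply, ← Matrix.mulVec_mulVec, ← Matrix.mulVec_mulVec, hLm, hLm]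
      apply hnd
      intro y
      have h1 := hpol x hx (L v) (Matrix.mulVec ((x⁻¹ : Matrix.GeneralLinearGroup ι F) : Matrix ι ι F) y)
      rw [mulVec_inv] at h1
      rw [h1, hL2, hL2]
      have h2 := hpol x hx v (Matrix.mulVec c (Matrix.mulVec ((x⁻¹ : Matrix.GeneralLinearGroup ι F) : Matrix ι ι F) y))
      rw [← h2]
      congr 1
      have h3 : Matrix.mulVec (x : Matrix ι ι F) (Matrix.mulVec c (Matrix.mulVec ((x⁻¹ : Matrix.GeneralLinearGroup ι F) : Matrix ι ι F) y))
          = Matrix.mulVec c (Matrix.mulVec (x : Matrix ι ι F) (Matrix.mulVec ((x⁻¹ : Matrix.GeneralLinearGroup ι F) : Matrix ι ι F) y)) := by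
        rw [Matrix.mulVec_mulVec, hc x hx, ← Matrix.mulVec_mulVec]
      rw [h3, mulVec_inv]
    -- skew elements vanish
    have hskew : ∀ j ∈ Cn N, (∀ y x, β[Q] (Matrix.mulVec j y) x = - β[Q] y (Matrix.mulVec j x)) → j = 0 := by
      intro j hj hjs
      by_contra hj0
      have hu := Cn_unit hN hj hj0
      have hdu := ((Matrix.isUnit_iff_isUnit_det j).1 hu).ne_zero
      -- gram matrix
      let G : Matrix ι ι F := fun a b => β[Q] (Pi.single a 1) (Pi.single b 1)
      have hG : ∀ x y : ι → F, β[Q] x y = x ⬝ᵥ (G.mulVec y) := by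
        intro x y
        have e1 : β[Q] x = ∑ a, x a • β[Q] (Pi.single a 1) := by
          conv_lhs => rw [pi_eq_sum_univ' x]
          rw [map_sum]
          apply Finset.sum_congr rfl
          intro a _
          rw [LinearMap.map_smul]
        have e2 : ∀ a, β[Q] (Pi.single a 1) y = ∑ b, G a b * y b := by
          intro a
          conv_lhs => rw [pi_eq_sum_univ' y]
          rw [map_sum]
          apply Finset.sum_congr rfl
          intro b _
          rw [LinearMap.map_smul, smul_eq_mul, mul_comm]
        rw [e1, LinearMap.sum_apply]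
        apply Finset.sum_congr rfl
        intro a _
        rw [LinearMap.smul_apply, e2, smul_eq_mul]
        rfl
      have hGu : IsUnit G := by
        rw [← Matrix.mulVec_injective_iff_isUnit]
        have h1 : Function.Injective (Matrix.toLin' G) := by
          rw [← LinearMap.ker_eq_bot, eq_bot_iff]
          intro w hw
          rw [LinearMap.mem_ker, Matrix.toLin'_apply] at hw
          rw [Submodule.mem_bot]
          apply hQ.1
          intro y
          rw [polar_comm, hG, hw, dotProduct_zero]
        exact h1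
      have h1 : j.transpose * G = -(G * j) := by
        apply Matrix.toLin'.injective
        apply LinearMap.ext
        intro w
        rw [Matrix.toLin'_apply, Matrix.toLin'_apply]
        apply dotProduct_eq
        intro u
        have h3 := hjs u w
        rw [hG, hG] at h3
        rw [dotProduct_comm, dotProduct_comm _ u, ← Matrix.mulVec_mulVec, Matrix.dotProduct_mulVec u, Matrix.vecMul_transpose, h3, Matrix.neg_mulVec, dotProduct_neg, ← Matrix.mulVec_mulVec]
      have h3 := congrArg Matrix.det h1
      rw [Matrix.det_mul, Matrix.det_transpose, Matrix.det_neg, Matrix.det_mul, hodd.neg_one_pow] at h3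
      have hGd := ((Matrix.isUnit_iff_isUnit_det G).1 hGu).ne_zero
      have h4 : (2 : F) * (j.det * G.det) = 0 := by linear_combination h3
      exact (mul_ne_zero h2 (mul_ne_zero hdu hGd)) h4
    have hself : ∀ k ∈ Cn N, ∀ y x, β[Q] (Matrix.mulVec k y) x = β[Q] y (Matrix.mulVec k x) := by
      intro k hk y x
      obtain ⟨k', hk', hkk⟩ := hadj k hk
      have h1 : k' - k = 0 := by
        apply hskew _ ((Cn N).sub_mem hk' hk)
        intro y x
        rw [Matrix.sub_mulVec, Matrix.sub_mulVec, map_sub, LinearMap.sub_apply, map_sub, hkk]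
        have h5 : β[Q] y (Matrix.mulVec k' x) = β[Q] (Matrix.mulVec k y) x := by
          rw [polar_comm, hkk, polar_comm]
        rw [h5]
        ring
      have h3 : k' = k := sub_eq_zero.1 h1
      rw [← hkk y x, h3]
    -- N is contained in K
    obtain ⟨v, hv⟩ := exists_ne (0 : ι → F)
    have hKv : ∀ w : ι → F, ∃ k ∈ Cn N, w = Matrix.mulVec k v := by
      let L : Cn N →ₗ[F] (ι → F) :=
        { toFun := fun c => Matrix.mulVec (c : Matrix ι ι F) v
          map_add' := fun a b => by rw [← Matrix.add_mulVec]; rfl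
          map_smul' := fun a b => by rw [RingHom.id_apply, ← Matrix.smul_mulVec]; rfl }
      have hL : Function.Injective L := by
        rw [← LinearMap.ker_eq_bot, eq_bot_iff]
        intro c hc
        rw [Submodule.mem_bot]
        by_contra hc0
        have hc0' : (c : Matrix ι ι F) ≠ 0 := fun h0 => hc0 (Subtype.ext h0)
        obtain ⟨y, hy, h1⟩ := hK.inv _ c.2 hc0'
        rw [hK.comm _ c.2 _ hy] at h1
        apply hv
        have hcv : Matrix.mulVec (c : Matrix ι ι F) v = 0 := hc
        calc v = Matrix.mulVec (y * (c : Matrix ι ι F)) v := by rw [h1, Matrix.one_mulVec]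
          _ = 0 := by rw [← Matrix.mulVec_mulVec, hcv, Matrix.mulVec_zero]
      have hLs : Function.Surjective L := (LinearMap.injective_iff_surjective_of_finrank_eq_finrank (by
        rw [hK.finrank_eq, finrank_fintype_fun_eq_card])).1 hL
      intro w
      obtain ⟨k, hk⟩ := hLs w
      exact ⟨k, k.2, hk.symm⟩
    apply hns
    intro g hg
    obtain ⟨k, hk, hkv⟩ := hKv (Matrix.mulVec (g : Matrix ι ι F) v)
    have hgk : (g : Matrix ι ι F) = k := by
      apply Matrix.toLin'.injective
      apply LinearMap.ext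
      intro w
      rw [Matrix.toLin'_apply, Matrix.toLin'_apply]
      obtain ⟨k', hk', rfl⟩ := hKv w
      rw [Matrix.mulVec_mulVec, (mem_Cn.1 hk') g hg, ← Matrix.mulVec_mulVec, hkv, Matrix.mulVec_mulVec, hK.comm _ hk' _ hk, ← Matrix.mulVec_mulVec]
    have hkk : k * k = 1 := by
      apply Matrix.toLin'.injective
      apply LinearMap.ext
      intro w
      rw [Matrix.toLin'_apply, Matrix.toLin'_apply, Matrix.one_mulVec, ← Matrix.mulVec_mulVec]
      apply hnd
      intro y
      rw [hself k hk, ← hgk, hpol g hg]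
    have h1 : (k - 1) * (k + 1) = 0 := by
      have : (k - 1) * (k + 1) = k * k - 1 := by noncomm_ring
      rw [this, hkk, sub_self]
    rw [mem_scalars_iff]
    by_cases h3 : k - 1 = 0
    · exact ⟨1, by rw [hgk, sub_eq_zero.1 h3, Units.val_one, one_smul]⟩
    · obtain ⟨y, hy, hy1⟩ := hK.inv _ ((Cn N).sub_mem hk (Cn N).one_mem) h3
      have h4 : k + 1 = 0 := by
        calc k + 1 = (y * (k - 1)) * (k + 1) := by rw [hK.comm _ hy _ ((Cn N).sub_mem hk (Cn N).one_mem), hy1, one_mul]
          _ = 0 := by rw [mul_assoc, h1, mul_zero]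
      exact ⟨-1, by rw [hgk, eq_neg_of_add_eq_zero_left h4, Units.val_neg, Units.val_one, neg_one_smul]⟩

end CfsgLib.Aso2
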