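import Cfsg.Agent.Lib.Asu4

set_option autoImplicit false
set_option maxHeartbeats 400000

/-! Maximal subgroups of special unitary groups in odd prime dimension. -/
namespace CfsgLib.Asu5

open Cfsg Cfsg.Geo Module CfsgLib.GeoBase CfsgLib.Asch1 CfsgLib.Asch2 CfsgLib.Asch3 CfsgLib.Asch4 CfsgLib.Asch5 CfsgLib.Asch6 CfsgLib.Asch7 CfsgLib.Asch8 CfsgLib.Asch9 CfsgLib.Asch11 CfsgLib.Asch12
open CfsgLib.Herm CfsgLib.Csim1 CfsgLib.Csim3 CfsgLib.Asu1 CfsgLib.Asu2 CfsgLib.Asu3 CfsgLib.Asu4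
open CfsgLib.Mob16 CfsgLib.Mob24 CfsgLib.Mob35

universe u v

variable {ι : Type} [Fintype ι] [DecidableEq ι] {F : Type u} [Field F]

theorem xs_exact [Fintype F] {N H : Subgroup (Matrix.GeneralLinearGroup ι F)} {a b : Matrix.GeneralLinearGroup ι F} {ζ : Fˣ} (hp : (Fintype.card ι).Prime)
    (hodd : Odd (Fintype.card ι)) (h : XS N a b ζ) (hNI : NI N H) (hall : ∀ M, NI M H → ¬ M ≤ scalars ι F → ActsAbsolutelyIrreducibly (matrixSet M))
    (hnr : ∀ F₀ : Subfield F, F₀ ≠ ⊤ → ¬ RealisableOver F₀ (matrixSet N)) :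
    ∃ p e : ℕ, p.Prime ∧ CharP F p ∧ Fintype.card F = p ^ e ∧ orderOf (p : ZMod (Fintype.card ι)) = e ∧ Fintype.card ι ≠ p ∧
      IsSymplecticTypeGroup (Fintype.card ι) N ∧ Nat.card N = Fintype.card ι ^ 3 ∧ Nat.card (Subgroup.center N) = Fintype.card ι := by
  haveI : Nonempty ι := Fintype.card_pos_iff.1 hp.pos
  haveI := Fact.mk hp
  obtain ⟨p, hcp⟩ := CharP.exists F
  obtain ⟨⟨n, hn⟩, hpp, hcard⟩ := FiniteField.card F p
  change Fintype.card F = p ^ n at hcard
  haveI := Fact.mk hpp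
  set r := Fintype.card ι with hr
  have hprim := xs_prim hp h
  have hdiv : ∀ m : ℕ, r ∣ p ^ m - 1 ↔ (p : ZMod r) ^ m = 1 := by
    intro m
    have h1 : 1 ≤ p ^ m := Nat.one_le_pow _ _ hpp.pos
    rw [← ZMod.natCast_eq_zero_iff, Nat.cast_sub h1, Nat.cast_pow, Nat.cast_one, sub_eq_zero]
  have hrn : r ∣ p ^ n - 1 := by
    classical
    have h1 : orderOf ζ = r := by
      rw [← orderOf_units]
      exact hprim.eq_orderOf.symm
    rw [← h1, ← hcard, ← Fintype.card_units]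
    exact orderOf_dvd_card
  have hrp : r ≠ p := by
    intro h0
    rw [h0] at hrn
    have h1 : p ∣ p ^ n := dvd_pow_self p hn.ne'
    have h2 : p ∣ 1 := by
      have h3 : 1 ≤ p ^ n := Nat.one_le_pow _ _ hpp.pos
      have := Nat.dvd_sub h1 hrn
      rwa [Nat.sub_sub_self h3] at this
    exact hpp.one_lt.ne' (Nat.dvd_one.1 h2)
  set d := orderOf (p : ZMod r) with hd
  have hdn : d ∣ n := orderOf_dvd_of_pow_eq_one ((hdiv n).1 hrn)
  have hd0 : 0 < d := Nat.pos_of_dvd_of_pos hdn hn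
  by_cases hdn' : d = n
  · exact ⟨p, n, hpp, hcp, hcard, hdn', hrp, xs_symplectic hp h hodd hNI hall, xs_card hp h, xs_center hp h⟩
  · exfalso
    obtain ⟨s, hs⟩ := hdn
    have hs1 : s ≠ 1 := by
      rintro rfl
      rw [mul_one] at hs
      exact hdn' hs.symm
    have h1 := GaloisField.card p d hd0.ne'
    haveI : Finite (GaloisField p d) := inferInstance
    obtain ⟨k', ⟨e⟩⟩ := exists_subfield (k := GaloisField p d) (F := F) (m := s) (by
      rw [h1, Nat.card_eq_fintype_card, hcard, ← pow_mul, ← hs])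
    have h2 : Nat.card k' = p ^ d := by rw [← Nat.card_congr e.toEquiv, h1]
    apply hnr k'
    · intro h3
      rw [h3] at h2
      have h4 : Nat.card (⊤ : Subfield F) = Nat.card F := Nat.card_congr Subfield.topEquiv.toEquiv
      rw [h4, Nat.card_eq_fintype_card, hcard] at h2
      exact hdn' (Nat.pow_right_injective hpp.two_le h2).symm
    · apply xs_realisable hp h
      rw [mem_iff_pow, h2]
      have h3 : r ∣ p ^ d - 1 := (hdiv d).2 (pow_orderOf_eq_one _)
      have h4 : 1 ≤ p ^ d := Nat.one_le_pow _ _ hpp.pos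
      have h5 : (ζ : F) ^ (p ^ d - 1) = 1 := (hprim.pow_eq_one_iff_dvd _).2 h3
      calc (ζ : F) ^ p ^ d = (ζ : F) ^ (p ^ d - 1 + 1) := by rw [Nat.sub_add_cancel h4]
        _ = ζ := by rw [pow_succ, h5, one_mul]

variable {σ : F →+* F} {q : ℕ} {B : (ι → F) →ₛₗ[σ] (ι → F) →ₗ[F] F} (hq : QConj σ q) (h : HForm B)

include hq h

theorem su_cases [Fintype F] (hp : (Fintype.card ι).Prime) (hodd : Odd (Fintype.card ι)) (h7 : 7 ≤ Fintype.card ι) {H : Subgroup (Matrix.GeneralLinearGroup ι F)}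
    (hH : IsMaximalIn (GB B) H) :
    (∃ W : Submodule F (ι → F), W ≠ ⊥ ∧ IsTotallySingularFor (fB B) W ∧ H = subspaceStabilizer W ⊓ GB B) ∨
    (∃ W : Submodule F (ι → F), W ≠ ⊥ ∧ IsNondegenerateOn (fB B) W ∧ 2 * finrank F W < Fintype.card ι ∧ H = subspaceStabilizer W ⊓ GB B) ∨
    (∃ D : Fin (Fintype.card ι) → Submodule F (ι → F), IsNondegenerateMDecomposition (fB B) 1 D ∧ H = decompositionStabilizer D ⊓ GB B) ∨
    (∃ K : Subalgebra F (Matrix ι ι F), IsFieldSubalgebra (Fintype.card ι) K ∧ IsAdjointClosedFor (fB B) K ∧ H = subalgebraNormalizer K ⊓ GB B) ∨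
    (∃ (F₀ : Subfield F) (r : ℕ) (P : Matrix.GeneralLinearGroup ι F), r.Prime ∧ Odd r ∧ Fintype.card F = Nat.card F₀ ^ r ∧
      IsFormRationalStructure (fB B) F₀ 1 P ∧ H = subfieldSubgroup F₀ P ⊓ GB B) ∨
    (Odd q ∧ ∃ (F₀ : Subfield F) (P : Matrix.GeneralLinearGroup ι F), Fintype.card F = Nat.card F₀ ^ 2 ∧
      IsFormRationalStructure (fB B) F₀ 1 P ∧ H = subfieldSubgroup F₀ P ⊓ GB B) ∨
    ((∃ p e : ℕ, ∃ R : Subgroup (Matrix.GeneralLinearGroup ι F), (p.Prime ∧ CharP F p ∧ Fintype.card F = p ^ e ∧ orderOf (p : ZMod (Fintype.card ι)) = e ∧ Fintype.card ι ≠ p) ∧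
      IsSymplecticTypeGroup (Fintype.card ι) R ∧ ActsAbsolutelyIrreducibly (matrixSet R) ∧ R ≤ UB B ∧ Nat.card R = Fintype.card ι ^ 3 ∧
      Nat.card (Subgroup.center R) = Fintype.card ι ∧ H = subgroupNormalizer R ⊓ GB B)) ∨
    InUnitaryResidualClass H := by
  haveI : Nonempty ι := Fintype.card_pos_iff.1 hp.pos
  have hHU : H ≤ UB B := fun x hx => (hH.1.le hx).1
  by_cases hirr : Irr H
  swap
  · unfold Irr at hirr
    push Not at hirr
    obtain ⟨W, hW, hW0, hW1⟩ := hirr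
    rcases red_case hq h hodd hp.two_le hH hW hW0 hW1 with h1 | h1
    · exact Or.inl h1
    · exact Or.inr (Or.inl h1)
  right; right
  rcases struct_u hq h hp hodd hirr hHU with ⟨D, hD, hHD⟩ | ⟨K, hK, hKa, hHK⟩ | ⟨hall, N, hNI, hns, hmin⟩
  · left
    exact ⟨D, hD, max_eq hH hHD (not_decomp_u hq h (by omega) hD)⟩
  · right; left
    exact ⟨K, hK, hKa, max_eq hH hHK (not_field_u hq h (by omega) hp.one_lt hK)⟩
  · right; right
    have habs := hall N hNI hns
    have hNU : N ≤ UB B := hNI.1.trans hHU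
    by_cases hsub : ∃ F₀ : Subfield F, F₀ ≠ ⊤ ∧ RealisableOver F₀ (matrixSet N)
    · obtain ⟨F₀, hF, hr⟩ := hsub
      rcases subfield_u hq h h7 hodd hNI habs hH hF hr with h1 | h1
      · exact Or.inl h1
      · exact Or.inr (Or.inl h1)
    · right; right
      have hnr : ∀ F₀ : Subfield F, F₀ ≠ ⊤ → ¬ RealisableOver F₀ (matrixSet N) := fun F₀ hF hr => hsub ⟨F₀, hF, hr⟩
      by_cases hcomm : ⁅N, N⁆ ≤ scalars ι F
      · left
        obtain ⟨a, b, ζ, hx⟩ := exists_XS hp hodd hNI hns hmin habs hcomm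
        obtain ⟨p, e, h1, h2, h4, h5, h6, h8, h9, h10⟩ := xs_exact hp hodd hx hNI hall hnr
        refine ⟨p, e, N, ⟨h1, h2, h4, h5, h6⟩, h8, habs, hNU, h9, h10, ?_⟩
        apply max_eq hH
        · intro g hg
          change g ∈ Subgroup.normalizer _
          rw [Subgroup.mem_normalizer_iff]
          intro x
          constructor
          · exact hNI.2 g hg x
          · intro hx'
            have := hNI.2 g⁻¹ (H.inv_mem hg) _ hx'
            have e1 : g⁻¹ * (g * x * g⁻¹) * g⁻¹⁻¹ = x := by group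
            rwa [e1] at this
        · exact not_rgroup_u hq h (by omega) habs hcomm hns
      · right
        have hperf : ⁅N, N⁆ = N := hmin _ (ni_comm hNI) (comm_le_self N) hcomm
        have hpc := preCore_of hp hNI hns hmin habs hperf
        refine ⟨N, hpc.core hnr, ?_, ?_⟩
        · rintro ⟨Q, hQ, hfix⟩
          apply hsub
          apply realisable_of_forms hq h hNU habs hQ.polar_bilinear hQ.nondegenerate
          intro g hg x y
          unfold QuadraticMap.polar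
          rw [← mulVec_add', hfix _ ⟨g, hg, rfl⟩, hfix _ ⟨g, hg, rfl⟩, hfix _ ⟨g, hg, rfl⟩]
        · rintro ⟨f, hf, -⟩
          exact no_symplectic hodd hf

theorem su_cases' [Fintype F] {n : ℕ} (hn : Fintype.card ι = n) (hp : n.Prime) (hodd : Odd n) (h7 : 7 ≤ n) {H : Subgroup (Matrix.GeneralLinearGroup ι F)}
    (hH : IsMaximalIn (GB B) H) :
    (∃ W : Submodule F (ι → F), W ≠ ⊥ ∧ IsTotallySingularFor (fB B) W ∧ H = subspaceStabilizer W ⊓ GB B) ∨
    (∃ W : Submodule F (ι → F), W ≠ ⊥ ∧ IsNondegenerateOn (fB B) W ∧ 2 * finrank F W < n ∧ H = subspaceStabilizer W ⊓ GB B) ∨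
    (∃ D : Fin n → Submodule F (ι → F), IsNondegenerateMDecomposition (fB B) 1 D ∧ H = decompositionStabilizer D ⊓ GB B) ∨
    (∃ K : Subalgebra F (Matrix ι ι F), IsFieldSubalgebra n K ∧ IsAdjointClosedFor (fB B) K ∧ H = subalgebraNormalizer K ⊓ GB B) ∨
    (∃ (F₀ : Subfield F) (r : ℕ) (P : Matrix.GeneralLinearGroup ι F), r.Prime ∧ Odd r ∧ Fintype.card F = Nat.card F₀ ^ r ∧
      IsFormRationalStructure (fB B) F₀ 1 P ∧ H = subfieldSubgroup F₀ P ⊓ GB B) ∨
    (Odd q ∧ ∃ (F₀ : Subfield F) (P : Matrix.GeneralLinearGroup ι F), Fintype.card F = Nat.card F₀ ^ 2 ∧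
      IsFormRationalStructure (fB B) F₀ 1 P ∧ H = subfieldSubgroup F₀ P ⊓ GB B) ∨
    ((∃ p e : ℕ, ∃ R : Subgroup (Matrix.GeneralLinearGroup ι F), (p.Prime ∧ CharP F p ∧ Fintype.card F = p ^ e ∧ orderOf (p : ZMod n) = e ∧ n ≠ p) ∧
      IsSymplecticTypeGroup n R ∧ ActsAbsolutelyIrreducibly (matrixSet R) ∧ R ≤ UB B ∧ Nat.card R = n ^ 3 ∧
      Nat.card (Subgroup.center R) = n ∧ H = subgroupNormalizer R ⊓ GB B)) ∨
    InUnitaryResidualClass H := by
  subst hn
  exact su_cases hq h hp hodd h7 hH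

omit hq h in
theorem q_eq {p e q : ℕ} (hp : p.Prime) (h : q ^ 2 = p ^ e) : ∃ a, q = p ^ a ∧ e = 2 * a := by
  obtain ⟨a, -, rfl⟩ := (Nat.dvd_prime_pow hp).1 (show q ∣ p ^ e by rw [← h]; exact dvd_pow_self q two_ne_zero)
  refine ⟨a, rfl, ?_⟩
  rw [← pow_mul] at h
  have := Nat.pow_right_injective hp.two_le h
  omega

omit hq h in
theorem uarith7 {p e q : ℕ} (hp : p.Prime) (hne : 7 ≠ p) (ho : orderOf (p : ZMod 7) = e) (hqe : q ^ 2 = p ^ e) :
    (q = p ∧ p % 7 = 6) ∨ (q = p ^ 3 ∧ (p % 7 = 3 ∨ p % 7 = 5)) := by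
  obtain ⟨a, hqa, hea⟩ := q_eq hp hqe
  have h0 := cast_ne_zero (by norm_num) hp hne
  have key : ∀ x : ZMod 7, x ≠ 0 → x ^ 6 = 1 := by decide
  have h1 := orderOf_dvd_of_pow_eq_one (key _ h0)
  rw [ho] at h1
  have he1 : e = 2 ∨ e = 6 := by
    have h2 := Nat.le_of_dvd (by norm_num) h1
    interval_cases e
    · exact absurd h1 (by decide)
    · omega
    · exact Or.inl rfl
    · omega
    · exact absurd h1 (by decide)
    · omega
    · exact Or.inr rfl
  have hne' : ∀ k, 0 < k → k < e → (p : ZMod 7) ^ k ≠ 1 := by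
    intro k hk hke h5
    have h6 := Nat.le_of_dvd hk (orderOf_dvd_of_pow_eq_one h5)
    rw [ho] at h6
    omega
  rcases he1 with he1 | he1
  · left
    have ha : a = 1 := by omega
    refine ⟨by rw [hqa, ha, pow_one], ?_⟩
    have h3 := pow_orderOf_eq_one (p : ZMod 7)
    rw [ho, he1] at h3
    have h4 := hne' 1 one_pos (by omega)
    rw [pow_one] at h4
    have key2 : ∀ x : ZMod 7, x ^ 2 = 1 → x ≠ 1 → x = 6 := by decide
    exact arith_mod (by rw [key2 _ h3 h4]; rfl) (by norm_num)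
  · right
    have ha : a = 3 := by omega
    refine ⟨by rw [hqa, ha], ?_⟩
    have h4 := hne' 2 (by norm_num) (by omega)
    have h5 := hne' 3 (by norm_num) (by omega)
    have key2 : ∀ x : ZMod 7, x ≠ 0 → x ^ 2 ≠ 1 → x ^ 3 ≠ 1 → x = 3 ∨ x = 5 := by decide
    rcases key2 _ h0 h4 h5 with h6 | h6
    · left; exact arith_mod (by rw [h6]; rfl) (by norm_num)
    · right; exact arith_mod (by rw [h6]; rfl) (by norm_num)

omit hq h in
theorem uarith11 {p e q : ℕ} (hp : p.Prime) (hne : 11 ≠ p) (ho : orderOf (p : ZMod 11) = e) (hqe : q ^ 2 = p ^ e) :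
    (q = p ∧ p % 11 = 10) ∨ (q = p ^ 5 ∧ (p % 11 = 2 ∨ p % 11 = 6 ∨ p % 11 = 7 ∨ p % 11 = 8)) := by
  obtain ⟨a, hqa, hea⟩ := q_eq hp hqe
  have h0 := cast_ne_zero (by norm_num) hp hne
  have key : ∀ x : ZMod 11, x ≠ 0 → x ^ 10 = 1 := by decide
  have h1 := orderOf_dvd_of_pow_eq_one (key _ h0)
  rw [ho] at h1
  have he1 : e = 2 ∨ e = 10 := by
    have h2 := Nat.le_of_dvd (by norm_num) h1
    interval_cases e
    · exact absurd h1 (by decide)
    · omega
    · exact Or.inl rfl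
    · omega
    · exact absurd h1 (by decide)
    · omega
    · exact absurd h1 (by decide)
    · omega
    · exact absurd h1 (by decide)
    · omega
    · exact Or.inr rfl
  have hne' : ∀ k, 0 < k → k < e → (p : ZMod 11) ^ k ≠ 1 := by
    intro k hk hke h5
    have h6 := Nat.le_of_dvd hk (orderOf_dvd_of_pow_eq_one h5)
    rw [ho] at h6
    omega
  rcases he1 with he1 | he1
  · left
    have ha : a = 1 := by omega
    refine ⟨by rw [hqa, ha, pow_one], ?_⟩
    have h3 := pow_orderOf_eq_one (p : ZMod 11)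
    rw [ho, he1] at h3
    have h4 := hne' 1 one_pos (by omega)
    rw [pow_one] at h4
    have key2 : ∀ x : ZMod 11, x ^ 2 = 1 → x ≠ 1 → x = 10 := by decide
    exact arith_mod (by rw [key2 _ h3 h4]; rfl) (by norm_num)
  · right
    have ha : a = 5 := by omega
    refine ⟨by rw [hqa, ha], ?_⟩
    have h4 := hne' 2 (by norm_num) (by omega)
    have h5 := hne' 5 (by norm_num) (by omega)
    have key2 : ∀ x : ZMod 11, x ≠ 0 → x ^ 2 ≠ 1 → x ^ 5 ≠ 1 → x = 2 ∨ x = 6 ∨ x = 7 ∨ x = 8 := by decide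
    rcases key2 _ h0 h4 h5 with h6 | h6 | h6 | h6
    · left; exact arith_mod (by rw [h6]; rfl) (by norm_num)
    · right; left; exact arith_mod (by rw [h6]; rfl) (by norm_num)
    · right; right; left; exact arith_mod (by rw [h6]; rfl) (by norm_num)
    · right; right; right; exact arith_mod (by rw [h6]; rfl) (by norm_num)

omit h in
theorem GU_eq {n : ℕ} : GU n F q = UB (stdH σ n) := by
  ext g
  constructor
  · intro hg u v
    have := hg v u
    rw [hermForm_eq hq, hermForm_eq hq] at this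
    exact this
  · intro hg u v
    rw [hermForm_eq hq, hermForm_eq hq]
    exact hg v u

omit h in
theorem herm_eq {n : ℕ} : hermForm n F q = fB (stdH σ n) := by
  funext u v
  rw [hermForm_eq hq]
  rfl

end CfsgLib.Asu5
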