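import Cfsg.Agent.Lib.Aso2
import Cfsg.Agent.Lib.Asu5

set_option autoImplicit false
set_option maxHeartbeats 400000
set_option linter.unusedSectionVars false

/-! Subfield subgroups of orthogonal groups; non-containments. -/
namespace CfsgLib.Aso3

open Cfsg Cfsg.Geo Module CfsgLib.GeoBase CfsgLib.Asch1 CfsgLib.Asch2 CfsgLib.Asch3 CfsgLib.Asch4 CfsgLib.Asch5 CfsgLib.Asch6 CfsgLib.Asch7 CfsgLib.Asch10 CfsgLib.Asch12 CfsgLib.Asu1 CfsgLib.Asu2 CfsgLib.Asu3 CfsgLib.Aso1 CfsgLib.Aso2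
open CfsgLib.Mob35
open CfsgLib.Herm (HForm)
open CfsgLib.Quad (O O_ext eichO eichO_apply eichG exists_singular_polar_ne two_mul_finrank_singular_le polar_comm polar_self eichG_le_commutator eichO_mem)

local notation "β[" Q "]" => QuadraticMap.polarBilin Q

universe u v

variable {ι : Type} [Fintype ι] [DecidableEq ι] {F : Type u} [Field F] {Q : QuadraticForm F (ι → F)}

/-- two orthogonal singular vectors -/
theorem exists_plane_o [Finite F] (hQ : (β[Q]).Nondegenerate) (h5 : 5 ≤ Fintype.card ι) :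
    ∃ u y z w : ι → F, Q u = 0 ∧ Q y = 0 ∧ β[Q] u y = 0 ∧ β[Q] u z = 1 ∧ β[Q] y z = 0 ∧ β[Q] u w = 0 ∧ β[Q] y w = 1 := by
  have hV : finrank F (ι → F) = Fintype.card ι := finrank_fintype_fun_eq_card F
  haveI : Nonempty ι := Fintype.card_pos_iff.1 (by omega)
  obtain ⟨x, hx⟩ := exists_ne (0 : ι → F)
  obtain ⟨u, hu, hux⟩ := exists_singular_polar_ne hQ (by omega) hx
  have hu0 : u ≠ 0 := by
    rintro rfl
    rw [map_zero] at hux
    exact hux rfl
  obtain ⟨z, hz, huz⟩ := CfsgLib.Quad.exists_partner hQ hu0 hu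
  obtain ⟨y, w, hy, hw, hQy, hQw, hyw⟩ := CfsgLib.Quad.exists_second_pair hQ hu hz huz (by omega)
  have h1 := CfsgLib.Quad.mem_hperp.1 hy
  have h2 := CfsgLib.Quad.mem_hperp.1 hw
  refine ⟨u, y, z, w, hu, hQy, h1.1, huz, ?_, h2.1, hyw⟩
  rw [polar_comm]
  exact h1.2

theorem not_decomp_o [Finite F] (hQ : (β[Q]).Nondegenerate) (h2 : (2 : F) ≠ 0) (h5 : 5 ≤ Fintype.card ι) {D : Fin (Fintype.card ι) → Submodule F (ι → F)}
    (hD : IsOrthogonalMDecomposition ⇑Q 1 D) : ¬ omegaGL ⇑Q ≤ decompositionStabilizer D := by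
  intro hle
  let i₀ : Fin (Fintype.card ι) := ⟨0, by omega⟩
  obtain ⟨d, hd, hd0⟩ : ∃ d ∈ D i₀, d ≠ 0 := by
    apply Submodule.exists_mem_ne_zero_of_ne_bot
    intro h0
    have := hD.decomp.decomp.finrank_eq i₀
    rw [h0, finrank_bot] at this
    omega
  have hspan : ∀ x ∈ D i₀, ∃ c : F, x = c • d := by
    intro x hx
    obtain ⟨c, hc⟩ := (finrank_eq_one_iff_of_nonzero' (⟨d, hd⟩ : D i₀) (fun h0 => hd0 (congrArg Subtype.val h0))).1 (hD.decomp.decomp.finrank_eq i₀) ⟨x, hx⟩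
    exact ⟨c, (congrArg Subtype.val hc).symm⟩
  have hself : β[Q] d d ≠ 0 := by
    obtain ⟨⟨x, hx, h1⟩, -⟩ := hD.decomp.nondegenerate i₀ d hd hd0
    obtain ⟨c, rfl⟩ := hspan x hx
    change β[Q] (c • d) d ≠ 0 at h1
    rw [LinearMap.map_smul, LinearMap.smul_apply, smul_eq_mul] at h1
    exact right_ne_zero_of_mul h1
  -- a singular vector orthogonal to d
  obtain ⟨w, hw0, hw, hwd⟩ : ∃ w : ι → F, w ≠ 0 ∧ Q w = 0 ∧ β[Q] w d = 0 := by
    obtain ⟨u, y, z, w, hu, hy, huy, huz, hyz, huw, hyw⟩ := exists_plane_o hQ h5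
    by_cases h3 : β[Q] u d = 0
    · refine ⟨u, ?_, hu, h3⟩
      rintro rfl
      rw [map_zero, LinearMap.zero_apply] at huz
      exact zero_ne_one huz
    · refine ⟨(β[Q] y d) • u - (β[Q] u d) • y, ?_, ?_, ?_⟩
      · intro h0
        have h4 := congrArg (fun x => β[Q] x w) h0
        simp only [map_sub, LinearMap.sub_apply, LinearMap.map_smul, LinearMap.smul_apply, smul_eq_mul, huw, hyw, map_zero, LinearMap.zero_apply, mul_zero, mul_one, zero_sub, neg_eq_zero] at h4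
        exact h3 h4
      · rw [qsub, qsmul, qsmul, hu, hy, map_smul, LinearMap.map_smul, LinearMap.smul_apply, huy, smul_zero, smul_zero, mul_zero, mul_zero, add_zero, sub_zero]
      · rw [map_sub, LinearMap.sub_apply, LinearMap.map_smul, LinearMap.smul_apply, LinearMap.map_smul, LinearMap.smul_apply, smul_eq_mul, smul_eq_mul]
        ring
  obtain ⟨g, hg, hg'⟩ := om_eich hQ h2 hw hwd
  obtain ⟨s, hs⟩ := hle hg
  have h3 : Matrix.mulVec (g : Matrix ι ι F) d ∈ D (s i₀) := by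
    rw [← hs i₀]
    exact ⟨d, hd, rfl⟩
  rw [hg', hwd, zero_smul, add_zero, mul_zero, sub_zero] at h3
  have h4 : s i₀ = i₀ := by
    by_contra hne
    have h6 : β[Q] (d + (-β[Q] d d) • w) d = 0 := hD.decomp.orthogonal (s i₀) i₀ hne _ h3 d hd
    rw [map_add, LinearMap.add_apply, LinearMap.map_smul, LinearMap.smul_apply, hwd, smul_zero, add_zero] at h6
    exact hself h6
  rw [h4] at h3
  have h6 : w ∈ D i₀ := by
    have h7 := (D i₀).smul_mem (-β[Q] d d)⁻¹ ((D i₀).sub_mem h3 hd)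
    rwa [add_sub_cancel_left, smul_smul, inv_mul_cancel₀ (neg_ne_zero.2 hself), one_smul] at h7
  obtain ⟨c, rfl⟩ := hspan w h6
  rw [LinearMap.map_smul, LinearMap.smul_apply, smul_eq_mul] at hwd
  rcases mul_eq_zero.1 hwd with h7 | h7
  · apply hw0
    rw [h7, zero_smul]
  · exact hself h7

theorem not_subfield_o [Finite F] (hQ : (β[Q]).Nondegenerate) (h2 : (2 : F) ≠ 0) (h5 : 5 ≤ Fintype.card ι) {F₁ : Subfield F} (hF : F₁ ≠ ⊤)
    (P : Matrix.GeneralLinearGroup ι F) : ¬ omegaGL ⇑Q ≤ subfieldSubgroup F₁ P := by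
  intro hle
  haveI : Nonempty ι := Fintype.card_pos_iff.1 (by omega)
  obtain ⟨p, hcp⟩ := CharP.exists F
  haveI : Fintype F := Fintype.ofFinite F
  obtain ⟨⟨n, hn⟩, hpp, hcard⟩ := FiniteField.card F p
  haveI := Fact.mk hpp
  haveI : ExpChar F p := ExpChar.prime hpp
  obtain ⟨u, y, z, w, hu, hy, huy, huz, hyz, huw, hyw⟩ := exists_plane_o hQ h5
  have huu : β[Q] u u = 0 := (pself_ne h2).2 hu
  have hyy : β[Q] y y = 0 := (pself_ne h2).2 hy
  let T : (ι → F) → ι → F := fun x => (β[Q] u x) • y - (β[Q] y x) • u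
  have hTu : ∀ x, β[Q] u (T x) = 0 := by
    intro x
    change β[Q] u ((β[Q] u x) • y - (β[Q] y x) • u) = 0
    rw [map_sub, map_smul, map_smul, huy, huu, smul_zero, smul_zero, sub_zero]
  have hTy : ∀ x, β[Q] y (T x) = 0 := by
    intro x
    change β[Q] y ((β[Q] u x) • y - (β[Q] y x) • u) = 0
    rw [map_sub, map_smul, map_smul, hyy, polar_comm Q y u, huy, smul_zero, smul_zero, sub_zero]
  have hTT : ∀ x, T (T x) = 0 := by
    intro x
    change (β[Q] u (T x)) • y - (β[Q] y (T x)) • u = 0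
    rw [hTu, hTy, zero_smul, zero_smul, sub_zero]
  have key : ∀ a : F, ∀ x : ι → F, ∀ i, (∀ j, x j ∈ F₁) → Matrix.mulVec ((P⁻¹ : Matrix.GeneralLinearGroup ι F) : Matrix ι ι F) (a • T (Matrix.mulVec (P : Matrix ι ι F) x)) i ∈ F₁ := by
    intro a x i hx
    obtain ⟨t, ht, htx⟩ := om_eich hQ h2 hu (y := a • y) (by rw [map_smul, huy, smul_zero])
    have htx' : ∀ x, Matrix.mulVec (t : Matrix ι ι F) x = x + a • T x := by
      intro x
      rw [htx, qsmul, hy, LinearMap.map_smul, LinearMap.smul_apply, smul_eq_mul]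
      change _ = x + a • ((β[Q] u x) • y - (β[Q] y x) • u)
      module
    have htk : ∀ (k : ℕ) x, Matrix.mulVec ((t ^ k : Matrix.GeneralLinearGroup ι F) : Matrix ι ι F) x = x + ((k : F) * a) • T x := by
      intro k
      induction k with
      | zero => intro x; rw [pow_zero, mulVec_one, Nat.cast_zero, zero_mul, zero_smul, add_zero]
      | succ k ih =>
        intro x
        rw [pow_succ, mulVec_mul, ih, htx']
        have e : T (x + a • T x) = T x := by
          change (β[Q] u (x + a • T x)) • y - (β[Q] y (x + a • T x)) • u = (β[Q] u x) • y - (β[Q] y x) • u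
          rw [map_add, map_add, map_smul, map_smul, hTu, hTy, smul_zero, add_zero, add_zero]
        rw [e, add_assoc, ← add_smul, Nat.cast_succ]
        congr 2
        ring
    obtain ⟨y', hy', hyt⟩ := hle ht
    have hyt' : P * y' * P⁻¹ = t := hyt
    rw [SetLike.mem_coe, ← SetLike.mem_coe, Subgroup.mul_normal] at hy'
    obtain ⟨g, ⟨g₀, rfl⟩, z', hz, hgz⟩ := hy'
    obtain ⟨c, rfl⟩ := exists_sc hz
    have hgz' : y' = Matrix.GeneralLinearGroup.map (F₁.subtype : F₁ →+* F) g₀ * sc c := hgz.symm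
    have htp : t ^ p = 1 := by
      apply ext_mulVec
      intro x
      rw [htk, CharP.cast_eq_zero, zero_mul, zero_smul, add_zero, mulVec_one]
    have hyp : y' ^ p = 1 := by
      have h2 : y' = P⁻¹ * t * P := by rw [← hyt']; group
      have h3 : (P⁻¹ * t * P⁻¹⁻¹) ^ p = P⁻¹ * t ^ p * P⁻¹⁻¹ := conj_pow
      rw [inv_inv, htp, mul_one, inv_mul_cancel] at h3
      rw [h2, h3]
    have hcm : (Matrix.GeneralLinearGroup.map (F₁.subtype : F₁ →+* F) g₀) ^ p * (sc c) ^ p = 1 := by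
      rw [← hyp, hgz']
      exact (Commute.mul_pow (scalar_comm (sc_mem c) _).symm p).symm
    have hcp1 : (sc (c ^ p) : Matrix.GeneralLinearGroup ι F) = Matrix.GeneralLinearGroup.map (F₁.subtype : F₁ →+* F) ((g₀ ^ p)⁻¹) := by
      rw [map_pow, map_inv, map_pow]
      exact (eq_inv_of_mul_eq_one_right hcm)
    have hcp2 : (c : F) ^ p ∈ F₁ := by
      have h2 := congrArg (fun g : Matrix.GeneralLinearGroup ι F => (g : Matrix ι ι F) i i) hcp1
      have h3 : ((sc (c ^ p) : Matrix.GeneralLinearGroup ι F) : Matrix ι ι F) i i = (((((g₀ ^ p)⁻¹ : Matrix.GeneralLinearGroup ι F₁) : Matrix ι ι F₁) i i : F₁) : F) := h2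
      rw [sc_val, Matrix.smul_apply, Matrix.one_apply_eq, smul_eq_mul, mul_one, Units.val_pow_eq_pow_val] at h3
      rw [h3]
      exact SetLike.coe_mem _
    have hcF : (c : F) ∈ F₁ := by
      rw [mem_iff_pow] at hcp2 ⊢
      apply frobenius_inj F p
      rw [frobenius_def, frobenius_def, ← pow_mul, mul_comm, pow_mul, hcp2]
    have h3 : Matrix.mulVec ((P⁻¹ : Matrix.GeneralLinearGroup ι F) : Matrix ι ι F) (a • T (Matrix.mulVec (P : Matrix ι ι F) x)) =
        Matrix.mulVec (y' : Matrix ι ι F) x - x := by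
      have h4 : Matrix.mulVec (y' : Matrix ι ι F) x = Matrix.mulVec ((P⁻¹ : Matrix.GeneralLinearGroup ι F) : Matrix ι ι F) (Matrix.mulVec (t : Matrix ι ι F) (Matrix.mulVec (P : Matrix ι ι F) x)) := by
        rw [← mulVec_mul, ← mulVec_mul]
        congr 2
        rw [← hyt']
        group
      rw [h4, htx', mulVec_add', inv_mulVec, add_sub_cancel_left]
    rw [h3, Pi.sub_apply]
    apply F₁.sub_mem _ (hx i)
    rw [hgz', mulVec_mul, sc_mulVec]
    change ∑ j, (g₀ : Matrix ι ι F₁) i j * (c • x) j ∈ F₁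
    apply F₁.sum_mem
    intro j _
    exact F₁.mul_mem (SetLike.coe_mem _) (F₁.mul_mem hcF (hx j))
  -- a rational vector not killed
  obtain ⟨x, hx, i, hi⟩ : ∃ x : ι → F, (∀ j, x j ∈ F₁) ∧ ∃ i, Matrix.mulVec ((P⁻¹ : Matrix.GeneralLinearGroup ι F) : Matrix ι ι F) (T (Matrix.mulVec (P : Matrix ι ι F) x)) i ≠ 0 := by
    by_contra hcon
    push Not at hcon
    have h3 : ∀ x : ι → F, (∀ j, x j ∈ F₁) → β[Q] u (Matrix.mulVec (P : Matrix ι ι F) x) = 0 := by
      intro x hx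
      have h4 : T (Matrix.mulVec (P : Matrix ι ι F) x) = 0 := by
        apply mulVec_injective P⁻¹
        rw [Matrix.mulVec_zero]
        exact funext fun i => hcon x hx i
      have h6 := congrArg (fun v => β[Q] v w) h4
      have h7 : β[Q] ((β[Q] u (Matrix.mulVec (P : Matrix ι ι F) x)) • y - (β[Q] y (Matrix.mulVec (P : Matrix ι ι F) x)) • u) w = β[Q] 0 w := h6
      rw [map_sub, LinearMap.sub_apply, LinearMap.map_smul, LinearMap.smul_apply, LinearMap.map_smul, LinearMap.smul_apply, hyw, huw, smul_zero, sub_zero, smul_eq_mul, mul_one, map_zero, LinearMap.zero_apply] at h7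
      exact h7
    have h4 : (β[Q] u).comp (Matrix.toLin' (P : Matrix ι ι F)) = 0 := by
      apply LinearMap.pi_ext'
      intro j
      apply LinearMap.ext_ring
      change β[Q] u (Matrix.toLin' (P : Matrix ι ι F) (Pi.single j 1)) = 0
      rw [toLin_apply]
      apply h3
      intro i
      rw [Pi.single_apply]
      split_ifs
      · exact F₁.one_mem
      · exact F₁.zero_mem
    have h6 := LinearMap.congr_fun h4 (Matrix.mulVec ((P⁻¹ : Matrix.GeneralLinearGroup ι F) : Matrix ι ι F) z)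
    rw [LinearMap.comp_apply, toLin_apply, mulVec_inv, huz, LinearMap.zero_apply] at h6
    exact one_ne_zero h6
  obtain ⟨l, hl⟩ : ∃ l : F, l ∉ F₁ := by
    by_contra hcon
    push Not at hcon
    exact hF (eq_top_iff.2 fun x _ => hcon x)
  have h3 := key 1 x i hx
  have h4 := key l x i hx
  rw [one_smul] at h3
  rw [mulVec_smul', Pi.smul_apply, smul_eq_mul] at h4
  apply hl
  have h6 := F₁.mul_mem h4 (F₁.inv_mem h3)
  rwa [mul_assoc, mul_inv_cancel₀ hi, mul_one] at h6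

theorem o_hform (hQ : (β[Q]).Nondegenerate) : HForm (σ := RingHom.id F) (β[Q]) :=
  ⟨fun x y => polar_comm Q x y, fun x hx => hQ.1 x hx⟩

theorem gm_rational' [Nonempty ι] {σ : F →+* F} {B : (ι → F) →ₛₗ[σ] (ι → F) →ₗ[F] F} (h : HForm B) {N : Subgroup (Matrix.GeneralLinearGroup ι F)} (hN : N ≤ UB B)
    (habs : ActsAbsolutelyIrreducibly (matrixSet N)) {F₁ : Subfield F} (hσF : ∀ a ∈ F₁, σ a ∈ F₁)
    {Q : Matrix.GeneralLinearGroup ι F} (hQ : ∀ x ∈ N, ∀ i j, ((Q⁻¹ * x * Q : Matrix.GeneralLinearGroup ι F) : Matrix ι ι F) i j ∈ F₁) :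
    ∃ c : F, c ≠ 0 ∧ ∀ i j, c * gm B Q i j ∈ F₁ := by
  have hM := gm_unit h Q
  have hd : IsUnit (gm B Q).det := (Matrix.isUnit_iff_isUnit_det _).1 hM
  obtain ⟨c, T', hc, hT', hT'c⟩ := rational_intertwiner F₁
    (S := {s | ∃ x ∈ N, s = (((Q⁻¹ * x * Q : Matrix.GeneralLinearGroup ι F) : Matrix ι ι F), (((Q⁻¹ * x⁻¹ * Q : Matrix.GeneralLinearGroup ι F) : Matrix ι ι F).map σ).transpose)})
    (T := gm B Q)
    (by
      rintro _ ⟨x, hx, rfl⟩
      refine ⟨hQ x hx, fun i j => ?_⟩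
      exact hσF _ (hQ _ (N.inv_mem hx) _ _))
    hM.ne_zero
    (by
      rintro _ ⟨x, hx, rfl⟩
      exact gm_inv h (hN hx))
    (by
      intro T' hT'
      obtain ⟨c, hc⟩ := habs.2 ((Q : Matrix ι ι F) * ((gm B Q)⁻¹ * T') * ((Q⁻¹ : Matrix.GeneralLinearGroup ι F) : Matrix ι ι F)) (by
        rintro _ ⟨x, hx, rfl⟩
        have h1 := hT' _ ⟨x, hx, rfl⟩
        simp only at h1
        have h2 := gm_inv h (Q := Q) (hN hx)
        set g := ((Q⁻¹ * x * Q : Matrix.GeneralLinearGroup ι F) : Matrix ι ι F) with hg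
        have h3 : g * (gm B Q)⁻¹ = (gm B Q)⁻¹ * (((Q⁻¹ * x⁻¹ * Q : Matrix.GeneralLinearGroup ι F) : Matrix ι ι F).map σ).transpose := by
          calc g * (gm B Q)⁻¹ = (gm B Q)⁻¹ * (gm B Q * g) * (gm B Q)⁻¹ := by
                rw [← mul_assoc, Matrix.nonsing_inv_mul _ hd, one_mul]
            _ = (gm B Q)⁻¹ * ((((Q⁻¹ * x⁻¹ * Q : Matrix.GeneralLinearGroup ι F) : Matrix ι ι F).map σ).transpose * gm B Q) * (gm B Q)⁻¹ := by rw [h2]
            _ = _ := by rw [mul_assoc, mul_assoc, Matrix.mul_nonsing_inv _ hd, mul_one]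
        have h4 : ((gm B Q)⁻¹ * T') * g = g * ((gm B Q)⁻¹ * T') := by
          rw [mul_assoc, h1, ← mul_assoc, ← h3, mul_assoc]
        have e1 : ((Q⁻¹ : Matrix.GeneralLinearGroup ι F) : Matrix ι ι F) * (x : Matrix ι ι F) = g * ((Q⁻¹ : Matrix.GeneralLinearGroup ι F) : Matrix ι ι F) := by
          rw [hg, ← Units.val_mul, ← Units.val_mul]
          congr 1
          group
        have e2 : (x : Matrix ι ι F) * (Q : Matrix ι ι F) = (Q : Matrix ι ι F) * g := by
          rw [hg, ← Units.val_mul, ← Units.val_mul]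
          congr 1
          group
        change (Q : Matrix ι ι F) * ((gm B Q)⁻¹ * T') * ((Q⁻¹ : Matrix.GeneralLinearGroup ι F) : Matrix ι ι F) * (x : Matrix ι ι F) = (x : Matrix ι ι F) * ((Q : Matrix ι ι F) * ((gm B Q)⁻¹ * T') * ((Q⁻¹ : Matrix.GeneralLinearGroup ι F) : Matrix ι ι F))
        calc (Q : Matrix ι ι F) * ((gm B Q)⁻¹ * T') * ((Q⁻¹ : Matrix.GeneralLinearGroup ι F) : Matrix ι ι F) * (x : Matrix ι ι F)
            = (Q : Matrix ι ι F) * (((gm B Q)⁻¹ * T') * g) * ((Q⁻¹ : Matrix.GeneralLinearGroup ι F) : Matrix ι ι F) := by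
              rw [mul_assoc _ _ (x : Matrix ι ι F), e1]; simp only [mul_assoc]
          _ = ((Q : Matrix ι ι F) * g) * ((gm B Q)⁻¹ * T') * ((Q⁻¹ : Matrix.GeneralLinearGroup ι F) : Matrix ι ι F) := by rw [h4]; simp only [mul_assoc]
          _ = _ := by rw [← e2]; simp only [mul_assoc])
      refine ⟨c, ?_⟩
      have f1 : ((Q⁻¹ : Matrix.GeneralLinearGroup ι F) : Matrix ι ι F) * (Q : Matrix ι ι F) = 1 := by
        rw [← Units.val_mul, inv_mul_cancel, Units.val_one]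
      have h5 : (gm B Q)⁻¹ * T' = c • (1 : Matrix ι ι F) := by
        calc (gm B Q)⁻¹ * T' = (((Q⁻¹ : Matrix.GeneralLinearGroup ι F) : Matrix ι ι F) * (Q : Matrix ι ι F)) * ((gm B Q)⁻¹ * T') * (((Q⁻¹ : Matrix.GeneralLinearGroup ι F) : Matrix ι ι F) * (Q : Matrix ι ι F)) := by
              rw [f1, one_mul, mul_one]
          _ = ((Q⁻¹ : Matrix.GeneralLinearGroup ι F) : Matrix ι ι F) * ((Q : Matrix ι ι F) * ((gm B Q)⁻¹ * T') * ((Q⁻¹ : Matrix.GeneralLinearGroup ι F) : Matrix ι ι F)) * (Q : Matrix ι ι F) := by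
              simp only [mul_assoc]
          _ = c • (1 : Matrix ι ι F) := by rw [hc, Matrix.mul_smul, mul_one, Matrix.smul_mul, f1]
      calc T' = gm B Q * ((gm B Q)⁻¹ * T') := by rw [← mul_assoc, Matrix.mul_nonsing_inv _ hd, one_mul]
        _ = c • gm B Q := by rw [h5, Matrix.mul_smul, mul_one])
  refine ⟨c, hc, fun i j => ?_⟩
  have h6 := hT' i j
  rw [hT'c] at h6
  exact h6

/-- entries in the subfield -/
def StdRat (Q : QuadraticForm F (ι → F)) : Prop := ∀ (F₁ : Subfield F) (i j : ι), β[Q] (Pi.single i 1) (Pi.single j 1) ∈ F₁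

theorem gm_eq (P : Matrix.GeneralLinearGroup ι F) : gm (σ := RingHom.id F) (β[Q]) P = (P : Matrix ι ι F).transpose * gm (σ := RingHom.id F) (β[Q]) 1 * (P : Matrix ι ι F) := by
  have hone : ∀ v : ι → F, Matrix.mulVec ((1 : Matrix.GeneralLinearGroup ι F) : Matrix ι ι F) v = v := fun v => mulVec_one v
  have e2 : ∀ z y : ι → F, β[Q] z y = ∑ j, y j * β[Q] z (Pi.single j 1) := by
    intro z y
    have := gm_right (B := β[Q]) (σ := RingHom.id F) 1 z y
    simp only [hone] at this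
    exact this
  have e1 : ∀ x y : ι → F, β[Q] x y = ∑ i, x i * β[Q] (Pi.single i 1) y := by
    intro x y
    rw [polar_comm, e2]
    apply Finset.sum_congr rfl
    intro i _
    rw [polar_comm]
  ext i j
  rw [Matrix.mul_apply]
  have e3 : gm (σ := RingHom.id F) (β[Q]) P i j = β[Q] (Matrix.mulVec (P : Matrix ι ι F) (Pi.single i 1)) (Matrix.mulVec (P : Matrix ι ι F) (Pi.single j 1)) := rfl
  rw [e3, e2]
  apply Finset.sum_congr rfl
  intro k _
  rw [mul_comm]
  congr 1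
  · rw [e1, Matrix.mul_apply]
    apply Finset.sum_congr rfl
    intro l _
    rw [Matrix.transpose_apply, Matrix.mulVec_single_one]
    congr 1
    change _ = β[Q] _ _
    rw [hone, hone]
  · rw [Matrix.mulVec_single_one]
    rfl

theorem det_mem {F₁ : Subfield F} {M : Matrix ι ι F} (h : ∀ i j, M i j ∈ F₁) : M.det ∈ F₁ := by
  rw [Matrix.det_apply]
  apply F₁.sum_mem
  intro s _
  rw [Units.smul_def, zsmul_eq_mul]
  exact F₁.mul_mem (F₁.intCast_mem _) (F₁.prod_mem fun i _ => h _ _)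

/-- rescaling a rational structure -/
theorem rescale (hQ : (β[Q]).Nondegenerate) (hodd : Odd (Fintype.card ι)) (hst : StdRat Q) {F₁ : Subfield F} {P : Matrix.GeneralLinearGroup ι F} {c : F} (hc0 : c ≠ 0)
    (hc : ∀ i j, c * gm (σ := RingHom.id F) (β[Q]) P i j ∈ F₁) : ∃ μ : Fˣ, ∀ i j, (μ : F) ^ 2 * gm (σ := RingHom.id F) (β[Q]) P i j ∈ F₁ := by
  obtain ⟨m, hm⟩ := hodd
  have hG1 : ∀ i j, gm (σ := RingHom.id F) (β[Q]) 1 i j ∈ F₁ := by
    intro i j
    change β[Q] (Matrix.mulVec ((1 : Matrix.GeneralLinearGroup ι F) : Matrix ι ι F) _) (Matrix.mulVec ((1 : Matrix.GeneralLinearGroup ι F) : Matrix ι ι F) _) ∈ F₁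
    rw [mulVec_one, mulVec_one]
    exact hst F₁ i j
  have hd1 := det_mem hG1
  have hd2 : (c • gm (σ := RingHom.id F) (β[Q]) P).det ∈ F₁ := det_mem hc
  rw [Matrix.det_smul, gm_eq, Matrix.det_mul, Matrix.det_mul, Matrix.det_transpose, hm] at hd2
  have hdu : (gm (σ := RingHom.id F) (β[Q]) 1).det ≠ 0 := ((Matrix.isUnit_iff_isUnit_det _).1 (gm_unit (o_hform hQ) 1)).ne_zero
  have hdP : (P : Matrix ι ι F).det ≠ 0 := ((Matrix.isUnit_iff_isUnit_det _).1 (Units.isUnit P)).ne_zero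
  have h3 : c ^ (2 * m + 1) * (P : Matrix ι ι F).det ^ 2 ∈ F₁ := by
    have := F₁.mul_mem hd2 (F₁.inv_mem hd1)
    have e : c ^ (2 * m + 1) * ((P : Matrix ι ι F).det * (gm (σ := RingHom.id F) (β[Q]) 1).det * (P : Matrix ι ι F).det) * ((gm (σ := RingHom.id F) (β[Q]) 1).det)⁻¹ =
        c ^ (2 * m + 1) * (P : Matrix ι ι F).det ^ 2 := by
      field_simp
    rwa [e] at this
  refine ⟨Units.mk0 (c ^ (m + 1) * (P : Matrix ι ι F).det) (mul_ne_zero (pow_ne_zero _ hc0) hdP), fun i j => ?_⟩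
  rw [Units.val_mk0]
  have e : (c ^ (m + 1) * (P : Matrix ι ι F).det) ^ 2 * gm (σ := RingHom.id F) (β[Q]) P i j =
      (c ^ (2 * m + 1) * (P : Matrix ι ι F).det ^ 2) * (c * gm (σ := RingHom.id F) (β[Q]) P i j) := by
    ring
  rw [e]
  exact F₁.mul_mem h3 (hc i j)

theorem finish_subfield [Fintype F] (hQ : (β[Q]).Nondegenerate) (h2 : (2 : F) ≠ 0) (hodd : Odd (Fintype.card ι)) (h5 : 5 ≤ Fintype.card ι) (hst : StdRat Q)
    {H : Subgroup (Matrix.GeneralLinearGroup ι F)} (hH : IsMaximalIn (omegaGL ⇑Q) H) {F₁ : Subfield F} {r : ℕ} (hr : r.Prime) (hF : F₁ ≠ ⊤)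
    (hcard : Fintype.card F = Nat.card F₁ ^ r) {P : Matrix.GeneralLinearGroup ι F} {c : F} (hc0 : c ≠ 0)
    (hc : ∀ i j, c * gm (σ := RingHom.id F) (β[Q]) P i j ∈ F₁) (hle : H ≤ subfieldSubgroup F₁ P) :
    ∃ (F₀ : Subfield F) (r : ℕ) (P : Matrix.GeneralLinearGroup ι F), r.Prime ∧ Fintype.card F = Nat.card F₀ ^ r ∧
      IsQuadFormRationalStructure ⇑Q F₀ P ∧ H = subfieldSubgroup F₀ P ⊓ omegaGL ⇑Q := by
  obtain ⟨μ, hμ⟩ := rescale hQ hodd hst hc0 hc
  have hPx : ∀ x : Matrix.GeneralLinearGroup ι F, (P * sc μ) * x * (P * sc μ)⁻¹ = P * x * P⁻¹ := by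
    intro x
    have e := scalar_comm (sc_mem μ) x
    rw [mul_inv_rev]
    calc P * sc μ * x * ((sc μ)⁻¹ * P⁻¹) = P * (sc μ * x) * (sc μ)⁻¹ * P⁻¹ := by group
      _ = P * (x * sc μ) * (sc μ)⁻¹ * P⁻¹ := by rw [e]
      _ = P * x * P⁻¹ := by group
  refine ⟨F₁, r, P * sc μ, hr, hcard, fun u hu => ?_, max_eq hH ?_ (not_subfield_o hQ h2 h5 hF _)⟩
  · have h3 : (2 : F) * Q (Matrix.mulVec ((P * sc μ : Matrix.GeneralLinearGroup ι F) : Matrix ι ι F) u) ∈ F₁ := by
      rw [← polar_self, mulVec_mul, sc_mulVec, mulVec_smul', map_smul, LinearMap.map_smul, LinearMap.smul_apply, smul_eq_mul, smul_eq_mul]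
      rw [gm_apply (o_hform hQ), Finset.mul_sum, Finset.mul_sum]
      apply F₁.sum_mem
      intro i _
      rw [Finset.mul_sum, Finset.mul_sum, Finset.mul_sum]
      apply F₁.sum_mem
      intro j _
      have e : (μ : F) * ((μ : F) * ((RingHom.id F) (u i) * (u j * gm (σ := RingHom.id F) (β[Q]) P i j))) = u i * (u j * ((μ : F) ^ 2 * gm (σ := RingHom.id F) (β[Q]) P i j)) := by
        rw [RingHom.id_apply]
        ring
      rw [e]
      exact F₁.mul_mem (hu i) (F₁.mul_mem (hu j) (hμ i j))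
    have h4 : (2 : F) ∈ F₁ := by
      rw [← one_add_one_eq_two]
      exact F₁.add_mem F₁.one_mem F₁.one_mem
    have h6 := F₁.mul_mem (F₁.inv_mem h4) h3
    rwa [← mul_assoc, inv_mul_cancel₀ h2, one_mul] at h6
  · intro x hx
    obtain ⟨y, hy, hyx⟩ := hle hx
    refine ⟨y, hy, ?_⟩
    have h3 : P * y * P⁻¹ = x := hyx
    change (P * sc μ) * y * (P * sc μ)⁻¹ = x
    rw [hPx, h3]

theorem subfield_o [Fintype F] (hQ : (β[Q]).Nondegenerate) (h2 : (2 : F) ≠ 0) (hodd : Odd (Fintype.card ι)) (h5 : 5 ≤ Fintype.card ι) (hst : StdRat Q)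
    {N H : Subgroup (Matrix.GeneralLinearGroup ι F)} (hNI : NI N H)
    (habs : ActsAbsolutelyIrreducibly (matrixSet N)) (hH : IsMaximalIn (omegaGL ⇑Q) H) {F₀ : Subfield F} (hF : F₀ ≠ ⊤) (hr : RealisableOver F₀ (matrixSet N)) :
    ∃ (F₀ : Subfield F) (r : ℕ) (P : Matrix.GeneralLinearGroup ι F), r.Prime ∧ Fintype.card F = Nat.card F₀ ^ r ∧
      IsQuadFormRationalStructure ⇑Q F₀ P ∧ H = subfieldSubgroup F₀ P ⊓ omegaGL ⇑Q := by
  haveI : Nonempty ι := Fintype.card_pos_iff.1 (by omega)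
  obtain ⟨F₁, s, h1, h3, h4, h6⟩ := exists_prime_index hF
  obtain ⟨A, hA⟩ := realisable_mono h1 hr
  have hNU : N ≤ UB (σ := RingHom.id F) (β[Q]) := fun x hx => q_polar (om_Q (hH.1.le (hNI.1 hx)))
  obtain ⟨c, hc0, hc⟩ := gm_rational' (o_hform hQ) hNU habs (F₁ := F₁) (fun a ha => ha) (Q := A⁻¹) (by
    intro x hx i j
    rw [inv_inv]
    exact hA _ ⟨x, hx, rfl⟩ i j)
  exact finish_subfield hQ h2 hodd h5 hst hH h4 h3 h6 hc0 hc (le_subfield' hNI habs hA)

theorem decomp_o [Fintype F] (hQ : (β[Q]).Nondegenerate) (h2 : (2 : F) ≠ 0) (hodd : Odd (Fintype.card ι)) (h5 : 5 ≤ Fintype.card ι) (hst : StdRat Q)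
    (hnp : ¬ (Fintype.card F).Prime)
    {H : Subgroup (Matrix.GeneralLinearGroup ι F)} (hH : IsMaximalIn (omegaGL ⇑Q) H) {D : Fin (Fintype.card ι) → Submodule F (ι → F)}
    (hD : IsOrthogonalMDecomposition ⇑Q 1 D) (hHD : H ≤ decompositionStabilizer D) :
    ∃ (F₀ : Subfield F) (r : ℕ) (P : Matrix.GeneralLinearGroup ι F), r.Prime ∧ Fintype.card F = Nat.card F₀ ^ r ∧
      IsQuadFormRationalStructure ⇑Q F₀ P ∧ H = subfieldSubgroup F₀ P ⊓ omegaGL ⇑Q := by
  classical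
  have hbot : (⊥ : Subfield F) ≠ ⊤ := by
    intro h0
    obtain ⟨p, hcp⟩ := CharP.exists F
    obtain ⟨n, hpp, hcard⟩ := FiniteField.card F p
    haveI := Fact.mk hpp
    have h1 : Nat.card (⊥ : Subfield F) = p := Subfield.card_bot F p
    rw [h0] at h1
    have h4 : Nat.card (⊤ : Subfield F) = Nat.card F := Nat.card_congr Subfield.topEquiv.toEquiv
    rw [h4, Nat.card_eq_fintype_card] at h1
    apply hnp
    rw [h1]
    exact hpp
  obtain ⟨F₁, s, h1, h3, h4, h6⟩ := exists_prime_index hbot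
  let i₀ : Fin (Fintype.card ι) := ⟨0, by omega⟩
  obtain ⟨d₀, hd₀, hd₀0⟩ : ∃ d ∈ D i₀, d ≠ 0 := by
    apply Submodule.exists_mem_ne_zero_of_ne_bot
    intro h0
    have := hD.decomp.decomp.finrank_eq i₀
    rw [h0, finrank_bot] at this
    omega
  choose e he using fun j => hD.isometric i₀ j
  let d : Fin (Fintype.card ι) → ι → F := fun j => (e j ⟨d₀, hd₀⟩ : D j)
  have hd : ∀ j, d j ∈ D j := fun j => (e j ⟨d₀, hd₀⟩).2
  have hdQ : ∀ j, Q (d j) = Q d₀ := fun j => he j ⟨d₀, hd₀⟩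
  have hd0 : ∀ j, d j ≠ 0 := by
    intro j h0
    have h7 : e j ⟨d₀, hd₀⟩ = 0 := Subtype.ext h0
    rw [LinearEquiv.map_eq_zero_iff] at h7
    exact hd₀0 (congrArg Subtype.val h7)
  have hspan : ∀ i, ∀ x ∈ D i, ∃ c : F, x = c • d i := by
    intro i x hx
    obtain ⟨c, hc⟩ := (finrank_eq_one_iff_of_nonzero' (⟨d i, hd i⟩ : D i) (fun h0 => hd0 i (congrArg Subtype.val h0))).1 (hD.decomp.decomp.finrank_eq i) ⟨x, hx⟩
    exact ⟨c, (congrArg Subtype.val hc).symm⟩
  have horth : ∀ i j, i ≠ j → β[Q] (d i) (d j) = 0 := fun i j hij => hD.decomp.orthogonal i j hij (d i) (hd i) (d j) (hd j)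
  have hα : Q d₀ ≠ 0 := by
    intro h0
    obtain ⟨⟨x, hx, h7⟩, -⟩ := hD.decomp.nondegenerate i₀ (d i₀) (hd i₀) (hd0 i₀)
    obtain ⟨c, rfl⟩ := hspan i₀ x hx
    change β[Q] (c • d i₀) (d i₀) ≠ 0 at h7
    rw [LinearMap.map_smul, LinearMap.smul_apply, polar_self, hdQ, h0, mul_zero, smul_zero] at h7
    exact h7 rfl
  let f : ι ≃ Fin (Fintype.card ι) := Fintype.equivFin ι
  have hli : LinearIndependent F (fun i => d (f i)) := by
    rw [Fintype.linearIndependent_iff]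
    intro g hg i
    have h7 := congrArg (fun v => β[Q] v (d (f i))) hg
    have h8 : β[Q] (∑ k, g k • d (f k)) (d (f i)) = β[Q] 0 (d (f i)) := h7
    rw [map_sum, LinearMap.sum_apply, map_zero, LinearMap.zero_apply, Finset.sum_eq_single i] at h8
    · rw [LinearMap.map_smul, LinearMap.smul_apply, polar_self, hdQ, smul_eq_mul] at h8
      exact (mul_eq_zero.1 h8).resolve_right (mul_ne_zero h2 hα)
    · intro k _ hk
      rw [LinearMap.map_smul, LinearMap.smul_apply, horth _ _ (fun h0 => hk (f.injective h0)), smul_zero]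
    · intro h0
      exact absurd (Finset.mem_univ i) h0
  obtain ⟨P, hP⟩ : ∃ P : Matrix.GeneralLinearGroup ι F, ∀ j : ι, Matrix.mulVec (P : Matrix ι ι F) (Pi.single j 1) = d (f j) := by
    obtain ⟨P, hP⟩ := Matrix.linearIndependent_cols_iff_isUnit.1
      (show LinearIndependent F (Matrix.of fun i j : ι => (d (f j) : ι → F) i).col from hli)
    refine ⟨P, fun j => ?_⟩
    rw [hP, Matrix.mulVec_single_one]
    rfl
  have hG : ∀ i j, gm (σ := RingHom.id F) (β[Q]) P i j = if i = j then 2 * Q d₀ else 0 := by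
    intro i j
    change β[Q] (Matrix.mulVec (P : Matrix ι ι F) (Pi.single i 1)) (Matrix.mulVec (P : Matrix ι ι F) (Pi.single j 1)) = _
    rw [hP, hP]
    split_ifs with hij
    · rw [hij, polar_self, hdQ]
    · exact horth _ _ fun h0 => hij (f.injective h0)
  refine finish_subfield hQ h2 hodd h5 hst hH h4 h3 h6 (P := P) (c := (2 * Q d₀)⁻¹) (inv_ne_zero (mul_ne_zero h2 hα)) ?_ ?_
  · intro i j
    rw [hG]
    split_ifs
    · rw [inv_mul_cancel₀ (mul_ne_zero h2 hα)]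
      exact F₁.one_mem
    · rw [mul_zero]
      exact F₁.zero_mem
  · intro x hx
    have hxQ := om_Q (hH.1.le hx)
    refine ⟨P⁻¹ * x * P, ?_, ?_⟩
    · apply Subgroup.mem_sup_left
      apply exists_map
      intro i j
      obtain ⟨s, hs⟩ := hHD hx
      have h7 : Matrix.mulVec (x : Matrix ι ι F) (d (f j)) ∈ D (s (f j)) := by
        rw [← hs]
        exact ⟨d (f j), hd _, rfl⟩
      obtain ⟨c, hc⟩ := hspan _ _ h7
      have hc2 : c ^ 2 = 1 := by
        have h8 := hxQ (d (f j))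
        rw [hc, qsmul, hdQ, hdQ] at h8
        apply mul_right_cancel₀ hα
        rw [h8, one_mul]
      have hcF : c ∈ F₁ := by
        rcases mul_self_eq_one_iff.1 (show c * c = 1 by rw [← pow_two, hc2]) with h9 | h9
        · rw [h9]; exact F₁.one_mem
        · rw [h9]; exact F₁.neg_mem F₁.one_mem
      have h8 : ((P⁻¹ * x * P : Matrix.GeneralLinearGroup ι F) : Matrix ι ι F) i j = Matrix.mulVec ((P⁻¹ : Matrix.GeneralLinearGroup ι F) : Matrix ι ι F) (c • d (s (f j))) i := by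
        rw [← hc, ← hP j, ← mulVec_mul, ← mulVec_mul, Matrix.mulVec_single_one]
        rfl
      have h9 : d (s (f j)) = Matrix.mulVec (P : Matrix ι ι F) (Pi.single (f.symm (s (f j))) 1) := by
        rw [hP, Equiv.apply_symm_apply]
      rw [h8, h9, mulVec_smul', inv_mulVec, Pi.smul_apply, smul_eq_mul, Pi.single_apply]
      apply F₁.mul_mem hcF
      split_ifs
      · exact F₁.one_mem
      · exact F₁.zero_mem
    · change P * (P⁻¹ * x * P) * P⁻¹ = x
      group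

end CfsgLib.Aso3
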