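import Cfsg.Agent.Lib.AutPSp6

/-!
# Automorphisms of `PSp_{2m}(F)`, part 7: centralizers of field automorphisms, splitting of classes.
-/

set_option autoImplicit false
set_option linter.unusedSimpArgs false
set_option linter.unusedSectionVars false

namespace CfsgLib.SemiAut.Setup

open Matrix Cfsg CfsgLib.SemiAut

variable {ι : Type*} [Fintype ι] [DecidableEq ι] {F : Type*} [Field F] {S : Type*} [Group S]
  {e : S →* GL ι F} {Γ : Subgroup (GamL ι F)} {GG : Subgroup (GL ι F)} (hS : Setup e Γ GG)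

theorem orderOf_std {σ : RingAut F} (hσ : sm 1 σ ∈ Γ) : orderOf (hS.Psi ⟨sm 1 σ, hσ⟩) = orderOf σ := by
  apply orderOf_eq_orderOf_iff.2
  intro n
  have h1 : ((⟨sm 1 σ, hσ⟩ : Γ) ^ n).1 = sm 1 (σ ^ n) := by
    rw [SubgroupClass.coe_pow, sm_one_pow]
  rw [← map_pow, Psi_eq_one, h1]
  constructor
  · rintro ⟨g, _, h⟩
    rw [lin_eq] at h
    exact (sm_inj.1 h).2
  · intro h
    refine ⟨1, ⟨1, by rw [one_smul, Units.val_one]⟩, ?_⟩
    rw [h, lin_eq]

theorem std_iff {σ : RingAut F} (hσ : sm 1 σ ∈ Γ) (β : MulAut (S ⧸ Subgroup.center S)) :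
    (∀ s s' : S, (e s').1 = (e s).1.map σ → β (QuotientGroup.mk s) = QuotientGroup.mk s') ↔ β = hS.Psi ⟨sm 1 σ, hσ⟩ := by
  have h1 := hS.ind_iff (σ := (σ : F ≃+* F)) hσ β
  rw [← h1]
  have h2 : ∀ s : S, ((1 : GL ι F)).1 * (e s).1.map σ * ((1 : GL ι F)⁻¹).1 = (e s).1.map σ := by
    intro s
    rw [inv_one, Units.val_one, Matrix.one_mul, Matrix.mul_one]
  constructor
  · intro h s s' hs
    exact h s s' (by rw [hs]; exact h2 s)
  · intro h s s' hs
    exact h s s' (by rw [hs]; exact (h2 s).symm)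

end CfsgLib.SemiAut.Setup

namespace CfsgLib.AutPSp

open Module Matrix Cfsg CfsgLib.Symp CfsgLib.SemiAut CfsgLib.Descent2

variable {F : Type*} [Field F] {m : ℕ}

local notation "V" => (Fin m ⊕ Fin m → F)
local notation "G" => Matrix.symplecticGroup (Fin m) F

theorem full [Finite F] (hm : 2 ≤ m) {p : ℕ} [Fact p.Prime] [CharP F p] (h4 : m = 2 → p ≠ 2) :
    Function.Surjective (setup (F := F) hm).Psi := by
  intro α
  obtain ⟨g, σ, hg, h⟩ := main (p := p) hm h4 α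
  exact ⟨⟨sm g σ, hg⟩, (((setup hm).ind_iff (σ := σ) (show sm g σ ∈ GamSp m F from hg) α).1 h).symm⟩

/-- the multiplier -/
noncomputable def mu (hm : 1 ≤ m) : GSp m F →* Fˣ where
  toFun g := (mem_GSp.1 g.2).choose
  map_one' := by
    obtain ⟨u, v, huv⟩ := exists_B_eq_one (F := F) hm
    have h1 := (mem_GSp.1 (1 : GSp m F).2).choose_spec u v
    apply Units.ext
    rw [huv, mul_one] at h1
    rw [Units.val_one, ← h1, Subgroup.coe_one, Units.val_one, one_mulVec, one_mulVec, huv]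
  map_mul' g h := by
    obtain ⟨u, v, huv⟩ := exists_B_eq_one (F := F) hm
    have h1 := (mem_GSp.1 (g * h).2).choose_spec u v
    have h2 := (mem_GSp.1 g.2).choose_spec (h.1.1 *ᵥ u) (h.1.1 *ᵥ v)
    have h3 := (mem_GSp.1 h.2).choose_spec u v
    apply Units.ext
    rw [huv, mul_one] at h1
    rw [h3, huv, mul_one, mulVec_mulVec, mulVec_mulVec] at h2
    rw [Units.val_mul, ← h2, ← h1]
    rfl

theorem mu_spec (hm : 1 ≤ m) (g : GSp m F) (u v : V) : sympB m F (g.1.1 *ᵥ u) (g.1.1 *ᵥ v) = (mu hm g : F) * sympB m F u v :=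
  (mem_GSp.1 g.2).choose_spec u v

theorem mu_eq (hm : 1 ≤ m) {g : GSp m F} {c : Fˣ} (h : ∀ u v : V, sympB m F (g.1.1 *ᵥ u) (g.1.1 *ᵥ v) = (c : F) * sympB m F u v) :
    mu hm g = c := by
  obtain ⟨u, v, huv⟩ := exists_B_eq_one (F := F) hm
  have h1 := mu_spec hm g u v
  rw [h, huv, mul_one, mul_one] at h1
  exact Units.ext h1.symm

theorem mu_surj (hm : 1 ≤ m) (c : Fˣ) : ∃ g : GSp m F, mu hm g = c := by
  let D : Matrix (Fin m ⊕ Fin m) (Fin m ⊕ Fin m) F := Matrix.diagonal (Sum.elim (fun _ => (c : F)) (fun _ => 1))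
  have hD : D.det ≠ 0 := by
    rw [det_diagonal, Finset.prod_ne_zero_iff]
    rintro (i | i) _
    · exact c.ne_zero
    · exact one_ne_zero
  have h1 : ∀ u v : V, sympB m F (D *ᵥ u) (D *ᵥ v) = (c : F) * sympB m F u v := by
    intro u v
    rw [sympB_apply, sympB_apply, sympForm_eq, sympForm_eq, Finset.mul_sum]
    apply Finset.sum_congr rfl
    intro i _
    simp only [D, mulVec_diagonal, Sum.elim_inl, Sum.elim_inr]
    ring
  exact ⟨⟨Matrix.GeneralLinearGroup.mkOfDetNeZero D hD, mem_GSp.2 ⟨c, h1⟩⟩, mu_eq hm h1⟩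

/-- scalar matrices -/
noncomputable def scal {ι : Type*} [Fintype ι] [DecidableEq ι] (c : Fˣ) : GL ι F :=
  Matrix.GeneralLinearGroup.mkOfDetNeZero ((c : F) • (1 : Matrix ι ι F)) (by
    rw [det_smul, det_one, mul_one]
    exact pow_ne_zero _ c.ne_zero)

theorem scal_coe {ι : Type*} [Fintype ι] [DecidableEq ι] (c : Fˣ) : (scal c : GL ι F).1 = (c : F) • (1 : Matrix ι ι F) := rfl

theorem scal_isScal {ι : Type*} [Fintype ι] [DecidableEq ι] (c : Fˣ) : IsScal (scal c : GL ι F) := ⟨_, rfl⟩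

theorem scal_mulVec {ι : Type*} [Fintype ι] [DecidableEq ι] (c : Fˣ) (v : ι → F) : (scal c : GL ι F).1 *ᵥ v = (c : F) • v := by
  rw [scal_coe, smul_mulVec, one_mulVec]

theorem scal_mem (c : Fˣ) : (scal c : GL (Fin m ⊕ Fin m) F) ∈ GSp m F := by
  rw [mem_GSp]
  refine ⟨c * c, fun u v => ?_⟩
  rw [scal_mulVec, scal_mulVec, map_smul, map_smul, LinearMap.smul_apply, smul_eq_mul, smul_eq_mul, Units.val_mul, mul_assoc]

theorem exists_scal_of {ι : Type*} [Fintype ι] [DecidableEq ι] [Nonempty ι] {g : GL ι F} (hg : IsScal g) : ∃ c : Fˣ, g = scal c := by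
  obtain ⟨i0⟩ := (inferInstance : Nonempty ι)
  obtain ⟨l, hl⟩ := hg
  have hl0 : l ≠ 0 := by
    rintro rfl
    have h2 : g.1 * (g⁻¹).1 = 1 := g.mul_inv
    rw [hl, zero_smul, Matrix.zero_mul] at h2
    have := congrFun (congrFun h2 i0) i0
    rw [Matrix.one_apply_eq, Matrix.zero_apply] at this
    exact zero_ne_one this
  exact ⟨Units.mk0 l hl0, Units.ext hl⟩

theorem mu_scal (hm : 1 ≤ m) (c : Fˣ) : mu (F := F) hm ⟨scal c, scal_mem c⟩ = c ^ 2 := by
  apply mu_eq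
  intro u v
  change sympB m F ((scal c : GL (Fin m ⊕ Fin m) F).1 *ᵥ u) ((scal c : GL (Fin m ⊕ Fin m) F).1 *ᵥ v) = _
  rw [scal_mulVec, scal_mulVec, map_smul, map_smul, LinearMap.smul_apply, smul_eq_mul, smul_eq_mul, Units.val_pow_eq_pow_val,
    ← mul_assoc, sq]

theorem mu_eq_one_iff (hm : 1 ≤ m) (g : GSp m F) : mu hm g = 1 ↔ ∃ s : G, g.1 = emb m F s := by
  constructor
  · intro h
    refine ⟨⟨g.1.1, ?_⟩, Units.ext rfl⟩
    rw [mem_symplecticGroup_iff]
    intro u v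
    have h1 := mu_spec hm g u v
    rw [h, Units.val_one, one_mul, sympB_apply, sympB_apply] at h1
    exact h1
  · rintro ⟨s, hs⟩
    apply mu_eq
    intro u v
    rw [hs, Units.val_one, one_mul]
    exact G_pres s u v

theorem mu_sq_iff (hm : 1 ≤ m) (g : GSp m F) : (∃ a : Fˣ, mu hm g = a ^ 2) ↔ ∃ (c : Fˣ) (s : G), g.1 = scal c * emb m F s := by
  constructor
  · rintro ⟨a, ha⟩
    have h1 : mu hm ((⟨scal a, scal_mem a⟩ : GSp m F)⁻¹ * g) = 1 := by
      rw [map_mul, map_inv, mu_scal, ha, inv_mul_cancel]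
    obtain ⟨s, hs⟩ := (mu_eq_one_iff hm _).1 h1
    refine ⟨a, s, ?_⟩
    rw [← hs, Subgroup.coe_mul, Subgroup.coe_inv, mul_inv_cancel_left]
  · rintro ⟨c, s, h⟩
    refine ⟨c, ?_⟩
    have h1 : g = ⟨scal c, scal_mem c⟩ * ⟨emb m F s, emb_mem s⟩ := Subtype.ext h
    rw [h1, map_mul, mu_scal, (mu_eq_one_iff hm _).2 ⟨s, rfl⟩, mul_one]

theorem range_eq_inn [Finite F] [CharP F 2] (hm : 2 ≤ m) : (setup (F := F) hm).gam.range = Inn (PSp m F) := by
  apply le_antisymm _ (setup hm).inn_le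
  rintro _ ⟨g, rfl⟩
  obtain ⟨a, ha⟩ := FiniteField.isSquare_of_char_two (F := F) (ringChar.eq F 2) (mu (by omega) g : F)
  have ha0 : a ≠ 0 := by
    rintro rfl
    rw [mul_zero] at ha
    exact (mu _ g).ne_zero ha
  obtain ⟨c, s, h⟩ := (mu_sq_iff (by omega) g).1 ⟨Units.mk0 a ha0, by
    apply Units.ext
    rw [ha, Units.val_pow_eq_pow_val, Units.val_mk0, sq]⟩
  refine ⟨QuotientGroup.mk s, ?_⟩
  have h1 : (setup hm).gam g = (setup (F := F) hm).gam ⟨emb m F s, emb_mem s⟩ := by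
    rw [Setup.gam_eq, Setup.gam_eq, Setup.Psi_inj]
    refine ⟨scal c, scal_isScal c, ?_⟩
    change lin g.1 = lin (scal c) * lin (emb m F s)
    rw [← map_mul, ← h]
  rw [h1]
  exact (psi_range (setup hm).inj' s).symm

theorem hN [Finite F] (hm : 2 ≤ m) (α δ : MulAut (PSp m F)) :
    δ ∈ (setup (F := F) hm).gam.range ↔ α * δ * α⁻¹ ∈ (setup (F := F) hm).gam.range := by
  obtain ⟨p, hp⟩ := CharP.exists F
  have : Fintype F := Fintype.ofFinite F
  have hpp : Fact p.Prime := ⟨CharP.char_is_prime F p⟩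
  by_cases h2 : p = 2
  · subst h2
    have hnorm : (Inn (PSp m F)).Normal := inferInstance
    rw [range_eq_inn hm]
    refine ⟨fun h => hnorm.conj_mem _ h _, fun h => ?_⟩
    have h1 := hnorm.conj_mem _ h α⁻¹
    have h2 : α⁻¹ * (α * δ * α⁻¹) * α⁻¹⁻¹ = δ := by group
    rwa [h2] at h1
  · exact (setup hm).conj_mem (full (p := p) hm (fun _ => h2)) α δ

theorem one_mem_Gam (σ : RingAut F) : sm 1 σ ∈ GamSp m F := one_mem (GSp m F)

theorem std_iff' [Finite F] (hm : 2 ≤ m) (σ : F ≃+* F) (β : MulAut (PSp m F)) :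
    IsStdFieldAutPSp σ β ↔ β = (setup hm).Psi ⟨sm 1 σ, one_mem_Gam σ⟩ :=
  (setup hm).std_iff (σ := σ) (one_mem_Gam σ) β

theorem inndiag_eq' [Finite F] (hm : 2 ≤ m) : inndiagPSp m F = (setup (F := F) hm).gam.range :=
  (setup hm).inndiag_eq

/-- S2713 -/
theorem conj_field [Finite F] (hm : 2 ≤ m) {x δ : MulAut (PSp m F)} (hx : IsFieldAutClassPSp x) {r : ℕ}
    (hxr : orderOf x = r) (hδ : δ ∈ inndiagPSp m F) : orderOf (δ * x) = r ↔ IsConjUnder (inndiagPSp m F) x (δ * x) := by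
  obtain ⟨α, σ, _, hx⟩ := hx
  rw [std_iff' hm] at hx
  have hpow : orderOf (α * x * α⁻¹) = orderOf x :=
    orderOf_injective (MulAut.conj α).toMonoidHom (MulAut.conj α).injective x
  have hr : orderOf ((setup (F := F) hm).Psi ⟨sm 1 σ, one_mem_Gam σ⟩) = r := by rw [← hx, hpow, hxr]
  rw [inndiag_eq' hm] at hδ ⊢
  refine (setup hm).conj_iff (hN hm) hr ?_ hx hδ
  intro g hg h
  rw [Setup.orderOf_std] at hr
  rw [← hr] at h
  exact descent_GSp (by omega) σ hg h

section fixed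

variable {F₀ : Type*} [Field F₀] (j : F₀ →+* F)

theorem sympB_map' (v w : Fin m ⊕ Fin m → F₀) : sympB m F (fun i => j (v i)) (fun i => j (w i)) = j (sympB m F₀ v w) := by
  rw [sympB_apply, sympB_apply, sympForm_eq, sympForm_eq, map_sum]
  exact Finset.sum_congr rfl fun i _ => by rw [map_sub, map_mul, map_mul]

theorem map_mulVec'' {ι : Type*} [Fintype ι] (M : Matrix ι ι F₀) (v : ι → F₀) :
    (fun i => j ((M *ᵥ v) i)) = (M.map j) *ᵥ (fun i => j (v i)) := by
  ext i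
  simp only [Matrix.mulVec, dotProduct, map_sum, map_mul, Matrix.map_apply]

/-- extension of scalars of the Gram matrix identity -/
theorem map_mem_iff (hm : 1 ≤ m) (h : GL (Fin m ⊕ Fin m) F₀) : Matrix.GeneralLinearGroup.map j h ∈ GSp m F ↔ h ∈ GSp m F₀ := by
  rw [mem_GSp, mem_GSp]
  constructor
  · rintro ⟨c, hc⟩
    have h1 : ∀ u v : Fin m ⊕ Fin m → F₀, j (sympB m F₀ (h.1 *ᵥ u) (h.1 *ᵥ v)) = c * j (sympB m F₀ u v) := by
      intro u v
      rw [← sympB_map', ← sympB_map', ← hc, map_mulVec'', map_mulVec'']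
      rfl
    obtain ⟨u, v, huv⟩ := exists_B_eq_one (F := F₀) hm
    have h2 := h1 u v
    rw [huv, map_one, mul_one] at h2
    have h3 : sympB m F₀ (h.1 *ᵥ u) (h.1 *ᵥ v) ≠ 0 := by
      intro h0
      rw [h0, map_zero] at h2
      exact c.ne_zero h2.symm
    refine ⟨Units.mk0 _ h3, fun u' v' => ?_⟩
    apply j.injective
    rw [h1, map_mul, Units.val_mk0, h2]
  · rintro ⟨c, hc⟩
    refine ⟨Units.map (j : F₀ →* F) c, ?_⟩
    -- check on the Gram matrix
    have h1 : h.1ᵀ * Matrix.J (Fin m) F₀ * h.1 = (c : F₀) • Matrix.J (Fin m) F₀ := by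
      ext a b
      have h2 := hc (Pi.single a 1) (Pi.single b 1)
      rw [sympB_apply, sympB_apply, sympForm, sympForm, mulVec_mulVec, ← vecMul_transpose, ← Matrix.dotProduct_mulVec,
        mulVec_mulVec] at h2
      simpa [Matrix.mul_assoc] using h2
    have hJ : (Matrix.J (Fin m) F₀).map j = Matrix.J (Fin m) F := by
      ext a b
      rcases a with a | a <;> rcases b with b | b <;> simp [Matrix.J, Matrix.one_apply] <;> split_ifs <;> simp
    have h2 : (Matrix.GeneralLinearGroup.map j h).1ᵀ * Matrix.J (Fin m) F * (Matrix.GeneralLinearGroup.map j h).1 =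
        j c • Matrix.J (Fin m) F := by
      have h3 := congrArg (fun M => M.map j) h1
      simp only [Matrix.map_mul] at h3
      rw [hJ] at h3
      change (h.1.map j)ᵀ * Matrix.J (Fin m) F * h.1.map j = _
      rw [← Matrix.transpose_map, h3]
      ext a b
      have h4 := congrFun (congrFun hJ a) b
      simp only [Matrix.map_apply, Matrix.smul_apply, smul_eq_mul, map_mul] at h4 ⊢
      rw [h4]
    intro u v
    change _ = j c * _
    rw [sympB_apply, sympB_apply, sympForm, sympForm, ← smul_eq_mul, ← dotProduct_smul, ← smul_mulVec, ← h2,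
      ← mulVec_mulVec, ← mulVec_mulVec, Matrix.dotProduct_mulVec u _ᵀ, vecMul_transpose]

variable [Finite F] (σ : RingAut F) (hj : ∀ x, σ x = x ↔ ∃ y, j y = x)

include hj

theorem gm_map (h : GL (Fin m ⊕ Fin m) F₀) : (Matrix.GeneralLinearGroup.map j h).1.map σ = (Matrix.GeneralLinearGroup.map j h).1 := by
  ext a b
  rw [Matrix.map_apply]
  exact (hj _).2 ⟨_, rfl⟩

/-- similitudes commuting with a field automorphism modulo scalars -/
theorem cent_GSp (hm : 1 ≤ m) {g : GL (Fin m ⊕ Fin m) F} (hg : g ∈ GSp m F)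
    (h : ∃ c : GL (Fin m ⊕ Fin m) F, IsScal c ∧ sm 1 σ * lin g = lin c * (lin g * sm 1 σ)) :
    ∃ (h : GSp m F₀) (c : Fˣ), g = scal c * Matrix.GeneralLinearGroup.map j h.1 := by
  have hne : Nonempty (Fin m ⊕ Fin m) := ⟨Sum.inl ⟨0, by omega⟩⟩
  obtain ⟨c, ⟨l, hl⟩, h⟩ := h
  rw [sm_comm_iff, hl, Matrix.smul_mul, Matrix.one_mul] at h
  obtain ⟨d, hd0, hd⟩ := fixed_up_to_scalar σ g h
  have h1 : (scal (Units.mk0 d hd0) * g : GL (Fin m ⊕ Fin m) F).1 = d • g.1 := by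
    rw [Units.val_mul, scal_coe, Matrix.smul_mul, Matrix.one_mul, Units.val_mk0]
  obtain ⟨k, hk⟩ := fixed_GL σ j hj (scal (Units.mk0 d hd0) * g) (by rw [h1, hd])
  have hk' : k ∈ GSp m F₀ := by
    rw [← map_mem_iff j hm, hk]
    exact mul_mem (scal_mem _) hg
  refine ⟨⟨k, hk'⟩, (Units.mk0 d hd0)⁻¹, ?_⟩
  rw [hk]
  apply Units.ext
  rw [Units.val_mul, h1, scal_coe, Matrix.smul_mul, Matrix.one_mul, smul_smul]
  simp [hd0]

/-- centralizer part of S2712 -/
theorem centralizer_field (hm : 2 ≤ m) {x α : MulAut (PSp m F)}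
    (hx : α * x * α⁻¹ = (setup (F := F) hm).Psi ⟨sm 1 σ, one_mem_Gam σ⟩) :
    Nonempty (↥(inndiagPSp m F ⊓ Subgroup.centralizer {x}) ≃* PGSp m F₀) := by
  rw [inndiag_eq' hm]
  refine (setup hm).centralizer_eq (hN hm) ((Matrix.GeneralLinearGroup.map j).comp (GSp m F₀).subtype)
    ((Geo.scalars (Fin m ⊕ Fin m) F₀).subgroupOf (GSp m F₀)) ?_ ?_ ?_ ?_ hx
  · intro h
    exact (map_mem_iff j (by omega) h.1).2 h.2
  · intro h
    have h1 := (sm_comm_iff σ (Matrix.GeneralLinearGroup.map j h.1) 1).2 (by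
      rw [gm_map j σ hj, Units.val_one, Matrix.one_mul])
    rw [map_one, one_mul] at h1
    exact h1
  · intro h
    rw [Subgroup.mem_subgroupOf, Geo.mem_scalars_iff]
    constructor
    · rintro ⟨c, hc⟩
      refine ⟨j c, ?_⟩
      change h.1.1.map j = _
      rw [hc]
      ext a b
      simp only [Matrix.map_apply, Matrix.smul_apply, smul_eq_mul, map_mul, Matrix.one_apply]
      split_ifs <;> simp
    · rintro ⟨c, hc⟩
      have hc' : h.1.1.map j = c • (1 : Matrix (Fin m ⊕ Fin m) (Fin m ⊕ Fin m) F) := hc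
      have h1 : ∀ a b, j (h.1.1 a b) = c * (1 : Matrix (Fin m ⊕ Fin m) (Fin m ⊕ Fin m) F) a b := fun a b => congrFun (congrFun hc' a) b
      let i0 : Fin m ⊕ Fin m := Sum.inl ⟨0, by omega⟩
      have h2 : h.1.1 = (h.1.1 i0 i0) • (1 : Matrix (Fin m ⊕ Fin m) (Fin m ⊕ Fin m) F₀) := by
        ext a b
        apply j.injective
        rw [h1, Matrix.smul_apply, smul_eq_mul, map_mul, h1, Matrix.one_apply_eq, mul_one, Matrix.one_apply, Matrix.one_apply]
        split_ifs <;> simp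
      have h3 : h.1.1 i0 i0 ≠ 0 := by
        intro h0
        rw [h0, zero_smul] at h2
        have h4 : h.1.1 * (h.1⁻¹).1 = 1 := h.1.mul_inv
        rw [h2, Matrix.zero_mul] at h4
        have := congrFun (congrFun h4 i0) i0
        rw [Matrix.one_apply_eq, Matrix.zero_apply] at this
        exact zero_ne_one this
      exact ⟨Units.mk0 _ h3, h2⟩
  · intro g hg h
    obtain ⟨k, c, hk⟩ := cent_GSp j σ hj (by omega) hg h
    exact ⟨k, scal c, scal_isScal c, hk⟩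

/-- splitting part of S2712 -/
theorem split_field [Finite F₀] (hm : 2 ≤ m) {x α : MulAut (PSp m F)}
    (hx : α * x * α⁻¹ = (setup (F := F) hm).Psi ⟨sm 1 σ, one_mem_Gam σ⟩) :
    splitClassCount (inndiagPSp m F) (Inn (PSp m F)) x = Nat.gcd 2 ((Nat.card F - 1) / (Nat.card F₀ - 1)) := by
  have hm1 : 1 ≤ m := by omega
  rw [inndiag_eq' hm]
  let S0 : Subgroup Fˣ := (Units.map (j : F₀ →* F)).range
  let D : GSp m F →* Fˣ ⧸ ((powMonoidHom 2 : Fˣ →* Fˣ).range ⊔ S0) := (QuotientGroup.mk' _).comp (mu hm1)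
  have hDiff : ∀ g : GSp m F, D g = 1 ↔ mu hm1 g ∈ (powMonoidHom 2 : Fˣ →* Fˣ).range ⊔ S0 := by
    intro g
    exact QuotientGroup.eq_one_iff _
  have hD : Function.Surjective D := by
    intro x
    obtain ⟨c, rfl⟩ := QuotientGroup.mk_surjective x
    obtain ⟨g, hg⟩ := mu_surj (F := F) hm1 c
    exact ⟨g, by change QuotientGroup.mk _ = _; rw [hg]⟩
  have hcard : Nat.card S0 = Nat.card F₀ - 1 := by
    have h1 : Nat.card S0 = Nat.card F₀ˣ :=
      (Nat.card_congr (MonoidHom.ofInjective (f := Units.map (j : F₀ →* F)) (Units.map_injective j.injective)).toEquiv).symm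
    rw [h1, Nat.card_units]
  have hmuJ : ∀ h : GSp m F₀, mu hm1 ⟨Matrix.GeneralLinearGroup.map j h.1, (map_mem_iff j hm1 h.1).2 h.2⟩ =
      Units.map (j : F₀ →* F) (mu hm1 h) := by
    intro h
    obtain ⟨u, v, huv⟩ := exists_B_eq_one (F := F₀) hm1
    have h1 := mu_spec hm1 h u v
    have h2 := mu_spec hm1 ⟨Matrix.GeneralLinearGroup.map j h.1, (map_mem_iff j hm1 h.1).2 h.2⟩ (fun i => j (u i)) (fun i => j (v i))
    rw [sympB_map', huv, map_one, mul_one] at h2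
    rw [huv, mul_one] at h1
    apply Units.ext
    rw [← h2]
    change sympB m F ((h.1.1.map j) *ᵥ _) ((h.1.1.map j) *ᵥ _) = j _
    rw [← map_mulVec'', ← map_mulVec'', sympB_map', h1]
  rw [(setup hm).split_card (hN hm) D hD ?_ hx]
  · have h1 := AutPSL.index_sup (C := Fˣ) 2 S0
    rw [hcard, Nat.card_units] at h1
    exact h1
  · intro g
    rw [hDiff]
    constructor
    · intro hg
      obtain ⟨a, ⟨a0, ha⟩, b, ⟨b0, rfl⟩, hab⟩ := Subgroup.mem_sup.1 hg
      obtain ⟨h0, hh0⟩ := mu_surj (F := F₀) hm1 b0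
      let h : GSp m F := ⟨Matrix.GeneralLinearGroup.map j h0.1, (map_mem_iff j hm1 h0.1).2 h0.2⟩
      have hmu : mu hm1 (g * h⁻¹) = a0 ^ 2 := by
        rw [map_mul, map_inv, hmuJ, hh0, ← hab, mul_inv_cancel_right, ← ha]
        rfl
      obtain ⟨c, s, hcs⟩ := (mu_sq_iff hm1 _).1 ⟨a0, hmu⟩
      refine ⟨s, h.1, h.2, ⟨1, ⟨1, by rw [one_smul, Units.val_one]⟩, ?_⟩, scal c, scal_isScal c, ?_⟩
      · exact (sm_comm_iff σ _ 1).2 (by rw [gm_map j σ hj, Units.val_one, Matrix.one_mul])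
      · rw [← hcs, Subgroup.coe_mul, Subgroup.coe_inv, inv_mul_cancel_right]
    · rintro ⟨s, h, hh, hc, c, hc', hg⟩
      have hne : Nonempty (Fin m ⊕ Fin m) := ⟨Sum.inl ⟨0, by omega⟩⟩
      obtain ⟨c', rfl⟩ := exists_scal_of hc'
      obtain ⟨k, d, hk⟩ := cent_GSp j σ hj hm1 hh hc
      have h1 : g = ⟨scal c', scal_mem c'⟩ * ⟨emb m F s, emb_mem s⟩ * (⟨scal d, scal_mem d⟩ *
          ⟨Matrix.GeneralLinearGroup.map j k.1, (map_mem_iff j hm1 k.1).2 k.2⟩) := by
        apply Subtype.ext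
        rw [hg, hk]
        rfl
      rw [h1, map_mul, map_mul, map_mul, mu_scal, mu_scal, (mu_eq_one_iff hm1 _).2 ⟨s, rfl⟩, mul_one, hmuJ]
      refine mul_mem (Subgroup.mem_sup_left ⟨c', rfl⟩) (mul_mem (Subgroup.mem_sup_left ⟨d, rfl⟩) (Subgroup.mem_sup_right ⟨_, rfl⟩))

end fixed

end CfsgLib.AutPSp
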