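import Cfsg.Agent.Lib.AutPO7
import Cfsg.Agent.Lib.AutPSp7

/-!
# Automorphisms of `PΩ(Q)`, part 8: matrices
-/

set_option autoImplicit false
set_option linter.unusedSimpArgs false
set_option linter.unusedSectionVars false

namespace CfsgLib.AutPO

open Module Matrix Cfsg CfsgLib.Quad CfsgLib.SemiAut

variable {F : Type*} [Field F] {ι : Type} [Fintype ι] [DecidableEq ι] {Q : QuadraticForm F (ι → F)}

local notation "β[" Q "]" => QuadraticMap.polarBilin Q

/-- the semilinear map `v ↦ g σ(v)` -/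
def sl (g : GL ι F) (σ : F ≃+* F) : (ι → F) ≃+ (ι → F) where
  toFun v := g.1 *ᵥ (fun i => σ (v i))
  invFun v := fun i => σ.symm (((g⁻¹).1 *ᵥ v) i)
  left_inv v := by
    ext i
    change σ.symm (((g⁻¹).1 *ᵥ (g.1 *ᵥ (fun i => σ (v i)))) i) = v i
    rw [mulVec_mulVec, Units.inv_mul, one_mulVec, RingEquiv.symm_apply_apply]
  right_inv v := by
    have : (fun i => σ (σ.symm (((g⁻¹).1 *ᵥ v) i))) = (g⁻¹).1 *ᵥ v := by
      ext i
      rw [RingEquiv.apply_symm_apply]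
    change g.1 *ᵥ (fun i => σ (σ.symm (((g⁻¹).1 *ᵥ v) i))) = v
    rw [this, mulVec_mulVec, Units.mul_inv, one_mulVec]
  map_add' x y := by
    rw [← mulVec_add]
    congr 1
    ext i
    simp

theorem sl_apply (g : GL ι F) (σ : F ≃+* F) (v : ι → F) : sl g σ v = g.1 *ᵥ (fun i => σ (v i)) := rfl

theorem SS_of_pair {g : GL ι F} {σ : F ≃+* F} (h : IsSemisimilarityPair (⇑Q) g σ) : ∃ c : Fˣ, SS Q σ (sl g σ) c := by
  obtain ⟨c, hc⟩ := h
  refine ⟨c, c.ne_zero, ?_, hc⟩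
  intro t x
  rw [sl_apply, sl_apply, ← mulVec_smul]
  congr 1
  ext i
  simp

theorem exists_pair {φ : F ≃+* F} {g : (ι → F) ≃+ (ι → F)} {r : F} (h : SS Q φ g r) :
    ∃ M : GL ι F, (∀ x, g x = sl M φ x) ∧ IsSemisimilarityPair (⇑Q) M φ := by
  obtain ⟨M, hM⟩ := CfsgLib.AutPSp.exists_matrix (φ : F →+* F) g.toAddMonoidHom h.smul
  have hM' : ∀ x, g x = M *ᵥ (fun i => φ (x i)) := hM
  have hinj : Function.Injective (fun v => M *ᵥ v) := by
    intro u v huv
    obtain ⟨u, rfl⟩ := CfsgLib.AutPSp.exists_pre φ u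
    obtain ⟨v, rfl⟩ := CfsgLib.AutPSp.exists_pre φ v
    change M *ᵥ _ = M *ᵥ _ at huv
    rw [← hM', ← hM'] at huv
    rw [g.injective huv]
  have hu : IsUnit M := Matrix.mulVec_injective_iff_isUnit.1 hinj
  obtain ⟨M, rfl⟩ := hu
  exact ⟨M, hM', Units.mk0 r h.r0, fun v => by rw [← hM']; exact h.q v⟩

/-- compatibility with entrywise maps -/
theorem mat_iff {g : GL ι F} {σ : F ≃+* F} {A B : Matrix ι ι F} :
    (B = g.1 * A.map σ * (g⁻¹).1) ↔ ∀ x, B *ᵥ (sl g σ x) = sl g σ (A *ᵥ x) := by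
  have h1 : ∀ w : ι → F, (A.map σ) *ᵥ (fun i => σ (w i)) = fun i => σ ((A *ᵥ w) i) :=
    fun w => (CfsgLib.AutPSp.map_mulVec' (σ : F →+* F) A w).symm
  constructor
  · rintro rfl x
    rw [sl_apply, sl_apply, ← h1, mulVec_mulVec, mulVec_mulVec, Matrix.mul_assoc, Units.inv_mul, Matrix.mul_one]
  · intro h
    apply CfsgLib.Symp.mulVec_injective_matrix
    intro x
    obtain ⟨x, rfl⟩ := (sl g σ).surjective x
    rw [h, sl_apply, sl_apply, ← h1, mulVec_mulVec, mulVec_mulVec, Matrix.mul_assoc, Units.inv_mul, Matrix.mul_one]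

section nd

variable [Finite F] (hQ : (β[Q]).Nondegenerate) (hV : 7 ≤ finrank F (ι → F))

/-- the Siegel group as the group `Ω` -/
noncomputable def JJ : Omega F ⇑Q ≃* eichG Q :=
  (commCongr (isometryGroupEquiv Q)).trans (MulEquiv.subgroupCongr (commutator_eq_eichG hQ hV))

theorem JJ_apply (s : Omega F ⇑Q) (x : ι → F) : (JJ hQ hV s).1.1 x = s.1.1.1 *ᵥ x :=
  isometryGroupEquiv_apply Q s.1 x

/-- on the projective groups -/
noncomputable def JB : POmega F ⇑Q ≃* eichG Q ⧸ Subgroup.center (eichG Q) := CfsgLib.Symp.quotCenterCongr (JJ hQ hV)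

theorem JB_mk (s : Omega F ⇑Q) : JB hQ hV (QuotientGroup.mk s) = QuotientGroup.mk (JJ hQ hV s) := rfl

include hQ hV in
/-- every automorphism is induced by a semisimilarity -/
theorem mainM (hH : 9 ≤ finrank F (ι → F) ∨ ∀ U : Submodule F (ι → F), (∀ x ∈ U, Q x = 0) → finrank F U ≠ 4)
    (β : MulAut (POmega F ⇑Q)) : ∃ (g : GL ι F) (σ : F ≃+* F), IsSemisimilarityPair (⇑Q) g σ ∧
      IsInducedBySemilinearPOmega (⇑Q) g σ β := by
  let α : MulAut (eichG Q ⧸ Subgroup.center (eichG Q)) := (JB hQ hV).symm.trans (β.trans (JB hQ hV))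
  obtain ⟨φ, g, r, hSS, hα⟩ := main hQ hV hH α
  obtain ⟨M, hM, hpair⟩ := exists_pair hSS
  refine ⟨M, φ, hpair, ?_⟩
  intro s s' hss
  have h1 := (mat_iff (A := s.1.1.1)).1 hss
  have h2 := hα (JJ hQ hV s) (JJ hQ hV s') (by
    intro x
    rw [JJ_apply, JJ_apply, hM, hM]
    exact h1 x)
  apply (JB hQ hV).injective
  rw [JB_mk, ← h2]
  change _ = JB hQ hV (β ((JB hQ hV).symm (QuotientGroup.mk (JJ hQ hV s))))
  rw [← JB_mk, MulEquiv.symm_apply_apply]

include hQ hV in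
theorem gamma_top (hH : 9 ≤ finrank F (ι → F) ∨ ∀ U : Submodule F (ι → F), (∀ x ∈ U, Q x = 0) → finrank F U ≠ 4) :
    gammaPOmega F ⇑Q = ⊤ := by
  rw [eq_top_iff]
  intro β _
  obtain ⟨g, σ, h1, h2⟩ := mainM hQ hV hH β
  exact Subgroup.subset_closure ⟨g, σ, h1, h2⟩

end nd

/-! ### The forms -/

/-- the odd form -/
noncomputable def QO (m : ℕ) (F : Type*) [Field F] : QuadraticForm F (Unit ⊕ (Fin m ⊕ Fin m) → F) :=
  (hypSum m (sqQ F)).comp (eOdd m F).toLinearMap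

theorem QO_coe (m : ℕ) : ⇑(QO m F) = quadFormOdd m F := funext fun v => eOdd_apply m v

theorem QO_nondegenerate (h2 : (2 : F) ≠ 0) (m : ℕ) : (β[QO m F]).Nondegenerate :=
  nondegenerate_congr (eOdd m F).symm (Q := hypSum m (sqQ F)) (fun u => by
    change hypSum m (sqQ F) ((eOdd m F) ((eOdd m F).symm u)) = _
    rw [LinearEquiv.apply_symm_apply]) (hypSum_nondegenerate m (sqQ_nondegenerate h2))

theorem finrank_QO (m : ℕ) : finrank F (Unit ⊕ (Fin m ⊕ Fin m) → F) = 2 * m + 1 := by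
  rw [Module.finrank_fintype_fun_eq_card, Fintype.card_sum, Fintype.card_sum, Fintype.card_fin, Fintype.card_unit]
  ring

theorem hH_odd (h2 : (2 : F) ≠ 0) (m : ℕ) (hm : 3 ≤ m) : 9 ≤ finrank F (Unit ⊕ (Fin m ⊕ Fin m) → F) ∨
    ∀ U : Submodule F (Unit ⊕ (Fin m ⊕ Fin m) → F), (∀ x ∈ U, QO m F x = 0) → finrank F U ≠ 4 := by
  rw [finrank_QO]
  by_cases h4 : 4 ≤ m
  · left
    omega
  · right
    intro U hU h
    have h1 := two_mul_finrank_singular_le (QO_nondegenerate h2 m) hU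
    rw [finrank_QO] at h1
    omega

theorem QP_coe (m : ℕ) : ⇑(QP m F) = quadFormPlus m F := funext fun v => QP_apply m v

/-- the minus form -/
noncomputable def QM (m : ℕ) {F : Type*} [Field F] (a b : F) : QuadraticForm F ((Fin m ⊕ Fin m) ⊕ Fin 2 → F) :=
  (hypSum m (binQ a b)).comp (eMinus m a b).toLinearMap

theorem QM_coe (m : ℕ) (a b : F) : ⇑(QM m a b) = quadFormMinus m F a b := funext fun v => eMinus_apply m a b v

theorem QM_nondegenerate [Finite F] (m : ℕ) {a b : F} (hab : Aniso a b) : (β[QM m a b]).Nondegenerate :=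
  nondegenerate_congr (eMinus m a b).symm (Q := hypSum m (binQ a b)) (fun u => by
    change hypSum m (binQ a b) ((eMinus m a b) ((eMinus m a b).symm u)) = _
    rw [LinearEquiv.apply_symm_apply]) (hypSum_nondegenerate m (binQ_nondegenerate hab))

theorem finrank_QM (m : ℕ) : finrank F ((Fin m ⊕ Fin m) ⊕ Fin 2 → F) = 2 * m + 2 := by
  rw [Module.finrank_fintype_fun_eq_card, Fintype.card_sum, Fintype.card_sum, Fintype.card_fin, Fintype.card_fin]
  ring

/-- the Witt index of the minus form -/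
theorem singular_le_QM [Finite F] (m : ℕ) {a b : F} (hab : Aniso a b) {U : Submodule F ((Fin m ⊕ Fin m) ⊕ Fin 2 → F)}
    (hU : ∀ x ∈ U, QM m a b x = 0) : finrank F U ≤ m := by
  have h1 : finrank F (suppS F (fun i : (Fin m ⊕ Fin m) ⊕ Fin 2 => ∃ j, i = Sum.inl (Sum.inl j))) = m := by
    rw [finrank_suppS]
    have e : {i : (Fin m ⊕ Fin m) ⊕ Fin 2 // ∃ j, i = Sum.inl (Sum.inl j)} ≃ Fin m :=
      { toFun := fun i => i.2.choose
        invFun := fun j => ⟨Sum.inl (Sum.inl j), j, rfl⟩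
        left_inv := fun i => Subtype.ext i.2.choose_spec.symm
        right_inv := fun j => by
          have := (⟨j, rfl⟩ : ∃ k, (Sum.inl (Sum.inl j) : (Fin m ⊕ Fin m) ⊕ Fin 2) = Sum.inl (Sum.inl k)).choose_spec
          exact (Sum.inl_injective (Sum.inl_injective this)).symm }
    rw [Nat.card_congr e, Nat.card_fin]
  have h0 : ∀ w ∈ suppS F (fun i : (Fin m ⊕ Fin m) ⊕ Fin 2 => ∃ j, i = Sum.inl (Sum.inl j)), QM m a b w = 0 := by
    intro w hw
    rw [QM_coe, quadFormMinus]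
    have e1 : ∀ i, w (Sum.inl (Sum.inr i)) = 0 := fun i => mem_suppS.1 hw _ (by rintro ⟨j, hj⟩; cases hj)
    have e2 : ∀ i, w (Sum.inr i) = 0 := fun i => mem_suppS.1 hw _ (by rintro ⟨j, hj⟩; cases hj)
    simp [e1, e2]
  refine (finrank_eq_of_maximal (QM_nondegenerate m hab) h0 hU ?_).trans h1.le
  intro W hW hWs
  apply le_antisymm _ hW
  intro w hw
  rw [mem_suppS]
  have hsingle : ∀ i : Fin m, (Pi.single (Sum.inl (Sum.inl i)) 1 : (Fin m ⊕ Fin m) ⊕ Fin 2 → F) ∈ W := by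
    intro i
    apply hW
    rw [mem_suppS]
    intro j hj
    rw [Pi.single_apply, if_neg]
    rintro rfl
    exact hj ⟨i, rfl⟩
  have e1 : ∀ i, w (Sum.inl (Sum.inr i)) = 0 := by
    intro i
    have h2 := hWs (w + Pi.single (Sum.inl (Sum.inl i)) 1) (W.add_mem hw (hsingle i))
    have h3 := hWs w hw
    rw [QM_coe, quadFormMinus] at h2 h3
    have e3 : ∑ j, (w + Pi.single (Sum.inl (Sum.inl i)) 1 : (Fin m ⊕ Fin m) ⊕ Fin 2 → F) (Sum.inl (Sum.inl j)) *
        (w + Pi.single (Sum.inl (Sum.inl i)) 1 : (Fin m ⊕ Fin m) ⊕ Fin 2 → F) (Sum.inl (Sum.inr j)) =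
        (∑ j, w (Sum.inl (Sum.inl j)) * w (Sum.inl (Sum.inr j))) + w (Sum.inl (Sum.inr i)) := by
      simp [add_mul, Finset.sum_add_distrib, Pi.single_apply]
    rw [e3] at h2
    simp only [Pi.add_apply, Pi.single_apply, reduceCtorEq, if_false, add_zero] at h2
    linear_combination h2 - h3
  have h3 := hWs w hw
  rw [QM_coe, quadFormMinus] at h3
  simp only [e1, mul_zero, Finset.sum_const_zero, zero_add] at h3
  obtain ⟨e2, e3⟩ := hab _ _ h3
  intro i hi
  rcases i with (i | i) | i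
  · exact absurd ⟨i, rfl⟩ hi
  · exact e1 i
  · fin_cases i
    · exact e2
    · exact e3

theorem hH_minus [Finite F] (m : ℕ) (hm : 3 ≤ m) {a b : F} (hab : Aniso a b) :
    9 ≤ finrank F ((Fin m ⊕ Fin m) ⊕ Fin 2 → F) ∨
    ∀ U : Submodule F ((Fin m ⊕ Fin m) ⊕ Fin 2 → F), (∀ x ∈ U, QM m a b x = 0) → finrank F U ≠ 4 := by
  rw [finrank_QM]
  by_cases h4 : 4 ≤ m
  · left
    omega
  · right
    intro U hU h
    have h1 := singular_le_QM m hab hU
    omega

end CfsgLib.AutPO
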