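import Cfsg.Agent.Lib.Aso3
import Cfsg.Agent.Lib.AutPO8

set_option autoImplicit false
set_option maxHeartbeats 400000
set_option linter.unusedSectionVars false

/-! Maximal subgroups of orthogonal groups in odd prime dimension. -/
namespace CfsgLib.Aso4

open Cfsg Cfsg.Geo Module CfsgLib.GeoBase CfsgLib.Asch1 CfsgLib.Asch2 CfsgLib.Asch3 CfsgLib.Asch4 CfsgLib.Asch5 CfsgLib.Asch6 CfsgLib.Asch7 CfsgLib.Asch8 CfsgLib.Asch9 CfsgLib.Asch10 CfsgLib.Asch11 CfsgLib.Asch12 CfsgLib.Csim1 CfsgLib.Csim3 CfsgLib.Asu1 CfsgLib.Asu2 CfsgLib.Asu3 CfsgLib.Asu4 CfsgLib.Aso1 CfsgLib.Aso2 CfsgLib.Aso3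
open CfsgLib.Mob16 CfsgLib.Mob24 CfsgLib.Mob35
open CfsgLib.Herm (HForm)
open CfsgLib.Quad (O O_ext eichO eichO_apply eichG exists_singular_polar_ne two_mul_finrank_singular_le polar_comm polar_self eichG_le_commutator eichO_mem)

local notation "β[" Q "]" => QuadraticMap.polarBilin Q

universe u v

variable {ι : Type} [Fintype ι] [DecidableEq ι] {F : Type u} [Field F] {Q : QuadraticForm F (ι → F)}

theorem so_cases [Fintype F] (hQ : (β[Q]).Nondegenerate) (h2 : (2 : F) ≠ 0) (hst : StdRat Q) (hp : (Fintype.card ι).Prime) (hodd : Odd (Fintype.card ι)) (h5 : 5 ≤ Fintype.card ι)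
    {H : Subgroup (Matrix.GeneralLinearGroup ι F)} (hH : IsMaximalIn (omegaGL ⇑Q) H) :
    (∃ W : Submodule F (ι → F), W ≠ ⊥ ∧ IsTotallySingularQuad ⇑Q W ∧ H = subspaceStabilizer W ⊓ omegaGL ⇑Q) ∨
    (∃ W : Submodule F (ι → F), W ≠ ⊥ ∧ Even (finrank F W) ∧ IsNondegenerateOn (QuadraticMap.polar ⇑Q) W ∧
      ¬ (Fintype.card F = 3 ∧ finrank F W = 2 ∧ IsPlusTypeOn ⇑Q W) ∧ H = subspaceStabilizer W ⊓ omegaGL ⇑Q) ∨
    ((Fintype.card F).Prime ∧ ∃ D : Fin (Fintype.card ι) → Submodule F (ι → F), IsOrthogonalMDecomposition ⇑Q 1 D ∧ H = decompositionStabilizer D ⊓ omegaGL ⇑Q) ∨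
    (∃ (F₀ : Subfield F) (r : ℕ) (P : Matrix.GeneralLinearGroup ι F), r.Prime ∧ Fintype.card F = Nat.card F₀ ^ r ∧
      IsQuadFormRationalStructure ⇑Q F₀ P ∧ H = subfieldSubgroup F₀ P ⊓ omegaGL ⇑Q) ∨
    InOrthogonalResidualClass H := by
  haveI : Nonempty ι := Fintype.card_pos_iff.1 hp.pos
  have hHU : H ≤ IQ Q := hH.1.le.trans om_le
  by_cases hirr : Irr H
  swap
  · unfold Irr at hirr
    push Not at hirr
    obtain ⟨W, hW, hW0, hW1⟩ := hirr
    rcases red_o hQ h2 hodd (by omega) hH hW hW0 hW1 with h1 | h1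
    · exact Or.inl h1
    · exact Or.inr (Or.inl h1)
  right; right
  by_cases hdec : ∃ D : Fin (Fintype.card ι) → Submodule F (ι → F), IsOrthogonalMDecomposition ⇑Q 1 D ∧ H ≤ decompositionStabilizer D
  · obtain ⟨D, hD, hHD⟩ := hdec
    by_cases hpr : (Fintype.card F).Prime
    · left
      exact ⟨hpr, D, hD, max_eq hH hHD (not_decomp_o hQ h2 h5 hD)⟩
    · right; left
      exact decomp_o hQ h2 hodd h5 hst hpr hH hD hHD
  right
  have hall : ∀ M, NI M H → ¬ M ≤ scalars ι F → ActsAbsolutelyIrreducibly (matrixSet M) := by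
    intro M hM hMs
    rcases cliff_d hp hirr hM with h1 | ⟨w, hw, χ, hχ⟩
    · exact field_o hQ h2 hp hodd h1 hM (hM.1.trans hHU) hMs
    · rcases lines_o hQ h2 hp hodd hirr hM hHU hw hχ with h3 | h3
      · exact absurd h3 hMs
      · exact absurd h3 hdec
  obtain ⟨N, hNI, hns, hmin⟩ : ∃ N, NI N H ∧ ¬ N ≤ scalars ι F ∧ ∀ M, NI M H → M ≤ N → ¬ M ≤ scalars ι F → M = N := by
    classical
    haveI : Finite (Matrix.GeneralLinearGroup ι F) := inferInstance
    have hex : ∃ c, ∃ N, NI N H ∧ ¬ N ≤ scalars ι F ∧ Nat.card N = c := ⟨_, H, NI.refl H, not_scalars_of_irr hp hirr, rfl⟩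
    obtain ⟨N, h1, h2, h3⟩ := Nat.find_spec hex
    refine ⟨N, h1, h2, fun M hM hMN hMs => ?_⟩
    apply Subgroup.eq_of_le_of_card_ge hMN
    rw [h3]
    exact Nat.find_min' hex ⟨M, hM, hMs, rfl⟩
  have habs := hall N hNI hns
  have hNU : N ≤ IQ Q := hNI.1.trans hHU
  by_cases hsub : ∃ F₀ : Subfield F, F₀ ≠ ⊤ ∧ RealisableOver F₀ (matrixSet N)
  · left
    obtain ⟨F₀, hF, hr⟩ := hsub
    exact subfield_o hQ h2 hodd h5 hst hNI habs hH hF hr
  · right
    have hnr : ∀ F₀ : Subfield F, F₀ ≠ ⊤ → ¬ RealisableOver F₀ (matrixSet N) := fun F₀ hF hr => hsub ⟨F₀, hF, hr⟩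
    by_cases hcomm : ⁅N, N⁆ ≤ scalars ι F
    · exfalso
      obtain ⟨a, b, ζ, hx⟩ := exists_XS hp hodd hNI hns hmin habs hcomm
      have h3 := xs_prim hp hx
      have h4 := mem_IQ.1 (hNU (xs_sc_mem hx))
      have h6 : (ζ : F) ^ 2 = 1 := by
        obtain ⟨v, hv⟩ : ∃ v : ι → F, Q v ≠ 0 := by
          by_contra hcon
          push Not at hcon
          obtain ⟨x, hx⟩ := exists_ne (0 : ι → F)
          apply hx
          apply hQ.1
          intro y
          have h7 := hcon (x + y)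
          rw [qadd, hcon, hcon, zero_add, zero_add] at h7
          exact h7
        have h7 := h4 v
        rw [sc_mulVec, qsmul] at h7
        apply mul_right_cancel₀ hv
        rw [h7, one_mul]
      have h7 := (h3.pow_eq_one_iff_dvd 2).1 h6
      have h8 := Nat.le_of_dvd two_pos h7
      omega
    · have hperf : ⁅N, N⁆ = N := hmin _ (ni_comm hNI) (comm_le_self N) hcomm
      have hpc := preCore_of hp hNI hns hmin habs hperf
      refine ⟨N, hpc.core hnr, ?_⟩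
      rintro ⟨σ, f, hf, hfix⟩
      apply hsub
      obtain ⟨q, hq⟩ := qconj_of hf
      have hnd : IsNondegenerateForm (QuadraticMap.polar ⇑Q) := by
        intro v hv
        have h3 : ∃ x, β[Q] v x ≠ 0 := by
          by_contra hcon
          push Not at hcon
          exact hv (hQ.1 v hcon)
        obtain ⟨x, hx⟩ := h3
        refine ⟨⟨x, ?_⟩, ⟨x, hx⟩⟩
        change β[Q] x v ≠ 0
        rw [polar_comm]
        exact hx
      refine realisable_of_forms hq (mkB_form hf) (N := N) ?_ habs (b := QuadraticMap.polar ⇑Q) ?_ hnd (fun g hg x y => q_polar (mem_IQ.1 (hNU hg)) x y)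
      · intro g hg x y
        rw [mkB_apply, mkB_apply]
        exact hfix _ ⟨g, hg, rfl⟩ y x
      · refine ⟨fun x y v => ?_, fun c x v => ?_, fun v x y => ?_, fun c v x => ?_⟩
        · change β[Q] (x + y) v = β[Q] x v + β[Q] y v
          rw [map_add, LinearMap.add_apply]
        · change β[Q] (c • x) v = c * β[Q] x v
          rw [LinearMap.map_smul, LinearMap.smul_apply, smul_eq_mul]
        · change β[Q] v (x + y) = β[Q] v x + β[Q] v y
          rw [map_add]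
        · change β[Q] v (c • x) = c * β[Q] v x
          rw [map_smul, smul_eq_mul]

theorem so_cases' [Fintype F] {n : ℕ} (hn : Fintype.card ι = n) (hQ : (β[Q]).Nondegenerate) (h2 : (2 : F) ≠ 0) (hst : StdRat Q) (hp : n.Prime) (hodd : Odd n) (h5 : 5 ≤ n)
    {H : Subgroup (Matrix.GeneralLinearGroup ι F)} (hH : IsMaximalIn (omegaGL ⇑Q) H) :
    (∃ W : Submodule F (ι → F), W ≠ ⊥ ∧ IsTotallySingularQuad ⇑Q W ∧ H = subspaceStabilizer W ⊓ omegaGL ⇑Q) ∨
    (∃ W : Submodule F (ι → F), W ≠ ⊥ ∧ Even (finrank F W) ∧ IsNondegenerateOn (QuadraticMap.polar ⇑Q) W ∧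
      ¬ (Fintype.card F = 3 ∧ finrank F W = 2 ∧ IsPlusTypeOn ⇑Q W) ∧ H = subspaceStabilizer W ⊓ omegaGL ⇑Q) ∨
    ((Fintype.card F).Prime ∧ ∃ D : Fin n → Submodule F (ι → F), IsOrthogonalMDecomposition ⇑Q 1 D ∧ H = decompositionStabilizer D ⊓ omegaGL ⇑Q) ∨
    (∃ (F₀ : Subfield F) (r : ℕ) (P : Matrix.GeneralLinearGroup ι F), r.Prime ∧ Fintype.card F = Nat.card F₀ ^ r ∧
      IsQuadFormRationalStructure ⇑Q F₀ P ∧ H = subfieldSubgroup F₀ P ⊓ omegaGL ⇑Q) ∨
    InOrthogonalResidualClass H := by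
  subst hn
  exact so_cases hQ h2 hst hp hodd h5 hH

open CfsgLib.AutPO (QO QO_coe) in
theorem stdRat_QO (m : ℕ) : StdRat (QO m F) := by
  intro F₁ i j
  have key : ∀ v : Unit ⊕ (Fin m ⊕ Fin m) → F, (∀ i, v i ∈ F₁) → QO m F v ∈ F₁ := by
    intro v hv
    rw [QO_coe]
    unfold quadFormOdd
    apply F₁.add_mem (F₁.pow_mem (hv _) _)
    apply F₁.sum_mem
    intro i _
    exact F₁.mul_mem (hv _) (hv _)
  have hs : ∀ i k, (Pi.single i (1 : F) : Unit ⊕ (Fin m ⊕ Fin m) → F) k ∈ F₁ := by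
    intro i k
    rw [Pi.single_apply]
    split_ifs
    · exact F₁.one_mem
    · exact F₁.zero_mem
  have h3 := key (Pi.single i 1 + Pi.single j 1) (fun k => F₁.add_mem (hs i k) (hs j k))
  rw [qadd] at h3
  have h4 := F₁.sub_mem h3 (F₁.add_mem (key _ (hs i)) (key _ (hs j)))
  rwa [add_sub_cancel_left] at h4

theorem two_ne_of_odd [Fintype F] (h : Odd (Fintype.card F)) : (2 : F) ≠ 0 := by
  intro h0
  have h1 : ringChar F = 2 := CharP.ringChar_of_prime_eq_zero Nat.prime_two (by exact_mod_cast h0)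
  have h3 := FiniteField.even_card_of_char_two h1
  rw [Nat.odd_iff] at h
  omega

end CfsgLib.Aso4
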