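import Cfsg.Agent.Lib.Csim3
import Cfsg.Agent.Lib.Asch12

set_option autoImplicit false
set_option maxHeartbeats 400000

/-! Subgroups of unitary groups in odd prime dimension: reducible, monomial and field cases. -/
namespace CfsgLib.Asu1

open Cfsg Cfsg.Geo Module CfsgLib.GeoBase CfsgLib.Asch1 CfsgLib.Asch2 CfsgLib.Asch3 CfsgLib.Asch4 CfsgLib.Herm CfsgLib.Csim1 CfsgLib.Csim3

universe u v

variable {ι : Type} [Fintype ι] [DecidableEq ι] {F : Type u} [Field F]

/-- the line case: scalar or a decomposition into lines -/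
theorem lines' (hp : (Fintype.card ι).Prime) {N H : Subgroup (Matrix.GeneralLinearGroup ι F)} (hirr : Irr H) (hN : NI N H)
    {w : ι → F} (hw : w ≠ 0) {χ₀ : Matrix.GeneralLinearGroup ι F → F} (hχ₀ : ∀ x ∈ N, Matrix.mulVec (x : Matrix ι ι F) w = χ₀ x • w) :
    N ≤ scalars ι F ∨ ∃ (D : Fin (Fintype.card ι) → Submodule F (ι → F)) (χ : Fin (Fintype.card ι) → N → F), IsMDecomposition 1 D ∧ H ≤ decompositionStabilizer D ∧
      Function.Injective χ ∧ ∀ i, D i = Ws N (χ i) := by
  classical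
  let χ : N → F := fun x => χ₀ x
  have hχ : w ∈ Ws N χ := mem_Ws.2 fun x => hχ₀ x x.2
  have hχb : Ws N χ ≠ ⊥ := by
    intro h
    rw [h, Submodule.mem_bot] at hχ
    exact hw hχ
  have ht : ⨆ ψ : N → F, Ws N ψ = ⊤ := by
    apply sum_translates hirr hχb
    intro h hh
    rw [mp_Ws hN ⟨h, hh⟩ χ]
    exact le_iSup (Ws N) _
  have hind := indep_Ws ht
  -- every non-zero weight space is a translate
  have htr : ∀ ψ : N → F, Ws N ψ ≠ ⊥ → ∃ h : H, tw hN h χ = ψ := by
    intro ψ hψ
    by_contra hne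
    push Not at hne
    apply hψ
    have h1 : ⨆ (φ : N → F) (_ : φ ≠ ψ), Ws N φ = ⊤ := by
      apply sum_translates hirr hχb
      intro h hh
      rw [mp_Ws hN ⟨h, hh⟩ χ]
      exact le_iSup₂_of_le (tw hN ⟨h, hh⟩ χ) (hne _) le_rfl
    have h2 := hind ψ
    rw [h1] at h2
    exact disjoint_top.1 h2
  have hfr : ∀ ψ : N → F, Ws N ψ ≠ ⊥ → finrank F (Ws N ψ) = finrank F (Ws N χ) := by
    intro ψ hψ
    obtain ⟨h, rfl⟩ := htr ψ hψ
    rw [← mp_Ws hN h χ, finrank_mp]
  -- the finite index set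
  haveI : Fintype {ψ : N → F // Ws N ψ ≠ ⊥} := hind.fintypeNeBotOfFiniteDimensional
  let E : {ψ : N → F // Ws N ψ ≠ ⊥} → Submodule F (ι → F) := fun ψ => Ws N ψ
  have hEi : iSupIndep E := hind.comp Subtype.val_injective
  have hEt : iSup E = ⊤ := by
    rw [eq_top_iff, ← ht]
    apply iSup_le
    intro ψ
    by_cases h : Ws N ψ = ⊥
    · rw [h]; exact bot_le
    · exact le_iSup E ⟨ψ, h⟩
  have hint : DirectSum.IsInternal E := DirectSum.isInternal_submodule_of_iSupIndep_of_iSup_eq_top hEi hEt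
  have hcard : Fintype.card {ψ : N → F // Ws N ψ ≠ ⊥} * finrank F (Ws N χ) = Fintype.card ι := by
    have h1 := LinearEquiv.finrank_eq (LinearEquiv.ofBijective (DirectSum.coeLinearMap E) hint)
    rw [Module.finrank_directSum, finrank_fintype_fun_eq_card] at h1
    rw [← h1, Finset.sum_congr rfl (fun ψ _ => hfr ψ.1 ψ.2), Finset.sum_const, Finset.card_univ, smul_eq_mul]
  have hdvd : finrank F (Ws N χ) ∣ Fintype.card ι := ⟨_, by rw [mul_comm]; exact hcard.symm⟩
  rcases (Nat.dvd_prime hp).1 hdvd with h1 | h1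
  · right
    rw [h1, mul_one] at hcard
    let e : Fin (Fintype.card ι) ≃ {ψ : N → F // Ws N ψ ≠ ⊥} := (finCongr hcard.symm).trans (Fintype.equivFin _).symm
    refine ⟨fun i => E (e i), fun i => (e i).1, ⟨hp.two_le, Nat.one_pos, fun i => ?_, hEi.comp e.injective, ?_⟩, ?_, fun i j hij => e.injective (Subtype.ext hij), fun i => rfl⟩
    · rw [← h1]
      exact hfr _ (e i).2
    · rw [e.iSup_comp (g := E)]
      exact hEt
    · intro h hh
      have hne : ∀ (g : H) (ψ : {ψ : N → F // Ws N ψ ≠ ⊥}), Ws N (tw hN g ψ) ≠ ⊥ := by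
        intro g ψ h0
        rw [← mp_Ws hN g ψ.1] at h0
        apply ψ.2
        rw [← Submodule.finrank_eq_zero, ← finrank_mp (g : Matrix.GeneralLinearGroup ι F), h0, finrank_bot]
      let s : {ψ : N → F // Ws N ψ ≠ ⊥} ≃ {ψ : N → F // Ws N ψ ≠ ⊥} :=
        { toFun := fun ψ => ⟨tw hN ⟨h, hh⟩ ψ, hne _ ψ⟩
          invFun := fun ψ => ⟨tw hN ⟨h, hh⟩⁻¹ ψ, hne _ ψ⟩
          left_inv := fun ψ => Subtype.ext (tw_inv hN _ _)
          right_inv := fun ψ => Subtype.ext (tw_inv' hN _ _) }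
      refine ⟨(e.trans s).trans e.symm, fun i => ?_⟩
      change mp h (Ws N (e i)) = E (e (e.symm (s (e i))))
      rw [Equiv.apply_symm_apply]
      exact mp_Ws hN ⟨h, hh⟩ _
  · left
    have htop : Ws N χ = ⊤ := Submodule.eq_top_of_finrank_eq (by rw [h1, finrank_fintype_fun_eq_card])
    intro x hx
    rw [mem_scalars_iff]
    have h2 : ∀ v : ι → F, Matrix.mulVec (x : Matrix ι ι F) v = χ ⟨x, hx⟩ • v := by
      intro v
      have : v ∈ Ws N χ := by rw [htop]; trivial
      exact mem_Ws.1 this ⟨x, hx⟩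
    have h0 : χ ⟨x, hx⟩ ≠ 0 := by
      intro h0
      have h3 := h2 w
      rw [h0, zero_smul, ← Matrix.mulVec_zero (x : Matrix ι ι F)] at h3
      exact hw (mulVec_injective x h3)
    refine ⟨Units.mk0 _ h0, ?_⟩
    apply Matrix.toLin'.injective
    apply LinearMap.ext
    intro v
    rw [Matrix.toLin'_apply, h2, Matrix.toLin'_apply, Matrix.smul_mulVec, Matrix.one_mulVec]
    rfl


theorem field_case' [Finite F] (hp : (Fintype.card ι).Prime) {N H : Subgroup (Matrix.GeneralLinearGroup ι F)} (hN : Irr N) (hNI : NI N H) :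
    ActsAbsolutelyIrreducibly (matrixSet N) ∨
      (IsFieldSubalgebra (Fintype.card ι) (Cn N) ∧ H ≤ subalgebraNormalizer (Cn N)) := by
  haveI : Nonempty ι := Fintype.card_pos_iff.1 hp.pos
  rcases (Nat.dvd_prime hp).1 (Cn_dvd hN) with h | h
  · left
    refine ⟨irr_iff.2 hN, fun M hM => ?_⟩
    have hM' : M ∈ Cn N := mem_Cn.2 fun x hx => (hM _ ⟨x, hx, rfl⟩).symm
    obtain ⟨c, hc⟩ := (finrank_eq_one_iff_of_nonzero' (1 : Cn N) one_ne_zero).1 h ⟨M, hM'⟩
    exact ⟨c, (congrArg Subtype.val hc).symm⟩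
  · right
    refine ⟨⟨fun x hx y hy => Cn_comm hN hx hy, fun x hx hx0 => ?_, h⟩, ?_⟩
    · have h1 := Cn_unit hN hx hx0
      exact ⟨x⁻¹, Cn_inv_mem hx h1, Matrix.mul_nonsing_inv _ ((Matrix.isUnit_iff_isUnit_det _).1 h1)⟩
    · have key : ∀ g ∈ H, ∀ k ∈ Cn N, (g : Matrix ι ι F) * k * ((g⁻¹ : Matrix.GeneralLinearGroup ι F) : Matrix ι ι F) ∈ Cn N := by
        intro g hg k hk
        rw [mem_Cn] at hk ⊢
        intro x hx
        have h1 : g⁻¹ * x * g ∈ N := by
          have := hNI.2 g⁻¹ (H.inv_mem hg) x hx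
          rwa [inv_inv] at this
        have h2 := hk _ h1
        rw [Units.val_mul, Units.val_mul] at h2
        have e1 : (g : Matrix ι ι F) * ((g⁻¹ : Matrix.GeneralLinearGroup ι F) : Matrix ι ι F) = 1 := by rw [← Units.val_mul, mul_inv_cancel, Units.val_one]
        calc (x : Matrix ι ι F) * (g * k * ((g⁻¹ : Matrix.GeneralLinearGroup ι F) : Matrix ι ι F))
            = (g * ((g⁻¹ : Matrix.GeneralLinearGroup ι F) : Matrix ι ι F)) * x * (g * k * ((g⁻¹ : Matrix.GeneralLinearGroup ι F) : Matrix ι ι F)) := by rw [e1, one_mul]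
          _ = g * ((((g⁻¹ : Matrix.GeneralLinearGroup ι F) : Matrix ι ι F) * x * g) * k) * ((g⁻¹ : Matrix.GeneralLinearGroup ι F) : Matrix ι ι F) := by simp only [mul_assoc]
          _ = g * (k * (((g⁻¹ : Matrix.GeneralLinearGroup ι F) : Matrix ι ι F) * x * g)) * ((g⁻¹ : Matrix.GeneralLinearGroup ι F) : Matrix ι ι F) := by rw [h2]
          _ = g * k * ((g⁻¹ : Matrix.GeneralLinearGroup ι F) : Matrix ι ι F) * x * (g * ((g⁻¹ : Matrix.GeneralLinearGroup ι F) : Matrix ι ι F)) := by simp only [mul_assoc]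
          _ = _ := by rw [e1, mul_one]
      intro g hg k
      refine ⟨key g hg k, fun hk => ?_⟩
      have h1 := key g⁻¹ (H.inv_mem hg) _ hk
      rw [inv_inv] at h1
      have e1 : ((g⁻¹ : Matrix.GeneralLinearGroup ι F) : Matrix ι ι F) * g = 1 := by rw [← Units.val_mul, inv_mul_cancel, Units.val_one]
      have e2 : ((g⁻¹ : Matrix.GeneralLinearGroup ι F) : Matrix ι ι F) * ((g : Matrix ι ι F) * k * ((g⁻¹ : Matrix.GeneralLinearGroup ι F) : Matrix ι ι F)) * g = k := by
        rw [← mul_assoc, ← mul_assoc, e1, one_mul, mul_assoc, e1, mul_one]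
      rwa [e2] at h1


section
variable {σ : F →+* F} {q : ℕ}

/-- the isometry group -/
def UB (B : (ι → F) →ₛₗ[σ] (ι → F) →ₗ[F] F) : Subgroup (Matrix.GeneralLinearGroup ι F) where
  carrier := {g | ∀ x y, B (Matrix.mulVec (g : Matrix ι ι F) x) (Matrix.mulVec (g : Matrix ι ι F) y) = B x y}
  mul_mem' := fun {a b} ha hb x y => by rw [mulVec_mul, mulVec_mul, ha, hb]
  one_mem' := fun x y => by rw [mulVec_one, mulVec_one]
  inv_mem' := fun {a} ha x y => by
    have := ha (Matrix.mulVec ((a⁻¹ : Matrix.GeneralLinearGroup ι F) : Matrix ι ι F) x) (Matrix.mulVec ((a⁻¹ : Matrix.GeneralLinearGroup ι F) : Matrix ι ι F) y)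
    rw [mulVec_inv, mulVec_inv] at this
    exact this.symm

/-- the form with exchanged arguments -/
def fB (B : (ι → F) →ₛₗ[σ] (ι → F) →ₗ[F] F) : (ι → F) → (ι → F) → F := fun u v => B v u

/-- the special isometry group -/
def GB (B : (ι → F) →ₛₗ[σ] (ι → F) →ₗ[F] F) : Subgroup (Matrix.GeneralLinearGroup ι F) := UB B ⊓ specialLinear ι F

theorem max_eq {G H M : Subgroup (Matrix.GeneralLinearGroup ι F)} (hH : IsMaximalIn G H) (hM : H ≤ M)
    (hne : ¬ G ≤ M) : H = M ⊓ G := by
  rcases hH.2 (M ⊓ G) (le_inf hM hH.1.le) inf_le_right with h | h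
  · exact h.symm
  · exact absurd (h ▸ inf_le_left) hne

variable {B : (ι → F) →ₛₗ[σ] (ι → F) →ₗ[F] F} (hq : QConj σ q) (h : HForm B)

include hq h in
theorem ht_G : HT B (GB B) := by
  intro u hu b hb
  have h0 : (b • B u) u = 0 := by rw [LinearMap.smul_apply, hu, smul_zero]
  refine ⟨h0, fun x y => ?_, tv_mem_sl _ _ h0⟩
  rw [tv_apply, tv_apply]
  rw [LinearMap.smul_apply, LinearMap.smul_apply, map_add_left, map_add_right, map_add_right, map_smul_left, map_smul_left, map_smul_right, map_smul_right, hu, smul_eq_mul, smul_eq_mul, map_mul, h.symm]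
  linear_combination (B x u * B u y) * hb

include h in
theorem nd_of_disjoint {W : Submodule F (ι → F)} (hd : W ⊓ perp B W = ⊥) : IsNondegenerateOn (fB B) W := by
  intro w hw hw0
  have h1 : ∃ x ∈ W, B x w ≠ 0 := by
    by_contra hne
    push Not at hne
    apply hw0
    rw [← Submodule.mem_bot F, ← hd]
    exact ⟨hw, fun x hx => hne x hx⟩
  obtain ⟨x, hx, hxw⟩ := h1
  exact ⟨⟨x, hx, fun h2 => hxw (h.eq_zero_comm h2)⟩, ⟨x, hx, hxw⟩⟩

include hq h in
theorem red_case [Finite F] (hodd : Odd (Fintype.card ι)) (h2 : 2 ≤ Fintype.card ι) {H : Subgroup (Matrix.GeneralLinearGroup ι F)} (hH : IsMaximalIn (GB B) H)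
    {W : Submodule F (ι → F)} (hW : Inv H W) (h0 : W ≠ ⊥) (h1 : W ≠ ⊤) :
    (∃ W : Submodule F (ι → F), W ≠ ⊥ ∧ IsTotallySingularFor (fB B) W ∧ H = subspaceStabilizer W ⊓ GB B) ∨
    (∃ W : Submodule F (ι → F), W ≠ ⊥ ∧ IsNondegenerateOn (fB B) W ∧ 2 * finrank F W < Fintype.card ι ∧ H = subspaceStabilizer W ⊓ GB B) := by
  have hirr := u_irr hq h h2 (ht_G hq h)
  have hU : ∀ g ∈ H, g ∈ UB B := fun g hg => (hH.1.le hg).1
  have key : ∀ U : Submodule F (ι → F), U ≠ ⊥ → U ≠ ⊤ → Inv H U → H = subspaceStabilizer U ⊓ GB B := by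
    intro U hU0 hU1 hUi
    apply max_eq hH (fun g hg => mem_stab_iff.2 (hUi g hg))
    intro hle
    rcases hirr U (fun g hg w hw => mem_stab_iff.1 (hle hg) w hw) with h3 | h3
    · exact hU0 h3
    · exact hU1 h3
  have hp : Inv H (perp B W) := by
    intro g hg v hv x hx
    have h3 := hU g hg (Matrix.mulVec ((g⁻¹ : Matrix.GeneralLinearGroup ι F) : Matrix ι ι F) x) v
    rw [mulVec_inv] at h3
    rw [h3]
    exact hv _ (hW g⁻¹ (H.inv_mem hg) x hx)
  by_cases hd : W ⊓ perp B W = ⊥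
  · right
    have h3 := finrank_perp hq h W
    rw [finrank_fintype_fun_eq_card] at h3
    by_cases h4 : 2 * finrank F W < Fintype.card ι
    · exact ⟨W, h0, nd_of_disjoint h hd, h4, key W h0 h1 hW⟩
    · have h5 : 2 * finrank F (perp B W) < Fintype.card ι := by
        obtain ⟨k, hk⟩ := hodd
        omega
      have h6 : perp B W ≠ ⊥ := by
        intro h7
        rw [h7, finrank_bot, zero_add] at h3
        exact h1 (Submodule.eq_top_of_finrank_eq (by rw [h3, finrank_fintype_fun_eq_card]))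
      have h7 : perp B W ≠ ⊤ := by
        intro h7
        rw [h7, finrank_top, finrank_fintype_fun_eq_card] at h5
        omega
      refine ⟨perp B W, h6, nd_of_disjoint h ?_, h5, key _ h6 h7 hp⟩
      rw [perp_perp h, inf_comm]
      exact hd
  · left
    refine ⟨W ⊓ perp B W, hd, fun u hu v hv => hu.2 v hv.1, key _ hd ?_ ?_⟩
    · intro h3
      apply h1
      rw [eq_top_iff, ← h3]
      exact inf_le_left
    · exact fun g hg w hw => ⟨hW g hg w hw.1, hp g hg w hw.2⟩

include hq h in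
theorem lines_u (hp : (Fintype.card ι).Prime) (hodd : Odd (Fintype.card ι)) {N H : Subgroup (Matrix.GeneralLinearGroup ι F)} (hirr : Irr H) (hN : NI N H) (hHU : H ≤ UB B)
    {w : ι → F} (hw : w ≠ 0) {χ₀ : Matrix.GeneralLinearGroup ι F → F} (hχ₀ : ∀ x ∈ N, Matrix.mulVec (x : Matrix ι ι F) w = χ₀ x • w) :
    N ≤ scalars ι F ∨ ∃ D : Fin (Fintype.card ι) → Submodule F (ι → F), IsNondegenerateMDecomposition (fB B) 1 D ∧ H ≤ decompositionStabilizer D := by
  rcases lines' hp hirr hN hw hχ₀ with h1 | ⟨D, χ, hD, hHD, hχ, hDχ⟩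
  · exact Or.inl h1
  · right
    have hne : ∀ i, ∃ d ∈ D i, d ≠ 0 := by
      intro i
      apply Submodule.exists_mem_ne_zero_of_ne_bot
      intro h0
      have := hD.finrank_eq i
      rw [h0, finrank_bot] at this
      omega
    choose d hd hd0 using hne
    have hspan : ∀ i, ∀ x ∈ D i, ∃ c : F, x = c • d i := by
      intro i x hx
      obtain ⟨c, hc⟩ := (finrank_eq_one_iff_of_nonzero' (⟨d i, hd i⟩ : D i) (fun h0 => hd0 i (congrArg Subtype.val h0))).1 (hD.finrank_eq i) ⟨x, hx⟩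
      exact ⟨c, (congrArg Subtype.val hc).symm⟩
    have htop : ∀ L : (ι → F) →ₗ[F] F, (∀ j, L (d j) = 0) → L = 0 := by
      intro L hL
      have h2 : (⊤ : Submodule F (ι → F)) ≤ LinearMap.ker L := by
        rw [← hD.iSup_eq_top]
        apply iSup_le
        intro j x hx
        obtain ⟨c, rfl⟩ := hspan j x hx
        rw [LinearMap.mem_ker, map_smul, hL, smul_zero]
      exact LinearMap.ext fun x => h2 trivial
    have hex : ∀ i, ∃ j, B (d i) (d j) ≠ 0 := by
      intro i
      by_contra hcon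
      push Not at hcon
      apply hd0 i
      apply h.nd
      intro y
      rw [htop _ hcon]
      rfl
    choose τ hτ using hex
    have huniq : ∀ i j, B (d i) (d j) ≠ 0 → ∀ x : N, σ (χ i x) * χ j x = 1 := by
      intro i j hij x
      have h2 := hHU (hN.1 x.2) (d i) (d j)
      have h3 := mem_Ws.1 ((hDχ i) ▸ hd i) x
      have h4 := mem_Ws.1 ((hDχ j) ▸ hd j) x
      rw [h3, h4, map_smul_left, map_smul_right] at h2
      apply mul_right_cancel₀ hij
      rw [one_mul]
      linear_combination h2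
    have huniq' : ∀ i j k, B (d i) (d j) ≠ 0 → B (d i) (d k) ≠ 0 → j = k := by
      intro i j k h2 h3
      apply hχ
      funext x
      have h4 := huniq i j h2 x
      have h5 := huniq i k h3 x
      have h6 : σ (χ i x) ≠ 0 := by
        intro h0
        rw [h0, zero_mul] at h4
        exact zero_ne_one h4
      apply mul_left_cancel₀ h6
      rw [h4, h5]
    have hττ : ∀ i, τ (τ i) = i := by
      intro i
      apply huniq' (τ i) _ _ (hτ (τ i))
      exact fun h0 => hτ i (h.eq_zero_comm h0)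
    obtain ⟨i₀, hi₀⟩ : ∃ i, τ i = i := by
      haveI : Fact (Nat.Prime 2) := ⟨Nat.prime_two⟩
      let s : Equiv.Perm (Fin (Fintype.card ι)) := ⟨τ, τ, hττ, hττ⟩
      obtain ⟨a, ha⟩ := Equiv.Perm.exists_fixed_point_of_prime (p := 2) (n := 1) (σ := s) (by
        rw [Fintype.card_fin]
        intro h2
        exact (Nat.not_even_iff_odd.2 hodd) (even_iff_two_dvd.2 h2)) (by
        rw [pow_one, pow_two]
        apply Equiv.ext
        exact hττ)
      exact ⟨a, ha⟩
    -- the span of the non-isotropic lines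
    let U : Submodule F (ι → F) := Submodule.span F {v | (∃ i, v ∈ D i) ∧ B v v ≠ 0}
    have hUinv : Inv H U := by
      intro g hg v hv
      have hle : U ≤ U.comap (Matrix.toLin' (g : Matrix ι ι F)) := by
        apply Submodule.span_le.2
        rintro x ⟨⟨i, hi⟩, hx⟩
        apply Submodule.subset_span
        constructor
        · obtain ⟨s, hs⟩ := hHD hg
          refine ⟨s i, ?_⟩
          rw [← hs i]
          exact ⟨x, hi, rfl⟩
        · rw [toLin_apply, hHU hg]
          exact hx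
      exact hle hv
    have hUtop : U = ⊤ := by
      rcases hirr U hUinv with h2 | h2
      · exfalso
        have h3 : d i₀ ∈ U := Submodule.subset_span ⟨⟨i₀, hd i₀⟩, by have := hτ i₀; rwa [hi₀] at this⟩
        rw [h2, Submodule.mem_bot] at h3
        exact hd0 i₀ h3
      · exact h2
    have hself : ∀ j, B (d j) (d j) ≠ 0 := by
      intro j hj
      apply hd0 j
      apply h.nd
      intro y
      have hle : U ≤ LinearMap.ker (B (d j)) := by
        apply Submodule.span_le.2
        rintro x ⟨⟨i, hi⟩, hx⟩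
        obtain ⟨c, rfl⟩ := hspan i x hi
        change B (d j) (c • d i) = 0
        rw [map_smul_right]
        by_contra h2
        have h3 : B (d j) (d i) ≠ 0 := fun h0 => h2 (by rw [h0, mul_zero])
        have h4 : B (d i) (d i) ≠ 0 := by
          intro h0
          apply hx
          rw [map_smul_left, map_smul_right, h0, mul_zero, mul_zero]
        have h5 := huniq' i i j h4 (fun h0 => h3 (h.eq_zero_comm h0))
        rw [h5] at h4
        exact h4 hj
      rw [hUtop] at hle
      exact hle trivial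
    refine ⟨D, ⟨hD, fun i w hw hw0 => ?_, fun i j hij u hu v hv => ?_⟩, hHD⟩
    · obtain ⟨c, rfl⟩ := hspan i w hw
      have hc : c ≠ 0 := by
        rintro rfl
        exact hw0 (zero_smul _ _)
      have hσc : σ c ≠ 0 := by rw [Ne, map_eq_zero]; exact hc
      refine ⟨⟨d i, hd i, ?_⟩, ⟨d i, hd i, ?_⟩⟩
      · change B (c • d i) (d i) ≠ 0
        rw [map_smul_left]
        exact mul_ne_zero hσc (hself i)
      · change B (d i) (c • d i) ≠ 0
        rw [map_smul_right]
        exact mul_ne_zero hc (hself i)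
    · obtain ⟨a, rfl⟩ := hspan i u hu
      obtain ⟨b, rfl⟩ := hspan j v hv
      change B (b • d j) (a • d i) = 0
      rw [map_smul_left, map_smul_right]
      by_contra h2
      have h3 : B (d j) (d i) ≠ 0 := fun h0 => h2 (by rw [h0, mul_zero, mul_zero])
      exact hij (huniq' j i j h3 (hself j))

include hq h in
theorem adj_closed [Finite F] {N : Subgroup (Matrix.GeneralLinearGroup ι F)} (hN : N ≤ UB B) : IsAdjointClosedFor (fB B) (Cn N) := by
  intro c hc
  choose L hL using fun y : ι → F => h.exists_repr ((B y).comp (Matrix.toLin' c))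
  have hnd : ∀ a b : ι → F, (∀ x, B a x = B b x) → a = b := by
    intro a b hab
    apply sub_eq_zero.1
    apply h.nd
    intro x
    rw [map_sub_left, hab, sub_self]
  let L' : (ι → F) →ₗ[F] (ι → F) :=
    { toFun := L
      map_add' := by
        intro a b
        apply hnd
        intro x
        rw [map_add_left, hL, hL, hL, LinearMap.comp_apply, map_add_left]
        rfl
      map_smul' := by
        intro c a
        apply hnd
        intro x
        rw [RingHom.id_apply, map_smul_left, hL, hL, LinearMap.comp_apply, map_smul_left]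
        rfl }
  have hLm : ∀ v, Matrix.mulVec (LinearMap.toMatrix' L') v = L v := by
    intro v
    rw [LinearMap.toMatrix'_mulVec]
    rfl
  have hL2 : ∀ y x, B (L y) x = B y (Matrix.mulVec c x) := by
    intro y x
    rw [hL, LinearMap.comp_apply, Matrix.toLin'_apply]
  refine ⟨LinearMap.toMatrix' L', ?_, fun u v => ?_⟩
  · rw [mem_Cn] at hc ⊢
    intro x hx
    apply Matrix.toLin'.injective
    apply LinearMap.ext
    intro v
    rw [Matrix.toLin'_apply, Matrix.toLin'_apply, ← Matrix.mulVec_mulVec, ← Matrix.mulVec_mulVec, hLm, hLm]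
    apply hnd
    intro y
    have h1 := hN hx (L v) (Matrix.mulVec ((x⁻¹ : Matrix.GeneralLinearGroup ι F) : Matrix ι ι F) y)
    rw [mulVec_inv] at h1
    rw [h1, hL2, hL2]
    have h2 := hN hx v (Matrix.mulVec c (Matrix.mulVec ((x⁻¹ : Matrix.GeneralLinearGroup ι F) : Matrix ι ι F) y))
    rw [← h2]
    congr 1
    have h3 : Matrix.mulVec (x : Matrix ι ι F) (Matrix.mulVec c (Matrix.mulVec ((x⁻¹ : Matrix.GeneralLinearGroup ι F) : Matrix ι ι F) y))
        = Matrix.mulVec c (Matrix.mulVec (x : Matrix ι ι F) (Matrix.mulVec ((x⁻¹ : Matrix.GeneralLinearGroup ι F) : Matrix ι ι F) y)) := by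
      rw [Matrix.mulVec_mulVec, hc x hx, ← Matrix.mulVec_mulVec]
    rw [h3, mulVec_inv]
  · change B v (Matrix.mulVec c u) = B (Matrix.mulVec (LinearMap.toMatrix' L') v) u
    rw [hLm, hL2]

include hq h in
theorem struct_u [Finite F] (hp : (Fintype.card ι).Prime) (hodd : Odd (Fintype.card ι)) {H : Subgroup (Matrix.GeneralLinearGroup ι F)} (hirr : Irr H) (hHU : H ≤ UB B) :
    (∃ D : Fin (Fintype.card ι) → Submodule F (ι → F), IsNondegenerateMDecomposition (fB B) 1 D ∧ H ≤ decompositionStabilizer D) ∨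
    (∃ K : Subalgebra F (Matrix ι ι F), IsFieldSubalgebra (Fintype.card ι) K ∧ IsAdjointClosedFor (fB B) K ∧ H ≤ subalgebraNormalizer K) ∨
    ((∀ M, NI M H → ¬ M ≤ scalars ι F → ActsAbsolutelyIrreducibly (matrixSet M)) ∧
      ∃ N, NI N H ∧ ¬ N ≤ scalars ι F ∧ ∀ M, NI M H → M ≤ N → ¬ M ≤ scalars ι F → M = N) := by
  by_cases hall : ∀ M, NI M H → ¬ M ≤ scalars ι F → ActsAbsolutelyIrreducibly (matrixSet M)
  · right; right
    refine ⟨hall, ?_⟩
    classical
    haveI : Finite (Matrix.GeneralLinearGroup ι F) := inferInstance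
    have hex : ∃ c, ∃ N, NI N H ∧ ¬ N ≤ scalars ι F ∧ Nat.card N = c := ⟨_, H, NI.refl H, not_scalars_of_irr hp hirr, rfl⟩
    obtain ⟨N, h1, h2, h3⟩ := Nat.find_spec hex
    refine ⟨N, h1, h2, fun M hM hMN hMs => ?_⟩
    apply Subgroup.eq_of_le_of_card_ge hMN
    rw [h3]
    exact Nat.find_min' hex ⟨M, hM, hMs, rfl⟩
  · push Not at hall
    obtain ⟨M, hM, hMs, hMa⟩ := hall
    rcases cliff_d hp hirr hM with h1 | ⟨w, hw, χ, hχ⟩
    · right; left
      obtain ⟨h2, h3⟩ := (field_case' hp h1 hM).resolve_left hMa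
      exact ⟨Cn M, h2, adj_closed hq h (hM.1.trans hHU), h3⟩
    · left
      exact (lines_u hq h hp hodd hirr hM hHU hw hχ).resolve_left hMs

end

end CfsgLib.Asu1
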