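import Cfsg.Agent.Lib.Asu1

set_option autoImplicit false
set_option maxHeartbeats 400000

/-! Special unitary groups are not contained in geometric subgroups. -/
namespace CfsgLib.Asu2

open Cfsg Cfsg.Geo Module CfsgLib.GeoBase CfsgLib.Asch1 CfsgLib.Asch2 CfsgLib.Asch3 CfsgLib.Asch4 CfsgLib.Asch7 CfsgLib.Asch10 CfsgLib.Herm CfsgLib.Csim1 CfsgLib.Csim3 CfsgLib.Asu1
open CfsgLib.Mob35

universe u v

variable {ι : Type} [Fintype ι] [DecidableEq ι] {F : Type u} [Field F] {σ : F →+* F} {q : ℕ} {B : (ι → F) →ₛₗ[σ] (ι → F) →ₗ[F] F} (hq : QConj σ q) (h : HForm B)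

include hq h

theorem not_decomp_u (h4 : 4 ≤ Fintype.card ι) {D : Fin (Fintype.card ι) → Submodule F (ι → F)} (hD : IsNondegenerateMDecomposition (fB B) 1 D) :
    ¬ GB B ≤ decompositionStabilizer D := by
  intro hle
  have hne : ∀ i, ∃ d ∈ D i, d ≠ 0 := by
    intro i
    apply Submodule.exists_mem_ne_zero_of_ne_bot
    intro h0
    have := hD.decomp.finrank_eq i
    rw [h0, finrank_bot] at this
    omega
  choose d hd hd0 using hne
  have hspan : ∀ i, ∀ x ∈ D i, ∃ c : F, x = c • d i := by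
    intro i x hx
    obtain ⟨c, hc⟩ := (finrank_eq_one_iff_of_nonzero' (⟨d i, hd i⟩ : D i) (fun h0 => hd0 i (congrArg Subtype.val h0))).1 (hD.decomp.finrank_eq i) ⟨x, hx⟩
    exact ⟨c, (congrArg Subtype.val hc).symm⟩
  have hself : ∀ i, B (d i) (d i) ≠ 0 := by
    intro i
    obtain ⟨⟨x, hx, h1⟩, -⟩ := hD.nondegenerate i (d i) (hd i) (hd0 i)
    obtain ⟨c, rfl⟩ := hspan i x hx
    change B (d i) (c • d i) ≠ 0 at h1
    rw [map_smul_right] at h1
    exact right_ne_zero_of_mul h1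
  have horth : ∀ i j, i ≠ j → B (d i) (d j) = 0 := fun i j hij => hD.orthogonal j i (Ne.symm hij) (d j) (hd j) (d i) (hd i)
  let i₀ : Fin (Fintype.card ι) := ⟨0, by omega⟩
  let i₁ : Fin (Fintype.card ι) := ⟨1, by omega⟩
  let i₂ : Fin (Fintype.card ι) := ⟨2, by omega⟩
  let i₃ : Fin (Fintype.card ι) := ⟨3, by omega⟩
  have n01 : i₀ ≠ i₁ := by intro h3; have := congrArg Fin.val h3; simp [i₀, i₁] at this
  have n02 : i₀ ≠ i₂ := by intro h3; have := congrArg Fin.val h3; simp [i₀, i₂] at this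
  have n03 : i₀ ≠ i₃ := by intro h3; have := congrArg Fin.val h3; simp [i₀, i₃] at this
  have n12 : i₁ ≠ i₂ := by intro h3; have := congrArg Fin.val h3; simp [i₁, i₂] at this
  have n13 : i₁ ≠ i₃ := by intro h3; have := congrArg Fin.val h3; simp [i₁, i₃] at this
  have n23 : i₂ ≠ i₃ := by intro h3; have := congrArg Fin.val h3; simp [i₂, i₃] at this
  have hex : ∀ i j, ∃ a : F, a ≠ 0 ∧ a * σ a * B (d i) (d i) + B (d j) (d j) = 0 := by
    intro i j
    obtain ⟨a, ha0, ha⟩ := hq.exists_norm_ne (c := -(B (d j) (d j)) / B (d i) (d i)) (by rw [map_div₀, map_neg, h.self_fixed, h.self_fixed])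
      (div_ne_zero (neg_ne_zero.2 (hself j)) (hself i))
    refine ⟨a, ha0, ?_⟩
    rw [ha, div_mul_cancel₀ _ (hself i), neg_add_cancel]
  obtain ⟨a, ha0, ha⟩ := hex i₀ i₁
  obtain ⟨a', ha0', ha'⟩ := hex i₂ i₃
  set w := a • d i₀ + d i₁ + a' • d i₂ + d i₃ with hw
  have hw0 : B (d i₀) w = a * B (d i₀) (d i₀) := by
    rw [hw, map_add_right, map_add_right, map_add_right, map_smul_right, map_smul_right, horth _ _ n01, horth _ _ n02, horth _ _ n03]; ring
  have hw1 : B (d i₁) w = B (d i₁) (d i₁) := by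
    rw [hw, map_add_right, map_add_right, map_add_right, map_smul_right, map_smul_right, horth _ _ n01.symm, horth _ _ n12, horth _ _ n13]; ring
  have hw2 : B (d i₂) w = a' * B (d i₂) (d i₂) := by
    rw [hw, map_add_right, map_add_right, map_add_right, map_smul_right, map_smul_right, horth _ _ n02.symm, horth _ _ n12.symm, horth _ _ n23]; ring
  have hw3 : B (d i₃) w = B (d i₃) (d i₃) := by
    rw [hw, map_add_right, map_add_right, map_add_right, map_smul_right, map_smul_right, horth _ _ n03.symm, horth _ _ n13.symm, horth _ _ n23.symm]; ring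
  have hww : B w w = 0 := by
    nth_rewrite 1 [hw]
    rw [map_add_left, map_add_left, map_add_left, map_smul_left, map_smul_left, hw0, hw1, hw2, hw3]
    linear_combination ha + ha'
  obtain ⟨b, hb0, hb⟩ := hq.exists_trace_ne_zero (map_zero σ)
  obtain ⟨h0, h1⟩ := ht_G hq h w hww b hb
  obtain ⟨s, hs⟩ := hle h1
  have h2 : Matrix.mulVec (tv (b • B w) w h0 : Matrix ι ι F) (d i₁) ∈ D (s i₁) := by
    rw [← hs i₁]
    exact ⟨d i₁, hd i₁, rfl⟩
  have hB1 : B w (d i₁) ≠ 0 := by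
    intro h3
    have := h.eq_zero_comm h3
    rw [hw1] at this
    exact hself i₁ this
  have key : ∀ k, k ≠ i₁ → B (d k) w ≠ 0 → k = s i₁ := by
    intro k hk1 hkw
    by_contra hks
    obtain ⟨c, hc⟩ := hspan _ _ h2
    have h3 := congrArg (B (d k)) hc
    rw [tv_apply, map_add_right, map_smul_right, map_smul_right, horth _ _ hk1, horth _ _ hks, LinearMap.smul_apply, smul_eq_mul, zero_add, mul_zero] at h3
    exact (mul_ne_zero (mul_ne_zero hb0 hB1) hkw) h3
  have h3 := key i₀ n01 (by rw [hw0]; exact mul_ne_zero ha0 (hself _))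
  have h5 := key i₂ n12.symm (by rw [hw2]; exact mul_ne_zero ha0' (hself _))
  exact n02 (h3.trans h5.symm)

theorem not_field_u (h3 : 3 ≤ Fintype.card ι) {r : ℕ} (hr : 1 < r) {K : Subalgebra F (Matrix ι ι F)} (hK : IsFieldSubalgebra r K) :
    ¬ GB B ≤ subalgebraNormalizer K := by
  intro hle
  haveI : Nonempty ι := Fintype.card_pos_iff.1 (by omega)
  have hV : 2 ≤ finrank F (ι → F) := by rw [finrank_fintype_fun_eq_card]; omega
  -- a non-scalar element
  obtain ⟨k, hk, v, hv, hkv⟩ : ∃ k ∈ K, ∃ v : ι → F, B v v = 0 ∧ Matrix.mulVec k v ∉ Submodule.span F {v} := by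
    by_contra hne
    push Not at hne
    have h1 : ∀ x : K, ∃ c : F, c • (1 : K) = x := by
      intro x
      obtain ⟨c, hc⟩ := iso_scalar hq h hV (Matrix.toLin' (x : Matrix ι ι F)) (fun u hu => by
        obtain ⟨a, ha⟩ := Submodule.mem_span_singleton.1 (hne x x.2 u hu)
        exact ⟨a, by rw [Matrix.toLin'_apply, ha]⟩)
      refine ⟨c, Subtype.ext ?_⟩
      apply Matrix.toLin'.injective
      apply LinearMap.ext
      intro z
      rw [hc]
      change Matrix.toLin' (c • (1 : Matrix ι ι F)) z = c • z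
      rw [Matrix.toLin'_apply, Matrix.smul_mulVec, Matrix.one_mulVec]
    have h2 : finrank F K = 1 := (finrank_eq_one_iff_of_nonzero' (1 : K) one_ne_zero).2 h1
    rw [hK.finrank_eq] at h2
    omega
  obtain ⟨b, hb0, hb⟩ := hq.exists_trace_ne_zero (map_zero σ)
  obtain ⟨hfv, hmem⟩ := ht_G hq h v hv b hb
  set f := b • B v with hf
  set t := tv f v hfv with ht
  have h1 : (t : Matrix ι ι F) * k * ((t⁻¹ : Matrix.GeneralLinearGroup ι F) : Matrix ι ι F) ∈ K := (hle hmem k).1 hk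
  have h2 : (t : Matrix ι ι F) * k * ((t⁻¹ : Matrix.GeneralLinearGroup ι F) : Matrix ι ι F) - k ∈ K := K.sub_mem h1 hk
  have key : ∀ x, Matrix.mulVec ((t : Matrix ι ι F) * k * ((t⁻¹ : Matrix.GeneralLinearGroup ι F) : Matrix ι ι F) - k) (Matrix.mulVec (t : Matrix ι ι F) x)
      = f (Matrix.mulVec k x) • v - f x • Matrix.mulVec k v := by
    intro x
    rw [Matrix.sub_mulVec, ← Matrix.mulVec_mulVec, inv_mulVec, ← Matrix.mulVec_mulVec]
    rw [ht, tv_apply, tv_apply, Matrix.mulVec_add, Matrix.mulVec_smul]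
    abel
  have hne : (t : Matrix ι ι F) * k * ((t⁻¹ : Matrix.GeneralLinearGroup ι F) : Matrix ι ι F) - k ≠ 0 := by
    intro h0
    have hv0 : v ≠ 0 := by
      rintro rfl
      apply hkv
      rw [Matrix.mulVec_zero]
      exact Submodule.zero_mem _
    obtain ⟨x, hx⟩ : ∃ x, B v x ≠ 0 := by
      by_contra hcon
      push Not at hcon
      exact hv0 (h.nd v hcon)
    have hfx : f x ≠ 0 := by rw [hf, LinearMap.smul_apply, smul_eq_mul]; exact mul_ne_zero hb0 hx
    have h4 := key x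
    rw [h0, Matrix.zero_mulVec] at h4
    apply hkv
    rw [Submodule.mem_span_singleton]
    refine ⟨(f x)⁻¹ * f (Matrix.mulVec k x), ?_⟩
    rw [mul_smul, sub_eq_zero.1 h4.symm, smul_smul, inv_mul_cancel₀ hfx, one_smul]
  obtain ⟨y, -, hy⟩ := hK.inv _ h2 hne
  -- surjectivity
  have hle : (⊤ : Submodule F (ι → F)) ≤ Submodule.span F {v, Matrix.mulVec k v} := by
    intro x _
    have h4 : x = Matrix.mulVec ((t : Matrix ι ι F) * k * ((t⁻¹ : Matrix.GeneralLinearGroup ι F) : Matrix ι ι F) - k)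
        (Matrix.mulVec (t : Matrix ι ι F) (Matrix.mulVec ((t⁻¹ : Matrix.GeneralLinearGroup ι F) : Matrix ι ι F) (Matrix.mulVec y x))) := by
      rw [mulVec_inv, Matrix.mulVec_mulVec, hy, Matrix.one_mulVec]
    rw [h4, key]
    apply Submodule.sub_mem
    · exact Submodule.smul_mem _ _ (Submodule.subset_span (Set.mem_insert _ _))
    · exact Submodule.smul_mem _ _ (Submodule.subset_span (Set.mem_insert_of_mem _ (Set.mem_singleton _)))
  have h5 := Submodule.finrank_mono hle
  rw [finrank_top, finrank_fintype_fun_eq_card] at h5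
  have h6 : finrank F (Submodule.span F {v, Matrix.mulVec k v}) ≤ 2 := by
    classical
    have := finrank_span_finset_le_card (R := F) ({v, Matrix.mulVec k v} : Finset (ι → F))
    rw [Finset.coe_insert, Finset.coe_singleton] at this
    exact this.trans Finset.card_le_two
  omega

theorem exists_iso_ne (h2 : 2 ≤ Fintype.card ι) {x : Matrix.GeneralLinearGroup ι F} (hxs : x ∉ scalars ι F) :
    ∃ u : ι → F, B u u = 0 ∧ Matrix.mulVec (x : Matrix ι ι F) u ∉ Submodule.span F {u} := by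
  haveI : Nonempty ι := Fintype.card_pos_iff.1 (by omega)
  by_contra hne
  push Not at hne
  obtain ⟨c, hc⟩ := iso_scalar hq h (by rw [finrank_fintype_fun_eq_card]; exact h2) (Matrix.toLin' (x : Matrix ι ι F)) (fun u hu => by
    obtain ⟨a, ha⟩ := Submodule.mem_span_singleton.1 (hne u hu)
    exact ⟨a, by rw [Matrix.toLin'_apply, ha]⟩)
  apply hxs
  have h1 : (x : Matrix ι ι F) = c • (1 : Matrix ι ι F) := by
    apply Matrix.toLin'.injective
    apply LinearMap.ext
    intro z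
    rw [hc, Matrix.toLin'_apply, Matrix.smul_mulVec, Matrix.one_mulVec]
  have h0 : c ≠ 0 := by
    rintro rfl
    rw [zero_smul] at h1
    exact x.ne_zero h1
  exact (mem_scalars_iff x).2 ⟨Units.mk0 c h0, h1⟩

theorem not_rgroup_u (h5 : 5 ≤ Fintype.card ι) {N : Subgroup (Matrix.GeneralLinearGroup ι F)} (habs : ActsAbsolutelyIrreducibly (matrixSet N))
    (hcomm : ⁅N, N⁆ ≤ scalars ι F) (hns : ¬ N ≤ scalars ι F) : ¬ GB B ≤ subgroupNormalizer N := by
  intro hle
  haveI : Nonempty ι := Fintype.card_pos_iff.1 (by omega)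
  obtain ⟨x, hx, hxs⟩ := Set.not_subset.1 hns
  obtain ⟨u, hu, hxu⟩ := exists_iso_ne hq h (by omega) hxs
  obtain ⟨b, hb0, hb⟩ := hq.exists_trace_ne_zero (map_zero σ)
  obtain ⟨h0, h1⟩ := ht_G hq h u hu b hb
  set t := tv (b • B u) u h0 with ht
  have htz : ∀ z, Matrix.mulVec (t : Matrix ι ι F) z = z + (b * B u z) • u := by
    intro z
    rw [ht, tv_apply, LinearMap.smul_apply, smul_eq_mul]
  set c := x * (t * x⁻¹ * t⁻¹) with hc
  have hcN : c ∈ N := N.mul_mem hx ((Subgroup.mem_normalizer_iff.1 (hle h1) _).1 (N.inv_mem hx))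
  -- fixed space
  let L : (ι → F) →ₗ[F] (Fin 2 → F) := LinearMap.pi ![B u, (B u).comp (Matrix.toLin' ((x⁻¹ : Matrix.GeneralLinearGroup ι F) : Matrix ι ι F))]
  set E := LinearMap.ker L with hE
  have hEdim : Fintype.card ι ≤ finrank F E + 2 := by
    have h2 := LinearMap.finrank_range_add_finrank_ker L
    have h3 := Submodule.finrank_le (LinearMap.range L)
    rw [finrank_fintype_fun_eq_card] at h2
    rw [finrank_fintype_fun_eq_card, Fintype.card_fin] at h3
    rw [hE]
    omega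
  have hEfix : ∀ z ∈ E, Matrix.mulVec (c : Matrix ι ι F) z = z := by
    intro z hz
    have e1 : B u z = 0 := congrFun (LinearMap.mem_ker.1 hz) 0
    have e2 : B u (Matrix.mulVec ((x⁻¹ : Matrix.GeneralLinearGroup ι F) : Matrix ι ι F) z) = 0 := congrFun (LinearMap.mem_ker.1 hz) 1
    have e3 : Matrix.mulVec ((t⁻¹ : Matrix.GeneralLinearGroup ι F) : Matrix ι ι F) z = z := by
      apply mulVec_injective t
      rw [mulVec_inv, htz, e1, mul_zero, zero_smul, add_zero]
    rw [hc, mulVec_mul, mulVec_mul, mulVec_mul, e3, htz, e2, mul_zero, zero_smul, add_zero, mulVec_inv]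
  have hE0 : E ≠ ⊥ := by
    intro h2
    rw [h2, finrank_bot] at hEdim
    omega
  obtain ⟨z₀, hz₀, hz₀'⟩ := Submodule.exists_mem_ne_zero_of_ne_bot hE0
  -- c is not a scalar
  have hcs : c ∉ scalars ι F := by
    intro h2
    obtain ⟨d, hd⟩ := exists_sc h2
    have h3 := hEfix z₀ hz₀
    rw [hd, sc_mulVec] at h3
    have hd1 : (d : F) = 1 := by
      have h4 : ((d : F) - 1) • z₀ = 0 := by rw [sub_smul, one_smul, h3, sub_self]
      exact sub_eq_zero.1 ((smul_eq_zero.1 h4).resolve_right hz₀')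
    have hd1' : d = 1 := Units.ext hd1
    rw [hd1', map_one] at hd
    have h4 : x * t = t * x := by
      have h6 : x * (t * x⁻¹ * t⁻¹) = 1 := hd
      calc x * t = x * (t * x⁻¹ * t⁻¹) * (t * x) := by group
        _ = t * x := by rw [h6, one_mul]
    have hu0 : u ≠ 0 := by
      rintro rfl
      apply hxu
      rw [Matrix.mulVec_zero]
      exact Submodule.zero_mem _
    obtain ⟨y, hy⟩ : ∃ y, B u y ≠ 0 := by
      by_contra hcon
      push Not at hcon
      exact hu0 (h.nd u hcon)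
    have h6 := congrArg (fun g : Matrix.GeneralLinearGroup ι F => Matrix.mulVec (g : Matrix ι ι F) y) h4
    have h7 : Matrix.mulVec ((x * t : Matrix.GeneralLinearGroup ι F) : Matrix ι ι F) y = Matrix.mulVec ((t * x : Matrix.GeneralLinearGroup ι F) : Matrix ι ι F) y := h6
    rw [mulVec_mul, mulVec_mul, htz, htz, mulVec_add', mulVec_smul'] at h7
    have h8 := add_left_cancel h7
    apply hxu
    rw [Submodule.mem_span_singleton]
    refine ⟨(b * B u y)⁻¹ * (b * B u (Matrix.mulVec (x : Matrix ι ι F) y)), ?_⟩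
    rw [mul_smul, ← h8, smul_smul, inv_mul_cancel₀ (mul_ne_zero hb0 hy), one_smul]
  -- an element not commuting with c
  obtain ⟨y, hy, hyc⟩ : ∃ y ∈ N, y * c ≠ c * y := by
    by_contra hne
    push Not at hne
    obtain ⟨d, hd⟩ := habs.2 (c : Matrix ι ι F) (by
      rintro _ ⟨y, hy, rfl⟩
      change (c : Matrix ι ι F) * (y : Matrix ι ι F) = (y : Matrix ι ι F) * c
      rw [← Units.val_mul, ← Units.val_mul, hne y hy])
    apply hcs
    have h0 : d ≠ 0 := by
      rintro rfl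
      rw [zero_smul] at hd
      exact c.ne_zero hd
    exact (mem_scalars_iff c).2 ⟨Units.mk0 d h0, hd⟩
  obtain ⟨z, hz⟩ := exists_sc (hcomm (Subgroup.commutator_mem_commutator hy hcN))
  have h2 : y * c = sc z * (c * y) := by
    rw [← hz, commutatorElement_def]; group
  have hz1 : (z : F) ≠ 1 := by
    intro h3
    have : z = 1 := Units.ext h3
    rw [this, map_one, one_mul] at h2
    exact hyc h2
  -- disjointness
  have hdis : Disjoint E (mp y E) := by
    rw [Submodule.disjoint_def]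
    rintro v hv hv'
    rw [mem_mp] at hv'
    have h3 := hEfix v hv
    have h4 := hEfix _ hv'
    have h6 := congrArg (fun g : Matrix.GeneralLinearGroup ι F => Matrix.mulVec (g : Matrix ι ι F) (Matrix.mulVec ((y⁻¹ : Matrix.GeneralLinearGroup ι F) : Matrix ι ι F) v)) h2
    have h7 : Matrix.mulVec ((y * c : Matrix.GeneralLinearGroup ι F) : Matrix ι ι F) (Matrix.mulVec ((y⁻¹ : Matrix.GeneralLinearGroup ι F) : Matrix ι ι F) v)
        = Matrix.mulVec ((sc z * (c * y) : Matrix.GeneralLinearGroup ι F) : Matrix ι ι F) (Matrix.mulVec ((y⁻¹ : Matrix.GeneralLinearGroup ι F) : Matrix ι ι F) v) := h6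
    rw [mulVec_mul, h4, mulVec_inv, mulVec_mul, mulVec_mul, mulVec_inv, h3, sc_mulVec] at h7
    have h8 : ((z : F) - 1) • v = 0 := by rw [sub_smul, one_smul, ← h7, sub_self]
    exact (smul_eq_zero.1 h8).resolve_left (sub_ne_zero.2 hz1)
  have h3 := Submodule.finrank_add_finrank_le_of_disjoint hdis
  rw [finrank_mp, finrank_fintype_fun_eq_card] at h3
  omega

omit hq h in
theorem tv_pow (φ : Dual F (ι → F)) (v : ι → F) (h0 : φ v = 0) (k : ℕ) (x : ι → F) :
    Matrix.mulVec (((tv φ v h0) ^ k : Matrix.GeneralLinearGroup ι F) : Matrix ι ι F) x = x + ((k : F) * φ x) • v := by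
  induction k with
  | zero => rw [pow_zero, mulVec_one, Nat.cast_zero, zero_mul, zero_smul, add_zero]
  | succ k ih =>
    rw [pow_succ', mulVec_mul, ih, tv_apply, map_add, map_smul, h0, smul_zero, add_zero, Nat.cast_succ, add_assoc, ← add_smul]
    congr 2
    ring

omit hq h in
theorem minor {x y : ι → F} (hy : y ≠ 0) (hxy : x ∉ Submodule.span F {y}) : ∃ i j, x i * y j - x j * y i ≠ 0 := by
  by_contra hne
  push Not at hne
  obtain ⟨j, hj⟩ : ∃ j, y j ≠ 0 := by
    by_contra hcon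
    push Not at hcon
    exact hy (funext hcon)
  apply hxy
  rw [Submodule.mem_span_singleton]
  refine ⟨x j * (y j)⁻¹, funext fun i => ?_⟩
  rw [Pi.smul_apply, smul_eq_mul]
  have := hne i j
  field_simp
  linear_combination -this

theorem exists_plane (h7 : 7 ≤ Fintype.card ι) : ∃ u₀ u₁ : ι → F, u₀ ≠ 0 ∧ B u₀ u₀ = 0 ∧ B u₁ u₁ = 0 ∧ B u₀ u₁ = 0 ∧ u₁ ∉ Submodule.span F {u₀} := by
  have hV : finrank F (ι → F) = Fintype.card ι := finrank_fintype_fun_eq_card F
  obtain ⟨u₀, hu0, hu⟩ := h.exists_isotropic hq (by omega)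
  obtain ⟨x, hx, hx'⟩ : ∃ x ∈ perp B (Submodule.span F {u₀}), x ∉ Submodule.span F {u₀} := by
    by_contra hne
    push Not at hne
    have h1 := Submodule.finrank_mono (show perp B (Submodule.span F {u₀}) ≤ Submodule.span F {u₀} from fun x hx => hne x hx)
    have h2 := finrank_perp hq h (Submodule.span F {u₀})
    rw [finrank_span_singleton hu0] at h1 h2
    omega
  have hux : B u₀ x = 0 := hx u₀ (Submodule.mem_span_singleton_self _)
  have hli : LinearIndependent F ![x, u₀] := by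
    rw [linearIndependent_fin2]
    refine ⟨hu0, fun c hc => hx' ?_⟩
    rw [Submodule.mem_span_singleton]
    exact ⟨c, hc⟩
  obtain ⟨u₁, hu₁, hc⟩ := exists_iso hq h (by omega) _ hli ![1, 0]
  have h1 : B x u₁ = 1 := hc 0
  have h2 : B u₀ u₁ = 0 := hc 1
  refine ⟨u₀, u₁, hu0, hu, hu₁, h2, fun h3 => ?_⟩
  obtain ⟨c, rfl⟩ := Submodule.mem_span_singleton.1 h3
  rw [map_smul_right, h.eq_zero_comm hux, mul_zero] at h1
  exact zero_ne_one h1

theorem not_subfield_u [Finite F] (h7 : 7 ≤ Fintype.card ι) {F₁ : Subfield F} (hF : F₁ ≠ ⊤) (P : Matrix.GeneralLinearGroup ι F) : ¬ GB B ≤ subfieldSubgroup F₁ P := by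
  intro hle
  haveI : Nonempty ι := Fintype.card_pos_iff.1 (by omega)
  obtain ⟨p, hcp⟩ := CharP.exists F
  haveI : Fintype F := Fintype.ofFinite F
  obtain ⟨⟨n, hn⟩, hpp, hcard⟩ := FiniteField.card F p
  haveI := Fact.mk hpp
  haveI : ExpChar F p := ExpChar.prime hpp
  let Lt : (ι → F) → Prop := fun x => ∀ i, Matrix.mulVec ((P⁻¹ : Matrix.GeneralLinearGroup ι F) : Matrix ι ι F) x i ∈ F₁
  obtain ⟨b, hb0, hb⟩ := hq.exists_trace_ne_zero (map_zero σ)
  have key : ∀ u : ι → F, u ≠ 0 → B u u = 0 → ∃ c : F, c ≠ 0 ∧ Lt (c • u) := by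
    intro u hu0 hu
    obtain ⟨h0, h1⟩ := ht_G hq h u hu b hb
    set t := tv (b • B u) u h0 with ht
    obtain ⟨y, hy, hyt⟩ := hle h1
    have hyt' : P * y * P⁻¹ = t := hyt
    rw [SetLike.mem_coe, ← SetLike.mem_coe, Subgroup.mul_normal] at hy
    obtain ⟨g, ⟨g₀, rfl⟩, z, hz, hgz⟩ := hy
    obtain ⟨c, rfl⟩ := exists_sc hz
    have hgz' : y = Matrix.GeneralLinearGroup.map (F₁.subtype : F₁ →+* F) g₀ * sc c := hgz.symm
    -- c lies in the subfield
    have htp : t ^ p = 1 := by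
      apply ext_mulVec
      intro x
      rw [ht, tv_pow, CharP.cast_eq_zero, zero_mul, zero_smul, add_zero, mulVec_one]
    have hyp : y ^ p = 1 := by
      have h2 : y = P⁻¹ * t * P := by rw [← hyt']; group
      have h3 : (P⁻¹ * t * P⁻¹⁻¹) ^ p = P⁻¹ * t ^ p * P⁻¹⁻¹ := conj_pow
      rw [inv_inv, htp, mul_one, inv_mul_cancel] at h3
      rw [h2, h3]
    have hcm : (Matrix.GeneralLinearGroup.map (F₁.subtype : F₁ →+* F) g₀) ^ p * (sc c) ^ p = 1 := by
      rw [← hyp, hgz']
      exact (Commute.mul_pow (scalar_comm (sc_mem c) _).symm p).symm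
    have hcp1 : (sc (c ^ p) : Matrix.GeneralLinearGroup ι F) = Matrix.GeneralLinearGroup.map (F₁.subtype : F₁ →+* F) ((g₀ ^ p)⁻¹) := by
      rw [map_pow, map_inv, map_pow]
      exact (eq_inv_of_mul_eq_one_right hcm)
    obtain ⟨i⟩ := (inferInstance : Nonempty ι)
    have hcp2 : (c : F) ^ p ∈ F₁ := by
      have h2 := congrArg (fun g : Matrix.GeneralLinearGroup ι F => (g : Matrix ι ι F) i i) hcp1
      have h3 : ((sc (c ^ p) : Matrix.GeneralLinearGroup ι F) : Matrix ι ι F) i i = (((((g₀ ^ p)⁻¹ : Matrix.GeneralLinearGroup ι F₁) : Matrix ι ι F₁) i i : F₁) : F) := h2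
      rw [sc_val, Matrix.smul_apply, Matrix.one_apply_eq, smul_eq_mul, mul_one, Units.val_pow_eq_pow_val] at h3
      rw [h3]
      exact SetLike.coe_mem _
    have hcF : (c : F) ∈ F₁ := by
      rw [mem_iff_pow] at hcp2 ⊢
      apply frobenius_inj F p
      rw [frobenius_def, frobenius_def, ← pow_mul, mul_comm, pow_mul, hcp2]
    -- the lattice is preserved
    have hLt : ∀ x, Lt x → Lt (Matrix.mulVec (t : Matrix ι ι F) x) := by
      intro x hx i
      have h2 : P⁻¹ * t = Matrix.GeneralLinearGroup.map (F₁.subtype : F₁ →+* F) g₀ * sc c * P⁻¹ := by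
        rw [← hgz', ← hyt']; group
      rw [← mulVec_mul, h2, mulVec_mul, mulVec_mul, sc_mulVec]
      change ∑ j, (g₀ : Matrix ι ι F₁) i j * (c • Matrix.mulVec ((P⁻¹ : Matrix.GeneralLinearGroup ι F) : Matrix ι ι F) x) j ∈ F₁
      apply F₁.sum_mem
      intro j _
      exact F₁.mul_mem (SetLike.coe_mem _) (F₁.mul_mem hcF (hx j))
    obtain ⟨x, hx, hux⟩ : ∃ x, Lt x ∧ B u x ≠ 0 := by
      by_contra hcon
      push Not at hcon
      apply hu0
      apply h.nd
      intro y
      have h2 : (B u).comp (Matrix.toLin' (P : Matrix ι ι F)) = 0 := by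
        apply LinearMap.pi_ext'
        intro j
        apply LinearMap.ext_ring
        change B u (Matrix.toLin' (P : Matrix ι ι F) (Pi.single j 1)) = 0
        rw [toLin_apply]
        apply hcon
        intro i
        rw [inv_mulVec, Pi.single_apply]
        split_ifs
        · exact F₁.one_mem
        · exact F₁.zero_mem
      have h3 := LinearMap.congr_fun h2 (Matrix.mulVec ((P⁻¹ : Matrix.GeneralLinearGroup ι F) : Matrix ι ι F) y)
      rw [LinearMap.comp_apply, toLin_apply, mulVec_inv] at h3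
      exact h3
    refine ⟨b * B u x, mul_ne_zero hb0 hux, fun i => ?_⟩
    have h2 : (b * B u x) • u = Matrix.mulVec (t : Matrix ι ι F) x - x := by
      rw [ht, tv_apply, add_sub_cancel_left, LinearMap.smul_apply, smul_eq_mul]
    rw [h2, Matrix.mulVec_sub, Pi.sub_apply]
    exact F₁.sub_mem (hLt x hx i) (hx i)
  obtain ⟨v₀, v₁, hv0, hv₀, hv₁, hv₀₁, hvi⟩ := exists_plane hq h h7
  have hv1 : v₁ ≠ 0 := by
    rintro rfl
    exact hvi (Submodule.zero_mem _)
  obtain ⟨c₀, hc0, hL0⟩ := key v₀ hv0 hv₀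
  obtain ⟨c₁, hc1, hL1⟩ := key v₁ hv1 hv₁
  obtain ⟨l, hl⟩ : ∃ l : F, l ∉ F₁ := by
    by_contra hcon
    push Not at hcon
    exact hF (eq_top_iff.2 fun x _ => hcon x)
  have hw : B (c₀ • v₀ + l • (c₁ • v₁)) (c₀ • v₀ + l • (c₁ • v₁)) = 0 := by
    have h1 := h.eq_zero_comm hv₀₁
    simp only [map_add_left, map_add_right, map_smul_left, map_smul_right, hv₀, hv₁, hv₀₁, h1, mul_zero, add_zero]
  have hw0 : c₀ • v₀ + l • (c₁ • v₁) ≠ 0 := by
    intro h1
    apply hvi
    rw [Submodule.mem_span_singleton]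
    have hl0 : l ≠ 0 := by
      rintro rfl
      exact hl F₁.zero_mem
    refine ⟨-((l * c₁)⁻¹ * c₀), ?_⟩
    have h2 : (l * c₁) • v₁ = - (c₀ • v₀) := by
      rw [mul_smul]
      exact eq_neg_of_add_eq_zero_right h1
    rw [neg_smul, mul_smul, ← smul_neg, ← h2, smul_smul, inv_mul_cancel₀ (mul_ne_zero hl0 hc1), one_smul]
  obtain ⟨c, hc, hLc⟩ := key _ hw0 hw
  set X := Matrix.mulVec ((P⁻¹ : Matrix.GeneralLinearGroup ι F) : Matrix ι ι F) (c₀ • v₀) with hX
  set Y := Matrix.mulVec ((P⁻¹ : Matrix.GeneralLinearGroup ι F) : Matrix ι ι F) (c₁ • v₁) with hY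
  have hX0 : X ≠ 0 := by
    intro h1
    rw [hX, ← Matrix.mulVec_zero ((P⁻¹ : Matrix.GeneralLinearGroup ι F) : Matrix ι ι F)] at h1
    exact (smul_ne_zero hc0 hv0) (mulVec_injective _ h1)
  have hYX : Y ∉ Submodule.span F {X} := by
    intro h1
    obtain ⟨a, ha⟩ := Submodule.mem_span_singleton.1 h1
    rw [hX, hY, ← mulVec_smul'] at ha
    have h2 := mulVec_injective _ ha
    apply hvi
    rw [Submodule.mem_span_singleton]
    refine ⟨c₁⁻¹ * (a * c₀), ?_⟩
    rw [mul_smul, mul_smul, h2, smul_smul, inv_mul_cancel₀ hc1, one_smul]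
  obtain ⟨i, j, hij⟩ := minor hX0 hYX
  have hZ : ∀ k, c * X k + c * l * Y k ∈ F₁ := by
    intro k
    have h1 := hLc k
    rw [mulVec_smul', mulVec_add', mulVec_smul' _ l, ← hX, ← hY] at h1
    have e : (c • (X + l • Y)) k = c * X k + c * l * Y k := by
      simp only [Pi.smul_apply, Pi.add_apply, smul_eq_mul]
      ring
    rwa [e] at h1
  have hδ : Y i * X j - Y j * X i ∈ F₁ := F₁.sub_mem (F₁.mul_mem (hL1 i) (hL0 j)) (F₁.mul_mem (hL1 j) (hL0 i))
  have hcF : c ∈ F₁ := by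
    have h1 : c = ((c * X j + c * l * Y j) * Y i - (c * X i + c * l * Y i) * Y j) * (Y i * X j - Y j * X i)⁻¹ := by
      rw [eq_mul_inv_iff_mul_eq₀ hij]; ring
    rw [h1]
    exact F₁.mul_mem (F₁.sub_mem (F₁.mul_mem (hZ j) (hL1 i)) (F₁.mul_mem (hZ i) (hL1 j))) (F₁.inv_mem hδ)
  have hclF : c * l ∈ F₁ := by
    have h1 : c * l = ((c * X i + c * l * Y i) * X j - (c * X j + c * l * Y j) * X i) * (Y i * X j - Y j * X i)⁻¹ := by
      rw [eq_mul_inv_iff_mul_eq₀ hij]; ring
    rw [h1]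
    exact F₁.mul_mem (F₁.sub_mem (F₁.mul_mem (hZ i) (hL0 j)) (F₁.mul_mem (hZ j) (hL0 i))) (F₁.inv_mem hδ)
  apply hl
  have h1 : l = c⁻¹ * (c * l) := by rw [← mul_assoc, inv_mul_cancel₀ hc, one_mul]
  rw [h1]
  exact F₁.mul_mem (F₁.inv_mem hcF) hclF

end CfsgLib.Asu2
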