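import Cfsg.Agent.Lib.Asu2

set_option autoImplicit false
set_option maxHeartbeats 400000

/-! Subfield subgroups in unitary groups. -/
namespace CfsgLib.Asu3

open Cfsg Cfsg.Geo Module CfsgLib.GeoBase CfsgLib.Asch1 CfsgLib.Asch2 CfsgLib.Asch3 CfsgLib.Asch4 CfsgLib.Asch5 CfsgLib.Asch6 CfsgLib.Asch7 CfsgLib.Asch10 CfsgLib.Asch12 CfsgLib.Herm CfsgLib.Csim1 CfsgLib.Csim3 CfsgLib.Asu1 CfsgLib.Asu2
open CfsgLib.Mob35

universe u v

variable {ι : Type} [Fintype ι] [DecidableEq ι] {F : Type u} [Field F]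

/-- a group normalising a realisable absolutely irreducible group lies in a subfield group -/
theorem le_subfield' [Nonempty ι] {P H : Subgroup (Matrix.GeneralLinearGroup ι F)} (hNI : NI P H) (habs : ActsAbsolutelyIrreducibly (matrixSet P))
    {F₀ : Subfield F} {B : Matrix.GeneralLinearGroup ι F} (hB : ∀ s ∈ matrixSet P, ∀ i j, ((B : Matrix ι ι F) * s * ((B⁻¹ : Matrix.GeneralLinearGroup ι F) : Matrix ι ι F)) i j ∈ F₀) :
    H ≤ subfieldSubgroup F₀ B⁻¹ := by
  intro h hh
  have hB' : ∀ x ∈ P, ∀ i j, ((B * x * B⁻¹ : Matrix.GeneralLinearGroup ι F) : Matrix ι ι F) i j ∈ F₀ := fun x hx => hB _ ⟨x, hx, rfl⟩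
  -- the conjugated element
  have hT : ∀ x ∈ P, (B * h * B⁻¹) * (B * x * B⁻¹) = (B * (h * x * h⁻¹) * B⁻¹) * (B * h * B⁻¹) := by
    intro x _
    group
  obtain ⟨c, T', hc, hT', hT'c⟩ := rational_intertwiner F₀
    (S := {s | ∃ x ∈ P, s = (((B * x * B⁻¹ : Matrix.GeneralLinearGroup ι F) : Matrix ι ι F), ((B * (h * x * h⁻¹) * B⁻¹ : Matrix.GeneralLinearGroup ι F) : Matrix ι ι F))})
    (T := ((B * h * B⁻¹ : Matrix.GeneralLinearGroup ι F) : Matrix ι ι F))
    (by
      rintro _ ⟨x, hx, rfl⟩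
      exact ⟨hB' x hx, hB' _ (hNI.2 h hh x hx)⟩)
    (Units.ne_zero _)
    (by
      rintro _ ⟨x, hx, rfl⟩
      have := congrArg (Units.val) (hT x hx)
      rw [Units.val_mul, Units.val_mul] at this
      exact this)
    (by
      intro T' hT'
      -- (B h B⁻¹)⁻¹ T' commutes with P
      obtain ⟨c, hc⟩ := habs.2 (((h⁻¹ * B⁻¹ : Matrix.GeneralLinearGroup ι F) : Matrix ι ι F) * T' * (B : Matrix ι ι F)) (by
        rintro _ ⟨x, hx, rfl⟩
        have h1 := hT' _ ⟨x, hx, rfl⟩
        simp only at h1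
        change ((h⁻¹ * B⁻¹ : Matrix.GeneralLinearGroup ι F) : Matrix ι ι F) * T' * (B : Matrix ι ι F) * (x : Matrix ι ι F) = (x : Matrix ι ι F) * (((h⁻¹ * B⁻¹ : Matrix.GeneralLinearGroup ι F) : Matrix ι ι F) * T' * (B : Matrix ι ι F))
        have e1 : (B : Matrix ι ι F) * (x : Matrix ι ι F) = ((B * x * B⁻¹ : Matrix.GeneralLinearGroup ι F) : Matrix ι ι F) * (B : Matrix ι ι F) := by
          rw [← Units.val_mul, ← Units.val_mul, inv_mul_cancel_right]
        have e2 : ((h⁻¹ * B⁻¹ : Matrix.GeneralLinearGroup ι F) : Matrix ι ι F) * ((B * (h * x * h⁻¹) * B⁻¹ : Matrix.GeneralLinearGroup ι F) : Matrix ι ι F) = (x : Matrix ι ι F) * ((h⁻¹ * B⁻¹ : Matrix.GeneralLinearGroup ι F) : Matrix ι ι F) := by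
          rw [← Units.val_mul, ← Units.val_mul]
          congr 1
          group
        calc ((h⁻¹ * B⁻¹ : Matrix.GeneralLinearGroup ι F) : Matrix ι ι F) * T' * (B : Matrix ι ι F) * (x : Matrix ι ι F)
            = ((h⁻¹ * B⁻¹ : Matrix.GeneralLinearGroup ι F) : Matrix ι ι F) * (T' * ((B * x * B⁻¹ : Matrix.GeneralLinearGroup ι F) : Matrix ι ι F)) * (B : Matrix ι ι F) := by
              rw [mul_assoc, e1]; simp only [mul_assoc]
          _ = (((h⁻¹ * B⁻¹ : Matrix.GeneralLinearGroup ι F) : Matrix ι ι F) * ((B * (h * x * h⁻¹) * B⁻¹ : Matrix.GeneralLinearGroup ι F) : Matrix ι ι F)) * T' * (B : Matrix ι ι F) := by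
              rw [h1]; simp only [mul_assoc]
          _ = _ := by rw [e2]; simp only [mul_assoc])
      refine ⟨c, ?_⟩
      have e3 : ((B * h : Matrix.GeneralLinearGroup ι F) : Matrix ι ι F) * (((h⁻¹ * B⁻¹ : Matrix.GeneralLinearGroup ι F) : Matrix ι ι F) * T' * (B : Matrix ι ι F)) * ((B⁻¹ : Matrix.GeneralLinearGroup ι F) : Matrix ι ι F) = T' := by
        have f1 : ((B * h : Matrix.GeneralLinearGroup ι F) : Matrix ι ι F) * ((h⁻¹ * B⁻¹ : Matrix.GeneralLinearGroup ι F) : Matrix ι ι F) = 1 := by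
          rw [← Units.val_mul]
          have : (B * h) * (h⁻¹ * B⁻¹) = 1 := by group
          rw [this, Units.val_one]
        have f2 : (B : Matrix ι ι F) * ((B⁻¹ : Matrix.GeneralLinearGroup ι F) : Matrix ι ι F) = 1 := by
          rw [← Units.val_mul, mul_inv_cancel, Units.val_one]
        calc _ = (((B * h : Matrix.GeneralLinearGroup ι F) : Matrix ι ι F) * ((h⁻¹ * B⁻¹ : Matrix.GeneralLinearGroup ι F) : Matrix ι ι F)) * T' * ((B : Matrix ι ι F) * ((B⁻¹ : Matrix.GeneralLinearGroup ι F) : Matrix ι ι F)) := by simp only [mul_assoc]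
          _ = T' := by rw [f1, f2, one_mul, mul_one]
      rw [← e3, hc, Matrix.mul_smul, Matrix.smul_mul, mul_one]
      rfl)
  -- write the element as rational times scalar
  have hu : IsUnit T' := by
    rw [hT'c]
    have : IsUnit ((Units.mk0 c hc • (1 : Matrix ι ι F)) * ((B * h * B⁻¹ : Matrix.GeneralLinearGroup ι F) : Matrix ι ι F)) :=
      (isUnit_one.smul (Units.mk0 c hc)).mul (Units.isUnit _)
    rw [Matrix.smul_mul, one_mul] at this
    exact this
  obtain ⟨T'', hT''⟩ := hu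
  have h1 : T'' ∈ (Matrix.GeneralLinearGroup.map (F₀.subtype : F₀ →+* F)).range := exists_map F₀ (by rw [hT'']; exact hT')
  have h2 : (B * h * B⁻¹) * T''⁻¹ ∈ scalars ι F := by
    rw [mem_scalars_iff]
    refine ⟨(Units.mk0 c hc)⁻¹, ?_⟩
    have h3 : ((B * h * B⁻¹ : Matrix.GeneralLinearGroup ι F) : Matrix ι ι F) = c⁻¹ • (T'' : Matrix ι ι F) := by
      rw [hT'', hT'c, smul_smul, inv_mul_cancel₀ hc, one_smul]
    rw [Units.val_mul, h3, Matrix.smul_mul, ← Units.val_mul, mul_inv_cancel, Units.val_one]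
    rfl
  refine ⟨B * h * B⁻¹, ?_, ?_⟩
  · have h3 : B * h * B⁻¹ = T'' * ((B * h * B⁻¹) * T''⁻¹) := by
      rw [← scalar_comm h2 T'', inv_mul_cancel_right]
    rw [h3]
    exact Subgroup.mul_mem_sup h1 h2
  · change B⁻¹ * (B * h * B⁻¹) * B⁻¹⁻¹ = h
    group


theorem no_symm_char_two [Finite F] (h2 : (2 : F) = 0) (hodd : Odd (Fintype.card ι)) (hn : 2 ≤ Fintype.card ι) {N : Subgroup (Matrix.GeneralLinearGroup ι F)}
    (hirr : Irr N) {f : (ι → F) → (ι → F) → F} (hf : IsBilinearForm f) (hsym : ∀ x y, f x y = f y x) (hnd : IsNondegenerateForm f)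
    (hfix : ∀ g ∈ N, ∀ x y, f (Matrix.mulVec (g : Matrix ι ι F) x) (Matrix.mulVec (g : Matrix ι ι F) y) = f x y) : False := by
  haveI : Fintype F := Fintype.ofFinite F
  let W : Submodule F (ι → F) :=
    { carrier := {x | f x x = 0}
      zero_mem' := by
        change f 0 0 = 0
        have := hf.smul_left 0 0 0
        rw [zero_smul, zero_mul] at this
        exact this
      add_mem' := by
        intro x y hx hy
        change f (x + y) (x + y) = 0
        rw [hf.add_left, hf.add_right, hf.add_right, Set.mem_ofPred.1 hx, Set.mem_ofPred.1 hy, hsym y x]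
        linear_combination (f x y) * h2
      smul_mem' := by
        intro c x hx
        change f (c • x) (c • x) = 0
        rw [hf.smul_left, hf.smul_right, Set.mem_ofPred.1 hx, mul_zero, mul_zero] }
  have hsq : ∀ a : F, ∃ t : F, a = t ^ 2 := by
    intro a
    obtain ⟨t, ht⟩ := FiniteField.isSquare_of_char_two (F := F) (by
      apply CharP.ringChar_of_prime_eq_zero Nat.prime_two
      exact_mod_cast h2) a
    exact ⟨t, by rw [ht, pow_two]⟩
  rcases hirr W (fun g hg w hw => by change f _ _ = 0; rw [hfix g hg]; exact hw) with h1 | h1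
  · -- two independent vectors
    obtain ⟨x, hx⟩ : ∃ x : ι → F, x ≠ 0 := by
      haveI : Nonempty ι := Fintype.card_pos_iff.1 (by omega)
      exact exists_ne 0
    obtain ⟨y, hy⟩ : ∃ y : ι → F, y ∉ Submodule.span F {x} := by
      by_contra hcon
      push Not at hcon
      have h3 := Submodule.finrank_mono (show (⊤ : Submodule F (ι → F)) ≤ Submodule.span F {x} from fun z _ => hcon z)
      rw [finrank_top, finrank_fintype_fun_eq_card, finrank_span_singleton hx] at h3
      omega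
    have hxx : f x x ≠ 0 := by
      intro h3
      have : x ∈ W := h3
      rw [h1, Submodule.mem_bot] at this
      exact hx this
    obtain ⟨c, hc⟩ := hsq (f y y * (f x x)⁻¹)
    have h3 : c • x + y ∈ W := by
      change f (c • x + y) (c • x + y) = 0
      rw [hf.add_left, hf.add_right, hf.add_right, hf.smul_left, hf.smul_left, hf.smul_right, hf.smul_right, hsym y x]
      have h4 : c ^ 2 * f x x = f y y := by rw [← hc, mul_assoc, inv_mul_cancel₀ hxx, mul_one]
      linear_combination h4 + (c * f x y + f y y) * h2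
    rw [h1, Submodule.mem_bot] at h3
    apply hy
    rw [eq_neg_of_add_eq_zero_right h3]
    exact Submodule.neg_mem _ (Submodule.smul_mem _ _ (Submodule.mem_span_singleton_self x))
  · have hneg : ∀ x : F, -x = x := by
      intro x
      linear_combination (-x) * h2
    apply no_symplectic hodd (f := f)
    refine ⟨hf, fun v w => ?_, fun v => ?_, hnd⟩
    · rw [hneg, hsym]
    · have : v ∈ W := by rw [h1]; trivial
      exact this

variable {σ : F →+* F} {q : ℕ} {B : (ι → F) →ₛₗ[σ] (ι → F) →ₗ[F] F} (hq : QConj σ q) (h : HForm B)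

include hq in
theorem sigma_ne [Finite F] {F₁ : Subfield F} {s : ℕ} (hs : Odd s) (hcard : Nat.card F = Nat.card F₁ ^ s) : ∃ a ∈ F₁, σ a ≠ a := by
  by_contra hne
  push Not at hne
  haveI : Fintype F₁ := Fintype.ofFinite F₁
  obtain ⟨t, rfl⟩ := hs
  set Q := Nat.card F₁ with hQ
  have hQ1 : 1 < Q := Finite.one_lt_card
  rw [hq.card] at hcard
  have h1 : Q ^ t ∣ q := by
    rw [← Nat.pow_dvd_pow_iff (n := 2) two_ne_zero, hcard]
    exact ⟨Q, by rw [← pow_mul, pow_succ, mul_comm t]⟩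
  obtain ⟨r, hr⟩ := h1
  have h2 : Q = r ^ 2 := by
    rw [hr, mul_pow, ← pow_mul, pow_succ, mul_comm t] at hcard
    exact (Nat.eq_of_mul_eq_mul_left (pow_pos (by omega) _) hcard).symm
  have hr1 : 1 < r := by
    by_contra hcon
    have : r = 0 ∨ r = 1 := by omega
    rcases this with h3 | h3 <;> rw [h3] at h2 <;> omega
  have h3 : ∀ a ∈ F₁, ∀ k, a ^ Q ^ k = a := by
    intro a ha k
    induction k with
    | zero => rw [pow_zero, pow_one]
    | succ k ih => rw [pow_succ, pow_mul, ih]; exact (mem_iff_pow F₁ a).1 ha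
  have h4 : ∀ a : F₁, a ^ r = a := by
    intro a
    apply Subtype.ext
    have h5 := hne a a.2
    rw [hq.pow, hr, pow_mul, h3 a a.2] at h5
    exact h5
  classical
  have h5 : (Finset.univ : Finset F₁) ⊆ (Polynomial.X ^ r - Polynomial.X : Polynomial F₁).roots.toFinset := by
    intro a _
    rw [Multiset.mem_toFinset, Polynomial.mem_roots (FiniteField.X_pow_card_sub_X_ne_zero F₁ hr1), Polynomial.IsRoot.def]
    simp [h4 a]
  have h6 := Finset.card_le_card h5
  have h7 := Multiset.toFinset_card_le (Polynomial.X ^ r - Polynomial.X : Polynomial F₁).roots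
  have h8 := Polynomial.card_roots' (Polynomial.X ^ r - Polynomial.X : Polynomial F₁)
  rw [FiniteField.X_pow_card_sub_X_natDegree_eq F₁ hr1] at h8
  rw [Finset.card_univ, ← Nat.card_eq_fintype_card, ← hQ, h2] at h6
  nlinarith

/-- Gram matrix -/
def gm (B : (ι → F) →ₛₗ[σ] (ι → F) →ₗ[F] F) (Q : Matrix.GeneralLinearGroup ι F) : Matrix ι ι F :=
  fun i j => B (Matrix.mulVec (Q : Matrix ι ι F) (Pi.single i 1)) (Matrix.mulVec (Q : Matrix ι ι F) (Pi.single j 1))

theorem gm_right (Q : Matrix.GeneralLinearGroup ι F) (z y : ι → F) :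
    B z (Matrix.mulVec (Q : Matrix ι ι F) y) = ∑ j, y j * B z (Matrix.mulVec (Q : Matrix ι ι F) (Pi.single j 1)) := by
  have h1 : ∀ w, B z (Matrix.mulVec (Q : Matrix ι ι F) w) = ((B z).comp (Matrix.toLin' (Q : Matrix ι ι F))) w := by
    intro w
    rw [LinearMap.comp_apply, toLin_apply]
  rw [h1]
  conv_lhs => rw [pi_eq_sum_univ' y, map_sum]
  apply Finset.sum_congr rfl
  intro j _
  rw [map_smul, smul_eq_mul, ← h1]

include h in
theorem gm_left (Q : Matrix.GeneralLinearGroup ι F) (z x : ι → F) :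
    B (Matrix.mulVec (Q : Matrix ι ι F) x) z = ∑ i, σ (x i) * B (Matrix.mulVec (Q : Matrix ι ι F) (Pi.single i 1)) z := by
  rw [← h.symm, gm_right, map_sum]
  apply Finset.sum_congr rfl
  intro i _
  rw [map_mul, h.symm]

include h in
theorem gm_apply (Q : Matrix.GeneralLinearGroup ι F) (x y : ι → F) :
    B (Matrix.mulVec (Q : Matrix ι ι F) x) (Matrix.mulVec (Q : Matrix ι ι F) y) = ∑ i, σ (x i) * ∑ j, y j * gm B Q i j := by
  rw [gm_left h]
  apply Finset.sum_congr rfl
  intro i _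
  rw [gm_right]
  rfl

include h in
theorem gm_unit (Q : Matrix.GeneralLinearGroup ι F) : IsUnit (gm B Q) := by
  rw [← Matrix.mulVec_injective_iff_isUnit]
  have h1 : Function.Injective (Matrix.toLin' (gm B Q)) := by
    rw [← LinearMap.ker_eq_bot, eq_bot_iff]
    intro w hw
    rw [LinearMap.mem_ker, Matrix.toLin'_apply] at hw
    rw [Submodule.mem_bot]
    have h2 : Matrix.mulVec (Q : Matrix ι ι F) w = 0 := by
      apply h.nd
      intro y
      apply h.eq_zero_comm
      rw [← mulVec_inv Q y, gm_apply h]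
      apply Finset.sum_eq_zero
      intro i _
      have h3 : ∑ j, w j * gm B Q i j = 0 := by
        have := congrFun hw i
        rw [Pi.zero_apply] at this
        rw [← this]
        simp only [Matrix.mulVec, dotProduct]
        exact Finset.sum_congr rfl fun j _ => mul_comm _ _
      rw [h3, mul_zero]
    rw [← Matrix.mulVec_zero (Q : Matrix ι ι F)] at h2
    exact mulVec_injective Q h2
  exact h1

include h in
theorem gm_inv {Q x : Matrix.GeneralLinearGroup ι F} (hx : x ∈ UB B) :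
    gm B Q * ((Q⁻¹ * x * Q : Matrix.GeneralLinearGroup ι F) : Matrix ι ι F) = (((Q⁻¹ * x⁻¹ * Q : Matrix.GeneralLinearGroup ι F) : Matrix ι ι F).map σ).transpose * gm B Q := by
  ext i j
  have hcol : ∀ (g : Matrix.GeneralLinearGroup ι F) k l, (g : Matrix ι ι F) k l = Matrix.mulVec (g : Matrix ι ι F) (Pi.single l 1) k := by
    intro g k l
    rw [Matrix.mulVec_single_one]
    rfl
  have e1 : (gm B Q * ((Q⁻¹ * x * Q : Matrix.GeneralLinearGroup ι F) : Matrix ι ι F)) i j =
      B (Matrix.mulVec (Q : Matrix ι ι F) (Pi.single i 1)) (Matrix.mulVec (x : Matrix ι ι F) (Matrix.mulVec (Q : Matrix ι ι F) (Pi.single j 1))) := by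
    have h2 : Matrix.mulVec (x : Matrix ι ι F) (Matrix.mulVec (Q : Matrix ι ι F) (Pi.single j 1)) =
        Matrix.mulVec (Q : Matrix ι ι F) (Matrix.mulVec ((Q⁻¹ * x * Q : Matrix.GeneralLinearGroup ι F) : Matrix ι ι F) (Pi.single j 1)) := by
      rw [← mulVec_mul, ← mulVec_mul]
      congr 2
      group
    rw [h2, gm_right, Matrix.mul_apply]
    apply Finset.sum_congr rfl
    intro k _
    rw [hcol (Q⁻¹ * x * Q) k j, mul_comm]
    rfl
  have e2 : ((((Q⁻¹ * x⁻¹ * Q : Matrix.GeneralLinearGroup ι F) : Matrix ι ι F).map σ).transpose * gm B Q) i j =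
      B (Matrix.mulVec ((x⁻¹ : Matrix.GeneralLinearGroup ι F) : Matrix ι ι F) (Matrix.mulVec (Q : Matrix ι ι F) (Pi.single i 1))) (Matrix.mulVec (Q : Matrix ι ι F) (Pi.single j 1)) := by
    have h2 : Matrix.mulVec ((x⁻¹ : Matrix.GeneralLinearGroup ι F) : Matrix ι ι F) (Matrix.mulVec (Q : Matrix ι ι F) (Pi.single i 1)) =
        Matrix.mulVec (Q : Matrix ι ι F) (Matrix.mulVec ((Q⁻¹ * x⁻¹ * Q : Matrix.GeneralLinearGroup ι F) : Matrix ι ι F) (Pi.single i 1)) := by
      rw [← mulVec_mul, ← mulVec_mul]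
      congr 2
      group
    rw [h2, gm_left h, Matrix.mul_apply]
    apply Finset.sum_congr rfl
    intro k _
    rw [Matrix.transpose_apply, Matrix.map_apply, hcol (Q⁻¹ * x⁻¹ * Q) k i]
    rfl
  rw [e1, e2, ← hx (Matrix.mulVec ((x⁻¹ : Matrix.GeneralLinearGroup ι F) : Matrix ι ι F) (Matrix.mulVec (Q : Matrix ι ι F) (Pi.single i 1))), mulVec_inv]

include hq h in
theorem gm_rational [Nonempty ι] {N : Subgroup (Matrix.GeneralLinearGroup ι F)} (hN : N ≤ UB B) (habs : ActsAbsolutelyIrreducibly (matrixSet N)) {F₁ : Subfield F}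
    {Q : Matrix.GeneralLinearGroup ι F} (hQ : ∀ x ∈ N, ∀ i j, ((Q⁻¹ * x * Q : Matrix.GeneralLinearGroup ι F) : Matrix ι ι F) i j ∈ F₁) :
    ∃ c : F, c ≠ 0 ∧ ∀ i j, c * gm B Q i j ∈ F₁ := by
  have hM := gm_unit h Q
  have hd : IsUnit (gm B Q).det := (Matrix.isUnit_iff_isUnit_det _).1 hM
  obtain ⟨c, T', hc, hT', hT'c⟩ := rational_intertwiner F₁
    (S := {s | ∃ x ∈ N, s = (((Q⁻¹ * x * Q : Matrix.GeneralLinearGroup ι F) : Matrix ι ι F), (((Q⁻¹ * x⁻¹ * Q : Matrix.GeneralLinearGroup ι F) : Matrix ι ι F).map σ).transpose)})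
    (T := gm B Q)
    (by
      rintro _ ⟨x, hx, rfl⟩
      refine ⟨hQ x hx, fun i j => ?_⟩
      change σ _ ∈ F₁
      rw [hq.pow]
      exact F₁.pow_mem (hQ _ (N.inv_mem hx) _ _) _)
    hM.ne_zero
    (by
      rintro _ ⟨x, hx, rfl⟩
      exact gm_inv h (hN hx))
    (by
      intro T' hT'
      obtain ⟨c, hc⟩ := habs.2 ((Q : Matrix ι ι F) * ((gm B Q)⁻¹ * T') * ((Q⁻¹ : Matrix.GeneralLinearGroup ι F) : Matrix ι ι F)) (by
        rintro _ ⟨x, hx, rfl⟩
        have h1 := hT' _ ⟨x, hx, rfl⟩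
        simp only at h1
        have h2 := gm_inv h (Q := Q) (hN hx)
        set g := ((Q⁻¹ * x * Q : Matrix.GeneralLinearGroup ι F) : Matrix ι ι F) with hg
        have h3 : g * (gm B Q)⁻¹ = (gm B Q)⁻¹ * (((Q⁻¹ * x⁻¹ * Q : Matrix.GeneralLinearGroup ι F) : Matrix ι ι F).map σ).transpose := by
          calc g * (gm B Q)⁻¹ = (gm B Q)⁻¹ * (gm B Q * g) * (gm B Q)⁻¹ := by
                rw [← mul_assoc, Matrix.nonsing_inv_mul _ hd, one_mul]
            _ = (gm B Q)⁻¹ * ((((Q⁻¹ * x⁻¹ * Q : Matrix.GeneralLinearGroup ι F) : Matrix ι ι F).map σ).transpose * gm B Q) * (gm B Q)⁻¹ := by rw [h2]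
            _ = _ := by rw [mul_assoc, mul_assoc, Matrix.mul_nonsing_inv _ hd, mul_one]
        have h4 : ((gm B Q)⁻¹ * T') * g = g * ((gm B Q)⁻¹ * T') := by
          rw [mul_assoc, h1, ← mul_assoc, ← h3, mul_assoc]
        have e1 : ((Q⁻¹ : Matrix.GeneralLinearGroup ι F) : Matrix ι ι F) * (x : Matrix ι ι F) = g * ((Q⁻¹ : Matrix.GeneralLinearGroup ι F) : Matrix ι ι F) := by
          rw [hg, ← Units.val_mul, ← Units.val_mul]
          congr 1
          group
        have e2 : (x : Matrix ι ι F) * (Q : Matrix ι ι F) = (Q : Matrix ι ι F) * g := by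
          rw [hg, ← Units.val_mul, ← Units.val_mul]
          congr 1
          group
        change (Q : Matrix ι ι F) * ((gm B Q)⁻¹ * T') * ((Q⁻¹ : Matrix.GeneralLinearGroup ι F) : Matrix ι ι F) * (x : Matrix ι ι F) = (x : Matrix ι ι F) * ((Q : Matrix ι ι F) * ((gm B Q)⁻¹ * T') * ((Q⁻¹ : Matrix.GeneralLinearGroup ι F) : Matrix ι ι F))
        calc (Q : Matrix ι ι F) * ((gm B Q)⁻¹ * T') * ((Q⁻¹ : Matrix.GeneralLinearGroup ι F) : Matrix ι ι F) * (x : Matrix ι ι F)
            = (Q : Matrix ι ι F) * (((gm B Q)⁻¹ * T') * g) * ((Q⁻¹ : Matrix.GeneralLinearGroup ι F) : Matrix ι ι F) := by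
              rw [mul_assoc _ _ (x : Matrix ι ι F), e1]; simp only [mul_assoc]
          _ = ((Q : Matrix ι ι F) * g) * ((gm B Q)⁻¹ * T') * ((Q⁻¹ : Matrix.GeneralLinearGroup ι F) : Matrix ι ι F) := by rw [h4]; simp only [mul_assoc]
          _ = _ := by rw [← e2]; simp only [mul_assoc])
      refine ⟨c, ?_⟩
      have f1 : ((Q⁻¹ : Matrix.GeneralLinearGroup ι F) : Matrix ι ι F) * (Q : Matrix ι ι F) = 1 := by
        rw [← Units.val_mul, inv_mul_cancel, Units.val_one]
      have h5 : (gm B Q)⁻¹ * T' = c • (1 : Matrix ι ι F) := by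
        calc (gm B Q)⁻¹ * T' = (((Q⁻¹ : Matrix.GeneralLinearGroup ι F) : Matrix ι ι F) * (Q : Matrix ι ι F)) * ((gm B Q)⁻¹ * T') * (((Q⁻¹ : Matrix.GeneralLinearGroup ι F) : Matrix ι ι F) * (Q : Matrix ι ι F)) := by
              rw [f1, one_mul, mul_one]
          _ = ((Q⁻¹ : Matrix.GeneralLinearGroup ι F) : Matrix ι ι F) * ((Q : Matrix ι ι F) * ((gm B Q)⁻¹ * T') * ((Q⁻¹ : Matrix.GeneralLinearGroup ι F) : Matrix ι ι F)) * (Q : Matrix ι ι F) := by
              simp only [mul_assoc]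
          _ = c • (1 : Matrix ι ι F) := by rw [hc, Matrix.mul_smul, mul_one, Matrix.smul_mul, f1]
      calc T' = gm B Q * ((gm B Q)⁻¹ * T') := by rw [← mul_assoc, Matrix.mul_nonsing_inv _ hd, one_mul]
        _ = c • gm B Q := by rw [h5, Matrix.mul_smul, mul_one])
  refine ⟨c, hc, fun i j => ?_⟩
  have h6 := hT' i j
  rw [hT'c] at h6
  exact h6

end CfsgLib.Asu3
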