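import Cfsg.Agent.Lib.Asu3

set_option autoImplicit false
set_option maxHeartbeats 400000

/-! Subfield case for maximal subgroups of unitary groups. -/
namespace CfsgLib.Asu4

open Cfsg Cfsg.Geo Module CfsgLib.GeoBase CfsgLib.Asch1 CfsgLib.Asch2 CfsgLib.Asch3 CfsgLib.Asch4 CfsgLib.Asch5 CfsgLib.Asch6 CfsgLib.Asch7 CfsgLib.Asch10 CfsgLib.Asch12 CfsgLib.Herm CfsgLib.Csim1 CfsgLib.Csim3 CfsgLib.Asu1 CfsgLib.Asu2 CfsgLib.Asu3
open CfsgLib.Mob35

universe u v

variable {ι : Type} [Fintype ι] [DecidableEq ι] {F : Type u} [Field F]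
variable {σ : F →+* F} {q : ℕ} {B : (ι → F) →ₛₗ[σ] (ι → F) →ₗ[F] F} (hq : QConj σ q) (h : HForm B)

include hq h in
theorem subfield_u [Fintype F] (h7 : 7 ≤ Fintype.card ι) (hodd : Odd (Fintype.card ι)) {N H : Subgroup (Matrix.GeneralLinearGroup ι F)} (hNI : NI N H)
    (habs : ActsAbsolutelyIrreducibly (matrixSet N)) (hH : IsMaximalIn (GB B) H) {F₀ : Subfield F} (hF : F₀ ≠ ⊤) (hr : RealisableOver F₀ (matrixSet N)) :
    (∃ (F₀ : Subfield F) (r : ℕ) (P : Matrix.GeneralLinearGroup ι F), r.Prime ∧ Odd r ∧ Fintype.card F = Nat.card F₀ ^ r ∧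
      IsFormRationalStructure (fB B) F₀ 1 P ∧ H = subfieldSubgroup F₀ P ⊓ GB B) ∨
    (Odd q ∧ ∃ (F₀ : Subfield F) (P : Matrix.GeneralLinearGroup ι F), Fintype.card F = Nat.card F₀ ^ 2 ∧
      IsFormRationalStructure (fB B) F₀ 1 P ∧ H = subfieldSubgroup F₀ P ⊓ GB B) := by
  haveI : Nonempty ι := Fintype.card_pos_iff.1 (by omega)
  obtain ⟨F₁, s, h1, h2, h3, h4⟩ := exists_prime_index hF
  obtain ⟨A, hA⟩ := realisable_mono h1 hr
  have hNU : N ≤ UB B := fun x hx => (hH.1.le (hNI.1 hx)).1
  have hQ : ∀ x ∈ N, ∀ i j, ((A⁻¹⁻¹ * x * A⁻¹ : Matrix.GeneralLinearGroup ι F) : Matrix ι ι F) i j ∈ F₁ := by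
    intro x hx i j
    rw [inv_inv]
    exact hA _ ⟨x, hx, rfl⟩ i j
  set Q := A⁻¹ with hQdef
  obtain ⟨c, hc0, hc⟩ := gm_rational hq h hNU habs hQ
  have hσF : ∀ a ∈ F₁, σ a ∈ F₁ := fun a ha => by rw [hq.pow]; exact F₁.pow_mem ha _
  have hrat : ∀ u v : ι → F, (∀ i, u i ∈ F₁) → (∀ i, v i ∈ F₁) → c * B (Matrix.mulVec (Q : Matrix ι ι F) u) (Matrix.mulVec (Q : Matrix ι ι F) v) ∈ F₁ := by
    intro u v hu hv
    rw [gm_apply h, Finset.mul_sum]
    apply F₁.sum_mem
    intro i _
    rw [Finset.mul_sum, Finset.mul_sum]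
    apply F₁.sum_mem
    intro j _
    have e : c * (σ (u i) * (v j * gm B Q i j)) = σ (u i) * (v j * (c * gm B Q i j)) := by ring
    rw [e]
    exact F₁.mul_mem (hσF _ (hu i)) (F₁.mul_mem (hv j) (hc i j))
  have hgt : ∀ i j, σ (gm B Q i j) = gm B Q j i := fun i j => h.symm _ _
  rcases h3.eq_two_or_odd' with hs | hs
  · right
    rw [hs] at h4
    -- the subfield is the fixed field
    have hcq : Nat.card F₁ = q := by
      have h5 := hq.card
      rw [Nat.card_eq_fintype_card, h4] at h5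
      exact (Nat.pow_left_injective two_ne_zero) h5
    have hfix : ∀ a, a ∈ F₁ ↔ σ a = a := by
      intro a
      rw [mem_iff_pow, hcq, hq.pow]
    have hst : ∀ i j, σ c * gm B Q j i = c * gm B Q i j := by
      intro i j
      have := (hfix _).1 (hc i j)
      rw [map_mul, hgt] at this
      exact this
    obtain ⟨i, j, hij⟩ : ∃ i j, gm B Q i j ≠ 0 := by
      by_contra hcon
      push Not at hcon
      exact (gm_unit h Q).ne_zero (by ext i j; exact hcon i j)
    have hcc : (σ c - c) * (σ c + c) = 0 := by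
      have e1 := hst i j
      have e2 := hst j i
      have : ((σ c - c) * (σ c + c)) * gm B Q i j = 0 := by linear_combination (σ c) * e2 + c * e1
      exact (mul_eq_zero.1 this).resolve_right hij
    have hσc : σ c = c := by
      rcases mul_eq_zero.1 hcc with h5 | h5
      · exact sub_eq_zero.1 h5
      · by_contra hne
        have hσc : σ c = -c := eq_neg_of_add_eq_zero_left h5
        have htr : (gm B Q).transpose = - gm B Q := by
          ext k l
          rw [Matrix.transpose_apply, Matrix.neg_apply]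
          have := hst k l
          rw [hσc] at this
          have h6 : c * (gm B Q l k + gm B Q k l) = 0 := by linear_combination -this
          exact eq_neg_of_add_eq_zero_left ((mul_eq_zero.1 h6).resolve_left hc0)
        have hdet : (gm B Q).det = - (gm B Q).det := by
          conv_lhs => rw [← Matrix.det_transpose, htr, Matrix.det_neg, hodd.neg_one_pow]
          ring
        have h2F : (2 : F) ≠ 0 := by
          intro h0
          apply hne
          rw [hσc]
          linear_combination (-c) * h0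
        have hd := ((Matrix.isUnit_iff_isUnit_det _).1 (gm_unit h Q)).ne_zero
        have h6 : (2 : F) * (gm B Q).det = 0 := by linear_combination hdet
        rcases mul_eq_zero.1 h6 with h7 | h7
        · exact h2F h7
        · exact hd h7
    have hcF : c ∈ F₁ := (hfix c).2 hσc
    have hform : IsFormRationalStructure (fB B) F₁ 1 Q := by
      intro u v hu hv
      rw [one_mul]
      change B (Matrix.mulVec (Q : Matrix ι ι F) v) (Matrix.mulVec (Q : Matrix ι ι F) u) ∈ F₁
      have := F₁.mul_mem (F₁.inv_mem hcF) (hrat v u hv hu)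
      rwa [← mul_assoc, inv_mul_cancel₀ hc0, one_mul] at this
    refine ⟨?_, F₁, Q, h4, hform, max_eq hH (le_subfield' hNI habs hA) (not_subfield_u hq h h7 h2 Q)⟩
    -- q is odd
    by_contra hqe
    rw [Nat.not_odd_iff_even] at hqe
    have h2F : (2 : F) = 0 := by
      have h5 : Even (Fintype.card F) := by
        rw [← Nat.card_eq_fintype_card, hq.card, pow_two]
        exact hqe.mul_left _
      have h6 := FiniteField.even_card_iff_char_two.2 (Nat.even_iff.1 h5)
      have := (ringChar.spec F 2).2 (by rw [h6])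
      exact_mod_cast this
    have hmF : ∀ k l, gm B Q k l ∈ F₁ := by
      intro k l
      have := F₁.mul_mem (F₁.inv_mem hcF) (hc k l)
      rwa [← mul_assoc, inv_mul_cancel₀ hc0, one_mul] at this
    have hsym : ∀ k l, gm B Q k l = gm B Q l k := by
      intro k l
      rw [← hgt k l]
      exact ((hfix _).1 (hmF k l)).symm
    -- the symmetric form
    let φ : (ι → F) → ι → F := fun x => Matrix.mulVec ((Q⁻¹ : Matrix.GeneralLinearGroup ι F) : Matrix ι ι F) x
    let f : (ι → F) → (ι → F) → F := fun x y => ∑ i, φ x i * ∑ j, φ y j * gm B Q i j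
    have hφa : ∀ x y, φ (x + y) = φ x + φ y := fun x y => mulVec_add' _ _ _
    have hφs : ∀ (a : F) x, φ (a • x) = a • φ x := fun a x => mulVec_smul' _ _ _
    have hfdot : ∀ x y, f x y = (φ x) ⬝ᵥ (Matrix.mulVec (gm B Q) (φ y)) := by
      intro x y
      simp only [f, dotProduct, Matrix.mulVec]
      apply Finset.sum_congr rfl
      intro k _
      congr 1
      exact Finset.sum_congr rfl fun l _ => mul_comm _ _
    have hfb : IsBilinearForm f := by
      refine ⟨fun x y v => ?_, fun a x v => ?_, fun v x y => ?_, fun a v x => ?_⟩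
      · rw [hfdot, hfdot, hfdot, hφa, add_dotProduct]
      · rw [hfdot, hfdot, hφs, smul_dotProduct, smul_eq_mul]
      · rw [hfdot, hfdot, hfdot, hφa, Matrix.mulVec_add, dotProduct_add]
      · rw [hfdot, hfdot, hφs, Matrix.mulVec_smul, dotProduct_smul, smul_eq_mul]
    have hMt : (gm B Q).transpose = gm B Q := by
      ext k l
      rw [Matrix.transpose_apply]
      exact hsym l k
    have hfs : ∀ x y, f x y = f y x := by
      intro x y
      rw [hfdot, hfdot, Matrix.dotProduct_mulVec, ← Matrix.mulVec_transpose, hMt, dotProduct_comm]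
    have hfnd : ∀ v, v ≠ 0 → ∃ x, f x v ≠ 0 := by
      intro v hv
      by_contra hcon
      push Not at hcon
      have h5 : Matrix.mulVec (gm B Q) (φ v) = 0 := by
        apply dotProduct_eq
        intro x
        rw [zero_dotProduct, dotProduct_comm]
        have := hcon (Matrix.mulVec (Q : Matrix ι ι F) x)
        rw [hfdot] at this
        have e : φ (Matrix.mulVec (Q : Matrix ι ι F) x) = x := inv_mulVec Q x
        rwa [e] at this
      have h6 : φ v = 0 := by
        have h7 := (Matrix.mulVec_injective_iff_isUnit.2 (gm_unit h Q))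
        apply h7
        rw [h5, Matrix.mulVec_zero]
      apply hv
      have h7 : φ v = φ 0 := by
        rw [h6]
        exact (Matrix.mulVec_zero _).symm
      exact mulVec_injective Q⁻¹ h7
    have hfN : ∀ g ∈ N, ∀ x y, f (Matrix.mulVec (g : Matrix ι ι F) x) (Matrix.mulVec (g : Matrix ι ι F) y) = f x y := by
      intro g hg x y
      have e1 : ∀ z, φ (Matrix.mulVec (g : Matrix ι ι F) z) = Matrix.mulVec ((Q⁻¹ * g * Q : Matrix.GeneralLinearGroup ι F) : Matrix ι ι F) (φ z) := by
        intro z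
        change Matrix.mulVec ((Q⁻¹ : Matrix.GeneralLinearGroup ι F) : Matrix ι ι F) (Matrix.mulVec (g : Matrix ι ι F) z) =
          Matrix.mulVec ((Q⁻¹ * g * Q : Matrix.GeneralLinearGroup ι F) : Matrix ι ι F) (Matrix.mulVec ((Q⁻¹ : Matrix.GeneralLinearGroup ι F) : Matrix ι ι F) z)
        rw [← mulVec_mul, ← mulVec_mul]
        congr 2
        group
      have h5 := gm_inv h (Q := Q) (hNU hg)
      have h6 : (((Q⁻¹ * g⁻¹ * Q : Matrix.GeneralLinearGroup ι F) : Matrix ι ι F).map σ) = ((Q⁻¹ * g⁻¹ * Q : Matrix.GeneralLinearGroup ι F) : Matrix ι ι F) := by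
        ext k l
        rw [Matrix.map_apply]
        exact (hfix _).1 (hQ _ (N.inv_mem hg) k l)
      rw [h6] at h5
      have h8 : ((Q⁻¹ * g * Q : Matrix.GeneralLinearGroup ι F) : Matrix ι ι F).transpose * gm B Q * ((Q⁻¹ * g * Q : Matrix.GeneralLinearGroup ι F) : Matrix ι ι F) = gm B Q := by
        rw [mul_assoc, h5, ← mul_assoc, ← Matrix.transpose_mul, ← Units.val_mul]
        have : (Q⁻¹ * g⁻¹ * Q) * (Q⁻¹ * g * Q) = 1 := by group
        rw [this, Units.val_one, Matrix.transpose_one, one_mul]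
      rw [hfdot, hfdot, e1, e1, ← Matrix.vecMul_transpose, ← Matrix.dotProduct_mulVec, Matrix.mulVec_mulVec, Matrix.mulVec_mulVec, h8]
    refine no_symm_char_two h2F hodd (by omega) (irr_iff.1 habs.1) hfb hfs (fun v hv => ?_) hfN
    obtain ⟨x, hx⟩ := hfnd v hv
    exact ⟨⟨x, hx⟩, ⟨x, by rw [hfs]; exact hx⟩⟩
  · left
    obtain ⟨a, ha, hσa⟩ := sigma_ne hq (F₁ := F₁) hs (by rw [Nat.card_eq_fintype_card, h4])
    obtain ⟨u, hu, hm⟩ : ∃ u : ι → F, (∀ i, u i ∈ F₁) ∧ B (Matrix.mulVec (Q : Matrix ι ι F) u) (Matrix.mulVec (Q : Matrix ι ι F) u) ≠ 0 := by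
      by_contra hcon
      push Not at hcon
      have hpol : ∀ u v : ι → F, (∀ i, u i ∈ F₁) → (∀ i, v i ∈ F₁) → B (Matrix.mulVec (Q : Matrix ι ι F) u) (Matrix.mulVec (Q : Matrix ι ι F) v) = 0 := by
        intro u v hu hv
        have e1 := hcon (u + v) (fun i => F₁.add_mem (hu i) (hv i))
        have e2 := hcon (u + a • v) (fun i => F₁.add_mem (hu i) (F₁.mul_mem ha (hv i)))
        rw [mulVec_add', map_add_left, map_add_right, map_add_right, hcon u hu, hcon v hv] at e1
        rw [mulVec_add', mulVec_smul', map_add_left, map_add_right, map_add_right, map_smul_left, map_smul_left, map_smul_right, map_smul_right, hcon u hu, hcon v hv] at e2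
        have e3 : (a - σ a) * B (Matrix.mulVec (Q : Matrix ι ι F) u) (Matrix.mulVec (Q : Matrix ι ι F) v) = 0 := by
          linear_combination e2 - (σ a) * e1
        exact (mul_eq_zero.1 e3).resolve_left (sub_ne_zero.2 (Ne.symm hσa))
      apply (gm_unit h Q).ne_zero
      ext k l
      apply hpol
      · intro i
        rw [Pi.single_apply]
        split_ifs
        · exact F₁.one_mem
        · exact F₁.zero_mem
      · intro i
        rw [Pi.single_apply]
        split_ifs
        · exact F₁.one_mem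
        · exact F₁.zero_mem
    set m := B (Matrix.mulVec (Q : Matrix ι ι F) u) (Matrix.mulVec (Q : Matrix ι ι F) u) with hmdef
    have hcm : c * m ∈ F₁ := hrat u u hu hu
    obtain ⟨μ, hμ0, hμ⟩ := hq.exists_norm_ne (c := m⁻¹) (by rw [map_inv₀, hmdef, h.self_fixed]) (inv_ne_zero hm)
    set P := Q * sc (Units.mk0 μ hμ0) with hP
    have hPx : ∀ x : Matrix.GeneralLinearGroup ι F, P⁻¹ * x * P = Q⁻¹ * x * Q := by
      intro x
      have e := scalar_comm (sc_mem (Units.mk0 μ hμ0)) (Q⁻¹ * x * Q)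
      rw [hP, mul_inv_rev]
      calc (sc (Units.mk0 μ hμ0))⁻¹ * Q⁻¹ * x * (Q * sc (Units.mk0 μ hμ0)) = (sc (Units.mk0 μ hμ0))⁻¹ * ((Q⁻¹ * x * Q) * sc (Units.mk0 μ hμ0)) := by group
        _ = Q⁻¹ * x * Q := by rw [← e, inv_mul_cancel_left]
    have hPr : ∀ s ∈ matrixSet N, ∀ i j, (((P⁻¹ : Matrix.GeneralLinearGroup ι F) : Matrix ι ι F) * s * ((P⁻¹⁻¹ : Matrix.GeneralLinearGroup ι F) : Matrix ι ι F)) i j ∈ F₁ := by
      rintro _ ⟨x, hx, rfl⟩ i j
      have := hQ x hx i j
      rw [← hPx x, Units.val_mul, Units.val_mul] at this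
      rw [inv_inv]
      exact this
    have hle := le_subfield' hNI habs hPr
    rw [inv_inv] at hle
    have hPv : ∀ x, Matrix.mulVec (P : Matrix ι ι F) x = μ • Matrix.mulVec (Q : Matrix ι ι F) x := by
      intro x
      rw [hP, mulVec_mul, sc_mulVec, mulVec_smul', Units.val_mk0]
    refine ⟨F₁, s, P, h3, hs, h4, fun x y hx hy => ?_, max_eq hH hle (not_subfield_u hq h h7 h2 P)⟩
    rw [one_mul]
    change B (Matrix.mulVec (P : Matrix ι ι F) y) (Matrix.mulVec (P : Matrix ι ι F) x) ∈ F₁
    rw [hPv, hPv, map_smul_left, map_smul_right]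
    have e1 : σ μ * (μ * B (Matrix.mulVec (Q : Matrix ι ι F) y) (Matrix.mulVec (Q : Matrix ι ι F) x)) =
        (c * m)⁻¹ * (c * B (Matrix.mulVec (Q : Matrix ι ι F) y) (Matrix.mulVec (Q : Matrix ι ι F) x)) := by
      rw [mul_inv, ← hμ]
      have : c⁻¹ * c = 1 := inv_mul_cancel₀ hc0
      linear_combination (-(μ * σ μ * B (Matrix.mulVec (Q : Matrix ι ι F) y) (Matrix.mulVec (Q : Matrix ι ι F) x))) * this
    rw [e1]
    exact F₁.mul_mem (F₁.inv_mem hcm) (hrat y x hy hx)

include hq h in
theorem realisable_of_forms [Finite F] [Nonempty ι] {N : Subgroup (Matrix.GeneralLinearGroup ι F)} (hNU : N ≤ UB B) (habs : ActsAbsolutelyIrreducibly (matrixSet N))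
    {b : (ι → F) → (ι → F) → F} (hb : IsBilinearForm b) (hnd : IsNondegenerateForm b)
    (hfix : ∀ g ∈ N, ∀ x y, b (Matrix.mulVec (g : Matrix ι ι F) x) (Matrix.mulVec (g : Matrix ι ι F) y) = b x y) :
    ∃ F₀ : Subfield F, F₀ ≠ ⊤ ∧ RealisableOver F₀ (matrixSet N) := by
  classical
  choose J hJ using fun x : ι → F => exists_fn (sf_bilin hb) hnd (B x)
  have huniq : ∀ z z' : ι → F, (∀ y, b y z = b y z') → z = z' := by
    intro z z' hz
    by_contra hne
    obtain ⟨⟨x, hx⟩, -⟩ := hnd (z - z') (sub_ne_zero.2 hne)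
    apply hx
    have e : z - z' = z + (-1 : F) • z' := by rw [neg_one_smul, sub_eq_add_neg]
    rw [e, hb.add_right, hb.smul_right, hz]
    ring
  have hJadd : ∀ x y, J (x + y) = J x + J y := by
    intro x y
    apply huniq
    intro z
    rw [← hJ, map_add_left, hb.add_right, ← hJ, ← hJ]
  have hJs : ∀ (c : F) x, J (c • x) = σ c • J x := by
    intro c x
    apply huniq
    intro z
    rw [← hJ, map_smul_left, hb.smul_right, ← hJ]
  have hJg : ∀ g ∈ N, ∀ x, J (Matrix.mulVec (g : Matrix ι ι F) x) = Matrix.mulVec (g : Matrix ι ι F) (J x) := by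
    intro g hg x
    apply huniq
    intro y
    rw [← hJ]
    have h1 := hNU hg x (Matrix.mulVec ((g⁻¹ : Matrix.GeneralLinearGroup ι F) : Matrix ι ι F) y)
    rw [mulVec_inv] at h1
    rw [h1, hJ, ← hfix g hg, mulVec_inv]
  have hJ0 : ∀ x, J x = 0 → x = 0 := by
    intro x hx
    apply h.nd
    intro y
    rw [hJ, hx]
    have := hb.smul_right 0 y 0
    rw [zero_smul, zero_mul] at this
    exact this
  -- the square
  let S : (ι → F) →ₗ[F] (ι → F) :=
    { toFun := fun x => J (J x)
      map_add' := fun x y => by rw [hJadd, hJadd]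
      map_smul' := fun c x => by rw [hJs, hJs, hq.invol]; rfl }
  have hSv : ∀ v, Matrix.mulVec (LinearMap.toMatrix' S) v = J (J v) := by
    intro v
    rw [LinearMap.toMatrix'_mulVec]
    rfl
  obtain ⟨l, hl⟩ := habs.2 (LinearMap.toMatrix' S) (by
    rintro _ ⟨g, hg, rfl⟩
    apply Matrix.toLin'.injective
    apply LinearMap.ext
    intro v
    rw [Matrix.toLin'_apply, Matrix.toLin'_apply, ← Matrix.mulVec_mulVec, ← Matrix.mulVec_mulVec, hSv, hSv]
    change J (J (Matrix.mulVec (g : Matrix ι ι F) v)) = Matrix.mulVec (g : Matrix ι ι F) (J (J v))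
    rw [hJg g hg, hJg g hg])
  have hJJ : ∀ v, J (J v) = l • v := by
    intro v
    rw [← hSv, hl, Matrix.smul_mulVec, Matrix.one_mulVec]
  obtain ⟨x₀, hx₀⟩ := exists_ne (0 : ι → F)
  have hJx₀ : J x₀ ≠ 0 := fun h0 => hx₀ (hJ0 _ h0)
  have hl0 : l ≠ 0 := by
    intro h0
    have := hJJ x₀
    rw [h0, zero_smul] at this
    exact hJx₀ (hJ0 _ this)
  have hσl : σ l = l := by
    have h1 := congrArg J (hJJ x₀)
    rw [hJs] at h1
    have h1' := h1.symm.trans (hJJ (J x₀))
    have h2 : (σ l - l) • J x₀ = 0 := by rw [sub_smul, h1', sub_self]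
    exact sub_eq_zero.1 ((smul_eq_zero.1 h2).resolve_right hJx₀)
  obtain ⟨μ, hμ0, hμ⟩ := hq.exists_norm_ne (c := l⁻¹) (by rw [map_inv₀, hσl]) (inv_ne_zero hl0)
  let K : (ι → F) → ι → F := fun x => μ • J x
  have hKadd : ∀ x y, K (x + y) = K x + K y := fun x y => by
    change μ • J (x + y) = μ • J x + μ • J y
    rw [hJadd, smul_add]
  have hKs : ∀ (c : F) x, K (c • x) = σ c • K x := fun c x => by
    change μ • J (c • x) = σ c • (μ • J x)
    rw [hJs, smul_comm]
  have hKK : ∀ x, K (K x) = x := by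
    intro x
    change μ • J (μ • J x) = x
    rw [hJs, hJJ, smul_smul, smul_smul, hμ, inv_mul_cancel₀ hl0, one_smul]
  have hKg : ∀ g ∈ N, ∀ x, K (Matrix.mulVec (g : Matrix ι ι F) x) = Matrix.mulVec (g : Matrix ι ι F) (K x) := by
    intro g hg x
    change μ • J _ = Matrix.mulVec (g : Matrix ι ι F) (μ • J x)
    rw [hJg g hg, mulVec_smul']
  -- fixed vectors span
  obtain ⟨θ, hθ⟩ := hq.exists_ne
  have hspan : Submodule.span F {x : ι → F | K x = x} = ⊤ := by
    rw [eq_top_iff]
    intro x _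
    have h1 : ∀ a : F, a • x + σ a • K x ∈ Submodule.span F {x : ι → F | K x = x} := by
      intro a
      apply Submodule.subset_span
      change K (a • x + σ a • K x) = a • x + σ a • K x
      rw [hKadd, hKs, hKs, hKK, hq.invol, add_comm]
    have h2 := Submodule.sub_mem _ (h1 θ) (Submodule.smul_mem _ (σ θ) (h1 1))
    rw [map_one, one_smul, one_smul, smul_add, add_sub_add_right_eq_sub, ← sub_smul] at h2
    have h3 := Submodule.smul_mem _ (θ - σ θ)⁻¹ h2
    rwa [smul_smul, inv_mul_cancel₀ (sub_ne_zero.2 (Ne.symm hθ)), one_smul] at h3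
  obtain ⟨b', hb', hbs, hbi⟩ := exists_linearIndependent F {x : ι → F | K x = x}
  rw [hspan] at hbs
  let bb := Module.Basis.mk hbi (by rw [Subtype.range_coe, hbs])
  haveI : Finite b' := hbi.finite
  haveI : Fintype b' := Fintype.ofFinite b'
  have hcard : Fintype.card b' = Fintype.card ι := by
    rw [← Module.finrank_eq_card_basis bb, finrank_fintype_fun_eq_card]
  let e : ι ≃ b' := Fintype.equivOfCardEq hcard.symm
  have hli : LinearIndependent F (fun i => (e i : ι → F)) := hbi.comp e e.injective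
  obtain ⟨Q, hQ⟩ : ∃ Q : Matrix.GeneralLinearGroup ι F, ∀ j : ι, Matrix.mulVec (Q : Matrix ι ι F) (Pi.single j 1) = e j := by
    obtain ⟨Q, hQ⟩ := Matrix.linearIndependent_cols_iff_isUnit.1
      (show LinearIndependent F (Matrix.of fun i j : ι => (e j : ι → F) i).col from hli)
    refine ⟨Q, fun j => ?_⟩
    rw [hQ, Matrix.mulVec_single_one]
    rfl
  have hKQ : ∀ c : ι → F, K (Matrix.mulVec (Q : Matrix ι ι F) c) = Matrix.mulVec (Q : Matrix ι ι F) (fun i => σ (c i)) := by
    have hKsum : ∀ (s : Finset ι) (w : ι → ι → F), K (∑ i ∈ s, w i) = ∑ i ∈ s, K (w i) := by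
      intro s w
      induction s using Finset.induction_on with
      | empty =>
        rw [Finset.sum_empty, Finset.sum_empty]
        have := hKs 0 0
        rw [zero_smul, map_zero, zero_smul] at this
        exact this
      | insert i s hi ih => rw [Finset.sum_insert hi, Finset.sum_insert hi, hKadd, ih]
    have hexp : ∀ c : ι → F, Matrix.mulVec (Q : Matrix ι ι F) c = ∑ i, c i • (e i : ι → F) := by
      intro c
      have h1 := congrArg (Matrix.toLin' (Q : Matrix ι ι F)) (pi_eq_sum_univ' c)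
      rw [map_sum] at h1
      rw [← toLin_apply, h1]
      apply Finset.sum_congr rfl
      intro i _
      rw [map_smul, toLin_apply, ← hQ i]
    intro c
    rw [hexp, hexp, hKsum]
    apply Finset.sum_congr rfl
    intro i _
    rw [hKs]
    congr 1
    exact hb' (e i).2
  refine ⟨RingHom.eqLocusField σ (RingHom.id F), ?_, Q⁻¹, ?_⟩
  · intro h1
    have : θ ∈ RingHom.eqLocusField σ (RingHom.id F) := by rw [h1]; trivial
    exact hθ this
  · rintro _ ⟨x, hx, rfl⟩ i j
    have h1 : K (Matrix.mulVec (x : Matrix ι ι F) (e j)) = Matrix.mulVec (x : Matrix ι ι F) (e j) := by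
      rw [hKg x hx]
      congr 1
      exact hb' (e j).2
    have h2 : Matrix.mulVec (x : Matrix ι ι F) (e j) = Matrix.mulVec (Q : Matrix ι ι F) (Matrix.mulVec ((Q⁻¹ * x * Q : Matrix.GeneralLinearGroup ι F) : Matrix ι ι F) (Pi.single j 1)) := by
      rw [← hQ j, ← mulVec_mul, ← mulVec_mul]
      congr 2
      group
    rw [h2, hKQ] at h1
    have h3 := congrFun (mulVec_injective Q h1) i
    rw [Matrix.mulVec_single_one] at h3
    rw [inv_inv]
    change σ _ = _
    rw [Units.val_mul, Units.val_mul] at h3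
    exact h3

end CfsgLib.Asu4
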