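import Cfsg.Agent.Lib.Quad14
import Cfsg.Prelude.Def_LieTypeDatum

/-!
# Automorphisms of `PΩ(Q)`, part 1: Siegel transformations
-/

set_option autoImplicit false
set_option linter.unusedSimpArgs false
set_option linter.unusedSectionVars false

namespace CfsgLib.AutPO

open Module Cfsg CfsgLib.Quad

variable {F V : Type*} [Field F] [AddCommGroup V] [Module F V] [FiniteDimensional F V]

local notation "β[" Q "]" => QuadraticMap.polarBilin Q

variable {Q : QuadraticForm F V}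

theorem G_ext {g h : eichG Q} (H : ∀ x, g.1.1 x = h.1.1 x) : g = h := Subtype.ext (O_ext H)

theorem mul_ap (g h : eichG Q) (x : V) : (g * h).1.1 x = g.1.1 (h.1.1 x) := rfl

theorem one_ap (x : V) : (1 : eichG Q).1.1 x = x := rfl

theorem inv_ap (g : eichG Q) (x : V) : (g⁻¹).1.1 (g.1.1 x) = x := by
  rw [← mul_ap, inv_mul_cancel, one_ap]

theorem ap_inv (g : eichG Q) (x : V) : g.1.1 ((g⁻¹).1.1 x) = x := by
  rw [← mul_ap, mul_inv_cancel, one_ap]

theorem pol (g : eichG Q) (x y : V) : β[Q] (g.1.1 x) (g.1.1 y) = β[Q] x y := polar_coe Q g.1 x y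

theorem qf (g : eichG Q) (x : V) : Q (g.1.1 x) = Q x := map_coe Q g.1 x

theorem ap_add (g : eichG Q) (x y : V) : g.1.1 (x + y) = g.1.1 x + g.1.1 y := _root_.map_add _ _ _
theorem ap_sub (g : eichG Q) (x y : V) : g.1.1 (x - y) = g.1.1 x - g.1.1 y := _root_.map_sub _ _ _
theorem ap_smul (g : eichG Q) (c : F) (y : V) : g.1.1 (c • y) = c • g.1.1 y := _root_.map_smul _ _ _

theorem ap_ne_zero (g : eichG Q) {u : V} (hu : u ≠ 0) : g.1.1 u ≠ 0 := by
  intro h
  exact hu ((LinearEquiv.map_eq_zero_iff g.1.1).1 h)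

theorem ap_inj (g : eichG Q) {u v : V} (h : g.1.1 u = g.1.1 v) : u = v := g.1.1.injective h

/-- total version of the Siegel transformations -/
noncomputable def ei (Q : QuadraticForm F V) (u y : V) : eichG Q := by
  classical
  exact if h : Q u = 0 ∧ β[Q] u y = 0 then ⟨eichO h.1 h.2, eichO_mem _ _⟩ else 1

theorem ei_coe {u y : V} (hu : Q u = 0) (huy : β[Q] u y = 0) : (ei Q u y).1 = eichO hu huy := by
  rw [ei, dif_pos ⟨hu, huy⟩]

theorem ei_apply {u y : V} (hu : Q u = 0) (huy : β[Q] u y = 0) (x : V) :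
    (ei Q u y).1.1 x = x + (β[Q] u x) • y + (- β[Q] y x - Q y * β[Q] u x) • u := by
  rw [ei_coe hu huy, eichO_apply]

theorem ei_sing {u y : V} (hu : Q u = 0) (hy : Q y = 0) (huy : β[Q] u y = 0) (x : V) :
    (ei Q u y).1.1 x = x + (β[Q] u x) • y - (β[Q] y x) • u := by
  rw [ei_apply hu huy, hy]
  module

theorem ei_mul {u y y' : V} (hu : Q u = 0) (huy : β[Q] u y = 0) (huy' : β[Q] u y' = 0) :
    ei Q u y * ei Q u y' = ei Q u (y + y') := by
  have h : β[Q] u (y + y') = 0 := by rw [LinearMap.map_add, huy, huy', add_zero]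
  apply Subtype.ext
  rw [Subgroup.coe_mul, ei_coe hu huy, ei_coe hu huy', ei_coe hu h, eichO_mul hu huy huy' h]

theorem ei_zero (u : V) : ei Q u 0 = 1 := by
  by_cases hu : Q u = 0
  · apply G_ext
    intro x
    rw [ei_apply hu (by rw [LinearMap.map_zero]), one_ap]
    simp
  · rw [ei, dif_neg (fun h => hu h.1)]

theorem zero_ei (y : V) : ei Q 0 y = 1 := by
  apply G_ext
  intro x
  rw [ei_apply (QuadraticMap.map_zero Q) (by simp), one_ap]
  simp

theorem ei_inv {u y : V} (hu : Q u = 0) (huy : β[Q] u y = 0) : (ei Q u y)⁻¹ = ei Q u (-y) := by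
  rw [inv_eq_iff_mul_eq_one, ei_mul hu huy (by rw [LinearMap.map_neg, huy, neg_zero]), add_neg_cancel, ei_zero]

theorem ei_conj (g : eichG Q) {u y : V} (hu : Q u = 0) (huy : β[Q] u y = 0) :
    g * ei Q u y * g⁻¹ = ei Q (g.1.1 u) (g.1.1 y) := by
  apply Subtype.ext
  rw [Subgroup.coe_mul, Subgroup.coe_mul, Subgroup.coe_inv, ei_coe hu huy,
    ei_coe (u := g.1.1 u) (y := g.1.1 y) (by rw [qf]; exact hu) (by rw [pol]; exact huy), eichO_conj]

theorem ei_smul {u y : V} (hu : Q u = 0) (huy : β[Q] u y = 0) (t : F) : ei Q (t • u) y = ei Q u (t • y) := by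
  have h1 : Q (t • u) = 0 := by rw [Quad.map_smul, hu, mul_zero]
  have h2 : β[Q] (t • u) y = 0 := by rw [LinearMap.map_smul, LinearMap.smul_apply, huy, smul_zero]
  have h3 : β[Q] u (t • y) = 0 := by rw [LinearMap.map_smul, huy, smul_zero]
  apply Subtype.ext
  rw [ei_coe h1 h2, ei_coe hu h3, eichO_smul hu huy t h1 h2 h3]

theorem pol_self {u : V} (hu : Q u = 0) : β[Q] u u = 0 := by rw [polar_self, hu, mul_zero]

theorem ei_add_self {u y : V} (hu : Q u = 0) (huy : β[Q] u y = 0) (t : F) : ei Q u (y + t • u) = ei Q u y := by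
  have h3 : β[Q] u (t • u) = 0 := by rw [LinearMap.map_smul, pol_self hu, smul_zero]
  rw [← ei_mul hu huy h3]
  have : ei Q u (t • u) = 1 := by
    apply Subtype.ext
    rw [ei_coe hu h3, eichO_eq_one]
    rfl
  rw [this, mul_one]

theorem ei_self {u : V} (hu : Q u = 0) (t : F) : ei Q u (t • u) = 1 := by
  have := ei_add_self hu (y := 0) (by rw [LinearMap.map_zero]) t
  rw [zero_add, ei_zero] at this
  exact this

theorem ei_swap {u w : V} (hu : Q u = 0) (hw : Q w = 0) (huw : β[Q] u w = 0) : ei Q u w = ei Q w (-u) := by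
  apply G_ext
  intro x
  rw [ei_sing hu hw huw, ei_sing hw (by rw [QuadraticMap.map_neg, hu]) (by rw [LinearMap.map_neg, polar_comm, huw, neg_zero])]
  rw [LinearMap.map_neg, LinearMap.neg_apply]
  module

/-- the identity on the difference -/
theorem Q_diff {u y : V} (hu : Q u = 0) (huy : β[Q] u y = 0) (x : V) :
    Q ((ei Q u y).1.1 x - x) = (β[Q] u x) ^ 2 * Q y := by
  rw [ei_apply hu huy]
  have : x + (β[Q] u x) • y + (- β[Q] y x - Q y * β[Q] u x) • u - x =
    (β[Q] u x) • y + (- β[Q] y x - Q y * β[Q] u x) • u := by abel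
  rw [this, Quad.map_add, Quad.map_smul, Quad.map_smul, hu, LinearMap.map_smul, LinearMap.map_smul,
    LinearMap.smul_apply, polar_comm Q y u, huy]
  simp

section nd

variable (hQ : (β[Q]).Nondegenerate)
include hQ

theorem perp_perp {v : V} {d : V} (hv0 : v ≠ 0) (hv : Q v = 0) (hd : ∀ x, β[Q] v x = 0 → β[Q] d x = 0) :
    ∃ c : F, d = c • v := by
  obtain ⟨f, hf, hvf⟩ := exists_partner hQ hv0 hv
  refine ⟨β[Q] d f, ?_⟩
  rw [← sub_eq_zero]
  apply hQ.1
  intro x
  rw [LinearMap.map_sub, LinearMap.map_smul, LinearMap.sub_apply, LinearMap.smul_apply, smul_eq_mul]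
  have h1 := hd (x - β[Q] v x • f) (by rw [LinearMap.map_sub, LinearMap.map_smul, hvf]; simp)
  rw [LinearMap.map_sub, LinearMap.map_smul, smul_eq_mul, sub_eq_zero] at h1
  rw [h1]
  ring

theorem ei_eq_iff {u y y' : V} (hu0 : u ≠ 0) (hu : Q u = 0) (huy : β[Q] u y = 0) (huy' : β[Q] u y' = 0) :
    ei Q u y = ei Q u y' ↔ ∃ c : F, y = y' + c • u := by
  constructor
  · intro h
    obtain ⟨f, hf, hvf⟩ := exists_partner hQ hu0 hu
    have h1 : (ei Q u y).1.1 f = (ei Q u y').1.1 f := by rw [h]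
    rw [ei_apply hu huy, ei_apply hu huy', hvf] at h1
    refine ⟨(- β[Q] y' f - Q y') - (- β[Q] y f - Q y), ?_⟩
    have h2 : y + (- β[Q] y f - Q y) • u = y' + (- β[Q] y' f - Q y') • u := by
      simpa [add_assoc] using h1
    rw [sub_smul, ← add_sub_assoc, ← h2]
    abel
  · rintro ⟨c, rfl⟩
    rw [ei_add_self hu huy']

theorem ei_eq_one_iff {u y : V} (hu0 : u ≠ 0) (hu : Q u = 0) (huy : β[Q] u y = 0) :
    ei Q u y = 1 ↔ ∃ c : F, y = c • u := by
  rw [← ei_zero u, ei_eq_iff hQ hu0 hu huy (by rw [LinearMap.map_zero])]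
  simp

/-- unipotent characterisation of the Siegel group -/
theorem exists_ei {v : V} (hv0 : v ≠ 0) (hv : Q v = 0) {g : eichG Q} (h1 : g.1.1 v = v)
    (h2 : ∀ y, β[Q] v y = 0 → ∃ c : F, g.1.1 y = y + c • v) : ∃ y, β[Q] v y = 0 ∧ g = ei Q v y := by
  obtain ⟨f, hf, hvf⟩ := exists_partner hQ hv0 hv
  have h3 : β[Q] v (g.1.1 f - f) = 0 := by
    have := pol g v f
    rw [h1] at this
    rw [LinearMap.map_sub, this, sub_self]
  refine ⟨g.1.1 f - f, h3, ?_⟩
  have hm : (ei Q v (g.1.1 f - f)).1.1 f = g.1.1 f := by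
    rw [ei_coe hv h3]
    exact eichO_move hv hf (by rw [qf, hf]) hvf (by rw [← pol g v f, h1] at hvf; exact hvf) h3
  set e := ei Q v (g.1.1 f - f) with he
  have hev : e.1.1 v = v := by
    rw [he, ei_apply hv h3, pol_self hv, polar_comm, h3]
    simp
  -- e⁻¹ g is trivial
  have hk : e⁻¹ * g = 1 := by
    have k1 : (e⁻¹ * g).1.1 v = v := by rw [mul_ap, h1]; nth_rw 1 [← hev]; rw [inv_ap]
    have k2 : (e⁻¹ * g).1.1 f = f := by rw [mul_ap, ← hm, inv_ap]
    have k3 : ∀ y, β[Q] v y = 0 → β[Q] f y = 0 → (e⁻¹ * g).1.1 y = y := by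
      intro y hy hfy
      obtain ⟨c, hc⟩ := h2 y hy
      have k4 : ∃ c' : F, (e⁻¹ * g).1.1 y = y + c' • v := by
        rw [mul_ap, hc]
        have : ∃ d : F, e.1.1 y = y + d • v := by
          rw [he, ei_apply hv h3, hy]
          exact ⟨_, by rw [zero_smul, add_zero]⟩
        obtain ⟨d, hd⟩ := this
        refine ⟨c - d, ?_⟩
        apply ap_inj e
        rw [ap_inv, ap_add, ap_smul, hev, hd]
        module
      obtain ⟨c', hc'⟩ := k4
      have k5 := pol (e⁻¹ * g) f y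
      rw [k2, hc', hfy, LinearMap.map_add, LinearMap.map_smul, hfy, polar_comm Q f v, hvf] at k5
      have : c' = 0 := by simpa using k5
      rw [hc', this, zero_smul, add_zero]
    apply G_ext
    intro x
    have hx : x = (x - β[Q] f x • v - β[Q] v x • f) + β[Q] f x • v + β[Q] v x • f := by abel
    rw [one_ap]
    conv_lhs => rw [hx]
    have hm2 := mem_hperp.1 (hperp_decomp hv hf hvf x)
    rw [ap_add, ap_add, ap_smul, ap_smul, k1, k2, k3 _ hm2.1 hm2.2]
    abel
  rw [inv_mul_eq_one] at hk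
  exact hk.symm

/-- dual vectors -/
theorem exists_dual {k : ℕ} {v : Fin k → V} (hv : LinearIndependent F v) (c : Fin k → F) :
    ∃ x : V, ∀ i, β[Q] (v i) x = c i := by
  have h1 : ∃ L : V →ₗ[F] F, ∀ i, L (v i) = c i := by
    obtain ⟨L, hL⟩ := LinearMap.exists_extend ((Finsupp.linearCombination F c).comp hv.repr)
    refine ⟨L, fun i => ?_⟩
    have h2 := LinearMap.congr_fun hL ⟨v i, Submodule.subset_span ⟨i, rfl⟩⟩
    rw [LinearMap.comp_apply, LinearMap.comp_apply, hv.repr_eq_single i _ rfl, Finsupp.linearCombination_single,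
      one_smul] at h2
    exact h2
  obtain ⟨L, hL⟩ := h1
  have h3 : ∃ x : V, ∀ y, L y = β[Q] y x :=
    ⟨(LinearMap.BilinForm.toDual (β[Q]) hQ).symm L, fun y => by
      rw [polar_comm, LinearMap.BilinForm.apply_toDual_symm_apply]⟩
  obtain ⟨x, hx⟩ := h3
  exact ⟨x, fun i => by rw [← hx, hL]⟩

theorem exists_dual2 {u w : V} (h : LinearIndependent F ![u, w]) (a b : F) : ∃ x : V, β[Q] u x = a ∧ β[Q] w x = b := by
  obtain ⟨x, hx⟩ := exists_dual hQ h ![a, b]
  exact ⟨x, hx 0, hx 1⟩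

end nd

end CfsgLib.AutPO
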