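import Cfsg.Agent.Lib.AutPO9

/-!
# Automorphisms of `PΩ(Q)`, part 10: multipliers and orders
-/

set_option autoImplicit false
set_option linter.unusedSimpArgs false
set_option linter.unusedSectionVars false

namespace CfsgLib.AutPO

open Module Matrix Cfsg CfsgLib.Quad CfsgLib.SemiAut
open CfsgLib.AutPSp (scal scal_coe scal_isScal scal_mulVec exists_scal_of)

/-! ### binary forms -/

section bin

variable {F : Type*} [Field F] [Finite F]

theorem exists_norm_equiv {a b a' b' : F} (hab : Aniso a b) (hab' : Aniso a' b') :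
    ∃ t : QK a b ≃ₗ[F] QK a' b', ∀ z, binQ a' b' (t z) = binQ a b z := by
  have := hab.fact
  have := hab'.fact
  obtain ⟨p, hp⟩ := CharP.exists F
  have : Fact p.Prime := ⟨CharP.char_is_prime F p⟩
  have e1 := FiniteField.algEquivExtension F p 2 (QK a b) (QuadraticAlgebra.finrank_eq_two _ _)
  have e2 := FiniteField.algEquivExtension F p 2 (QK a' b') (QuadraticAlgebra.finrank_eq_two _ _)
  let e : QK a b ≃ₐ[F] QK a' b' := e1.trans e2.symm
  refine ⟨e.toLinearEquiv, fun z => ?_⟩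
  rw [binQ_apply, binQ_apply, ← algebraNorm_eq, ← algebraNorm_eq]
  exact Algebra.norm_eq_of_algEquiv e z

end bin

variable {F : Type*} [Field F] {ι : Type} [Fintype ι] [DecidableEq ι] {Q : QuadraticForm F (ι → F)}

local notation "β[" Q "]" => QuadraticMap.polarBilin Q

theorem exists_ne_of_nd (hQ : (β[Q]).Nondegenerate) (hV : 1 ≤ finrank F (ι → F)) : ∃ v, Q v ≠ 0 := by
  by_contra! h
  have : Nontrivial (ι → F) := nontrivial_of_finrank_pos (R := F) (by omega)
  obtain ⟨x, hx⟩ := exists_ne (0 : ι → F)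
  apply hx
  apply hQ.1
  intro y
  rw [QuadraticMap.polarBilin_apply_apply, QuadraticMap.polar, h, h, h]
  ring

/-- the multiplier -/
noncomputable def mu (hne : ∃ v, Q v ≠ 0) : Sim Q →* Fˣ where
  toFun g := (mem_Sim.1 g.2).choose
  map_one' := by
    obtain ⟨v, hv⟩ := hne
    have h1 := (mem_Sim.1 (1 : Sim Q).2).choose_spec v
    apply Units.ext
    have e : (1 : Sim Q).1.1 *ᵥ v = v := one_mulVec v
    rw [e] at h1
    exact (mul_right_cancel₀ hv ((one_mul _).trans h1)).symm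
  map_mul' g h := by
    obtain ⟨v, hv⟩ := hne
    have h1 := (mem_Sim.1 (g * h).2).choose_spec v
    have h2 := (mem_Sim.1 g.2).choose_spec (h.1.1 *ᵥ v)
    have h3 := (mem_Sim.1 h.2).choose_spec v
    apply Units.ext
    rw [h3, mulVec_mulVec, ← mul_assoc] at h2
    exact mul_right_cancel₀ hv (h1.symm.trans h2)

theorem mu_spec (hne : ∃ v, Q v ≠ 0) (g : Sim Q) (v : ι → F) : Q (g.1.1 *ᵥ v) = (mu hne g : F) * Q v :=
  (mem_Sim.1 g.2).choose_spec v

theorem mu_eq (hne : ∃ v, Q v ≠ 0) {g : Sim Q} {c : Fˣ} (h : ∀ v, Q (g.1.1 *ᵥ v) = (c : F) * Q v) : mu hne g = c := by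
  obtain ⟨v, hv⟩ := hne
  have h1 := mu_spec ⟨v, hv⟩ g v
  rw [h] at h1
  exact Units.ext (mul_right_cancel₀ hv h1).symm

theorem mu_pol (hne : ∃ v, Q v ≠ 0) (g : Sim Q) (u v : ι → F) : β[Q] (g.1.1 *ᵥ u) (g.1.1 *ᵥ v) = (mu hne g : F) * β[Q] u v := by
  have h1 := mu_spec hne g (u + v)
  rw [mulVec_add, Quad.map_add, Quad.map_add, mu_spec hne g, mu_spec hne g] at h1
  linear_combination h1

theorem scal_mem (c : Fˣ) : (scal c : GL ι F) ∈ Sim Q :=
  ⟨c ^ 2, fun v => by rw [scal_mulVec, Quad.map_smul, Units.val_pow_eq_pow_val]⟩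

theorem mu_scal (hne : ∃ v, Q v ≠ 0) (c : Fˣ) : mu hne ⟨scal c, scal_mem c⟩ = c ^ 2 :=
  mu_eq hne (fun v => by rw [scal_mulVec, Quad.map_smul, Units.val_pow_eq_pow_val])

theorem iso_mem {g : GL ι F} (hg : g ∈ isometryGroup F ⇑Q) : g ∈ Sim Q :=
  ⟨1, fun v => by rw [Units.val_one, one_mul]; exact hg v v⟩

theorem mem_iso {g : GL ι F} : g ∈ isometryGroup F ⇑Q ↔ ∀ v, Q (g.1 *ᵥ v) = Q v :=
  ⟨fun h v => h v v, fun h v _ => h v⟩

theorem mu_eq_one_iff (hne : ∃ v, Q v ≠ 0) (g : Sim Q) : mu hne g = 1 ↔ g.1 ∈ isometryGroup F ⇑Q := by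
  rw [mem_iso]
  constructor
  · intro h v
    rw [mu_spec hne, h, Units.val_one, one_mul]
  · intro h
    apply mu_eq
    intro v
    rw [h, Units.val_one, one_mul]

theorem card_Sim [Finite F] (hne : ∃ v, Q v ≠ 0) :
    Nat.card (Sim Q) = Nat.card (isometryGroup F ⇑Q) * Nat.card (mu hne).range := by
  rw [Subgroup.card_eq_card_quotient_mul_card_subgroup (mu hne).ker,
    Nat.card_congr (QuotientGroup.quotientKerEquivRange (mu hne)).toEquiv, mul_comm]
  congr 1
  apply Nat.card_congr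
  exact ⟨fun g => ⟨g.1.1, (mu_eq_one_iff hne g.1).1 g.2⟩, fun g => ⟨⟨g.1, iso_mem g.2⟩, (mu_eq_one_iff hne _).2 g.2⟩,
    fun g => rfl, fun g => rfl⟩

/-- the field automorphism of a semisimilarity -/
def rho (Q : QuadraticForm F (ι → F)) : GamO Q →* RingAut F := SemidirectProduct.rightHom.comp (GamO Q).subtype

theorem rho_apply (γ : GamO Q) : rho Q γ = γ.1.right := rfl

theorem card_GamO [Finite F] (hσ : ∀ σ : RingAut F, ∃ g : GL ι F, sm g σ ∈ GamO Q) :
    Nat.card (GamO Q) = Nat.card (Sim Q) * Nat.card (RingAut F) := by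
  have hs : Function.Surjective (rho Q) := by
    intro σ
    obtain ⟨g, hg⟩ := hσ σ
    exact ⟨⟨sm g σ, hg⟩, rfl⟩
  rw [Subgroup.card_eq_card_quotient_mul_card_subgroup (rho Q).ker,
    Nat.card_congr (QuotientGroup.quotientKerEquivOfSurjective (rho Q) hs).toEquiv, mul_comm]
  congr 1
  apply Nat.card_congr
  refine ⟨fun γ => ⟨γ.1.1.left, ?_⟩, fun g => ⟨⟨lin g.1, lin_mem.2 g.2⟩, rfl⟩, fun γ => ?_, fun g => rfl⟩
  · have h1 : γ.1.1.right = 1 := γ.2
    have h2 := γ.1.2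
    rw [← lin_mem]
    have h3 : lin γ.1.1.left = γ.1.1 := by
      rw [lin_eq, ← h1]
      rfl
    rw [h3]
    exact h2
  · apply Subtype.ext
    apply Subtype.ext
    have h1 : γ.1.1.right = 1 := γ.2
    change lin γ.1.1.left = γ.1.1
    rw [lin_eq, ← h1]
    rfl

theorem card_ker {GG : Subgroup (GL ι F)} [Finite F] [Nonempty ι] (hS : Setup (embO Q) (GamO Q) GG) :
    Nat.card hS.Psi.ker = Nat.card F - 1 := by
  have h0 : Nat.card Fˣ = Nat.card F - 1 := by
    have := Nat.card_eq_card_units_add_one (α := F)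
    omega
  rw [← h0]
  symm
  apply Nat.card_congr
  refine Equiv.ofBijective (fun c => ⟨⟨lin (scal c), lin_mem.2 (scal_mem c)⟩,
    (hS.Psi_eq_one).2 ⟨scal c, scal_isScal c, rfl⟩⟩) ⟨?_, ?_⟩
  · intro a b hab
    have h1 := congrArg (fun x => x.1.1) hab
    have h2 : (scal a : GL ι F) = scal b := lin_injective h1
    obtain ⟨i⟩ := ‹Nonempty ι›
    have h3 := congrArg (fun x => x.1 i i) h2
    simp only [scal_coe, Matrix.smul_apply, Matrix.one_apply_eq, smul_eq_mul, mul_one] at h3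
    exact Units.ext h3
  · rintro ⟨γ, hγ⟩
    obtain ⟨g, hg, hγg⟩ := (hS.Psi_eq_one).1 hγ
    obtain ⟨c, rfl⟩ := exists_scal_of hg
    refine ⟨c, ?_⟩
    apply Subtype.ext
    apply Subtype.ext
    exact hγg.symm

section nd

variable [Finite F] (hQ : (β[Q]).Nondegenerate) (hV : 7 ≤ finrank F (ι → F))

/-- surjectivity onto the automorphism group -/
theorem fullO {GG : Subgroup (GL ι F)} (hS : Setup (embO Q) (GamO Q) GG) (hQ : (β[Q]).Nondegenerate) (hV : 7 ≤ finrank F (ι → F))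
    (hH : 9 ≤ finrank F (ι → F) ∨ ∀ U : Submodule F (ι → F), (∀ x ∈ U, Q x = 0) → finrank F U ≠ 4) :
    Function.Surjective hS.Psi := by
  intro β
  obtain ⟨g, σ, h1, h2⟩ := mainM hQ hV hH β
  exact ⟨⟨sm g σ, h1⟩, ((hS.ind_iff (σ := σ) (show sm g σ ∈ GamO Q from h1) β).1 h2).symm⟩

include hQ hV in
theorem card_aut (hH : 9 ≤ finrank F (ι → F) ∨ ∀ U : Submodule F (ι → F), (∀ x ∈ U, Q x = 0) → finrank F U ≠ 4)
    (hσ : ∀ σ : RingAut F, ∃ g : GL ι F, sm g σ ∈ GamO Q) (hne : ∃ v, Q v ≠ 0) :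
    Nat.card (MulAut (POmega F ⇑Q)) * (Nat.card F - 1) =
      Nat.card (isometryGroup F ⇑Q) * Nat.card (mu hne).range * Nat.card (RingAut F) := by
  have hne' : Nonempty ι := by
    by_contra h
    rw [not_nonempty_iff] at h
    rw [Module.finrank_fintype_fun_eq_card, Fintype.card_eq_zero] at hV
    omega
  have hS := setupFull hQ hV
  have h1 := Subgroup.card_eq_card_quotient_mul_card_subgroup hS.Psi.ker
  rw [Nat.card_congr (QuotientGroup.quotientKerEquivOfSurjective _ (fullO hS hQ hV hH)).toEquiv, card_ker hS,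
    card_GamO hσ, card_Sim hne] at h1
  exact h1.symm

end nd

/-- the determinant of a similarity -/
theorem det_sq (hQ : (β[Q]).Nondegenerate) (hne : ∃ v, Q v ≠ 0) (g : Sim Q) :
    g.1.1.det ^ 2 = (mu hne g : F) ^ Fintype.card ι := by
  set B : Matrix ι ι F := LinearMap.BilinForm.toMatrix (Pi.basisFun F ι) (β[Q]) with hB
  have hdet : B.det ≠ 0 := (LinearMap.BilinForm.nondegenerate_iff_det_ne_zero (Pi.basisFun F ι)).1 hQ
  have hform : ∀ u v : ι → F, u ⬝ᵥ (B *ᵥ v) = β[Q] u v := by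
    intro u v
    rw [← Matrix.toBilin'_apply', hB]
    have : Matrix.toBilin' (LinearMap.BilinForm.toMatrix (Pi.basisFun F ι) (β[Q])) = β[Q] := by
      rw [← Matrix.toBilin_basisFun, Matrix.toBilin_toMatrix]
    rw [this]
  have h1 : g.1.1ᵀ * B * g.1.1 = (mu hne g : F) • B := by
    have key : ∀ u v : ι → F, u ⬝ᵥ ((g.1.1ᵀ * B * g.1.1) *ᵥ v) = u ⬝ᵥ (((mu hne g : F) • B) *ᵥ v) := by
      intro u v
      rw [smul_mulVec, dotProduct_smul, hform, smul_eq_mul, ← mu_pol hne g, ← hform, ← mulVec_mulVec, ← mulVec_mulVec,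
        Matrix.dotProduct_mulVec u, vecMul_transpose]
    ext i j
    simpa using key (Pi.single i 1) (Pi.single j 1)
  have h2 := congrArg Matrix.det h1
  rw [Matrix.det_mul, Matrix.det_mul, Matrix.det_transpose, Matrix.det_smul] at h2
  apply mul_right_cancel₀ hdet
  rw [← h2]
  ring

end CfsgLib.AutPO
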