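import Cfsg.Agent.Lib.AutPO10

/-!
# Automorphisms of `PΩ(Q)`, part 11: the odd and minus families
-/

set_option autoImplicit false
set_option linter.unusedSimpArgs false
set_option linter.unusedSectionVars false

namespace CfsgLib.AutPO

open Module Matrix Cfsg CfsgLib.Quad CfsgLib.SemiAut
open CfsgLib.AutPSp (scal scal_coe scal_isScal scal_mulVec exists_scal_of)

variable {F : Type*} [Field F]

local notation "β[" Q "]" => QuadraticMap.polarBilin Q

section gen

variable {ι : Type} [Fintype ι] [DecidableEq ι] {Q : QuadraticForm F (ι → F)}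

/-- the order of the isometry group -/
theorem card_iso [Finite F] (Q : QuadraticForm F (ι → F)) : Nat.card (POmega F ⇑Q) * Nat.card (Subgroup.center (commutator (O Q))) *
    (commutator (O Q)).index = Nat.card (isometryGroup F ⇑Q) :=
  card_POmega_mul (⇑Q) Q (LinearEquiv.refl F _) (fun _ => rfl)

theorem range_mu_odd (hQ : (β[Q]).Nondegenerate) (hne : ∃ v, Q v ≠ 0) (hodd : Odd (Fintype.card ι)) :
    (mu hne).range = (powMonoidHom 2 : Fˣ →* Fˣ).range := by
  apply le_antisymm
  · rintro _ ⟨g, rfl⟩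
    obtain ⟨k, hk⟩ := hodd
    have h1 := det_sq hQ hne g
    have hd : g.1.1.det ≠ 0 := ((Matrix.isUnit_iff_isUnit_det _).1 g.1.isUnit).ne_zero
    refine ⟨Units.mk0 _ hd * ((mu hne g) ^ k)⁻¹, ?_⟩
    rw [powMonoidHom_apply, mul_pow]
    have h2 : (Units.mk0 _ hd) ^ 2 = (mu hne g) ^ (2 * k + 1) := by
      apply Units.ext
      rw [Units.val_pow_eq_pow_val, Units.val_mk0, h1, hk, Units.val_pow_eq_pow_val]
    rw [h2, inv_pow, ← pow_mul, mul_comm k 2, pow_succ, mul_right_comm, mul_inv_cancel, one_mul]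
  · rintro _ ⟨c, rfl⟩
    exact ⟨⟨scal c, scal_mem c⟩, mu_scal hne c⟩

theorem card_sq [Finite F] (h2 : (2 : F) ≠ 0) : 2 * Nat.card (powMonoidHom 2 : Fˣ →* Fˣ).range = Nat.card F - 1 := by
  have h0 : Nat.card Fˣ = Nat.card F - 1 := by
    have := Nat.card_eq_card_units_add_one (α := F)
    omega
  rw [IsCyclic.card_powMonoidHom_range, h0]
  have h3 := card_odd_of_two_ne_zero h2
  have h4 : 2 ∣ Nat.card F - 1 := by omega
  rw [Nat.gcd_eq_right h4]
  exact Nat.mul_div_cancel' h4

end gen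

/-! ### The odd family -/

theorem odd_card_ι (m : ℕ) : Odd (Fintype.card (Unit ⊕ (Fin m ⊕ Fin m))) :=
  ⟨m, by rw [Fintype.card_sum, Fintype.card_sum, Fintype.card_fin, Fintype.card_unit]; ring⟩

theorem sm_one_QO (m : ℕ) (σ : RingAut F) : sm (1 : GL _ F) σ ∈ GamO (QO m F) := by
  refine ⟨1, fun v => ?_⟩
  change QO m F (((1 : GL (Unit ⊕ (Fin m ⊕ Fin m)) F).1) *ᵥ fun i => σ (v i)) = ((1 : Fˣ) : F) * σ (QO m F v)
  rw [Units.val_one, Units.val_one, one_mulVec, one_mul, QO_coe, quadFormOdd, quadFormOdd]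
  simp only [_root_.map_add, map_pow, map_sum, map_mul]

theorem card_iso_odd [Finite F] (h2 : (2 : F) ≠ 0) (m : ℕ) (hm : 3 ≤ m) :
    Nat.card (isometryGroup F ⇑(QO m F)) = 4 * Nat.card (POmega F ⇑(QO m F)) := by
  have hN := QO_nondegenerate h2 m
  have hdim := finrank_QO (F := F) m
  have h := card_iso (QO m F)
  rw [card_center_commutator hN (by omega), index_commutator_odd h2 hN (by omega), if_neg] at h
  · omega
  · rintro ⟨-, h3⟩
    have h4 : dick hN (negO _) = 1 := Abelianization.commutator_subset_ker _ h3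
    rw [dick_negO h2 hN, hdim, Odd.neg_one_pow ⟨m, rfl⟩] at h4
    exact absurd h4 (by decide)

theorem card_aut_odd [Finite F] (h2 : (2 : F) ≠ 0) (m : ℕ) (hm : 3 ≤ m) :
    Nat.card (MulAut (POmega F ⇑(QO m F))) = 2 * Nat.card (RingAut F) * Nat.card (POmega F ⇑(QO m F)) := by
  have hN := QO_nondegenerate h2 m
  have hdim := finrank_QO (F := F) m
  have hne := exists_ne_of_nd hN (by omega)
  have h := card_aut hN (by omega) (hH_odd h2 m hm) (fun σ => ⟨1, sm_one_QO m σ⟩) hne
  rw [card_iso_odd h2 m hm, range_mu_odd hN hne (odd_card_ι m)] at h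
  have h3 := card_sq h2
  have h4 : 0 < Nat.card F - 1 := by
    have : 1 < Nat.card F := Finite.one_lt_card
    omega
  apply Nat.eq_of_mul_eq_mul_right h4
  rw [h, ← h3]
  ring

/-! ### The minus family -/

section minus

variable [Finite F]

omit [Finite F] in
theorem exists_GL {ι : Type} [Fintype ι] [DecidableEq ι] (S : (ι → F) ≃ₗ[F] (ι → F)) : ∃ g : GL ι F, ∀ v, g.1 *ᵥ v = S v := by
  refine ⟨GeneralLinearGroup.toLin.symm (LinearMap.GeneralLinearGroup.generalLinearEquiv F _ |>.symm S), ?_⟩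
  intro v
  have h1 : GeneralLinearGroup.toLin (GeneralLinearGroup.toLin.symm (LinearMap.GeneralLinearGroup.generalLinearEquiv F _ |>.symm S)) =
      (LinearMap.GeneralLinearGroup.generalLinearEquiv F _ |>.symm S) :=
    MulEquiv.apply_symm_apply _ _
  have h2 : (GeneralLinearGroup.toLin (GeneralLinearGroup.toLin.symm
      (LinearMap.GeneralLinearGroup.generalLinearEquiv F _ |>.symm S))).1 v = S v := by rw [h1]; rfl
  exact h2

theorem mu_surj_minus (m : ℕ) {a b : F} (hab : Aniso a b) (hne : ∃ v, QM m a b v ≠ 0) : Function.Surjective (mu hne) := by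
  intro c
  obtain ⟨T, hT⟩ := sim_binQ hab c.ne_zero
  let S : ((Fin m ⊕ Fin m) ⊕ Fin 2 → F) ≃ₗ[F] ((Fin m ⊕ Fin m) ⊕ Fin 2 → F) :=
    (eMinus m a b).trans ((hypSim m c.ne_zero T).trans (eMinus m a b).symm)
  have hS : ∀ v, QM m a b (S v) = (c : F) * QM m a b v := by
    intro v
    change hypSum m (binQ a b) ((eMinus m a b) ((eMinus m a b).symm (hypSim m c.ne_zero T (eMinus m a b v)))) =
      (c : F) * hypSum m (binQ a b) (eMinus m a b v)
    rw [LinearEquiv.apply_symm_apply, hypSim_map m c.ne_zero _ hT]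
  obtain ⟨g, hg⟩ := exists_GL S
  exact ⟨⟨g, c, fun v => by rw [hg, hS]⟩, mu_eq hne (fun v => by rw [hg, hS])⟩

omit [Finite F] in
theorem ap_inv_self (σ : RingAut F) (x : F) : σ (σ⁻¹ x) = x := σ.apply_symm_apply x

omit [Finite F] in
theorem aniso_map {a b : F} (hab : Aniso a b) (σ : RingAut F) : Aniso (σ a) (σ b) := by
  intro z₁ z₂ h
  have h1 : (σ⁻¹ z₁) ^ 2 + a * (σ⁻¹ z₁) * (σ⁻¹ z₂) + b * (σ⁻¹ z₂) ^ 2 = 0 := by
    apply σ.injective
    rw [map_zero, _root_.map_add, _root_.map_add, map_mul, map_mul, map_mul, map_pow, map_pow, ap_inv_self,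
      ap_inv_self]
    exact h
  obtain ⟨h2, h3⟩ := hab _ _ h1
  constructor
  · rw [← ap_inv_self σ z₁, h2, map_zero]
  · rw [← ap_inv_self σ z₂, h3, map_zero]

theorem exists_sigma_minus (m : ℕ) {a b : F} (hab : Aniso a b) (σ : RingAut F) :
    ∃ g : GL ((Fin m ⊕ Fin m) ⊕ Fin 2) F, (∀ w, QM m a b (g.1 *ᵥ w) = QM m (σ a) (σ b) w) ∧ sm g σ ∈ GamO (QM m a b) := by
  obtain ⟨t, ht⟩ := exists_norm_equiv (aniso_map hab σ) hab
  let S : ((Fin m ⊕ Fin m) ⊕ Fin 2 → F) ≃ₗ[F] ((Fin m ⊕ Fin m) ⊕ Fin 2 → F) :=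
    (eMinus m (σ a) (σ b)).trans (((LinearEquiv.refl F (Fin m → F × F)).prodCongr t).trans (eMinus m a b).symm)
  have hS : ∀ v, QM m a b (S v) = QM m (σ a) (σ b) v := by
    intro v
    change hypSum m (binQ a b) ((eMinus m a b) ((eMinus m a b).symm
      (((LinearEquiv.refl F (Fin m → F × F)).prodCongr t) (eMinus m (σ a) (σ b) v)))) =
      hypSum m (binQ (σ a) (σ b)) (eMinus m (σ a) (σ b) v)
    rw [LinearEquiv.apply_symm_apply, hypSum_apply, hypSum_apply]
    congr 1
    exact ht _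
  obtain ⟨g, hg⟩ := exists_GL S
  refine ⟨g, fun w => by rw [hg, hS], 1, fun v => ?_⟩
  change QM m a b (g.1 *ᵥ fun i => σ (v i)) = ((1 : Fˣ) : F) * σ (QM m a b v)
  rw [hg, hS, Units.val_one, one_mul, QM_coe, QM_coe, quadFormMinus, quadFormMinus]
  simp only [_root_.map_add, map_pow, map_sum, map_mul]

theorem card_aut_minus (m : ℕ) (hm : 3 ≤ m) {a b : F} (hab : Aniso a b) :
    Nat.card (MulAut (POmega F ⇑(QM m a b))) = Nat.card (isometryGroup F ⇑(QM m a b)) * Nat.card (RingAut F) := by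
  have hN := QM_nondegenerate m hab
  have hdim := finrank_QM (F := F) m
  have hne := exists_ne_of_nd hN (by omega)
  have h := card_aut hN (by omega) (hH_minus m hm hab) (fun σ => (exists_sigma_minus m hab σ).imp fun g hg => hg.2) hne
  rw [MonoidHom.range_eq_top.mpr (mu_surj_minus m hab hne), Subgroup.card_top] at h
  have h0 : Nat.card Fˣ = Nat.card F - 1 := by
    have := Nat.card_eq_card_units_add_one (α := F)
    omega
  rw [h0] at h
  have h4 : 0 < Nat.card F - 1 := by
    have : 1 < Nat.card F := Finite.one_lt_card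
    omega
  apply Nat.eq_of_mul_eq_mul_right h4
  rw [h]
  ring

open Classical in
theorem card_iso_minus (m : ℕ) (hm : 3 ≤ m) {a b : F} (hab : Aniso a b) :
    Nat.card (isometryGroup F ⇑(QM m a b)) =
      (if (2 : F) = 0 then 2 else (if Nat.card F ^ (m + 1) % 4 = 3 then 8 else 4)) * Nat.card (POmega F ⇑(QM m a b)) := by
  have hN := QM_nondegenerate m hab
  have hdim := finrank_QM (F := F) m
  have h := card_iso (QM m a b)
  rw [card_center_commutator hN (by omega)] at h
  by_cases h2 : (2 : F) = 0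
  · rw [index_commutator_even h2 hN (by omega) (Or.inr (by omega)), if_neg (fun h => h.1 h2)] at h
    rw [if_pos h2]
    omega
  · have h3 := neg_mem_Omega_minus h2 hab m
    have h5 := exists_neg_iff (⇑(QM m a b)) (QM m a b) (LinearEquiv.refl F _) (fun _ => rfl)
    rw [QM_coe] at h5
    rw [h3] at h5
    rw [index_commutator_odd h2 hN (by omega)] at h
    rw [if_neg h2]
    by_cases h6 : negO (QM m a b) ∈ commutator (O (QM m a b))
    · rw [if_pos ⟨h2, h6⟩] at h
      rw [if_pos (h5.2 h6)]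
      omega
    · rw [if_neg (fun h => h6 h.2)] at h
      rw [if_neg (fun h => h6 (h5.1 h))]
      omega

end minus

end CfsgLib.AutPO
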