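import Cfsg.Agent.Lib.AutPO11
import Cfsg.Agent.Lib.Quad9

/-!
# Automorphisms of `PΩ(Q)`, part 12: the outer automorphism group
-/

set_option autoImplicit false
set_option linter.unusedSimpArgs false
set_option linter.unusedSectionVars false

namespace CfsgLib.AutPO

open Module Matrix Cfsg CfsgLib.Quad CfsgLib.SemiAut
open CfsgLib.AutPSp (scal scal_coe scal_isScal scal_mulVec exists_scal_of)

variable {F : Type*} [Field F] {ι : Type} [Fintype ι] [DecidableEq ι] {Q : QuadraticForm F (ι → F)}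

local notation "β[" Q "]" => QuadraticMap.polarBilin Q

/-- isometries as similarities -/
def toSim (Q : QuadraticForm F (ι → F)) : isometryGroup F ⇑Q →* Sim Q := Subgroup.inclusion (fun _ hg => iso_mem hg)

theorem toSim_coe (h : isometryGroup F ⇑Q) : (toSim Q h).1 = h.1 := rfl

/-- similarities as semisimilarities -/
def linS (Q : QuadraticForm F (ι → F)) : Sim Q →* GamO Q :=
  (lin.comp (Sim Q).subtype).codRestrict (GamO Q) (fun g => lin_mem.2 g.2)

theorem linS_coe (g : Sim Q) : (linS Q g).1 = lin g.1 := rfl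

/-- minus one -/
noncomputable def ngI (Q : QuadraticForm F (ι → F)) : isometryGroup F ⇑Q := (isometryGroupEquiv Q).symm (negO Q)

theorem ngI_mulVec (v : ι → F) : (ngI Q).1.1 *ᵥ v = -v := by
  have h := isometryGroupEquiv_apply Q (ngI Q) v
  rw [ngI, MulEquiv.apply_symm_apply] at h
  exact h.symm

theorem ngI_coe : (ngI Q).1 = scal (-1) := by
  apply Units.ext
  apply CfsgLib.Symp.mulVec_injective_matrix
  intro x
  rw [ngI_mulVec, scal_mulVec]
  simp

theorem scal_mul (a b : Fˣ) : (scal (a * b) : GL ι F) = scal a * scal b := by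
  apply Units.ext
  apply CfsgLib.Symp.mulVec_injective_matrix
  intro x
  rw [Units.val_mul, ← mulVec_mulVec, scal_mulVec, scal_mulVec, scal_mulVec, smul_smul, Units.val_mul]

theorem scal_one : (scal 1 : GL ι F) = 1 := by
  apply Units.ext
  apply CfsgLib.Symp.mulVec_injective_matrix
  intro x
  rw [scal_mulVec, Units.val_one, one_smul, Units.val_one, one_mulVec]

/-- a similarity with square multiplier -/
theorem exists_iso_of_sq (hne : ∃ v, Q v ≠ 0) (g : Sim Q) (a : Fˣ) (h : mu hne g = a ^ 2) :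
    ∃ k : isometryGroup F ⇑Q, g = ⟨scal a, scal_mem a⟩ * toSim Q k := by
  have h1 : mu hne ((⟨scal a, scal_mem a⟩ : Sim Q)⁻¹ * g) = 1 := by
    rw [map_mul, map_inv, mu_scal, h, inv_mul_cancel]
  refine ⟨⟨_, (mu_eq_one_iff hne _).1 h1⟩, ?_⟩
  apply Subtype.ext
  change g.1 = scal a * ((scal a)⁻¹ * g.1)
  rw [mul_inv_cancel_left]

section out

variable [Finite F] (hQ : (β[Q]).Nondegenerate) (hV : 7 ≤ finrank F (ι → F))

omit [Finite F] in
include hV in
theorem ne_ι : Nonempty ι := by
  by_contra h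
  rw [not_nonempty_iff] at h
  rw [Module.finrank_fintype_fun_eq_card, Fintype.card_eq_zero] at hV
  omega

/-- image in the outer automorphism group -/
noncomputable def outG : GamO Q →* Out (POmega F ⇑Q) :=
  (QuotientGroup.mk' (Inn (POmega F ⇑Q))).comp (setupFull hQ hV).Psi

theorem outG_mk (γ : GamO Q) : outG hQ hV γ = QuotientGroup.mk ((setupFull hQ hV).Psi γ) := rfl

theorem outG_eq_one (γ : GamO Q) : outG hQ hV γ = 1 ↔ ∃ (c : Fˣ) (s : Omega F ⇑Q), γ.1 = lin (scal c * embO Q s) := by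
  have hne := ne_ι (F := F) hV
  rw [outG_mk, QuotientGroup.eq_one_iff]
  constructor
  · rintro ⟨x, hx⟩
    obtain ⟨s, rfl⟩ := QuotientGroup.mk_surjective x
    have h1 := psi_range (setupFull hQ hV).inj' s
    rw [← h1] at hx
    obtain ⟨g, hg, hγ⟩ := ((setupFull hQ hV).Psi_inj (γ := γ) (δ := linS Q ⟨embO Q s, embO_mem s⟩)).1 hx.symm
    obtain ⟨c, rfl⟩ := exists_scal_of hg
    exact ⟨c, s, by rw [hγ, map_mul]; rfl⟩
  · rintro ⟨c, s, h⟩
    refine ⟨QuotientGroup.mk s, ?_⟩
    have h1 := psi_range (setupFull hQ hV).inj' s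
    rw [← h1]
    symm
    apply ((setupFull hQ hV).Psi_inj (γ := γ) (δ := linS Q ⟨embO Q s, embO_mem s⟩)).2
    exact ⟨scal c, scal_isScal c, by rw [h, map_mul]; rfl⟩

/-- for similarities -/
noncomputable def outS : Sim Q →* Out (POmega F ⇑Q) := (outG hQ hV).comp (linS Q)

theorem outS_eq_one (g : Sim Q) : outS hQ hV g = 1 ↔ ∃ (c : Fˣ) (s : Omega F ⇑Q), g.1 = scal c * embO Q s := by
  rw [outS, MonoidHom.comp_apply, outG_eq_one]
  constructor
  · rintro ⟨c, s, h⟩
    exact ⟨c, s, lin_injective h⟩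
  · rintro ⟨c, s, h⟩
    exact ⟨c, s, by rw [linS_coe, h]⟩

/-- for isometries -/
noncomputable def outO : isometryGroup F ⇑Q →* Out (POmega F ⇑Q) := (outS hQ hV).comp (toSim Q)

theorem outS_toSim (h : isometryGroup F ⇑Q) : outS hQ hV (toSim Q h) = outO hQ hV h := rfl

theorem outS_linS (g : Sim Q) : outG hQ hV (linS Q g) = outS hQ hV g := rfl

theorem outS_scal (c : Fˣ) : outS hQ hV ⟨scal c, scal_mem c⟩ = 1 := by
  rw [outS_eq_one]
  exact ⟨c, 1, by rw [map_one, mul_one]⟩

theorem outO_mem {h : isometryGroup F ⇑Q} (hh : h ∈ Omega F ⇑Q) : outO hQ hV h = 1 := by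
  rw [← outS_toSim, outS_eq_one]
  exact ⟨1, ⟨h, hh⟩, by rw [scal_one, one_mul]; rfl⟩

theorem outO_ngI : outO hQ hV (ngI Q) = 1 := by
  rw [← outS_toSim, outS_eq_one]
  exact ⟨-1, 1, by rw [map_one, mul_one, toSim_coe, ngI_coe]⟩

theorem outO_eq_one (h : isometryGroup F ⇑Q) : outO hQ hV h = 1 ↔ h ∈ Omega F ⇑Q ∨ ngI Q * h ∈ Omega F ⇑Q := by
  constructor
  · intro h1
    rw [← outS_toSim, outS_eq_one] at h1
    obtain ⟨c, s, hc⟩ := h1
    have hne := exists_ne_of_nd hQ (by omega)
    have h2 : mu hne (toSim Q h) = 1 := (mu_eq_one_iff hne _).2 h.2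
    have h3 : toSim Q h = ⟨scal c, scal_mem c⟩ * toSim Q s.1 := Subtype.ext hc
    have h4 : mu hne (toSim Q s.1) = 1 := (mu_eq_one_iff hne _).2 s.1.2
    rw [h3, map_mul, mu_scal, h4, mul_one] at h2
    have h5 : (c : F) = 1 ∨ (c : F) = -1 := by
      have := congrArg Units.val h2
      rw [Units.val_pow_eq_pow_val, Units.val_one] at this
      exact mul_self_eq_one_iff.1 (by rw [← sq]; exact this)
    rcases h5 with h5 | h5
    · left
      have h6 : c = 1 := Units.ext h5
      rw [h6, scal_one, one_mul] at hc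
      have h7 : h = s.1 := Subtype.ext hc
      rw [h7]
      exact s.2
    · right
      have h6 : c = -1 := Units.ext (by rw [h5, Units.val_neg, Units.val_one])
      have h7 : ngI Q * h = s.1 := by
        apply Subtype.ext
        change (ngI Q).1 * h.1 = s.1.1
        rw [ngI_coe]
        have : h.1 = scal (-1) * s.1.1 := by rw [← h6]; exact hc
        rw [this, ← mul_assoc, ← scal_mul, neg_one_mul, neg_neg, scal_one, one_mul]
      rw [h7]
      exact s.2
  · rintro (h1 | h1)
    · exact outO_mem hQ hV h1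
    · have := outO_mem hQ hV h1
      rwa [map_mul, outO_ngI, one_mul] at this

/-- the field automorphism of an outer automorphism -/
noncomputable def oFld (hfull : Function.Surjective (setupFull hQ hV).Psi) : Out (POmega F ⇑Q) →* RingAut F :=
  QuotientGroup.lift (Inn (POmega F ⇑Q)) ((setupFull hQ hV).fld hfull) (by
    rintro _ ⟨x, rfl⟩
    obtain ⟨s, rfl⟩ := QuotientGroup.mk_surjective x
    have h1 := psi_range (setupFull hQ hV).inj' s
    rw [← h1]
    exact (setupFull hQ hV).fld_Psi hfull (linS Q ⟨embO Q s, embO_mem s⟩))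

variable (hfull : Function.Surjective (setupFull hQ hV).Psi)

theorem oFld_outG (γ : GamO Q) : oFld hQ hV hfull (outG hQ hV γ) = rho Q γ :=
  (setupFull hQ hV).fld_Psi hfull γ

include hfull in
theorem outG_surj : Function.Surjective (outG hQ hV) := by
  intro x
  obtain ⟨y, rfl⟩ := QuotientGroup.mk_surjective x
  obtain ⟨γ, rfl⟩ := hfull y
  exact ⟨γ, rfl⟩

theorem oFld_ker : (oFld hQ hV hfull).ker = (outS hQ hV).range := by
  ext x
  rw [MonoidHom.mem_ker]
  constructor
  · intro hx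
    obtain ⟨γ, rfl⟩ := outG_surj hQ hV hfull x
    rw [oFld_outG] at hx
    have h1 : γ.1 = lin γ.1.left := by
      rw [lin_eq, ← show γ.1.right = 1 from hx]
      rfl
    have h2 : γ.1.left ∈ Sim Q := by
      rw [← lin_mem, ← h1]
      exact γ.2
    refine ⟨⟨_, h2⟩, ?_⟩
    rw [← outS_linS]
    congr 1
    exact Subtype.ext h1.symm
  · rintro ⟨g, rfl⟩
    rw [← outS_linS, oFld_outG]
    rfl

include hfull in
theorem card_out (hσ : ∀ σ : RingAut F, ∃ g : GL ι F, sm g σ ∈ GamO Q) :
    Nat.card (Out (POmega F ⇑Q)) = Nat.card (outS hQ hV).range * Nat.card (RingAut F) := by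
  have hs : Function.Surjective (oFld hQ hV hfull) := by
    intro σ
    obtain ⟨g, hg⟩ := hσ σ
    exact ⟨outG hQ hV ⟨sm g σ, hg⟩, oFld_outG hQ hV hfull _⟩
  have h1 := Subgroup.card_eq_card_quotient_mul_card_subgroup (oFld hQ hV hfull).ker
  rw [Nat.card_congr (QuotientGroup.quotientKerEquivOfSurjective _ hs).toEquiv, oFld_ker] at h1
  rw [h1, mul_comm]

end out

end CfsgLib.AutPO
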