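import Cfsg.Agent.Lib.AutPO12
import Cfsg.Agent.Lib.Quad8

/-!
# Automorphisms of `PΩ(Q)`, part 13: reflections, determinants, similarities in odd characteristic
-/

set_option autoImplicit false
set_option linter.unusedSimpArgs false
set_option linter.unusedSectionVars false

namespace CfsgLib.AutPO

open Module Matrix Cfsg CfsgLib.Quad CfsgLib.SemiAut
open CfsgLib.AutPSp (scal scal_coe scal_isScal scal_mulVec exists_scal_of)
open CfsgLib.QuadMat (reflG reflG_coe reflection_mulVec reflection_det reflection_map reflectionMatrix_mul_self)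

variable {F : Type*} [Field F] {ι : Type} [Fintype ι] [DecidableEq ι] {Q : QuadraticForm F (ι → F)}

local notation "β[" Q "]" => QuadraticMap.polarBilin Q

/-! ### conjugating reflections -/

theorem reflG_mulVec {v : ι → F} (hv : Q v ≠ 0) (x : ι → F) :
    (reflG Q v hv).1.1 *ᵥ x = x - ((Q v)⁻¹ * β[Q] v x) • v := by
  rw [reflG_coe, reflection_mulVec]
  rfl

theorem reflG_sq {v : ι → F} (hv : Q v ≠ 0) : reflG Q v hv * reflG Q v hv = 1 := by
  apply Subtype.ext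
  apply Units.ext
  exact reflectionMatrix_mul_self Q hv

/-- semisimilarities conjugate reflections to reflections -/
theorem conj_reflG {g : GL ι F} {σ : RingAut F} (hg : sm g σ ∈ GamO Q) {v : ι → F} (hv : Q v ≠ 0) :
    ∃ hv' : Q (sl g σ v) ≠ 0, sm g σ * lin (reflG Q v hv).1 * (sm g σ)⁻¹ = lin (reflG Q (sl g σ v) hv').1 := by
  obtain ⟨c, hSS⟩ := SS_of_pair hg
  have hq : Q (sl g σ v) = (c : F) * σ (Q v) := hSS.q v
  have hv' : Q (sl g σ v) ≠ 0 := by
    rw [hq]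
    exact mul_ne_zero c.ne_zero ((map_ne_zero_iff σ σ.injective).2 hv)
  refine ⟨hv', ?_⟩
  rw [sm_conj_lin]
  congr 1
  apply Units.ext
  symm
  apply (mat_iff (σ := (σ : F ≃+* F)) (A := (reflG Q v hv).1.1)).2
  intro x
  rw [reflG_mulVec, reflG_mulVec]
  have hp : β[Q] (sl g σ v) (sl g σ x) = (c : F) * σ (β[Q] v x) := hSS.pol v x
  have hs : sl g σ (((Q v)⁻¹ * β[Q] v x) • v) = σ ((Q v)⁻¹ * β[Q] v x) • sl g σ v := hSS.smul _ _
  rw [hq, hp, _root_.map_sub, hs]
  congr 2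
  rw [map_mul, map_inv₀, mul_inv]
  have hc := c.ne_zero
  field_simp

theorem conj_reflG_sim (hne : ∃ v, Q v ≠ 0) (g : Sim Q) {v : ι → F} (hv : Q v ≠ 0) :
    ∃ hv' : Q (g.1.1 *ᵥ v) ≠ 0, g * toSim Q (reflG Q v hv) * g⁻¹ = toSim Q (reflG Q (g.1.1 *ᵥ v) hv') := by
  have hg : sm g.1 1 ∈ GamO Q := g.2
  obtain ⟨hv', h⟩ := conj_reflG hg hv
  have e : sl g.1 (1 : RingAut F) v = g.1.1 *ᵥ v := rfl
  refine ⟨by rwa [e] at hv', ?_⟩
  apply Subtype.ext
  apply lin_injective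
  change lin (g.1 * (reflG Q v hv).1 * g.1⁻¹) = _
  rw [map_mul, map_mul, map_inv]
  exact h

/-! ### characters -/

section chi

variable [Finite F] (hQ : (β[Q]).Nondegenerate)

/-- the two characters -/
noncomputable def chi : isometryGroup F ⇑Q →* ℤˣ × ℤˣ := (chiO hQ 1).comp (isometryGroupEquiv Q).toMonoidHom

theorem mem_Omega_iff (h2 : (2 : F) ≠ 0) (hV : 2 ≤ finrank F (ι → F)) (h : isometryGroup F ⇑Q) :
    h ∈ Omega F ⇑Q ↔ chi hQ h = 1 := by
  rw [Omega, ← mem_commutator_congr (isometryGroupEquiv Q), commutator_eq_ker_chiO h2 hQ hV 1 one_ne_zero, MonoidHom.mem_ker]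
  rfl

theorem chi_surj (h2 : (2 : F) ≠ 0) (hV : 2 ≤ finrank F (ι → F)) : Function.Surjective (chi hQ) := by
  intro x
  obtain ⟨y, hy⟩ := chiO_surjective h2 hQ hV 1 one_ne_zero x
  exact ⟨(isometryGroupEquiv Q).symm y, by
    change chiO hQ 1 ((isometryGroupEquiv Q) ((isometryGroupEquiv Q).symm y)) = x
    rw [MulEquiv.apply_symm_apply, hy]⟩

open Classical in
theorem chi_refl (h2 : (2 : F) ≠ 0) {v : ι → F} (hv : Q v ≠ 0) :
    chi hQ (reflG Q v hv) = (-1, if IsSquare (Q v) then -1 else 1) := by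
  change chiO hQ 1 (isometryGroupEquiv Q (reflG Q v hv)) = _
  rw [eq_reflO_of_coe Q hv _ (reflG_coe Q v hv)]
  apply Prod.ext
  · exact dick_reflO hQ hv
  · change sgnO Q 1 (reflO hv) = _
    rw [sgnO_reflO h2 one_ne_zero, one_mul]

theorem chi_ngI (h2 : (2 : F) ≠ 0) : (chi hQ (ngI Q)).1 = (-1) ^ Fintype.card ι := by
  change dick hQ (isometryGroupEquiv Q (ngI Q)) = _
  rw [ngI, MulEquiv.apply_symm_apply, dick_negO h2 hQ, Module.finrank_fintype_fun_eq_card]

theorem det_chi (h2 : (2 : F) ≠ 0) (h : isometryGroup F ⇑Q) : h.1.1.det = (((chi hQ h).1 : ℤ) : F) := by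
  have hc : (∃ c : F, c ≠ 0 ∧ c ≠ 1) ∨ Fintype.card ι ≠ 4 := by
    left
    refine ⟨-1, neg_ne_zero.mpr one_ne_zero, fun h => h2 ?_⟩
    linear_combination -h
  have hh : h ∈ Subgroup.closure (reflSet Q) := by rw [closure_reflSet hQ hc]; trivial
  induction hh using Subgroup.closure_induction with
  | mem x hx =>
    obtain ⟨v, hv, hx⟩ := hx
    have e : x = reflG Q v hv := Subtype.ext (Units.ext hx)
    rw [e, chi_refl hQ h2, reflG_coe, reflection_det Q hv]
    simp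
  | one => rw [map_one]; simp
  | mul x y _ _ hx hy =>
    rw [map_mul, Prod.fst_mul]
    change (x.1.1 * y.1.1).det = _
    rw [det_mul, hx, hy]
    simp
  | inv x _ hx =>
    rw [map_inv, Prod.fst_inv, Int.units_inv_eq_self]
    rw [← hx]
    have h1 : (x⁻¹).1.1 * x.1.1 = 1 := congrArg Units.val (inv_mul_cancel x.1)
    have h3 := congrArg Matrix.det h1
    rw [det_mul, det_one, hx] at h3
    rw [hx]
    change (x⁻¹).1.1.det = _
    rcases Int.units_eq_one_or (chi hQ x).1 with h4 | h4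
    · rw [h4] at h3 ⊢
      simpa using h3
    · rw [h4] at h3 ⊢
      have h5 : (x⁻¹).1.1.det * (-1) = 1 := by simpa using h3
      have h6 : (x⁻¹).1.1.det = -1 := by linear_combination -h5
      exact h6.trans (by simp)

end chi

/-! ### the outer images -/

section outer

variable [Finite F] (hQ : (β[Q]).Nondegenerate) (hV : 7 ≤ finrank F (ι → F)) (h2 : (2 : F) ≠ 0)

include h2 in
theorem outO_eq_of_chi {h h' : isometryGroup F ⇑Q} (e : chi hQ h = chi hQ h') : outO hQ hV h = outO hQ hV h' := by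
  have h1 : chi hQ (h'⁻¹ * h) = 1 := by rw [map_mul, map_inv, e, inv_mul_cancel]
  have h3 := outO_mem hQ hV ((mem_Omega_iff hQ h2 (by omega) _).2 h1)
  rw [map_mul, map_inv, inv_mul_eq_one] at h3
  exact h3.symm

include hQ hV in
theorem exists_vec (c : Fˣ) : ∃ v, Q v = c := exists_map_eq hQ (by omega) (c : F)

/-- a vector of given value -/
noncomputable def vv (c : Fˣ) : ι → F := (exists_vec hQ hV c).choose

theorem vv_spec (c : Fˣ) : Q (vv hQ hV c) = c := (exists_vec hQ hV c).choose_spec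

theorem vv_ne (c : Fˣ) : Q (vv hQ hV c) ≠ 0 := by rw [vv_spec]; exact c.ne_zero

/-- the outer image of reflections in vectors of given value -/
noncomputable def R (c : Fˣ) : Out (POmega F ⇑Q) := outO hQ hV (reflG Q (vv hQ hV c) (vv_ne hQ hV c))

include h2 in
theorem outO_refl {v : ι → F} (hv : Q v ≠ 0) (c : Fˣ) (hc : IsSquare (Q v) ↔ IsSquare (c : F)) :
    outO hQ hV (reflG Q v hv) = R hQ hV c := by
  classical
  apply outO_eq_of_chi hQ hV h2
  rw [chi_refl hQ h2, chi_refl hQ h2, vv_spec]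
  by_cases h : IsSquare (c : F)
  · rw [if_pos h, if_pos (hc.2 h)]
  · rw [if_neg h, if_neg (fun h' => h (hc.1 h'))]

theorem R_sq (c : Fˣ) : R hQ hV c * R hQ hV c = 1 := by
  rw [R, ← map_mul, reflG_sq, map_one]

include h2 in
theorem R_comm (c d : Fˣ) : R hQ hV c * R hQ hV d = R hQ hV d * R hQ hV c := by
  rw [R, R, ← map_mul, ← map_mul]
  apply outO_eq_of_chi hQ hV h2
  rw [map_mul, map_mul, mul_comm]

include h2 in
theorem R_congr {c d : Fˣ} (h : IsSquare (c : F) ↔ IsSquare (d : F)) : R hQ hV c = R hQ hV d :=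
  outO_refl hQ hV h2 _ _ (by rw [vv_spec]; exact h)

include h2 in
theorem conj_R {g : GL ι F} {σ : RingAut F} (hg : sm g σ ∈ GamO Q) {c d : Fˣ} (hc : ∀ v, Q (sl g σ v) = (c : F) * σ (Q v)) :
    outG hQ hV ⟨sm g σ, hg⟩ * R hQ hV d * (outG hQ hV ⟨sm g σ, hg⟩)⁻¹ = R hQ hV (c * Units.map (σ : F →* F) d) := by
  obtain ⟨hv', h⟩ := conj_reflG hg (vv_ne hQ hV d)
  have h1 : outG hQ hV ⟨sm g σ, hg⟩ * R hQ hV d * (outG hQ hV ⟨sm g σ, hg⟩)⁻¹ =
      outO hQ hV (reflG Q (sl g σ (vv hQ hV d)) hv') := by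
    rw [R, ← outS_toSim, ← outS_toSim, ← outS_linS, ← outS_linS, ← map_inv, ← map_mul, ← map_mul]
    congr 1
    exact Subtype.ext h
  rw [h1]
  apply outO_refl hQ hV h2
  rw [hc, vv_spec]
  rfl

include h2 in
theorem conj_R_sim (hne : ∃ v, Q v ≠ 0) (g : Sim Q) (d : Fˣ) :
    outS hQ hV g * R hQ hV d * (outS hQ hV g)⁻¹ = R hQ hV (mu hne g * d) := by
  have hg : sm g.1 1 ∈ GamO Q := g.2
  have h1 := conj_R hQ hV h2 hg (c := mu hne g) (d := d) (fun v => mu_spec hne g v)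
  exact h1

/-- all values of `outO` -/
theorem outO_cases (ν : Fˣ) (hν : ¬ IsSquare (ν : F)) (h : isometryGroup F ⇑Q) :
    ((chi hQ h).1 = 1 ∧ (outO hQ hV h = 1 ∨ outO hQ hV h = R hQ hV 1 * R hQ hV ν)) ∨
    ((chi hQ h).1 = -1 ∧ (outO hQ hV h = R hQ hV 1 ∨ outO hQ hV h = R hQ hV ν)) := by
  classical
  have h2 : (2 : F) ≠ 0 := fun h2 => hν (isSquare_of_two_eq_zero h2 _)
  have e1 : chi hQ (reflG Q (vv hQ hV 1) (vv_ne hQ hV 1)) = (-1, -1) := by
    rw [chi_refl hQ h2, vv_spec, if_pos ⟨1, by simp⟩]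
  have e2 : chi hQ (reflG Q (vv hQ hV ν) (vv_ne hQ hV ν)) = (-1, 1) := by
    rw [chi_refl hQ h2, vv_spec, if_neg hν]
  rcases Int.units_eq_one_or (chi hQ h).1 with h3 | h3 <;> rcases Int.units_eq_one_or (chi hQ h).2 with h4 | h4
  · left
    refine ⟨h3, Or.inl ?_⟩
    rw [← map_one (outO hQ hV)]
    exact outO_eq_of_chi hQ hV h2 (by rw [map_one]; exact Prod.ext h3 h4)
  · left
    refine ⟨h3, Or.inr ?_⟩
    rw [R, R, ← map_mul]
    exact outO_eq_of_chi hQ hV h2 (by rw [map_mul, e1, e2]; exact Prod.ext h3 h4)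
  · right
    refine ⟨h3, Or.inr ?_⟩
    exact outO_eq_of_chi hQ hV h2 (by rw [e2]; exact Prod.ext h3 h4)
  · right
    refine ⟨h3, Or.inl ?_⟩
    exact outO_eq_of_chi hQ hV h2 (by rw [e1]; exact Prod.ext h3 h4)

include h2 in
theorem outO_eq_one' (h : isometryGroup F ⇑Q) : outO hQ hV h = 1 ↔ chi hQ h = 1 ∨ chi hQ h = chi hQ (ngI Q) := by
  rw [outO_eq_one, mem_Omega_iff hQ h2 (by omega), mem_Omega_iff hQ h2 (by omega), map_mul]
  have key : ∀ a b : ℤˣ × ℤˣ, a * b = 1 ↔ b = a := by decide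
  rw [key]

end outer

end CfsgLib.AutPO
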