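import Cfsg.Agent.Lib.AutPO13

/-!
# Automorphisms of `PΩ(Q)`, part 14: even dimension, odd characteristic
-/

set_option autoImplicit false
set_option linter.unusedSimpArgs false
set_option linter.unusedSectionVars false

namespace CfsgLib.AutPO

open Module Matrix Cfsg CfsgLib.Quad CfsgLib.SemiAut
open CfsgLib.AutPSp (scal scal_coe scal_isScal scal_mulVec exists_scal_of)
open CfsgLib.QuadMat (reflG reflG_coe reflection_mulVec reflection_det reflection_map reflectionMatrix_mul_self)

/-! ### abstract groups -/

section abs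

variable {G : Type*} [Group G]

/-- a homomorphism from the dihedral group of order 8 -/
def dihHom (t a : G) (ht : t ^ 4 = 1) (ha : a * a = 1) (hat : a * t * a = t⁻¹) : DihedralGroup 4 →* G where
  toFun x := match x with
    | DihedralGroup.r i => t ^ i.val
    | DihedralGroup.sr i => a * t ^ i.val
  map_one' := by
    change t ^ (0 : ZMod 4).val = 1
    rw [ZMod.val_zero, pow_zero]
  map_mul' x y := by
    have hpow : ∀ n : ℕ, t ^ (n % 4) = t ^ n := by
      intro n
      conv_rhs => rw [← Nat.mod_add_div n 4, pow_add, pow_mul, ht, one_pow, mul_one]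
    have hadd : ∀ i j : ZMod 4, t ^ (i + j).val = t ^ i.val * t ^ j.val := by
      intro i j
      rw [ZMod.val_add, hpow, pow_add]
    have hat' : ∀ n : ℕ, a * t ^ n * a = (t ^ n)⁻¹ := by
      intro n
      induction n with
      | zero => rw [pow_zero, mul_one, ha, inv_one]
      | succ n ih =>
        rw [pow_succ, _root_.mul_inv_rev, ← ih, ← hat]
        have : a * t * a * (a * t ^ n * a) = a * t * (a * a) * t ^ n * a := by group
        rw [this, ha, mul_one, mul_assoc a t, ← pow_succ', pow_succ]
    have hsub : ∀ i j : ZMod 4, t ^ (j - i).val = (t ^ i.val)⁻¹ * t ^ j.val := by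
      intro i j
      rw [eq_inv_mul_iff_mul_eq, ← hadd]
      congr 2
      ring
    have hcomm : ∀ i : ZMod 4, t ^ i.val * a = a * (t ^ i.val)⁻¹ := by
      intro i
      rw [← hat']
      have : a * (a * t ^ i.val * a) = (a * a) * (t ^ i.val * a) := by group
      rw [this, ha, one_mul]
    have hc : ∀ i j : ZMod 4, t ^ i.val * t ^ j.val = t ^ j.val * t ^ i.val := by
      intro i j
      rw [← pow_add, ← pow_add, add_comm]
    rcases x with i | i <;> rcases y with j | j
    · exact hadd i j
    · change a * t ^ (j - i).val = t ^ i.val * (a * t ^ j.val)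
      rw [hsub, ← mul_assoc, ← mul_assoc, hcomm]
    · change a * t ^ (i + j).val = a * t ^ i.val * t ^ j.val
      rw [hadd, mul_assoc]
    · change t ^ (j - i).val = a * t ^ i.val * (a * t ^ j.val)
      rw [hsub, ← mul_assoc, hat']

theorem dih_equiv (hc : Nat.card G = 8) {t a : G} (ht2 : t * t ≠ 1) (ht : t ^ 4 = 1) (ha : a * a = 1)
    (hat : a * t * a = t⁻¹) : Nonempty (G ≃* DihedralGroup 4) := by
  have hfin : Finite G := Nat.finite_of_card_ne_zero (by omega)
  have ht' : t ≠ t⁻¹ := by
    intro h
    apply ht2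
    nth_rewrite 1 [h]
    exact inv_mul_cancel t
  have hinj : Function.Injective (dihHom t a ht ha hat) := by
    rw [injective_iff_map_eq_one]
    have ho : orderOf t = 4 := by
      have h1 : orderOf t ∣ 2 ^ 2 := orderOf_dvd_of_pow_eq_one ht
      have h2 : ¬ orderOf t ∣ 2 ^ 1 := by
        intro h
        apply ht2
        rw [← sq]
        exact orderOf_dvd_iff_pow_eq_one.1 h
      obtain ⟨k, hk, hk'⟩ := (Nat.dvd_prime_pow Nat.prime_two).1 h1
      have : k = 2 := by
        by_contra hne
        apply h2
        rw [hk']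
        exact pow_dvd_pow 2 (by omega)
      rw [hk', this]
      rfl
    intro x hx
    rcases x with i | i
    · change t ^ i.val = 1 at hx
      have h1 := orderOf_dvd_of_pow_eq_one hx
      rw [ho] at h1
      have h2 := ZMod.val_lt i
      have h3 : i.val = 0 := Nat.eq_zero_of_dvd_of_lt h1 h2
      have h4 : i = 0 := (ZMod.val_eq_zero i).1 h3
      rw [h4]
      rfl
    · exfalso
      change a * t ^ i.val = 1 at hx
      have h1 : a = (t ^ i.val)⁻¹ := eq_inv_of_mul_eq_one_left hx
      have h2 : a * t = t * a := by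
        rw [h1]
        have : Commute (t ^ i.val)⁻¹ t := ((Commute.refl t).pow_left _).inv_left
        exact this
      apply ht'
      rw [← hat, h2, mul_assoc, ha, mul_one]
  have hcard : Nat.card (DihedralGroup 4) = 8 := DihedralGroup.nat_card
  have hbij := (Nat.bijective_iff_injective_and_card (dihHom t a ht ha hat)).2 ⟨hinj, by rw [hcard, hc]⟩
  exact ⟨(MulEquiv.ofBijective _ hbij).symm⟩

/-- the form in which it occurs -/
theorem dih_equiv' (hc : Nat.card G = 8) {a b d : G} (ha : a * a = 1) (hb : b * b = 1) (hab : a * b = b * a)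
    (hne : a ≠ b) (hda : d * a * d⁻¹ = b) (hdb : d * b * d⁻¹ = a) (hd : d * d = 1 ∨ d * d = a * b) :
    Nonempty (G ≃* DihedralGroup 4) := by
  have hab1 : a * b ≠ 1 := by
    intro h
    apply hne
    have := eq_inv_of_mul_eq_one_left h
    rw [this]
    exact inv_eq_of_mul_eq_one_left hb
  have hab2 : (a * b) * (a * b) = 1 := by
    have : (a * b) * (a * b) = a * (b * a) * b := by group
    rw [this, ← hab]
    have : a * (a * b) * b = (a * a) * (b * b) := by group
    rw [this, ha, hb, one_mul]
  have hda' : d * a = b * d := by rw [← hda]; group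
  have hdb' : d * b = a * d := by rw [← hdb]; group
  rcases hd with hd | hd
  · -- t = d a
    have hdinv : d⁻¹ = d := inv_eq_of_mul_eq_one_left hd
    have h1 : (d * a) * (d * a) = a * b := by
      have : (d * a) * (d * a) = (d * a * d⁻¹) * (d * d) * a := by group
      rw [this, hda, hd, mul_one, hab]
    refine dih_equiv hc (t := d * a) (a := a) (by rw [h1]; exact hab1) ?_ ha ?_
    · have : (d * a) ^ 4 = ((d * a) * (d * a)) * ((d * a) * (d * a)) := by
        rw [show 4 = 2 + 2 from rfl, pow_add, sq]
      rw [this, h1, hab2]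
    · rw [_root_.mul_inv_rev, hdinv, inv_eq_of_mul_eq_one_left ha]
      have : a * (d * a) * a = a * d * (a * a) := by group
      rw [this, ha, mul_one]
  · refine dih_equiv hc (t := d) (a := a) (by rw [hd]; exact hab1) ?_ ha ?_
    · have : d ^ 4 = (d * d) * (d * d) := by
        rw [show 4 = 2 + 2 from rfl, pow_add, sq]
      rw [this, hd, hab2]
    · -- a d a = d b a = d d d = d⁻¹
      rw [mul_assoc, hda', ← mul_assoc, ← hd]
      apply eq_inv_of_mul_eq_one_left
      have : d * d * d * d = (d * d) * (d * d) := by group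
      rw [this, hd, hab2]

/-- Klein four groups -/
theorem klein_equiv (hc : Nat.card G = 4) (h2 : ∀ x : G, x * x = 1) : Nonempty (G ≃* Multiplicative (ZMod 2 × ZMod 2)) := by
  have hfin : Finite G := Nat.finite_of_card_ne_zero (by omega)
  have hG : IsKleinFour G := by
    refine ⟨hc, ?_⟩
    have hnt : Nontrivial G := by
      rw [← Finite.one_lt_card_iff_nontrivial, hc]
      norm_num
    have h1 : Monoid.exponent G ∣ 2 := Monoid.exponent_dvd_of_forall_pow_eq_one (fun x => by rw [sq]; exact h2 x)
    rcases (Nat.dvd_prime Nat.prime_two).1 h1 with h | h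
    · rw [Monoid.exp_eq_one_iff] at h
      exact absurd h (not_subsingleton G)
    · exact h
  have hH : IsKleinFour (Multiplicative (ZMod 2 × ZMod 2)) := by
    infer_instance
  exact (IsKleinFour.nonempty_mulEquiv (G₁ := G) (G₂ := Multiplicative (ZMod 2 × ZMod 2)))

/-- passing to the quotient -/
theorem exists_phi {A : Type*} [Group A] (I P : Subgroup A) [I.Normal] {X : Type*} [Group X]
    (e : ↥(P.map (QuotientGroup.mk' I)) ≃* X) : ∃ φ : P →* X, Function.Surjective φ ∧ φ.ker = I.subgroupOf P := by
  let f : P →* ↥(P.map (QuotientGroup.mk' I)) := ((QuotientGroup.mk' I).comp P.subtype).codRestrict _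
    (fun x => ⟨x.1, x.2, rfl⟩)
  refine ⟨e.toMonoidHom.comp f, ?_, ?_⟩
  · intro x
    obtain ⟨y, rfl⟩ := e.surjective x
    obtain ⟨y, z, hz, rfl⟩ := y
    exact ⟨⟨z, hz⟩, rfl⟩
  · ext x
    rw [MonoidHom.mem_ker, MonoidHom.comp_apply, Subgroup.mem_subgroupOf]
    change e (f x) = 1 ↔ _
    rw [EmbeddingLike.map_eq_one_iff, ← QuotientGroup.eq_one_iff]
    exact Subtype.ext_iff

theorem relIndex_eq {A : Type*} [Group A] (I P : Subgroup A) [I.Normal] :
    I.relIndex P = Nat.card ↥(P.map (QuotientGroup.mk' I)) := by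
  obtain ⟨φ, h1, h2⟩ := exists_phi I P (MulEquiv.refl _)
  rw [Subgroup.relIndex, ← h2, Subgroup.index_ker, MonoidHom.range_eq_top.2 h1, Subgroup.card_top]

end abs

end CfsgLib.AutPO
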