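import Cfsg.Agent.Lib.AutPO14

/-!
# Automorphisms of `PΩ(Q)`, part 15: even dimension, odd characteristic
-/

set_option autoImplicit false
set_option linter.unusedSimpArgs false
set_option linter.unusedSectionVars false

namespace CfsgLib.AutPO

open Module Matrix Cfsg CfsgLib.Quad CfsgLib.SemiAut
open CfsgLib.AutPSp (scal scal_coe scal_isScal scal_mulVec exists_scal_of)
open CfsgLib.QuadMat (reflG reflG_coe reflection_mulVec reflection_det reflection_map reflectionMatrix_mul_self)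

variable {F : Type*} [Field F] {ι : Type} [Fintype ι] [DecidableEq ι] {Q : QuadraticForm F (ι → F)}

local notation "β[" Q "]" => QuadraticMap.polarBilin Q

/-- the normalized determinant -/
noncomputable def eps (hne : ∃ v, Q v ≠ 0) (M : ℕ) : Sim Q →* Fˣ where
  toFun g := Matrix.GeneralLinearGroup.det g.1 * ((mu hne g) ^ M)⁻¹
  map_one' := by rw [map_one, Subgroup.coe_one, map_one, one_pow, inv_one, mul_one]
  map_mul' g h := by
    rw [map_mul, Subgroup.coe_mul, map_mul, mul_pow, _root_.mul_inv]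
    exact mul_mul_mul_comm _ _ _ _

theorem eps_apply (hne : ∃ v, Q v ≠ 0) (M : ℕ) (g : Sim Q) :
    eps hne M g = Matrix.GeneralLinearGroup.det g.1 * ((mu hne g) ^ M)⁻¹ := rfl

theorem eps_sq (hQ : (β[Q]).Nondegenerate) (hne : ∃ v, Q v ≠ 0) {M : ℕ} (hM : Fintype.card ι = 2 * M) (g : Sim Q) :
    eps hne M g = 1 ∨ eps hne M g = -1 := by
  have h1 := det_sq hQ hne g
  have h2 : (eps hne M g : F) * (eps hne M g : F) = 1 := by
    rw [← Units.val_mul, eps_apply, mul_mul_mul_comm, ← _root_.mul_inv, ← sq, ← sq, ← pow_mul, mul_comm M 2, ← hM]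
    have h3 : (Matrix.GeneralLinearGroup.det g.1) ^ 2 = (mu hne g) ^ Fintype.card ι := by
      apply Units.ext
      rw [Units.val_pow_eq_pow_val, Units.val_pow_eq_pow_val, ← h1]
      rfl
    rw [h3, mul_inv_cancel, Units.val_one]
  rcases mul_self_eq_one_iff.1 h2 with h3 | h3
  · left; exact Units.ext h3
  · right; exact Units.ext h3

theorem eps_scal (hne : ∃ v, Q v ≠ 0) {M : ℕ} (hM : Fintype.card ι = 2 * M) (c : Fˣ) : eps hne M ⟨scal c, scal_mem c⟩ = 1 := by
  rw [eps_apply, mu_scal, ← pow_mul, ← hM, mul_inv_eq_one]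
  apply Units.ext
  change (scal c : GL ι F).1.det = _
  rw [scal_coe, det_smul, det_one, mul_one, Units.val_pow_eq_pow_val]

theorem mu_toSim (hne : ∃ v, Q v ≠ 0) (h : isometryGroup F ⇑Q) : mu hne (toSim Q h) = 1 :=
  (mu_eq_one_iff hne _).2 h.2

theorem eps_toSim (hne : ∃ v, Q v ≠ 0) (M : ℕ) (h : isometryGroup F ⇑Q) : (eps hne M (toSim Q h) : F) = h.1.1.det := by
  rw [eps_apply, mu_toSim, one_pow, inv_one, mul_one]
  rfl

/-- conjugation by semisimilarities -/
theorem mu_conj (hne : ∃ v, Q v ≠ 0) {g : GL ι F} {σ : RingAut F} (hg : sm g σ ∈ GamO Q) {k k' : Sim Q}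
    (h : sm g σ * lin k.1 * (sm g σ)⁻¹ = lin k'.1) : mu hne k' = Units.map (σ : F →* F) (mu hne k) := by
  obtain ⟨c, hSS⟩ := SS_of_pair hg
  rw [sm_conj_lin] at h
  have h1 : k'.1.1 = g.1 * (k.1.1).map σ * (g⁻¹).1 := congrArg Units.val (lin_injective h).symm
  have h2 := (mat_iff (σ := (σ : F ≃+* F)) (A := k.1.1)).1 h1
  apply mu_eq
  intro v
  obtain ⟨x, rfl⟩ := (sl g σ).surjective v
  have h3 : k'.1.1 *ᵥ sl g σ x = sl g σ (k.1.1 *ᵥ x) := h2 x
  have hq : ∀ v, Q (sl g σ v) = (c : F) * σ (Q v) := hSS.q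
  rw [h3, hq, mu_spec hne, map_mul, hq]
  change _ = σ (mu hne k) * _
  ring

theorem eps_conj (hne : ∃ v, Q v ≠ 0) (M : ℕ) {g : GL ι F} {σ : RingAut F} (hg : sm g σ ∈ GamO Q) {k k' : Sim Q}
    (h : sm g σ * lin k.1 * (sm g σ)⁻¹ = lin k'.1) : eps hne M k' = Units.map (σ : F →* F) (eps hne M k) := by
  rw [eps_apply, eps_apply, mu_conj hne hg h, map_mul, map_inv, map_pow]
  congr 1
  rw [sm_conj_lin] at h
  rw [← lin_injective h, map_mul, map_mul, map_inv, mul_right_comm, mul_inv_cancel, one_mul]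
  apply Units.ext
  change (k.1.1.map σ).det = σ (k.1.1.det)
  exact (RingHom.map_det (σ : F →+* F) k.1.1).symm

section even

variable [Finite F] (hQ : (β[Q]).Nondegenerate) (hV : 7 ≤ finrank F (ι → F)) (h2 : (2 : F) ≠ 0) (hne : ∃ v, Q v ≠ 0)
  {M : ℕ} (hM : Fintype.card ι = 2 * M)

include h2 in
theorem eps_toSim_iff (h : isometryGroup F ⇑Q) : eps hne M (toSim Q h) = 1 ↔ (chi hQ h).1 = 1 := by
  rw [Units.ext_iff, eps_toSim, det_chi hQ h2, Units.val_one]
  rcases Int.units_eq_one_or (chi hQ h).1 with h3 | h3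
  · rw [h3]; simp
  · rw [h3]
    constructor
    · intro h4
      exfalso
      apply h2
      have h5 : ((-1 : ℤ) : F) = 1 := by exact_mod_cast h4
      push_cast at h5
      linear_combination -h5
    · intro h4
      exact absurd h4 (by decide)

include h2 hM in
theorem eps_of_outS {g g' : Sim Q} (h : outS hQ hV g = outS hQ hV g') : eps hne M g = eps hne M g' := by
  rw [← mul_inv_eq_one, ← map_inv, ← map_mul, outS_eq_one] at h
  obtain ⟨c, s, h⟩ := h
  have h3 : g * g'⁻¹ = ⟨scal c, scal_mem c⟩ * toSim Q s.1 := Subtype.ext h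
  rw [← mul_inv_eq_one, ← map_inv, ← map_mul, h3, map_mul, eps_scal hne hM, one_mul, eps_toSim_iff hQ h2]
  have h4 := (mem_Omega_iff hQ h2 (by omega) s.1).1 s.2
  rw [h4]
  rfl

theorem mu_of_outS {g g' : Sim Q} (h : outS hQ hV g = outS hQ hV g') : ∃ a : Fˣ, mu hne g = a ^ 2 * mu hne g' := by
  rw [← mul_inv_eq_one, ← map_inv, ← map_mul, outS_eq_one] at h
  obtain ⟨c, s, h⟩ := h
  have h3 : g * g'⁻¹ = ⟨scal c, scal_mem c⟩ * toSim Q s.1 := Subtype.ext h
  have h4 := congrArg (mu hne) h3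
  rw [map_mul, map_mul, mu_scal, mu_toSim, mul_one, map_inv, mul_inv_eq_iff_eq_mul] at h4
  exact ⟨c, h4⟩

/-- a similarity with square multiplier, in the outer group -/
theorem outS_of_sq (g : Sim Q) (a : Fˣ) (h : mu hne g = a ^ 2) :
    ∃ k : isometryGroup F ⇑Q, outS hQ hV g = outO hQ hV k ∧ (Fintype.card ι = 2 * M → eps hne M g = eps hne M (toSim Q k)) := by
  obtain ⟨k, hk⟩ := exists_iso_of_sq hne g a h
  refine ⟨k, ?_, ?_⟩
  · rw [hk, map_mul, outS_scal, one_mul]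
    rfl
  · intro hM
    rw [hk, map_mul, eps_scal hne hM, one_mul]

include hM h2 in
theorem chi_ngI_even : (chi hQ (ngI Q)).1 = 1 := by
  rw [chi_ngI hQ h2, hM]
  exact (even_two_mul M).neg_one_pow

section nonsq

variable {ν : Fˣ} (hν : ¬ IsSquare (ν : F))

include hν in
theorem ns2 : (2 : F) ≠ 0 := fun h2 => hν (isSquare_of_two_eq_zero h2 _)

open Classical in
include hν in
theorem chi_RR : chi hQ (reflG Q (vv hQ hV 1) (vv_ne hQ hV 1) * reflG Q (vv hQ hV ν) (vv_ne hQ hV ν)) = (1, -1) := by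
  have h2 := ns2 hν
  rw [map_mul, chi_refl hQ h2, chi_refl hQ h2, vv_spec, vv_spec, if_pos ⟨1, by simp⟩, if_neg hν]
  rfl

include hν hM in
/-- `-1 ∉ Ω` : the product of the two reflections is trivial -/
theorem RR_N (hN : ngI Q ∉ Omega F ⇑Q) : R hQ hV 1 * R hQ hV ν = 1 := by
  have h2 := ns2 hν
  rw [R, R, ← map_mul, outO_eq_one' hQ hV h2]
  right
  rw [chi_RR hQ hV hν]
  rw [mem_Omega_iff hQ h2 (by omega)] at hN
  have h3 := chi_ngI_even hQ h2 hM
  apply Prod.ext
  · exact h3.symm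
  · rcases Int.units_eq_one_or (chi hQ (ngI Q)).2 with h4 | h4
    · exact absurd (Prod.ext h3 h4) hN
    · exact h4.symm

include hν in
theorem RR_D (hD : ngI Q ∈ Omega F ⇑Q) : R hQ hV 1 * R hQ hV ν ≠ 1 := by
  have h2 := ns2 hν
  rw [R, R, ← map_mul, Ne, outO_eq_one' hQ hV h2, (mem_Omega_iff hQ h2 (by omega) _).1 hD, chi_RR hQ hV hν]
  decide

include hν hM in
theorem R1_ne_one : R hQ hV 1 ≠ 1 := by
  classical
  have h2 := ns2 hν
  rw [R, Ne, outO_eq_one' hQ hV h2, chi_refl hQ h2]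
  rintro (h | h)
  · have h3 : (-1 : ℤˣ) = 1 := congrArg Prod.fst h
    exact absurd h3 (by decide)
  · have h3 : (-1 : ℤˣ) = (chi hQ (ngI Q)).1 := congrArg Prod.fst h
    rw [chi_ngI_even hQ h2 hM] at h3
    exact absurd h3 (by decide)

include hν hM in
theorem card_outO_N (hN : ngI Q ∉ Omega F ⇑Q) : Nat.card (outO hQ hV).range = 2 := by
  have h1 := RR_N hQ hV hM hν hN
  have h3 : R hQ hV ν = R hQ hV 1 := by
    rw [← mul_right_inj (R hQ hV 1), h1, R_sq]
  rw [Nat.card_eq_two_iff]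
  refine ⟨1, ⟨R hQ hV 1, ⟨_, rfl⟩⟩, ?_, ?_⟩
  · intro h
    exact R1_ne_one hQ hV hM hν (congrArg Subtype.val h).symm
  · rw [Set.eq_univ_iff_forall]
    rintro ⟨_, h, rfl⟩
    rcases outO_cases hQ hV ν hν h with ⟨_, h4 | h4⟩ | ⟨_, h4 | h4⟩
    · left; exact Subtype.ext h4
    · left; exact Subtype.ext (h4.trans h1)
    · right; exact Subtype.ext h4
    · right; exact Subtype.ext (h4.trans h3)

include hν in
theorem card_outO_D (hD : ngI Q ∈ Omega F ⇑Q) : Nat.card (outO hQ hV).range = 4 := by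
  have h2 := ns2 hν
  have hker : (outO hQ hV).ker = Omega F ⇑Q := by
    ext h
    rw [MonoidHom.mem_ker, outO_eq_one]
    constructor
    · rintro (h | h)
      · exact h
      · exact (Subgroup.mul_mem_cancel_left _ hD).1 h
    · exact Or.inl
  have h3 := index_Omega_odd h2 hQ (by rw [Module.finrank_fintype_fun_eq_card] at hV; omega)
  rw [← hker, Subgroup.index_ker] at h3
  exact h3

/-- passing from isometries to similarities -/
theorem card_outS (hmu : Function.Surjective (mu hne)) (hν : ¬ IsSquare (ν : F)) :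
    Nat.card (outS hQ hV).range = 2 * Nat.card (outO hQ hV).range := by
  have h2 := ns2 hν
  have hle : (outO hQ hV).range ≤ (outS hQ hV).range := by
    rintro _ ⟨h, rfl⟩
    exact ⟨toSim Q h, rfl⟩
  have h3 : ((outO hQ hV).range).comap (outS hQ hV) = ((powMonoidHom 2 : Fˣ →* Fˣ).range).comap (mu hne) := by
    ext g
    rw [Subgroup.mem_comap, Subgroup.mem_comap]
    constructor
    · rintro ⟨h, hh⟩
      obtain ⟨a, ha⟩ := mu_of_outS hQ hV hne (g := g) (g' := toSim Q h) hh.symm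
      rw [mu_toSim, mul_one] at ha
      exact ⟨a, ha.symm⟩
    · rintro ⟨a, ha⟩
      obtain ⟨k, hk, _⟩ := outS_of_sq (M := 0) hQ hV hne g a ha.symm
      exact ⟨k, hk.symm⟩
  have h4 := Subgroup.index_comap ((outO hQ hV).range) (outS hQ hV)
  rw [h3, Subgroup.index_comap, MonoidHom.range_eq_top.2 hmu, Subgroup.relIndex_top_right] at h4
  have h5 : ((powMonoidHom 2 : Fˣ →* Fˣ).range).index = 2 := by
    have h6 := card_sq (F := F) h2
    have h7 := Subgroup.card_mul_index ((powMonoidHom 2 : Fˣ →* Fˣ).range)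
    have h0 : Nat.card Fˣ = Nat.card F - 1 := by
      have := Nat.card_eq_card_units_add_one (α := F)
      omega
    have h8 : 0 < Nat.card (powMonoidHom 2 : Fˣ →* Fˣ).range := Nat.card_pos
    rw [h0, ← h6, mul_comm] at h7
    exact Nat.eq_of_mul_eq_mul_right h8 h7
  rw [h5] at h4
  have h9 := Subgroup.relIndex_mul_relIndex ⊥ (outO hQ hV).range (outS hQ hV).range bot_le hle
  rw [Subgroup.relIndex_bot_left, Subgroup.relIndex_bot_left, ← h4] at h9
  rw [← h9, mul_comm]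

include hM in
/-- case `-1 ∉ Ω` -/
theorem outS_eq_one_N (hν : ¬ IsSquare (ν : F)) (hN : ngI Q ∉ Omega F ⇑Q) (g : Sim Q) :
    outS hQ hV g = 1 ↔ (∃ a : Fˣ, mu hne g = a ^ 2) ∧ eps hne M g = 1 := by
  have h2 := ns2 hν
  constructor
  · intro h
    rw [← map_one (outS hQ hV)] at h
    obtain ⟨a, ha⟩ := mu_of_outS hQ hV hne h
    rw [map_one, mul_one] at ha
    refine ⟨⟨a, ha⟩, ?_⟩
    rw [eps_of_outS hQ hV h2 hne hM h, map_one]
  · rintro ⟨⟨a, ha⟩, h⟩
    obtain ⟨k, hk, hk'⟩ := outS_of_sq (M := M) hQ hV hne g a ha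
    rw [hk' hM, eps_toSim_iff hQ h2] at h
    rw [hk]
    rcases outO_cases hQ hV ν hν k with ⟨_, h4 | h4⟩ | ⟨h4, _⟩
    · exact h4
    · rw [h4, RR_N hQ hV hM hν hN]
    · rw [h] at h4
      exact absurd h4 (by decide)

include hM in
/-- case `-1 ∉ Ω`: Klein four group -/
theorem klein_N (hmu : Function.Surjective (mu hne)) (hν : ¬ IsSquare (ν : F)) (hN : ngI Q ∉ Omega F ⇑Q) :
    Nonempty ((outS hQ hV).range ≃* Multiplicative (ZMod 2 × ZMod 2)) := by
  apply klein_equiv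
  · rw [card_outS hQ hV hne hmu hν, card_outO_N hQ hV hM hν hN]
  · rintro ⟨_, g, rfl⟩
    apply Subtype.ext
    change outS hQ hV g * outS hQ hV g = 1
    rw [← map_mul, outS_eq_one_N hQ hV hne hM hν hN]
    refine ⟨⟨mu hne g, by rw [map_mul, sq]⟩, ?_⟩
    rw [map_mul]
    rcases eps_sq hQ hne hM g with h | h
    · rw [h, one_mul]
    · rw [h, neg_mul_neg, one_mul]

include hM in
/-- squares of similarities -/
theorem outS_sq_cases (hν : ¬ IsSquare (ν : F)) (g : Sim Q) :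
    outS hQ hV g * outS hQ hV g = 1 ∨ outS hQ hV g * outS hQ hV g = R hQ hV 1 * R hQ hV ν := by
  have h2 := ns2 hν
  have hne := exists_ne_of_nd hQ (by omega)
  obtain ⟨k, hk, hk'⟩ := outS_of_sq (M := M) hQ hV hne (g * g) (mu hne g) (by rw [map_mul, sq])
  have h : eps hne M (toSim Q k) = 1 := by
    rw [← hk' hM, map_mul]
    rcases eps_sq hQ hne hM g with h | h
    · rw [h, one_mul]
    · rw [h, neg_mul_neg, one_mul]
  rw [eps_toSim_iff hQ h2] at h
  rw [← map_mul, hk]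
  rcases outO_cases hQ hV ν hν k with ⟨_, h4 | h4⟩ | ⟨h4, _⟩
  · exact Or.inl h4
  · exact Or.inr h4
  · rw [h] at h4
    exact absurd h4 (by decide)

include h2 in
theorem conj_R_ν (g : Sim Q) (hg : mu hne g = ν) : outS hQ hV g * R hQ hV 1 * (outS hQ hV g)⁻¹ = R hQ hV ν ∧
    outS hQ hV g * R hQ hV ν * (outS hQ hV g)⁻¹ = R hQ hV 1 := by
  constructor
  · rw [conj_R_sim hQ hV h2 hne, hg, mul_one]
  · rw [conj_R_sim hQ hV h2 hne, hg]
    apply R_congr hQ hV h2
    constructor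
    · intro _
      exact ⟨1, by simp⟩
    · intro _
      exact ⟨ν, by rw [Units.val_mul]⟩

include hM in
/-- case `-1 ∈ Ω`: dihedral group -/
theorem dih_D (hmu : Function.Surjective (mu hne)) (hν : ¬ IsSquare (ν : F)) (hD : ngI Q ∈ Omega F ⇑Q) :
    Nonempty ((outS hQ hV).range ≃* DihedralGroup 4) := by
  have h2 := ns2 hν
  obtain ⟨δ, hδ⟩ := hmu ν
  have hR : ∀ c, R hQ hV c ∈ (outS hQ hV).range := fun c => ⟨toSim Q _, rfl⟩
  obtain ⟨hc1, hc2⟩ := conj_R_ν hQ hV h2 hne δ hδ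
  refine dih_equiv' ?_ (a := ⟨R hQ hV 1, hR 1⟩) (b := ⟨R hQ hV ν, hR ν⟩) (d := ⟨outS hQ hV δ, ⟨δ, rfl⟩⟩) ?_ ?_ ?_ ?_ ?_ ?_ ?_
  · rw [card_outS hQ hV hne hmu hν, card_outO_D hQ hV hν hD]
  · exact Subtype.ext (R_sq hQ hV 1)
  · exact Subtype.ext (R_sq hQ hV ν)
  · exact Subtype.ext (R_comm hQ hV h2 1 ν)
  · intro h
    have h3 : R hQ hV 1 = R hQ hV ν := congrArg Subtype.val h
    apply RR_D hQ hV hν hD
    rw [← h3, R_sq]
  · exact Subtype.ext hc1
  · exact Subtype.ext hc2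
  · rcases outS_sq_cases hQ hV hM hν δ with h | h
    · exact Or.inl (Subtype.ext h)
    · exact Or.inr (Subtype.ext h)

end nonsq

end even

end CfsgLib.AutPO
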