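import Cfsg.Agent.Lib.AutPO15

/-!
# Automorphisms of `PΩ(Q)`, part 16: subgroups of the automorphism group modulo inner automorphisms
-/

set_option autoImplicit false
set_option linter.unusedSimpArgs false
set_option linter.unusedSectionVars false

namespace CfsgLib.AutPO

open Module Matrix Cfsg CfsgLib.Quad CfsgLib.SemiAut
open CfsgLib.AutPSp (scal scal_coe scal_isScal scal_mulVec exists_scal_of)
open CfsgLib.QuadMat (reflG reflG_coe reflection_mulVec reflection_det reflection_map reflectionMatrix_mul_self)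

section gen

variable {F : Type*} [Field F] {ι : Type} [Fintype ι] [DecidableEq ι] {Q : QuadraticForm F (ι → F)}

local notation "β[" Q "]" => QuadraticMap.polarBilin Q

variable [Finite F] (hQ : (β[Q]).Nondegenerate) (hV : 7 ≤ finrank F (ι → F))

theorem ngI_iff : ngI Q ∈ Omega F ⇑Q ↔ ∃ g : isometryGroup F ⇑Q, g ∈ Omega F ⇑Q ∧ g.1.1 = -1 := by
  constructor
  · intro h
    refine ⟨ngI Q, h, ?_⟩
    rw [ngI_coe, scal_coe]
    simp
  · rintro ⟨g, hg, h⟩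
    have : g = ngI Q := by
      apply Subtype.ext
      apply Units.ext
      rw [h, ngI_coe, scal_coe]
      simp
    rwa [← this]

/-- the image of a group of similarities -/
theorem map_gam {GG : Subgroup (GL ι F)} (h1 : GG ≤ Sim Q) (hS : Setup (embO Q) (GamO Q) GG) :
    (hS.gam.range).map (QuotientGroup.mk' (Inn (POmega F ⇑Q))) = (outS hQ hV).range ⊓ ((GG.subgroupOf (Sim Q)).map (outS hQ hV)) := by
  ext x
  constructor
  · rintro ⟨_, ⟨g, rfl⟩, rfl⟩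
    exact ⟨⟨⟨g.1, h1 g.2⟩, rfl⟩, ⟨⟨g.1, h1 g.2⟩, g.2, rfl⟩⟩
  · rintro ⟨_, ⟨g, hg, rfl⟩⟩
    exact ⟨hS.gam ⟨g.1, hg⟩, ⟨_, rfl⟩, rfl⟩

theorem map_gam' {GG : Subgroup (GL ι F)} (h1 : GG ≤ Sim Q) (hS : Setup (embO Q) (GamO Q) GG) :
    (hS.gam.range).map (QuotientGroup.mk' (Inn (POmega F ⇑Q))) = (GG.subgroupOf (Sim Q)).map (outS hQ hV) := by
  rw [map_gam hQ hV h1 hS, inf_eq_right]
  rintro _ ⟨g, _, rfl⟩
  exact ⟨g, rfl⟩

include hQ hV in
theorem pgo_eq : pgoAut F ⇑Q = (setupFull hQ hV).gam.range := (setupFull hQ hV).inndiag_eq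

theorem pgo_map : (pgoAut F ⇑Q).map (QuotientGroup.mk' (Inn (POmega F ⇑Q))) = (outS hQ hV).range := by
  rw [pgo_eq hQ hV, map_gam' hQ hV le_rfl, MonoidHom.range_eq_map]
  congr 1
  exact Subgroup.subgroupOf_self _

include hQ hV in
/-- the special isometries -/
theorem setupSO : Setup (embO Q) (GamO Q) (specialIsometryGL F ⇑Q) := by
  have hne := exists_ne_of_nd hQ (by omega)
  refine setupO hQ hV _ (fun g hg => iso_mem hg.1) ?_ ?_
  · rintro ⟨h, σ⟩ hγ g hg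
    obtain ⟨g', hg', hgg⟩ := conj_Sim _ hγ g (iso_mem hg.1)
    refine ⟨g', ?_, hgg⟩
    have h1 := mu_conj hne (g := h) (σ := σ) hγ (k := ⟨g, iso_mem hg.1⟩) (k' := ⟨g', hg'⟩) hgg
    have h2 := eps_conj hne 0 (g := h) (σ := σ) hγ (k := ⟨g, iso_mem hg.1⟩) (k' := ⟨g', hg'⟩) hgg
    rw [(mu_eq_one_iff hne ⟨g, iso_mem hg.1⟩).2 hg.1, map_one, mu_eq_one_iff] at h1
    refine ⟨h1, ?_⟩
    have h3 : Matrix.GeneralLinearGroup.det g = 1 := hg.2
    rw [eps_apply, eps_apply, pow_zero, inv_one, mul_one, pow_zero, inv_one, mul_one] at h2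
    change Matrix.GeneralLinearGroup.det g' = 1
    change Matrix.GeneralLinearGroup.det g' = Units.map (σ : F →* F) (Matrix.GeneralLinearGroup.det g) at h2
    rw [h2, h3, map_one]
  · intro s
    refine ⟨s.1.2, ?_⟩
    have h1 := Omega_le_special s.2
    rw [mem_special] at h1
    exact Units.ext h1

include hQ hV in
theorem pso_eq : psoAut F ⇑Q = (setupSO hQ hV).gam.range := (setupSO hQ hV).inndiag_eq

theorem pso_map : (psoAut F ⇑Q).map (QuotientGroup.mk' (Inn (POmega F ⇑Q))) =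
    ((specialIsometryGL F ⇑Q).subgroupOf (Sim Q)).map (outS hQ hV) := by
  have hle : specialIsometryGL F ⇑Q ≤ Sim Q := fun g hg => iso_mem hg.1
  rw [pso_eq hQ hV, map_gam' hQ hV hle]

include hQ hV in
theorem card_pso_N {M : ℕ} (hM : Fintype.card ι = 2 * M) {ν : Fˣ} (hν : ¬ IsSquare (ν : F)) (hN : ngI Q ∉ Omega F ⇑Q) :
    (Inn (POmega F ⇑Q)).relIndex (psoAut F ⇑Q) = 1 := by
  have h2 := ns2 hν
  rw [relIndex_eq, pso_map hQ hV]
  have : ((specialIsometryGL F ⇑Q).subgroupOf (Sim Q)).map (outS hQ hV) = ⊥ := by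
    rw [eq_bot_iff]
    rintro _ ⟨g, hg, rfl⟩
    rw [Subgroup.mem_bot]
    have hd : g.1.1.det = 1 := congrArg Units.val hg.2
    have e : g = toSim Q ⟨g.1, hg.1⟩ := rfl
    rw [e, outS_toSim]
    have hchi : (chi hQ ⟨g.1, hg.1⟩).1 = 1 := by
      have h3 := det_chi hQ h2 ⟨g.1, hg.1⟩
      rcases Int.units_eq_one_or (chi hQ ⟨g.1, hg.1⟩).1 with h4 | h4
      · exact h4
      · exfalso
        rw [h4] at h3
        have h5 : g.1.1.det = (((-1 : ℤˣ) : ℤ) : F) := h3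
        rw [hd] at h5
        push_cast at h5
        apply h2
        linear_combination h5
    rcases outO_cases hQ hV ν hν ⟨g.1, hg.1⟩ with ⟨_, h4 | h4⟩ | ⟨h4, _⟩
    · exact h4
    · rw [h4, RR_N hQ hV hM hν hN]
    · rw [hchi] at h4
      exact absurd h4 (by decide)
  rw [this, Subgroup.card_bot]

include hQ hV in
theorem card_pso_D {ν : Fˣ} (hν : ¬ IsSquare (ν : F)) (hD : ngI Q ∈ Omega F ⇑Q) :
    (Inn (POmega F ⇑Q)).relIndex (psoAut F ⇑Q) = 2 := by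
  have h2 := ns2 hν
  rw [relIndex_eq, pso_map hQ hV, Nat.card_eq_two_iff]
  have hdet : (reflG Q (vv hQ hV 1) (vv_ne hQ hV 1) * reflG Q (vv hQ hV ν) (vv_ne hQ hV ν)).1 ∈ specialIsometryGL F ⇑Q := by
    refine ⟨(reflG Q (vv hQ hV 1) (vv_ne hQ hV 1) * reflG Q (vv hQ hV ν) (vv_ne hQ hV ν)).2, ?_⟩
    have h3 := det_chi hQ h2 (reflG Q (vv hQ hV 1) (vv_ne hQ hV 1) * reflG Q (vv hQ hV ν) (vv_ne hQ hV ν))
    rw [chi_RR hQ hV hν] at h3
    apply Units.ext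
    exact h3.trans (by simp)
  refine ⟨1, ⟨R hQ hV 1 * R hQ hV ν, ⟨toSim Q (reflG Q (vv hQ hV 1) (vv_ne hQ hV 1) * reflG Q (vv hQ hV ν) (vv_ne hQ hV ν)), hdet, ?_⟩⟩, ?_, ?_⟩
  · rw [outS_toSim, map_mul]
    rfl
  · intro h
    exact RR_D hQ hV hν hD (congrArg Subtype.val h).symm
  · rw [Set.eq_univ_iff_forall]
    rintro ⟨_, g, hg, rfl⟩
    have hd : g.1.1.det = 1 := congrArg Units.val hg.2
    have e : g = toSim Q ⟨g.1, hg.1⟩ := rfl
    have hchi : (chi hQ ⟨g.1, hg.1⟩).1 = 1 := by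
      have h3 := det_chi hQ h2 ⟨g.1, hg.1⟩
      rcases Int.units_eq_one_or (chi hQ ⟨g.1, hg.1⟩).1 with h4 | h4
      · exact h4
      · exfalso
        rw [h4] at h3
        have h5 : g.1.1.det = (((-1 : ℤˣ) : ℤ) : F) := h3
        rw [hd] at h5
        push_cast at h5
        apply h2
        linear_combination h5
    rcases outO_cases hQ hV ν hν ⟨g.1, hg.1⟩ with ⟨_, h4 | h4⟩ | ⟨h4, _⟩
    · left; exact Subtype.ext h4
    · right; exact Subtype.ext h4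
    · rw [hchi] at h4
      exact absurd h4 (by decide)

include hQ hV in
theorem pgo_phi {X : Type*} [Group X] (e : Nonempty ((outS hQ hV).range ≃* X)) :
    ∃ φ : ↥(pgoAut F ⇑Q) →* X, Function.Surjective φ ∧ φ.ker = (Inn (POmega F ⇑Q)).subgroupOf (pgoAut F ⇑Q) := by
  obtain ⟨e⟩ := e
  exact exists_phi (Inn (POmega F ⇑Q)) (pgoAut F ⇑Q) ((MulEquiv.subgroupCongr (pgo_map hQ hV)).trans e)

include hQ hV in
theorem pgo_N {M : ℕ} (hM : Fintype.card ι = 2 * M) (hne : ∃ v, Q v ≠ 0) (hmu : Function.Surjective (mu hne)) (h2 : (2 : F) ≠ 0)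
    (hN : ngI Q ∉ Omega F ⇑Q) : ∃ φ : ↥(pgoAut F ⇑Q) →* Multiplicative (ZMod 2 × ZMod 2), Function.Surjective φ ∧
      φ.ker = (Inn (POmega F ⇑Q)).subgroupOf (pgoAut F ⇑Q) := by
  obtain ⟨a, ha⟩ := exists_nonsquare h2
  have ha0 : a ≠ 0 := by rintro rfl; exact ha IsSquare.zero
  exact pgo_phi hQ hV (klein_N hQ hV hne hM hmu (ν := Units.mk0 a ha0) ha hN)

include hQ hV in
theorem pgo_D {M : ℕ} (hM : Fintype.card ι = 2 * M) (hne : ∃ v, Q v ≠ 0) (hmu : Function.Surjective (mu hne)) (h2 : (2 : F) ≠ 0)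
    (hD : ngI Q ∈ Omega F ⇑Q) : ∃ φ : ↥(pgoAut F ⇑Q) →* DihedralGroup 4, Function.Surjective φ ∧
      φ.ker = (Inn (POmega F ⇑Q)).subgroupOf (pgoAut F ⇑Q) := by
  obtain ⟨a, ha⟩ := exists_nonsquare h2
  have ha0 : a ≠ 0 := by rintro rfl; exact ha IsSquare.zero
  exact pgo_phi hQ hV (dih_D hQ hV hne hM hmu (ν := Units.mk0 a ha0) ha hD)

end gen

end CfsgLib.AutPO
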