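import Cfsg.Agent.Lib.AutPO16

/-!
# Automorphisms of `PΩ(Q)`, part 17: similarities of the plus and minus forms
-/

set_option autoImplicit false
set_option linter.unusedSimpArgs false
set_option linter.unusedSectionVars false

namespace CfsgLib.AutPO

open Module Matrix Cfsg CfsgLib.Quad CfsgLib.SemiAut
open CfsgLib.AutPSp (scal scal_coe scal_isScal scal_mulVec exists_scal_of)

variable {F : Type*} [Field F]

local notation "β[" Q "]" => QuadraticMap.polarBilin Q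

theorem exists_nu [Finite F] (h2 : (2 : F) ≠ 0) : ∃ ν : Fˣ, ¬ IsSquare (ν : F) := by
  obtain ⟨a, ha⟩ := exists_nonsquare h2
  have ha0 : a ≠ 0 := by rintro rfl; exact ha IsSquare.zero
  exact ⟨Units.mk0 a ha0, ha⟩

theorem pow_mod_odd {q m : ℕ} (hq : q % 2 = 1) : (q ^ m % 4 = 3 ↔ Odd m ∧ q % 4 = 3) ∧ (q ^ m % 4 = 1 ↔ ¬ (Odd m ∧ q % 4 = 3)) := by
  have h4 : q ^ m % 4 = (q % 4) ^ m % 4 := Nat.pow_mod _ _ _
  rw [h4]
  have h5 : q % 4 = 1 ∨ q % 4 = 3 := by omega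
  rcases h5 with h5 | h5
  · rw [h5, one_pow]
    simp
  · rw [h5]
    rcases Nat.even_or_odd m with hm | hm
    · have h8 : ¬ Odd m := by rwa [Nat.not_odd_iff_even]
      obtain ⟨l, rfl⟩ := hm
      have h7 : 3 ^ (l + l) % 4 = 1 := by
        rw [← two_mul, pow_mul, Nat.pow_mod]
        norm_num
      rw [h7]
      simp [h8]
    · have h8 := hm
      obtain ⟨l, rfl⟩ := hm
      have h7 : 3 ^ (2 * l + 1) % 4 = 3 := by
        rw [pow_succ, pow_mul, Nat.mul_mod, Nat.pow_mod]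
        norm_num
      rw [h7]
      simp [h8]

/-! ### plus type -/

section plus

variable (m : ℕ)

theorem card_ι_P : Fintype.card (Fin m ⊕ Fin m) = 2 * m := by
  rw [Fintype.card_sum, Fintype.card_fin]
  ring

theorem finrank_ι_P : finrank F (Fin m ⊕ Fin m → F) = 2 * m := by
  rw [Module.finrank_fintype_fun_eq_card, card_ι_P]

/-- the similarity `(c, 1)` -/
noncomputable def DPg (c : Fˣ) : GL (Fin m ⊕ Fin m) F :=
  Matrix.GeneralLinearGroup.mkOfDetNeZero (Matrix.diagonal (Sum.elim (fun _ => (c : F)) (fun _ => 1))) (by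
    rw [det_diagonal, Finset.prod_ne_zero_iff]
    rintro (i | i) _
    · exact c.ne_zero
    · exact one_ne_zero)

theorem DPg_coe (c : Fˣ) : (DPg m c).1 = Matrix.diagonal (Sum.elim (fun _ => (c : F)) (fun _ => 1)) := rfl

theorem DPg_det (c : Fˣ) : (DPg m c).1.det = (c : F) ^ m := by
  rw [DPg_coe, det_diagonal, Fintype.prod_sum_type]
  simp

theorem QP_DPg (c : Fˣ) (v : Fin m ⊕ Fin m → F) : QP m F ((DPg m c).1 *ᵥ v) = (c : F) * QP m F v := by
  rw [QP_coe, quadFormPlus, quadFormPlus, Finset.mul_sum]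
  apply Finset.sum_congr rfl
  intro i _
  rw [DPg_coe, mulVec_diagonal, mulVec_diagonal, Sum.elim_inl, Sum.elim_inr]
  ring

theorem DPg_mem (c : Fˣ) : DPg m c ∈ Sim (QP m F) := ⟨c, QP_DPg m c⟩

theorem mu_DP (hne : ∃ v, QP m F v ≠ 0) (c : Fˣ) : mu hne ⟨DPg m c, DPg_mem m c⟩ = c := mu_eq hne (QP_DPg m c)

theorem eps_DP (hne : ∃ v, QP m F v ≠ 0) (c : Fˣ) : eps hne m ⟨DPg m c, DPg_mem m c⟩ = 1 := by
  rw [eps_apply, mu_DP, mul_inv_eq_one]
  apply Units.ext
  exact DPg_det m c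

theorem mu_surj_plus (hne : ∃ v, QP m F v ≠ 0) : Function.Surjective (mu hne) := fun c => ⟨_, mu_DP m hne c⟩

theorem ngI_plus [Finite F] (h2 : (2 : F) ≠ 0) (hm : 1 ≤ m) : ngI (QP m F) ∈ Omega F ⇑(QP m F) ↔ Nat.card F ^ m % 4 = 1 := by
  obtain ⟨k, rfl⟩ : ∃ k, m = k + 1 := ⟨m - 1, by omega⟩
  have h := neg_mem_Omega_plus h2 k
  rw [ngI_iff]
  rw [← QP_coe] at h
  exact h

end plus

/-! ### minus type -/

section minus

variable (m : ℕ)

theorem card_ι_M : Fintype.card ((Fin m ⊕ Fin m) ⊕ Fin 2) = 2 * (m + 1) := by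
  rw [Fintype.card_sum, Fintype.card_sum, Fintype.card_fin, Fintype.card_fin]
  ring

theorem ngI_minus [Finite F] (h2 : (2 : F) ≠ 0) {a b : F} (hab : Aniso a b) :
    ngI (QM m a b) ∈ Omega F ⇑(QM m a b) ↔ Nat.card F ^ (m + 1) % 4 = 3 := by
  have h := neg_mem_Omega_minus h2 hab m
  rw [ngI_iff]
  rw [← QM_coe] at h
  exact h

variable {m}

/-- the multiplication matrix on the quadratic extension -/
def mulMat (a b x y : F) : Matrix (Fin 2) (Fin 2) F := !![x, -b * y; y, x + a * y]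

theorem mulMat_det (a b x y : F) : (mulMat a b x y).det = x ^ 2 + a * x * y + b * y ^ 2 := by
  rw [mulMat, det_fin_two_of]
  ring

theorem exists_norm_eq [Finite F] {a b : F} (hab : Aniso a b) (c : Fˣ) : ∃ x y : F, x ^ 2 + a * x * y + b * y ^ 2 = c := by
  obtain ⟨T, hT⟩ := sim_binQ hab c.ne_zero
  refine ⟨(T 1).re, (T 1).im, ?_⟩
  have h1 := hT 1
  rw [binQ_apply, binQ_apply, QuadraticAlgebra.norm_def, QuadraticAlgebra.norm_def] at h1
  have e1 : (1 : QK a b).re = 1 := rfl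
  have e2 : (1 : QK a b).im = 0 := rfl
  rw [e1, e2] at h1
  linear_combination h1

/-- the similarity of the minus form -/
noncomputable def DMg (m : ℕ) (a b : F) (c : Fˣ) (x y : F) (h : x ^ 2 + a * x * y + b * y ^ 2 = c) : GL ((Fin m ⊕ Fin m) ⊕ Fin 2) F :=
  Matrix.GeneralLinearGroup.mkOfDetNeZero (Matrix.fromBlocks (Matrix.diagonal (Sum.elim (fun _ => (c : F)) (fun _ => 1))) 0 0
    (mulMat a b x y)) (by
      rw [det_fromBlocks_zero₂₁, mulMat_det, h]
      apply mul_ne_zero _ c.ne_zero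
      rw [det_diagonal, Finset.prod_ne_zero_iff]
      rintro (i | i) _
      · exact c.ne_zero
      · exact one_ne_zero)

theorem DMg_coe (a b : F) (c : Fˣ) (x y : F) (h : x ^ 2 + a * x * y + b * y ^ 2 = c) :
    (DMg m a b c x y h).1 = Matrix.fromBlocks (Matrix.diagonal (Sum.elim (fun _ => (c : F)) (fun _ => 1))) 0 0 (mulMat a b x y) := rfl

theorem DMg_det (a b : F) (c : Fˣ) (x y : F) (h : x ^ 2 + a * x * y + b * y ^ 2 = c) :
    (DMg m a b c x y h).1.det = (c : F) ^ (m + 1) := by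
  rw [DMg_coe, det_fromBlocks_zero₂₁, mulMat_det, h, det_diagonal, Fintype.prod_sum_type, pow_succ]
  simp

theorem DMg_apply (a b : F) (c : Fˣ) (x y : F) (h : x ^ 2 + a * x * y + b * y ^ 2 = c) (v : (Fin m ⊕ Fin m) ⊕ Fin 2 → F) :
    (DMg m a b c x y h).1 *ᵥ v = Sum.elim (Sum.elim (fun i => (c : F) * v (Sum.inl (Sum.inl i))) (fun i => v (Sum.inl (Sum.inr i))))
      ![x * v (Sum.inr 0) - b * y * v (Sum.inr 1), y * v (Sum.inr 0) + (x + a * y) * v (Sum.inr 1)] := by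
  rw [DMg_coe, fromBlocks_mulVec]
  funext i
  rcases i with (i | i) | i
  · rw [Sum.elim_inl, Sum.elim_inl, Sum.elim_inl, zero_mulVec, add_zero, mulVec_diagonal, Sum.elim_inl]
    rfl
  · rw [Sum.elim_inl, Sum.elim_inl, Sum.elim_inr, zero_mulVec, add_zero, mulVec_diagonal, Sum.elim_inr, one_mul]
    rfl
  · rw [Sum.elim_inr, Sum.elim_inr, zero_mulVec, zero_add, mulMat]
    fin_cases i
    · simp [Matrix.mulVec, dotProduct, Fin.sum_univ_two]
      ring
    · simp [Matrix.mulVec, dotProduct, Fin.sum_univ_two]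

theorem QM_DMg (a b : F) (c : Fˣ) (x y : F) (h : x ^ 2 + a * x * y + b * y ^ 2 = c) (v : (Fin m ⊕ Fin m) ⊕ Fin 2 → F) :
    QM m a b ((DMg m a b c x y h).1 *ᵥ v) = (c : F) * QM m a b v := by
  rw [DMg_apply, QM_coe, quadFormMinus, quadFormMinus]
  simp only [Sum.elim_inl, Sum.elim_inr, Matrix.cons_val_zero, Matrix.cons_val_one]
  have h1 : ∑ i, (c : F) * v (Sum.inl (Sum.inl i)) * v (Sum.inl (Sum.inr i)) =
      (c : F) * ∑ i, v (Sum.inl (Sum.inl i)) * v (Sum.inl (Sum.inr i)) := by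
    rw [Finset.mul_sum]
    apply Finset.sum_congr rfl
    intro i _
    ring
  rw [h1, ← h]
  ring

theorem DMg_mem (a b : F) (c : Fˣ) (x y : F) (h : x ^ 2 + a * x * y + b * y ^ 2 = c) : DMg m a b c x y h ∈ Sim (QM m a b) :=
  ⟨c, QM_DMg a b c x y h⟩

theorem mu_DM {a b : F} (hne : ∃ v, QM m a b v ≠ 0) (c : Fˣ) (x y : F) (h : x ^ 2 + a * x * y + b * y ^ 2 = c) :
    mu hne ⟨DMg m a b c x y h, DMg_mem a b c x y h⟩ = c := mu_eq hne (QM_DMg a b c x y h)

theorem eps_DM {a b : F} (hne : ∃ v, QM m a b v ≠ 0) (c : Fˣ) (x y : F) (h : x ^ 2 + a * x * y + b * y ^ 2 = c) :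
    eps hne (m + 1) ⟨DMg m a b c x y h, DMg_mem a b c x y h⟩ = 1 := by
  rw [eps_apply, mu_DM, mul_inv_eq_one]
  apply Units.ext
  exact DMg_det a b c x y h

end minus

end CfsgLib.AutPO
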