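import Cfsg.Agent.Lib.AutPO17

/-!
# Automorphisms of `PΩ(Q)`, part 18: the Frobenius element for the minus form
-/

set_option autoImplicit false
set_option linter.unusedSimpArgs false
set_option linter.unusedSectionVars false

namespace CfsgLib.AutPO

open Module Matrix Cfsg CfsgLib.Quad CfsgLib.SemiAut
open CfsgLib.AutPSp (scal scal_coe scal_isScal scal_mulVec exists_scal_of)
open CfsgLib.QuadMat (reflG reflG_coe)

variable {F : Type*} [Field F]

local notation "β[" Q "]" => QuadraticMap.polarBilin Q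

theorem pow_card_QK [Fintype F] {a b : F} (hab : Aniso a b) (z : QK a b) :
    z ^ Fintype.card F = ⟨z.re + a * z.im, - z.im⟩ := by
  have := hab.fact
  have : Finite (QK a b) := Module.finite_of_finite F
  let φ := FiniteField.frobeniusAlgHom F (QK a b)
  have hφ : ∀ z, φ z = z ^ Fintype.card F := fun z => rfl
  let ω : QK a b := ⟨0, 1⟩
  have hω : ω * ω = algebraMap F (QK a b) (-b) + a • ω := by
    apply QuadraticAlgebra.ext
    · simp [ω, QuadraticAlgebra.re_mul]
    · simp [ω, QuadraticAlgebra.im_mul]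
  have h1 : φ ω * φ ω = algebraMap F (QK a b) (-b) + a • φ ω := by
    rw [← map_mul, hω, _root_.map_add, AlgHom.commutes, _root_.map_smul]
  let ω' : QK a b := ⟨a, -1⟩
  have hs : ω + ω' = algebraMap F (QK a b) a := by
    apply QuadraticAlgebra.ext
    · simp [ω, ω']
    · simp [ω, ω']
  have hp : ω * ω' = algebraMap F (QK a b) b := by
    apply QuadraticAlgebra.ext
    · simp [ω, ω', QuadraticAlgebra.re_mul]
    · simp [ω, ω', QuadraticAlgebra.im_mul]
  have h3 : (φ ω - ω) * (φ ω - ω') = 0 := by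
    have e1 : (φ ω - ω) * (φ ω - ω') = φ ω * φ ω - (ω + ω') * φ ω + ω * ω' := by ring
    rw [e1, h1, hs, hp, Algebra.smul_def, _root_.map_neg]
    ring
  have hz : ∀ z : QK a b, z = algebraMap F (QK a b) z.re + z.im • ω := by
    intro z
    apply QuadraticAlgebra.ext
    · simp [ω]
    · simp [ω]
  have h4 : φ ω = ω' := by
    rcases mul_eq_zero.1 h3 with h4 | h4
    · exfalso
      have h5 : φ = 1 := by
        apply AlgHom.ext
        intro z
        conv_lhs => rw [hz z]
        rw [_root_.map_add, AlgHom.commutes, _root_.map_smul, sub_eq_zero.1 h4, ← hz z]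
        rfl
      have h6 := FiniteField.orderOf_frobeniusAlgHom F (QK a b)
      change orderOf φ = _ at h6
      rw [h5, orderOf_one, QuadraticAlgebra.finrank_eq_two] at h6
      omega
    · exact sub_eq_zero.1 h4
  rw [← hφ]
  conv_lhs => rw [hz z]
  rw [_root_.map_add, AlgHom.commutes, _root_.map_smul, h4]
  apply QuadraticAlgebra.ext
  · simp [ω']
    ring
  · simp [ω']

section frob

variable (m p : ℕ) [Fact p.Prime] [CharP F p] (a b : F)

/-- the Frobenius map in coordinates -/
def frW (k : ℕ) (x : (Fin m → F × F) × QK a b) : (Fin m → F × F) × QK a b :=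
  (fun i => ((x.1 i).1 ^ p ^ k, (x.1 i).2 ^ p ^ k), x.2 ^ p ^ k)

theorem charP_QK : CharP (QK a b) p := by
  have h1 : Function.Injective (algebraMap F (QK a b)) := by
    intro x y hxy
    have := congrArg QuadraticAlgebra.re hxy
    simpa using this
  exact charP_of_injective_algebraMap h1 p

theorem frW_add (k : ℕ) (x y : (Fin m → F × F) × QK a b) : frW m p a b k (x + y) = frW m p a b k x + frW m p a b k y := by
  have := charP_QK p a b
  have h1 : ∀ x y : F, (x + y) ^ p ^ k = x ^ p ^ k + y ^ p ^ k := fun x y => add_pow_char_pow x y p k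
  have h2 : ∀ x y : QK a b, (x + y) ^ p ^ k = x ^ p ^ k + y ^ p ^ k := fun x y => add_pow_char_pow x y p k
  refine Prod.ext ?_ (h2 _ _)
  funext i
  exact Prod.ext (h1 _ _) (h1 _ _)

theorem frW_inj {a b : F} (hab : Aniso a b) (k : ℕ) : Function.Injective (frW m p a b k) := by
  have := hab.fact
  have := charP_QK p a b
  have hp0 : p ^ k ≠ 0 := pow_ne_zero _ (Fact.out : p.Prime).ne_zero
  intro x y hxy
  have h1 : frW m p a b k (x - y) = 0 := by
    have h2 : frW m p a b k ((x - y) + y) = frW m p a b k (x - y) + frW m p a b k y := frW_add m p a b k _ _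
    rw [sub_add_cancel, hxy] at h2
    exact (left_eq_add.1 (h2.trans (add_comm _ _)))
  rw [← sub_eq_zero]
  have h3 := congrArg Prod.fst h1
  have h4 : (x - y).2 ^ p ^ k = 0 := congrArg Prod.snd h1
  refine Prod.ext ?_ (pow_eq_zero_iff hp0 |>.1 h4)
  funext i
  have h5 := congrFun h3 i
  exact Prod.ext (pow_eq_zero_iff hp0 |>.1 (congrArg Prod.fst h5)) (pow_eq_zero_iff hp0 |>.1 (congrArg Prod.snd h5))

theorem frW_comp (k : ℕ) (x : (Fin m → F × F) × QK a b) : frW m p a b 1 (frW m p a b k x) = frW m p a b (k + 1) x := by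
  have h1 : ∀ x : F, (x ^ p ^ k) ^ p ^ 1 = x ^ p ^ (k + 1) := fun x => by rw [← pow_mul, ← pow_add]
  have h2 : ∀ x : QK a b, (x ^ p ^ k) ^ p ^ 1 = x ^ p ^ (k + 1) := fun x => by rw [← pow_mul, ← pow_add]
  refine Prod.ext ?_ (h2 _)
  funext i
  exact Prod.ext (h1 _) (h1 _)

variable {a b}

variable [Finite F] (hab : Aniso a b)

/-- as an additive equivalence -/
noncomputable def frE : ((Fin m ⊕ Fin m) ⊕ Fin 2 → F) ≃+ ((Fin m ⊕ Fin m) ⊕ Fin 2 → F) :=
  haveI : Finite (QK a b) := Module.finite_of_finite F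
  ((eMinus m a b).toAddEquiv.trans (AddEquiv.ofBijective
    (AddMonoidHom.mk' (frW m p a b 1) (frW_add m p a b 1)) (Finite.injective_iff_bijective.1 (frW_inj m p hab 1)))).trans
    (eMinus m a b).symm.toAddEquiv

theorem frE_apply (v : (Fin m ⊕ Fin m) ⊕ Fin 2 → F) : frE m p hab v = (eMinus m a b).symm (frW m p a b 1 (eMinus m a b v)) := rfl

/-- the Frobenius of the field -/
noncomputable def frF (F : Type*) [Field F] [Finite F] (p : ℕ) [Fact p.Prime] [CharP F p] : RingAut F :=
  RingEquiv.ofBijective (frobenius F p) (Finite.injective_iff_bijective.1 (frobenius_inj F p))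

theorem frF_apply (x : F) : frF F p x = x ^ p := rfl

theorem frF_pow (k : ℕ) (x : F) : (frF F p ^ k) x = x ^ p ^ k := by
  induction k with
  | zero => rw [pow_zero, pow_zero, pow_one]; rfl
  | succ k ih =>
    rw [pow_succ']
    change frF F p ((frF F p ^ k) x) = _
    rw [ih, frF_apply, ← pow_mul, ← pow_succ]

theorem frE_SS : SS (QM m a b) (frF F p : F ≃+* F) (frE m p hab) 1 where
  r0 := one_ne_zero
  smul c v := by
    have h1 : ∀ x : F, (c * x) ^ p ^ 1 = c ^ p * x ^ p ^ 1 := fun x => by rw [mul_pow, pow_one]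
    have h2 : ∀ x : QK a b, (c • x) ^ p ^ 1 = c ^ p • x ^ p ^ 1 := fun x => by rw [smul_pow, pow_one]
    have key : frW m p a b 1 (c • eMinus m a b v) = (c ^ p) • frW m p a b 1 (eMinus m a b v) :=
      Prod.ext (by funext i; exact Prod.ext (h1 _) (h1 _)) (h2 _)
    rw [frE_apply, frE_apply, _root_.map_smul, key, _root_.map_smul]
    rfl
  q v := by
    change hypSum m (binQ a b) (eMinus m a b (frE m p hab v)) = 1 * frF F p (hypSum m (binQ a b) (eMinus m a b v))
    rw [frE_apply, LinearEquiv.apply_symm_apply, hypSum_apply, hypSum_apply, one_mul, _root_.map_add, map_sum]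
    congr 1
    · apply Finset.sum_congr rfl
      intro i _
      rw [map_mul, frF_apply, frF_apply]
      change (_ ^ p ^ 1) * (_ ^ p ^ 1) = _
      rw [pow_one]
    · rw [binQ_apply, binQ_apply, frF_apply]
      change QuadraticAlgebra.norm (_ ^ p ^ 1) = _
      rw [map_pow, pow_one]

/-- the matrix of the Frobenius map -/
noncomputable def frM : GL ((Fin m ⊕ Fin m) ⊕ Fin 2) F := (exists_pair (frE_SS m p hab)).choose

theorem frM_spec (v : (Fin m ⊕ Fin m) ⊕ Fin 2 → F) : sl (frM m p hab) (frF F p) v = frE m p hab v :=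
  ((exists_pair (frE_SS m p hab)).choose_spec.1 v).symm

theorem frM_mem : sm (frM m p hab) (frF F p) ∈ GamO (QM m a b) := (exists_pair (frE_SS m p hab)).choose_spec.2

theorem frM_val (v : (Fin m ⊕ Fin m) ⊕ Fin 2 → F) :
    QM m a b (sl (frM m p hab) (frF F p) v) = ((1 : Fˣ) : F) * frF F p (QM m a b v) := by
  rw [frM_spec, Units.val_one]
  exact (frE_SS m p hab).q v

theorem sl_pow (k : ℕ) (v : (Fin m ⊕ Fin m) ⊕ Fin 2 → F) :
    sl ((sm (frM m p hab) (frF F p)) ^ k).left ((sm (frM m p hab) (frF F p)) ^ k).right v =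
      (eMinus m a b).symm (frW m p a b k (eMinus m a b v)) := by
  induction k with
  | zero =>
    rw [pow_zero]
    change sl (1 : GL _ F) (1 : RingAut F) v = _
    rw [sl_one]
    have : frW m p a b 0 (eMinus m a b v) = eMinus m a b v := by
      have h1 : ∀ x : F, x ^ p ^ 0 = x := fun x => by rw [pow_zero, pow_one]
      have h2 : ∀ x : QK a b, x ^ p ^ 0 = x := fun x => by rw [pow_zero, pow_one]
      refine Prod.ext ?_ (h2 _)
      funext i
      exact Prod.ext (h1 _) (h1 _)
    rw [this, LinearEquiv.symm_apply_apply]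
  | succ k ih =>
    rw [pow_succ']
    change sl (frM m p hab * gmHom _ F (frF F p) ((sm (frM m p hab) (frF F p)) ^ k).left)
      (frF F p * ((sm (frM m p hab) (frF F p)) ^ k).right) v = _
    rw [sl_mul, ih, frM_spec, frE_apply, LinearEquiv.apply_symm_apply, frW_comp]

end frob

/-! ### the distinguished reflection -/

section refl

variable (m : ℕ) (a b : F)

/-- the vector of the reflection inducing the conjugation -/
def wM : (Fin m ⊕ Fin m) ⊕ Fin 2 → F := Sum.elim (fun _ => 0) ![-a, 2]

theorem QM_wM : QM m a b (wM m a) = 4 * b - a ^ 2 := by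
  rw [QM_coe, quadFormMinus, wM]
  simp only [Sum.elim_inl, Sum.elim_inr, Matrix.cons_val_zero, Matrix.cons_val_one, mul_zero, Finset.sum_const_zero]
  ring

variable {a b}

theorem QM_wM_ne [Finite F] (hab : Aniso a b) : QM m a b (wM m a) ≠ 0 := by
  rw [QM_wM]
  intro h
  apply hab.disc_ne_zero
  linear_combination -h

theorem refl_wM [Finite F] (hab : Aniso a b) (v : (Fin m ⊕ Fin m) ⊕ Fin 2 → F) :
    (reflG (QM m a b) (wM m a) (QM_wM_ne m hab)).1.1 *ᵥ v = Sum.elim (fun i => v (Sum.inl i))
      ![v (Sum.inr 0) + a * v (Sum.inr 1), - v (Sum.inr 1)] := by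
  have hp : β[QM m a b] (wM m a) v = (4 * b - a ^ 2) * v (Sum.inr 1) := by
    rw [QuadraticMap.polarBilin_apply_apply, QuadraticMap.polar, QM_coe, quadFormMinus, quadFormMinus, quadFormMinus, wM]
    simp only [Sum.elim_inl, Sum.elim_inr, Matrix.cons_val_zero, Matrix.cons_val_one, mul_zero, Finset.sum_const_zero,
      Pi.add_apply, zero_add]
    ring
  have hd : 4 * b - a ^ 2 ≠ 0 := by
    rw [← QM_wM m a b]
    exact QM_wM_ne m hab
  rw [reflG_mulVec, hp, QM_wM, inv_mul_cancel_left₀ hd]
  funext i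
  rcases i with i | i
  · simp [wM]
  · fin_cases i
    · simp [wM]
      ring
    · simp [wM]
      ring

end refl

/-- the `f`-th power of the Frobenius element -/
theorem frM_pow (m : ℕ) {p f : ℕ} [Fintype F] [Fact p.Prime] [CharP F p] (hF : Fintype.card F = p ^ f) {a b : F} (hab : Aniso a b) :
    (sm (frM m p hab) (frF F p)) ^ f = lin (reflG (QM m a b) (wM m a) (QM_wM_ne m hab)).1 := by
  have h1 : ∀ x : F, x ^ p ^ f = x := fun x => by rw [← hF]; exact FiniteField.pow_card x
  have hr : ((sm (frM m p hab) (frF F p)) ^ f).right = 1 := by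
    have h2 : ((sm (frM m p hab) (frF F p)) ^ f).right = (frF F p) ^ f :=
      map_pow (SemidirectProduct.rightHom (φ := gmHom ((Fin m ⊕ Fin m) ⊕ Fin 2) F)) _ _
    rw [h2]
    apply RingEquiv.ext
    intro x
    rw [frF_pow, h1]
    rfl
  have h3 := sl_pow m p hab f
  rw [hr] at h3
  have h4 : (sm (frM m p hab) (frF F p)) ^ f = lin ((sm (frM m p hab) (frF F p)) ^ f).left := by
    rw [lin_eq, ← hr]
    rfl
  rw [h4]
  congr 1
  apply Units.ext
  apply CfsgLib.Symp.mulVec_injective_matrix
  intro v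
  have h5 := h3 v
  change ((sm (frM m p hab) (frF F p)) ^ f).left.1 *ᵥ v = _ at h5
  rw [h5, refl_wM m hab, LinearEquiv.symm_apply_eq]
  refine Prod.ext ?_ ?_
  · funext i
    exact Prod.ext (h1 _) (h1 _)
  · change (eMinus m a b v).2 ^ p ^ f = _
    rw [← hF, pow_card_QK hab]
    rfl

end CfsgLib.AutPO
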