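import Cfsg.Agent.Lib.AutPO18
import Cfsg.Agent.Lib.AutPSL9

/-!
# Automorphisms of `PΩ(Q)`, part 19: structure of the outer automorphism groups
-/

set_option autoImplicit false
set_option linter.unusedSimpArgs false
set_option linter.unusedSectionVars false

namespace CfsgLib.AutPO

open Module Matrix Cfsg CfsgLib.Quad CfsgLib.SemiAut
open CfsgLib.AutPSp (scal scal_coe scal_isScal scal_mulVec exists_scal_of)
open CfsgLib.QuadMat (reflG reflG_coe)

/-! ### abstract -/

section abs

variable {G : Type*} [Group G]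

/-- internal direct products -/
theorem prod_equiv (A B : Subgroup G) (hc : ∀ a ∈ A, ∀ b ∈ B, a * b = b * a) (hd : A ⊓ B = ⊥)
    (hcard : Nat.card A * Nat.card B = Nat.card G) (h0 : Nat.card G ≠ 0) : Nonempty (G ≃* A × B) := by
  have hfin : Finite G := Nat.finite_of_card_ne_zero h0
  let φ : A × B →* G := MonoidHom.noncommCoprod A.subtype B.subtype (fun a b => hc a.1 a.2 b.1 b.2)
  have hinj : Function.Injective φ := by
    rw [injective_iff_map_eq_one]
    rintro ⟨a, b⟩ hab
    have h1 : a.1 * b.1 = 1 := hab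
    have h2 : a.1 ∈ A ⊓ B := by
      have h3 : (b.1)⁻¹ ∈ B := B.inv_mem b.2
      rw [← eq_inv_of_mul_eq_one_left h1] at h3
      exact ⟨a.2, h3⟩
    rw [hd, Subgroup.mem_bot] at h2
    rw [h2, one_mul] at h1
    exact Prod.ext (Subtype.ext h2) (Subtype.ext h1)
  have hbij := (Nat.bijective_iff_injective_and_card φ).2 ⟨hinj, by rw [Nat.card_prod, hcard]⟩
  exact ⟨(MulEquiv.ofBijective φ hbij).symm⟩

theorem zpowers_equiv {x : G} {n : ℕ} (h : orderOf x = n) : Nonempty (Subgroup.zpowers x ≃* Multiplicative (ZMod n)) := by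
  have h1 : IsCyclic (Subgroup.zpowers x) := inferInstance
  have h2 : Nat.card (Subgroup.zpowers x) = n := by rw [Nat.card_zpowers, h]
  exact ⟨(zmodCyclicMulEquiv h1).symm.trans (by rw [h2])⟩

theorem card2_equiv {A : Type*} [Group A] (h : Nat.card A = 2) : Nonempty (A ≃* Multiplicative (ZMod 2)) := by
  have : Fact (Nat.Prime 2) := ⟨Nat.prime_two⟩
  have h1 : IsCyclic A := isCyclic_of_prime_card h
  exact ⟨(zmodCyclicMulEquiv h1).symm.trans (by rw [h])⟩

theorem mulProd {A B G : Type*} [AddGroup A] [AddGroup B] [Group G] {X Y : Type*} [Group X] [Group Y]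
    (h : Nonempty (G ≃* X × Y)) (hX : Nonempty (X ≃* Multiplicative A)) (hY : Nonempty (Y ≃* Multiplicative B)) :
    Nonempty (G ≃* Multiplicative (A × B)) := by
  obtain ⟨e⟩ := h
  obtain ⟨eX⟩ := hX
  obtain ⟨eY⟩ := hY
  exact ⟨e.trans ((eX.prodCongr eY).trans (MulEquiv.prodMultiplicative A B).symm)⟩

end abs

/-! ### the order of the Frobenius -/

theorem orderOf_frF {F : Type*} [Field F] [Fintype F] {p f : ℕ} [Fact p.Prime] [CharP F p] (hf : 1 ≤ f)
    (hF : Fintype.card F = p ^ f) : orderOf (frF F p) = f := by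
  have h1 : (frF F p) ^ f = 1 := by
    apply RingEquiv.ext
    intro x
    rw [frF_pow, ← hF, FiniteField.pow_card]
    rfl
  have h2 := orderOf_dvd_of_pow_eq_one h1
  apply Nat.le_antisymm (Nat.le_of_dvd (by omega) h2)
  set k := orderOf (frF F p) with hk
  have hk0 : 0 < k := Nat.pos_of_dvd_of_pos h2 (by omega)
  have h3 : ∀ x : F, x ^ p ^ k = x := by
    intro x
    rw [← frF_pow, hk, pow_orderOf_eq_one]
    rfl
  obtain ⟨g, hg⟩ := IsCyclic.exists_generator (α := Fˣ)
  have h4 : orderOf g = p ^ f - 1 := by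
    rw [orderOf_eq_card_of_forall_mem_zpowers hg, Nat.card_units, Nat.card_eq_fintype_card, hF]
  have hp := (Fact.out : p.Prime).two_le
  have hpk : 1 < p ^ k := Nat.one_lt_pow (by omega) (by omega)
  have h5 : g ^ (p ^ k - 1) = 1 := by
    have h6 : g ^ p ^ k = g := Units.ext (by rw [Units.val_pow_eq_pow_val]; exact h3 g)
    have h7 : g ^ (p ^ k - 1) * g = g := by
      rw [← pow_succ, Nat.sub_add_cancel (by omega), h6]
    exact mul_eq_right.1 h7
  have h6 := orderOf_dvd_of_pow_eq_one h5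
  rw [h4] at h6
  have h7 := Nat.le_of_dvd (by omega) h6
  have h8 : p ^ f ≤ p ^ k := by omega
  exact (Nat.pow_le_pow_iff_right (by omega)).1 h8

variable {F : Type*} [Field F]

local notation "β[" Q "]" => QuadraticMap.polarBilin Q

/-! ### S2604: the odd family -/

section odd

variable {ι : Type} [Fintype ι] [DecidableEq ι] {Q : QuadraticForm F (ι → F)}
variable [Finite F] (hQ : (β[Q]).Nondegenerate) (hV : 7 ≤ finrank F (ι → F))

theorem range_outS_odd (hodd : Odd (Fintype.card ι)) : (outS hQ hV).range = (outO hQ hV).range := by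
  have hne := exists_ne_of_nd hQ (by omega)
  apply le_antisymm
  · rintro _ ⟨g, rfl⟩
    have h1 : mu hne g ∈ (mu hne).range := ⟨g, rfl⟩
    rw [range_mu_odd hQ hne hodd] at h1
    obtain ⟨a, ha⟩ := h1
    obtain ⟨k, hk, _⟩ := outS_of_sq (M := 0) hQ hV hne g a ha.symm
    exact ⟨k, hk.symm⟩
  · rintro _ ⟨h, rfl⟩
    exact ⟨toSim Q h, rfl⟩

theorem card_outO_odd (h2 : (2 : F) ≠ 0) (hodd : Odd (Fintype.card ι)) : Nat.card (outO hQ hV).range = 2 := by
  obtain ⟨ν, hν⟩ := exists_nu h2
  have hng : (chi hQ (ngI Q)).1 = -1 := by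
    rw [chi_ngI hQ h2, hodd.neg_one_pow]
  have hz : R hQ hV 1 * R hQ hV ν ≠ 1 := by
    rw [R, R, ← map_mul, Ne, outO_eq_one' hQ hV h2, chi_RR hQ hV hν]
    rintro (h | h)
    · exact absurd h (by decide)
    · have h3 : (1 : ℤˣ) = (chi hQ (ngI Q)).1 := congrArg Prod.fst h
      rw [hng] at h3
      exact absurd h3 (by decide)
  have hmem : R hQ hV 1 * R hQ hV ν ∈ (outO hQ hV).range := mul_mem ⟨_, rfl⟩ ⟨_, rfl⟩
  rw [Nat.card_eq_two_iff]
  refine ⟨1, ⟨_, hmem⟩, fun h => hz (congrArg Subtype.val h).symm, ?_⟩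
  rw [Set.eq_univ_iff_forall]
  have key : ∀ h : isometryGroup F ⇑Q, (chi hQ h).1 = 1 → outO hQ hV h = 1 ∨ outO hQ hV h = R hQ hV 1 * R hQ hV ν := by
    intro h hh
    rcases outO_cases hQ hV ν hν h with ⟨_, h4⟩ | ⟨h4, _⟩
    · exact h4
    · rw [hh] at h4
      exact absurd h4 (by decide)
  rintro ⟨_, h, rfl⟩
  have h5 : outO hQ hV h = 1 ∨ outO hQ hV h = R hQ hV 1 * R hQ hV ν := by
    rcases Int.units_eq_one_or (chi hQ h).1 with h3 | h3
    · exact key h h3
    · have h6 := key (ngI Q * h) (by rw [map_mul, Prod.fst_mul, hng, h3]; decide)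
      rwa [map_mul, outO_ngI, one_mul] at h6
  rcases h5 with h5 | h5
  · left; exact Subtype.ext h5
  · right; exact Subtype.ext h5

theorem out_odd [Fintype F] {p f : ℕ} [Fact p.Prime] (hF : Fintype.card F = p ^ f) (h2 : (2 : F) ≠ 0)
    (hodd : Odd (Fintype.card ι)) (hfull : Function.Surjective (setupFull hQ hV).Psi)
    (hσ : ∀ σ : RingAut F, sm (1 : GL ι F) σ ∈ GamO Q) :
    Nonempty (Out (POmega F ⇑Q) ≃* Multiplicative (ZMod 2 × ZMod f)) := by
  have hA : Nat.card (outS hQ hV).range = 2 := by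
    rw [range_outS_odd hQ hV hodd, card_outO_odd hQ hV h2 hodd]
  have hcard := card_out hQ hV hfull (fun σ => ⟨1, hσ σ⟩)
  let s : RingAut F →* Out (POmega F ⇑Q) := (outG hQ hV).comp
    { toFun := fun σ => ⟨sm 1 σ, hσ σ⟩
      map_one' := rfl
      map_mul' := fun σ τ => Subtype.ext (by
        change sm 1 (σ * τ) = sm 1 σ * sm 1 τ
        rw [sm_mul, map_one, mul_one]) }
  have hs : ∀ σ, oFld hQ hV hfull (s σ) = σ := fun σ => oFld_outG hQ hV hfull _
  have hsinj : Function.Injective s := fun a b hab => by rw [← hs a, hab, hs]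
  have hB : Nat.card s.range = Nat.card (RingAut F) := (Nat.card_congr (MonoidHom.ofInjective hsinj).toEquiv).symm
  have hfin : Finite (RingAut F) := Finite.of_injective (fun σ : RingAut F => (σ : F → F)) DFunLike.coe_injective
  have hcard0 : 0 < Nat.card (RingAut F) := Nat.card_pos
  have hker := oFld_ker hQ hV hfull
  have hnorm : ((outS hQ hV).range).Normal := by
    rw [← hker]
    infer_instance
  obtain ⟨e⟩ := prod_equiv (outS hQ hV).range s.range (by
      intro a ha b hb
      by_cases ha1 : a = 1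
      · rw [ha1, one_mul, mul_one]
      · have hb' : b * a * b⁻¹ ∈ (outS hQ hV).range := hnorm.conj_mem a ha b
        obtain ⟨x, y, hxy, hu⟩ := Nat.card_eq_two_iff.1 hA
        have hall : ∀ z : (outS hQ hV).range, z ≠ 1 → z = ⟨a, ha⟩ := by
          intro z hz
          have h3 : (1 : (outS hQ hV).range) ∈ ({x, y} : Set _) := by rw [hu]; trivial
          have h4 : z ∈ ({x, y} : Set _) := by rw [hu]; trivial
          have h5 : (⟨a, ha⟩ : (outS hQ hV).range) ∈ ({x, y} : Set _) := by rw [hu]; trivial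
          have h6 : (⟨a, ha⟩ : (outS hQ hV).range) ≠ 1 := fun h => ha1 (congrArg Subtype.val h)
          rcases h3 with h3 | h3 <;> rcases h4 with h4 | h4 <;> rcases h5 with h5 | h5
          · exact absurd (h4.trans h3.symm) hz
          · exact absurd (h4.trans h3.symm) hz
          · exact absurd (h5.trans h3.symm) h6
          · exact h4.trans h5.symm
          · exact h4.trans h5.symm
          · exact absurd (h5.trans h3.symm) h6
          · exact absurd (h4.trans h3.symm) hz
          · exact absurd (h4.trans h3.symm) hz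
        have h7 := hall ⟨_, hb'⟩ (fun h => ha1 (by
          have h8 : b * a * b⁻¹ = 1 := congrArg Subtype.val h
          rwa [conj_eq_one_iff] at h8))
        have h8 : b * a * b⁻¹ = a := congrArg Subtype.val h7
        exact (mul_inv_eq_iff_eq_mul.1 h8).symm) (by
      rw [eq_bot_iff]
      rintro _ ⟨ha, σ, rfl⟩
      rw [← hker] at ha
      have h3 : oFld hQ hV hfull (s σ) = 1 := ha
      rw [hs] at h3
      rw [h3, map_one]
      exact one_mem _) (by rw [hA, hB, hcard, hA]) (by rw [hcard, hA]; omega)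
  have hr := CfsgLib.AutPSL.ringAut_equiv hF
  obtain ⟨er⟩ := hr
  exact mulProd ⟨e⟩ (card2_equiv hA) ⟨(MonoidHom.ofInjective hsinj).symm.trans er⟩

end odd

/-! ### S2605 -/

section even

variable [Fintype F] {p f : ℕ} [Fact p.Prime] [CharP F p] (hf : 1 ≤ f) (hF : Fintype.card F = p ^ f)
  {m : ℕ} (hm : 3 ≤ m) {a b : F} (hab : Aniso a b)

theorem hVM (F : Type*) [Field F] {m : ℕ} (hm : 3 ≤ m) : 7 ≤ finrank F ((Fin m ⊕ Fin m) ⊕ Fin 2 → F) := by
  rw [finrank_QM]
  omega

/-- the Frobenius element of the outer automorphism group -/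
noncomputable def yM (p : ℕ) [Fact p.Prime] [CharP F p] (hm : 3 ≤ m) (hab : Aniso a b) : Out (POmega F ⇑(QM m a b)) :=
  outG (QM_nondegenerate m hab) (hVM F hm) ⟨sm (frM m p hab) (frF F p), frM_mem m p hab⟩

include hF in
theorem yM_pow : (yM p hm hab) ^ f = outO (QM_nondegenerate m hab) (hVM F hm) (reflG (QM m a b) (wM m a) (QM_wM_ne m hab)) := by
  rw [yM, ← map_pow, ← outS_toSim, ← outS_linS]
  congr 1
  apply Subtype.ext
  rw [SubgroupClass.coe_pow]
  exact frM_pow m hF hab

theorem fullM (hm : 3 ≤ m) (hab : Aniso a b) : Function.Surjective (setupFull (QM_nondegenerate m hab) (hVM F hm)).Psi :=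
  fullO (setupFull (QM_nondegenerate m hab) (hVM F hm)) (QM_nondegenerate m hab) (hVM F hm) (hH_minus m hm hab)

theorem oFld_yM : oFld (QM_nondegenerate m hab) (hVM F hm) (fullM hm hab) (yM p hm hab) = frF F p :=
  oFld_outG _ _ _ _

include hf hF in
theorem dvd_of_oFld {x : Out (POmega F ⇑(QM m a b))} {k : ℕ}
    (hx : oFld (QM_nondegenerate m hab) (hVM F hm) (fullM hm hab) x = frF F p ^ k) {j : ℤ}
    (hxj : oFld (QM_nondegenerate m hab) (hVM F hm) (fullM hm hab) (x ^ j) = 1) : (f : ℤ) ∣ k * j := by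
  rw [map_zpow, hx, ← zpow_natCast, ← _root_.zpow_mul] at hxj
  rw [← orderOf_frF hf hF]
  exact orderOf_dvd_iff_zpow_eq_one.2 hxj

include hf hF in
theorem orderOf_yM (hr : outO (QM_nondegenerate m hab) (hVM F hm) (reflG (QM m a b) (wM m a) (QM_wM_ne m hab)) ≠ 1) :
    orderOf (yM p hm hab) = 2 * f := by
  have h1 := yM_pow (p := p) (f := f) hF hm hab
  have h2 : (yM p hm hab) ^ (2 * f) = 1 := by
    rw [mul_comm, pow_mul, h1, ← map_pow, sq, reflG_sq, map_one]
  have h3 := orderOf_dvd_of_pow_eq_one h2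
  have h4 : f ∣ orderOf (yM p hm hab) := by
    have h5 := orderOf_map_dvd (oFld (QM_nondegenerate m hab) (hVM F hm) (fullM hm hab)) (yM p hm hab)
    rw [oFld_yM, orderOf_frF hf hF] at h5
    exact h5
  obtain ⟨k, hk⟩ := h4
  rw [hk, mul_comm 2 f] at h3
  have h5 : k ∣ 2 := Nat.dvd_of_mul_dvd_mul_left (by omega) h3
  rcases (Nat.dvd_prime Nat.prime_two).1 h5 with h6 | h6
  · exfalso
    apply hr
    rw [← h1]
    apply orderOf_dvd_iff_pow_eq_one.1
    rw [hk, h6, mul_one]
  · rw [hk, h6, mul_comm]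

/-- characteristic two -/
theorem outO_refl_two {ι : Type} [Fintype ι] [DecidableEq ι] {Q : QuadraticForm F (ι → F)} (hQ : (β[Q]).Nondegenerate)
    (hV : 7 ≤ finrank F (ι → F)) (h2 : (2 : F) = 0) {v : ι → F} (hv : Q v ≠ 0) : outO hQ hV (reflG Q v hv) ≠ 1 := by
  rw [Ne, outO_eq_one]
  have hng : ngI Q = 1 := by
    apply Subtype.ext
    rw [ngI_coe]
    have h1 : (-1 : Fˣ) = 1 := by
      apply Units.ext
      rw [Units.val_neg, Units.val_one]
      linear_combination -h2
    rw [h1, scal_one]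
    rfl
  rw [hng, one_mul, or_self]
  intro h
  rw [Omega, ← mem_commutator_congr (isometryGroupEquiv Q), eq_reflO_of_coe Q hv _ (reflG_coe Q v hv)] at h
  have h3 : dick hQ (reflO hv) = 1 := Abelianization.commutator_subset_ker _ h
  rw [dick_reflO hQ hv] at h3
  exact absurd h3 (by decide)

theorem card_outS_two {ι : Type} [Fintype ι] [DecidableEq ι] {Q : QuadraticForm F (ι → F)} (hQ : (β[Q]).Nondegenerate)
    (hV : 7 ≤ finrank F (ι → F)) (h2 : (2 : F) = 0) : Nat.card (outS hQ hV).range = 2 := by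
  have hne := exists_ne_of_nd hQ (by omega)
  have h1 : (outS hQ hV).range = (outO hQ hV).range := by
    apply le_antisymm
    · rintro _ ⟨g, rfl⟩
      obtain ⟨a, ha⟩ := isSquare_of_two_eq_zero h2 (mu hne g : F)
      have ha0 : a ≠ 0 := by
        rintro rfl
        rw [mul_zero] at ha
        exact (mu hne g).ne_zero ha
      obtain ⟨k, hk, _⟩ := outS_of_sq (M := 0) hQ hV hne g (Units.mk0 a ha0) (Units.ext (by
        rw [ha, Units.val_pow_eq_pow_val, Units.val_mk0, sq]))
      exact ⟨k, hk.symm⟩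
    · rintro _ ⟨h, rfl⟩
      exact ⟨toSim Q h, rfl⟩
  have hng : ngI Q = 1 := by
    apply Subtype.ext
    rw [ngI_coe]
    have h1 : (-1 : Fˣ) = 1 := by
      apply Units.ext
      rw [Units.val_neg, Units.val_one]
      linear_combination -h2
    rw [h1, scal_one]
    rfl
  have hker : (outO hQ hV).ker = Omega F ⇑Q := by
    ext h
    rw [MonoidHom.mem_ker, outO_eq_one, hng, one_mul, or_self]
  rw [Module.finrank_fintype_fun_eq_card] at hV
  have h3 := index_Omega_even h2 hQ (by omega) (Or.inr (by omega))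
  rw [← hker, Subgroup.index_ker] at h3
  rw [h1]
  exact h3

include hf hF in
theorem out_minus_two (hp : p = 2) (hm : 3 ≤ m) (hab : Aniso a b) :
    IsCyclic (Out (POmega F ⇑(QM m a b))) ∧ Nat.card (Out (POmega F ⇑(QM m a b))) = 2 * f := by
  subst hp
  have h2 : (2 : F) = 0 := CharTwo.two_eq_zero
  have hcard := card_out (QM_nondegenerate m hab) (hVM F hm) (fullM hm hab)
    (fun σ => (exists_sigma_minus m hab σ).imp fun g hg => hg.2)
  rw [card_outS_two _ _ h2, CfsgLib.AutPSL.ringAut_card hF] at hcard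
  have hy := orderOf_yM (p := 2) hf hF hm hab (outO_refl_two _ _ h2 _)
  have hfin : Finite (Out (POmega F ⇑(QM m a b))) := Nat.finite_of_card_ne_zero (by omega)
  exact ⟨isCyclic_of_orderOf_eq_card (yM 2 hm hab) (by rw [hy, hcard]), hcard⟩

end even

end CfsgLib.AutPO
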