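import Cfsg.Agent.Lib.AutPSp3

/-!
# Automorphisms of `PSp_{2m}(F)`, part 4: automorphisms preserve transvections.
-/

set_option autoImplicit false
set_option linter.unusedSimpArgs false
set_option linter.unusedSectionVars false

namespace CfsgLib.AutPSp

open Module Matrix Cfsg CfsgLib.Symp

/-- central in some Sylow p-subgroup -/
def IsCen (p : ℕ) {H : Type*} [Group H] (z : H) : Prop := ∃ P : Sylow p H, z ∈ P ∧ ∀ g ∈ P, g * z = z * g

/-- the transvection-like property in characteristic two -/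
def Tl {H : Type*} [Group H] (z : H) : Prop := ∀ h : H, (z * (h * z * h⁻¹)) ^ 4 = 1 → (z * (h * z * h⁻¹)) ^ 2 = 1

/-- both -/
def IsTP (p : ℕ) {H : Type*} [Group H] (z : H) : Prop := IsCen p z ∧ (p = 2 → Tl z)

theorem IsCen.map {p : ℕ} [Fact p.Prime] {H K : Type*} [Group H] [Group K] [Finite H] {z : H} (hz : IsCen p z) (α : H ≃* K) :
    IsCen p (α z) := by
  obtain ⟨P, hP, hP'⟩ := hz
  refine ⟨P.mapSurjective (f := α.toMonoidHom) α.surjective, ⟨z, hP, rfl⟩, ?_⟩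
  rintro _ ⟨g, hg, rfl⟩
  change α g * α z = α z * α g
  rw [← map_mul, hP' g hg, map_mul]

theorem Tl.map {H K : Type*} [Group H] [Group K] {z : H} (hz : Tl z) (α : H ≃* K) : Tl (α z) := by
  intro h h4
  have h1 : α z * (h * α z * h⁻¹) = α (z * (α.symm h * z * (α.symm h)⁻¹)) := by
    rw [map_mul, map_mul, map_mul, map_inv, MulEquiv.apply_symm_apply]
  rw [h1, ← map_pow] at h4 ⊢
  rw [hz _ (α.injective (by rw [h4, map_one])), map_one]

theorem IsTP.map {p : ℕ} [Fact p.Prime] {H K : Type*} [Group H] [Group K] [Finite H] {z : H} (hz : IsTP p z) (α : H ≃* K) :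
    IsTP p (α z) := ⟨hz.1.map α, fun h => (hz.2 h).map α⟩

variable {F : Type*} [Field F] {m : ℕ}

local notation "V" => (Fin m ⊕ Fin m → F)
local notation "G" => Matrix.symplecticGroup (Fin m) F

theorem mk_eq_iff {a b : G} : (QuotientGroup.mk a : PSp m F) = QuotientGroup.mk b ↔ ∃ z ∈ Subgroup.center G, b = a * z := by
  rw [QuotientGroup.eq]
  constructor
  · intro h
    exact ⟨_, h, by rw [mul_inv_cancel_left]⟩
  · rintro ⟨z, hz, rfl⟩
    rwa [inv_mul_cancel_left]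

/-- the class of a transvection -/
def T (v : V) (c : F) : PSp m F := QuotientGroup.mk (tr v c)

theorem conj_T (g : G) (v : V) (c : F) :
    (QuotientGroup.mk g : PSp m F) * T v c * (QuotientGroup.mk g)⁻¹ = T (g.1 *ᵥ v) c := by
  change (QuotientGroup.mk (g * tr v c * g⁻¹) : PSp m F) = _
  rw [conj_tr]
  rfl

variable {p : ℕ} [Fact p.Prime] [CharP F p] [Finite F]

theorem IsCen.exists (hm : 1 ≤ m) {z : PSp m F} (hz : IsCen p z) : ∃ P : Sylow p G, ∃ s : G, s ∈ P ∧ z = QuotientGroup.mk s ∧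
    ∀ x ∈ P, x * s = s * x := by
  obtain ⟨P, hP, hP'⟩ := hz
  obtain ⟨P', rfl⟩ := Sylow.mapSurjective_surjective (QuotientGroup.mk'_surjective (Subgroup.center G)) p P
  obtain ⟨s, hs, rfl⟩ := hP
  refine ⟨P', s, hs, rfl, ?_⟩
  intro x hx
  have h1 := hP' (QuotientGroup.mk x) ⟨x, hx, rfl⟩
  obtain ⟨c, hc, hc'⟩ := (mk_eq_iff (a := s * x) (b := x * s)).1 h1.symm
  have h2 : c ∈ P' := by
    have e : c = (s * x)⁻¹ * (x * s) := by rw [hc', inv_mul_cancel_left]
    rw [e]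
    exact mul_mem (inv_mem (mul_mem hs hx)) (mul_mem hx hs)
  obtain ⟨k, hk⟩ := P'.2 ⟨c, h2⟩
  have h3 := center_p (p := p) hm hc (k := k) (congrArg Subtype.val hk)
  rw [hc', h3, mul_one]

theorem exists_form (hm : 1 ≤ m) {z : PSp m F} (hz : IsCen p z) : ∃ (v w : V) (c : F), v ≠ 0 ∧ sympB m F v w = 0 ∧
    z = QuotientGroup.mk (X v w c) ∧ (∀ u, sympB m F u v = 0 → 2 * sympB m F u w = 0) := by
  obtain ⟨P, s, hs, rfl, hc⟩ := hz.exists hm
  obtain ⟨P0, v0, hv0, hfix, hQ⟩ := exists_sylow (p := p) (F := F) hm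
  obtain ⟨g, hg⟩ := MulAction.exists_smul_eq G P0 P
  have hmem : ∀ x, x ∈ P0 → g * x * g⁻¹ ∈ P := by
    intro x hx
    rw [← hg]
    change g * x * g⁻¹ ∈ ((g • P0 : Sylow p G) : Subgroup G)
    rw [Sylow.coe_subgroup_smul]
    exact ⟨x, hx, rfl⟩
  have hs0 : g⁻¹ * s * g ∈ P0 := by
    rw [← hg] at hs
    change s ∈ ((g • P0 : Sylow p G) : Subgroup G) at hs
    rw [Sylow.coe_subgroup_smul] at hs
    obtain ⟨x, hx, hx'⟩ := hs
    have : x = g⁻¹ * s * g := by
      rw [← hx']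
      change x = g⁻¹ * (g * x * g⁻¹) * g
      group
    rwa [← this]
  obtain ⟨w, c, hw, hX, h2⟩ := central_form hv0 (hfix _ hs0) (fun y hy => by
    have h1 := hc _ (hmem y (hQ hy))
    have h2 : g⁻¹ * (g * y * g⁻¹ * s) * g = g⁻¹ * (s * (g * y * g⁻¹)) * g := by rw [h1]
    have h3 : g⁻¹ * (g * y * g⁻¹ * s) * g = y * (g⁻¹ * s * g) := by group
    have h4 : g⁻¹ * (s * (g * y * g⁻¹)) * g = g⁻¹ * s * g * y := by group
    rw [← h3, h2, h4])
  refine ⟨g.1 *ᵥ v0, g.1 *ᵥ w, c, mulVec_ne_zero g hv0, by rw [G_pres, hw], ?_, ?_⟩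
  · rw [← conj_X, ← hX]
    congr 1
    group
  · intro u hu
    have h5 := h2 ((g⁻¹).1 *ᵥ u) (by rw [← G_pres g, mulVec_inv, hu])
    rwa [← G_pres g, mulVec_inv] at h5

theorem isCen_T (hm : 1 ≤ m) {v : V} (hv : v ≠ 0) (c : F) : IsCen p (T v c : PSp m F) := by
  obtain ⟨P0, v0, hv0, hfix, hQ⟩ := exists_sylow (p := p) (F := F) hm
  obtain ⟨g, hg⟩ := exists_mulVec_eq v0 v hv0 hv
  refine ⟨(g • P0).mapSurjective (QuotientGroup.mk'_surjective (Subgroup.center G)), ?_, ?_⟩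
  · refine ⟨tr v c, ?_, rfl⟩
    change tr v c ∈ ((g • P0 : Sylow p G) : Subgroup G)
    rw [Sylow.coe_subgroup_smul]
    refine ⟨tr v0 c, hQ (tr_mem_Q v0 c), ?_⟩
    change g * tr v0 c * g⁻¹ = _
    rw [conj_tr, hg]
  · rintro _ ⟨x, hx, rfl⟩
    change x ∈ ((g • P0 : Sylow p G) : Subgroup G) at hx
    rw [Sylow.coe_subgroup_smul] at hx
    obtain ⟨y, hy, rfl⟩ := hx
    have h1 : (g * y * g⁻¹) * tr v c * (g * y * g⁻¹)⁻¹ = tr v c := by
      rw [conj_tr, mul_mulVec, mul_mulVec, ← hg, inv_mulVec, hfix y hy]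
    change (QuotientGroup.mk ((g * y * g⁻¹) * tr v c) : PSp m F) = QuotientGroup.mk (tr v c * (g * y * g⁻¹))
    rw [← mul_inv_eq_iff_eq_mul.1 h1]

omit [Fact p.Prime] [CharP F p] [Finite F] in
theorem pow_eq_one_of_mk [CharP F 2] (hm : 1 ≤ m) {s : G} {n : ℕ} (h : (QuotientGroup.mk s : PSp m F) ^ n = 1) : s ^ n = 1 := by
  rw [← QuotientGroup.mk_pow, QuotientGroup.eq_one_iff] at h
  obtain ⟨a, ha⟩ := (mem_center_iff _).1 h
  have h1 := scalar_sq hm ha
  have : Fact (Nat.Prime 2) := ⟨Nat.prime_two⟩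
  apply center_p (p := 2) hm h (k := 1)
  apply G_ext
  intro v
  rw [pow_one, pow_two, mul_mulVec, ha, ha, smul_smul, ← sq, h1, one_smul, one_mulVec']

theorem isTP_iff (hm : 2 ≤ m) (h4 : m = 2 → p ≠ 2) (z : PSp m F) : IsTP p z ↔ ∃ (v : V) (c : F), v ≠ 0 ∧ z = T v c := by
  constructor
  · rintro ⟨h1, h2⟩
    obtain ⟨v, w, c, hv, hvw, hX, h3⟩ := exists_form (by omega) h1
    by_cases hw : ∃ a : F, w = a • v
    · obtain ⟨a, ha⟩ := hw
      refine ⟨v, 2 * a + c, hv, ?_⟩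
      rw [hX, ha, X_smul]
      rfl
    · push Not at hw
      by_cases hp : p = 2
      · exfalso
        subst hp
        have h5 := h2 rfl
        obtain ⟨h, hh4, hh2⟩ := not_Tl (by by_contra hlt; exact h4 (by omega) rfl : 3 ≤ m) hv hw hvw c
        apply hh2
        apply pow_eq_one_of_mk (by omega)
        have h6 := h5 (QuotientGroup.mk h)
        rw [hX] at h6
        apply h6
        change ((QuotientGroup.mk (X v w c * (h * X v w c * h⁻¹)) : PSp m F)) ^ 4 = 1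
        rw [← QuotientGroup.mk_pow, hh4]
        rfl
      · exfalso
        obtain ⟨f, hf⟩ := exists_B_ne hv
        apply hw _ (perp_perp hf (d := w) _)
        intro u hu
        have h2' : (2 : F) ≠ 0 := by
          intro h0
          apply hp
          have h7 : ((2 : ℕ) : F) = 0 := by exact_mod_cast h0
          rw [CharP.cast_eq_zero_iff F p] at h7
          exact (Nat.prime_dvd_prime_iff_eq (Fact.out : p.Prime) Nat.prime_two).1 h7
        rcases mul_eq_zero.1 (h3 u hu) with h8 | h8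
        · exact absurd h8 h2'
        · exact h8
  · rintro ⟨v, c, hv, rfl⟩
    refine ⟨isCen_T (by omega) hv c, ?_⟩
    intro hp
    subst hp
    intro h
    obtain ⟨h, rfl⟩ := QuotientGroup.mk_surjective h
    rw [conj_T]
    intro h5
    have h6 := pow_eq_one_of_mk (m := m) (F := F) (s := tr v c * tr (h.1 *ᵥ v) c) (by omega) h5
    have h7 := tr_Tl _ _ _ _ h6
    change ((QuotientGroup.mk (tr v c * tr (h.1 *ᵥ v) c) : PSp m F)) ^ 2 = 1
    rw [← QuotientGroup.mk_pow, h7]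
    rfl

end CfsgLib.AutPSp
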