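import Cfsg.Agent.Lib.AutPO1
import Cfsg.Agent.Lib.AutPSp4

/-!
# Automorphisms of `PΩ(Q)`, part 2: Sylow centres are root groups
-/

set_option autoImplicit false
set_option linter.unusedSimpArgs false
set_option linter.unusedSectionVars false

namespace CfsgLib.AutPO

open Module Cfsg CfsgLib.Quad
open CfsgLib.AutPSp (IsCen)

/-! ### central elements of Sylow subgroups and quotients -/

section gen

variable {S : Type*} [Group S] [Finite S] {p : ℕ} [Fact p.Prime]

theorem mk_eq_iff {a b : S} : (QuotientGroup.mk a : S ⧸ Subgroup.center S) = QuotientGroup.mk b ↔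
    ∃ z ∈ Subgroup.center S, b = a * z := by
  rw [QuotientGroup.eq]
  constructor
  · intro h
    exact ⟨_, h, by rw [mul_inv_cancel_left]⟩
  · rintro ⟨z, hz, rfl⟩
    rwa [inv_mul_cancel_left]

theorem isCen_lift (hc : ∀ z ∈ Subgroup.center S, ∀ k : ℕ, z ^ (p ^ k) = 1 → z = 1) {z : S ⧸ Subgroup.center S}
    (hz : IsCen p z) : ∃ s : S, IsCen p s ∧ z = QuotientGroup.mk s := by
  obtain ⟨P, hP, hP'⟩ := hz
  obtain ⟨P', rfl⟩ := Sylow.mapSurjective_surjective (QuotientGroup.mk'_surjective (Subgroup.center S)) p P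
  obtain ⟨s, hs, rfl⟩ := hP
  refine ⟨s, ⟨P', hs, ?_⟩, rfl⟩
  intro x hx
  have h1 := hP' (QuotientGroup.mk x) ⟨x, hx, rfl⟩
  obtain ⟨c, hcc, hc'⟩ := (mk_eq_iff (a := s * x) (b := x * s)).1 h1.symm
  have h2 : c ∈ P' := by
    have e : c = (s * x)⁻¹ * (x * s) := by rw [hc', inv_mul_cancel_left]
    rw [e]
    exact mul_mem (inv_mem (mul_mem hs hx)) (mul_mem hx hs)
  obtain ⟨k, hk⟩ := P'.2 ⟨c, h2⟩
  have h3 := hc c hcc k (congrArg Subtype.val hk)
  rw [hc', h3, mul_one]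

theorem isCen_mk {s : S} (hs : IsCen p s) : IsCen p (QuotientGroup.mk s : S ⧸ Subgroup.center S) := by
  obtain ⟨P, hP, hP'⟩ := hs
  refine ⟨P.mapSurjective (QuotientGroup.mk'_surjective (Subgroup.center S)), ⟨s, hP, rfl⟩, ?_⟩
  rintro _ ⟨x, hx, rfl⟩
  change (QuotientGroup.mk (x * s) : S ⧸ Subgroup.center S) = QuotientGroup.mk (s * x)
  rw [hP' x hx]

theorem mk_inj_p (hc : ∀ z ∈ Subgroup.center S, ∀ k : ℕ, z ^ (p ^ k) = 1 → z = 1) {a b : S} {k l : ℕ}
    (ha : a ^ (p ^ k) = 1) (hb : b ^ (p ^ l) = 1) (h : (QuotientGroup.mk a : S ⧸ Subgroup.center S) = QuotientGroup.mk b) :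
    a = b := by
  obtain ⟨z, hz, rfl⟩ := mk_eq_iff.1 h
  have hcomm : Commute a z := by
    have := Subgroup.mem_center_iff.1 hz a
    exact this
  have ha' : a ^ (p ^ (k + l)) = 1 := by rw [pow_add, pow_mul, ha, one_pow]
  have hb' : (a * z) ^ (p ^ (k + l)) = 1 := by rw [pow_add, mul_comm (p ^ k), pow_mul, hb, one_pow]
  rw [hcomm.mul_pow, ha', one_mul] at hb'
  rw [hc z hz _ hb', mul_one]

/-- the centre of Sylow subgroups: conjugation -/
theorem IsCen.conj {s : S} (hs : IsCen p s) (P : Sylow p S) : ∃ g : S, g * s * g⁻¹ ∈ P ∧ ∀ x ∈ P, x * (g * s * g⁻¹) = (g * s * g⁻¹) * x := by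
  obtain ⟨P', hP, hP'⟩ := hs
  obtain ⟨g, hg⟩ := MulAction.exists_smul_eq S P' P
  refine ⟨g, ?_, ?_⟩
  · rw [← hg]
    change g * s * g⁻¹ ∈ ((g • P' : Sylow p S) : Subgroup S)
    rw [Sylow.coe_subgroup_smul]
    exact ⟨s, hP, rfl⟩
  · intro x hx
    rw [← hg] at hx
    change x ∈ ((g • P' : Sylow p S) : Subgroup S) at hx
    rw [Sylow.coe_subgroup_smul] at hx
    obtain ⟨y, hy, rfl⟩ := hx
    change g * y * g⁻¹ * (g * s * g⁻¹) = (g * s * g⁻¹) * (g * y * g⁻¹)
    have h1 := hP' y hy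
    have e1 : g * y * g⁻¹ * (g * s * g⁻¹) = g * (y * s) * g⁻¹ := by group
    have e2 : (g * s * g⁻¹) * (g * y * g⁻¹) = g * (s * y) * g⁻¹ := by group
    rw [e1, e2, h1]

theorem IsCen.conj' {s : S} (hs : IsCen p s) (g : S) : IsCen p (g * s * g⁻¹) := by
  have := hs.map (MulAut.conj g)
  rwa [MulAut.conj_apply] at this

end gen

variable {F V : Type*} [Field F] [AddCommGroup V] [Module F V] [FiniteDimensional F V]

local notation "β[" Q "]" => QuadraticMap.polarBilin Q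

variable {Q : QuadraticForm F V} {p : ℕ} [Fact p.Prime] [CharP F p]

/-- unipotent elements have order a power of `p` -/
theorem unip {g : eichG Q} (h : (g.1.1.toLinearMap - 1 : Module.End F V) ^ 5 = 0) : g ^ (p ^ 3) = 1 := by
  rcases subsingleton_or_nontrivial V with hV | hV
  · apply G_ext
    intro x
    exact Subsingleton.elim _ _
  have : CharP (Module.End F V) p := charP_of_injective_algebraMap (algebraMap F (Module.End F V)).injective p
  have h1 : (g.1.1.toLinearMap : Module.End F V) ^ (p ^ 3) = 1 := by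
    have h3 : (g.1.1.toLinearMap : Module.End F V) = 1 + (g.1.1.toLinearMap - 1) := by abel
    rw [h3, add_pow_char_pow_of_commute p 3 (Commute.one_left _), one_pow]
    have h4 : 5 ≤ p ^ 3 := by
      have := (Fact.out : p.Prime).two_le
      have h8 : 2 ^ 3 ≤ p ^ 3 := Nat.pow_le_pow_left this 3
      omega
    rw [← Nat.sub_add_cancel h4, pow_add, h, mul_zero, add_zero]
  have h2 : ∀ (n : ℕ) (x : V), (g ^ n).1.1 x = ((g.1.1.toLinearMap : Module.End F V) ^ n) x := by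
    intro n
    induction n with
    | zero => intro x; rfl
    | succ n ih => intro x; rw [pow_succ, mul_ap, ih, pow_succ]; rfl
  apply G_ext
  intro x
  rw [h2, h1]
  rfl

/-- the unipotent radical of the stabiliser of a flag `v`, `v2` -/
def flagN (Q : QuadraticForm F V) (v v2 : V) : Subgroup (eichG Q) where
  carrier := {g | g.1.1 v = v ∧ (∃ c : F, g.1.1 v2 = v2 + c • v) ∧
    ∀ y, β[Q] v y = 0 → β[Q] v2 y = 0 → ∃ c d : F, g.1.1 y = y + c • v + d • v2}
  mul_mem' := by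
    rintro a b ⟨ha1, ⟨ca, ha2⟩, ha3⟩ ⟨hb1, ⟨cb, hb2⟩, hb3⟩
    refine ⟨by rw [mul_ap, hb1, ha1], ⟨ca + cb, ?_⟩, ?_⟩
    · rw [mul_ap, hb2, ap_add, ap_smul, ha1, ha2]
      module
    · intro y h1 h2
      obtain ⟨c, d, h3⟩ := ha3 y h1 h2
      obtain ⟨c', d', h4⟩ := hb3 y h1 h2
      refine ⟨c + c' + d' * ca, d + d', ?_⟩
      rw [mul_ap, h4, ap_add, ap_add, ap_smul, ap_smul, ha1, ha2, h3]
      module
  one_mem' := by
    change _ ∧ _ ∧ _
    refine ⟨rfl, ⟨0, by rw [one_ap]; module⟩, fun y _ _ => ⟨0, 0, by rw [one_ap]; module⟩⟩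
  inv_mem' := by
    rintro a ⟨ha1, ⟨ca, ha2⟩, ha3⟩
    have h1 : (a⁻¹).1.1 v = v := by conv_lhs => rw [← ha1, inv_ap]
    have h2 : (a⁻¹).1.1 v2 = v2 + (-ca) • v := by
      apply ap_inj a
      rw [ap_inv, ap_add, ap_smul, ha1, ha2]
      module
    refine ⟨h1, ⟨-ca, h2⟩, ?_⟩
    intro y hy1 hy2
    obtain ⟨c, d, h3⟩ := ha3 y hy1 hy2
    refine ⟨-c + d * ca, -d, ?_⟩
    apply ap_inj a
    rw [ap_inv, ap_add, ap_add, ap_smul, ap_smul, ha1, ha2, h3]
    module

theorem flagN_unip {v v2 : V} {g : eichG Q} (hg : g ∈ flagN Q v v2) :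
    (g.1.1.toLinearMap - 1 : Module.End F V) ^ 5 = 0 := by
  obtain ⟨h1, ⟨c, h2⟩, h3⟩ := hg
  have hT : ∀ x, (g.1.1.toLinearMap - 1 : Module.End F V) x = g.1.1 x - x := fun x => rfl
  have a1 : ∀ x, β[Q] v (g.1.1 x - x) = 0 := by
    intro x
    rw [LinearMap.map_sub]
    nth_rw 1 [← h1]
    rw [pol, sub_self]
  have a2 : ∀ x, β[Q] v x = 0 → β[Q] v2 (g.1.1 x - x) = 0 := by
    intro x hx
    rw [LinearMap.map_sub]
    have e : v2 = g.1.1 v2 - c • g.1.1 v := by rw [h1, h2]; abel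
    nth_rw 1 [e]
    rw [LinearMap.map_sub, LinearMap.map_smul, LinearMap.sub_apply, LinearMap.smul_apply, pol, pol, hx]
    simp
  apply LinearMap.ext
  intro x
  have e5 : ((g.1.1.toLinearMap - 1 : Module.End F V) ^ 5) x =
    (g.1.1.toLinearMap - 1 : Module.End F V) ((g.1.1.toLinearMap - 1 : Module.End F V)
      ((g.1.1.toLinearMap - 1 : Module.End F V) ((g.1.1.toLinearMap - 1 : Module.End F V)
        ((g.1.1.toLinearMap - 1 : Module.End F V) x)))) := rfl
  rw [e5, hT x]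
  obtain ⟨c', d', h4⟩ := h3 (g.1.1 (g.1.1 x - x) - (g.1.1 x - x)) (a1 _) (a2 _ (a1 _))
  rw [hT (g.1.1 x - x), hT (g.1.1 (g.1.1 x - x) - (g.1.1 x - x)), h4]
  have e3 : ∀ w : V, w + c' • v + d' • v2 - w = c' • v + d' • v2 := fun w => by abel
  rw [e3, hT (c' • v + d' • v2), ap_add, ap_smul, ap_smul, h1, h2, hT, ap_sub, ap_add, ap_smul, ap_smul, ap_add, ap_smul,
    ap_add, ap_smul, ap_smul, h1, h2, LinearMap.zero_apply]
  module

theorem isPGroup_flagN (v v2 : V) : IsPGroup p (flagN Q v v2) := by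
  rintro ⟨g, hg⟩
  exact ⟨3, Subtype.ext (unip (flagN_unip hg))⟩

theorem ei_mem_flagN {v v2 y : V} (hv : Q v = 0) (hvv : β[Q] v v2 = 0) (hy : β[Q] v y = 0) :
    ei Q v y ∈ flagN Q v v2 := by
  refine ⟨?_, ⟨- β[Q] y v2, ?_⟩, ?_⟩
  · rw [ei_apply hv hy, pol_self hv, polar_comm, hy]
    simp
  · rw [ei_apply hv hy, hvv]
    simp
  · intro z hz1 hz2
    refine ⟨- β[Q] y z, 0, ?_⟩
    rw [ei_apply hv hy, hz1]
    simp

theorem ei2_mem_flagN {v v2 y : V} (hv2 : Q v2 = 0) (hvv : β[Q] v v2 = 0) (hy1 : β[Q] v y = 0)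
    (hy : β[Q] v2 y = 0) : ei Q v2 y ∈ flagN Q v v2 := by
  refine ⟨?_, ⟨0, ?_⟩, ?_⟩
  · rw [ei_apply hv2 hy, polar_comm Q y v, hy1, polar_comm Q v2 v, hvv]
    simp
  · rw [ei_apply hv2 hy, pol_self hv2, polar_comm Q y v2, hy]
    simp
  · intro z hz1 hz2
    refine ⟨0, - β[Q] y z, ?_⟩
    rw [ei_apply hv2 hy, hz2]
    simp

theorem ei_pow {u y : V} (hu : Q u = 0) (huy : β[Q] u y = 0) : (ei Q u y) ^ (p ^ 3) = 1 := by
  apply unip
  apply flagN_unip (v := u) (v2 := 0)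
  exact ei_mem_flagN hu (by rw [LinearMap.map_zero]) huy

omit [Fact p.Prime] [CharP F p] in
theorem finG [Finite F] (Q : QuadraticForm F V) : Finite (eichG Q) := by
  have hVf : Finite V := Module.finite_of_finite F
  exact Finite.of_injective (fun (g : eichG Q) (x : V) => g.1.1 x) (fun g h hgh => G_ext (fun x => congrFun hgh x))

section nd

variable [Finite F] (hQ : (β[Q]).Nondegenerate)
include hQ

/-- central `p`-elements are trivial -/
theorem center_p (hV : 5 ≤ finrank F V) (z : eichG Q) (hz : z ∈ Subgroup.center (eichG Q)) (k : ℕ)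
    (hk : z ^ (p ^ k) = 1) : z = 1 := by
  obtain ⟨a, ha2, ha⟩ := scalar_of_center hQ hV z hz
  have h1 : ∀ (n : ℕ) (v : V), (z ^ n).1.1 v = a ^ n • v := by
    intro n
    induction n with
    | zero => intro v; rw [pow_zero, pow_zero, one_ap, one_smul]
    | succ n ih => intro v; rw [pow_succ, mul_ap, ha, ap_smul, ih, smul_smul, pow_succ, mul_comm]
  have : Nontrivial V := nontrivial_of_finrank_pos (R := F) (by omega)
  obtain ⟨v, hv⟩ := exists_ne (0 : V)
  have h2 : a ^ (p ^ k) = 1 := by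
    have := h1 (p ^ k) v
    rw [hk, one_ap] at this
    have h3 : (a ^ (p ^ k) - 1) • v = 0 := by
      rw [sub_smul, ← this, one_smul, sub_self]
    rcases smul_eq_zero.1 h3 with h4 | h4
    · exact sub_eq_zero.1 h4
    · exact absurd h4 hv
  have h3 : a = 1 := by
    have h4 : (a - 1) ^ (p ^ k) = 0 := by
      rw [sub_pow_char_pow, h2, one_pow, sub_self]
    exact sub_eq_zero.1 (pow_eq_zero_iff (pow_ne_zero _ (Fact.out : p.Prime).ne_zero) |>.1 h4)
  apply G_ext
  intro v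
  rw [ha, h3, one_smul, one_ap]

omit hQ [Finite F] [Fact p.Prime] [CharP F p] in
/-- the action on singular vectors -/
@[instance_reducible] def actS (Q : QuadraticForm F V) : MulAction (eichG Q) {x : V // Q x = 0} where
  smul g x := ⟨g.1.1 x.1, by rw [qf, x.2]⟩
  one_smul x := Subtype.ext (one_ap x.1)
  mul_smul g h x := Subtype.ext (mul_ap g h x.1)

/-- a root: a pair of independent orthogonal singular vectors -/
structure Rt (Q : QuadraticForm F V) (u w : V) : Prop where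
  hu : Q u = 0
  hw : Q w = 0
  huw : β[Q] u w = 0
  li : LinearIndependent F ![u, w]

omit hQ [FiniteDimensional F V] [Finite F] [Fact p.Prime] [CharP F p] in
theorem Rt.u0 {u w : V} (h : Rt Q u w) : u ≠ 0 := h.li.ne_zero 0

omit hQ [FiniteDimensional F V] [Finite F] [Fact p.Prime] [CharP F p] in
theorem Rt.w0 {u w : V} (h : Rt Q u w) : w ≠ 0 := h.li.ne_zero 1

omit hQ [FiniteDimensional F V] [Finite F] [Fact p.Prime] [CharP F p] in
theorem not_mem_of_li {u w : V} (h : LinearIndependent F ![u, w]) (c : F) : w ≠ c • u := by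
  intro hc
  have := LinearIndependent.pair_iff.1 h c (-1) (by rw [hc]; module)
  exact neg_ne_zero.2 one_ne_zero this.2

omit hQ [FiniteDimensional F V] [Finite F] [Fact p.Prime] [CharP F p] in
theorem li_of {u w : V} (hu : u ≠ 0) (h : ∀ c : F, w ≠ c • u) : LinearIndependent F ![u, w] := by
  rw [LinearIndependent.pair_iff]
  intro s t hst
  have ht : t = 0 := by
    by_contra ht
    apply h (-(t⁻¹ * s))
    have : t • w = -(s • u) := by rw [← add_eq_zero_iff_eq_neg, add_comm]; exact hst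
    have h2 : w = t⁻¹ • (t • w) := by rw [smul_smul, inv_mul_cancel₀ ht, one_smul]
    rw [h2, this]
    module
  rw [ht, zero_smul, add_zero] at hst
  exact ⟨(smul_eq_zero.1 hst).resolve_right hu, ht⟩

omit [FiniteDimensional F V] [Finite F] [Fact p.Prime] [CharP F p] in
theorem exists_Rt [FiniteDimensional F V] [Finite F] (hV : 5 ≤ finrank F V) {v : V} (hv0 : v ≠ 0) (hv : Q v = 0) : ∃ v2, Rt Q v v2 := by
  obtain ⟨f, hf, hvf⟩ := exists_partner hQ hv0 hv
  obtain ⟨e₂, f₂, he₂, hf₂, h1, h2, h3⟩ := exists_second_pair hQ hv hf hvf hV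
  refine ⟨e₂, hv, h1, (mem_hperp.1 he₂).1, li_of hv0 ?_⟩
  rintro c rfl
  rw [LinearMap.map_smul, LinearMap.smul_apply, (mem_hperp.1 hf₂).1, smul_zero] at h3
  exact zero_ne_one h3

/-- fixed vectors of the Siegel group -/
theorem fixed_ei (hV : 5 ≤ finrank F V) {v : V} (hv0 : v ≠ 0) (hv : Q v = 0) {x : V}
    (h : ∀ y, β[Q] v y = 0 → (ei Q v y).1.1 x = x) : ∃ c : F, x = c • v := by
  obtain ⟨v2, hr⟩ := exists_Rt hQ hV hv0 hv
  apply perp_perp hQ hv0 hv
  have hvx : β[Q] v x = 0 := by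
    have h1 := h v2 hr.huw
    rw [ei_sing hv hr.hw hr.huw] at h1
    have h2 : (- β[Q] v2 x) • v + (β[Q] v x) • v2 = 0 := by
      have : x + β[Q] v x • v2 - β[Q] v2 x • v - x = 0 := by rw [h1, sub_self]
      rw [← this]
      module
    exact (LinearIndependent.pair_iff.1 hr.li _ _ h2).2
  intro y hy
  have h1 := h y hy
  rw [ei_apply hv hy, hvx] at h1
  have h2 : (- β[Q] y x) • v = 0 := by
    have : x + (0 : F) • y + (- β[Q] y x - Q y * 0) • v - x = 0 := by rw [h1, sub_self]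
    rw [← this]
    module
  rw [polar_comm]
  exact neg_eq_zero.1 ((smul_eq_zero.1 h2).resolve_right hv0)

theorem p_dvd_card (hV : 5 ≤ finrank F V) : p ∣ Nat.card {x : V // Q x = 0} := by
  have hVf : Finite V := Module.finite_of_finite F
  obtain ⟨v, hv0, hv⟩ := exists_singular hQ (by omega)
  let _ := actS Q
  have hP : IsPGroup p (eichT' hv : Subgroup (eichG Q)) := by
    rintro ⟨g, y, hy, hg⟩
    refine ⟨3, Subtype.ext ?_⟩
    change g ^ (p ^ 3) = 1
    have : g = ei Q v y := Subtype.ext (by rw [hg, ei_coe hv hy])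
    rw [this, ei_pow hv hy]
  have h1 := hP.card_modEq_card_fixedPoints {x : V // Q x = 0}
  have h2 : Nat.card (MulAction.fixedPoints (eichT' hv : Subgroup (eichG Q)) {x : V // Q x = 0}) = Nat.card F := by
    symm
    refine Nat.card_congr (Equiv.ofBijective (fun c : F => ⟨⟨c • v, by rw [Quad.map_smul, hv, mul_zero]⟩, ?_⟩) ⟨?_, ?_⟩)
    · rintro ⟨g, y, hy, hg⟩
      apply Subtype.ext
      change g.1.1 (c • v) = c • v
      rw [hg, eichO_apply, LinearMap.map_smul, LinearMap.map_smul, pol_self hv, polar_comm, hy]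
      simp
    · intro c d hcd
      have h3 : c • v = d • v := congrArg (fun z => z.1.1) hcd
      exact smul_left_injective F hv0 h3
    · rintro ⟨⟨x, hx⟩, hfix⟩
      obtain ⟨c, hc⟩ := fixed_ei hQ hV hv0 hv (x := x) (fun y hy =>
        congrArg Subtype.val (hfix ⟨ei Q v y, y, hy, ei_coe hv hy⟩))
      exact ⟨c, by subst hc; rfl⟩
  rw [h2] at h1
  have hF : p ∣ Nat.card F := by
    have h1 : (Nat.card F : F) = 0 := by
      have := Fintype.ofFinite F
      rw [Nat.card_eq_fintype_card]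
      exact Nat.cast_card_eq_zero F
    exact (CharP.cast_eq_zero_iff F p _).1 h1
  exact (Nat.modEq_zero_iff_dvd.1 (h1.trans (Nat.modEq_zero_iff_dvd.2 hF)))

/-- the Sylow structure -/
theorem exists_sylow (hV : 7 ≤ finrank F V) : ∃ (v v2 : V) (P : Sylow p (eichG Q)), Rt Q v v2 ∧
    (ei Q v v2 ∈ P ∧ ∀ g ∈ P, g * ei Q v v2 = ei Q v v2 * g) ∧
    ∀ z ∈ P, (∀ g ∈ P, g * z = z * g) → ∃ c : F, z = ei Q v (c • v2) := by
  have hVf : Finite V := Module.finite_of_finite F
  obtain ⟨v, hv0, hv⟩ := exists_singular hQ (by omega)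
  obtain ⟨v2, hr⟩ := exists_Rt hQ (by omega) hv0 hv
  obtain ⟨P, hP⟩ := (isPGroup_flagN (Q := Q) (p := p) v v2).exists_le_sylow
  have hmem : ∀ y, β[Q] v y = 0 → ei Q v y ∈ P := fun y hy => hP (ei_mem_flagN hv hr.huw hy)
  let _ := actS Q
  have hfix : ∀ g ∈ P, g.1.1 v = v := by
    obtain ⟨x, hx, hx0⟩ := P.2.exists_fixed_point_of_prime_dvd_card_of_fixed_point {x : V // Q x = 0}
      (p_dvd_card hQ (by omega)) (a := ⟨0, QuadraticMap.map_zero Q⟩) (fun g => Subtype.ext (_root_.map_zero g.1.1.1))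
    have hx' : ∀ g ∈ P, g.1.1 x.1 = x.1 := fun g hg => congrArg Subtype.val (hx ⟨g, hg⟩)
    obtain ⟨c, hc⟩ := fixed_ei hQ (by omega) hv0 hv (x := x.1) (fun y hy => hx' _ (hmem y hy))
    have hc0 : c ≠ 0 := by
      rintro rfl
      apply hx0
      apply Subtype.ext
      rw [hc, zero_smul]
    intro g hg
    have := hx' g hg
    rw [hc, ap_smul] at this
    exact smul_right_injective V hc0 this
  have key : ∀ z ∈ P, (∀ g ∈ P, g * z = z * g) → ∃ c : F, z = ei Q v (c • v2) := by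
    intro z hz hzc
    have hzv := hfix z hz
    have h1 : ∀ y, β[Q] v y = 0 → ∃ c : F, z.1.1 y = y + c • v := by
      intro y hy
      have h2 := hzc _ (hmem y hy)
      have h3 : z * ei Q v y * z⁻¹ = ei Q v y := by rw [← h2, mul_inv_cancel_right]
      rw [ei_conj z hv hy, hzv, ei_eq_iff hQ hv0 hv (by nth_rw 1 [← hzv]; rw [pol, hy]) hy] at h3
      exact h3
    obtain ⟨w, hw, rfl⟩ := exists_ei hQ hv0 hv hzv h1
    -- commuting with the second level
    have h4 : ∀ y, β[Q] v y = 0 → β[Q] v2 y = 0 → ∃ c : F, (ei Q v2 y).1.1 w = w + c • v := by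
      intro y hy1 hy2
      have h2 := hzc _ (hP (ei2_mem_flagN (v := v) hr.hw hr.huw hy1 hy2))
      have h3 : ei Q v2 y * ei Q v w * (ei Q v2 y)⁻¹ = ei Q v w := by rw [h2, mul_inv_cancel_right]
      have h5 : (ei Q v2 y).1.1 v = v := by
        rw [ei_apply hr.hw hy2, polar_comm Q v2 v, hr.huw, polar_comm Q y v, hy1]
        simp
      rw [ei_conj _ hv hw, h5, ei_eq_iff hQ hv0 hv (by nth_rw 1 [← h5]; rw [pol, hw]) hw] at h3
      exact h3
    -- a third vector
    obtain ⟨f, hf, hvf, hfv2⟩ := exists_partner_orthogonal hQ hr.li hv hr.hw hr.huw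
    have hv2h : v2 ∈ hperp Q v f := mem_hperp.2 ⟨hr.huw, hfv2⟩
    have hN := resQ_hperp_nondegenerate hQ hv hf hvf
    have hdim := finrank_hperp hQ hv hf hvf
    obtain ⟨v3, hr3⟩ := exists_Rt hN (by omega) (v := ⟨v2, hv2h⟩) (fun h => hr.w0 (congrArg Subtype.val h)) hr.hw
    have hv3 := mem_hperp.1 v3.2
    have e1 : β[Q] v2 w = 0 := by
      obtain ⟨c, hc⟩ := h4 v3.1 hv3.1 hr3.huw
      have hr3w : Q v3.1 = 0 := hr3.hw
      rw [ei_sing hr.hw hr3w hr3.huw] at hc
      -- apply the polar form with partners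
      obtain ⟨x, hx1, hx2⟩ := exists_dual2 hN hr3.li 0 1
      have hx := mem_hperp.1 x.2
      have h5 := congrArg (fun t => β[Q] x.1 t) hc
      simp only [LinearMap.map_sub, LinearMap.map_add, LinearMap.map_smul, smul_eq_mul] at h5
      have hx1' : β[Q] x.1 v2 = 0 := by rw [polar_comm]; exact hx1
      have hx2' : β[Q] x.1 v3.1 = 1 := by rw [polar_comm]; exact hx2
      have hx3' : β[Q] x.1 v = 0 := by rw [polar_comm]; exact hx.1
      rw [hx1', hx2', hx3'] at h5
      linear_combination h5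
    have e2 : ∀ y, β[Q] v y = 0 → β[Q] v2 y = 0 → β[Q] y w = 0 := by
      intro y hy1 hy2
      obtain ⟨c, hc⟩ := h4 y hy1 hy2
      rw [ei_apply hr.hw hy2, e1] at hc
      have h5 : c • v + (β[Q] y w) • v2 = 0 := by
        have : w + c • v - (w + (0 : F) • y + (- β[Q] y w - Q y * 0) • v2) = 0 := by rw [hc, sub_self]
        rw [← this]
        module
      exact (LinearIndependent.pair_iff.1 hr.li _ _ h5).2
    -- hence `w` is in the span
    obtain ⟨f2, hf2, hv2f2, hf2v⟩ := exists_partner_orthogonal hQ (u := v2) (v := v)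
      (LinearIndependent.pair_symm_iff.1 hr.li) hr.hw hv (by rw [polar_comm, hr.huw])
    obtain ⟨f1, hf1a, hf1b⟩ := exists_dual2 hQ hr.li 1 0
    have hf2v' : β[Q] v f2 = 0 := by rw [polar_comm]; exact hf2v
    have e3 : w = (β[Q] w f1) • v + (β[Q] w f2) • v2 := by
      rw [← sub_eq_zero]
      apply hQ.1
      intro x
      have h6 := e2 (x - β[Q] v x • f1 - β[Q] v2 x • f2)
        (by rw [LinearMap.map_sub, LinearMap.map_sub, LinearMap.map_smul, LinearMap.map_smul, hf1a, hf2v']; simp)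
        (by rw [LinearMap.map_sub, LinearMap.map_sub, LinearMap.map_smul, LinearMap.map_smul, hf1b, hv2f2]; simp)
      rw [polar_comm] at h6
      simp only [LinearMap.map_sub, LinearMap.map_add, LinearMap.map_smul, LinearMap.sub_apply, LinearMap.add_apply,
        LinearMap.smul_apply, smul_eq_mul] at h6 ⊢
      linear_combination h6
    refine ⟨β[Q] w f2, ?_⟩
    rw [ei_eq_iff hQ hv0 hv hw (by rw [LinearMap.map_smul, hr.huw, smul_zero])]
    exact ⟨β[Q] w f1, by rw [add_comm]; exact e3⟩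
  refine ⟨v, v2, P, hr, ?_, key⟩
  refine ⟨hmem _ hr.huw, ?_⟩
  -- the centre is nontrivial
  have hnt : Nontrivial P := by
    refine ⟨⟨⟨ei Q v v2, hmem _ hr.huw⟩, 1, ?_⟩⟩
    intro h
    have h1 : ei Q v v2 = 1 := congrArg Subtype.val h
    rw [ei_eq_one_iff hQ hv0 hv hr.huw] at h1
    obtain ⟨c, hc⟩ := h1
    exact not_mem_of_li hr.li c hc
  have hGf := finG Q
  have hct := P.2.center_nontrivial
  obtain ⟨⟨⟨z, hz⟩, hzc⟩, hz1⟩ := exists_ne (1 : Subgroup.center P)
  have hzc' : ∀ g ∈ P, g * z = z * g := fun g hg => congrArg Subtype.val (Subgroup.mem_center_iff.1 hzc ⟨g, hg⟩)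
  obtain ⟨c, rfl⟩ := key z hz hzc'
  have hc0 : c ≠ 0 := by
    rintro rfl
    apply hz1
    apply Subtype.ext
    apply Subtype.ext
    change ei Q v ((0 : F) • v2) = 1
    rw [zero_smul, ei_zero]
  intro g hg
  have h2 := hzc' g hg
  have hcv2 : β[Q] v (c • v2) = 0 := by rw [LinearMap.map_smul, hr.huw, smul_zero]
  have h3 : g * ei Q v (c • v2) * g⁻¹ = ei Q v (c • v2) := by rw [h2, mul_inv_cancel_right]
  have hgv := hfix g hg
  rw [ei_conj g hv hcv2, hgv, ei_eq_iff hQ hv0 hv (by nth_rw 1 [← hgv]; rw [pol, hcv2]) hcv2] at h3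
  obtain ⟨d, hd⟩ := h3
  have h4 : g.1.1 v2 = v2 + (c⁻¹ * d) • v := by
    rw [ap_smul] at hd
    apply smul_right_injective V hc0
    change c • g.1.1 v2 = c • (v2 + (c⁻¹ * d) • v)
    rw [hd, smul_add, smul_smul, mul_inv_cancel_left₀ hc0]
  have h5 : g * ei Q v v2 * g⁻¹ = ei Q v v2 := by
    rw [ei_conj g hv hr.huw, hgv, h4, ei_add_self hv hr.huw]
  exact mul_inv_eq_iff_eq_mul.1 h5

omit [FiniteDimensional F V] [Finite F] [Fact p.Prime] [CharP F p] in
omit hQ in
theorem Rt.ap [FiniteDimensional F V] {u w : V} (h : Rt Q u w) (g : eichG Q) : Rt Q (g.1.1 u) (g.1.1 w) := by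
  refine ⟨by rw [qf, h.hu], by rw [qf, h.hw], by rw [pol, h.huw], li_of (ap_ne_zero g h.u0) ?_⟩
  intro c hc
  rw [← ap_smul] at hc
  exact not_mem_of_li h.li c (ap_inj g hc)

omit hQ [FiniteDimensional F V] [Finite F] [Fact p.Prime] [CharP F p] in
theorem Rt.smul {u w : V} (h : Rt Q u w) {c : F} (hc : c ≠ 0) : Rt Q u (c • w) := by
  refine ⟨h.hu, by rw [Quad.map_smul, h.hw, mul_zero], by rw [LinearMap.map_smul, h.huw, smul_zero], li_of h.u0 ?_⟩
  intro d hd
  apply not_mem_of_li h.li (c⁻¹ * d)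
  rw [mul_smul, ← hd, smul_smul, inv_mul_cancel₀ hc, one_smul]

/-- non-trivial elements central in a Sylow subgroup are exactly the root elements -/
theorem isCen_iff (hV : 7 ≤ finrank F V) (z : eichG Q) :
    (IsCen p z ∧ z ≠ 1) ↔ ∃ u w, Rt Q u w ∧ z = ei Q u w := by
  have hVf : Finite V := Module.finite_of_finite F
  have hGf := finG Q
  obtain ⟨v, v2, P, hr, h1, h2⟩ := exists_sylow (p := p) hQ hV
  constructor
  · rintro ⟨hz, hz1⟩
    obtain ⟨g, hg1, hg2⟩ := IsCen.conj hz P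
    obtain ⟨c, hc⟩ := h2 _ hg1 hg2
    have hc0 : c ≠ 0 := by
      rintro rfl
      rw [zero_smul, ei_zero] at hc
      apply hz1
      have e : z = g⁻¹ * (g * z * g⁻¹) * g := by group
      rw [e, hc]
      group
    have hr' := hr.smul hc0
    refine ⟨_, _, hr'.ap g⁻¹, ?_⟩
    rw [← ei_conj g⁻¹ hr'.hu hr'.huw, ← hc]
    group
  · rintro ⟨u, w, hr', rfl⟩
    refine ⟨?_, ?_⟩
    · obtain ⟨g, hg, hgu, hgw⟩ := exists_eichG_orthogonal hQ (by omega) hr.li hr'.li hr.hu hr.hw hr.huw hr'.hu hr'.hw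
        hr'.huw
      have h3 : IsCen p (ei Q v v2) := ⟨P, h1⟩
      have h4 := IsCen.conj' h3 (⟨g, hg⟩ : eichG Q)
      rw [ei_conj _ hr.hu hr.huw] at h4
      change IsCen p (ei Q (g.1 v) (g.1 v2)) at h4
      rwa [hgu, hgw] at h4
    · rw [Ne, ei_eq_one_iff hQ hr'.u0 hr'.hu hr'.huw]
      rintro ⟨c, hc⟩
      exact not_mem_of_li hr'.li c hc

end nd

end CfsgLib.AutPO
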