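import Cfsg.Agent.Lib.AutPO19

/-!
# Automorphisms of `PΩ(Q)`, part 20: outer automorphism group of the minus family in odd characteristic
-/

set_option autoImplicit false
set_option linter.unusedSimpArgs false
set_option linter.unusedSectionVars false
set_option maxHeartbeats 1000000

namespace CfsgLib.AutPO

open Module Matrix Cfsg CfsgLib.Quad CfsgLib.SemiAut
open CfsgLib.AutPSp (scal scal_coe scal_isScal scal_mulVec exists_scal_of)
open CfsgLib.QuadMat (reflG reflG_coe)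

variable {F : Type*} [Field F]

local notation "β[" Q "]" => QuadraticMap.polarBilin Q

theorem isSquare_map_iff [Finite F] (σ : RingAut F) (x : F) : IsSquare (σ x) ↔ IsSquare x := by
  constructor
  · rintro ⟨s, hs⟩
    refine ⟨σ⁻¹ s, ?_⟩
    apply σ.injective
    rw [hs, map_mul, ap_inv_self]
  · rintro ⟨s, rfl⟩
    exact ⟨σ s, map_mul _ _ _⟩

theorem absN {G C : Type*} [Group G] [Group C] (π : G →* C) {x y : G} {f : ℕ} (hf : 1 ≤ f) (hx : orderOf x = 2)
    (hy : orderOf y = 2 * f) (hc : x * y = y * x) (hxC : π x = 1) (hfy : ∀ j : ℤ, π (y ^ j) = 1 → (f : ℤ) ∣ j)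
    (hne : ∀ l : ℤ, x ≠ (y ^ f) ^ l) (hcard : Nat.card G = 2 * 2 * f) :
    Nonempty (G ≃* Multiplicative (ZMod 2 × ZMod (2 * f))) := by
  have h3 := prod_equiv (Subgroup.zpowers x) (Subgroup.zpowers y) (by
      rintro _ ⟨i, rfl⟩ _ ⟨j, rfl⟩
      exact (Commute.zpow_zpow hc i j)) (by
      rw [eq_bot_iff]
      rintro z ⟨⟨i, hi⟩, ⟨j, hj⟩⟩
      rw [Subgroup.mem_bot]
      have hi' : x ^ i = z := hi
      have hj' : y ^ j = z := hj
      have h4 : z = 1 ∨ z = x := by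
        rw [← hi']
        rcases Int.even_or_odd i with ⟨l, hl⟩ | ⟨l, hl⟩
        · left
          rw [hl, ← two_mul, _root_.zpow_mul, zpow_ofNat, ← hx, pow_orderOf_eq_one, _root_.one_zpow]
        · right
          rw [hl, _root_.zpow_add, _root_.zpow_mul, zpow_ofNat, ← hx, pow_orderOf_eq_one, _root_.one_zpow, one_mul, zpow_one]
      rcases h4 with h4 | h4
      · exact h4
      · exfalso
        have h5 : π (y ^ j) = 1 := by rw [hj', h4, hxC]
        obtain ⟨l, hl⟩ := hfy j h5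
        apply hne l
        rw [← h4, ← hj', hl, _root_.zpow_mul, zpow_natCast]) (by
      rw [Nat.card_zpowers, Nat.card_zpowers, hx, hy, hcard]
      ring) (by rw [hcard]; omega)
  exact mulProd h3 (zpowers_equiv hx) (zpowers_equiv hy)

theorem absD {G : Type*} [Group G] {A : Subgroup G} (e : Nonempty (A ≃* DihedralGroup 4)) {w : G} {f : ℕ} (hf : 1 ≤ f)
    (hw : orderOf w = f) (hA : ∀ j : ℤ, w ^ j ∈ A → (f : ℤ) ∣ j) (hc : ∀ a ∈ A, a * w = w * a) (hcard : Nat.card G = 8 * f) :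
    Nonempty (G ≃* DihedralGroup 4 × Multiplicative (ZMod f)) := by
  obtain ⟨e⟩ := e
  have hcA : Nat.card A = 8 := by
    rw [Nat.card_congr e.toEquiv, DihedralGroup.nat_card]
  obtain ⟨e1⟩ := prod_equiv A (Subgroup.zpowers w) (by
      rintro a ha _ ⟨j, rfl⟩
      exact (Commute.zpow_right (hc a ha) j)) (by
      rw [eq_bot_iff]
      rintro z ⟨hz, ⟨j, hj⟩⟩
      rw [Subgroup.mem_bot]
      have hj' : w ^ j = z := hj
      obtain ⟨l, hl⟩ := hA j (by rw [hj']; exact hz)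
      rw [← hj', hl, _root_.zpow_mul, zpow_natCast, ← hw, pow_orderOf_eq_one, _root_.one_zpow]) (by
      rw [Nat.card_zpowers, hw, hcard, hcA]) (by rw [hcard]; omega)
  obtain ⟨e2⟩ := zpowers_equiv hw
  exact ⟨e1.trans (e.prodCongr e2)⟩

/-- quotients of nonsquares -/
theorem sq_of_ns [Finite F] {μ ν : Fˣ} (hμ : ¬ IsSquare (μ : F)) (hν : ¬ IsSquare (ν : F)) : ∃ a : Fˣ, μ * ν⁻¹ = a ^ 2 := by
  obtain ⟨s, hs⟩ := isSquare_mul_of_not hμ hν
  have hs0 : s ≠ 0 := by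
    rintro rfl
    rw [mul_zero] at hs
    exact mul_ne_zero μ.ne_zero ν.ne_zero hs
  refine ⟨Units.mk0 s hs0 * ν⁻¹, ?_⟩
  rw [mul_pow, sq (Units.mk0 s hs0), sq ν⁻¹]
  have h1 : Units.mk0 s hs0 * Units.mk0 s hs0 = μ * ν := Units.ext hs.symm
  rw [h1]
  group

/-- conjugation by the square -/
theorem comm_sq {G : Type*} [Group G] {y d κ : G} (h1 : y * d * y⁻¹ = κ * d) (h2 : y * κ * y⁻¹ = κ) (h3 : κ * κ = 1) :
    d * y ^ 2 = y ^ 2 * d := by
  have h4 : y ^ 2 * d * (y ^ 2)⁻¹ = d := by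
    have e : y ^ 2 * d * (y ^ 2)⁻¹ = y * (y * d * y⁻¹) * y⁻¹ := by
      rw [sq, _root_.mul_inv_rev]
      simp only [mul_assoc]
    have e2 : y * (κ * d) * y⁻¹ = (y * κ * y⁻¹) * (y * d * y⁻¹) := by group
    rw [e, h1, e2, h1, h2, ← mul_assoc, h3, one_mul]
  rw [mul_inv_eq_iff_eq_mul] at h4
  exact h4.symm

theorem sq_one_of_comm {G : Type*} [Group G] {a b : G} (h1 : a * b = b * a) (h2 : a * a = 1) (h3 : b * b = 1) :
    (a * b) * (a * b) = 1 := by
  have : (a * b) * (a * b) = a * (b * a) * b := by group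
  rw [this, ← h1]
  have : a * (a * b) * b = (a * a) * (b * b) := by group
  rw [this, h2, h3, one_mul]

theorem conj_mul {G : Type*} [Group G] (x y z : G) : z * (x * y) * z⁻¹ = (z * x * z⁻¹) * (z * y * z⁻¹) := by group

section gen

variable {ι : Type} [Fintype ι] [DecidableEq ι] {Q : QuadraticForm F (ι → F)}
variable [Finite F] (hQ : (β[Q]).Nondegenerate) (hV : 7 ≤ finrank F (ι → F)) {ν : Fˣ} (hν : ¬ IsSquare (ν : F))

include hν in
theorem comm_outO {y : Out (POmega F ⇑Q)} (hyR : ∀ d, y * R hQ hV d * y⁻¹ = R hQ hV d) (k : isometryGroup F ⇑Q) :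
    y * outO hQ hV k * y⁻¹ = outO hQ hV k := by
  rcases outO_cases hQ hV ν hν k with ⟨_, h4 | h4⟩ | ⟨_, h4 | h4⟩
  · rw [h4, mul_one, mul_inv_cancel]
  · rw [h4, conj_mul, hyR, hyR]
  · rw [h4, hyR]
  · rw [h4, hyR]

include hν in
theorem comm_w (hne : ∃ v, Q v ≠ 0) {y : Out (POmega F ⇑Q)} (hyR : ∀ d, y * R hQ hV d * y⁻¹ = R hQ hV d) {δ : Sim Q}
    (hδ : mu hne δ = ν) {k : isometryGroup F ⇑Q} (hk : (chi hQ k).1 = 1)
    (hk' : y * outS hQ hV δ * y⁻¹ = outO hQ hV k * outS hQ hV δ) (x : Out (POmega F ⇑Q)) (hx : x ∈ (outS hQ hV).range) :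
    x * y ^ 2 = y ^ 2 * x := by
  have hO : ∀ k : isometryGroup F ⇑Q, outO hQ hV k * y ^ 2 = y ^ 2 * outO hQ hV k := by
    intro k
    exact comm_sq (κ := 1) (by rw [one_mul]; exact comm_outO hQ hV hν hyR k) (by rw [mul_one, mul_inv_cancel]) (one_mul 1)
  have hδc : outS hQ hV δ * y ^ 2 = y ^ 2 * outS hQ hV δ := by
    refine comm_sq hk' (comm_outO hQ hV hν hyR k) ?_
    rcases outO_cases hQ hV ν hν k with ⟨_, h4 | h4⟩ | ⟨h4, _⟩
    · rw [h4, one_mul]
    · rw [h4]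
      exact sq_one_of_comm (R_comm hQ hV (ns2 hν) 1 ν) (R_sq hQ hV 1) (R_sq hQ hV ν)
    · rw [hk] at h4
      exact absurd h4 (by decide)
  obtain ⟨g, rfl⟩ := hx
  by_cases hg : IsSquare (mu hne g : F)
  · obtain ⟨c, hc⟩ := hg
    have hc0 : c ≠ 0 := by
      rintro rfl
      rw [mul_zero] at hc
      exact (mu hne g).ne_zero hc
    obtain ⟨k, hk, _⟩ := outS_of_sq (M := 0) hQ hV hne g (Units.mk0 c hc0) (Units.ext (by
      rw [hc, Units.val_pow_eq_pow_val, Units.val_mk0, sq]))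
    rw [hk]
    exact hO k
  · obtain ⟨c, hc⟩ := sq_of_ns hg hν
    obtain ⟨k, hk, _⟩ := outS_of_sq (M := 0) hQ hV hne (g * δ⁻¹) c (by rw [map_mul, map_inv, hδ, hc])
    have h7 : outS hQ hV g = outO hQ hV k * outS hQ hV δ := by
      rw [← hk, ← map_mul, inv_mul_cancel_right]
    rw [h7, mul_assoc, hδc, ← mul_assoc, hO k, mul_assoc]

end gen

section minus

variable [Fintype F] {p f : ℕ} [Fact p.Prime] [CharP F p] (hf : 1 ≤ f) (hF : Fintype.card F = p ^ f)
  {m : ℕ} (hm : 3 ≤ m) {a b : F} (hab : Aniso a b) {ν : Fˣ} (hν : ¬ IsSquare (ν : F))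

include hν in
theorem yM_R (d : Fˣ) : yM p hm hab * R (QM_nondegenerate m hab) (hVM F hm) d * (yM p hm hab)⁻¹ =
    R (QM_nondegenerate m hab) (hVM F hm) d := by
  rw [yM, conj_R _ _ (ns2 hν) (frM_mem m p hab) (c := 1) (frM_val m p hab)]
  apply R_congr _ _ (ns2 hν)
  rw [one_mul]
  exact isSquare_map_iff (frF F p) _

theorem yM_conj (g : Sim (QM m a b)) : ∃ g' : Sim (QM m a b), yM p hm hab * outS (QM_nondegenerate m hab) (hVM F hm) g * (yM p hm hab)⁻¹ =
    outS (QM_nondegenerate m hab) (hVM F hm) g' ∧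
    (∀ hne : ∃ v, QM m a b v ≠ 0, mu hne g' = Units.map (frF F p : F →* F) (mu hne g) ∧
      ∀ M, eps hne M g' = Units.map (frF F p : F →* F) (eps hne M g)) := by
  obtain ⟨g', hg', h⟩ := conj_Sim _ (frM_mem m p hab) g.1 g.2
  refine ⟨⟨g', hg'⟩, ?_, fun hne => ⟨mu_conj hne (frM_mem m p hab) (k := g) (k' := ⟨g', hg'⟩) h,
    fun M => eps_conj hne M (frM_mem m p hab) (k := g) (k' := ⟨g', hg'⟩) h⟩⟩
  rw [yM, ← outS_linS, ← outS_linS, ← map_inv, ← map_mul, ← map_mul]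
  congr 1
  exact Subtype.ext h

/-- a similarity with nonsquare multiplier and trivial `eps` -/
theorem exists_delta (hab : Aniso a b) (hne : ∃ v, QM m a b v ≠ 0) (ν : Fˣ) :
    ∃ δ : Sim (QM m a b), mu hne δ = ν ∧ eps hne (m + 1) δ = 1 := by
  obtain ⟨x, y, hxy⟩ := exists_norm_eq hab ν
  exact ⟨⟨DMg m a b ν x y hxy, DMg_mem a b ν x y hxy⟩, mu_DM hne ν x y hxy, eps_DM hne ν x y hxy⟩

include hν in
/-- conjugation of `δ` by the Frobenius -/
theorem yM_delta (hne : ∃ v, QM m a b v ≠ 0) {δ : Sim (QM m a b)} (h1 : mu hne δ = ν) (h2 : eps hne (m + 1) δ = 1) :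
    ∃ k : isometryGroup F ⇑(QM m a b), (chi (QM_nondegenerate m hab) k).1 = 1 ∧
      yM p hm hab * outS (QM_nondegenerate m hab) (hVM F hm) δ * (yM p hm hab)⁻¹ =
        outO (QM_nondegenerate m hab) (hVM F hm) k * outS (QM_nondegenerate m hab) (hVM F hm) δ := by
  obtain ⟨g', hg', hh⟩ := yM_conj (p := p) hm hab δ
  obtain ⟨h3, h4⟩ := hh hne
  have hν' : ¬ IsSquare ((Units.map (frF F p : F →* F) ν : Fˣ) : F) := fun h => hν ((isSquare_map_iff (frF F p) _).1 h)
  obtain ⟨c, hc⟩ := sq_of_ns hν' hν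
  obtain ⟨k, hk, hk'⟩ := outS_of_sq (M := m + 1) (QM_nondegenerate m hab) (hVM F hm) hne (g' * δ⁻¹) c (by
    rw [map_mul, map_inv, h3, h1, hc])
  have h5 : eps hne (m + 1) (toSim _ k) = 1 := by
    rw [← hk' (card_ι_M m), map_mul, map_inv, h4, h2, map_one, inv_one, mul_one]
  have h6 := (eps_toSim_iff (QM_nondegenerate m hab) (ns2 hν) hne (M := m + 1) k).1 h5
  refine ⟨k, h6, ?_⟩
  have h7 : outS (QM_nondegenerate m hab) (hVM F hm) g' =
      outS (QM_nondegenerate m hab) (hVM F hm) (g' * δ⁻¹) * outS (QM_nondegenerate m hab) (hVM F hm) δ := by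
    rw [← map_mul, inv_mul_cancel_right]
  rw [hg', h7, hk]

include hf hF in
theorem orderOf_yM_odd (hν : ¬ IsSquare (ν : F)) : orderOf (yM p hm hab) = 2 * f := by
  apply orderOf_yM hf hF
  have h2 := ns2 hν
  classical
  rw [Ne, outO_eq_one' _ _ h2, chi_refl _ h2]
  rintro (h | h)
  · have h3 : (-1 : ℤˣ) = 1 := congrArg Prod.fst h
    exact absurd h3 (by decide)
  · have h3 : (-1 : ℤˣ) = (chi (QM_nondegenerate m hab) (ngI (QM m a b))).1 := congrArg Prod.fst h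
    rw [chi_ngI_even (QM_nondegenerate m hab) h2 (card_ι_M m)] at h3
    exact absurd h3 (by decide)

include hf hF hν in
/-- case `-1 ∉ Ω` -/
theorem out_minus_N (hm : 3 ≤ m) (hab : Aniso a b) (hN : ngI (QM m a b) ∉ Omega F ⇑(QM m a b)) :
    Nonempty (Out (POmega F ⇑(QM m a b)) ≃* Multiplicative (ZMod 2 × ZMod (2 * f))) := by
  have hQ := QM_nondegenerate m hab
  have hV := hVM F hm
  have hne := exists_ne_of_nd hQ (by omega)
  have h2 := ns2 hν
  have hM := card_ι_M m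
  have hcard := card_out hQ hV (fullM hm hab) (fun σ => (exists_sigma_minus m hab σ).imp fun g hg => hg.2)
  rw [card_outS hQ hV hne (mu_surj_minus m hab hne) hν, card_outO_N hQ hV hM hν hN, CfsgLib.AutPSL.ringAut_card hF] at hcard
  obtain ⟨δ, hδ, hδ'⟩ := exists_delta hab hne ν
  have hmusq : ∀ g : Sim (QM m a b), outS hQ hV g = 1 → ¬ IsSquare (mu hne g : F) → False := by
    intro g hg hns
    rw [← map_one (outS hQ hV)] at hg
    obtain ⟨c, hc⟩ := mu_of_outS hQ hV hne hg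
    apply hns
    rw [hc, map_one, mul_one]
    exact ⟨c, by rw [Units.val_pow_eq_pow_val, sq]⟩
  apply absN (oFld hQ hV (fullM hm hab)) (x := outS hQ hV δ) (y := yM p hm hab) hf
  · have : Fact (Nat.Prime 2) := ⟨Nat.prime_two⟩
    apply orderOf_eq_prime
    · rw [sq, ← map_mul, outS_eq_one_N hQ hV hne hM hν hN]
      exact ⟨⟨mu hne δ, by rw [map_mul, sq]⟩, by rw [map_mul, hδ', one_mul]⟩
    · intro h
      exact hmusq δ h (by rw [hδ]; exact hν)
  · exact orderOf_yM_odd hf hF hm hab hν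
  · obtain ⟨k, hk, hk'⟩ := yM_delta (p := p) hm hab hν hne hδ hδ'
    have h3 : outO hQ hV k = 1 := by
      rcases outO_cases hQ hV ν hν k with ⟨_, h4 | h4⟩ | ⟨h4, _⟩
      · exact h4
      · rw [h4, RR_N hQ hV hM hν hN]
      · rw [hk] at h4
        exact absurd h4 (by decide)
    rw [h3, one_mul, mul_inv_eq_iff_eq_mul] at hk'
    exact hk'.symm
  · rw [← outS_linS, oFld_outG]
    rfl
  · intro j hj
    have h6 := dvd_of_oFld hf hF hm hab (k := 1) (by rw [oFld_yM, pow_one]) hj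
    rwa [Nat.cast_one, one_mul] at h6
  · intro l hl
    rw [yM_pow hF, ← map_zpow] at hl
    refine hmusq (δ * (toSim _ ((reflG (QM m a b) (wM m a) (QM_wM_ne m hab)) ^ l))⁻¹) ?_ ?_
    · rw [map_mul, map_inv, outS_toSim, hl, mul_inv_cancel]
    · rw [map_mul, map_inv, mu_toSim, inv_one, mul_one, hδ]
      exact hν
  · rw [hcard]

include hf hF hν in
/-- case `-1 ∈ Ω` -/
theorem out_minus_D (hm : 3 ≤ m) (hab : Aniso a b) (hD : ngI (QM m a b) ∈ Omega F ⇑(QM m a b)) (hfo : Odd f) :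
    Nonempty (Out (POmega F ⇑(QM m a b)) ≃* DihedralGroup 4 × Multiplicative (ZMod f)) := by
  have hQ := QM_nondegenerate m hab
  have hV := hVM F hm
  have hne := exists_ne_of_nd hQ (by omega)
  have hM := card_ι_M m
  have hcard := card_out hQ hV (fullM hm hab) (fun σ => (exists_sigma_minus m hab σ).imp fun g hg => hg.2)
  rw [card_outS hQ hV hne (mu_surj_minus m hab hne) hν, card_outO_D hQ hV hν hD, CfsgLib.AutPSL.ringAut_card hF] at hcard
  have hy : orderOf (yM p hm hab) = 2 * f := orderOf_yM_odd hf hF hm hab hν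
  refine absD (dih_D hQ hV hne hM (mu_surj_minus m hab hne) hν hD) (w := (yM p hm hab) ^ 2) hf ?_ ?_ ?_ hcard
  · rw [orderOf_pow_of_dvd (by norm_num) (by rw [hy]; exact ⟨f, rfl⟩), hy]
    omega
  · intro j hj
    rw [← oFld_ker hQ hV (fullM hm hab), MonoidHom.mem_ker] at hj
    have h6 := dvd_of_oFld hf hF hm hab (x := (yM p hm hab) ^ 2) (k := 2) (by rw [map_pow, oFld_yM]) hj
    have h7 : IsCoprime (f : ℤ) ((2 : ℕ) : ℤ) := by
      rw [Nat.isCoprime_iff_coprime]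
      exact Nat.Coprime.symm (Nat.coprime_two_left.2 hfo)
    exact h7.dvd_of_dvd_mul_left h6
  · obtain ⟨δ, hδ, hδ'⟩ := exists_delta hab hne ν
    obtain ⟨k, hk, hk'⟩ := yM_delta (p := p) hm hab hν hne hδ hδ'
    exact comm_w hQ hV hν hne (yM_R (p := p) hm hab hν) hδ hk hk'

end minus

end CfsgLib.AutPO
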