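import Cfsg.Agent.Lib.AutPO17

/-!
# Automorphisms of `PΩ(Q)`, part 21: classes of maximal totally singular subspaces
-/

set_option autoImplicit false
set_option linter.unusedSimpArgs false
set_option linter.unusedSectionVars false

namespace CfsgLib.AutPO

open Module Matrix Cfsg CfsgLib.Quad CfsgLib.SemiAut
open CfsgLib.AutPSp (scal scal_coe scal_isScal scal_mulVec exists_scal_of)
open CfsgLib.QuadMat (reflG reflG_coe)

variable {F : Type*} [Field F] {ι : Type} [Fintype ι] [DecidableEq ι] {Q : QuadraticForm F (ι → F)}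

local notation "β[" Q "]" => QuadraticMap.polarBilin Q

/-- image of a subspace -/
def img (g : GL ι F) (U : Submodule F (ι → F)) : Submodule F (ι → F) := imageSubmodule g.1 U

theorem mem_img {g : GL ι F} {U : Submodule F (ι → F)} {x : ι → F} : x ∈ img g U ↔ ∃ y ∈ U, g.1 *ᵥ y = x := by
  rw [img, imageSubmodule, Submodule.mem_map]
  rfl

theorem mulVec_inj (g : GL ι F) {x y : ι → F} (h : g.1 *ᵥ x = g.1 *ᵥ y) : x = y := by
  have h1 := congrArg (fun v => (g⁻¹).1 *ᵥ v) h
  simp only [mulVec_mulVec] at h1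
  have h2 : (g⁻¹).1 * g.1 = 1 := g.inv_mul
  rw [h2, one_mulVec, one_mulVec] at h1
  exact h1

theorem img_mul (g h : GL ι F) (U : Submodule F (ι → F)) : img (g * h) U = img g (img h U) := by
  ext x
  rw [mem_img, mem_img]
  constructor
  · rintro ⟨y, hy, rfl⟩
    exact ⟨_, mem_img.2 ⟨y, hy, rfl⟩, by rw [mulVec_mulVec]; rfl⟩
  · rintro ⟨_, hz, rfl⟩
    obtain ⟨y, hy, rfl⟩ := mem_img.1 hz
    exact ⟨y, hy, by rw [mulVec_mulVec]; rfl⟩

theorem img_one (U : Submodule F (ι → F)) : img 1 U = U := by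
  ext x
  rw [mem_img]
  constructor
  · rintro ⟨y, hy, rfl⟩
    rwa [Units.val_one, one_mulVec]
  · intro hx
    exact ⟨x, hx, by rw [Units.val_one, one_mulVec]⟩

theorem img_inf (g : GL ι F) (U W : Submodule F (ι → F)) : img g (U ⊓ W) = img g U ⊓ img g W := by
  ext x
  rw [Submodule.mem_inf, mem_img, mem_img, mem_img]
  constructor
  · rintro ⟨y, ⟨h1, h2⟩, rfl⟩
    exact ⟨⟨y, h1, rfl⟩, ⟨y, h2, rfl⟩⟩
  · rintro ⟨⟨y, h1, rfl⟩, ⟨z, h2, h3⟩⟩
    have := mulVec_inj g h3
    subst this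
    exact ⟨z, ⟨h1, h2⟩, rfl⟩

theorem finrank_img (g : GL ι F) (U : Submodule F (ι → F)) : finrank F (img g U) = finrank F U := by
  have hinj : Function.Injective (Matrix.toLin' g.1) := fun x y h => mulVec_inj g h
  exact (LinearEquiv.finrank_eq (Submodule.equivMapOfInjective _ hinj U)).symm

theorem img_scal (c : Fˣ) (U : Submodule F (ι → F)) : img (scal c) U = U := by
  apply Submodule.eq_of_le_of_finrank_eq
  · intro x hx
    obtain ⟨y, hy, rfl⟩ := mem_img.1 hx
    rw [scal_mulVec]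
    exact U.smul_mem _ hy
  · exact finrank_img _ _

section cl

variable (hQ : (β[Q]).Nondegenerate) {M : ℕ} (hM : Fintype.card ι = 2 * M) {U0 : Submodule F (ι → F)}
  (hU0 : finrank F U0 = M) (hs : ∀ w ∈ U0, Q w = 0)

theorem img_sing {g : GL ι F} (hg : g ∈ Sim Q) {U : Submodule F (ι → F)} (hs : ∀ w ∈ U, Q w = 0) : ∀ w ∈ img g U, Q w = 0 := by
  intro w hw
  obtain ⟨y, hy, rfl⟩ := mem_img.1 hw
  obtain ⟨c, hc⟩ := mem_Sim.1 hg
  rw [hc, hs y hy, mul_zero]

theorem dim_ι (hM : Fintype.card ι = 2 * M) : finrank F (ι → F) = 2 * M := by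
  rw [Module.finrank_fintype_fun_eq_card, hM]

theorem pow_eq_iff_even {a b : ℕ} : ((-1 : ℤˣ) ^ a = (-1) ^ b) ↔ Even (a + b) := by
  have h1 : ∀ n : ℕ, ((-1 : ℤˣ) ^ n = 1 ↔ Even n) := by
    intro n
    constructor
    · intro h
      by_contra hn
      rw [Nat.not_even_iff_odd] at hn
      rw [hn.neg_one_pow] at h
      exact absurd h (by decide)
    · intro h
      exact h.neg_one_pow
  rw [← h1, pow_add]
  constructor
  · intro h
    rw [h, ← pow_add, h1]
    exact ⟨b, rfl⟩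
  · intro h
    have h2 : (-1 : ℤˣ) ^ b * (-1) ^ b = 1 := by rw [← pow_add, h1]; exact ⟨b, rfl⟩
    calc (-1 : ℤˣ) ^ a = (-1) ^ a * ((-1) ^ b * (-1) ^ b) := by rw [h2, mul_one]
      _ = _ := by rw [← mul_assoc, h, one_mul]

include hQ hM hU0 hs in
/-- the parity does not depend on the subspace -/
theorem par_indep (g : Sim Q) {W : Submodule F (ι → F)} (hW : finrank F W = M) (hWs : ∀ w ∈ W, Q w = 0) :
    Even (finrank F ↥(U0 ⊓ img g.1 U0) + finrank F ↥(W ⊓ img g.1 W)) := by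
  have h1 := even_three hQ (dim_ι hM) U0 W (img g.1 U0) hU0 hs hW hWs (by rw [finrank_img, hU0]) (img_sing g.2 hs)
  have h2 := even_three hQ (dim_ι hM) W (img g.1 U0) (img g.1 W) hW hWs (by rw [finrank_img, hU0]) (img_sing g.2 hs)
    (by rw [finrank_img, hW]) (img_sing g.2 hWs)
  have h3 : finrank F ↥(img g.1 U0 ⊓ img g.1 W) = finrank F ↥(U0 ⊓ W) := by
    rw [← img_inf, finrank_img]
  rw [h3] at h2
  obtain ⟨a, ha⟩ := h1
  obtain ⟨b, hb⟩ := h2
  generalize finrank F ↥(U0 ⊓ img g.1 U0) = x1 at *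
  generalize finrank F ↥(W ⊓ img g.1 W) = x2 at *
  generalize finrank F ↥(U0 ⊓ W) = x3 at *
  generalize finrank F ↥(W ⊓ img g.1 U0) = x4 at *
  rw [Nat.even_iff]
  omega

/-- the action on the two classes -/
noncomputable def cl : Sim Q →* ℤˣ where
  toFun g := (-1) ^ (M + finrank F ↥(U0 ⊓ img g.1 U0))
  map_one' := by
    rw [Subgroup.coe_one, img_one, inf_idem, hU0]
    exact Even.neg_one_pow ⟨M, rfl⟩
  map_mul' g h := by
    have h1 := even_three hQ (dim_ι hM) U0 (img g.1 U0) (img (g * h).1 U0) hU0 hs (by rw [finrank_img, hU0]) (img_sing g.2 hs)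
      (by rw [finrank_img, hU0]) (img_sing (g * h).2 hs)
    have h2 : finrank F ↥(img g.1 U0 ⊓ img (g * h).1 U0) = finrank F ↥(U0 ⊓ img h.1 U0) := by
      rw [Subgroup.coe_mul, img_mul, ← img_inf, finrank_img]
    rw [h2] at h1
    rw [← pow_add, pow_eq_iff_even]
    obtain ⟨a, ha⟩ := h1
    refine ⟨M + a, ?_⟩
    omega

theorem cl_apply (g : Sim Q) : cl hQ hM hU0 hs g = (-1) ^ (M + finrank F ↥(U0 ⊓ img g.1 U0)) := rfl

include hQ hM hU0 hs in
theorem finrank_of_max {U : Submodule F (ι → F)} (hU : IsMaxTotallySingular (⇑Q) U) : finrank F U = M := by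
  have h1 := two_mul_finrank_singular_le hQ (W := U) hU.1
  rw [dim_ι hM] at h1
  have h2 := finrank_eq_of_maximal hQ (W₁ := U) (W₂ := U0) hU.1 hs (fun W hW hWs => hU.2 W hWs hW)
  omega

include hQ hM in
theorem max_of_finrank {U : Submodule F (ι → F)} (hU : finrank F U = M) (hs : ∀ w ∈ U, Q w = 0) : IsMaxTotallySingular (⇑Q) U := by
  refine ⟨hs, fun W hW hle => ?_⟩
  have h1 := two_mul_finrank_singular_le hQ (W := W) hW
  rw [dim_ι hM] at h1
  exact (Submodule.eq_of_le_of_finrank_le hle (by omega)).symm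

theorem even_sub_iff {a b : ℕ} (h : b ≤ a) : Even (a - b) ↔ Even (a + b) := by
  rw [Nat.even_sub h, Nat.even_add]

/-- class preservation -/
theorem preserves_iff (g : Sim Q) : PreservesSingularClasses (⇑Q) g.1.1 ↔ cl hQ hM hU0 hs g = 1 := by
  rw [cl_apply]
  have h0 : ((-1 : ℤˣ) ^ (M + finrank F ↥(U0 ⊓ img g.1 U0)) = 1) ↔ Even (M + finrank F ↥(U0 ⊓ img g.1 U0)) := by
    have := pow_eq_iff_even (a := M + finrank F ↥(U0 ⊓ img g.1 U0)) (b := 0)
    rwa [pow_zero, add_zero] at this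
  rw [h0]
  have hle : ∀ U : Submodule F (ι → F), finrank F ↥(U ⊓ img g.1 U) ≤ finrank F U := fun U => Submodule.finrank_mono inf_le_left
  constructor
  · intro h
    have h1 := h U0 (max_of_finrank hQ hM hU0 hs)
    change Even (finrank F U0 - finrank F ↥(U0 ⊓ img g.1 U0)) at h1
    rw [even_sub_iff (hle _), hU0] at h1
    exact h1
  · intro h U hU
    change Even (finrank F U - finrank F ↥(U ⊓ img g.1 U))
    have hUM := finrank_of_max hQ hM hU0 hs hU
    rw [even_sub_iff (hle _), hUM]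
    obtain ⟨a, ha⟩ := par_indep hQ hM hU0 hs g hUM hU.1
    obtain ⟨b, hb⟩ := h
    rw [Nat.even_iff]
    omega

theorem cl_scal (c : Fˣ) : cl hQ hM hU0 hs ⟨scal c, scal_mem c⟩ = 1 := by
  rw [cl_apply]
  change (-1 : ℤˣ) ^ (M + finrank F ↥(U0 ⊓ img (scal c) U0)) = 1
  rw [img_scal, inf_idem, hU0]
  exact Even.neg_one_pow ⟨M, rfl⟩

theorem cl_of_fix {g : Sim Q} (h : img g.1 U0 = U0) : cl hQ hM hU0 hs g = 1 := by
  rw [cl_apply, h, inf_idem, hU0]
  exact Even.neg_one_pow ⟨M, rfl⟩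

/-- reflections interchange the classes -/
theorem cl_refl {w : ι → F} (hw : Q w ≠ 0) : cl hQ hM hU0 hs (toSim Q (reflG Q w hw)) = -1 := by
  have horth := orth_eq_self hQ (dim_ι hM) hU0 hs
  have hwU : w ∉ U0 := fun h => hw (hs w h)
  have hex : ∃ u ∈ U0, β[Q] w u ≠ 0 := by
    by_contra! h
    apply hwU
    rw [← horth, mem_orth]
    intro u hu
    rw [QuadraticMap.polarBilin_apply_apply, QuadraticMap.polar_comm]
    exact h u hu
  obtain ⟨u, hu, hwu⟩ := hex
  let f : Module.Dual F U0 := (β[Q] w).comp U0.subtype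
  have hf : f ≠ 0 := by
    intro h
    exact hwu (LinearMap.congr_fun h ⟨u, hu⟩)
  have h1 := Module.Dual.finrank_ker_add_one_of_ne_zero hf
  have h2 : U0 ⊓ img (reflG Q w hw).1 U0 = (LinearMap.ker f).map U0.subtype := by
    ext x
    rw [Submodule.mem_inf, mem_img, Submodule.mem_map]
    constructor
    · rintro ⟨hx, y, hy, rfl⟩
      rw [reflG_mulVec] at hx ⊢
      have h3 : ((Q w)⁻¹ * β[Q] w y) • w ∈ U0 := by
        have := U0.sub_mem hy hx
        rwa [sub_sub_cancel] at this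
      have h4 : (Q w)⁻¹ * β[Q] w y = 0 := by
        by_contra h0
        apply hwU
        have := U0.smul_mem ((Q w)⁻¹ * β[Q] w y)⁻¹ h3
        rwa [smul_smul, inv_mul_cancel₀ h0, one_smul] at this
      have h5 : β[Q] w y = 0 := (mul_eq_zero.1 h4).resolve_left (inv_ne_zero hw)
      rw [h4, zero_smul, sub_zero]
      exact ⟨⟨y, hy⟩, h5, rfl⟩
    · rintro ⟨⟨y, hy⟩, hy', rfl⟩
      refine ⟨hy, y, hy, ?_⟩
      have h5 : β[Q] w y = 0 := hy'
      rw [reflG_mulVec, h5, mul_zero, zero_smul, sub_zero]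
      rfl
  have h3 : finrank F ↥((LinearMap.ker f).map U0.subtype) = finrank F (LinearMap.ker f) :=
    (LinearEquiv.finrank_eq (Submodule.equivMapOfInjective _ U0.injective_subtype _)).symm
  rw [cl_apply, toSim_coe, h2, h3]
  rw [hU0] at h1
  apply Odd.neg_one_pow
  rw [Nat.odd_iff]
  omega

/-- on isometries it is the Dickson invariant -/
theorem cl_toSim (h4 : (∃ c : F, c ≠ 0 ∧ c ≠ 1) ∨ Fintype.card ι ≠ 4) (h : isometryGroup F ⇑Q) :
    cl hQ hM hU0 hs (toSim Q h) = dick hQ (isometryGroupEquiv Q h) := by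
  have hh : h ∈ Subgroup.closure (reflSet Q) := by rw [closure_reflSet hQ h4]; trivial
  induction hh using Subgroup.closure_induction with
  | mem x hx =>
    obtain ⟨v, hv, hx⟩ := hx
    have e : x = reflG Q v hv := Subtype.ext (Units.ext hx)
    rw [e, cl_refl, eq_reflO_of_coe Q hv _ (reflG_coe Q v hv), dick_reflO]
  | one => rw [map_one, map_one, map_one, map_one]
  | mul x y _ _ hx hy => rw [map_mul, map_mul, map_mul, map_mul, hx, hy]
  | inv x _ hx => rw [map_inv, map_inv, map_inv, map_inv, hx]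

end cl

end CfsgLib.AutPO
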