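import Cfsg.Agent.Lib.AutPO21

/-!
# Automorphisms of `PΩ(Q)`, part 22: extension of scalars; the inner-diagonal groups
-/

set_option autoImplicit false
set_option linter.unusedSimpArgs false
set_option linter.unusedSectionVars false

namespace CfsgLib.AutPO

open Module Matrix Cfsg CfsgLib.Quad CfsgLib.SemiAut
open CfsgLib.AutPSp (scal scal_coe scal_isScal scal_mulVec exists_scal_of)
open CfsgLib.QuadMat (reflG reflG_coe)

local notation "β[" Q "]" => QuadraticMap.polarBilin Q

section bc

variable {K : Type*} [Field K] {ι : Type} [Fintype ι] [DecidableEq ι]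

/-- quadratic forms are determined by their values on the standard basis -/
theorem quad_ext (P P' : QuadraticForm K (ι → K)) (h1 : ∀ i, P (Pi.single i 1) = P' (Pi.single i 1))
    (h2 : ∀ i j, QuadraticMap.polar P (Pi.single i 1) (Pi.single j 1) = QuadraticMap.polar P' (Pi.single i 1) (Pi.single j 1)) :
    P = P' := by
  have hpol : β[P] = β[P'] := by
    apply LinearMap.BilinForm.ext_basis (Pi.basisFun K ι)
    intro i j
    rw [Pi.basisFun_apply, Pi.basisFun_apply]
    exact h2 i j
  have hadd : ∀ x y, P (x + y) - P' (x + y) = (P x - P' x) + (P y - P' y) := by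
    intro x y
    rw [Quad.map_add, Quad.map_add, hpol]
    ring
  ext v
  have key : ∀ s : Finset ι, P (∑ i ∈ s, v i • Pi.single i 1) - P' (∑ i ∈ s, v i • Pi.single i 1) = 0 := by
    intro s
    induction s using Finset.induction_on with
    | empty => rw [Finset.sum_empty, QuadraticMap.map_zero, QuadraticMap.map_zero, sub_zero]
    | insert i s hi ih =>
      rw [Finset.sum_insert hi, hadd, ih, add_zero, Quad.map_smul, Quad.map_smul, h1, sub_self]
  have h3 := key Finset.univ
  have h4 : ∑ i, v i • (Pi.single i 1 : ι → K) = v := by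
    funext j
    rw [Finset.sum_apply]
    simp [Pi.single_apply]
  rw [h4, sub_eq_zero] at h3
  exact h3

variable {F : Type*} [Field F] (f : F →+* K) {Q : QuadraticForm F (ι → F)} {Q' : QuadraticForm K (ι → K)}
  (hQQ : ∀ v : ι → F, Q' (fun i => f (v i)) = f (Q v))

theorem f_single (i : ι) : (fun j => f ((Pi.single i 1 : ι → F) j)) = Pi.single i 1 := by
  funext j
  rw [Pi.single_apply, Pi.single_apply]
  split_ifs <;> simp

theorem map_mulVec_f (g : Matrix ι ι F) (v : ι → F) : (g.map f) *ᵥ (fun i => f (v i)) = fun i => f ((g *ᵥ v) i) :=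
  funext fun i => (RingHom.map_mulVec f g v i).symm

include hQQ in
theorem pol_f (u v : ι → F) : β[Q'] (fun i => f (u i)) (fun i => f (v i)) = f (β[Q] u v) := by
  rw [QuadraticMap.polarBilin_apply_apply, QuadraticMap.polarBilin_apply_apply, QuadraticMap.polar, QuadraticMap.polar]
  have h1 : (fun i => f (u i)) + (fun i => f (v i)) = fun i => f ((u + v) i) := by
    funext i
    rw [Pi.add_apply, Pi.add_apply, _root_.map_add]
  rw [h1, hQQ, hQQ, hQQ, _root_.map_sub, _root_.map_sub]

include hQQ in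
theorem sim_bc {g : GL ι F} {c : F} (hg : ∀ v, Q (g.1 *ᵥ v) = c * Q v) (v : ι → K) :
    Q' ((g.1.map f) *ᵥ v) = f c * Q' v := by
  have h1 : Q'.comp (Matrix.toLin' (g.1.map f)) = f c • Q' := by
    apply quad_ext
    · intro i
      rw [QuadraticMap.comp_apply, Matrix.toLin'_apply, QuadraticMap.smul_apply, ← f_single f i, map_mulVec_f, hQQ, hQQ, hg,
        map_mul]
      rfl
    · intro i j
      have h2 : ∀ x y : ι → K, QuadraticMap.polar (⇑(Q'.comp (Matrix.toLin' (g.1.map f)))) x y =
          β[Q'] ((g.1.map f) *ᵥ x) ((g.1.map f) *ᵥ y) := by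
        intro x y
        rw [QuadraticMap.polarBilin_apply_apply, QuadraticMap.polar, QuadraticMap.polar, QuadraticMap.comp_apply,
          QuadraticMap.comp_apply, QuadraticMap.comp_apply, Matrix.toLin'_apply, Matrix.toLin'_apply, Matrix.toLin'_apply,
          mulVec_add]
      have h3 : ∀ x y : ι → K, QuadraticMap.polar (⇑(f c • Q')) x y = f c * β[Q'] x y := by
        intro x y
        rw [QuadraticMap.polarBilin_apply_apply, QuadraticMap.polar, QuadraticMap.polar, QuadraticMap.smul_apply,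
          QuadraticMap.smul_apply, QuadraticMap.smul_apply, smul_eq_mul, smul_eq_mul, smul_eq_mul]
        ring
      rw [h2, h3, ← f_single f i, ← f_single f j, map_mulVec_f, map_mulVec_f, pol_f f hQQ, pol_f f hQQ, ← map_mul]
      congr 1
      have h4 := hg (Pi.single i 1 + Pi.single j 1)
      rw [mulVec_add, Quad.map_add, Quad.map_add, hg, hg] at h4
      linear_combination h4
  have h2 := congrArg (fun P : QuadraticForm K (ι → K) => P v) h1
  exact h2

include hQQ in
theorem bc_mem {g : GL ι F} (hg : g ∈ Sim Q) : Matrix.GeneralLinearGroup.map f g ∈ Sim Q' := by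
  obtain ⟨c, hc⟩ := hg
  exact ⟨Units.map (f : F →* K) c, sim_bc f hQQ hc⟩

/-- base change of similarities -/
noncomputable def bcS : Sim Q →* Sim Q' :=
  ((Matrix.GeneralLinearGroup.map f).comp (Sim Q).subtype).codRestrict (Sim Q') (fun g => bc_mem f hQQ g.2)

theorem bcS_coe (g : Sim Q) : (bcS f hQQ g).1 = Matrix.GeneralLinearGroup.map f g.1 := rfl

theorem mu_bcS (hne : ∃ v, Q v ≠ 0) (hne' : ∃ v, Q' v ≠ 0) (g : Sim Q) :
    mu hne' (bcS f hQQ g) = Units.map (f : F →* K) (mu hne g) := by
  apply mu_eq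
  intro v
  exact sim_bc f hQQ (mu_spec hne g) v

include hQQ in
theorem iso_bc {g : GL ι F} (hg : g ∈ isometryGroup F ⇑Q) : Matrix.GeneralLinearGroup.map f g ∈ isometryGroup K ⇑Q' := by
  rw [mem_iso] at hg ⊢
  intro v
  have := sim_bc f hQQ (g := g) (c := 1) (fun v => by rw [one_mul, hg]) v
  rwa [map_one, one_mul] at this

/-- base change of isometries -/
noncomputable def bcI : isometryGroup F ⇑Q →* isometryGroup K ⇑Q' :=
  ((Matrix.GeneralLinearGroup.map f).comp (isometryGroup F ⇑Q).subtype).codRestrict (isometryGroup K ⇑Q')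
    (fun g => iso_bc f hQQ g.2)

theorem bcI_coe (g : isometryGroup F ⇑Q) : (bcI f hQQ g).1 = Matrix.GeneralLinearGroup.map f g.1 := rfl

theorem bcS_toSim (g : isometryGroup F ⇑Q) : bcS f hQQ (toSim Q g) = toSim Q' (bcI f hQQ g) := rfl

theorem bcS_scal (c : Fˣ) : bcS f hQQ ⟨scal c, scal_mem c⟩ = ⟨scal (Units.map (f : F →* K) c), scal_mem _⟩ := by
  apply Subtype.ext
  apply Units.ext
  change (scal c : GL ι F).1.map f = (scal (Units.map (f : F →* K) c) : GL ι K).1
  rw [scal_coe, scal_coe]
  ext i j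
  rw [Matrix.map_apply, Matrix.smul_apply, Matrix.smul_apply, Matrix.one_apply, Matrix.one_apply, smul_eq_mul, smul_eq_mul, map_mul]
  split_ifs <;> simp

/-- base change of reflections -/
theorem bcI_refl {w : ι → F} (hw : Q w ≠ 0) :
    ∃ hw' : Q' (fun i => f (w i)) ≠ 0, bcI f hQQ (reflG Q w hw) = reflG Q' (fun i => f (w i)) hw' := by
  have hw' : Q' (fun i => f (w i)) ≠ 0 := by
    rw [hQQ]
    exact (map_ne_zero f).2 hw
  refine ⟨hw', ?_⟩
  apply Subtype.ext
  apply Units.ext
  apply Matrix.ext_of_mulVec_single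
  intro i
  change ((reflG Q w hw).1.1.map f) *ᵥ _ = _
  rw [reflG_mulVec, ← f_single f i, map_mulVec_f, reflG_mulVec, pol_f f hQQ, hQQ]
  funext j
  simp only [Pi.sub_apply, Pi.smul_apply, smul_eq_mul, _root_.map_sub, map_mul, map_inv₀]

theorem dick_bcI (hQ : (β[Q]).Nondegenerate) (hQ' : (β[Q']).Nondegenerate)
    (h4 : (∃ c : F, c ≠ 0 ∧ c ≠ 1) ∨ Fintype.card ι ≠ 4) (h : isometryGroup F ⇑Q) :
    dick hQ' (isometryGroupEquiv Q' (bcI f hQQ h)) = dick hQ (isometryGroupEquiv Q h) := by
  have hh : h ∈ Subgroup.closure (reflSet Q) := by rw [closure_reflSet hQ h4]; trivial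
  induction hh using Subgroup.closure_induction with
  | mem x hx =>
    obtain ⟨v, hv, hx⟩ := hx
    have e : x = reflG Q v hv := Subtype.ext (Units.ext hx)
    obtain ⟨hv', e'⟩ := bcI_refl f hQQ hv
    rw [e, e', eq_reflO_of_coe Q hv _ (reflG_coe Q v hv), eq_reflO_of_coe Q' hv' _ (reflG_coe Q' _ hv'), dick_reflO, dick_reflO]
  | one => rw [map_one, map_one, map_one, map_one, map_one]
  | mul x y _ _ hx hy => rw [map_mul, map_mul, map_mul, map_mul, map_mul, hx, hy]
  | inv x _ hx => rw [map_inv, map_inv, map_inv, map_inv, map_inv, hx]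

theorem eps_bcS (hne : ∃ v, Q v ≠ 0) (hne' : ∃ v, Q' v ≠ 0) (M : ℕ) (g : Sim Q) :
    eps hne' M (bcS f hQQ g) = Units.map (f : F →* K) (eps hne M g) := by
  rw [eps_apply, eps_apply, mu_bcS f hQQ hne hne', map_mul, map_inv, map_pow]
  congr 1
  apply Units.ext
  change (g.1.1.map f).det = f (g.1.1.det)
  exact (RingHom.map_det f g.1.1).symm

end bc

end CfsgLib.AutPO
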