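import Cfsg.Agent.Lib.AutPO22

/-!
# Automorphisms of `PΩ(Q)`, part 23: the class preserving similarities
-/

set_option autoImplicit false
set_option linter.unusedSimpArgs false
set_option linter.unusedSectionVars false

namespace CfsgLib.AutPO

open Module Matrix Cfsg CfsgLib.Quad CfsgLib.SemiAut
open CfsgLib.AutPSp (scal scal_coe scal_isScal scal_mulVec exists_scal_of)
open CfsgLib.QuadMat (reflG reflG_coe)

local notation "β[" Q "]" => QuadraticMap.polarBilin Q

section gen

variable {F : Type*} [Field F] [Finite F] {ι : Type} [Fintype ι] [DecidableEq ι] {Q : QuadraticForm F (ι → F)}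
variable (hQ : (β[Q]).Nondegenerate) {M : ℕ} (hM : Fintype.card ι = 2 * M) {U0 : Submodule F (ι → F)}
  (hU0 : finrank F U0 = M) (hs : ∀ w ∈ U0, Q w = 0)

theorem two_elt (h2 : (2 : F) ≠ 0) : (∃ c : F, c ≠ 0 ∧ c ≠ 1) := by
  refine ⟨-1, neg_ne_zero.mpr one_ne_zero, fun h => h2 ?_⟩
  linear_combination -h

theorem cl_eps_iso (h2 : (2 : F) ≠ 0) (hne : ∃ v, Q v ≠ 0) (h : isometryGroup F ⇑Q) :
    cl hQ hM hU0 hs (toSim Q h) = 1 ↔ eps hne M (toSim Q h) = 1 := by
  rw [cl_toSim hQ hM hU0 hs (Or.inl (two_elt h2)), eps_toSim_iff hQ h2]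
  rfl

theorem cl_eps_of (h2 : (2 : F) ≠ 0) (hne : ∃ v, Q v ≠ 0) (g δ : Sim Q) (h1 : mu hne δ = mu hne g)
    (h3 : cl hQ hM hU0 hs δ = 1) (h4 : eps hne M δ = 1) : cl hQ hM hU0 hs g = 1 ↔ eps hne M g = 1 := by
  have h5 : mu hne (δ⁻¹ * g) = 1 := by rw [map_mul, map_inv, h1, inv_mul_cancel]
  obtain ⟨k, h6⟩ : ∃ k, g = δ * toSim Q k := ⟨⟨_, (mu_eq_one_iff hne _).1 h5⟩, by
    apply Subtype.ext
    change g.1 = δ.1 * (δ.1⁻¹ * g.1)
    rw [mul_inv_cancel_left]⟩
  rw [h6, map_mul, map_mul, h3, h4, one_mul, one_mul]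
  exact cl_eps_iso hQ hM hU0 hs h2 hne _

theorem cl_eps_of_sq (h2 : (2 : F) ≠ 0) (hne : ∃ v, Q v ≠ 0) (g : Sim Q) (a : Fˣ) (h : mu hne g = a ^ 2) :
    cl hQ hM hU0 hs g = 1 ↔ eps hne M g = 1 :=
  cl_eps_of hQ hM hU0 hs h2 hne g ⟨scal a, scal_mem a⟩ (by rw [mu_scal, h]) (cl_scal _ _ _ _ _) (eps_scal hne hM _)

/-- characteristic two -/
theorem cl_two (h2 : (2 : F) = 0) (hne : ∃ v, Q v ≠ 0) (h4 : (∃ c : F, c ≠ 0 ∧ c ≠ 1) ∨ Fintype.card ι ≠ 4) (g : Sim Q) :
    cl hQ hM hU0 hs g = 1 ↔ ∃ (c : Fˣ) (s : Omega F ⇑Q), g.1 = scal c * embO Q s := by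
  obtain ⟨a, ha⟩ := isSquare_of_two_eq_zero h2 (mu hne g : F)
  have ha0 : a ≠ 0 := by
    rintro rfl
    rw [mul_zero] at ha
    exact (mu hne g).ne_zero ha
  obtain ⟨k, hk⟩ := exists_iso_of_sq hne g (Units.mk0 a ha0) (Units.ext (by
    rw [ha, Units.val_pow_eq_pow_val, Units.val_mk0, sq]))
  have hcl : ∀ (c : Fˣ) (k : isometryGroup F ⇑Q), cl hQ hM hU0 hs (⟨scal c, scal_mem c⟩ * toSim Q k) = 1 ↔ k ∈ Omega F ⇑Q := by
    intro c k
    rw [map_mul, cl_scal, one_mul, cl_toSim hQ hM hU0 hs h4, Omega, ← mem_commutator_congr (isometryGroupEquiv Q),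
      commutator_eq_ker_dick h2 hQ (by rw [Module.finrank_fintype_fun_eq_card]; exact h4), MonoidHom.mem_ker]
  constructor
  · intro h
    rw [hk, hcl] at h
    exact ⟨_, ⟨k, h⟩, by rw [hk]; rfl⟩
  · rintro ⟨c, s, hcs⟩
    have : g = ⟨scal c, scal_mem c⟩ * toSim Q s.1 := Subtype.ext hcs
    rw [this, hcl]
    exact s.2

end gen

/-! ### plus type -/

section plus

variable {F : Type*} [Field F] (m : ℕ)

/-- the standard maximal subspace -/
def UP (m : ℕ) (F : Type*) [Field F] : Submodule F (Fin m ⊕ Fin m → F) := suppS F (fun i => ∃ j, i = Sum.inl j)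

theorem finrank_UP : finrank F (UP m F) = m := by
  rw [UP, finrank_suppS]
  have e : {i : Fin m ⊕ Fin m // ∃ j, i = Sum.inl j} ≃ Fin m :=
    { toFun := fun i => i.2.choose
      invFun := fun j => ⟨Sum.inl j, j, rfl⟩
      left_inv := fun i => Subtype.ext i.2.choose_spec.symm
      right_inv := fun j => by
        have := (⟨j, rfl⟩ : ∃ k, (Sum.inl j : Fin m ⊕ Fin m) = Sum.inl k).choose_spec
        exact (Sum.inl_injective this).symm }
  rw [Nat.card_congr e, Nat.card_fin]

theorem UP_sing : ∀ w ∈ UP m F, QP m F w = 0 := by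
  intro w hw
  rw [QP_coe, quadFormPlus]
  apply Finset.sum_eq_zero
  intro i _
  rw [mem_suppS.1 hw (Sum.inr i) (by rintro ⟨j, hj⟩; cases hj), mul_zero]

theorem img_DP (c : Fˣ) : img (DPg m c) (UP m F) = UP m F := by
  apply Submodule.eq_of_le_of_finrank_eq
  · intro x hx
    obtain ⟨y, hy, rfl⟩ := mem_img.1 hx
    rw [UP, mem_suppS] at hy ⊢
    intro i hi
    rw [DPg_coe, mulVec_diagonal, hy i hi, mul_zero]
  · exact finrank_img _ _

variable [Finite F]

theorem psc_plus_odd (h2 : (2 : F) ≠ 0) (hne : ∃ v, QP m F v ≠ 0) (g : Sim (QP m F)) :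
    PreservesSingularClasses ⇑(QP m F) g.1.1 ↔ eps hne m g = 1 := by
  rw [preserves_iff (QP_nondegenerate m) (card_ι_P m) (finrank_UP m) (UP_sing m)]
  exact cl_eps_of _ _ _ _ h2 hne g ⟨DPg m (mu hne g), DPg_mem m _⟩ (mu_DP m hne _) (cl_of_fix _ _ _ _ (img_DP m _)) (eps_DP m hne _)

theorem psc_plus_two (h2 : (2 : F) = 0) (hm : 3 ≤ m) (hne : ∃ v, QP m F v ≠ 0) (g : Sim (QP m F)) :
    PreservesSingularClasses ⇑(QP m F) g.1.1 ↔ ∃ (c : Fˣ) (s : Omega F ⇑(QP m F)), g.1 = scal c * embO (QP m F) s := by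
  rw [preserves_iff (QP_nondegenerate m) (card_ι_P m) (finrank_UP m) (UP_sing m)]
  exact cl_two _ _ _ _ h2 hne (Or.inr (by rw [card_ι_P]; omega)) g

end plus

/-! ### minus type -/

section minus

theorem QM_nd {K : Type*} [Field K] (m : ℕ) {a b : K} (hd : a ^ 2 - 4 * b ≠ 0) : (β[QM m a b]).Nondegenerate := by
  have h0 : (QuadraticMap.polarBilin (binQ a b)).Nondegenerate := by
    apply nondegenerate_of_left
    intro z hz
    have h1 := hz ⟨1, 0⟩
    have h2 := hz ⟨0, 1⟩
    rw [binQ_polar] at h1 h2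
    simp only [mul_one, mul_zero, add_zero, zero_add] at h1 h2
    have h3 : (a ^ 2 - 4 * b) * z.im = 0 := by linear_combination a * h1 - 2 * h2
    have h4 : (a ^ 2 - 4 * b) * z.re = 0 := by linear_combination a * h2 - 2 * b * h1
    exact QuadraticAlgebra.ext ((mul_eq_zero.mp h4).resolve_left hd)
      ((mul_eq_zero.mp h3).resolve_left hd)
  exact nondegenerate_congr (eMinus m a b).symm (Q := hypSum m (binQ a b)) (fun u => by
    change hypSum m (binQ a b) ((eMinus m a b) ((eMinus m a b).symm u)) = _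
    rw [LinearEquiv.apply_symm_apply]) (hypSum_nondegenerate m h0)

variable {K : Type*} [Field K] (m : ℕ) (a b r : K)

/-- the maximal subspace of the split minus form -/
def LM : ((Fin m → K) × K) →ₗ[K] ((Fin m ⊕ Fin m) ⊕ Fin 2 → K) where
  toFun x := Sum.elim (Sum.elim x.1 0) ![r * x.2, x.2]
  map_add' x y := by
    funext i
    rcases i with (i | i) | i
    · rfl
    · simp
    · fin_cases i
      · simp [mul_add]
      · simp
  map_smul' c x := by
    funext i
    rcases i with (i | i) | i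
    · rfl
    · simp
    · fin_cases i
      · simp
        ring
      · simp

theorem finrank_UM : finrank K (LinearMap.range (LM m r)) = m + 1 := by
  rw [LinearMap.finrank_range_of_inj]
  · rw [Module.finrank_prod, Module.finrank_fintype_fun_eq_card, Fintype.card_fin, Module.finrank_self]
  · intro x y hxy
    refine Prod.ext ?_ ?_
    · funext i
      exact congrFun hxy (Sum.inl (Sum.inl i))
    · exact congrFun hxy (Sum.inr 1)

variable {r}

theorem UM_sing (hr : r ^ 2 + a * r + b = 0) : ∀ w ∈ LinearMap.range (LM m r), QM m a b w = 0 := by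
  rintro _ ⟨x, rfl⟩
  rw [QM_coe, quadFormMinus]
  simp only [LM, LinearMap.coe_mk, AddHom.coe_mk, Sum.elim_inl, Sum.elim_inr, Matrix.cons_val_zero, Matrix.cons_val_one,
    Pi.zero_apply, mul_zero, Finset.sum_const_zero, zero_add]
  linear_combination x.2 ^ 2 * hr

end minus

section ext

universe u

variable {F : Type u} [Field F] [Finite F] (m : ℕ) {a b : F} (hab : Aniso a b)
include hab

/-- roots in a quadratic extension -/
theorem exists_root {K : Type u} [Field K] [Algebra F K] (hK : finrank F K = 2) :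
    ∃ r : K, r ^ 2 + algebraMap F K a * r + algebraMap F K b = 0 := by
  have := hab.fact
  obtain ⟨p, hp⟩ := CharP.exists F
  have : Fact p.Prime := ⟨CharP.char_is_prime F p⟩
  have hfin : FiniteDimensional F K := FiniteDimensional.of_finrank_pos (by omega)
  have : Finite K := Module.finite_of_finite F
  have e1 := FiniteField.algEquivExtension F p 2 (QK a b) (QuadraticAlgebra.finrank_eq_two _ _)
  have e2 := FiniteField.algEquivExtension F p 2 K hK
  let e : QK a b ≃ₐ[F] K := e1.trans e2.symm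
  let ω : QK a b := ⟨0, 1⟩
  have hω : ω * ω = algebraMap F (QK a b) (-b) + algebraMap F (QK a b) a * ω := by
    apply QuadraticAlgebra.ext
    · simp [ω, QuadraticAlgebra.re_mul]
    · simp [ω, QuadraticAlgebra.im_mul]
  have h1 := congrArg e hω
  rw [map_mul, _root_.map_add, map_mul, AlgEquiv.commutes, AlgEquiv.commutes, _root_.map_neg] at h1
  refine ⟨- e ω, ?_⟩
  linear_combination h1

omit [Finite F] hab in
theorem isSquare_ext [Finite F] (h2 : (2 : F) ≠ 0) {K : Type u} [Field K] [Algebra F K] (hK : finrank F K = 2) {x : F} (hx : x ≠ 0) :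
    IsSquare (algebraMap F K x) := by
  have hfin : FiniteDimensional F K := FiniteDimensional.of_finrank_pos (by omega)
  have : Finite K := Module.finite_of_finite F
  have := Fintype.ofFinite F
  have := Fintype.ofFinite K
  have h2' : ringChar K ≠ 2 := by
    intro h
    have : CharP K 2 := ringChar.of_eq h
    have h3 : (2 : K) = 0 := CharTwo.two_eq_zero
    apply h2
    apply (algebraMap F K).injective
    rw [map_zero, map_ofNat]
    exact h3
  rw [FiniteField.isSquare_iff h2' (by simpa using hx), ← map_pow]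
  have hc : Fintype.card K = Fintype.card F ^ 2 := by
    rw [Module.card_eq_pow_finrank (K := F) (V := K), hK]
  have hodd : Fintype.card F % 2 = 1 := by
    rw [← Nat.card_eq_fintype_card]
    exact card_odd_of_two_ne_zero h2
  have h3 : Fintype.card K / 2 = (Fintype.card F - 1) * ((Fintype.card F + 1) / 2) := by
    rw [hc]
    obtain ⟨k, hk⟩ : ∃ k, Fintype.card F = 2 * k + 1 := ⟨Fintype.card F / 2, by omega⟩
    rw [hk, show (2 * k + 1 + 1) / 2 = k + 1 by omega, Nat.add_sub_cancel]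
    have : (2 * k + 1) ^ 2 = 2 * (2 * k * (k + 1)) + 1 := by ring
    omega
  rw [h3, pow_mul, FiniteField.pow_card_sub_one_eq_one x hx, one_pow, map_one]

omit [Finite F] hab in
theorem QM_bc {K : Type u} [Field K] [Algebra F K] (v : (Fin m ⊕ Fin m) ⊕ Fin 2 → F) :
    QM m (algebraMap F K a) (algebraMap F K b) (fun i => algebraMap F K (v i)) = algebraMap F K (QM m a b v) := by
  rw [QM_coe, QM_coe, quadFormMinus, quadFormMinus]
  simp only [_root_.map_add, map_sum, map_mul, map_pow]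

theorem psc_minus_aux {K : Type u} [Field K] [Algebra F K] (hK : finrank F K = 2) :
    ∃ (hQ' : (β[QM m (algebraMap F K a) (algebraMap F K b)]).Nondegenerate) (U0 : Submodule K ((Fin m ⊕ Fin m) ⊕ Fin 2 → K))
      (hU0 : finrank K U0 = m + 1) (hs : ∀ w ∈ U0, QM m (algebraMap F K a) (algebraMap F K b) w = 0),
      ∀ g : Sim (QM m a b), PreservesSingularClasses (quadFormMinus m K (algebraMap F K a) (algebraMap F K b))
        (g.1.1.map (algebraMap F K)) ↔ cl hQ' (card_ι_M m) hU0 hs (bcS (algebraMap F K) (QM_bc m) g) = 1 := by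
  obtain ⟨r, hr⟩ := exists_root hab hK
  have hd : (algebraMap F K a) ^ 2 - 4 * (algebraMap F K b) ≠ 0 := by
    have h1 := hab.disc_ne_zero
    intro h
    apply h1
    apply (algebraMap F K).injective
    rw [_root_.map_sub, map_pow, map_mul, map_zero, map_ofNat]
    exact h
  refine ⟨QM_nd m hd, _, finrank_UM m r, UM_sing m _ _ hr, fun g => ?_⟩
  rw [← preserves_iff, QM_coe]
  rfl

theorem psc_minus_K_odd (h2 : (2 : F) ≠ 0) (hne : ∃ v, QM m a b v ≠ 0) {K : Type u} [Field K] [Algebra F K] (hK : finrank F K = 2)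
    (g : Sim (QM m a b)) : PreservesSingularClasses (quadFormMinus m K (algebraMap F K a) (algebraMap F K b))
        (g.1.1.map (algebraMap F K)) ↔ eps hne (m + 1) g = 1 := by
  obtain ⟨hQ', U0, hU0, hs, H⟩ := psc_minus_aux m hab hK
  have hfin : FiniteDimensional F K := FiniteDimensional.of_finrank_pos (by omega)
  have : Finite K := Module.finite_of_finite F
  rw [H]
  have h2' : (2 : K) ≠ 0 := by
    intro h
    apply h2
    apply (algebraMap F K).injective
    rw [map_zero, map_ofNat]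
    exact h
  have hne' : ∃ v, QM m (algebraMap F K a) (algebraMap F K b) v ≠ 0 := by
    obtain ⟨v, hv⟩ := hne
    exact ⟨_, by rw [QM_bc m]; exact (map_ne_zero _).2 hv⟩
  have hsq : IsSquare (algebraMap F K (mu hne g)) := isSquare_ext h2 hK (mu hne g).ne_zero
  obtain ⟨c, hc⟩ := hsq
  have hc0 : c ≠ 0 := by
    rintro rfl
    rw [mul_zero] at hc
    exact (mu hne g).ne_zero ((algebraMap F K).injective (by rw [hc, map_zero]))
  rw [cl_eps_of_sq _ _ _ _ h2' hne' (bcS (algebraMap F K) (QM_bc m) g) (Units.mk0 c hc0) (by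
    rw [mu_bcS (algebraMap F K) (QM_bc m) hne hne']
    apply Units.ext
    rw [Units.val_pow_eq_pow_val, Units.val_mk0, sq, ← hc]
    rfl), eps_bcS (algebraMap F K) (QM_bc m) hne hne']
  constructor
  · intro h
    apply Units.ext
    apply (algebraMap F K).injective
    rw [Units.val_one, map_one]
    exact congrArg Units.val h
  · intro h
    apply Units.ext
    change algebraMap F K (eps hne (m + 1) g : F) = 1
    rw [h, Units.val_one, map_one]

theorem psc_minus_K_two (h2 : (2 : F) = 0) (hm : 3 ≤ m) (hne : ∃ v, QM m a b v ≠ 0) {K : Type u} [Field K] [Algebra F K]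
    (hK : finrank F K = 2) (g : Sim (QM m a b)) :
    PreservesSingularClasses (quadFormMinus m K (algebraMap F K a) (algebraMap F K b)) (g.1.1.map (algebraMap F K)) ↔
      ∃ (c : Fˣ) (s : Omega F ⇑(QM m a b)), g.1 = scal c * embO (QM m a b) s := by
  obtain ⟨hQ', U0, hU0, hs, H⟩ := psc_minus_aux m hab hK
  have hfin : FiniteDimensional F K := FiniteDimensional.of_finrank_pos (by omega)
  have : Finite K := Module.finite_of_finite F
  have hQ := QM_nondegenerate m hab
  have h4 : ∀ E : Type u, ∀ [Field E], (∃ c : E, c ≠ 0 ∧ c ≠ 1) ∨ Fintype.card ((Fin m ⊕ Fin m) ⊕ Fin 2) ≠ 4 := by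
    intro E _
    right
    rw [card_ι_M]
    omega
  rw [H]
  have key : ∀ (c : Fˣ) (k : isometryGroup F ⇑(QM m a b)), cl hQ' (card_ι_M m) hU0 hs
      (bcS (algebraMap F K) (QM_bc m) (⟨scal c, scal_mem c⟩ * toSim _ k)) = 1 ↔ k ∈ Omega F ⇑(QM m a b) := by
    intro c k
    rw [map_mul, map_mul, bcS_scal, cl_scal, one_mul, bcS_toSim, cl_toSim hQ' _ hU0 hs (h4 K),
      dick_bcI (algebraMap F K) (QM_bc m) hQ hQ' (h4 F), Omega, ← mem_commutator_congr (isometryGroupEquiv (QM m a b)),
      commutator_eq_ker_dick h2 hQ (by rw [Module.finrank_fintype_fun_eq_card]; exact h4 F), MonoidHom.mem_ker]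
  obtain ⟨t, ht⟩ := isSquare_of_two_eq_zero h2 (mu hne g : F)
  have ht0 : t ≠ 0 := by
    rintro rfl
    rw [mul_zero] at ht
    exact (mu hne g).ne_zero ht
  obtain ⟨k, hk⟩ := exists_iso_of_sq hne g (Units.mk0 t ht0) (Units.ext (by
    rw [ht, Units.val_pow_eq_pow_val, Units.val_mk0, sq]))
  constructor
  · intro h
    rw [hk, key] at h
    exact ⟨_, ⟨k, h⟩, by rw [hk]; rfl⟩
  · rintro ⟨c, s, hcs⟩
    have : g = ⟨scal c, scal_mem c⟩ * toSim _ s.1 := Subtype.ext hcs
    rw [this, key]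
    exact s.2

/-- the definition of class preservation for the minus form -/
theorem psc_minus_iff (P : Prop) (g : Matrix ((Fin m ⊕ Fin m) ⊕ Fin 2) ((Fin m ⊕ Fin m) ⊕ Fin 2) F)
    (H : ∀ (K : Type u) [Field K] [Algebra F K], finrank F K = 2 →
      (PreservesSingularClasses (quadFormMinus m K (algebraMap F K a) (algebraMap F K b)) (g.map (algebraMap F K)) ↔ P)) :
    PreservesSingularClassesMinus m a b g ↔ P := by
  have := hab.fact
  constructor
  · rintro ⟨K, _, _, hK, h⟩
    exact (H K hK).1 h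
  · intro h
    exact ⟨QK a b, inferInstance, inferInstance, QuadraticAlgebra.finrank_eq_two _ _, (H (QK a b) (QuadraticAlgebra.finrank_eq_two _ _)).2 h⟩

theorem psc_minus_odd (h2 : (2 : F) ≠ 0) (hne : ∃ v, QM m a b v ≠ 0) (g : Sim (QM m a b)) :
    PreservesSingularClassesMinus m a b g.1.1 ↔ eps hne (m + 1) g = 1 :=
  psc_minus_iff m hab _ _ (fun _ _ _ hK => psc_minus_K_odd m hab h2 hne hK g)

theorem psc_minus_two (h2 : (2 : F) = 0) (hm : 3 ≤ m) (hne : ∃ v, QM m a b v ≠ 0) (g : Sim (QM m a b)) :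
    PreservesSingularClassesMinus m a b g.1.1 ↔ ∃ (c : Fˣ) (s : Omega F ⇑(QM m a b)), g.1 = scal c * embO (QM m a b) s :=
  psc_minus_iff m hab _ _ (fun _ _ _ hK => psc_minus_K_two m hab h2 hm hne hK g)

end ext

end CfsgLib.AutPO
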