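import Cfsg.Agent.Lib.AutPO17

/-!
# Automorphisms of `PΩ(Q)`, part 24: squares of the standard similarities
-/

set_option autoImplicit false
set_option linter.unusedSimpArgs false
set_option linter.unusedSectionVars false

namespace CfsgLib.AutPO

open Module Matrix Cfsg CfsgLib.Quad CfsgLib.SemiAut
open CfsgLib.AutPSp (scal scal_coe scal_isScal scal_mulVec exists_scal_of)
open CfsgLib.QuadMat (reflG reflG_coe)

local notation "β[" Q "]" => QuadraticMap.polarBilin Q

variable {F : Type*} [Field F]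

section torus

variable [Finite F] {ι : Type} [Fintype ι] [DecidableEq ι] {Q : QuadraticForm F (ι → F)} (hQ : (β[Q]).Nondegenerate)

theorem ns_mul_neg {c : F} (hc : ¬ IsSquare c) : (IsSquare (-1 : F) ∧ ¬ IsSquare (-c)) ∨ (¬ IsSquare (-1 : F) ∧ IsSquare (-c)) := by
  by_cases h1 : IsSquare (-1 : F)
  · left
    refine ⟨h1, fun h2 => hc ?_⟩
    have := h1.mul h2
    rwa [neg_one_mul, neg_neg] at this
  · right
    refine ⟨h1, ?_⟩
    have := isSquare_mul_of_not h1 hc
    rwa [neg_one_mul] at this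

theorem pol_symm (u v : ι → F) : β[Q] u v = β[Q] v u := by
  rw [QuadraticMap.polarBilin_apply_apply, QuadraticMap.polarBilin_apply_apply, QuadraticMap.polar_comm]

/-- one hyperbolic plane -/
theorem exists_torus_one (h2 : (2 : F) ≠ 0) {e f : ι → F} (he : Q e = 0) (hf : Q f = 0) (hef : β[Q] e f = 1) {c : Fˣ}
    (hc : ¬ IsSquare (c : F)) : ∃ P : isometryGroup F ⇑Q, P.1.1 *ᵥ e = (c : F) • e ∧ P.1.1 *ᵥ f = (c : F)⁻¹ • f ∧
      (∀ x, β[Q] e x = 0 → β[Q] f x = 0 → P.1.1 *ᵥ x = x) ∧ chi hQ P = (1, -1) := by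
  classical
  have hc0 := c.ne_zero
  have hu : Q (e - f) = -1 := by
    rw [sub_eq_add_neg, Quad.map_add, QuadraticMap.map_neg, he, hf, LinearMap.map_neg, hef]
    ring
  have hw : Q (e - (c : F) • f) = -c := by
    rw [sub_eq_add_neg, ← neg_smul, Quad.map_add, Quad.map_smul, he, hf, LinearMap.map_smul, hef]
    simp
  have hu0 : Q (e - f) ≠ 0 := by rw [hu]; exact neg_ne_zero.2 one_ne_zero
  have hw0 : Q (e - (c : F) • f) ≠ 0 := by rw [hw]; exact neg_ne_zero.2 hc0
  have hfe : β[Q] f e = 1 := by rw [pol_symm, hef]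
  have hee : β[Q] e e = 0 := by rw [CfsgLib.Quad.polar_self, he, mul_zero]
  have hff : β[Q] f f = 0 := by rw [CfsgLib.Quad.polar_self, hf, mul_zero]
  have h1 : ∀ x, (reflG Q (e - f) hu0).1.1 *ᵥ x = x + (β[Q] e x - β[Q] f x) • (e - f) := by
    intro x
    rw [reflG_mulVec, hu, LinearMap.map_sub, LinearMap.sub_apply, inv_neg, inv_one, neg_one_mul, neg_smul, sub_neg_eq_add]
  have h3 : ∀ x, (reflG Q (e - (c : F) • f) hw0).1.1 *ᵥ x = x + ((c : F)⁻¹ * (β[Q] e x - c * β[Q] f x)) • (e - (c : F) • f) := by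
    intro x
    rw [reflG_mulVec, hw, LinearMap.map_sub, LinearMap.sub_apply, LinearMap.map_smul, LinearMap.smul_apply, inv_neg, neg_mul,
      neg_smul, sub_neg_eq_add, smul_eq_mul]
  refine ⟨reflG Q (e - f) hu0 * reflG Q (e - (c : F) • f) hw0, ?_, ?_, ?_, ?_⟩
  · change (_ * _) *ᵥ e = _
    rw [← mulVec_mulVec, h3, h1, hee, hfe, mul_one, zero_sub]
    have e1 : (c : F)⁻¹ * (-(c : F)) = -1 := by field_simp
    rw [e1, neg_one_smul, neg_sub, add_sub_cancel, LinearMap.map_smul, LinearMap.map_smul, hef, hff]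
    simp only [smul_eq_mul, mul_one, mul_zero, sub_zero]
    module
  · change (_ * _) *ᵥ f = _
    rw [← mulVec_mulVec, h3, h1, hef, hff, mul_zero, sub_zero, mul_one]
    have e1 : f + (c : F)⁻¹ • (e - (c : F) • f) = (c : F)⁻¹ • e := by
      rw [smul_sub, smul_smul, inv_mul_cancel₀ hc0, one_smul]
      abel
    rw [e1, LinearMap.map_smul, LinearMap.map_smul, hee, hfe]
    simp only [smul_eq_mul, mul_one, mul_zero, zero_sub]
    module
  · intro x hx hx'
    change (_ * _) *ᵥ x = _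
    rw [← mulVec_mulVec, h3, hx, hx', mul_zero, sub_zero, mul_zero, zero_smul, add_zero, h1, hx, hx', sub_zero, zero_smul,
      add_zero]
  · rw [map_mul, chi_refl hQ h2, chi_refl hQ h2, hu, hw]
    rcases ns_mul_neg hc with ⟨h5, h6⟩ | ⟨h5, h6⟩
    · rw [if_pos h5, if_neg h6]
      rfl
    · rw [if_neg h5, if_pos h6]
      rfl

/-- the torus element -/
theorem exists_torus (h2 : (2 : F) ≠ 0) {m : ℕ} {e f : Fin m → ι → F} (he : ∀ i, Q (e i) = 0) (hf : ∀ i, Q (f i) = 0)
    (hef : ∀ i j, β[Q] (e i) (f j) = if i = j then 1 else 0) (hee : ∀ i j, β[Q] (e i) (e j) = 0)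
    (hff : ∀ i j, β[Q] (f i) (f j) = 0) {c : Fˣ} (hc : ¬ IsSquare (c : F)) (S : Finset (Fin m)) :
    ∃ P : isometryGroup F ⇑Q, (∀ i, P.1.1 *ᵥ e i = if i ∈ S then (c : F) • e i else e i) ∧
      (∀ i, P.1.1 *ᵥ f i = if i ∈ S then (c : F)⁻¹ • f i else f i) ∧
      (∀ x, (∀ i, β[Q] (e i) x = 0) → (∀ i, β[Q] (f i) x = 0) → P.1.1 *ᵥ x = x) ∧ chi hQ P = (1, (-1) ^ S.card) := by
  induction S using Finset.induction_on with
  | empty =>
    refine ⟨1, fun i => ?_, fun i => ?_, fun x _ _ => ?_, ?_⟩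
    · rw [if_neg (Finset.notMem_empty i)]
      exact one_mulVec _
    · rw [if_neg (Finset.notMem_empty i)]
      exact one_mulVec _
    · exact one_mulVec _
    · rw [map_one, Finset.card_empty, pow_zero]
      rfl
  | insert j S hj ih =>
    obtain ⟨P, h1, h3, h4, h5⟩ := ih
    obtain ⟨T, t1, t2, t3, t4⟩ := exists_torus_one hQ h2 (he j) (hf j) (by rw [hef, if_pos rfl]) hc
    have hfe : ∀ i j, β[Q] (f i) (e j) = if i = j then 1 else 0 := by
      intro i j
      rw [pol_symm, hef]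
      by_cases h : i = j
      · rw [if_pos h, if_pos h.symm]
      · rw [if_neg h, if_neg (Ne.symm h)]
    refine ⟨P * T, fun i => ?_, fun i => ?_, fun x hx hx' => ?_, ?_⟩
    · change (P.1.1 * T.1.1) *ᵥ _ = _
      rw [← mulVec_mulVec]
      by_cases hij : i = j
      · subst hij
        rw [t1, mulVec_smul, h1, if_neg hj, if_pos (Finset.mem_insert_self _ _)]
      · rw [t3 (e i) (hee j i) (by rw [hfe, if_neg (Ne.symm hij)]), h1]
        have : (i ∈ insert j S) ↔ i ∈ S := by rw [Finset.mem_insert]; simp [hij]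
        simp only [this]
    · change (P.1.1 * T.1.1) *ᵥ _ = _
      rw [← mulVec_mulVec]
      by_cases hij : i = j
      · subst hij
        rw [t2, mulVec_smul, h3, if_neg hj, if_pos (Finset.mem_insert_self _ _)]
      · rw [t3 (f i) (by rw [hef, if_neg (Ne.symm hij)]) (hff j i), h3]
        have : (i ∈ insert j S) ↔ i ∈ S := by rw [Finset.mem_insert]; simp [hij]
        simp only [this]
    · change (P.1.1 * T.1.1) *ᵥ _ = _
      rw [← mulVec_mulVec, t3 x (hx j) (hx' j), h4 x hx hx']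
    · rw [map_mul, h5, t4, Finset.card_insert_of_notMem hj, pow_succ]
      rfl

/-- from characters to the outer group -/
theorem outO_of_chi_pow (hV : 7 ≤ finrank F (ι → F)) {ν : Fˣ} (hν : ¬ IsSquare (ν : F)) {P : isometryGroup F ⇑Q} {n : ℕ}
    (h : chi hQ P = (1, (-1) ^ n)) : (Even n → outO hQ hV P = 1) ∧ (Odd n → outO hQ hV P = R hQ hV 1 * R hQ hV ν) := by
  constructor
  · intro hn
    rw [hn.neg_one_pow] at h
    exact outO_mem hQ hV ((mem_Omega_iff hQ (ns2 hν) (by omega) _).2 h)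
  · intro hn
    rw [hn.neg_one_pow] at h
    rw [R, R, ← map_mul]
    exact outO_eq_of_chi hQ hV (ns2 hν) (by rw [h, chi_RR hQ hV hν])

end torus

/-! ### plus type -/

section plus

variable (m : ℕ)

theorem pol_QP (u v : Fin m ⊕ Fin m → F) : β[QP m F] u v = ∑ i, (u (Sum.inl i) * v (Sum.inr i) + u (Sum.inr i) * v (Sum.inl i)) := by
  rw [QuadraticMap.polarBilin_apply_apply, QuadraticMap.polar, QP_coe, quadFormPlus, quadFormPlus, quadFormPlus,
    ← Finset.sum_sub_distrib, ← Finset.sum_sub_distrib]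
  apply Finset.sum_congr rfl
  intro i _
  rw [Pi.add_apply, Pi.add_apply]
  ring

variable [Finite F]

theorem exists_sq_plus (h2 : (2 : F) ≠ 0) {ν : Fˣ} (hν : ¬ IsSquare (ν : F)) :
    ∃ P : isometryGroup F ⇑(QP m F), DPg m ν * DPg m ν = scal ν * P.1 ∧ chi (QP_nondegenerate m) P = (1, (-1) ^ m) := by
  obtain ⟨P, h1, h3, _, h5⟩ := exists_torus (QP_nondegenerate (F := F) m) h2 (m := m) (e := fun i => Pi.single (Sum.inl i) 1)
    (f := fun i => Pi.single (Sum.inr i) 1) (fun i => by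
      rw [QP_coe, quadFormPlus]
      apply Finset.sum_eq_zero
      intro j _
      rw [Pi.single_apply, Pi.single_apply, if_neg (show ¬ (Sum.inr j : Fin m ⊕ Fin m) = Sum.inl i by simp), mul_zero]) (fun i => by
      rw [QP_coe, quadFormPlus]
      apply Finset.sum_eq_zero
      intro j _
      rw [Pi.single_apply, Pi.single_apply, if_neg (show ¬ (Sum.inl j : Fin m ⊕ Fin m) = Sum.inr i by simp), zero_mul])
    (fun i j => by
      rw [pol_QP]
      simp [Pi.single_apply, eq_comm]) (fun i j => by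
      rw [pol_QP]
      simp [Pi.single_apply]) (fun i j => by
      rw [pol_QP]
      simp [Pi.single_apply]) hν Finset.univ
  refine ⟨P, ?_, by rw [h5, Finset.card_univ, Fintype.card_fin]⟩
  apply Units.ext
  apply Matrix.ext_of_mulVec_single
  intro i
  change (_ * _) *ᵥ _ = (_ * _) *ᵥ _
  rw [← mulVec_mulVec, ← mulVec_mulVec, scal_mulVec, DPg_coe]
  rcases i with i | i
  · rw [h1 i, if_pos (Finset.mem_univ i)]
    funext j
    rw [mulVec_diagonal, mulVec_diagonal, Pi.smul_apply, Pi.smul_apply, smul_eq_mul, smul_eq_mul, Pi.single_apply]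
    split_ifs with h
    · rw [h, Sum.elim_inl]
    · simp
  · rw [h3 i, if_pos (Finset.mem_univ i)]
    funext j
    rw [mulVec_diagonal, mulVec_diagonal, Pi.smul_apply, Pi.smul_apply, smul_eq_mul, smul_eq_mul, Pi.single_apply]
    split_ifs with h
    · rw [h, Sum.elim_inr, one_mul, one_mul, mul_inv_cancel_left₀ ν.ne_zero]
    · simp

theorem outS_sq_plus (hV : 7 ≤ finrank F (Fin m ⊕ Fin m → F)) {ν : Fˣ} (hν : ¬ IsSquare (ν : F)) :
    (Even m → outS (QP_nondegenerate m) hV ⟨DPg m ν, DPg_mem m ν⟩ * outS (QP_nondegenerate m) hV ⟨DPg m ν, DPg_mem m ν⟩ = 1) ∧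
    (Odd m → outS (QP_nondegenerate m) hV ⟨DPg m ν, DPg_mem m ν⟩ * outS (QP_nondegenerate m) hV ⟨DPg m ν, DPg_mem m ν⟩ =
      R (QP_nondegenerate m) hV 1 * R (QP_nondegenerate m) hV ν) := by
  obtain ⟨P, h1, h3⟩ := exists_sq_plus m (ns2 hν) hν
  have h4 : (⟨DPg m ν, DPg_mem m ν⟩ : Sim (QP m F)) * ⟨DPg m ν, DPg_mem m ν⟩ = ⟨scal ν, scal_mem ν⟩ * toSim _ P := Subtype.ext h1
  rw [← map_mul, h4, map_mul, outS_scal, one_mul, outS_toSim]
  exact outO_of_chi_pow _ hV hν h3

end plus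

/-! ### minus type -/

section minus

variable (m : ℕ) (a b : F)

theorem pol_QM (u v : (Fin m ⊕ Fin m) ⊕ Fin 2 → F) : β[QM m a b] u v =
    ∑ i, (u (Sum.inl (Sum.inl i)) * v (Sum.inl (Sum.inr i)) + u (Sum.inl (Sum.inr i)) * v (Sum.inl (Sum.inl i))) +
    (2 * u (Sum.inr 0) * v (Sum.inr 0) + a * (u (Sum.inr 0) * v (Sum.inr 1) + u (Sum.inr 1) * v (Sum.inr 0)) +
      2 * b * u (Sum.inr 1) * v (Sum.inr 1)) := by
  rw [QuadraticMap.polarBilin_apply_apply, QuadraticMap.polar, QM_coe, quadFormMinus, quadFormMinus, quadFormMinus]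
  have h1 : ∑ i, (u (Sum.inl (Sum.inl i)) * v (Sum.inl (Sum.inr i)) + u (Sum.inl (Sum.inr i)) * v (Sum.inl (Sum.inl i))) =
      (∑ i, (u + v) (Sum.inl (Sum.inl i)) * (u + v) (Sum.inl (Sum.inr i))) - (∑ i, u (Sum.inl (Sum.inl i)) * u (Sum.inl (Sum.inr i)))
        - (∑ i, v (Sum.inl (Sum.inl i)) * v (Sum.inl (Sum.inr i))) := by
    rw [← Finset.sum_sub_distrib, ← Finset.sum_sub_distrib]
    apply Finset.sum_congr rfl
    intro i _
    rw [Pi.add_apply, Pi.add_apply]
    ring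
  rw [h1, Pi.add_apply, Pi.add_apply]
  ring

/-- vectors in the binary part -/
def bv (x y : F) : (Fin m ⊕ Fin m) ⊕ Fin 2 → F := Sum.elim (fun _ => 0) ![x, y]

theorem QM_bv (x y : F) : QM m a b (bv m x y) = x ^ 2 + a * x * y + b * y ^ 2 := by
  rw [QM_coe, quadFormMinus, bv]
  simp only [Sum.elim_inl, Sum.elim_inr, Matrix.cons_val_zero, Matrix.cons_val_one, mul_zero, Finset.sum_const_zero]
  ring

theorem pol_bv (x y : F) (v : (Fin m ⊕ Fin m) ⊕ Fin 2 → F) : β[QM m a b] (bv m x y) v =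
    2 * x * v (Sum.inr 0) + a * (x * v (Sum.inr 1) + y * v (Sum.inr 0)) + 2 * b * y * v (Sum.inr 1) := by
  rw [pol_QM, bv]
  simp only [Sum.elim_inl, Sum.elim_inr, Matrix.cons_val_zero, Matrix.cons_val_one, zero_mul, add_zero, Finset.sum_const_zero, zero_add]

variable [Finite F] {a b}

theorem exists_sq_minus (h2 : (2 : F) ≠ 0) (hab : Aniso a b) {ν : Fˣ} (hν : ¬ IsSquare (ν : F)) (x y : F)
    (hxy : x ^ 2 + a * x * y + b * y ^ 2 = ν) :
    ∃ P : isometryGroup F ⇑(QM m a b), DMg m a b ν x y hxy * DMg m a b ν x y hxy = scal ν * P.1 ∧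
      chi (QM_nondegenerate m hab) P = (1, (-1) ^ (m + 1)) := by
  classical
  have hν0 := ν.ne_zero
  have hw1 : QM m a b (bv m 1 0) = 1 := by rw [QM_bv]; ring
  have hw2 : QM m a b (bv m x y) = ν := by rw [QM_bv, hxy]
  have hw10 : QM m a b (bv m 1 0) ≠ 0 := by rw [hw1]; exact one_ne_zero
  have hw20 : QM m a b (bv m x y) ≠ 0 := by rw [hw2]; exact hν0
  obtain ⟨P, h1, h3, h4, h5⟩ := exists_torus (QM_nondegenerate m hab) h2 (m := m) (e := fun i => Pi.single (Sum.inl (Sum.inl i)) 1)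
    (f := fun i => Pi.single (Sum.inl (Sum.inr i)) 1) (fun i => by
      rw [QM_coe, quadFormMinus]
      simp [Pi.single_apply]) (fun i => by
      rw [QM_coe, quadFormMinus]
      simp [Pi.single_apply])
    (fun i j => by
      rw [pol_QM]
      simp [Pi.single_apply, eq_comm]) (fun i j => by
      rw [pol_QM]
      simp [Pi.single_apply]) (fun i j => by
      rw [pol_QM]
      simp [Pi.single_apply]) hν Finset.univ
  refine ⟨P * (reflG _ _ hw20 * reflG _ _ hw10), ?_, ?_⟩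
  · apply Units.ext
    apply Matrix.ext_of_mulVec_single
    intro i
    change (_ * _) *ᵥ _ = (_ * (P.1.1 * ((reflG _ _ hw20).1.1 * (reflG _ _ hw10).1.1))) *ᵥ _
    rw [← mulVec_mulVec, ← mulVec_mulVec, ← mulVec_mulVec, ← mulVec_mulVec, scal_mulVec, DMg_apply, DMg_apply]
    have hr1 : ∀ v, (reflG _ _ hw10).1.1 *ᵥ v = v - β[QM m a b] (bv m 1 0) v • bv m 1 0 := by
      intro v
      rw [reflG_mulVec, hw1, inv_one, one_mul]
    have hr2 : ∀ v, (reflG _ _ hw20).1.1 *ᵥ v = v - ((ν : F)⁻¹ * β[QM m a b] (bv m x y) v) • bv m x y := by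
      intro v
      rw [reflG_mulVec, hw2]
    rcases i with (i | i) | i
    · have e1 : β[QM m a b] (bv m 1 0) (Pi.single (Sum.inl (Sum.inl i)) 1) = 0 := by
        rw [pol_bv]
        simp
      have e2 : β[QM m a b] (bv m x y) (Pi.single (Sum.inl (Sum.inl i)) 1) = 0 := by
        rw [pol_bv]
        simp
      rw [hr1, e1, zero_smul, sub_zero, hr2, e2, mul_zero, zero_smul, sub_zero, h1 i, if_pos (Finset.mem_univ i)]
      funext j
      rcases j with (j | j) | j
      · simp [Pi.single_apply]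
      · simp [Pi.single_apply]
      · fin_cases j <;> simp [Pi.single_apply]
    · have e1 : β[QM m a b] (bv m 1 0) (Pi.single (Sum.inl (Sum.inr i)) 1) = 0 := by
        rw [pol_bv]
        simp
      have e2 : β[QM m a b] (bv m x y) (Pi.single (Sum.inl (Sum.inr i)) 1) = 0 := by
        rw [pol_bv]
        simp
      rw [hr1, e1, zero_smul, sub_zero, hr2, e2, mul_zero, zero_smul, sub_zero, h3 i, if_pos (Finset.mem_univ i)]
      funext j
      rcases j with (j | j) | j
      · simp [Pi.single_apply]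
      · simp [Pi.single_apply]
      · fin_cases j <;> simp [Pi.single_apply]
    · have key : ∀ v : (Fin m ⊕ Fin m) ⊕ Fin 2 → F, (∀ j, v (Sum.inl j) = 0) → P.1.1 *ᵥ v = v := by
        intro v hv
        apply h4
        · intro j
          rw [pol_QM]
          simp [hv, Pi.single_apply]
        · intro j
          rw [pol_QM]
          simp [hv, Pi.single_apply]
      rw [hr1, hr2, key]
      · funext j
        rcases j with (j | j) | j
        · simp [Pi.single_apply, bv]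
        · simp [Pi.single_apply, bv]
        · rw [pol_bv, pol_bv]
          fin_cases i <;> fin_cases j <;> simp [Pi.single_apply, bv] <;> field_simp <;> first | ring1 | (rw [← hxy]; ring1)
      · intro j
        simp [Pi.single_apply, bv]
  · rw [map_mul, map_mul, h5, chi_refl _ h2, chi_refl _ h2, hw1, hw2, if_neg hν, if_pos ⟨1, by simp⟩, Finset.card_univ,
      Fintype.card_fin, pow_succ]
    rfl

theorem outS_sq_minus (hV : 7 ≤ finrank F ((Fin m ⊕ Fin m) ⊕ Fin 2 → F)) (hab : Aniso a b) {ν : Fˣ} (hν : ¬ IsSquare (ν : F))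
    (x y : F) (hxy : x ^ 2 + a * x * y + b * y ^ 2 = ν) (hm : Even m) :
    outS (QM_nondegenerate m hab) hV ⟨DMg m a b ν x y hxy, DMg_mem a b ν x y hxy⟩ *
      outS (QM_nondegenerate m hab) hV ⟨DMg m a b ν x y hxy, DMg_mem a b ν x y hxy⟩ =
      R (QM_nondegenerate m hab) hV 1 * R (QM_nondegenerate m hab) hV ν := by
  obtain ⟨P, h1, h3⟩ := exists_sq_minus m (ns2 hν) hab hν x y hxy
  have h4 : (⟨DMg m a b ν x y hxy, DMg_mem a b ν x y hxy⟩ : Sim (QM m a b)) * ⟨DMg m a b ν x y hxy, DMg_mem a b ν x y hxy⟩ =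
    ⟨scal ν, scal_mem ν⟩ * toSim _ P := Subtype.ext h1
  rw [← map_mul, h4, map_mul, outS_scal, one_mul, outS_toSim]
  exact (outO_of_chi_pow _ hV hν h3).2 hm.add_one

end minus

end CfsgLib.AutPO
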