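import Cfsg.Agent.Lib.AutPO23
import Cfsg.Agent.Lib.AutPO24
import Cfsg.Agent.Lib.AutPO20

/-!
# Automorphisms of `PΩ(Q)`, part 25: the inner-diagonal groups in odd characteristic
-/

set_option autoImplicit false
set_option linter.unusedSimpArgs false
set_option linter.unusedSectionVars false

namespace CfsgLib.AutPO

open Module Matrix Cfsg CfsgLib.Quad CfsgLib.SemiAut
open CfsgLib.AutPSp (scal scal_coe scal_isScal scal_mulVec exists_scal_of)
open CfsgLib.QuadMat (reflG reflG_coe)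

local notation "β[" Q "]" => QuadraticMap.polarBilin Q

section gen

variable {F : Type*} [Field F] {ι : Type} [Fintype ι] [DecidableEq ι] {Q : QuadraticForm F (ι → F)}

/-- similarities with `eps = 1` -/
noncomputable def GE (hne : ∃ v, Q v ≠ 0) (M : ℕ) : Subgroup (GL ι F) := (eps hne M).ker.map (Sim Q).subtype

theorem mem_GE {hne : ∃ v, Q v ≠ 0} {M : ℕ} {g : GL ι F} : g ∈ GE hne M ↔ ∃ h : g ∈ Sim Q, eps hne M ⟨g, h⟩ = 1 := by
  constructor
  · rintro ⟨g, hg, rfl⟩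
    exact ⟨g.2, hg⟩
  · rintro ⟨h, hg⟩
    exact ⟨⟨g, h⟩, hg, rfl⟩

theorem GE_le {hne : ∃ v, Q v ≠ 0} {M : ℕ} : GE hne M ≤ Sim Q := fun _ hg => (mem_GE.1 hg).1

variable [Finite F] (hQ : (β[Q]).Nondegenerate) (hV : 7 ≤ finrank F (ι → F)) (hne : ∃ v, Q v ≠ 0) {M : ℕ}

include hQ hV in
theorem setupE : Setup (embO Q) (GamO Q) (GE hne M) := by
  refine setupO hQ hV _ GE_le ?_ ?_
  · rintro ⟨h, σ⟩ hγ g hg
    obtain ⟨hg1, hg2⟩ := mem_GE.1 hg
    obtain ⟨g', hg', hgg⟩ := conj_Sim _ hγ g hg1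
    refine ⟨g', mem_GE.2 ⟨hg', ?_⟩, hgg⟩
    have h2 := eps_conj hne M (g := h) (σ := σ) hγ (k := ⟨g, hg1⟩) (k' := ⟨g', hg'⟩) hgg
    rw [h2, hg2, map_one]
  · intro s
    refine mem_GE.2 ⟨embO_mem s, ?_⟩
    have h1 := Omega_le_special s.2
    rw [mem_special] at h1
    apply Units.ext
    exact (eps_toSim hne M s.1).trans h1

theorem inndiag_eqE (PSC : GL ι F → Prop) (h : ∀ g : Sim Q, PSC g.1 ↔ eps hne M g = 1) :
    autSubgroupOf (fun β : POmega F ⇑Q ≃* POmega F ⇑Q => ∃ g : GL ι F, g ∈ Sim Q ∧ PSC g ∧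
      IsInducedBySemilinearPOmega (⇑Q) g (RingEquiv.refl F) β) = (setupE hQ hV hne (M := M)).gam.range := by
  rw [← (setupE hQ hV hne (M := M)).inndiag_eq]
  congr 1
  funext β
  apply propext
  constructor
  · rintro ⟨g, hg, hg', hβ⟩
    exact ⟨g, mem_GE.2 ⟨hg, (h ⟨g, hg⟩).1 hg'⟩, hβ⟩
  · rintro ⟨g, hg, hβ⟩
    obtain ⟨hg1, hg2⟩ := mem_GE.1 hg
    exact ⟨g, hg1, (h ⟨g, hg1⟩).2 hg2, hβ⟩

theorem mapE : ((setupE hQ hV hne (M := M)).gam.range).map (QuotientGroup.mk' (Inn (POmega F ⇑Q))) =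
    (eps hne M).ker.map (outS hQ hV) := by
  rw [map_gam' hQ hV GE_le]
  congr 1
  ext g
  rw [Subgroup.mem_subgroupOf, mem_GE]
  exact ⟨fun ⟨_, h⟩ => h, fun h => ⟨g.2, h⟩⟩

variable (hM : Fintype.card ι = 2 * M) {ν : Fˣ} (hν : ¬ IsSquare (ν : F))

include hM hν in
theorem card_E_N (hN : ngI Q ∉ Omega F ⇑Q) {δ : Sim Q} (h1 : mu hne δ = ν) (h2 : eps hne M δ = 1) :
    Nat.card ((eps hne M).ker.map (outS hQ hV)) = 2 := by
  have hd : outS hQ hV δ ≠ 1 := by
    rw [Ne, outS_eq_one_N hQ hV hne hM hν hN]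
    rintro ⟨⟨a, ha⟩, _⟩
    apply hν
    rw [← h1, ha]
    exact ⟨a, by rw [Units.val_pow_eq_pow_val, sq]⟩
  rw [Nat.card_eq_two_iff]
  refine ⟨1, ⟨outS hQ hV δ, δ, h2, rfl⟩, fun h => hd (congrArg Subtype.val h).symm, ?_⟩
  rw [Set.eq_univ_iff_forall]
  rintro ⟨_, g, hg, rfl⟩
  have hg' : eps hne M g = 1 := hg
  by_cases hsq : IsSquare (mu hne g : F)
  · left
    apply Subtype.ext
    change outS hQ hV g = 1
    rw [outS_eq_one_N hQ hV hne hM hν hN]
    obtain ⟨c, hc⟩ := hsq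
    have hc0 : c ≠ 0 := by
      rintro rfl
      rw [mul_zero] at hc
      exact (mu hne g).ne_zero hc
    exact ⟨⟨Units.mk0 c hc0, Units.ext (by rw [hc, Units.val_pow_eq_pow_val, Units.val_mk0, sq])⟩, hg'⟩
  · right
    apply Subtype.ext
    change outS hQ hV g = outS hQ hV δ
    obtain ⟨s, hs⟩ := isSquare_mul_of_not hsq hν
    have hs0 : s ≠ 0 := by
      rintro rfl
      rw [mul_zero] at hs
      exact mul_ne_zero (mu hne g).ne_zero ν.ne_zero hs
    rw [← mul_inv_eq_one, ← map_inv, ← map_mul, outS_eq_one_N hQ hV hne hM hν hN]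
    refine ⟨⟨Units.mk0 s hs0 * ν⁻¹, ?_⟩, by rw [map_mul, map_inv, hg', h2, inv_one, mul_one]⟩
    have h3 : Units.mk0 s hs0 * Units.mk0 s hs0 = mu hne g * ν := Units.ext hs.symm
    rw [map_mul, map_inv, h1, mul_pow, sq (Units.mk0 s hs0), h3, sq]
    group

include hM hν in
theorem card_E_D (hmu : Function.Surjective (mu hne)) (hD : ngI Q ∈ Omega F ⇑Q) :
    Nat.card ((eps hne M).ker.map (outS hQ hV)) = 4 := by
  have h2 := ns2 hν
  have hcS := card_outS hQ hV hne hmu hν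
  rw [card_outO_D hQ hV hν hD] at hcS
  have hle : (eps hne M).ker.map (outS hQ hV) ≤ (outS hQ hV).range := by
    rintro _ ⟨g, _, rfl⟩
    exact ⟨g, rfl⟩
  have h3 : ((eps hne M).ker.map (outS hQ hV)).comap (outS hQ hV) = (eps hne M).ker := by
    ext g
    rw [Subgroup.mem_comap]
    constructor
    · rintro ⟨g', hg', h⟩
      have := eps_of_outS hQ hV h2 hne hM h
      rw [MonoidHom.mem_ker, ← this]
      exact hg'
    · intro h
      exact ⟨g, h, rfl⟩
  have h4 := Subgroup.index_comap ((eps hne M).ker.map (outS hQ hV)) (outS hQ hV)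
  rw [h3, Subgroup.index_ker] at h4
  have h5 : Nat.card (eps hne M).range = 2 := by
    rw [Nat.card_eq_two_iff]
    have h6 : eps hne M (toSim Q (reflG Q (vv hQ hV 1) (vv_ne hQ hV 1))) ≠ 1 := by
      classical
      rw [Ne, eps_toSim_iff hQ h2, chi_refl hQ h2]
      exact (by decide : ¬ (-1 : ℤˣ) = 1)
    refine ⟨1, ⟨_, ⟨toSim Q (reflG Q (vv hQ hV 1) (vv_ne hQ hV 1)), rfl⟩⟩, fun h => h6 (congrArg Subtype.val h).symm, ?_⟩
    rw [Set.eq_univ_iff_forall]
    rintro ⟨_, g, rfl⟩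
    have h7 : eps hne M (toSim Q (reflG Q (vv hQ hV 1) (vv_ne hQ hV 1))) = -1 :=
      (eps_sq hQ hne hM _).resolve_left h6
    rcases eps_sq hQ hne hM g with h | h
    · left; exact Subtype.ext h
    · right; exact Subtype.ext (h.trans h7.symm)
  rw [h5] at h4
  have h9 := Subgroup.relIndex_mul_relIndex ⊥ ((eps hne M).ker.map (outS hQ hV)) (outS hQ hV).range bot_le hle
  rw [Subgroup.relIndex_bot_left, Subgroup.relIndex_bot_left, ← h4, hcS] at h9
  omega

/-- cyclic case -/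
theorem equiv4 {A : Type*} [Group A] (h : Nat.card A = 4) {x : A} (hx : x * x ≠ 1) : Nonempty (A ≃* Multiplicative (ZMod 4)) := by
  have hfin : Finite A := Nat.finite_of_card_ne_zero (by omega)
  have h1 : orderOf x ∣ 2 ^ 2 := by
    have := orderOf_dvd_natCard x
    rwa [h] at this
  obtain ⟨k, hk, hk'⟩ := (Nat.dvd_prime_pow Nat.prime_two).1 h1
  have h2 : k = 2 := by
    by_contra hne
    apply hx
    rw [← sq]
    apply orderOf_dvd_iff_pow_eq_one.1
    rw [hk']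
    exact pow_dvd_pow 2 (show k ≤ 1 by omega)
  have h3 : orderOf x = Nat.card A := by rw [hk', h2, h]; rfl
  have hc : IsCyclic A := isCyclic_of_orderOf_eq_card x h3
  exact ⟨(zmodCyclicMulEquiv hc).symm.trans (by rw [h])⟩

include hM hν in
theorem E_cyc (hmu : Function.Surjective (mu hne)) (hD : ngI Q ∈ Omega F ⇑Q) {δ : Sim Q} (h2 : eps hne M δ = 1)
    (h3 : outS hQ hV δ * outS hQ hV δ = R hQ hV 1 * R hQ hV ν) :
    Nonempty ((eps hne M).ker.map (outS hQ hV) ≃* Multiplicative (ZMod 4)) := by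
  refine equiv4 (card_E_D hQ hV hne hM hν hmu hD) (x := ⟨outS hQ hV δ, δ, h2, rfl⟩) ?_
  intro h
  have h4 : outS hQ hV δ * outS hQ hV δ = 1 := congrArg Subtype.val h
  rw [h3] at h4
  exact RR_D hQ hV hν hD h4

include hM hν in
theorem E_klein (hmu : Function.Surjective (mu hne)) (hD : ngI Q ∈ Omega F ⇑Q) {δ : Sim Q} (h1 : mu hne δ = ν)
    (h2 : eps hne M δ = 1) (h3 : outS hQ hV δ * outS hQ hV δ = 1) :
    Nonempty ((eps hne M).ker.map (outS hQ hV) ≃* Multiplicative (ZMod 2 × ZMod 2)) := by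
  have hc2 := ns2 hν
  apply klein_equiv (card_E_D hQ hV hne hM hν hmu hD)
  have hz2 : (R hQ hV 1 * R hQ hV ν) * (R hQ hV 1 * R hQ hV ν) = 1 := by
    exact sq_one_of_comm (R_comm hQ hV hc2 1 ν) (R_sq hQ hV 1) (R_sq hQ hV ν)
  have hkey : ∀ k : isometryGroup F ⇑Q, eps hne M (toSim Q k) = 1 →
      outO hQ hV k = 1 ∨ outO hQ hV k = R hQ hV 1 * R hQ hV ν := by
    intro k hk
    rw [eps_toSim_iff hQ hc2] at hk
    rcases outO_cases hQ hV ν hν k with ⟨_, h4⟩ | ⟨h4, _⟩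
    · exact h4
    · rw [hk] at h4
      exact absurd h4 (by decide)
  have hδz : outS hQ hV δ * (R hQ hV 1 * R hQ hV ν) = (R hQ hV 1 * R hQ hV ν) * outS hQ hV δ := by
    obtain ⟨hc1, hc3⟩ := conj_R_ν hQ hV hc2 hne δ h1
    have h5 : outS hQ hV δ * (R hQ hV 1 * R hQ hV ν) * (outS hQ hV δ)⁻¹ = R hQ hV ν * R hQ hV 1 := by
      rw [conj_mul, hc1, hc3]
    rw [mul_inv_eq_iff_eq_mul, R_comm hQ hV hc2 ν 1] at h5
    exact h5
  rintro ⟨_, g, hg, rfl⟩
  have hg' : eps hne M g = 1 := hg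
  apply Subtype.ext
  change outS hQ hV g * outS hQ hV g = 1
  by_cases hsq : IsSquare (mu hne g : F)
  · obtain ⟨c, hc⟩ := hsq
    have hc0 : c ≠ 0 := by
      rintro rfl
      rw [mul_zero] at hc
      exact (mu hne g).ne_zero hc
    obtain ⟨k, hk, hk'⟩ := outS_of_sq (M := M) hQ hV hne g (Units.mk0 c hc0) (Units.ext (by
      rw [hc, Units.val_pow_eq_pow_val, Units.val_mk0, sq]))
    rw [hk]
    rcases hkey k (by rw [← hk' hM]; exact hg') with h | h
    · rw [h, one_mul]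
    · rw [h, hz2]
  · obtain ⟨s, hs⟩ := isSquare_mul_of_not hsq hν
    have hs0 : s ≠ 0 := by
      rintro rfl
      rw [mul_zero] at hs
      exact mul_ne_zero (mu hne g).ne_zero ν.ne_zero hs
    obtain ⟨k, hk, hk'⟩ := outS_of_sq (M := M) hQ hV hne (g * δ⁻¹) (Units.mk0 s hs0 * ν⁻¹) (by
      have h3 : Units.mk0 s hs0 * Units.mk0 s hs0 = mu hne g * ν := Units.ext hs.symm
      rw [map_mul, map_inv, h1, mul_pow, sq (Units.mk0 s hs0), h3, sq]
      group)
    have h7 : outS hQ hV g = outO hQ hV k * outS hQ hV δ := by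
      rw [← hk, ← map_mul, inv_mul_cancel_right]
    rw [h7]
    rcases hkey k (by rw [← hk' hM, map_mul, map_inv, hg', h2, inv_one, mul_one]) with h | h
    · rw [h, one_mul, h3]
    · rw [h]
      exact sq_one_of_comm hδz.symm hz2 h3

end gen

end CfsgLib.AutPO
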