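import Cfsg.Agent.Lib.AutPO25

/-!
# Automorphisms of `PΩ(Q)`, part 26: the inner-diagonal groups modulo inner automorphisms
-/

set_option autoImplicit false
set_option linter.unusedSimpArgs false
set_option linter.unusedSectionVars false

namespace CfsgLib.AutPO

open Module Matrix Cfsg CfsgLib.Quad CfsgLib.SemiAut
open CfsgLib.AutPSp (scal scal_coe scal_isScal scal_mulVec exists_scal_of)

local notation "β[" Q "]" => QuadraticMap.polarBilin Q

universe u

variable {F : Type u} [Field F]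

/-- the inner-diagonal group in terms of a function -/
def inndP {ι : Type} [Fintype ι] [DecidableEq ι] (q : (ι → F) → F) : Subgroup (MulAut (POmega F q)) :=
  autSubgroupOf (fun β : POmega F q ≃* POmega F q => ∃ g : GL ι F, g ∈ Geo.quadSimilarityGroup (F := F) q ∧
    PreservesSingularClasses q (g : Matrix ι ι F) ∧ IsInducedBySemilinearPOmega q g (RingEquiv.refl F) β)

theorem inndP_eq (m : ℕ) : inndiagPOmegaPlus m F = inndP (quadFormPlus m F) := rfl

/-- the inner-diagonal group in terms of a function -/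
def inndM (m : ℕ) (a b : F) (q : ((Fin m ⊕ Fin m) ⊕ Fin 2 → F) → F) : Subgroup (MulAut (POmega F q)) :=
  autSubgroupOf (fun β : POmega F q ≃* POmega F q => ∃ g : GL ((Fin m ⊕ Fin m) ⊕ Fin 2) F, g ∈ Geo.quadSimilarityGroup (F := F) q ∧
    PreservesSingularClassesMinus m a b (g : Matrix ((Fin m ⊕ Fin m) ⊕ Fin 2) ((Fin m ⊕ Fin m) ⊕ Fin 2) F) ∧
    IsInducedBySemilinearPOmega q g (RingEquiv.refl F) β)

theorem inndM_eq (m : ℕ) (a b : F) : inndiagPOmegaMinus m F a b = inndM m a b (quadFormMinus m F a b) := rfl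

variable [Finite F]

theorem inndP_range (m : ℕ) (h2 : (2 : F) ≠ 0) (hV : 7 ≤ finrank F (Fin m ⊕ Fin m → F)) (hne : ∃ v, QP m F v ≠ 0) :
    inndP ⇑(QP m F) = (setupE (QP_nondegenerate m) hV hne (M := m)).gam.range :=
  inndiag_eqE (QP_nondegenerate m) hV hne (fun g => PreservesSingularClasses ⇑(QP m F) g.1) (psc_plus_odd m h2 hne)

theorem inndM_range (m : ℕ) {a b : F} (hab : Aniso a b) (h2 : (2 : F) ≠ 0) (hV : 7 ≤ finrank F ((Fin m ⊕ Fin m) ⊕ Fin 2 → F))
    (hne : ∃ v, QM m a b v ≠ 0) :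
    inndM m a b ⇑(QM m a b) = (setupE (QM_nondegenerate m hab) hV hne (M := m + 1)).gam.range :=
  inndiag_eqE (QM_nondegenerate m hab) hV hne (fun g => PreservesSingularClassesMinus m a b g.1) (psc_minus_odd m hab h2 hne)

theorem phiE {ι : Type} [Fintype ι] [DecidableEq ι] {Q : QuadraticForm F (ι → F)} (hQ : (β[Q]).Nondegenerate)
    (hV : 7 ≤ finrank F (ι → F)) (hne : ∃ v, Q v ≠ 0) {M : ℕ} {P : Subgroup (MulAut (POmega F ⇑Q))}
    (hP : P = (setupE hQ hV hne (M := M)).gam.range) {X : Type*} [Group X] (e : Nonempty ((eps hne M).ker.map (outS hQ hV) ≃* X)) :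
    ∃ φ : P →* X, Function.Surjective φ ∧ φ.ker = (Inn (POmega F ⇑Q)).subgroupOf P := by
  obtain ⟨e⟩ := e
  subst hP
  exact exists_phi (Inn (POmega F ⇑Q)) _ ((MulEquiv.subgroupCongr (mapE hQ hV hne)).trans e)

theorem plus_N (m : ℕ) (h2 : (2 : F) ≠ 0) (hV : 7 ≤ finrank F (Fin m ⊕ Fin m → F)) (hN : ngI (QP m F) ∉ Omega F ⇑(QP m F)) :
    ∃ φ : inndP ⇑(QP m F) →* Multiplicative (ZMod 2), Function.Surjective φ ∧
      φ.ker = (Inn (POmega F ⇑(QP m F))).subgroupOf (inndP ⇑(QP m F)) := by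
  obtain ⟨ν, hν⟩ := exists_nu h2
  have hQ := QP_nondegenerate (F := F) m
  have hne := exists_ne_of_nd hQ (by omega)
  exact phiE hQ hV hne (inndP_range m h2 hV hne)
    (card2_equiv (card_E_N hQ hV hne (card_ι_P m) hν hN (mu_DP m hne ν) (eps_DP m hne ν)))

theorem plus_D_odd (m : ℕ) (h2 : (2 : F) ≠ 0) (hV : 7 ≤ finrank F (Fin m ⊕ Fin m → F)) (hD : ngI (QP m F) ∈ Omega F ⇑(QP m F))
    (hm : Odd m) : ∃ φ : inndP ⇑(QP m F) →* Multiplicative (ZMod 4), Function.Surjective φ ∧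
      φ.ker = (Inn (POmega F ⇑(QP m F))).subgroupOf (inndP ⇑(QP m F)) := by
  obtain ⟨ν, hν⟩ := exists_nu h2
  have hQ := QP_nondegenerate (F := F) m
  have hne := exists_ne_of_nd hQ (by omega)
  exact phiE hQ hV hne (inndP_range m h2 hV hne)
    (E_cyc hQ hV hne (card_ι_P m) hν (mu_surj_plus m hne) hD (eps_DP m hne ν) ((outS_sq_plus m hV hν).2 hm))

theorem plus_D_even (m : ℕ) (h2 : (2 : F) ≠ 0) (hV : 7 ≤ finrank F (Fin m ⊕ Fin m → F)) (hD : ngI (QP m F) ∈ Omega F ⇑(QP m F))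
    (hm : Even m) : ∃ φ : inndP ⇑(QP m F) →* Multiplicative (ZMod 2 × ZMod 2), Function.Surjective φ ∧
      φ.ker = (Inn (POmega F ⇑(QP m F))).subgroupOf (inndP ⇑(QP m F)) := by
  obtain ⟨ν, hν⟩ := exists_nu h2
  have hQ := QP_nondegenerate (F := F) m
  have hne := exists_ne_of_nd hQ (by omega)
  exact phiE hQ hV hne (inndP_range m h2 hV hne)
    (E_klein hQ hV hne (card_ι_P m) hν (mu_surj_plus m hne) hD (mu_DP m hne ν) (eps_DP m hne ν) ((outS_sq_plus m hV hν).1 hm))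

theorem minus_N (m : ℕ) {a b : F} (hab : Aniso a b) (h2 : (2 : F) ≠ 0) (hV : 7 ≤ finrank F ((Fin m ⊕ Fin m) ⊕ Fin 2 → F))
    (hN : ngI (QM m a b) ∉ Omega F ⇑(QM m a b)) :
    ∃ φ : inndM m a b ⇑(QM m a b) →* Multiplicative (ZMod 2), Function.Surjective φ ∧
      φ.ker = (Inn (POmega F ⇑(QM m a b))).subgroupOf (inndM m a b ⇑(QM m a b)) := by
  obtain ⟨ν, hν⟩ := exists_nu h2
  have hQ := QM_nondegenerate (F := F) m hab
  have hne := exists_ne_of_nd hQ (by omega)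
  obtain ⟨x, y, hxy⟩ := exists_norm_eq hab ν
  exact phiE hQ hV hne (inndM_range m hab h2 hV hne)
    (card2_equiv (card_E_N hQ hV hne (card_ι_M m) hν hN (mu_DM hne ν x y hxy) (eps_DM hne ν x y hxy)))

theorem minus_D (m : ℕ) {a b : F} (hab : Aniso a b) (h2 : (2 : F) ≠ 0) (hV : 7 ≤ finrank F ((Fin m ⊕ Fin m) ⊕ Fin 2 → F))
    (hD : ngI (QM m a b) ∈ Omega F ⇑(QM m a b)) (hm : Even m) :
    ∃ φ : inndM m a b ⇑(QM m a b) →* Multiplicative (ZMod 4), Function.Surjective φ ∧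
      φ.ker = (Inn (POmega F ⇑(QM m a b))).subgroupOf (inndM m a b ⇑(QM m a b)) := by
  obtain ⟨ν, hν⟩ := exists_nu h2
  have hQ := QM_nondegenerate (F := F) m hab
  have hne := exists_ne_of_nd hQ (by omega)
  obtain ⟨x, y, hxy⟩ := exists_norm_eq hab ν
  exact phiE hQ hV hne (inndM_range m hab h2 hV hne)
    (E_cyc hQ hV hne (card_ι_M m) hν (mu_surj_minus m hab hne) hD (eps_DM hne ν x y hxy) (outS_sq_minus m hV hab hν x y hxy hm))

end CfsgLib.AutPO
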