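import Cfsg.Agent.Lib.AutPO2

/-!
# Automorphisms of `PΩ(Q)`, part 3: commuting root elements
-/

set_option autoImplicit false
set_option linter.unusedSimpArgs false
set_option linter.unusedSectionVars false

namespace CfsgLib.AutPO

open Module Cfsg CfsgLib.Quad
open CfsgLib.AutPSp (IsCen)

variable {F V : Type*} [Field F] [AddCommGroup V] [Module F V] [FiniteDimensional F V]

local notation "β[" Q "]" => QuadraticMap.polarBilin Q

variable {Q : QuadraticForm F V}

theorem Rt.ap_apply {u w : V} (h : Rt Q u w) (x : V) :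
    (ei Q u w).1.1 x = x + (β[Q] u x) • w - (β[Q] w x) • u := ei_sing h.hu h.hw h.huw x

theorem Rt.comb {u w : V} (h : Rt Q u w) (a b : F) : Q (a • u + b • w) = 0 := by
  rw [Quad.map_add, Quad.map_smul, Quad.map_smul, h.hu, h.hw, LinearMap.map_smul, LinearMap.map_smul,
    LinearMap.smul_apply, h.huw]
  simp

/-- a root element through any point of its line -/
theorem Rt.through {u w : V} (h : Rt Q u w) {a b : F} (hab : a • u + b • w ≠ 0) :
    ∃ y, Rt Q (a • u + b • w) y ∧ ei Q u w = ei Q (a • u + b • w) y := by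
  have hwu : β[Q] w u = 0 := by rw [polar_comm, h.huw]
  by_cases ha : a = 0
  · subst ha
    have hb : b ≠ 0 := by
      rintro rfl
      apply hab
      module
    refine ⟨-(b⁻¹ • u), ?_, ?_⟩
    · rw [zero_smul, zero_add]
      refine ⟨by rw [Quad.map_smul, h.hw, mul_zero], by rw [QuadraticMap.map_neg, Quad.map_smul, h.hu, mul_zero], ?_, ?_⟩
      · rw [LinearMap.map_neg, LinearMap.map_smul, LinearMap.map_smul, LinearMap.smul_apply, hwu]
        simp
      · apply li_of (smul_ne_zero hb h.w0)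
        intro c hc
        have := LinearIndependent.pair_iff.1 h.li (b⁻¹) (c * b) (by
          rw [mul_smul, ← hc]
          abel)
        exact inv_ne_zero hb this.1
    · apply G_ext
      intro x
      rw [zero_smul, zero_add, h.ap_apply, ei_sing (by rw [Quad.map_smul, h.hw, mul_zero])
        (by rw [QuadraticMap.map_neg, Quad.map_smul, h.hu, mul_zero]) (by
          rw [LinearMap.map_neg, LinearMap.map_smul, LinearMap.map_smul, LinearMap.smul_apply, hwu]
          simp)]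
      simp only [LinearMap.map_smul, LinearMap.smul_apply, LinearMap.map_neg, LinearMap.neg_apply, smul_eq_mul]
      match_scalars
      · ring
      · field_simp
      · field_simp
  · have h1 : β[Q] (a • u + b • w) (a⁻¹ • w) = 0 := by
      rw [LinearMap.map_smul, LinearMap.map_add, LinearMap.map_smul, LinearMap.map_smul, LinearMap.add_apply,
        LinearMap.smul_apply, LinearMap.smul_apply, h.huw, pol_self h.hw]
      simp
    have h2 : Q (a⁻¹ • w) = 0 := by rw [Quad.map_smul, h.hw, mul_zero]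
    refine ⟨a⁻¹ • w, ⟨h.comb a b, h2, h1, li_of hab ?_⟩, ?_⟩
    · intro c hc
      have := LinearIndependent.pair_iff.1 h.li (c * a) (c * b - a⁻¹) (by
        rw [smul_add, smul_smul, smul_smul] at hc
        rw [sub_smul, hc]
        abel)
      have hc0 : c = 0 := (mul_eq_zero.1 this.1).resolve_right ha
      have h3 := this.2
      rw [hc0, zero_mul, zero_sub, neg_eq_zero] at h3
      exact inv_ne_zero ha h3
    · apply G_ext
      intro x
      rw [h.ap_apply, ei_sing (h.comb a b) h2 h1]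
      simp only [LinearMap.map_smul, LinearMap.smul_apply, LinearMap.map_add, LinearMap.add_apply, smul_eq_mul]
      match_scalars
      · ring
      · field_simp
        ring
      · field_simp

section nd

variable [Finite F] (hQ : (β[Q]).Nondegenerate)
include hQ

/-- commuting root elements: the lines meet, or they are disjoint and perpendicular -/
theorem comm_cases {u₁ w₁ u₂ w₂ : V} (h1 : Rt Q u₁ w₁) (h2 : Rt Q u₂ w₂)
    (hc : ei Q u₁ w₁ * ei Q u₂ w₂ = ei Q u₂ w₂ * ei Q u₁ w₁) :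
    (∃ x y₁ y₂, Rt Q x y₁ ∧ Rt Q x y₂ ∧ ei Q u₁ w₁ = ei Q x y₁ ∧ ei Q u₂ w₂ = ei Q x y₂) ∨
    (LinearIndependent F ![u₁, w₁, u₂, w₂] ∧ β[Q] u₁ u₂ = 0 ∧ β[Q] u₁ w₂ = 0 ∧ β[Q] w₁ u₂ = 0 ∧ β[Q] w₁ w₂ = 0) := by
  by_cases hcom : ∃ a b c d : F, a • u₁ + b • w₁ = c • u₂ + d • w₂ ∧ a • u₁ + b • w₁ ≠ 0
  · left
    obtain ⟨a, b, c, d, he, hne⟩ := hcom
    obtain ⟨y1, hy1, hy1'⟩ := h1.through hne
    obtain ⟨y2, hy2, hy2'⟩ := h2.through (a := c) (b := d) (by rw [← he]; exact hne)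
    rw [← he] at hy2 hy2'
    exact ⟨_, y1, y2, hy1, hy2, hy1', hy2'⟩
  · right
    push Not at hcom
    have hperp : ∀ c d : F, β[Q] u₁ (c • u₂ + d • w₂) = 0 ∧ β[Q] w₁ (c • u₂ + d • w₂) = 0 := by
      intro c d
      -- in the image of `s - 1`
      obtain ⟨x, hx1, hx2⟩ := exists_dual2 hQ h2.li d (-c)
      have e1 : (ei Q u₂ w₂).1.1 x - x = c • u₂ + d • w₂ := by
        rw [h2.ap_apply, hx1, hx2]
        module
      have e2 : (ei Q u₁ w₁).1.1 (c • u₂ + d • w₂) = (ei Q u₂ w₂).1.1 ((ei Q u₁ w₁).1.1 x) - (ei Q u₁ w₁).1.1 x := by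
        rw [← e1, ap_sub, ← mul_ap, hc, mul_ap]
      have e3 : ∃ c' d' : F, (ei Q u₁ w₁).1.1 (c • u₂ + d • w₂) = c' • u₂ + d' • w₂ := by
        rw [e2]
        generalize (ei Q u₁ w₁).1.1 x = y
        exact ⟨-(β[Q] w₂ y), β[Q] u₂ y, by rw [h2.ap_apply]; module⟩
      obtain ⟨c', d', e3⟩ := e3
      rw [h1.ap_apply] at e3
      have e4 : (-(β[Q] w₁ (c • u₂ + d • w₂))) • u₁ + (β[Q] u₁ (c • u₂ + d • w₂)) • w₁ = (c' - c) • u₂ + (d' - d) • w₂ := by
        have : (c' - c) • u₂ + (d' - d) • w₂ = (c' • u₂ + d' • w₂) - (c • u₂ + d • w₂) := by module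
        rw [this, ← e3]
        module
      have e5 := LinearIndependent.pair_iff.1 h1.li _ _ (hcom _ _ _ _ e4)
      exact ⟨e5.2, neg_eq_zero.1 e5.1⟩
    refine ⟨?_, ?_, ?_, ?_, ?_⟩
    · rw [Fintype.linearIndependent_iff]
      intro g hg
      rw [Fin.sum_univ_four] at hg
      change g 0 • u₁ + g 1 • w₁ + g 2 • u₂ + g 3 • w₂ = 0 at hg
      have e1 : g 0 • u₁ + g 1 • w₁ = (-g 2) • u₂ + (-g 3) • w₂ := by
        rw [← sub_eq_zero, ← hg]
        module
      have e2 := hcom _ _ _ _ e1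
      have e3 := LinearIndependent.pair_iff.1 h1.li _ _ e2
      rw [e2] at e1
      have e4 := LinearIndependent.pair_iff.1 h2.li _ _ e1.symm
      intro i
      fin_cases i
      · exact e3.1
      · exact e3.2
      · exact neg_eq_zero.1 e4.1
      · exact neg_eq_zero.1 e4.2
    · have := (hperp 1 0).1
      rwa [one_smul, zero_smul, add_zero] at this
    · have := (hperp 0 1).1
      rwa [one_smul, zero_smul, zero_add] at this
    · have := (hperp 1 0).2
      rwa [one_smul, zero_smul, add_zero] at this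
    · have := (hperp 0 1).2
      rwa [one_smul, zero_smul, zero_add] at this

omit hQ [Finite F] in
/-- product of root elements of disjoint perpendicular lines -/
theorem prod_apply {u₁ w₁ u₂ w₂ : V} (h1 : Rt Q u₁ w₁) (h2 : Rt Q u₂ w₂) (e1 : β[Q] u₁ u₂ = 0) (e2 : β[Q] u₁ w₂ = 0)
    (e3 : β[Q] w₁ u₂ = 0) (e4 : β[Q] w₁ w₂ = 0) (x : V) : (ei Q u₁ w₁ * ei Q u₂ w₂).1.1 x =
      x + (-(β[Q] w₁ x)) • u₁ + (β[Q] u₁ x) • w₁ + (-(β[Q] w₂ x)) • u₂ + (β[Q] u₂ x) • w₂ := by
  rw [mul_ap, h2.ap_apply, h1.ap_apply]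
  simp only [LinearMap.map_add, LinearMap.map_sub, LinearMap.map_smul, smul_eq_mul, e1, e2, e3, e4]
  module

omit hQ [Finite F] in
theorem comb4 {u₁ w₁ u₂ w₂ : V} (h1 : Rt Q u₁ w₁) (h2 : Rt Q u₂ w₂) (e1 : β[Q] u₁ u₂ = 0) (e2 : β[Q] u₁ w₂ = 0)
    (e3 : β[Q] w₁ u₂ = 0) (e4 : β[Q] w₁ w₂ = 0) (a b c d : F) : Q (a • u₁ + b • w₁ + c • u₂ + d • w₂) = 0 := by
  rw [Quad.map_add, Quad.map_add, h1.comb, Quad.map_smul, Quad.map_smul, h2.hu, h2.hw]
  simp only [LinearMap.map_add, LinearMap.map_smul, LinearMap.add_apply, LinearMap.smul_apply, smul_eq_mul, e1, e2, e3, e4,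
    h2.huw]
  ring

omit [Finite F] in
/-- parallelism -/
theorem par {v w x y : V} (hv0 : v ≠ 0) (hv : Q v = 0) (hvw : β[Q] v w = 0) (hw : Q w ≠ 0) (hx0 : x ≠ 0) (hx : Q x = 0)
    (hxy : β[Q] x y = 0) (h : ei Q v w = ei Q x y) : ∃ c : F, c ≠ 0 ∧ v = c • x := by
  have h1 : ∀ z, β[Q] x z = 0 → β[Q] v z = 0 := by
    intro z hz
    have h2 := Q_diff hv hvw z
    rw [h, Q_diff hx hxy z, hz, pow_two, zero_mul, zero_mul] at h2
    have h3 := (mul_eq_zero.1 h2.symm).resolve_right hw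
    exact pow_eq_zero_iff (two_ne_zero) |>.1 h3
  obtain ⟨c, hc⟩ := perp_perp hQ hx0 hx h1
  refine ⟨c, ?_, hc⟩
  rintro rfl
  rw [zero_smul] at hc
  exact hv0 hc

/-- decompositions of a Siegel element of a non-singular vector into commuting roots -/
theorem decomp_b {v w : V} (hv0 : v ≠ 0) (hv : Q v = 0) (hvw : β[Q] v w = 0) (hw : Q w ≠ 0)
    {u₁ w₁ u₂ w₂ : V} (h1 : Rt Q u₁ w₁) (h2 : Rt Q u₂ w₂)
    (hc : ei Q u₁ w₁ * ei Q u₂ w₂ = ei Q u₂ w₂ * ei Q u₁ w₁) (hz : ei Q v w = ei Q u₁ w₁ * ei Q u₂ w₂) :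
    ∃ a, β[Q] v a = 0 ∧ Q a = 0 ∧ Q (w - a) = 0 ∧ ei Q u₁ w₁ = ei Q v a := by
  rcases comm_cases hQ h1 h2 hc with ⟨x, y1, y2, hy1, hy2, he1, he2⟩ | ⟨hli, e1, e2, e3, e4⟩
  · rw [he1, he2, ei_mul hy1.hu hy1.huw hy2.huw] at hz
    have hxy : β[Q] x (y1 + y2) = 0 := by rw [LinearMap.map_add, hy1.huw, hy2.huw, add_zero]
    obtain ⟨c, hc0, rfl⟩ := par hQ hv0 hv hvw hw hy1.u0 hy1.hu hxy hz
    have hxw : β[Q] x w = 0 := by
      rw [LinearMap.map_smul, LinearMap.smul_apply, smul_eq_mul] at hvw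
      exact (mul_eq_zero.1 hvw).resolve_left hc0
    rw [ei_smul hy1.hu hxw, ei_eq_iff hQ hy1.u0 hy1.hu (by rw [LinearMap.map_smul, hxw, smul_zero]) hxy] at hz
    obtain ⟨d, hd⟩ := hz
    have hw' : w = c⁻¹ • y1 + c⁻¹ • y2 + (c⁻¹ * d) • x := by
      have : w = c⁻¹ • (c • w) := by rw [smul_smul, inv_mul_cancel₀ hc0, one_smul]
      rw [this, hd]
      module
    refine ⟨c⁻¹ • y1, ?_, by rw [Quad.map_smul, hy1.hw, mul_zero], ?_, ?_⟩
    · rw [LinearMap.map_smul, LinearMap.map_smul, LinearMap.smul_apply, hy1.huw]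
      simp
    · have e : w - c⁻¹ • y1 = (c⁻¹ * d) • x + c⁻¹ • y2 := by
        nth_rw 1 [hw']
        abel
      rw [e]
      exact hy2.comb _ _
    · rw [he1, ei_smul hy1.hu (by rw [LinearMap.map_smul, hy1.huw, smul_zero]), smul_smul, mul_inv_cancel₀ hc0, one_smul]
  · exfalso
    obtain ⟨f, hf, hvf⟩ := exists_partner hQ hv0 hv
    have h3 := Q_diff hv hvw f
    rw [hz, prod_apply h1 h2 e1 e2 e3 e4, hvf, one_pow, one_mul] at h3
    apply hw
    rw [← h3]
    have e : ∀ A B C D : V, f + A + B + C + D - f = A + B + C + D := fun A B C D => by abel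
    rw [e]
    exact comb4 h1 h2 e1 e2 e3 e4 _ _ _ _

omit hQ [Finite F] in
/-- the group attached to a totally singular subspace -/
def Lam (Q : QuadraticForm F V) (U : Submodule F V) : Subgroup (eichG Q) where
  carrier := {g | (∀ x, g.1.1 x - x ∈ U) ∧ (∀ x, (∀ y ∈ U, β[Q] y x = 0) → g.1.1 x = x) ∧ ∀ x ∈ U, g.1.1 x = x}
  mul_mem' := by
    rintro a b ⟨ha, ha', ha''⟩ ⟨hb, hb', hb''⟩
    refine ⟨fun x => ?_, fun x hx => by rw [mul_ap, hb' x hx, ha' x hx], fun x hx => by rw [mul_ap, hb'' x hx, ha'' x hx]⟩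
    have e : (a * b).1.1 x - x = (a.1.1 (b.1.1 x) - b.1.1 x) + (b.1.1 x - x) := by
      rw [mul_ap]
      abel
    rw [e]
    exact U.add_mem (ha _) (hb _)
  one_mem' := by
    change _ ∧ _ ∧ _
    refine ⟨fun x => ?_, fun x _ => rfl, fun x _ => rfl⟩
    rw [one_ap, sub_self]
    exact U.zero_mem
  inv_mem' := by
    rintro a ⟨ha, ha', ha''⟩
    refine ⟨fun x => ?_, fun x hx => ?_, fun x hx => ?_⟩
    · have h1 := ha ((a⁻¹).1.1 x)
      rw [ap_inv] at h1
      have := U.neg_mem h1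
      rwa [neg_sub] at this
    · apply ap_inj a
      rw [ap_inv, ha' x hx]
    · apply ap_inj a
      rw [ap_inv, ha'' x hx]

omit hQ [Finite F] in
theorem Rt.mem_Lam {u w : V} (h : Rt Q u w) {U : Submodule F V} (hU : ∀ x ∈ U, Q x = 0) (hu : u ∈ U) (hw : w ∈ U) :
    ei Q u w ∈ Lam Q U := by
  have hpol : ∀ x ∈ U, ∀ y ∈ U, β[Q] x y = 0 := fun x hx y hy => by
    have h1 := hU (x + y) (U.add_mem hx hy)
    rw [Quad.map_add, hU x hx, hU y hy] at h1
    simpa using h1
  have h3 : ∀ x, (∀ y ∈ U, β[Q] y x = 0) → (ei Q u w).1.1 x = x := by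
    intro x hx
    rw [h.ap_apply, hx u hu, hx w hw]
    simp
  refine ⟨fun x => ?_, h3, fun x hx => h3 x (fun y hy => hpol y hy x hx)⟩
  rw [h.ap_apply]
  have e : x + (β[Q] u x) • w - (β[Q] w x) • u - x = (β[Q] u x) • w - (β[Q] w x) • u := by abel
  rw [e]
  exact U.sub_mem (U.smul_mem _ hw) (U.smul_mem _ hu)

/-- decompositions of elements of `Lam U` -/
theorem decomp_c {U : Submodule F V} (hU : ∀ x ∈ U, Q x = 0) {z : eichG Q} (hz : z ∈ Lam Q U) (hz1 : z ≠ 1)
    (hzr : ∀ u w, Rt Q u w → z ≠ ei Q u w)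
    {u₁ w₁ u₂ w₂ : V} (h1 : Rt Q u₁ w₁) (h2 : Rt Q u₂ w₂)
    (hc : ei Q u₁ w₁ * ei Q u₂ w₂ = ei Q u₂ w₂ * ei Q u₁ w₁) (hz' : z = ei Q u₁ w₁ * ei Q u₂ w₂) :
    ei Q u₁ w₁ ∈ Lam Q U := by
  rcases comm_cases hQ h1 h2 hc with ⟨x, y1, y2, hy1, hy2, he1, he2⟩ | ⟨hli, e1, e2, e3, e4⟩
  · exfalso
    rw [he1, he2, ei_mul hy1.hu hy1.huw hy2.huw] at hz'
    have hxy : β[Q] x (y1 + y2) = 0 := by rw [LinearMap.map_add, hy1.huw, hy2.huw, add_zero]
    have hy : Q (y1 + y2) ≠ 0 := by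
      intro h0
      by_cases hd : ∃ c : F, y1 + y2 = c • x
      · obtain ⟨c, hc⟩ := hd
        apply hz1
        rw [hz', hc, ei_self hy1.hu]
      · push Not at hd
        exact hzr x (y1 + y2) ⟨hy1.hu, h0, hxy, li_of hy1.u0 hd⟩ hz'
    obtain ⟨f, hf, hvf⟩ := exists_partner hQ hy1.u0 hy1.hu
    have h3 := Q_diff hy1.hu hxy f
    rw [hvf, one_pow, one_mul, ← hz', hU _ (hz.1 f)] at h3
    exact hy h3.symm
  · have key : ∀ c : Fin 4 → F, (-(c 1)) • u₁ + (c 0) • w₁ + (-(c 3)) • u₂ + (c 2) • w₂ ∈ U := by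
      intro c
      obtain ⟨x, hx⟩ := exists_dual hQ hli c
      have h3 := hz.1 x
      have hx0 : β[Q] u₁ x = c 0 := hx 0
      have hx1 : β[Q] w₁ x = c 1 := hx 1
      have hx2 : β[Q] u₂ x = c 2 := hx 2
      have hx3 : β[Q] w₂ x = c 3 := hx 3
      rw [hz', prod_apply h1 h2 e1 e2 e3 e4, hx0, hx1, hx2, hx3] at h3
      have e : ∀ A B C D : V, x + A + B + C + D - x = A + B + C + D := fun A B C D => by abel
      rwa [e] at h3
    have hu : u₁ ∈ U := by
      have := key ![0, -1, 0, 0]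
      simpa using this
    have hw : w₁ ∈ U := by
      have := key ![1, 0, 0, 0]
      simpa using this
    exact h1.mem_Lam hU hu hw

/-- `Lam U` is small -/
theorem card_Lam {U : Submodule F V} (hU : ∀ x ∈ U, Q x = 0) {u : Fin 4 → V} (hli : LinearIndependent F u)
    (hspan : U = Submodule.span F (Set.range u)) : Nat.card (Lam Q U) ≤ (Nat.card F) ^ 6 := by
  have hmem : ∀ i, u i ∈ U := fun i => by rw [hspan]; exact Submodule.subset_span ⟨i, rfl⟩
  have hpol : ∀ x ∈ U, ∀ y ∈ U, β[Q] x y = 0 := fun x hx y hy => by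
    have h1 := hU (x + y) (U.add_mem hx hy)
    rw [Quad.map_add, hU x hx, hU y hy] at h1
    simpa using h1
  have hx : ∀ j : Fin 4, ∃ x : V, ∀ i, β[Q] (u i) x = if i = j then 1 else 0 := fun j => exists_dual hQ hli _
  choose x hx using hx
  -- the map
  let Φ : Lam Q U → (Fin 6 → F) := fun g => ![β[Q] (x 0) (g.1.1.1 (x 1) - x 1), β[Q] (x 0) (g.1.1.1 (x 2) - x 2),
    β[Q] (x 0) (g.1.1.1 (x 3) - x 3), β[Q] (x 1) (g.1.1.1 (x 2) - x 2), β[Q] (x 1) (g.1.1.1 (x 3) - x 3),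
    β[Q] (x 2) (g.1.1.1 (x 3) - x 3)]
  have hΦ : Function.Injective Φ := by
    intro g h hgh
    -- skew-symmetry
    have hself : ∀ (g : Lam Q U) (y : V), β[Q] y (g.1.1.1 y - y) = 0 := by
      intro g y
      have h1 := qf g.1 y
      have e : g.1.1.1 y = y + (g.1.1.1 y - y) := by abel
      rw [e, Quad.map_add, hU _ (g.2.1 y)] at h1
      simpa using h1
    have hskew : ∀ (g : Lam Q U) (y z : V), β[Q] y (g.1.1.1 z - z) = - β[Q] z (g.1.1.1 y - y) := by
      intro g y z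
      have h1 := pol g.1 y z
      have e1 : g.1.1.1 y = y + (g.1.1.1 y - y) := by abel
      have e2 : g.1.1.1 z = z + (g.1.1.1 z - z) := by abel
      rw [e1, e2, LinearMap.map_add, LinearMap.map_add, LinearMap.add_apply, LinearMap.add_apply,
        hpol _ (g.2.1 y) _ (g.2.1 z)] at h1
      have e3 := polar_comm Q (g.1.1.1 y - y) z
      linear_combination h1 - e3
    have h0 : ∀ k l : Fin 4, β[Q] (x k) (g.1.1.1 (x l) - x l) = β[Q] (x k) (h.1.1.1 (x l) - x l) := by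
      have a0 : β[Q] (x 0) (g.1.1.1 (x 1) - x 1) = β[Q] (x 0) (h.1.1.1 (x 1) - x 1) := congrFun hgh 0
      have a1 : β[Q] (x 0) (g.1.1.1 (x 2) - x 2) = β[Q] (x 0) (h.1.1.1 (x 2) - x 2) := congrFun hgh 1
      have a2 : β[Q] (x 0) (g.1.1.1 (x 3) - x 3) = β[Q] (x 0) (h.1.1.1 (x 3) - x 3) := congrFun hgh 2
      have a3 : β[Q] (x 1) (g.1.1.1 (x 2) - x 2) = β[Q] (x 1) (h.1.1.1 (x 2) - x 2) := congrFun hgh 3
      have a4 : β[Q] (x 1) (g.1.1.1 (x 3) - x 3) = β[Q] (x 1) (h.1.1.1 (x 3) - x 3) := congrFun hgh 4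
      have a5 : β[Q] (x 2) (g.1.1.1 (x 3) - x 3) = β[Q] (x 2) (h.1.1.1 (x 3) - x 3) := congrFun hgh 5
      intro k l
      fin_cases k <;> fin_cases l
      · exact (hself g _).trans (hself h _).symm
      · exact a0
      · exact a1
      · exact a2
      · exact (hskew g _ _).trans ((congrArg Neg.neg a0).trans (hskew h _ _).symm)
      · exact (hself g _).trans (hself h _).symm
      · exact a3
      · exact a4
      · exact (hskew g _ _).trans ((congrArg Neg.neg a1).trans (hskew h _ _).symm)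
      · exact (hskew g _ _).trans ((congrArg Neg.neg a3).trans (hskew h _ _).symm)
      · exact (hself g _).trans (hself h _).symm
      · exact a5
      · exact (hskew g _ _).trans ((congrArg Neg.neg a2).trans (hskew h _ _).symm)
      · exact (hskew g _ _).trans ((congrArg Neg.neg a4).trans (hskew h _ _).symm)
      · exact (hskew g _ _).trans ((congrArg Neg.neg a5).trans (hskew h _ _).symm)
      · exact (hself g _).trans (hself h _).symm
    -- vectors of `U` are detected by the `x k`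
    have hdet : ∀ t ∈ U, (∀ k, β[Q] (x k) t = 0) → t = 0 := by
      intro t ht h1
      rw [hspan, Submodule.mem_span_range_iff_exists_fun] at ht
      obtain ⟨c, rfl⟩ := ht
      have h2 : ∀ k, c k = 0 := by
        intro k
        have h3 := h1 k
        rw [map_sum] at h3
        simp only [LinearMap.map_smul, LinearMap.smul_apply, polar_comm Q (x k), hx, smul_eq_mul, mul_ite, mul_one, mul_zero,
          Finset.sum_ite_eq', Finset.mem_univ, if_true] at h3
        exact h3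
      simp [h2]
    have hxl : ∀ l, g.1.1.1 (x l) = h.1.1.1 (x l) := by
      intro l
      rw [← sub_eq_zero]
      apply hdet
      · have e : g.1.1.1 (x l) - h.1.1.1 (x l) = (g.1.1.1 (x l) - x l) - (h.1.1.1 (x l) - x l) := by abel
        rw [e]
        exact U.sub_mem (g.2.1 _) (h.2.1 _)
      · intro k
        have e : g.1.1.1 (x l) - h.1.1.1 (x l) = (g.1.1.1 (x l) - x l) - (h.1.1.1 (x l) - x l) := by abel
        rw [e, LinearMap.map_sub, h0, sub_self]
    apply Subtype.ext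
    apply G_ext
    intro y
    have hy : ∀ y' ∈ U, β[Q] y' (y - ∑ l, β[Q] (u l) y • x l) = 0 := by
      intro y' hy'
      rw [hspan, Submodule.mem_span_range_iff_exists_fun] at hy'
      obtain ⟨c, rfl⟩ := hy'
      rw [polar_comm, map_sum]
      apply Finset.sum_eq_zero
      intro i _
      rw [LinearMap.map_smul, polar_comm, LinearMap.map_sub, map_sum]
      simp only [LinearMap.map_smul, hx, smul_eq_mul, mul_ite, mul_one, mul_zero, Finset.sum_ite_eq, Finset.mem_univ,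
        if_true, sub_self]
    have hg1 := g.2.2.1 _ hy
    have hh1 := h.2.2.1 _ hy
    have hy2 : y = (y - ∑ l, β[Q] (u l) y • x l) + ∑ l, β[Q] (u l) y • x l := by abel
    rw [hy2, ap_add, ap_add, hg1, hh1, map_sum, map_sum]
    congr 1
    apply Finset.sum_congr rfl
    intro l _
    rw [ap_smul, ap_smul, hxl]
  have := Nat.card_le_card_of_injective Φ hΦ
  rwa [Nat.card_fun, Nat.card_eq_fintype_card (α := Fin 6), Fintype.card_fin] at this

end nd

end CfsgLib.AutPO
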