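import Cfsg.Agent.Lib.AutPO3

/-!
# Automorphisms of `PΩ(Q)`, part 4: automorphisms permute the Siegel groups of singular points
-/

set_option autoImplicit false
set_option linter.unusedSimpArgs false
set_option linter.unusedSectionVars false

namespace CfsgLib.AutPO

open Module Cfsg CfsgLib.Quad
open CfsgLib.AutPSp (IsCen)

section gen

variable {H : Type*} [Group H]

def Dset (R : Set H) (z : H) : Set H := {r | r ∈ R ∧ r⁻¹ * z ∈ R ∧ r * z = z * r}

def DN (R : Set H) (z : H) : Subgroup H := Subgroup.closure (Dset R z)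

def D2 (R : Set H) (z : H) : Subgroup H := Subgroup.closure {r | ∃ z' ∈ DN R z, z' ∉ R ∧ z' ≠ 1 ∧ r ∈ Dset R z'}

def Good (R : Set H) (z : H) : Prop := z ∉ R ∧ z ≠ 1 ∧ (Dset R z).Nonempty

variable {R : Set H} (α : H ≃* H) (hα : ∀ r, α r ∈ R ↔ r ∈ R)
include hα

theorem Dset_map' (z r : H) : α r ∈ Dset R (α z) ↔ r ∈ Dset R z := by
  change (_ ∧ _ ∧ _) ↔ (_ ∧ _ ∧ _)
  rw [hα, ← map_inv, ← map_mul, hα, ← map_mul, ← map_mul, α.injective.eq_iff]

theorem Dset_map (z : H) : α '' Dset R z = Dset R (α z) := by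
  ext r
  constructor
  · rintro ⟨r, hr, rfl⟩
    exact (Dset_map' α hα z r).2 hr
  · intro hr
    refine ⟨α.symm r, ?_, α.apply_symm_apply r⟩
    rw [← Dset_map' α hα, α.apply_symm_apply]
    exact hr

theorem DN_map (z : H) : (DN R z).map α.toMonoidHom = DN R (α z) := by
  rw [DN, MonoidHom.map_closure, DN]
  congr 1
  exact Dset_map α hα z

theorem DN_map' (z r : H) : α r ∈ DN R (α z) ↔ r ∈ DN R z := by
  rw [← DN_map α hα]
  constructor
  · rintro ⟨y, hy, hy'⟩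
    rwa [← α.injective hy']
  · intro h
    exact ⟨r, h, rfl⟩

theorem D2_map (z : H) : (D2 R z).map α.toMonoidHom = D2 R (α z) := by
  rw [D2, MonoidHom.map_closure, D2]
  congr 1
  ext r
  constructor
  · rintro ⟨r, ⟨z', h1, h2, h3, h4⟩, rfl⟩
    refine ⟨α z', (DN_map' α hα _ _).2 h1, fun h => h2 ((hα _).1 h), fun h => h3 (α.injective (by rw [h, map_one])),
      (Dset_map' α hα _ _).2 h4⟩
  · rintro ⟨z', h1, h2, h3, h4⟩
    refine ⟨α.symm r, ⟨α.symm z', ?_, ?_, ?_, ?_⟩, α.apply_symm_apply r⟩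
    · rw [← DN_map' α hα, α.apply_symm_apply]
      exact h1
    · intro h
      rw [← hα, α.apply_symm_apply] at h
      exact h2 h
    · intro h
      apply h3
      rw [← α.apply_symm_apply z', h, map_one]
    · rw [← Dset_map' α hα, α.apply_symm_apply, α.apply_symm_apply]
      exact h4

theorem Good.map {z : H} (hz : Good R z) : Good R (α z) := by
  obtain ⟨h1, h2, r, h3⟩ := hz
  exact ⟨fun h => h1 ((hα _).1 h), fun h => h2 (α.injective (by rw [h, map_one])), α r, (Dset_map' α hα _ _).2 h3⟩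

end gen

variable {F V : Type*} [Field F] [AddCommGroup V] [Module F V] [FiniteDimensional F V]

local notation "β[" Q "]" => QuadraticMap.polarBilin Q

variable {Q : QuadraticForm F V} {p : ℕ} [Fact p.Prime] [CharP F p]

/-- the class of a Siegel element -/
noncomputable def E (Q : QuadraticForm F V) (u y : V) : eichG Q ⧸ Subgroup.center (eichG Q) := QuotientGroup.mk (ei Q u y)

/-- root elements of the quotient, group theoretically -/
def RS (Q : QuadraticForm F V) (p : ℕ) : Set (eichG Q ⧸ Subgroup.center (eichG Q)) := {z | IsCen p z ∧ z ≠ 1}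

omit [Fact p.Prime] [CharP F p] in
theorem E_mul {u y y' : V} (hu : Q u = 0) (huy : β[Q] u y = 0) (huy' : β[Q] u y' = 0) :
    E Q u y * E Q u y' = E Q u (y + y') := by
  change (QuotientGroup.mk (ei Q u y * ei Q u y') : eichG Q ⧸ Subgroup.center (eichG Q)) = _
  rw [ei_mul hu huy huy']
  rfl

omit [Fact p.Prime] [CharP F p] in
theorem E_zero (u : V) : E Q u 0 = 1 := by
  rw [E, ei_zero]
  rfl

omit [Fact p.Prime] [CharP F p] in
theorem E_self {u : V} (hu : Q u = 0) (t : F) : E Q u (t • u) = 1 := by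
  rw [E, ei_self hu]
  rfl

omit [Fact p.Prime] [CharP F p] in
theorem E_add_self {u y : V} (hu : Q u = 0) (huy : β[Q] u y = 0) (t : F) : E Q u (y + t • u) = E Q u y := by
  rw [E, ei_add_self hu huy]
  rfl

omit [Fact p.Prime] [CharP F p] in
theorem E_sub_self {u y : V} (hu : Q u = 0) (huy : β[Q] u y = 0) (t : F) : E Q u (y - t • u) = E Q u y := by
  rw [sub_eq_add_neg, ← neg_smul, E_add_self hu huy]

omit [Fact p.Prime] [CharP F p] in
theorem E_inv {u y : V} (hu : Q u = 0) (huy : β[Q] u y = 0) : (E Q u y)⁻¹ = E Q u (-y) := by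
  change (QuotientGroup.mk (ei Q u y)⁻¹ : eichG Q ⧸ Subgroup.center (eichG Q)) = _
  rw [ei_inv hu huy]
  rfl

omit [Fact p.Prime] [CharP F p] in
theorem E_conj (g : eichG Q) {u y : V} (hu : Q u = 0) (huy : β[Q] u y = 0) :
    (QuotientGroup.mk g : eichG Q ⧸ Subgroup.center (eichG Q)) * E Q u y * (QuotientGroup.mk g)⁻¹ = E Q (g.1.1 u) (g.1.1 y) := by
  change (QuotientGroup.mk (g * ei Q u y * g⁻¹) : eichG Q ⧸ Subgroup.center (eichG Q)) = _
  rw [ei_conj g hu huy]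
  rfl

/-- the Siegel group of a singular vector in the quotient -/
def Qb (Q : QuadraticForm F V) (v : V) : Subgroup (eichG Q ⧸ Subgroup.center (eichG Q)) :=
  Subgroup.closure {z | ∃ y, β[Q] v y = 0 ∧ z = E Q v y}

omit [Fact p.Prime] [CharP F p] in
theorem mem_Qb {v : V} (hv : Q v = 0) {z : eichG Q ⧸ Subgroup.center (eichG Q)} :
    z ∈ Qb Q v ↔ ∃ y, β[Q] v y = 0 ∧ z = E Q v y := by
  constructor
  · intro h
    rw [Qb] at h
    induction h using Subgroup.closure_induction with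
    | mem x hx => exact hx
    | one => exact ⟨0, by rw [LinearMap.map_zero], by rw [E, ei_zero]; rfl⟩
    | mul x y _ _ hx hy =>
      obtain ⟨a, ha, rfl⟩ := hx
      obtain ⟨b, hb, rfl⟩ := hy
      exact ⟨a + b, by rw [LinearMap.map_add, ha, hb, add_zero], by rw [E_mul hv ha hb]⟩
    | inv x _ hx =>
      obtain ⟨a, ha, rfl⟩ := hx
      exact ⟨-a, by rw [LinearMap.map_neg, ha, neg_zero], by rw [E_inv hv ha]⟩
  · intro h
    exact Subgroup.subset_closure h

omit [Fact p.Prime] [CharP F p] in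
theorem E_mem_Qb {v y : V} (hy : β[Q] v y = 0) : E Q v y ∈ Qb Q v :=
  Subgroup.subset_closure ⟨y, hy, rfl⟩

section nd

variable [Finite F] (hQ : (β[Q]).Nondegenerate)
include hQ

theorem mk_inj {a b : eichG Q} (hV : 5 ≤ finrank F V) {k l : ℕ} (ha : a ^ (p ^ k) = 1) (hb : b ^ (p ^ l) = 1)
    (h : (QuotientGroup.mk a : eichG Q ⧸ Subgroup.center (eichG Q)) = QuotientGroup.mk b) : a = b := by
  have hGf := finG Q
  exact mk_inj_p (center_p (p := p) hQ hV) ha hb h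

theorem E_inj (hV : 5 ≤ finrank F V) {u y u' y' : V} (hu : Q u = 0) (huy : β[Q] u y = 0) (hu' : Q u' = 0)
    (huy' : β[Q] u' y' = 0) (h : E Q u y = E Q u' y') : ei Q u y = ei Q u' y' := by
  obtain ⟨p, hp⟩ := CharP.exists F
  have : Fact p.Prime := ⟨CharP.char_is_prime F p⟩
  exact mk_inj (p := p) hQ hV (ei_pow hu huy) (ei_pow hu' huy') h

theorem E_eq_iff (hV : 5 ≤ finrank F V) {u y y' : V} (hu0 : u ≠ 0) (hu : Q u = 0) (huy : β[Q] u y = 0)
    (huy' : β[Q] u y' = 0) : E Q u y = E Q u y' ↔ ∃ c : F, y = y' + c • u := by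
  rw [← ei_eq_iff hQ hu0 hu huy huy']
  constructor
  · exact E_inj hQ hV hu huy hu huy'
  · intro h
    rw [E, h]
    rfl

theorem mk_comm {a b : eichG Q} (hV : 5 ≤ finrank F V) {k l : ℕ} (ha : a ^ (p ^ k) = 1) (hb : b ^ (p ^ l) = 1)
    (h : (QuotientGroup.mk (a * b) : eichG Q ⧸ Subgroup.center (eichG Q)) = QuotientGroup.mk (b * a)) : a * b = b * a := by
  have h1 : (a * b * a⁻¹) ^ (p ^ l) = 1 := by rw [conj_pow, hb, mul_one, mul_inv_cancel]
  have h2 : a * b * a⁻¹ = b := by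
    apply mk_inj (p := p) hQ hV h1 hb
    change (QuotientGroup.mk (a * b) : eichG Q ⧸ Subgroup.center (eichG Q)) * (QuotientGroup.mk a)⁻¹ = _
    rw [h]
    change (QuotientGroup.mk (b * a * a⁻¹) : eichG Q ⧸ Subgroup.center (eichG Q)) = _
    rw [mul_inv_cancel_right]
  exact mul_inv_eq_iff_eq_mul.1 h2

theorem mem_RS (hV : 7 ≤ finrank F V) (z : eichG Q ⧸ Subgroup.center (eichG Q)) :
    z ∈ RS Q p ↔ ∃ u w, Rt Q u w ∧ z = E Q u w := by
  have hGf := finG Q
  constructor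
  · rintro ⟨h1, h2⟩
    obtain ⟨s, hs, rfl⟩ := isCen_lift (center_p (p := p) hQ (by omega)) h1
    obtain ⟨u, w, hr, rfl⟩ := (isCen_iff (p := p) hQ hV s).1 ⟨hs, fun h => h2 (by rw [h]; rfl)⟩
    exact ⟨u, w, hr, rfl⟩
  · rintro ⟨u, w, hr, rfl⟩
    obtain ⟨h1, h2⟩ := (isCen_iff (p := p) hQ hV (ei Q u w)).2 ⟨u, w, hr, rfl⟩
    refine ⟨isCen_mk h1, fun h => h2 ?_⟩
    exact mk_inj (p := p) hQ (by omega) (ei_pow hr.hu hr.huw) (k := 3) (l := 0) (one_pow _) h

/-- decompositions in the quotient -/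
theorem Dset_mk (hV : 7 ≤ finrank F V) {z : eichG Q} (hz : z ^ (p ^ 3) = 1) {r : eichG Q ⧸ Subgroup.center (eichG Q)}
    (hr : r ∈ Dset (RS Q p) (QuotientGroup.mk z)) : ∃ u₁ w₁ u₂ w₂, Rt Q u₁ w₁ ∧ Rt Q u₂ w₂ ∧
      ei Q u₁ w₁ * ei Q u₂ w₂ = ei Q u₂ w₂ * ei Q u₁ w₁ ∧ r = E Q u₁ w₁ ∧ z = ei Q u₁ w₁ * ei Q u₂ w₂ := by
  obtain ⟨h1, h2, h3⟩ := hr
  obtain ⟨u₁, w₁, hr1, rfl⟩ := (mem_RS (p := p) hQ hV _).1 h1
  obtain ⟨u₂, w₂, hr2, h4⟩ := (mem_RS (p := p) hQ hV _).1 h2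
  have e1 : E Q u₁ w₁ * E Q u₂ w₂ = QuotientGroup.mk z := by rw [← h4, mul_inv_cancel_left]
  have e2 : E Q u₂ w₂ * E Q u₁ w₁ = QuotientGroup.mk z := by rw [← h4, mul_assoc, ← h3, inv_mul_cancel_left]
  have p1 := ei_pow (p := p) hr1.hu hr1.huw
  have p2 := ei_pow (p := p) hr2.hu hr2.huw
  have hc := mk_comm (p := p) hQ (by omega) p1 p2 (e1.trans e2.symm)
  refine ⟨u₁, w₁, u₂, w₂, hr1, hr2, hc, rfl, ?_⟩
  apply mk_inj (p := p) hQ (by omega) hz (l := 3) _ e1.symm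
  rw [Commute.mul_pow hc, p1, p2, one_mul]

omit [Finite F] in
/-- Siegel elements of non-singular vectors are not roots -/
theorem b_not_root {v w : V} (hv0 : v ≠ 0) (hv : Q v = 0) (hvw : β[Q] v w = 0) (hw : Q w ≠ 0) {u y : V}
    (hu : Q u = 0) (hy : Q y = 0) (huy : β[Q] u y = 0) : ei Q v w ≠ ei Q u y := by
  intro h
  obtain ⟨f, hf, hvf⟩ := exists_partner hQ hv0 hv
  have h3 := Q_diff hv hvw f
  rw [h, Q_diff hu huy, hy, hvf, mul_zero, one_pow, one_mul] at h3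
  exact hw h3.symm

theorem b_not_RS (hV : 7 ≤ finrank F V) {v w : V} (hv0 : v ≠ 0) (hv : Q v = 0) (hvw : β[Q] v w = 0) (hw : Q w ≠ 0) :
    E Q v w ∉ RS Q p ∧ E Q v w ≠ 1 := by
  constructor
  · intro h
    obtain ⟨u, y, hr, h1⟩ := (mem_RS (p := p) hQ hV _).1 h
    exact b_not_root hQ hv0 hv hvw hw hr.hu hr.hw hr.huw (E_inj hQ (by omega) hv hvw hr.hu hr.huw h1)
  · intro h
    have h1 : E Q v w = E Q v 0 := by rw [h, E_zero]
    exact b_not_root hQ hv0 hv hvw hw hv (QuadraticMap.map_zero Q) (by rw [LinearMap.map_zero])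
      (E_inj hQ (by omega) hv hvw hv (by rw [LinearMap.map_zero]) h1)

theorem Dset_b (hV : 7 ≤ finrank F V) {v w : V} (hv0 : v ≠ 0) (hv : Q v = 0) (hvw : β[Q] v w = 0) (hw : Q w ≠ 0)
    {r : eichG Q ⧸ Subgroup.center (eichG Q)} (hr : r ∈ Dset (RS Q p) (E Q v w)) : r ∈ Qb Q v := by
  obtain ⟨u₁, w₁, u₂, w₂, h1, h2, h3, rfl, h4⟩ := Dset_mk (p := p) hQ hV (ei_pow hv hvw) hr
  obtain ⟨a, ha, -, -, he⟩ := decomp_b hQ hv0 hv hvw hw h1 h2 h3 h4
  rw [E, he]
  exact E_mem_Qb ha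

omit [Fact p.Prime] [CharP F p] hQ [Finite F] in
theorem Q_sub_smul {v w : V} (hv : Q v = 0) (hvw : β[Q] v w = 0) (c : F) : Q (w - c • v) = Q w := by
  rw [Quad.map_sub, Quad.map_smul, hv, LinearMap.map_smul, polar_comm, hvw]
  simp

theorem E_mem_Dset (hV : 7 ≤ finrank F V) {v w a : V} (hv0 : v ≠ 0) (hv : Q v = 0) (hvw : β[Q] v w = 0) (hw : Q w ≠ 0)
    (hva : β[Q] v a = 0) (ha : Q a = 0) (hwa : Q (w - a) = 0) : E Q v a ∈ Dset (RS Q p) (E Q v w) := by
  have hvwa : β[Q] v (w - a) = 0 := by rw [LinearMap.map_sub, hvw, hva, sub_zero]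
  refine ⟨?_, ?_, ?_⟩
  · refine (mem_RS (p := p) hQ hV _).2 ⟨v, a, ⟨hv, ha, hva, li_of hv0 ?_⟩, rfl⟩
    rintro c rfl
    rw [Q_sub_smul hv hvw] at hwa
    exact hw hwa
  · refine (mem_RS (p := p) hQ hV _).2 ⟨v, w - a, ⟨hv, hwa, hvwa, li_of hv0 ?_⟩, ?_⟩
    · intro c hc
      have h1 : w = a + c • v := by rw [← hc]; abel
      apply hw
      rw [h1, Quad.map_add, Quad.map_smul, hv, ha, LinearMap.map_smul, polar_comm, hva]
      simp
    · rw [E_inv hv hva, E_mul hv (by rw [LinearMap.map_neg, hva, neg_zero]) hvw]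
      congr 1
      abel
  · rw [E_mul hv hva hvw, E_mul hv hvw hva, add_comm]

/-- first step: the span of the decompositions -/
theorem E_mem_DN (hV : 7 ≤ finrank F V) {v a b x : V} (hv0 : v ≠ 0) (hv : Q v = 0) (hva : β[Q] v a = 0)
    (hvb : β[Q] v b = 0) (ha : Q a = 0) (hb : Q b = 0) (hab : β[Q] a b ≠ 0) (hvx : β[Q] v x = 0)
    (hax : β[Q] a x = 0) (hbx : β[Q] b x = 0) : E Q v x ∈ DN (RS Q p) (E Q v (a + b)) := by
  have hb' : Q ((β[Q] a b)⁻¹ • b) = 0 := by rw [Quad.map_smul, hb, mul_zero]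
  have hab' : β[Q] a ((β[Q] a b)⁻¹ • b) = 1 := by rw [LinearMap.map_smul, smul_eq_mul, inv_mul_cancel₀ hab]
  set M := hperp Q a ((β[Q] a b)⁻¹ • b) with hM
  have hmemM : ∀ y, y ∈ M ↔ β[Q] a y = 0 ∧ β[Q] b y = 0 := by
    intro y
    rw [hM, mem_hperp, LinearMap.map_smul, LinearMap.smul_apply, smul_eq_mul]
    constructor
    · rintro ⟨h1, h2⟩
      exact ⟨h1, (mul_eq_zero.1 h2).resolve_left (inv_ne_zero hab)⟩
    · rintro ⟨h1, h2⟩
      exact ⟨h1, by rw [h2, mul_zero]⟩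
  have hN := resQ_hperp_nondegenerate hQ ha hb' hab'
  have hdim := finrank_hperp hQ ha hb' hab'
  rw [← hM] at hN hdim
  have hvM : v ∈ M := (hmemM v).2 ⟨by rw [polar_comm, hva], by rw [polar_comm, hvb]⟩
  have hxM : x ∈ M := (hmemM x).2 ⟨hax, hbx⟩
  obtain ⟨f, hf, hvf⟩ := exists_partner hN (e := ⟨v, hvM⟩) (fun h => hv0 (congrArg Subtype.val h)) hv
  have hN1 := resQ_hperp_nondegenerate hN (e := ⟨v, hvM⟩) hv hf hvf
  have hdim1 := finrank_hperp hN (e := ⟨v, hvM⟩) hv hf hvf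
  set M1 := hperp (resQ Q M) ⟨v, hvM⟩ f with hM1
  have hQw : Q (a + b) ≠ 0 := by rw [Quad.map_add, ha, hb]; simpa using hab
  have hvab : β[Q] v (a + b) = 0 := by rw [LinearMap.map_add, hva, hvb, add_zero]
  have hba : β[Q] b a = β[Q] a b := polar_comm _ _ _
  -- elements of `M1`
  have hM1v : ∀ m : M1, β[Q] v m.1.1 = 0 := fun m => (mem_hperp.1 m.2).1
  have hea : E Q v a ∈ DN (RS Q p) (E Q v (a + b)) := by
    apply Subgroup.subset_closure
    apply E_mem_Dset hQ hV hv0 hv hvab hQw hva ha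
    rw [add_sub_cancel_left, hb]
  have key : ∀ (m : M1) (c : F), E Q v (c • m.1.1) ∈ DN (RS Q p) (E Q v (a + b)) := by
    intro m
    have hz : m ∈ Submodule.span F {s : M1 | resQ (resQ Q M) M1 s = 0} := by
      rw [span_singular hN1 (by omega)]
      trivial
    induction hz using Submodule.span_induction with
    | mem s hs =>
      intro c
      have hs0 : Q s.1.1 = 0 := hs
      have hsv := hM1v s
      have hsM := (hmemM s.1.1).1 s.1.2
      have h1 : E Q v (a + c • s.1.1) ∈ DN (RS Q p) (E Q v (a + b)) := by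
        apply Subgroup.subset_closure
        apply E_mem_Dset hQ hV hv0 hv hvab hQw
        · rw [LinearMap.map_add, LinearMap.map_smul, hva, hsv]
          simp
        · rw [Quad.map_add, Quad.map_smul, ha, hs0, LinearMap.map_smul, hsM.1]
          simp
        · have e : a + b - (a + c • s.1.1) = b - c • s.1.1 := by abel
          rw [e, Quad.map_sub, Quad.map_smul, hb, hs0, LinearMap.map_smul, hsM.2]
          simp
      have h2 := mul_mem h1 (inv_mem hea)
      rw [E_inv hv hva, E_mul hv (by rw [LinearMap.map_add, LinearMap.map_smul, hva, hsv]; simp)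
        (by rw [LinearMap.map_neg, hva, neg_zero])] at h2
      have e : a + c • s.1.1 + -a = c • s.1.1 := by abel
      rwa [e] at h2
    | zero =>
      intro c
      have : c • ((0 : M1).1.1 : V) = 0 := smul_zero c
      rw [this, E_zero]
      exact one_mem _
    | add s t _ _ hs ht =>
      intro c
      have h1 := mul_mem (hs c) (ht c)
      rw [E_mul hv (by rw [LinearMap.map_smul, hM1v s, smul_zero]) (by rw [LinearMap.map_smul, hM1v t, smul_zero]),
        ← smul_add] at h1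
      exact h1
    | smul d s _ hs =>
      intro c
      have h1 := hs (c * d)
      rw [mul_smul] at h1
      exact h1
  have h1 := key ⟨_, hperp_decomp (Q := resQ Q M) (e := ⟨v, hvM⟩) (f := f) hv hf hvf ⟨x, hxM⟩⟩ 1
  have h2 : E Q v ((1 : F) • (x - β[Q] f.1 x • v - β[Q] v x • f.1)) ∈ DN (RS Q p) (E Q v (a + b)) := h1
  rwa [one_smul, hvx, zero_smul, sub_zero, E_sub_self hv hvx] at h2

/-- the second step -/
theorem D2_b (hV : 7 ≤ finrank F V) {v w : V} (hv0 : v ≠ 0) (hv : Q v = 0) (hvw : β[Q] v w = 0) (hw : Q w ≠ 0) :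
    D2 (RS Q p) (E Q v w) = Qb Q v := by
  have hDN : ∀ w, β[Q] v w = 0 → Q w ≠ 0 → DN (RS Q p) (E Q v w) ≤ Qb Q v := by
    intro w hvw hw
    rw [DN, Subgroup.closure_le]
    intro r hr
    exact Dset_b hQ hV hv0 hv hvw hw hr
  apply le_antisymm
  · rw [D2, Subgroup.closure_le]
    rintro r ⟨z', h1, h2, h3, h4⟩
    obtain ⟨y, hy, rfl⟩ := (mem_Qb hv).1 (hDN w hvw hw h1)
    apply Dset_b hQ hV hv0 hv hy _ h4
    intro hy0
    by_cases hd : ∃ c : F, y = c • v
    · obtain ⟨c, rfl⟩ := hd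
      apply h3
      rw [E_self hv]
    · push Not at hd
      exact h2 ((mem_RS (p := p) hQ hV _).2 ⟨v, y, ⟨hv, hy0, hy, li_of hv0 hd⟩, rfl⟩)
  · obtain ⟨f, hf, hvf⟩ := exists_partner hQ hv0 hv
    -- move `w` into the complement
    obtain ⟨w', hw'1, hw'2, hEw⟩ : ∃ w', w' ∈ hperp Q v f ∧ Q w' ≠ 0 ∧ E Q v w = E Q v w' := by
      refine ⟨w - β[Q] f w • v - β[Q] v w • f, hperp_decomp hv hf hvf w, ?_, ?_⟩
      · rw [hvw, zero_smul, sub_zero, Q_sub_smul hv hvw]
        exact hw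
      · rw [hvw, zero_smul, sub_zero, E_sub_self hv hvw]
    rw [hEw]
    have hN := resQ_hperp_nondegenerate hQ hv hf hvf
    have hdim := finrank_hperp hQ hv hf hvf
    obtain ⟨e, f', he, hf', hef', hwe⟩ := exists_pair_of_nonsingular hN (by omega) (v := ⟨w', hw'1⟩) hw'2
    have hdim2 := finrank_hperp hN he hf' hef'
    have hN2 := resQ_hperp_nondegenerate hN he hf' hef'
    obtain ⟨a', ha'0, ha'⟩ := exists_singular hN2 (by omega)
    obtain ⟨b', hb', hab'⟩ := exists_partner hN2 ha'0 ha'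
    -- names in `V`
    have he0 : Q e.1 = 0 := he
    have hf0 : Q f'.1 = 0 := hf'
    have hef0 : β[Q] e.1 f'.1 = 1 := hef'
    have hve : β[Q] v e.1 = 0 := (mem_hperp.1 e.2).1
    have hvf' : β[Q] v f'.1 = 0 := (mem_hperp.1 f'.2).1
    have hc0 : Q w' ≠ 0 := hw'2
    have hwe' : w' = e.1 + Q w' • f'.1 := congrArg Subtype.val hwe
    have ha0 : Q a'.1.1 = 0 := ha'
    have hb0 : Q b'.1.1 = 0 := hb'
    have hab0 : β[Q] a'.1.1 b'.1.1 = 1 := hab'
    have hva' : β[Q] v a'.1.1 = 0 := (mem_hperp.1 a'.1.2).1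
    have hvb' : β[Q] v b'.1.1 = 0 := (mem_hperp.1 b'.1.2).1
    have hea : β[Q] e.1 a'.1.1 = 0 := (mem_hperp.1 a'.2).1
    have hfa : β[Q] f'.1 a'.1.1 = 0 := (mem_hperp.1 a'.2).2
    have heb : β[Q] e.1 b'.1.1 = 0 := (mem_hperp.1 b'.2).1
    have hfb : β[Q] f'.1 b'.1.1 = 0 := (mem_hperp.1 b'.2).2
    generalize he1 : e.1 = e1 at *
    generalize hf1 : f'.1 = f1 at *
    generalize ha1 : a'.1.1 = a1 at *
    generalize hb1 : b'.1.1 = b1 at *
    have hb2 : Q (Q w' • f1) = 0 := by rw [Quad.map_smul, hf0, mul_zero]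
    have hvb2 : β[Q] v (Q w' • f1) = 0 := by rw [LinearMap.map_smul, hvf', smul_zero]
    have hab2 : β[Q] e1 (Q w' • f1) ≠ 0 := by rw [LinearMap.map_smul, hef0, smul_eq_mul, mul_one]; exact hc0
    have hEeq : E Q v w' = E Q v (e1 + Q w' • f1) := by rw [← hwe']
    -- the good elements
    have hz'' : E Q v (a1 + b1) ∈ DN (RS Q p) (E Q v w') := by
      rw [hEeq]
      apply E_mem_DN hQ hV hv0 hv hve hvb2 he0 hb2 hab2
      · rw [LinearMap.map_add, hva', hvb', add_zero]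
      · rw [LinearMap.map_add, hea, heb, add_zero]
      · rw [LinearMap.map_smul, LinearMap.smul_apply, LinearMap.map_add, hfa, hfb, add_zero, smul_zero]
    have hQab : Q (a1 + b1) ≠ 0 := by
      rw [Quad.map_add, ha0, hb0, hab0, zero_add, zero_add]
      exact one_ne_zero
    have hvab : β[Q] v (a1 + b1) = 0 := by rw [LinearMap.map_add, hva', hvb', add_zero]
    have hle2 : DN (RS Q p) (E Q v (a1 + b1)) ≤ D2 (RS Q p) (E Q v w') := by
      rw [DN, Subgroup.closure_le]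
      intro r hr
      have := b_not_RS (p := p) hQ hV hv0 hv hvab hQab
      exact Subgroup.subset_closure ⟨_, hz'', this.1, this.2, hr⟩
    have hvw' : β[Q] v w' = 0 := (mem_hperp.1 hw'1).1
    have hle1 : DN (RS Q p) (E Q v w') ≤ D2 (RS Q p) (E Q v w') := by
      have hself : E Q v w' ∈ DN (RS Q p) (E Q v w') := by
        have h1 : E Q v e1 ∈ DN (RS Q p) (E Q v w') := by
          apply Subgroup.subset_closure
          apply E_mem_Dset hQ hV hv0 hv hvw' hw'2 hve he0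
          have e : w' - e1 = Q w' • f1 := by
            nth_rw 1 [hwe']
            abel
          rw [e, hb2]
        have h2 : E Q v (Q w' • f1) ∈ DN (RS Q p) (E Q v w') := by
          apply Subgroup.subset_closure
          apply E_mem_Dset hQ hV hv0 hv hvw' hw'2 hvb2 hb2
          have e : w' - Q w' • f1 = e1 := by
            nth_rw 1 [hwe']
            abel
          rw [e, he0]
        have h3 := mul_mem h1 h2
        rw [E_mul hv hve hvb2, ← hwe'] at h3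
        exact h3
      rw [DN, Subgroup.closure_le]
      intro r hr
      have := b_not_RS (p := p) hQ hV hv0 hv hvw' hw'2
      exact Subgroup.subset_closure ⟨_, hself, this.1, this.2, hr⟩
    intro r hr
    obtain ⟨x, hx, rfl⟩ := (mem_Qb hv).1 hr
    -- decompose `x`
    have hfe : β[Q] f1 e1 = 1 := by rw [polar_comm, hef0]
    set x' := β[Q] f1 x • e1 + β[Q] e1 x • f1 with hx'
    have hvx' : β[Q] v x' = 0 := by
      rw [hx', LinearMap.map_add, LinearMap.map_smul, LinearMap.map_smul, hve, hvf']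
      simp
    have hvx'' : β[Q] v (x - x') = 0 := by rw [LinearMap.map_sub, hx, hvx', sub_zero]
    have p1 : E Q v (x - x') ∈ D2 (RS Q p) (E Q v w') := by
      apply hle1
      rw [hEeq]
      apply E_mem_DN hQ hV hv0 hv hve hvb2 he0 hb2 hab2 hvx''
      · rw [hx', LinearMap.map_sub, LinearMap.map_add, LinearMap.map_smul, LinearMap.map_smul, pol_self he0, hef0]
        simp
      · rw [LinearMap.map_smul, LinearMap.smul_apply, hx', LinearMap.map_sub, LinearMap.map_add, LinearMap.map_smul,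
          LinearMap.map_smul, pol_self hf0, hfe]
        simp
    have p2 : E Q v x' ∈ D2 (RS Q p) (E Q v w') := by
      apply hle2
      apply E_mem_DN hQ hV hv0 hv hva' hvb' ha0 hb0 (by rw [hab0]; exact one_ne_zero) hvx'
      · rw [hx', LinearMap.map_add, LinearMap.map_smul, LinearMap.map_smul, polar_comm Q a1 e1, polar_comm Q a1 f1, hea, hfa]
        simp
      · rw [hx', LinearMap.map_add, LinearMap.map_smul, LinearMap.map_smul, polar_comm Q b1 e1, polar_comm Q b1 f1, heb, hfb]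
        simp
    have p3 := mul_mem p1 p2
    rw [E_mul hv hvx'' hvx', sub_add_cancel] at p3
    exact p3

omit hQ [Finite F] in
theorem Lam_pow {U : Submodule F V} {z : eichG Q} (hz : z ∈ Lam Q U) : z ^ (p ^ 3) = 1 := by
  apply unip
  apply LinearMap.ext
  intro x
  have hT : ∀ x, (z.1.1.toLinearMap - 1 : Module.End F V) x = z.1.1 x - x := fun x => rfl
  have h0 : ∀ x, (z.1.1.toLinearMap - 1 : Module.End F V) ((z.1.1.toLinearMap - 1 : Module.End F V) x) = 0 := by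
    intro x
    rw [hT x, hT, hz.2.2 _ (hz.1 x), sub_self]
  have e5 : ((z.1.1.toLinearMap - 1 : Module.End F V) ^ 5) x =
    (z.1.1.toLinearMap - 1 : Module.End F V) ((z.1.1.toLinearMap - 1 : Module.End F V)
      ((z.1.1.toLinearMap - 1 : Module.End F V) ((z.1.1.toLinearMap - 1 : Module.End F V)
        ((z.1.1.toLinearMap - 1 : Module.End F V) x)))) := rfl
  rw [e5, h0, LinearMap.zero_apply]

/-- the other type -/
theorem D2_c (hV : 7 ≤ finrank F V) {U : Submodule F V} (hU : ∀ x ∈ U, Q x = 0) {z : eichG Q} (hz : z ∈ Lam Q U)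
    (hz1 : (QuotientGroup.mk z : eichG Q ⧸ Subgroup.center (eichG Q)) ≠ 1)
    (hz2 : (QuotientGroup.mk z : eichG Q ⧸ Subgroup.center (eichG Q)) ∉ RS Q p) :
    D2 (RS Q p) (QuotientGroup.mk z) ≤ (Lam Q U).map (QuotientGroup.mk' (Subgroup.center (eichG Q))) := by
  have key : ∀ z : eichG Q, z ∈ Lam Q U → (QuotientGroup.mk z : eichG Q ⧸ Subgroup.center (eichG Q)) ≠ 1 →
      (QuotientGroup.mk z : eichG Q ⧸ Subgroup.center (eichG Q)) ∉ RS Q p → ∀ r ∈ Dset (RS Q p) (QuotientGroup.mk z),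
      r ∈ (Lam Q U).map (QuotientGroup.mk' (Subgroup.center (eichG Q))) := by
    intro z hz hz1 hz2 r hr
    obtain ⟨u₁, w₁, u₂, w₂, h1, h2, h3, rfl, h4⟩ := Dset_mk (p := p) hQ hV (Lam_pow hz) hr
    refine ⟨_, decomp_c hQ hU hz (fun h => hz1 (by rw [h]; rfl)) ?_ h1 h2 h3 h4, rfl⟩
    intro u w hr h
    apply hz2
    exact (mem_RS (p := p) hQ hV _).2 ⟨u, w, hr, by rw [h]; rfl⟩
  have hDN : DN (RS Q p) (QuotientGroup.mk z) ≤ (Lam Q U).map (QuotientGroup.mk' (Subgroup.center (eichG Q))) := by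
    rw [DN, Subgroup.closure_le]
    exact key z hz hz1 hz2
  rw [D2, Subgroup.closure_le]
  rintro r ⟨z', h1, h2, h3, h4⟩
  obtain ⟨z0, hz0, rfl⟩ := hDN h1
  exact key z0 hz0 h3 h2 r h4

omit [Finite F] in
theorem card_hperp_fun [Finite F] (W : Submodule F V) : Nat.card W = Nat.card F ^ finrank F W := by
  have hVf : Finite V := Module.finite_of_finite F
  have := Fintype.ofFinite F
  have := Fintype.ofFinite W
  rw [Nat.card_eq_fintype_card, Nat.card_eq_fintype_card]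
  exact Module.card_eq_pow_finrank

theorem card_Qb (hV : 5 ≤ finrank F V) {v : V} (hv0 : v ≠ 0) (hv : Q v = 0) :
    Nat.card (Qb Q v) = Nat.card F ^ (finrank F V - 2) := by
  obtain ⟨f, hf, hvf⟩ := exists_partner hQ hv0 hv
  have hdim := finrank_hperp hQ hv hf hvf
  have h1 := card_hperp_fun hQ (hperp Q v f)
  have h2 : finrank F V - 2 = finrank F (hperp Q v f) := by omega
  rw [h2, ← h1]
  symm
  refine Nat.card_congr (Equiv.ofBijective (fun w => ⟨E Q v w.1, E_mem_Qb (mem_hperp.1 w.2).1⟩) ⟨?_, ?_⟩)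
  · intro w w' hww
    have h3 : E Q v w.1 = E Q v w'.1 := congrArg Subtype.val hww
    rw [E_eq_iff hQ hV hv0 hv (mem_hperp.1 w.2).1 (mem_hperp.1 w'.2).1] at h3
    obtain ⟨c, hc⟩ := h3
    apply Subtype.ext
    have h4 : β[Q] f w.1 = β[Q] f (w'.1 + c • v) := by rw [hc]
    rw [LinearMap.map_add, (mem_hperp.1 w.2).2, (mem_hperp.1 w'.2).2, LinearMap.map_smul, polar_comm, hvf] at h4
    have h5 : c = 0 := by simpa using h4.symm
    rw [hc, h5, zero_smul, add_zero]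
  · rintro ⟨z, hz⟩
    obtain ⟨y, hy, rfl⟩ := (mem_Qb hv).1 hz
    refine ⟨⟨y - β[Q] f y • v - β[Q] v y • f, hperp_decomp hv hf hvf y⟩, ?_⟩
    apply Subtype.ext
    change E Q v (y - β[Q] f y • v - β[Q] v y • f) = E Q v y
    rw [hy, zero_smul, sub_zero, E_sub_self hv hy]

/-- automorphisms permute the Siegel groups of singular points -/
theorem exists_Qb (hV : 7 ≤ finrank F V) (hH : 9 ≤ finrank F V ∨ ∀ U : Submodule F V, (∀ x ∈ U, Q x = 0) → finrank F U ≠ 4)
    (α : MulAut (eichG Q ⧸ Subgroup.center (eichG Q))) {v : V} (hv0 : v ≠ 0) (hv : Q v = 0) :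
    ∃ v', v' ≠ 0 ∧ Q v' = 0 ∧ (Qb Q v).map α.toMonoidHom = Qb Q v' := by
  obtain ⟨p, hp⟩ := CharP.exists F
  have : Fact p.Prime := ⟨CharP.char_is_prime F p⟩
  have hGf := finG Q
  have hα : ∀ r, α r ∈ RS Q p ↔ r ∈ RS Q p := by
    intro r
    constructor
    · rintro ⟨h1, h2⟩
      refine ⟨?_, fun h => h2 (by rw [h, map_one])⟩
      have := h1.map α.symm
      rwa [MulEquiv.symm_apply_apply] at this
    · rintro ⟨h1, h2⟩
      exact ⟨h1.map α, fun h => h2 (α.injective (by rw [h, map_one]))⟩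
  obtain ⟨f, hf, hvf⟩ := exists_partner hQ hv0 hv
  obtain ⟨w, hvw, hfw, hw⟩ := exists_hperp_map_eq hQ hv hf hvf (by omega) (1 : F)
  have hw0 : Q w ≠ 0 := by rw [hw]; exact one_ne_zero
  have hgood : Good (RS Q p) (E Q v w) := by
    refine ⟨(b_not_RS hQ hV hv0 hv hvw hw0).1, (b_not_RS (p := p) hQ hV hv0 hv hvw hw0).2, ?_⟩
    have hN := resQ_hperp_nondegenerate hQ hv hf hvf
    have hdim := finrank_hperp hQ hv hf hvf
    obtain ⟨e, f', he, hf', hef', hwe⟩ := exists_pair_of_nonsingular hN (by omega) (v := ⟨w, mem_hperp.2 ⟨hvw, hfw⟩⟩) hw0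
    have hwe' : w = e.1 + Q w • f'.1 := congrArg Subtype.val hwe
    refine ⟨E Q v e.1, E_mem_Dset hQ hV hv0 hv hvw hw0 (mem_hperp.1 e.2).1 he ?_⟩
    have e : w - e.1 = Q w • f'.1 := by
      nth_rw 1 [hwe']
      abel
    rw [e, Quad.map_smul]
    have : Q f'.1 = 0 := hf'
    rw [this, mul_zero]
  have hgood' := hgood.map α hα
  have hmap := D2_map α hα (E Q v w)
  rw [D2_b hQ hV hv0 hv hvw hw0] at hmap
  obtain ⟨g1, g2, r, hr⟩ := hgood'
  -- decompose the image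
  obtain ⟨⟨z, hz⟩⟩ : Nonempty {z : eichG Q // α (E Q v w) = QuotientGroup.mk z ∧ ∃ u₁ w₁ u₂ w₂, Rt Q u₁ w₁ ∧ Rt Q u₂ w₂ ∧
      ei Q u₁ w₁ * ei Q u₂ w₂ = ei Q u₂ w₂ * ei Q u₁ w₁ ∧ z = ei Q u₁ w₁ * ei Q u₂ w₂} := by
    obtain ⟨h1, h2, h3⟩ := hr
    obtain ⟨u₁, w₁, hr1, rfl⟩ := (mem_RS (p := p) hQ hV _).1 h1
    obtain ⟨u₂, w₂, hr2, h4⟩ := (mem_RS (p := p) hQ hV _).1 h2
    have e1 : E Q u₁ w₁ * E Q u₂ w₂ = α (E Q v w) := by rw [← h4, mul_inv_cancel_left]
    have e2 : E Q u₂ w₂ * E Q u₁ w₁ = α (E Q v w) := by rw [← h4, mul_assoc, ← h3, inv_mul_cancel_left]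
    have p1 := ei_pow (p := p) hr1.hu hr1.huw
    have p2 := ei_pow (p := p) hr2.hu hr2.huw
    have hc := mk_comm (p := p) hQ (by omega) p1 p2 (e1.trans e2.symm)
    exact ⟨⟨_, e1.symm, u₁, w₁, u₂, w₂, hr1, hr2, hc, rfl⟩⟩
  obtain ⟨hz0, u₁, w₁, u₂, w₂, hr1, hr2, hc, rfl⟩ := hz
  rw [hz0] at g1 g2 hmap
  rcases comm_cases hQ hr1 hr2 hc with ⟨x, y1, y2, hy1, hy2, he1, he2⟩ | ⟨hli, e1, e2, e3, e4⟩
  · have hxy : β[Q] x (y1 + y2) = 0 := by rw [LinearMap.map_add, hy1.huw, hy2.huw, add_zero]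
    have he : ei Q u₁ w₁ * ei Q u₂ w₂ = ei Q x (y1 + y2) := by rw [he1, he2, ei_mul hy1.hu hy1.huw hy2.huw]
    rw [he] at g1 g2 hmap
    have hy : Q (y1 + y2) ≠ 0 := by
      intro h0
      by_cases hd : ∃ c : F, y1 + y2 = c • x
      · obtain ⟨c, hc⟩ := hd
        apply g2
        rw [hc, ei_self hy1.hu]
        rfl
      · push Not at hd
        exact g1 ((mem_RS (p := p) hQ hV _).2 ⟨x, y1 + y2, ⟨hy1.hu, h0, hxy, li_of hy1.u0 hd⟩, rfl⟩)
    refine ⟨x, hy1.u0, hy1.hu, ?_⟩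
    rw [hmap]
    exact D2_b hQ hV hy1.u0 hy1.hu hxy hy
  · exfalso
    set U := Submodule.span F (Set.range ![u₁, w₁, u₂, w₂]) with hUdef
    have hU : ∀ x ∈ U, Q x = 0 := by
      intro x hx
      rw [hUdef, Submodule.mem_span_range_iff_exists_fun] at hx
      obtain ⟨c, rfl⟩ := hx
      rw [Fin.sum_univ_four]
      exact comb4 hr1 hr2 e1 e2 e3 e4 _ _ _ _
    have m1 : u₁ ∈ U := Submodule.subset_span ⟨0, rfl⟩
    have m2 : w₁ ∈ U := Submodule.subset_span ⟨1, rfl⟩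
    have m3 : u₂ ∈ U := Submodule.subset_span ⟨2, rfl⟩
    have m4 : w₂ ∈ U := Submodule.subset_span ⟨3, rfl⟩
    rcases hH with hH | hH
    · have hz : ei Q u₁ w₁ * ei Q u₂ w₂ ∈ Lam Q U := mul_mem (hr1.mem_Lam hU m1 m2) (hr2.mem_Lam hU m3 m4)
      have h1 := D2_c hQ hV hU hz g2 g1
      rw [← hmap] at h1
      have h2 : Nat.card (Qb Q v) ≤ Nat.card (Lam Q U) := by
        have h3 : Nat.card ((Qb Q v).map α.toMonoidHom) = Nat.card (Qb Q v) :=
          Nat.card_congr ((Qb Q v).equivMapOfInjective α.toMonoidHom α.injective).symm.toEquiv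
        rw [← h3]
        refine (Nat.card_le_card_of_injective _ (Subgroup.inclusion_injective h1)).trans ?_
        exact Nat.card_le_card_of_surjective ((QuotientGroup.mk' (Subgroup.center (eichG Q))).subgroupMap (Lam Q U))
          ((QuotientGroup.mk' (Subgroup.center (eichG Q))).subgroupMap_surjective (Lam Q U))
      have h3 := card_Lam hQ hU hli hUdef
      rw [card_Qb hQ (by omega) hv0 hv] at h2
      have h4 := h2.trans h3
      have hF : 1 < Nat.card F := Finite.one_lt_card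
      have h5 := (Nat.pow_le_pow_iff_right hF).1 h4
      omega
    · apply hH U hU
      rw [hUdef, finrank_span_eq_card hli, Fintype.card_fin]

end nd

end CfsgLib.AutPO
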