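import Cfsg.Agent.Lib.AutPO4

/-!
# Automorphisms of `PΩ(Q)`, part 5: intersections and semilinearity
-/

set_option autoImplicit false
set_option linter.unusedSimpArgs false
set_option linter.unusedSectionVars false

namespace CfsgLib.AutPO

open Module Cfsg CfsgLib.Quad
open CfsgLib.AutPSp (IsCen)

variable {F V : Type*} [Field F] [AddCommGroup V] [Module F V] [FiniteDimensional F V]

local notation "β[" Q "]" => QuadraticMap.polarBilin Q

variable {Q : QuadraticForm F V}

theorem Qb_smul {v : V} (hv : Q v = 0) {t : F} (ht : t ≠ 0) : Qb Q (t • v) = Qb Q v := by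
  have htv : Q (t • v) = 0 := by rw [Quad.map_smul, hv, mul_zero]
  ext z
  rw [mem_Qb htv, mem_Qb hv]
  constructor
  · rintro ⟨y, hy, rfl⟩
    have hy' : β[Q] v y = 0 := by
      rw [LinearMap.map_smul, LinearMap.smul_apply, smul_eq_mul] at hy
      exact (mul_eq_zero.mp hy).resolve_left ht
    refine ⟨t • y, by rw [LinearMap.map_smul, hy', smul_zero], ?_⟩
    rw [E, ei_smul hv hy']
    rfl
  · rintro ⟨y, hy, rfl⟩
    refine ⟨t⁻¹ • y, by rw [LinearMap.map_smul, LinearMap.map_smul, LinearMap.smul_apply, hy, smul_zero, smul_zero], ?_⟩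
    rw [E, E, ei_smul hv (by rw [LinearMap.map_smul, hy, smul_zero]), smul_smul, mul_inv_cancel₀ ht, one_smul]

theorem E_swap {u w : V} (hu : Q u = 0) (hw : Q w = 0) (huw : β[Q] u w = 0) : E Q u w = E Q w (-u) := by
  rw [E, ei_swap hu hw huw]
  rfl

theorem E_mem_Qb' {u w : V} (hu : Q u = 0) (hw : Q w = 0) (huw : β[Q] u w = 0) (t : F) : E Q u (t • w) ∈ Qb Q w := by
  rw [E_swap hu (by rw [Quad.map_smul, hw, mul_zero]) (by rw [LinearMap.map_smul, huw, smul_zero]), E, ei_smul hw (by
    rw [LinearMap.map_neg, polar_comm, huw, neg_zero])]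
  exact E_mem_Qb (by rw [LinearMap.map_smul, LinearMap.map_neg, polar_comm, huw]; simp)

theorem Qb_conj (g : eichG Q) {v : V} (hv : Q v = 0) :
    (Qb Q v).map (MulAut.conj (QuotientGroup.mk g : eichG Q ⧸ Subgroup.center (eichG Q))).toMonoidHom = Qb Q (g.1.1 v) := by
  have hgv : Q (g.1.1 v) = 0 := by rw [qf, hv]
  ext z
  rw [mem_Qb hgv]
  constructor
  · rintro ⟨x, hx, rfl⟩
    obtain ⟨y, hy, rfl⟩ := (mem_Qb hv).1 hx
    exact ⟨g.1.1 y, by rw [pol, hy], E_conj g hv hy⟩
  · rintro ⟨y, hy, rfl⟩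
    obtain ⟨y, rfl⟩ := g.1.1.surjective y
    rw [pol] at hy
    exact ⟨_, E_mem_Qb hy, E_conj g hv hy⟩

section nd

variable [Finite F] (hQ : (β[Q]).Nondegenerate)
include hQ

omit hQ in
theorem hperp_E_inj {v f : V} (hQ : (β[Q]).Nondegenerate) (hV : 5 ≤ finrank F V) (hv : Q v = 0) (hvf : β[Q] v f = 1) {w w' : V} (hw : w ∈ hperp Q v f)
    (hw' : w' ∈ hperp Q v f) (h : E Q v w = E Q v w') : w = w' := by
  have hv0 : v ≠ 0 := ne_zero_of_polar (Q := Q) (f := f) (by rw [hvf]; exact one_ne_zero)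
  rw [E_eq_iff hQ hV hv0 hv (mem_hperp.1 hw).1 (mem_hperp.1 hw').1] at h
  obtain ⟨c, hc⟩ := h
  have h4 : β[Q] f w = β[Q] f (w' + c • v) := by rw [hc]
  rw [LinearMap.map_add, (mem_hperp.1 hw).2, (mem_hperp.1 hw').2, LinearMap.map_smul, polar_comm, hvf] at h4
  have h5 : c = 0 := by simpa using h4.symm
  rw [hc, h5, zero_smul, add_zero]

/-- a non-trivial element in the intersection of two Siegel groups -/
theorem Qb_inf (hV : 5 ≤ finrank F V) {v u : V} (hv : Q v = 0) (hu : Q u = 0) (hli : LinearIndependent F ![v, u])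
    {z : eichG Q ⧸ Subgroup.center (eichG Q)} (hz : z ≠ 1) (h1 : z ∈ Qb Q v) (h2 : z ∈ Qb Q u) :
    β[Q] v u = 0 ∧ ∃ t : F, t ≠ 0 ∧ z = E Q v (t • u) := by
  have hv0 : v ≠ 0 := hli.ne_zero 0
  have hu0 : u ≠ 0 := hli.ne_zero 1
  obtain ⟨y, hy, rfl⟩ := (mem_Qb hv).1 h1
  obtain ⟨y', hy', h3⟩ := (mem_Qb hu).1 h2
  have h4 := E_inj hQ hV hv hy hu hy' h3
  have h5 : ∀ x, β[Q] v x ^ 2 * Q y = β[Q] u x ^ 2 * Q y' := by
    intro x
    rw [← Q_diff hv hy, ← Q_diff hu hy', h4]
  have hQy : Q y = 0 := by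
    obtain ⟨x, hx1, hx2⟩ := exists_dual2 hQ hli 1 0
    have := h5 x
    rw [hx1, hx2] at this
    simpa using this
  have hQy' : Q y' = 0 := by
    obtain ⟨x, hx1, hx2⟩ := exists_dual2 hQ hli 0 1
    have := h5 x
    rw [hx1, hx2] at this
    simpa using this.symm
  have hd : ∀ c : F, y ≠ c • v := by
    rintro c rfl
    exact hz (E_self hv c)
  have hd' : ∀ c : F, y' ≠ c • u := by
    rintro c rfl
    apply hz
    rw [h3]
    exact E_self hu c
  have hr : Rt Q v y := ⟨hv, hQy, hy, li_of hv0 hd⟩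
  have hr' : Rt Q u y' := ⟨hu, hQy', hy', li_of hu0 hd'⟩
  obtain ⟨x, hx1, hx2⟩ := exists_dual2 hQ hr'.li 0 (-1)
  have h6 : (ei Q v y).1.1 x = (ei Q u y').1.1 x := by rw [h4]
  rw [hr.ap_apply, hr'.ap_apply, hx1, hx2] at h6
  have h7 : u = (β[Q] v x) • y - (β[Q] y x) • v := by
    have : (x + (β[Q] v x) • y - (β[Q] y x) • v) - x = (x + (0 : F) • y' - (-1 : F) • u) - x := by rw [h6]
    have e : u = (x + (0 : F) • y' - (-1 : F) • u) - x := by module
    rw [e, ← this]
    module
  have ha : β[Q] v x ≠ 0 := by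
    intro h0
    rw [h0] at h7
    exact not_mem_of_li hli (-(β[Q] y x)) (by rw [h7]; module)
  constructor
  · rw [h7, LinearMap.map_sub, LinearMap.map_smul, LinearMap.map_smul, hy, pol_self hv]
    simp
  · refine ⟨(β[Q] v x)⁻¹, inv_ne_zero ha, ?_⟩
    rw [E_eq_iff hQ hV hv0 hv hy]
    · refine ⟨(β[Q] v x)⁻¹ * β[Q] y x, ?_⟩
      rw [h7, smul_sub, smul_smul, smul_smul, inv_mul_cancel₀ ha]
      module
    · rw [h7, LinearMap.map_smul, LinearMap.map_sub, LinearMap.map_smul, LinearMap.map_smul, hy, pol_self hv]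
      simp

theorem Qb_par (hV : 5 ≤ finrank F V) {v u : V} (hv0 : v ≠ 0) (hu0 : u ≠ 0) (hv : Q v = 0) (hu : Q u = 0) (h : Qb Q v = Qb Q u) :
    ∃ c : F, c ≠ 0 ∧ v = c • u := by
  obtain ⟨f, hf, hvf⟩ := exists_partner hQ hv0 hv
  obtain ⟨w, hvw, hfw, hw⟩ := exists_hperp_map_eq hQ hv hf hvf (by omega) (1 : F)
  have h1 : E Q v w ∈ Qb Q u := h ▸ E_mem_Qb hvw
  obtain ⟨y, hy, h2⟩ := (mem_Qb hu).1 h1
  exact par hQ hv0 hv hvw (by rw [hw]; exact one_ne_zero) hu0 hu hy (E_inj hQ hV hv hvw hu hy h2)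

theorem E_ne_one (hV : 5 ≤ finrank F V) {v w : V} (hr : Rt Q v w) {t : F} (ht : t ≠ 0) : E Q v (t • w) ≠ 1 := by
  intro h
  have h1 : E Q v (t • w) = E Q v 0 := by rw [h, E_zero]
  rw [E_eq_iff hQ hV hr.u0 hr.hu (by rw [LinearMap.map_smul, hr.huw, smul_zero]) (by rw [LinearMap.map_zero])] at h1
  obtain ⟨c, hc⟩ := h1
  rw [zero_add] at hc
  exact not_mem_of_li (hr.smul ht).li c hc

/-- connectivity of singular vectors under orthogonality -/
theorem const_of {X : Type*} (hV : 5 ≤ finrank F V) (d : V → X) (h : ∀ u w, Rt Q u w → d u = d w) {u w : V}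
    (hu0 : u ≠ 0) (hu : Q u = 0) (hw0 : w ≠ 0) (hw : Q w = 0) : d u = d w := by
  by_cases hli : ∃ c : F, w = c • u
  · obtain ⟨c, rfl⟩ := hli
    have hc : c ≠ 0 := by
      rintro rfl
      exact hw0 (zero_smul _ _)
    obtain ⟨x, hx⟩ := exists_Rt hQ hV hu0 hu
    have hx' : Rt Q (c • u) x := by
      refine ⟨hw, hx.hw, by rw [LinearMap.map_smul, LinearMap.smul_apply, hx.huw, smul_zero], li_of hw0 ?_⟩
      intro a ha
      exact not_mem_of_li hx.li (a * c) (by rw [ha, smul_smul])
    rw [h _ _ hx, h _ _ hx']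
  · push Not at hli
    by_cases huw : β[Q] u w = 0
    · exact h _ _ ⟨hu, hw, huw, li_of hu0 hli⟩
    · have hw' : Q ((β[Q] u w)⁻¹ • w) = 0 := by rw [Quad.map_smul, hw, mul_zero]
      have huw' : β[Q] u ((β[Q] u w)⁻¹ • w) = 1 := by rw [LinearMap.map_smul, smul_eq_mul, inv_mul_cancel₀ huw]
      have hN := resQ_hperp_nondegenerate hQ hu hw' huw'
      have hdim := finrank_hperp hQ hu hw' huw'
      obtain ⟨x, hx0, hx⟩ := exists_singular hN (by omega)
      have hx1 : β[Q] u x.1 = 0 := (mem_hperp.1 x.2).1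
      have hx2 : β[Q] w x.1 = 0 := by
        have := (mem_hperp.1 x.2).2
        rw [LinearMap.map_smul, LinearMap.smul_apply, smul_eq_mul] at this
        exact (mul_eq_zero.1 this).resolve_left (inv_ne_zero huw)
      have hx0' : x.1 ≠ 0 := fun h => hx0 (Subtype.ext h)
      have r1 : Rt Q u x.1 := by
        refine ⟨hu, hx, hx1, li_of hu0 ?_⟩
        intro c hc
        rw [hc, LinearMap.map_smul, polar_comm, smul_eq_mul] at hx2
        rcases mul_eq_zero.1 hx2 with h0 | h0
        · rw [h0, zero_smul] at hc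
          exact hx0' hc
        · exact huw h0
      have r2 : Rt Q w x.1 := by
        refine ⟨hw, hx, hx2, li_of hw0 ?_⟩
        intro c hc
        rw [hc, LinearMap.map_smul, smul_eq_mul] at hx1
        rcases mul_eq_zero.1 hx1 with h0 | h0
        · rw [h0, zero_smul] at hc
          exact hx0' hc
        · exact huw h0
      rw [h _ _ r1, h _ _ r2]

/-- additive maps preserving singular vectors are semisimilarities -/
theorem exists_semi (hV : 5 ≤ finrank F V) (A : V →+ V) (hA : Function.Injective A) (h1 : ∀ x, Q x = 0 → Q (A x) = 0)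
    (h2 : ∀ x, Q x = 0 → ∀ t : F, ∃ s : F, A (t • x) = s • A x) :
    ∃ (φ : F ≃+* F) (r : F), r ≠ 0 ∧ (∀ (t : F) (x : V), A (t • x) = φ t • A x) ∧ ∀ x, Q (A x) = r * φ (Q x) := by
  have h2' : ∀ (x : V) (t : F), ∃ s : F, Q x = 0 → A (t • x) = s • A x := by
    intro x t
    by_cases hx : Q x = 0
    · obtain ⟨s, hs⟩ := h2 x hx t
      exact ⟨s, fun _ => hs⟩
    · exact ⟨0, fun h => absurd h hx⟩
  choose s hs using h2'
  have hA0 : ∀ x, x ≠ 0 → A x ≠ 0 := fun x hx h => hx (hA (by rw [h, map_zero]))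
  -- injectivity and surjectivity of `s x`
  have hsinj : ∀ x, x ≠ 0 → Q x = 0 → Function.Injective (s x) := by
    intro x hx0 hx t t' htt
    have e : A (t • x) = A (t' • x) := by rw [hs x t hx, hs x t' hx, htt]
    exact smul_left_injective F hx0 (hA e)
  have hssurj : ∀ x, x ≠ 0 → Q x = 0 → Function.Surjective (s x) := fun x hx0 hx => Finite.surjective_of_injective (hsinj x hx0 hx)
  -- independence of the vector
  have hconst : ∀ u w, Rt Q u w → s u = s w := by
    intro u w hr
    funext t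
    have hAli : LinearIndependent F ![A u, A w] := by
      apply li_of (hA0 u hr.u0)
      intro c hc
      obtain ⟨t, rfl⟩ := hssurj u hr.u0 hr.hu c
      rw [← hs u t hr.hu] at hc
      exact not_mem_of_li hr.li t (hA hc)
    have huw : Q (u + w) = 0 := by rw [Quad.map_add, hr.hu, hr.hw, hr.huw]; ring
    have e1 := hs (u + w) t huw
    rw [smul_add, _root_.map_add, _root_.map_add, hs u t hr.hu, hs w t hr.hw] at e1
    have e2 : (s u t - s (u + w) t) • A u + (s w t - s (u + w) t) • A w = 0 := by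
      have : (s u t - s (u + w) t) • A u + (s w t - s (u + w) t) • A w =
        (s u t • A u + s w t • A w) - s (u + w) t • (A u + A w) := by module
      rw [this, e1, sub_self]
    have e3 := LinearIndependent.pair_iff.1 hAli _ _ e2
    rw [sub_eq_zero.1 e3.1, sub_eq_zero.1 e3.2]
  obtain ⟨u0, hu00, hu0⟩ := exists_singular hQ (by omega)
  have hsc : ∀ x, x ≠ 0 → Q x = 0 → s x = s u0 := fun x hx0 hx => const_of hQ hV s hconst hx0 hx hu00 hu0
  have hAsing : ∀ x, Q x = 0 → ∀ t, A (t • x) = s u0 t • A x := by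
    intro x hx t
    by_cases hx0 : x = 0
    · rw [hx0, smul_zero, map_zero, smul_zero]
    · rw [hs x t hx, hsc x hx0 hx]
  have hAu0 := hA0 u0 hu00
  let φ0 : F →+* F :=
    { toFun := s u0
      map_one' := by
        have := hs u0 1 hu0
        rw [one_smul] at this
        have e : (s u0 1 - 1) • A u0 = 0 := by rw [sub_smul, ← this, one_smul, sub_self]
        exact sub_eq_zero.1 ((smul_eq_zero.1 e).resolve_right hAu0)
      map_zero' := by
        have := hs u0 0 hu0
        rw [zero_smul, map_zero] at this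
        exact (smul_eq_zero.1 this.symm).resolve_right hAu0
      map_mul' := by
        intro a b
        have e1 := hs u0 (a * b) hu0
        have e2 : A (a • (b • u0)) = s u0 a • A (b • u0) := hAsing _ (by rw [Quad.map_smul, hu0, mul_zero]) a
        rw [mul_smul, e2, hs u0 b hu0, smul_smul] at e1
        exact (smul_left_injective F hAu0 e1).symm
      map_add' := by
        intro a b
        have e1 := hs u0 (a + b) hu0
        rw [add_smul, _root_.map_add, hs u0 a hu0, hs u0 b hu0, ← add_smul] at e1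
        exact (smul_left_injective F hAu0 e1).symm }
  let φ : F ≃+* F := RingEquiv.ofBijective φ0 ⟨hsinj u0 hu00 hu0, hssurj u0 hu00 hu0⟩
  have hφ : ∀ t, φ t = s u0 t := fun t => rfl
  have hAall : ∀ (x : V) (t : F), A (t • x) = φ t • A x := by
    intro x
    have hx : x ∈ Submodule.span F {v | Q v = 0} := by rw [span_singular hQ (by omega)]; trivial
    induction hx using Submodule.span_induction with
    | mem x hx => exact fun t => hAsing x hx t
    | zero => intro t; rw [smul_zero, map_zero, smul_zero]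
    | add x y _ _ hx hy => intro t; rw [smul_add, _root_.map_add, _root_.map_add, hx, hy, smul_add]
    | smul c x _ hx => intro t; rw [smul_smul, hx, hx, smul_smul, map_mul]
  -- the form
  obtain ⟨f, hf, huf⟩ := exists_partner hQ hu00 hu0
  have hN := resQ_hperp_nondegenerate hQ hu0 hf huf
  have hdim := finrank_hperp hQ hu0 hf huf
  have horth : ∀ e : V, Q e = 0 → (∀ w : hperp Q u0 f, β[Q] e w.1 = 0) → ∀ w : hperp Q u0 f, β[Q] (A e) (A w.1) = 0 := by
    intro e he hew w
    have hw : w ∈ Submodule.span F {v : hperp Q u0 f | resQ Q (hperp Q u0 f) v = 0} := by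
      rw [span_singular hN (by omega)]
      trivial
    induction hw using Submodule.span_induction with
    | mem x hx =>
      have hx' : Q x.1 = 0 := hx
      have e1 : Q (e + x.1) = 0 := by rw [Quad.map_add, he, hx', hew]; ring
      have e2 := h1 _ e1
      rw [_root_.map_add, Quad.map_add, h1 e he, h1 _ hx'] at e2
      simpa using e2
    | zero =>
      change β[Q] (A e) (A 0) = 0
      rw [map_zero, LinearMap.map_zero]
    | add x y _ _ hx hy =>
      change β[Q] (A e) (A (x.1 + y.1)) = 0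
      rw [_root_.map_add, LinearMap.map_add, hx, hy, add_zero]
    | smul c x _ hx =>
      change β[Q] (A e) (A (c • x.1)) = 0
      rw [hAall, LinearMap.map_smul, hx, smul_zero]
  have ho1 := horth u0 hu0 (fun w => (mem_hperp.1 w.2).1)
  have ho2 := horth f hf (fun w => (mem_hperp.1 w.2).2)
  set r := β[Q] (A u0) (A f) with hr
  have hQw : ∀ w : hperp Q u0 f, Q (A w.1) = r * φ (Q w.1) := by
    intro w
    have hw := mem_hperp.1 w.2
    have e1 : Q (u0 + w.1 - Q w.1 • f) = 0 := by
      rw [Quad.map_sub, Quad.map_add, Quad.map_smul, hu0, hf, hw.1, LinearMap.map_smul, LinearMap.map_add,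
        LinearMap.add_apply, huf, polar_comm Q w.1 f, hw.2]
      simp
    have e2 := h1 _ e1
    rw [_root_.map_sub, _root_.map_add, hAall, Quad.map_sub, Quad.map_add, Quad.map_smul, h1 u0 hu0, h1 f hf, ho1, LinearMap.map_smul,
      LinearMap.map_add, LinearMap.add_apply, ← hr, polar_comm Q (A w.1), ho2, smul_eq_mul] at e2
    linear_combination e2
  have hQA : ∀ x, Q (A x) = r * φ (Q x) := by
    intro x
    set w : hperp Q u0 f := ⟨_, hperp_decomp hu0 hf huf x⟩ with hw
    have hx : x = w.1 + β[Q] f x • u0 + β[Q] u0 x • f := by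
      rw [hw]
      module
    generalize β[Q] f x = a at hx
    generalize β[Q] u0 x = b at hx
    have hw' := mem_hperp.1 w.2
    have eA : A (w.1 + a • u0 + b • f) = A w.1 + φ a • A u0 + φ b • A f := by
      rw [_root_.map_add A, _root_.map_add A, hAall, hAall]
    rw [hx, eA, Quad.map_add_two, h1 u0 hu0, h1 f hf, hQw, polar_comm Q (A w.1), ho1,
      polar_comm Q (A w.1), ho2, ← hr, Quad.map_add_two, hu0, hf, polar_comm Q w.1, hw'.1, polar_comm Q w.1, hw'.2, huf]
    simp only [_root_.map_add φ, map_mul, map_pow, map_zero, map_one]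
    ring
  refine ⟨φ, r, ?_, fun t x => hAall x t, hQA⟩
  intro hr0
  -- surjectivity
  have hVf : Finite V := Module.finite_of_finite F
  have hsurj : Function.Surjective A := Finite.surjective_of_injective hA
  obtain ⟨w, hw1, hw2, hw3⟩ := exists_hperp_map_eq hQ hu0 hf huf (by omega) (1 : F)
  obtain ⟨x, rfl⟩ := hsurj w
  rw [hQA, hr0, zero_mul] at hw3
  exact zero_ne_one hw3

end nd

end CfsgLib.AutPO
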