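import Cfsg.Agent.Lib.AutPSL12
import Cfsg.Prelude.Def_LieTypeDatum

/-!
# Automorphisms of `S/Z(S)` induced by a group normalizing `S`; semilinear maps.

* `Norm j` : the elements of `X` normalizing the image of `j : S →* X`
* `psi` : the induced homomorphism `Norm j →* MulAut (S ⧸ center S)`
-/

set_option autoImplicit false
set_option linter.unusedSectionVars false

namespace CfsgLib.SemiAut

open Matrix

section abstract

variable {X S : Type*} [Group X] [Group S]

/-- a homomorphism from automorphisms of `S` to automorphisms of `S/Z(S)` -/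
def quotAut : MulAut S →* MulAut (S ⧸ Subgroup.center S) where
  toFun e := QuotientGroup.congr _ _ e (by
    apply le_antisymm
    · rintro _ ⟨z, hz, rfl⟩
      rw [Subgroup.mem_center_iff]
      intro y
      have h := Subgroup.mem_center_iff.1 hz (e.symm y)
      have h2 := congrArg e h
      rw [map_mul, map_mul, MulEquiv.apply_symm_apply] at h2
      exact h2
    · intro z hz
      refine ⟨e.symm z, ?_, e.apply_symm_apply z⟩
      change e.symm z ∈ Subgroup.center S
      rw [Subgroup.mem_center_iff]
      intro y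
      have h := Subgroup.mem_center_iff.1 hz (e y)
      have h2 := congrArg e.symm h
      rw [map_mul, map_mul, MulEquiv.symm_apply_apply] at h2
      exact h2)
  map_one' := by
    ext x
    induction x using QuotientGroup.induction_on with | H x => ?_
    rfl
  map_mul' a b := by
    ext x
    induction x using QuotientGroup.induction_on with | H x => ?_
    rfl

theorem quotAut_mk (e : MulAut S) (s : S) : quotAut e (QuotientGroup.mk s) = QuotientGroup.mk (e s) := rfl

/-- the normalizer of the image -/
abbrev NN (j : S →* X) : Subgroup X := Subgroup.normalizer (j.range : Set X)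

variable {j : S →* X} (hj : Function.Injective j)

theorem mem_norm {γ : X} (hγ : γ ∈ NN j) (s : S) : ∃ s', γ * j s * γ⁻¹ = j s' := by
  obtain ⟨s', hs'⟩ := (Subgroup.mem_normalizer_iff.1 hγ (j s)).1 ⟨s, rfl⟩
  exact ⟨s', hs'.symm⟩

theorem mem_norm_of [Finite S] (hj : Function.Injective j) {γ : X} (h : ∀ s, ∃ s', γ * j s * γ⁻¹ = j s') :
    γ ∈ NN j := by
  choose f hf using h
  have hinj : Function.Injective f := by
    intro a b hab
    apply hj
    have h1 : γ * j a * γ⁻¹ = γ * j b * γ⁻¹ := by rw [hf, hf, hab]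
    simpa using h1
  have hsurj : Function.Surjective f := Finite.injective_iff_surjective.1 hinj
  rw [Subgroup.mem_normalizer_iff]
  intro x
  constructor
  · rintro ⟨s, rfl⟩
    exact ⟨f s, (hf s).symm⟩
  · rintro ⟨s, hs⟩
    obtain ⟨t, rfl⟩ := hsurj s
    refine ⟨t, ?_⟩
    rw [← hf] at hs
    simpa using hs

/-- the automorphism of `S` -/
noncomputable def phi (γ : ↥(NN j)) : MulAut S where
  toFun s := (mem_norm γ.2 s).choose
  invFun s := (mem_norm (γ⁻¹).2 s).choose
  left_inv s := by
    apply hj
    rw [← (mem_norm (γ⁻¹).2 _).choose_spec, ← (mem_norm γ.2 _).choose_spec, Subgroup.coe_inv]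
    group
  right_inv s := by
    apply hj
    rw [← (mem_norm γ.2 _).choose_spec, ← (mem_norm (γ⁻¹).2 _).choose_spec, Subgroup.coe_inv]
    group
  map_mul' a b := by
    apply hj
    have h1 := (mem_norm γ.2 (a * b)).choose_spec
    have h2 := (mem_norm γ.2 a).choose_spec
    have h3 := (mem_norm γ.2 b).choose_spec
    refine h1.symm.trans ?_
    refine Eq.trans ?_ (map_mul j _ _).symm
    refine Eq.trans ?_ (congrArg₂ (· * ·) h2 h3)
    rw [map_mul]
    group

theorem phi_spec (γ : ↥(NN j)) (s : S) : j (phi hj γ s) = γ.1 * j s * γ.1⁻¹ := (mem_norm γ.2 s).choose_spec.symm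

/-- the induced automorphism of the central quotient -/
noncomputable def psi : ↥(NN j) →* MulAut (S ⧸ Subgroup.center S) where
  toFun γ := quotAut (phi hj γ)
  map_one' := by
    rw [← map_one quotAut]
    congr 1
    ext s
    apply hj
    rw [phi_spec]
    simp
  map_mul' a b := by
    rw [← map_mul quotAut]
    congr 1
    ext s
    apply hj
    rw [phi_spec, MulAut.mul_apply, phi_spec, phi_spec, Subgroup.coe_mul]
    group

theorem psi_mk (γ : ↥(NN j)) {s s' : S} (h : γ.1 * j s * γ.1⁻¹ = j s') :
    psi hj γ (QuotientGroup.mk s) = QuotientGroup.mk s' := by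
  change QuotientGroup.mk (phi hj γ s) = _
  congr 1
  apply hj
  rw [phi_spec, h]

theorem psi_unique (γ : ↥(NN j)) {β : MulAut (S ⧸ Subgroup.center S)}
    (h : ∀ s s', γ.1 * j s * γ.1⁻¹ = j s' → β (QuotientGroup.mk s) = QuotientGroup.mk s') : β = psi hj γ := by
  ext x
  induction x using QuotientGroup.induction_on with | H s => ?_
  obtain ⟨s', hs'⟩ := mem_norm γ.2 s
  rw [h s s' hs', psi_mk hj γ hs']

theorem psi_eq_one_iff (γ : ↥(NN j)) : psi hj γ = 1 ↔ ∀ s, ∃ z ∈ Subgroup.center S, γ.1 * j s * γ.1⁻¹ = j (s * z) := by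
  constructor
  · intro h s
    obtain ⟨s', hs'⟩ := mem_norm γ.2 s
    have h1 := psi_mk hj γ hs'
    rw [h, MulAut.one_apply, QuotientGroup.eq] at h1
    exact ⟨_, h1, by rw [mul_inv_cancel_left, hs']⟩
  · intro h
    symm
    apply psi_unique
    intro s s' hs
    obtain ⟨z, hz, hz'⟩ := h s
    have h1 : s' = s * z := hj (by rw [← hs, hz'])
    rw [h1, MulAut.one_apply, QuotientGroup.eq, inv_mul_cancel_left]
    exact hz

/-- inner automorphisms -/
theorem range_mem_norm (s : S) : j s ∈ NN j := Subgroup.le_normalizer ⟨s, rfl⟩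

theorem psi_range (s : S) : psi hj ⟨j s, range_mem_norm s⟩ = MulAut.conj (QuotientGroup.mk s) := by
  symm
  apply psi_unique
  intro t t' h
  have h1 : t' = s * t * s⁻¹ := hj (by rw [← h, map_mul, map_mul, map_inv])
  rw [h1]
  rfl

end abstract

section semilinear

variable (ι : Type*) [Fintype ι] [DecidableEq ι] (F : Type*) [Field F]

/-- field automorphisms acting on matrices -/
def gmHom : RingAut F →* MulAut (GL ι F) where
  toFun σ := Units.mapEquiv (RingEquiv.mapMatrix σ).toMulEquiv
  map_one' := by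
    ext g a b
    rfl
  map_mul' σ τ := by
    ext g a b
    rfl

/-- invertible semilinear maps -/
abbrev GamL := GL ι F ⋊[gmHom ι F] RingAut F

variable {ι F}

theorem gmHom_apply (σ : RingAut F) (g : GL ι F) : (gmHom ι F σ g).1 = g.1.map σ := rfl

/-- the semilinear map `v ↦ g σ(v)` -/
def sm (g : GL ι F) (σ : RingAut F) : GamL ι F := ⟨g, σ⟩

/-- linear maps as semilinear maps -/
def lin : GL ι F →* GamL ι F := SemidirectProduct.inl

theorem sm_mul (g h : GL ι F) (σ τ : RingAut F) : sm g σ * sm h τ = sm (g * gmHom ι F σ h) (σ * τ) := rfl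

theorem lin_eq (g : GL ι F) : lin g = sm g 1 := rfl

theorem lin_injective : Function.Injective (lin : GL ι F →* GamL ι F) := SemidirectProduct.inl_injective

theorem sm_inj {g h : GL ι F} {σ τ : RingAut F} : sm g σ = sm h τ ↔ g = h ∧ σ = τ := by
  constructor
  · intro h
    exact ⟨congrArg SemidirectProduct.left h, congrArg SemidirectProduct.right h⟩
  · rintro ⟨rfl, rfl⟩
    rfl

theorem sm_eq (g : GL ι F) (σ : RingAut F) : sm g σ = lin g * sm 1 σ := by
  rw [lin_eq, sm_mul]
  simp

theorem sm_conj_lin (g h : GL ι F) (σ : RingAut F) : sm g σ * lin h * (sm g σ)⁻¹ = lin (g * gmHom ι F σ h * g⁻¹) := by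
  rw [mul_inv_eq_iff_eq_mul, lin_eq, lin_eq, sm_mul, sm_mul]
  simp

theorem sm_one_pow (σ : RingAut F) (n : ℕ) : (sm (1 : GL ι F) σ) ^ n = sm 1 (σ ^ n) := by
  induction n with
  | zero => rfl
  | succ n ih => rw [pow_succ, ih, sm_mul, map_one, mul_one, pow_succ]

/-- scalar matrices -/
def IsScal (g : GL ι F) : Prop := ∃ c : F, g.1 = c • (1 : Matrix ι ι F)

end semilinear

end CfsgLib.SemiAut
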