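import Cfsg.Agent.Lib.AutPO5
import Cfsg.Agent.Lib.SemiAut

/-!
# Automorphisms of `PΩ(Q)`, part 6: semisimilarities and rigidity
-/

set_option autoImplicit false
set_option linter.unusedSimpArgs false
set_option linter.unusedSectionVars false

namespace CfsgLib.AutPO

open Module Cfsg CfsgLib.Quad
open CfsgLib.AutPSp (IsCen)

variable {F V : Type*} [Field F] [AddCommGroup V] [Module F V] [FiniteDimensional F V]

local notation "β[" Q "]" => QuadraticMap.polarBilin Q

variable {Q : QuadraticForm F V}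

/-- semisimilarities -/
structure SS (Q : QuadraticForm F V) (φ : F ≃+* F) (g : V ≃+ V) (r : F) : Prop where
  r0 : r ≠ 0
  smul : ∀ (t : F) (x : V), g (t • x) = φ t • g x
  q : ∀ x, Q (g x) = r * φ (Q x)

theorem SS.pol {φ : F ≃+* F} {g : V ≃+ V} {r : F} (h : SS Q φ g r) (x y : V) :
    β[Q] (g x) (g y) = r * φ (β[Q] x y) := by
  have h1 := h.q (x + y)
  rw [_root_.map_add g, Quad.map_add, Quad.map_add, h.q, h.q, _root_.map_add φ, _root_.map_add φ] at h1
  linear_combination h1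

theorem SS.comp {φ φ' : F ≃+* F} {g g' : V ≃+ V} {r r' : F} (h : SS Q φ g r) (h' : SS Q φ' g' r') :
    SS Q (φ'.trans φ) (g'.trans g) (r * φ r') := by
  refine ⟨mul_ne_zero h.r0 ((map_ne_zero φ).2 h'.r0), fun t x => ?_, fun x => ?_⟩
  · change g (g' (t • x)) = φ (φ' t) • g (g' x)
    rw [h'.smul, h.smul]
  · change Q (g (g' x)) = r * φ r' * φ (φ' (Q x))
    rw [h.q, h'.q, map_mul, mul_assoc]

theorem SS.symm {φ : F ≃+* F} {g : V ≃+ V} {r : F} (h : SS Q φ g r) :
    SS Q φ.symm g.symm (φ.symm r⁻¹) := by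
  refine ⟨(map_ne_zero φ.symm).2 (inv_ne_zero h.r0), fun t x => ?_, fun x => ?_⟩
  · apply g.injective
    rw [g.apply_symm_apply, h.smul, φ.apply_symm_apply, g.apply_symm_apply]
  · rw [← map_mul]
    apply φ.injective
    rw [φ.apply_symm_apply]
    have h1 := h.q (g.symm x)
    rw [g.apply_symm_apply] at h1
    rw [h1, inv_mul_cancel_left₀ h.r0]

theorem SS.of_G (g : eichG Q) : SS Q (RingEquiv.refl F) g.1.1.toAddEquiv 1 :=
  ⟨one_ne_zero, fun t x => ap_smul g t x, fun x => by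
    rw [one_mul]
    exact qf g x⟩

/-- conjugation of linear automorphisms by a semilinear map -/
def SS.conjL {φ : F ≃+* F} {g : V ≃+ V} {r : F} (h : SS Q φ g r) (s : V ≃ₗ[F] V) : V ≃ₗ[F] V where
  toFun x := g (s (g.symm x))
  map_add' x y := by rw [_root_.map_add g.symm, _root_.map_add s, _root_.map_add g]
  map_smul' t x := by
    rw [h.symm.smul, _root_.map_smul s, h.smul, φ.apply_symm_apply]
    rfl
  invFun x := g (s.symm (g.symm x))
  left_inv x := by
    change g (s.symm (g.symm (g (s (g.symm x))))) = x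
    rw [g.symm_apply_apply, s.symm_apply_apply, g.apply_symm_apply]
  right_inv x := by
    change g (s (g.symm (g (s.symm (g.symm x))))) = x
    rw [g.symm_apply_apply, s.apply_symm_apply, g.apply_symm_apply]

theorem SS.conjL_apply {φ : F ≃+* F} {g : V ≃+ V} {r : F} (h : SS Q φ g r) (s : V ≃ₗ[F] V) (x : V) :
    h.conjL s (g x) = g (s x) := by
  change g (s (g.symm (g x))) = _
  rw [g.symm_apply_apply]

theorem SS.conjL_mem {φ : F ≃+* F} {g : V ≃+ V} {r : F} (h : SS Q φ g r) {s : V ≃ₗ[F] V} (hs : s ∈ O Q) :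
    h.conjL s ∈ O Q := by
  rw [mem_O]
  intro x
  obtain ⟨y, rfl⟩ := g.surjective x
  rw [h.conjL_apply, h.q, h.q, mem_O.1 hs]

/-- the induced automorphism of the orthogonal group -/
def SS.conjO {φ : F ≃+* F} {g : V ≃+ V} {r : F} (h : SS Q φ g r) : MulAut (O Q) where
  toFun s := ⟨h.conjL s.1, h.conjL_mem s.2⟩
  invFun s := ⟨h.symm.conjL s.1, h.symm.conjL_mem s.2⟩
  left_inv s := by
    apply Subtype.ext
    apply LinearEquiv.ext
    intro x
    change g.symm (g (s.1 (g.symm (g x)))) = s.1 x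
    rw [g.symm_apply_apply, g.symm_apply_apply]
  right_inv s := by
    apply Subtype.ext
    apply LinearEquiv.ext
    intro x
    change g (g.symm (s.1 (g (g.symm x)))) = s.1 x
    rw [g.apply_symm_apply, g.apply_symm_apply]
  map_mul' s t := by
    apply Subtype.ext
    apply LinearEquiv.ext
    intro x
    change g (s.1 (t.1 (g.symm x))) = g (s.1 (g.symm (g (t.1 (g.symm x)))))
    rw [g.symm_apply_apply]

/-- the restriction to the Siegel group -/
theorem SS.exists_ind {φ : F ≃+* F} {g : V ≃+ V} {r : F} (h : SS Q φ g r) [Finite F] (hQ : (β[Q]).Nondegenerate)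
    (hV : 7 ≤ finrank F V) : ∃ B : MulAut (eichG Q), ∀ (s : eichG Q) (x : V), (B s).1.1 (g x) = g (s.1.1 x) := by
  have hmem : ∀ (c : MulAut (O Q)) (s : O Q), s ∈ eichG Q → c s ∈ eichG Q := by
    intro c s hs
    rw [← commutator_eq_eichG hQ hV] at hs ⊢
    exact (mem_commutator_congr c s).2 hs
  refine ⟨{ toFun := fun s => ⟨h.conjO s.1, hmem _ _ s.2⟩
            invFun := fun s => ⟨h.conjO.symm s.1, hmem h.conjO.symm _ s.2⟩
            left_inv := fun s => Subtype.ext (h.conjO.symm_apply_apply s.1)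
            right_inv := fun s => Subtype.ext (h.conjO.apply_symm_apply s.1)
            map_mul' := fun s t => Subtype.ext (map_mul h.conjO s.1 t.1) }, ?_⟩
  intro s x
  exact h.conjL_apply s.1.1 x

theorem SS.ind_ei {φ : F ≃+* F} {g : V ≃+ V} {r : F} (h : SS Q φ g r) {B : MulAut (eichG Q)}
    (hB : ∀ (s : eichG Q) (x : V), (B s).1.1 (g x) = g (s.1.1 x)) {u y : V} (hu : Q u = 0) (huy : β[Q] u y = 0) :
    B (ei Q u y) = ei Q (g u) (r⁻¹ • g y) := by
  apply G_ext
  intro x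
  obtain ⟨x, rfl⟩ := g.surjective x
  have h1 : Q (g u) = 0 := by rw [h.q, hu, map_zero, mul_zero]
  have h2 : β[Q] (g u) (r⁻¹ • g y) = 0 := by rw [LinearMap.map_smul, h.pol, huy, map_zero, mul_zero, smul_zero]
  rw [hB, ei_apply hu huy, ei_apply h1 h2, Quad.map_smul, LinearMap.map_smul, LinearMap.smul_apply, h.pol, h.pol, h.q,
    _root_.map_add g, _root_.map_add g, h.smul, h.smul, smul_smul]
  have e1 : r * φ (β[Q] u x) * r⁻¹ = φ (β[Q] u x) := by field_simp [h.r0]
  have e2 : -r⁻¹ • (r * φ (β[Q] y x)) - r⁻¹ ^ 2 * (r * φ (Q y)) * (r * φ (β[Q] u x)) = φ (-β[Q] y x - Q y * β[Q] u x) := by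
    have := h.r0
    rw [_root_.map_sub φ, map_neg, map_mul, smul_eq_mul]
    field_simp
  rw [e1, ← e2]
  congr 3
  rw [neg_smul]

section nd

variable [Finite F] (hQ : (β[Q]).Nondegenerate)
include hQ

/-- automorphisms preserve singularity of the parameter -/
theorem sing_of (hV : 7 ≤ finrank F V) (α : MulAut (eichG Q ⧸ Subgroup.center (eichG Q))) {v v' w w' : V} (hv0 : v ≠ 0)
    (hv0' : v' ≠ 0) (hv : Q v = 0) (hv' : Q v' = 0) (hw : β[Q] v w = 0) (hw' : β[Q] v' w' = 0) (h : α (E Q v w) = E Q v' w')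
    (hw0 : Q w = 0) : Q w' = 0 := by
  obtain ⟨p, hp⟩ := CharP.exists F
  have : Fact p.Prime := ⟨CharP.char_is_prime F p⟩
  have hGf := finG Q
  by_contra hne
  have h1 := b_not_RS (p := p) hQ hV hv0' hv' hw' hne
  by_cases hd : ∃ c : F, w = c • v
  · obtain ⟨c, rfl⟩ := hd
    rw [E_self hv, map_one] at h
    exact h1.2 h.symm
  · push Not at hd
    have h2 : E Q v w ∈ RS Q p := (mem_RS (p := p) hQ hV _).2 ⟨v, w, ⟨hv, hw0, hw, li_of hv0 hd⟩, rfl⟩
    obtain ⟨h3, h4⟩ := h2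
    apply h1.1
    rw [← h]
    exact ⟨h3.map α, fun h => h4 (α.injective (by rw [h, map_one]))⟩

omit hQ [Finite F] in
theorem hperp_comm (v f : V) : hperp Q v f = hperp Q f v := inf_comm _ _

theorem perp_li {v f w : V} (hv : Q v = 0) (hvf : β[Q] v f = 1) (hw0 : w ≠ 0) (hfw : β[Q] f w = 0) :
    LinearIndependent F ![v, w] := by
  have hv0 : v ≠ 0 := ne_zero_of_polar (Q := Q) (f := f) (by rw [hvf]; exact one_ne_zero)
  apply li_of hv0
  rintro c rfl
  rw [LinearMap.map_smul, polar_comm, hvf, smul_eq_mul, mul_one] at hfw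
  rw [hfw, zero_smul] at hw0
  exact hw0 rfl

end nd

/-- fixing root elements whose line is not perpendicular to `a` -/
theorem fix_line (α : MulAut (eichG Q ⧸ Subgroup.center (eichG Q))) {u y a b : V} (hr : Rt Q u y) (ha : Q a = 0)
    (hb : Q b = 0) (hab : β[Q] a b = 1) (h3 : ∀ y, β[Q] a y = 0 → α (E Q a y) = E Q a y)
    (h4 : ∀ y, β[Q] b y = 0 → α (E Q b y) = E Q b y) (h5 : β[Q] a u ≠ 0 ∨ β[Q] a y ≠ 0) : α (E Q u y) = E Q u y := by
  obtain ⟨s, t, hst⟩ : ∃ s t : F, β[Q] a (s • u + t • y) = 1 := by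
    rcases h5 with h5 | h5
    · exact ⟨(β[Q] a u)⁻¹, 0, by rw [zero_smul, add_zero, LinearMap.map_smul, smul_eq_mul, inv_mul_cancel₀ h5]⟩
    · exact ⟨0, (β[Q] a y)⁻¹, by rw [zero_smul, zero_add, LinearMap.map_smul, smul_eq_mul, inv_mul_cancel₀ h5]⟩
  have hne : s • u + t • y ≠ 0 := by
    intro h0
    rw [h0, LinearMap.map_zero] at hst
    exact zero_ne_one hst
  obtain ⟨y1, hr1, he1⟩ := hr.through hne
  generalize s • u + t • y = x1 at hst hne hr1 he1
  have hx1 := hr1.hu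
  have hya : β[Q] a (x1 - b) = 0 := by rw [LinearMap.map_sub, hst, hab, sub_self]
  have hm : (ei Q a (x1 - b)).1.1 b = x1 := by
    rw [ei_coe ha hya]
    exact eichO_move ha hb hx1 hab hst hya
  have hE : E Q u y = E Q a (x1 - b) * E Q b (((ei Q a (x1 - b))⁻¹).1.1 y1) * (E Q a (x1 - b))⁻¹ := by
    have h6 : β[Q] b (((ei Q a (x1 - b))⁻¹).1.1 y1) = 0 := by
      rw [← pol (ei Q a (x1 - b)), hm, ap_inv, hr1.huw]
    have h7 := E_conj (ei Q a (x1 - b)) hb h6
    rw [hm, ap_inv] at h7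
    rw [E, he1]
    exact h7.symm
  have h6 : β[Q] b (((ei Q a (x1 - b))⁻¹).1.1 y1) = 0 := by
    rw [← pol (ei Q a (x1 - b)), hm, ap_inv, hr1.huw]
  rw [hE, map_mul, map_mul, map_inv, h3 _ hya, h4 _ h6]

/-- the relation -/
theorem rel {v f u w : V} (hv : Q v = 0) (hf : Q f = 0) (hvf : β[Q] v f = 1) (hu : u ∈ hperp Q v f) (hw : w ∈ hperp Q v f)
    (hQu : Q u = 0) (hQw : Q w = 0) (huw : β[Q] u w = 0) (c : F) :
    E Q f (c • w) * E Q v u * (E Q f (c • w))⁻¹ = E Q v u * E Q (c • w) u := by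
  have hfv : β[Q] f v = 1 := by rw [polar_comm, hvf]
  have hu' := mem_hperp.1 hu
  have hw' := mem_hperp.1 hw
  have hcw : Q (c • w) = 0 := by rw [Quad.map_smul, hQw, mul_zero]
  have hfcw : β[Q] f (c • w) = 0 := by rw [LinearMap.map_smul, hw'.2, smul_zero]
  have hvcw : β[Q] v (c • w) = 0 := by rw [LinearMap.map_smul, hw'.1, smul_zero]
  have hucw : β[Q] u (c • w) = 0 := by rw [LinearMap.map_smul, huw, smul_zero]
  have e1 := E_conj (ei Q f (c • w)) hv hu'.1
  have e2 : (ei Q f (c • w)).1.1 v = v + c • w := by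
    rw [ei_sing hf hcw hfcw, hfv, polar_comm, hvcw]
    module
  have e3 : (ei Q f (c • w)).1.1 u = u := by
    rw [ei_sing hf hcw hfcw, hu'.2, polar_comm, hucw]
    module
  rw [e2, e3] at e1
  change E Q f (c • w) * E Q v u * (E Q f (c • w))⁻¹ = _ at e1
  rw [e1]
  have hsum : Q (v + c • w) = 0 := by rw [Quad.map_add, hv, hcw, hvcw]; ring
  have huv : β[Q] u v = 0 := by rw [polar_comm, hu'.1]
  have hsu : β[Q] (v + c • w) u = 0 := by rw [LinearMap.map_add, LinearMap.add_apply, hu'.1, polar_comm, hucw, add_zero]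
  have hcwu : β[Q] (c • w) u = 0 := by rw [polar_comm, hucw]
  rw [E_swap hsum hQu hsu, E_swap hv hQu hu'.1, E_swap hcw hQu hcwu,
    E_mul hQu (by rw [LinearMap.map_neg, huv, neg_zero]) (by rw [LinearMap.map_neg, hucw, neg_zero]), neg_add]

/-- the action on the Siegel group of `v` -/
theorem act_E {v u w y : V} (hv : Q v = 0) (hvu : β[Q] v u = 0) (hvw : β[Q] v w = 0) (hvy : β[Q] v y = 0) (hu : Q u = 0)
    (hw : Q w = 0) (hwu : β[Q] w u = 0) (hwy : β[Q] w y = 0) (huy : β[Q] u y = 1) (c : F) :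
    E Q (c • w) u * E Q v y * (E Q (c • w) u)⁻¹ = E Q v (y - c • w) := by
  have hcw : Q (c • w) = 0 := by rw [Quad.map_smul, hw, mul_zero]
  have hcwu : β[Q] (c • w) u = 0 := by rw [LinearMap.map_smul, LinearMap.smul_apply, hwu, smul_zero]
  have e1 := E_conj (ei Q (c • w) u) hv hvy
  change E Q (c • w) u * E Q v y * (E Q (c • w) u)⁻¹ = _ at e1
  have e2 : (ei Q (c • w) u).1.1 v = v := by
    rw [ei_sing hcw hu hcwu, polar_comm Q _ v, LinearMap.map_smul, hvw, polar_comm Q _ v, hvu]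
    module
  have e3 : (ei Q (c • w) u).1.1 y = y - c • w := by
    rw [ei_sing hcw hu hcwu, LinearMap.map_smul, LinearMap.smul_apply, hwy, huy]
    module
  rw [e1, e2, e3]

section nd

variable [Finite F] (hQ : (β[Q]).Nondegenerate)
include hQ

omit hQ in
theorem fix_all (hQ : (β[Q]).Nondegenerate) (hV5 : 5 ≤ finrank F V) (α : MulAut (eichG Q ⧸ Subgroup.center (eichG Q))) {v f : V} (hv : Q v = 0)
    (hf : Q f = 0) (hvf : β[Q] v f = 1) (h1' : ∀ y, β[Q] v y = 0 → α (E Q v y) = E Q v y)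
    (hfix' : ∀ y, β[Q] f y = 0 → α (E Q f y) = E Q f y) : α = 1 := by
  have hfv : β[Q] f v = 1 := by rw [polar_comm, hvf]
  have hgen : ∀ u y : V, Q u = 0 → Q y = 0 → β[Q] u y = 0 → α (E Q u y) = E Q u y := by
    intro u y hu hy huy
    by_cases hu0 : u = 0
    · rw [hu0, E, zero_ei]
      exact map_one α
    by_cases hd' : ∃ c : F, y = c • u
    · obtain ⟨c, rfl⟩ := hd'
      rw [E_self hu, map_one]
    push Not at hd'
    have hr : Rt Q u y := ⟨hu, hy, huy, li_of hu0 hd'⟩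
    by_cases c1 : β[Q] v u ≠ 0 ∨ β[Q] v y ≠ 0
    · exact fix_line α hr hv hf hvf h1' hfix' c1
    by_cases c2 : β[Q] f u ≠ 0 ∨ β[Q] f y ≠ 0
    · exact fix_line α hr hf hv hfv hfix' h1' c2
    push Not at c1 c2
    have huW : u ∈ hperp Q v f := mem_hperp.2 ⟨c1.1, c2.1⟩
    have hyW : y ∈ hperp Q v f := mem_hperp.2 ⟨c1.2, c2.2⟩
    have hyu : β[Q] y u = 0 := by rw [polar_comm, huy]
    have r1 := rel hv hf hvf hyW huW hy hu hyu 1
    rw [one_smul] at r1
    have r2 : E Q u y = (E Q v y)⁻¹ * (E Q f u * E Q v y * (E Q f u)⁻¹) := by rw [r1, inv_mul_cancel_left]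
    rw [r2, map_mul, map_mul, map_mul, map_inv, map_inv, h1' y c1.2, hfix' u c2.1]
  let K : Subgroup (eichG Q) := (MonoidHom.eqLocus α.toMonoidHom (MonoidHom.id _)).comap (QuotientGroup.mk' _)
  have hK : K = ⊤ := by
    rw [eq_top_iff]
    intro s _
    have h3 : eichG Q ≤ K.map (eichG Q).subtype := by
      apply eichG_le_of_singular hQ hV5
      intro u y hu hy huy
      refine ⟨ei Q u y, hgen u y hu hy huy, ?_⟩
      exact ei_coe hu huy
    obtain ⟨s', hs', hss⟩ := h3 s.2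
    have : s' = s := Subtype.ext hss
    rwa [← this]
  ext z
  induction z using QuotientGroup.induction_on with | H s => ?_
  have : s ∈ K := by rw [hK]; trivial
  exact this

theorem rigid_a (hV : 7 ≤ finrank F V) (hH : 9 ≤ finrank F V ∨ ∀ U : Submodule F V, (∀ x ∈ U, Q x = 0) → finrank F U ≠ 4)
    (α : MulAut (eichG Q ⧸ Subgroup.center (eichG Q))) {v f : V} (hv : Q v = 0) (hf : Q f = 0) (hvf : β[Q] v f = 1)
    (h1 : ∀ w ∈ hperp Q v f, α (E Q v w) = E Q v w) (h2 : (Qb Q f).map α.toMonoidHom = Qb Q f) :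
    ∀ w ∈ hperp Q v f, Q w = 0 → w ≠ 0 → (Qb Q w).map α.toMonoidHom = Qb Q w := by
  have hv0 : v ≠ 0 := ne_zero_of_polar (Q := Q) (f := f) (by rw [hvf]; exact one_ne_zero)
  have hfv : β[Q] f v = 1 := by rw [polar_comm, hvf]
  have hf0 : f ≠ 0 := ne_zero_of_polar (Q := Q) (f := v) (by rw [hfv]; exact one_ne_zero)
  have hV5 : 5 ≤ finrank F V := by omega
  -- all of the Siegel group of `v` is fixed
  have h1' : ∀ y, β[Q] v y = 0 → α (E Q v y) = E Q v y := by
    intro y hy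
    have := h1 _ (hperp_decomp hv hf hvf y)
    rwa [hy, zero_smul, sub_zero, E_sub_self hv hy] at this
  have h1'' : (Qb Q v).map α.toMonoidHom = Qb Q v := by
    ext z
    constructor
    · rintro ⟨z, hz, rfl⟩
      obtain ⟨y, hy, rfl⟩ := (mem_Qb hv).1 hz
      change α _ ∈ _
      rw [h1' y hy]
      exact E_mem_Qb hy
    · intro hz
      obtain ⟨y, hy, rfl⟩ := (mem_Qb hv).1 hz
      exact ⟨_, hz, h1' y hy⟩
  intro w hwW hw hw0
  obtain ⟨w', hw'0, hw', hmap⟩ := exists_Qb hQ hV hH α hw0 hw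
  have hvw := (mem_hperp.1 hwW).1
  have hfw := (mem_hperp.1 hwW).2
  have hli : LinearIndependent F ![v, w] := perp_li hQ hv hvf hw0 hfw
  have hrv : Rt Q v w := ⟨hv, hw, hvw, hli⟩
  have hrf : Rt Q f w := ⟨hf, hw, hfw, perp_li hQ hf hfv hw0 hvw⟩
  have hnp : ∀ x : V, x ≠ 0 → Q x = 0 → LinearIndependent F ![x, w] → (Qb Q x).map α.toMonoidHom = Qb Q x →
      LinearIndependent F ![x, w'] := by
    intro x hx0 hx hxw hxm
    apply li_of hx0
    intro c hc
    have hc0 : c ≠ 0 := by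
      rintro rfl
      rw [zero_smul] at hc
      exact hw'0 hc
    have h3 : (Qb Q w).map α.toMonoidHom = (Qb Q x).map α.toMonoidHom := by
      rw [hmap, hxm, hc, Qb_smul hx hc0]
    have h4 := Subgroup.map_injective α.injective h3
    obtain ⟨d, hd0, hd⟩ := Qb_par hQ hV5 hw0 hx0 hw hx h4
    exact not_mem_of_li hxw d hd
  have e1 : E Q v w ≠ 1 := by
    have := E_ne_one hQ hV5 hrv (one_ne_zero : (1 : F) ≠ 0)
    rwa [one_smul] at this
  have e2 : E Q f w ≠ 1 := by
    have := E_ne_one hQ hV5 hrf (one_ne_zero : (1 : F) ≠ 0)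
    rwa [one_smul] at this
  have m1 : α (E Q v w) ∈ Qb Q w' := by
    rw [← hmap]
    refine ⟨_, ?_, rfl⟩
    have := E_mem_Qb' hv hw hvw 1
    rwa [one_smul] at this
  have m2 : α (E Q f w) ∈ Qb Q w' := by
    rw [← hmap]
    refine ⟨_, ?_, rfl⟩
    have := E_mem_Qb' hf hw hfw 1
    rwa [one_smul] at this
  rw [h1 w hwW] at m1
  obtain ⟨h5, t, ht0, ht⟩ := Qb_inf hQ hV5 hv hw' (hnp v hv0 hv hli h1'') e1 (E_mem_Qb hvw) m1
  have m3 : α (E Q f w) ∈ Qb Q f := by
    rw [← h2]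
    exact ⟨_, E_mem_Qb hfw, rfl⟩
  obtain ⟨h6, -⟩ := Qb_inf hQ hV5 hf hw' (hnp f hf0 hf hrf.li h2) (fun h => e2 (α.injective (by rw [h, map_one]))) m3 m2
  have h7 : w = t • w' := by
    apply hperp_E_inj hQ hV5 hv hvf hwW _ ht
    exact Submodule.smul_mem _ _ (mem_hperp.2 ⟨h5, h6⟩)
  rw [hmap, h7, Qb_smul hw' ht0]

/-- the scalar is one -/
theorem rigid_d (hV : 7 ≤ finrank F V) (α : MulAut (eichG Q ⧸ Subgroup.center (eichG Q))) {v f : V} (hv : Q v = 0)
    (hf : Q f = 0) (hvf : β[Q] v f = 1) (h1 : ∀ w ∈ hperp Q v f, α (E Q v w) = E Q v w) {w : hperp Q v f} (hw0 : w ≠ 0)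
    (hw : Q w.1 = 0) {d : F} (hd : α (E Q f w.1) = E Q f (d • w.1)) : d = 1 := by
  have hN := resQ_hperp_nondegenerate hQ hv hf hvf
  have hdim := finrank_hperp hQ hv hf hvf
  obtain ⟨u, hr⟩ := exists_Rt hN (by omega) hw0 hw
  obtain ⟨y, hy1, hy2⟩ := exists_dual2 hN hr.li 0 1
  have hy1' : β[Q] w.1 y.1 = 0 := hy1
  have hy2' : β[Q] u.1 y.1 = 1 := hy2
  have hu : Q u.1 = 0 := hr.hw
  have hwu : β[Q] w.1 u.1 = 0 := hr.huw
  have huw : β[Q] u.1 w.1 = 0 := by rw [polar_comm, hwu]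
  have hu' := mem_hperp.1 u.2
  have hw' := mem_hperp.1 w.2
  have hy' := mem_hperp.1 y.2
  have hum := h1 u.1 u.2
  have hym := h1 y.1 y.2
  have hmem : y.1 - w.1 ∈ hperp Q v f := Submodule.sub_mem _ y.2 w.2
  have hmem' : y.1 - d • w.1 ∈ hperp Q v f := Submodule.sub_mem _ y.2 (Submodule.smul_mem _ _ w.2)
  have hm := h1 _ hmem
  have r1 := rel hv hf hvf u.2 w.2 hu hw huw 1
  have r2 := rel hv hf hvf u.2 w.2 hu hw huw d
  have a1 := act_E hv hu'.1 hw'.1 hy'.1 hu hw hwu hy1' hy2' 1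
  have a2 := act_E hv hu'.1 hw'.1 hy'.1 hu hw hwu hy1' hy2' d
  rw [one_smul] at r1 a1
  have r3 := congrArg α r1
  rw [map_mul, map_mul, map_mul, map_inv, hd, hum, r2] at r3
  have r4 := mul_left_cancel r3
  have a3 := congrArg α a1
  rw [map_mul, map_mul, map_inv, ← r4, hym, a2, hm] at a3
  have a4 := hperp_E_inj hQ (by omega) hv hvf hmem' hmem a3
  have a5 : (d - 1) • w.1 = 0 := by
    have : (d - 1) • w.1 = (y.1 - w.1) - (y.1 - d • w.1) := by module
    rw [this, a4, sub_self]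
  have hw0' : w.1 ≠ 0 := fun h => hw0 (Subtype.ext h)
  exact sub_eq_zero.1 ((smul_eq_zero.1 a5).resolve_right hw0')

/-- rigidity -/
theorem rigid (hV : 7 ≤ finrank F V) (hH : 9 ≤ finrank F V ∨ ∀ U : Submodule F V, (∀ x ∈ U, Q x = 0) → finrank F U ≠ 4)
    (α : MulAut (eichG Q ⧸ Subgroup.center (eichG Q))) {v f : V} (hv : Q v = 0) (hf : Q f = 0) (hvf : β[Q] v f = 1)
    (h1 : ∀ w ∈ hperp Q v f, α (E Q v w) = E Q v w) (h2 : (Qb Q f).map α.toMonoidHom = Qb Q f) : α = 1 := by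
  have hv0 : v ≠ 0 := ne_zero_of_polar (Q := Q) (f := f) (by rw [hvf]; exact one_ne_zero)
  have hfv : β[Q] f v = 1 := by rw [polar_comm, hvf]
  have hf0 : f ≠ 0 := ne_zero_of_polar (Q := Q) (f := v) (by rw [hfv]; exact one_ne_zero)
  have hV5 : 5 ≤ finrank F V := by omega
  -- all of the Siegel group of `v` is fixed
  have h1' : ∀ y, β[Q] v y = 0 → α (E Q v y) = E Q v y := by
    intro y hy
    have := h1 _ (hperp_decomp hv hf hvf y)
    rwa [hy, zero_smul, sub_zero, E_sub_self hv hy] at this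
  have h1'' : (Qb Q v).map α.toMonoidHom = Qb Q v := by
    ext z
    constructor
    · rintro ⟨z, hz, rfl⟩
      obtain ⟨y, hy, rfl⟩ := (mem_Qb hv).1 hz
      change α _ ∈ _
      rw [h1' y hy]
      exact E_mem_Qb hy
    · intro hz
      obtain ⟨y, hy, rfl⟩ := (mem_Qb hv).1 hz
      exact ⟨_, hz, h1' y hy⟩
  have ha := rigid_a hQ hV hH α hv hf hvf h1 h2
  -- step b
  have hb : ∀ w : hperp Q v f, ∃ d : F, Q w.1 = 0 → α (E Q f w.1) = E Q f (d • w.1) := by
    intro w
    by_cases hw : Q w.1 = 0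
    swap
    · exact ⟨0, fun h => absurd h hw⟩
    by_cases hw0 : w.1 = 0
    · exact ⟨0, fun _ => by rw [hw0, smul_zero, E_zero, map_one]⟩
    have hvw := (mem_hperp.1 w.2).1
    have hfw := (mem_hperp.1 w.2).2
    have hrf : Rt Q f w.1 := ⟨hf, hw, hfw, perp_li hQ hf hfv hw0 hvw⟩
    have e2 : E Q f w.1 ≠ 1 := by
      have := E_ne_one hQ hV5 hrf (one_ne_zero : (1 : F) ≠ 0)
      rwa [one_smul] at this
    have m3 : α (E Q f w.1) ∈ Qb Q f := by
      rw [← h2]
      exact ⟨_, E_mem_Qb hfw, rfl⟩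
    have m2 : α (E Q f w.1) ∈ Qb Q w.1 := by
      rw [← ha w.1 w.2 hw hw0]
      refine ⟨_, ?_, rfl⟩
      have := E_mem_Qb' hf hw hfw 1
      rwa [one_smul] at this
    obtain ⟨-, t, -, ht⟩ := Qb_inf hQ hV5 hf hw hrf.li (fun h => e2 (α.injective (by rw [h, map_one]))) m3 m2
    exact ⟨t, fun _ => ht⟩
  choose d hd using hb
  -- step c
  have hN := resQ_hperp_nondegenerate hQ hv hf hvf
  have hdim := finrank_hperp hQ hv hf hvf
  have hWs : ∀ w ∈ hperp Q v f, w ∈ hperp Q f v := fun w hw => by rwa [hperp_comm]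
  have hconst : ∀ u w : hperp Q v f, Rt (resQ Q (hperp Q v f)) u w → d u = d w := by
    intro u w hr
    have hu : Q u.1 = 0 := hr.hu
    have hw : Q w.1 = 0 := hr.hw
    have huw : β[Q] u.1 w.1 = 0 := hr.huw
    have hs : Q (u + w).1 = 0 := by
      change Q (u.1 + w.1) = 0
      rw [Quad.map_add, hu, hw, huw]; ring
    have e1 := hd (u + w) hs
    have hfu := (mem_hperp.1 u.2).2
    have hfw := (mem_hperp.1 w.2).2
    have e2 : E Q f (u + w).1 = E Q f u.1 * E Q f w.1 := by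
      rw [E_mul hf hfu hfw]
      rfl
    rw [e2, map_mul, hd u hu, hd w hw, E_mul hf (by rw [LinearMap.map_smul, hfu, smul_zero])
      (by rw [LinearMap.map_smul, hfw, smul_zero])] at e1
    have e3 : d u • u.1 + d w • w.1 = d (u + w) • (u + w).1 := by
      apply hperp_E_inj hQ hV5 hf hfv _ _ e1
      · exact Submodule.add_mem _ (Submodule.smul_mem _ _ (hWs _ u.2)) (Submodule.smul_mem _ _ (hWs _ w.2))
      · exact Submodule.smul_mem _ _ (hWs _ (u + w).2)
    have e4 : (d u - d (u + w)) • u + (d w - d (u + w)) • w = 0 := by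
      apply Subtype.ext
      change (d u - d (u + w)) • u.1 + (d w - d (u + w)) • w.1 = 0
      have : (d u - d (u + w)) • u.1 + (d w - d (u + w)) • w.1 = (d u • u.1 + d w • w.1) - d (u + w) • (u.1 + w.1) := by
        module
      rw [this, e3]
      exact sub_self _
    have e5 := LinearIndependent.pair_iff.1 hr.li _ _ e4
    rw [sub_eq_zero.1 e5.1, sub_eq_zero.1 e5.2]
  have hd1 : ∀ w : hperp Q v f, w ≠ 0 → Q w.1 = 0 → d w = 1 := fun w hw0 hw => rigid_d hQ hV α hv hf hvf h1 hw0 hw (hd w hw)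
  -- step e
  have hfix : ∀ (w : hperp Q v f) (c : F), α (E Q f (c • w.1)) = E Q f (c • w.1) := by
    intro w
    have hw : w ∈ Submodule.span F {s : hperp Q v f | resQ Q (hperp Q v f) s = 0} := by
      rw [span_singular hN (by omega)]
      trivial
    induction hw using Submodule.span_induction with
    | mem s hs =>
      intro c
      by_cases hcs : c • s = 0
      · have : c • s.1 = 0 := congrArg Subtype.val hcs
        rw [this, E_zero, map_one]
      · have hs0 : Q (c • s).1 = 0 := by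
          change Q (c • s.1) = 0
          rw [Quad.map_smul, show Q s.1 = 0 from hs, mul_zero]
        have := hd (c • s) hs0
        rw [hd1 _ hcs hs0, one_smul] at this
        exact this
    | zero =>
      intro c
      have : c • ((0 : hperp Q v f).1 : V) = 0 := smul_zero c
      rw [this, E_zero, map_one]
    | add s t _ _ hs ht =>
      intro c
      have e : c • (s + t).1 = c • s.1 + c • t.1 := smul_add _ _ _
      rw [e, ← E_mul hf (by rw [LinearMap.map_smul, (mem_hperp.1 s.2).2, smul_zero])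
        (by rw [LinearMap.map_smul, (mem_hperp.1 t.2).2, smul_zero]), map_mul, hs, ht]
    | smul d s _ hs =>
      intro c
      have h1 := hs (c * d)
      rw [mul_smul] at h1
      exact h1
  have hfix' : ∀ y, β[Q] f y = 0 → α (E Q f y) = E Q f y := by
    intro y hy
    have h3 := hfix ⟨y - β[Q] v y • f - β[Q] f y • v, by rw [hperp_comm]; exact hperp_decomp hf hv hfv y⟩ 1
    change α (E Q f ((1 : F) • (y - β[Q] v y • f - β[Q] f y • v))) = E Q f ((1 : F) • (y - β[Q] v y • f - β[Q] f y • v)) at h3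
    rwa [one_smul, hy, zero_smul, sub_zero, E_sub_self hf hy] at h3
  exact fix_all hQ (by omega) α hv hf hvf h1' hfix'

end nd

end CfsgLib.AutPO
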