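import Cfsg.Agent.Lib.AutPO6

/-!
# Automorphisms of `PΩ(Q)`, part 7: the main theorem
-/

set_option autoImplicit false
set_option linter.unusedSimpArgs false
set_option linter.unusedSectionVars false

namespace CfsgLib.AutPO

open Module Cfsg CfsgLib.Quad CfsgLib.SemiAut
open CfsgLib.AutPSp (IsCen)

variable {F V : Type*} [Field F] [AddCommGroup V] [Module F V] [FiniteDimensional F V]

local notation "β[" Q "]" => QuadraticMap.polarBilin Q

variable {Q : QuadraticForm F V} [Finite F] (hQ : (β[Q]).Nondegenerate)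
include hQ

/-- the additive map on the complement -/
theorem exists_A (hV : 7 ≤ finrank F V) (hH : 9 ≤ finrank F V ∨ ∀ U : Submodule F V, (∀ x ∈ U, Q x = 0) → finrank F U ≠ 4)
    (α : MulAut (eichG Q ⧸ Subgroup.center (eichG Q))) {v f : V} (hv : Q v = 0) (hf : Q f = 0) (hvf : β[Q] v f = 1)
    (h1 : (Qb Q v).map α.toMonoidHom = Qb Q v) :
    ∃ (A : hperp Q v f →+ hperp Q v f) (φ : F ≃+* F) (r : F), Function.Injective A ∧ r ≠ 0 ∧
      (∀ w : hperp Q v f, α (E Q v w.1) = E Q v (A w).1) ∧ (∀ (t : F) (x : hperp Q v f), A (t • x) = φ t • A x) ∧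
      ∀ x : hperp Q v f, Q (A x).1 = r * φ (Q x.1) := by
  have hv0 : v ≠ 0 := ne_zero_of_polar (Q := Q) (f := f) (by rw [hvf]; exact one_ne_zero)
  have hV5 : 5 ≤ finrank F V := by omega
  have hex : ∀ w : hperp Q v f, ∃ w' : hperp Q v f, α (E Q v w.1) = E Q v w'.1 := by
    intro w
    have h2 : α (E Q v w.1) ∈ Qb Q v := by
      rw [← h1]
      exact ⟨_, E_mem_Qb (mem_hperp.1 w.2).1, rfl⟩
    obtain ⟨y, hy, h3⟩ := (mem_Qb hv).1 h2
    refine ⟨⟨_, hperp_decomp hv hf hvf y⟩, ?_⟩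
    change _ = E Q v (y - β[Q] f y • v - β[Q] v y • f)
    rw [h3, hy, zero_smul, sub_zero, E_sub_self hv hy]
  choose A0 hA0 using hex
  have hinj : ∀ w w' : hperp Q v f, E Q v w.1 = E Q v w'.1 → w = w' := fun w w' h =>
    Subtype.ext (hperp_E_inj hQ hV5 hv hvf w.2 w'.2 h)
  have hvW : ∀ w : hperp Q v f, β[Q] v w.1 = 0 := fun w => (mem_hperp.1 w.2).1
  let A : hperp Q v f →+ hperp Q v f :=
    { toFun := A0
      map_zero' := by
        apply hinj
        rw [← hA0]
        change α (E Q v 0) = E Q v 0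
        rw [E_zero, map_one]
      map_add' := by
        intro a b
        apply hinj
        rw [← hA0]
        change α (E Q v (a.1 + b.1)) = E Q v ((A0 a).1 + (A0 b).1)
        rw [← E_mul hv (hvW a) (hvW b), map_mul, hA0, hA0, E_mul hv (hvW _) (hvW _)] }
  have hA : ∀ w : hperp Q v f, α (E Q v w.1) = E Q v (A w).1 := hA0
  have hAinj : Function.Injective A := by
    intro a b hab
    apply hinj
    apply α.injective
    rw [hA, hA, hab]
  have hN := resQ_hperp_nondegenerate hQ hv hf hvf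
  have hdim := finrank_hperp hQ hv hf hvf
  obtain ⟨φ, r, hr0, h2, h3⟩ := exists_semi hN (by omega) A hAinj (by
    intro x hx
    exact sing_of hQ hV α hv0 hv0 hv hv (hvW x) (hvW _) (hA x) hx) (by
    intro u hu t
    by_cases hu0 : u = 0
    · exact ⟨0, by rw [hu0, smul_zero, map_zero, smul_zero]⟩
    by_cases ht0 : t = 0
    · exact ⟨0, by rw [ht0, zero_smul, map_zero, zero_smul]⟩
    have hu' : Q u.1 = 0 := hu
    have hu0' : u.1 ≠ 0 := fun h => hu0 (Subtype.ext h)
    obtain ⟨u', hu'0, hu'', hmap⟩ := exists_Qb hQ hV hH α hu0' hu'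
    have hfu := (mem_hperp.1 u.2).2
    have hli0 := perp_li hQ hv hvf hu0' hfu
    have hrt : Rt Q v u.1 := ⟨hv, hu', hvW u, hli0⟩
    have hli : LinearIndependent F ![v, u'] := by
      apply li_of hv0
      intro c hc
      have hc0 : c ≠ 0 := by
        rintro rfl
        rw [zero_smul] at hc
        exact hu'0 hc
      have h3 : (Qb Q u.1).map α.toMonoidHom = (Qb Q v).map α.toMonoidHom := by
        rw [hmap, h1, hc, Qb_smul hv hc0]
      have h4 := Subgroup.map_injective α.injective h3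
      obtain ⟨d, hd0, hd⟩ := Qb_par hQ hV5 hu0' hv0 hu' hv h4
      exact not_mem_of_li hli0 d hd
    have key : ∀ t : F, t ≠ 0 → β[Q] v u' = 0 ∧ ∃ c : F, c ≠ 0 ∧ E Q v (A (t • u)).1 = E Q v (c • u') := by
      intro t ht
      have hne := E_ne_one hQ hV5 hrt ht
      have m1 : α (E Q v (t • u.1)) ∈ Qb Q u' := by
        rw [← hmap]
        exact ⟨_, E_mem_Qb' hv hu' (hvW u) t, rfl⟩
      have m2 : α (E Q v (t • u.1)) = E Q v (A (t • u)).1 := hA (t • u)
      rw [m2] at m1
      apply Qb_inf hQ hV5 hv hu'' hli _ (E_mem_Qb (hvW _)) m1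
      rw [← m2]
      exact fun h => hne (α.injective (by rw [h, map_one]))
    obtain ⟨hvu', c1, hc1, e1⟩ := key 1 one_ne_zero
    obtain ⟨-, c2, hc2, e2⟩ := key t ht0
    rw [one_smul] at e1
    have hE : ∀ c : F, E Q v (c • u') = E Q v (c • (u' - β[Q] f u' • v)) := by
      intro c
      rw [smul_sub, smul_smul, E_sub_self hv (by rw [LinearMap.map_smul, hvu', smul_zero])]
    have hu'W : u' - β[Q] f u' • v ∈ hperp Q v f := by
      have := hperp_decomp hv hf hvf u'
      rwa [hvu', zero_smul, sub_zero] at this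
    rw [hE] at e1 e2
    have e3 := hperp_E_inj hQ hV5 hv hvf (A u).2 (Submodule.smul_mem _ c1 hu'W) e1
    have e4 := hperp_E_inj hQ hV5 hv hvf (A (t • u)).2 (Submodule.smul_mem _ c2 hu'W) e2
    refine ⟨c2 * c1⁻¹, Subtype.ext ?_⟩
    change (A (t • u)).1 = (c2 * c1⁻¹) • (A u).1
    rw [e4, e3, smul_smul, mul_assoc, inv_mul_cancel₀ hc1, mul_one])
  exact ⟨A, φ, r, hAinj, hr0, hA, h2, h3⟩

/-- the semisimilarity attached to an automorphism normalising a pair of opposite Siegel groups -/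
theorem exists_g (hV : 7 ≤ finrank F V) (hH : 9 ≤ finrank F V ∨ ∀ U : Submodule F V, (∀ x ∈ U, Q x = 0) → finrank F U ≠ 4)
    (α : MulAut (eichG Q ⧸ Subgroup.center (eichG Q))) {v f : V} (hv : Q v = 0) (hf : Q f = 0) (hvf : β[Q] v f = 1)
    (h1 : (Qb Q v).map α.toMonoidHom = Qb Q v) (h2 : (Qb Q f).map α.toMonoidHom = Qb Q f) :
    ∃ (φ : F ≃+* F) (g : V ≃+ V) (r : F), SS Q φ g r ∧ ∀ B : MulAut (eichG Q),
      (∀ (s : eichG Q) (x : V), (B s).1.1 (g x) = g (s.1.1 x)) → α = quotAut B := by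
  have hVf : Finite V := Module.finite_of_finite F
  have hfv : β[Q] f v = 1 := by rw [polar_comm, hvf]
  obtain ⟨A, φ, r, hAinj, hr0, hA, hAs, hAq⟩ := exists_A hQ hV hH α hv hf hvf h1
  let pr : V → hperp Q v f := fun x => ⟨_, hperp_decomp hv hf hvf x⟩
  have hpr : ∀ x, (pr x).1 = x - β[Q] f x • v - β[Q] v x • f := fun x => rfl
  have hpr_add : ∀ x y, pr (x + y) = pr x + pr y := by
    intro x y
    apply Subtype.ext
    change _ = (pr x).1 + (pr y).1
    rw [hpr, hpr, hpr, LinearMap.map_add, LinearMap.map_add]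
    module
  have hpr_smul : ∀ (t : F) x, pr (t • x) = t • pr x := by
    intro t x
    apply Subtype.ext
    change _ = t • (pr x).1
    rw [hpr, hpr, LinearMap.map_smul, LinearMap.map_smul, smul_eq_mul, smul_eq_mul]
    module
  let G0 : V →+ V :=
    { toFun := fun x => (A (pr x)).1 + (r * φ (β[Q] f x)) • v + φ (β[Q] v x) • f
      map_zero' := by
        have : pr 0 = 0 := by
          apply Subtype.ext
          rw [hpr, LinearMap.map_zero, LinearMap.map_zero]
          simp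
        rw [this, map_zero, LinearMap.map_zero, LinearMap.map_zero, map_zero]
        simp
      map_add' := by
        intro x y
        rw [hpr_add, _root_.map_add A, LinearMap.map_add, LinearMap.map_add, _root_.map_add φ, _root_.map_add φ]
        change (A (pr x)).1 + (A (pr y)).1 + _ + _ = _
        module }
  have hG0 : ∀ x, G0 x = (A (pr x)).1 + (r * φ (β[Q] f x)) • v + φ (β[Q] v x) • f := fun x => rfl
  have hG0q : ∀ x, Q (G0 x) = r * φ (Q x) := by
    intro x
    have hx : x = (pr x).1 + β[Q] f x • v + β[Q] v x • f := by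
      rw [hpr]
      module
    have m1 := mem_hperp.1 (A (pr x)).2
    have m2 := mem_hperp.1 (pr x).2
    have e1 : Q x = Q (pr x).1 + β[Q] f x * β[Q] v x := by
      conv_lhs => rw [hx]
      rw [Quad.map_add_two, hv, hf, polar_comm Q (pr x).1, m2.1, polar_comm Q (pr x).1, m2.2, hvf]
      ring
    rw [hG0, Quad.map_add_two, hv, hf, polar_comm Q (A (pr x)).1, m1.1, polar_comm Q (A (pr x)).1, m1.2, hvf, hAq, e1,
      _root_.map_add φ, map_mul]
    ring
  have hG0s : ∀ (t : F) x, G0 (t • x) = φ t • G0 x := by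
    intro t x
    rw [hG0, hG0, hpr_smul, hAs, LinearMap.map_smul, LinearMap.map_smul, smul_eq_mul, smul_eq_mul, map_mul, map_mul]
    change φ t • (A (pr x)).1 + _ + _ = _
    module
  have hG0p : ∀ x y, β[Q] (G0 x) (G0 y) = r * φ (β[Q] x y) := by
    intro x y
    have h1 := hG0q (x + y)
    rw [_root_.map_add G0, Quad.map_add, Quad.map_add, hG0q, hG0q, _root_.map_add φ, _root_.map_add φ] at h1
    linear_combination h1
  have hG0inj : Function.Injective G0 := by
    rw [injective_iff_map_eq_zero]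
    intro x hx
    apply hQ.1
    intro y
    have h1 := hG0p x y
    rw [hx, LinearMap.map_zero, LinearMap.zero_apply] at h1
    have h2 := (mul_eq_zero.1 h1.symm).resolve_left hr0
    exact (map_eq_zero φ).1 h2
  let g : V ≃+ V := AddEquiv.ofBijective G0 (Finite.injective_iff_bijective.1 hG0inj)
  have hg : ∀ x, g x = G0 x := fun x => rfl
  have hSS : SS Q φ g r := ⟨hr0, hG0s, hG0q⟩
  have hgv : g v = r • v := by
    rw [hg, hG0, hfv, pol_self hv]
    have : pr v = 0 := by
      apply Subtype.ext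
      rw [hpr, hfv, pol_self hv]
      simp
    rw [this, map_zero, map_one, map_zero]
    simp
  have hgf : g f = f := by
    rw [hg, hG0, pol_self hf, hvf]
    have : pr f = 0 := by
      apply Subtype.ext
      rw [hpr, pol_self hf, hvf]
      simp
    rw [this, map_zero, map_one, map_zero]
    simp
  have hgw : ∀ w : hperp Q v f, g w.1 = (A w).1 := by
    intro w
    have m := mem_hperp.1 w.2
    rw [hg, hG0, m.1, m.2]
    have : pr w.1 = w := by
      apply Subtype.ext
      rw [hpr, m.1, m.2]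
      simp
    rw [this, map_zero]
    simp
  refine ⟨φ, g, r, hSS, ?_⟩
  intro B hB
  -- the two automorphisms agree on the Siegel group of `v`
  have hBv : ∀ w : hperp Q v f, quotAut B (E Q v w.1) = E Q v (A w).1 := by
    intro w
    change QuotientGroup.mk (B (ei Q v w.1)) = _
    have hvA := (mem_hperp.1 (A w).2).1
    rw [hSS.ind_ei hB hv (mem_hperp.1 w.2).1, hgv, hgw, ei_smul hv (by rw [LinearMap.map_smul, hvA, smul_zero]), smul_smul,
      mul_inv_cancel₀ hr0, one_smul]
    rfl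
  have hBf : ∀ y, β[Q] f y = 0 → quotAut B (E Q f y) = E Q f (r⁻¹ • g y) := by
    intro y hy
    change QuotientGroup.mk (B (ei Q f y)) = _
    rw [hSS.ind_ei hB hf hy, hgf]
    rfl
  have hBf' : (Qb Q f).map (quotAut B).toMonoidHom = Qb Q f := by
    ext z
    rw [mem_Qb hf]
    constructor
    · rintro ⟨x, hx, rfl⟩
      obtain ⟨y, hy, rfl⟩ := (mem_Qb hf).1 hx
      refine ⟨r⁻¹ • g y, ?_, hBf y hy⟩
      have := hSS.pol f y
      rw [hgf] at this
      rw [LinearMap.map_smul, this, hy, map_zero, mul_zero, smul_zero]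
    · rintro ⟨y, hy, rfl⟩
      obtain ⟨y', hy'⟩ := g.surjective (r • y)
      have h3 : β[Q] f y' = 0 := by
        have := hSS.pol f y'
        rw [hgf, hy', LinearMap.map_smul, hy, smul_zero] at this
        exact (map_eq_zero φ).1 ((mul_eq_zero.1 this.symm).resolve_left hr0)
      refine ⟨_, E_mem_Qb h3, ?_⟩
      change quotAut B (E Q f y') = E Q f y
      rw [hBf y' h3, hy', smul_smul, inv_mul_cancel₀ hr0, one_smul]
  have hfin : (quotAut B)⁻¹ * α = 1 := by
    apply rigid hQ hV hH _ hv hf hvf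
    · intro w hw
      change (quotAut B).symm (α (E Q v w)) = E Q v w
      rw [MulEquiv.symm_apply_eq, hA ⟨w, hw⟩, hBv ⟨w, hw⟩]
    · have e : ((quotAut B)⁻¹ * α).toMonoidHom = ((quotAut B).symm.toMonoidHom).comp α.toMonoidHom := rfl
      rw [e, ← Subgroup.map_map, h2]
      nth_rw 1 [← hBf']
      rw [Subgroup.map_map]
      have e2 : ((quotAut B).symm.toMonoidHom).comp (quotAut B).toMonoidHom = MonoidHom.id _ := by
        ext x
        exact (quotAut B).symm_apply_apply x
      rw [e2, Subgroup.map_id]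
  rw [inv_mul_eq_one] at hfin
  exact hfin.symm

/-- the main theorem: automorphisms of `PΩ(Q)` come from semisimilarities -/
theorem main (hV : 7 ≤ finrank F V) (hH : 9 ≤ finrank F V ∨ ∀ U : Submodule F V, (∀ x ∈ U, Q x = 0) → finrank F U ≠ 4)
    (α : MulAut (eichG Q ⧸ Subgroup.center (eichG Q))) :
    ∃ (φ : F ≃+* F) (g : V ≃+ V) (r : F), SS Q φ g r ∧ ∀ s s' : eichG Q,
      (∀ x : V, s'.1.1 (g x) = g (s.1.1 x)) → α (QuotientGroup.mk s) = QuotientGroup.mk s' := by
  have hV5 : 5 ≤ finrank F V := by omega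
  obtain ⟨v, hv0, hv⟩ := exists_singular hQ (by omega)
  obtain ⟨f, hf, hvf⟩ := exists_partner hQ hv0 hv
  have hfv : β[Q] f v = 1 := by rw [polar_comm, hvf]
  have hf0 : f ≠ 0 := ne_zero_of_polar (Q := Q) (f := v) (by rw [hfv]; exact one_ne_zero)
  obtain ⟨v1, hv10, hv1, hm1⟩ := exists_Qb hQ hV hH α hv0 hv
  obtain ⟨f1, hf10, hf1, hm2⟩ := exists_Qb hQ hV hH α hf0 hf
  have hlivf : LinearIndependent F ![v, f] := by
    apply li_of hv0
    rintro c rfl
    rw [LinearMap.map_smul, pol_self hv, smul_zero] at hvf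
    exact zero_ne_one hvf
  have hli : LinearIndependent F ![v1, f1] := by
    apply li_of hv10
    intro c hc
    have hc0 : c ≠ 0 := by
      rintro rfl
      rw [zero_smul] at hc
      exact hf10 hc
    have h3 : (Qb Q f).map α.toMonoidHom = (Qb Q v).map α.toMonoidHom := by
      rw [hm2, hm1, hc, Qb_smul hv1 hc0]
    have h4 := Subgroup.map_injective α.injective h3
    obtain ⟨d, hd0, hd⟩ := Qb_par hQ hV5 hf0 hv0 hf hv h4
    exact not_mem_of_li hlivf d hd
  have hne : β[Q] v1 f1 ≠ 0 := by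
    intro h0
    have hr : Rt Q v1 f1 := ⟨hv1, hf1, h0, hli⟩
    have e1 := E_ne_one hQ hV5 hr (one_ne_zero : (1 : F) ≠ 0)
    have m1 : E Q v1 ((1 : F) • f1) ∈ Qb Q f1 := E_mem_Qb' hv1 hf1 h0 1
    have m2 : E Q v1 ((1 : F) • f1) ∈ Qb Q v1 := E_mem_Qb (by rw [LinearMap.map_smul, h0, smul_zero])
    rw [← hm1] at m2
    rw [← hm2] at m1
    obtain ⟨z, hz, hz'⟩ := m2
    obtain ⟨z2, hz2, hz2'⟩ := m1
    have : z = z2 := α.injective (hz'.trans hz2'.symm)
    subst this
    have hz1 : z ≠ 1 := by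
      rintro rfl
      apply e1
      rw [← hz']
      exact map_one α
    obtain ⟨h5, -⟩ := Qb_inf hQ hV5 hv hf hlivf hz1 hz hz2
    rw [h5] at hvf
    exact zero_ne_one hvf
  have hf1' : Q ((β[Q] v1 f1)⁻¹ • f1) = 0 := by rw [Quad.map_smul, hf1, mul_zero]
  have hvf1 : β[Q] v1 ((β[Q] v1 f1)⁻¹ • f1) = 1 := by rw [LinearMap.map_smul, smul_eq_mul, inv_mul_cancel₀ hne]
  obtain ⟨g0, hg0, hgv, hgf⟩ := exists_eichG_pair hQ (by omega) hv hf hvf hv1 hf1' hvf1
  set γ : eichG Q := ⟨g0, hg0⟩ with hγ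
  have hγv : γ.1.1 v = v1 := hgv
  have hγf : γ.1.1 f = (β[Q] v1 f1)⁻¹ • f1 := hgf
  set c0 := MulAut.conj (QuotientGroup.mk γ : eichG Q ⧸ Subgroup.center (eichG Q)) with hc0
  have hcm : ∀ (x y : V), Q x = 0 → (Qb Q x).map α.toMonoidHom = Qb Q (γ.1.1 x) →
      (Qb Q x).map (c0⁻¹ * α).toMonoidHom = Qb Q x := by
    intro x y hx h
    have e : (c0⁻¹ * α).toMonoidHom = (c0.symm.toMonoidHom).comp α.toMonoidHom := rfl
    rw [e, ← Subgroup.map_map, h, ← Qb_conj γ hx, Subgroup.map_map]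
    have e2 : (c0.symm.toMonoidHom).comp (MulAut.conj (QuotientGroup.mk γ : eichG Q ⧸ Subgroup.center (eichG Q))).toMonoidHom =
        MonoidHom.id _ := by
      ext x
      exact c0.symm_apply_apply x
    rw [e2, Subgroup.map_id]
  have hα1 : (Qb Q v).map (c0⁻¹ * α).toMonoidHom = Qb Q v := hcm v v hv (by rw [hm1, hγv])
  have hα2 : (Qb Q f).map (c0⁻¹ * α).toMonoidHom = Qb Q f := hcm f f hf (by
    rw [hm2, hγf, Qb_smul hf1 (inv_ne_zero hne)])
  obtain ⟨φ, g, r, hSS, hB⟩ := exists_g hQ hV hH (c0⁻¹ * α) hv hf hvf hα1 hα2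
  obtain ⟨B, hB'⟩ := hSS.exists_ind hQ hV
  have hα := hB B hB'
  refine ⟨_, _, _, (SS.of_G γ).comp hSS, ?_⟩
  intro s s' hss
  have e1 : s' = γ * B s * γ⁻¹ := by
    apply G_ext
    intro x
    obtain ⟨y, rfl⟩ := γ.1.1.surjective x
    obtain ⟨z, rfl⟩ := g.surjective y
    have h3 : s'.1.1 (γ.1.1 (g z)) = γ.1.1 (g (s.1.1 z)) := hss z
    rw [h3, mul_ap, mul_ap, inv_ap, hB']
  have e2 : α (QuotientGroup.mk s) = c0 (QuotientGroup.mk (B s)) := by
    have h4 : (c0⁻¹ * α) (QuotientGroup.mk s) = quotAut B (QuotientGroup.mk s) := by rw [hα]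
    rw [quotAut_mk] at h4
    rw [← h4]
    change _ = c0 (c0.symm (α (QuotientGroup.mk s)))
    rw [MulEquiv.apply_symm_apply]
  rw [e2, e1]
  rfl

end CfsgLib.AutPO
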