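import Cfsg.Agent.Lib.AutPSU10
import Cfsg.Agent.Lib.AutPSL9

/-!
# Automorphisms of `PSU`, part 11: order and structure of the outer automorphism group.
-/

set_option autoImplicit false
set_option linter.unusedSimpArgs false
set_option linter.unusedSectionVars false
set_option linter.unusedVariables false

namespace CfsgLib.SemiAut.Setup

open Matrix Cfsg CfsgLib.SemiAut

variable {ι : Type*} [Fintype ι] [DecidableEq ι] {F : Type*} [Field F] {S : Type*} [Group S]
  {e : S →* GL ι F} {Γ : Subgroup (GamL ι F)} {GG : Subgroup (GL ι F)} (hS : Setup e Γ GG)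

/-- the field automorphism of an automorphism -/
noncomputable def fld (hfull : Function.Surjective hS.Psi) : MulAut (S ⧸ Subgroup.center S) →* RingAut F :=
  (QuotientGroup.lift hS.Psi.ker (SemidirectProduct.rightHom.comp Γ.subtype) (by
    intro γ hγ
    obtain ⟨g, _, hg⟩ := hS.Psi_eq_one.1 hγ
    change γ.1.right = 1
    rw [hg]
    rfl)).comp (QuotientGroup.quotientKerEquivOfSurjective hS.Psi hfull).symm.toMonoidHom

theorem fld_Psi (hfull : Function.Surjective hS.Psi) (γ : Γ) : hS.fld hfull (hS.Psi γ) = γ.1.right := by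
  have h1 : (QuotientGroup.quotientKerEquivOfSurjective hS.Psi hfull).symm (hS.Psi γ) = QuotientGroup.mk γ := by
    rw [MulEquiv.symm_apply_eq]
    rfl
  rw [fld, MonoidHom.comp_apply]
  change (QuotientGroup.lift hS.Psi.ker (SemidirectProduct.rightHom.comp Γ.subtype) _)
    ((QuotientGroup.quotientKerEquivOfSurjective hS.Psi hfull).symm (hS.Psi γ)) = _
  rw [h1]
  rfl

end CfsgLib.SemiAut.Setup

namespace CfsgLib.AutPSU

open Module Matrix Cfsg CfsgLib.SemiAut CfsgLib.Descent2 CfsgLib.AutPSp CfsgLib.Herm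

variable {F : Type*} [Field F] {σ : F →+* F} {q n : ℕ}

theorem det_mem (hq : QConj σ q) (g : GU n F q) : Matrix.GeneralLinearGroup.det g.1 ∈ normOne σ := by
  rw [mem_normOne]
  have hg : (CfsgLib.Quad.glEquiv (Fin n) F g.1 : (Fin n → F) ≃ₗ[F] (Fin n → F)) ∈ U (stdH σ n) := by
    rw [mem_U]
    intro x y
    rw [CfsgLib.Quad.glEquiv_apply, CfsgLib.Quad.glEquiv_apply]
    exact (mem_GU hq).1 g.2 x y
  have h1 := det_norm hq (stdH_hform hq n) hg
  rw [det_glEquiv] at h1
  rw [mul_comm]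
  exact h1

/-- the determinant of a unitary matrix -/
noncomputable def detG (hq : QConj σ q) (n : ℕ) : GU n F q →* normOne σ :=
  (Matrix.GeneralLinearGroup.det.comp (GU n F q).subtype).codRestrict (normOne σ) (fun g => det_mem hq g)

theorem detG_coe (hq : QConj σ q) (g : GU n F q) : (detG hq n g).1 = Matrix.GeneralLinearGroup.det g.1 := rfl

theorem detG_surj (hq : QConj σ q) (hn : 1 ≤ n) : Function.Surjective (detG (F := F) hq n) := by
  intro c
  have hnt : Nontrivial (Fin n → F) := by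
    have : Nonempty (Fin n) := ⟨⟨0, by omega⟩⟩
    infer_instance
  obtain ⟨g, hg⟩ := detU_surjective hq (stdH_hform hq n) c
  obtain ⟨g, rfl⟩ := (GUEquiv hq n).surjective g
  refine ⟨g, ?_⟩
  rw [← hg]
  apply Subtype.ext
  apply Units.ext
  rw [coe_detU]
  exact (det_glEquiv g.1).symm

theorem scal_mem_GU (hq : QConj σ q) (hn : 1 ≤ n) (c : Fˣ) : (scal c : GL (Fin n) F) ∈ GU n F q ↔ c ∈ normOne σ := by
  rw [mem_GU hq, mem_normOne]
  constructor
  · intro h
    have h1 := h (Pi.single ⟨0, by omega⟩ 1) (Pi.single ⟨0, by omega⟩ 1)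
    rw [scal_mulVec, map_smul_left, map_smul_right, stdH_single, if_pos rfl, mul_one, mul_comm] at h1
    exact h1
  · intro h u v
    rw [scal_mulVec, scal_mulVec, map_smul_left, map_smul_right, ← mul_assoc, mul_comm (σ _), h, one_mul]

theorem det_scal (c : Fˣ) : Matrix.GeneralLinearGroup.det (scal c : GL (Fin n) F) = c ^ n := by
  apply Units.ext
  change (scal c : GL (Fin n) F).1.det = _
  rw [scal_coe, det_smul, det_one, mul_one, Fintype.card_fin]
  rfl

theorem gam_mem_inn_iff (hq : QConj σ q) (hn : 3 ≤ n) (g : GU n F q) :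
    (setupU hq hn).gam g ∈ Inn (PSU n F q) ↔ detG hq n g ∈ (powMonoidHom n : normOne σ →* normOne σ).range := by
  have hne : Nonempty (Fin n) := ⟨⟨0, by omega⟩⟩
  have hinn : ∀ s : SU n F q, (setupU hq hn).gam ⟨embU n F q s, embU_mem hq s⟩ = MulAut.conj (QuotientGroup.mk s) := fun s =>
    psi_range (setupU hq hn).inj' s
  constructor
  · rintro ⟨x, hx⟩
    obtain ⟨s, rfl⟩ := QuotientGroup.mk_surjective x
    rw [← hinn, Setup.gam_eq, Setup.gam_eq] at hx
    obtain ⟨c, hc, hgc⟩ := ((setupU hq hn).Psi_inj).1 hx.symm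
    obtain ⟨c, rfl⟩ := exists_scal_of hc
    have h1 : g.1 = scal c * embU n F q s := by
      apply lin_injective
      rw [map_mul]
      exact hgc
    have hc1 : (scal c : GL (Fin n) F) ∈ GU n F q := by
      have : (scal c : GL (Fin n) F) = g.1 * (embU n F q s)⁻¹ := by rw [h1, mul_inv_cancel_right]
      rw [this]
      exact mul_mem g.2 (inv_mem (embU_mem hq s))
    refine ⟨⟨c, (scal_mem_GU hq (by omega) c).1 hc1⟩, ?_⟩
    apply Subtype.ext
    rw [detG_coe, h1, map_mul, det_scal]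
    have h2 : Matrix.GeneralLinearGroup.det (embU n F q s) = 1 := Units.ext s.1.2
    rw [h2, mul_one]
    rfl
  · rintro ⟨c, hc⟩
    have hc1 : (scal c.1 : GL (Fin n) F) ∈ GU n F q := (scal_mem_GU hq (by omega) c.1).2 c.2
    obtain ⟨s, hs⟩ := exists_embU hq (g := (scal c.1)⁻¹ * g.1) (mul_mem (inv_mem hc1) g.2) (by
      have h1 : Matrix.GeneralLinearGroup.det ((scal c.1)⁻¹ * g.1) = 1 := by
        rw [map_mul, map_inv, det_scal, ← detG_coe hq, ← hc]
        exact inv_mul_cancel _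
      exact congrArg Units.val h1)
    refine ⟨QuotientGroup.mk s, ?_⟩
    rw [← hinn, Setup.gam_eq, Setup.gam_eq]
    refine (((setupU hq hn).Psi_inj).2 ⟨scal c.1, scal_isScal c.1, ?_⟩).symm
    change lin g.1 = lin (scal c.1) * lin (embU n F q s)
    rw [hs, ← map_mul, mul_inv_cancel_left]

theorem card_ker (hq : QConj σ q) (hn : 3 ≤ n) : Nat.card (setupU (F := F) hq hn).Psi.ker = q + 1 := by
  have hne : Nonempty (Fin n) := ⟨⟨0, by omega⟩⟩
  rw [← card_normOne hq]
  symm
  apply Nat.card_congr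
  refine Equiv.ofBijective (fun c => ⟨⟨lin (scal c.1), (scal_mem_GU hq (by omega) c.1).2 c.2⟩,
    ((setupU hq hn).Psi_eq_one).2 ⟨scal c.1, scal_isScal c.1, rfl⟩⟩) ⟨?_, ?_⟩
  · intro a b hab
    have h1 := congrArg (fun x => x.1.1) hab
    have h2 : (scal a.1 : GL (Fin n) F) = scal b.1 := lin_injective h1
    have h3 := congrArg (fun x => x.1 ⟨0, by omega⟩ ⟨0, by omega⟩) h2
    simp only [scal_coe, Matrix.smul_apply, Matrix.one_apply_eq, smul_eq_mul, mul_one] at h3
    exact Subtype.ext (Units.ext h3)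
  · rintro ⟨γ, hγ⟩
    obtain ⟨g, hg, hγg⟩ := ((setupU hq hn).Psi_eq_one).1 hγ
    obtain ⟨c, rfl⟩ := exists_scal_of hg
    have hc1 : (scal c : GL (Fin n) F) ∈ GU n F q := by
      have h1 := γ.2
      rw [hγg] at h1
      exact h1
    refine ⟨⟨c, (scal_mem_GU hq (by omega) c).1 hc1⟩, ?_⟩
    apply Subtype.ext
    apply Subtype.ext
    exact hγg.symm

theorem card_GamU (hq : QConj σ q) (n : ℕ) : Nat.card (GamU (F := F) hq n) = Nat.card (GU n F q) * Nat.card (RingAut F) := by
  rw [← Nat.card_prod]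
  apply Nat.card_congr
  exact ⟨fun γ => (⟨γ.1.left, γ.2⟩, γ.1.right), fun x => ⟨sm x.1.1 x.2, x.1.2⟩, fun γ => rfl, fun x => rfl⟩

theorem card_GU_SU (hq : QConj σ q) (hn : 1 ≤ n) : Nat.card (GU n F q) = (q + 1) * Nat.card (SU n F q) := by
  have hnt : Nontrivial (Fin n → F) := by
    have : Nonempty (Fin n) := ⟨⟨0, by omega⟩⟩
    infer_instance
  rw [Nat.card_congr (GUEquiv hq n).toEquiv, Nat.card_congr (SUEquiv hq n).toEquiv, card_SUL hq (stdH_hform hq n)]

theorem card_SU_PSU (hq : QConj σ q) (hn : 2 ≤ n) : Nat.card (SU n F q) = Nat.card (PSU n F q) * Nat.gcd n (q + 1) := by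
  have h1 : Nat.card (Subgroup.center (SU n F q)) = Nat.gcd n (q + 1) := by
    have h2 := card_center_SUL hq (stdH_hform hq n) (by rw [Module.finrank_fin_fun]; exact hn)
    rw [Module.finrank_fin_fun] at h2
    rw [← h2]
    apply Nat.card_congr
    exact Equiv.subtypeEquiv (SUEquiv hq n).toEquiv (fun s => SUEquiv_mem_center hq s)
  rw [← h1]
  exact Subgroup.card_eq_card_quotient_mul_card_subgroup _

theorem card_aut (hq : QConj σ q) (hn : 3 ≤ n) (hdim : (n = 3 ∧ 3 ≤ q) ∨ 4 ≤ n) :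
    Nat.card (MulAut (PSU n F q)) = Nat.gcd n (q + 1) * Nat.card (RingAut F) * Nat.card (PSU n F q) := by
  have h1 := Subgroup.card_eq_card_quotient_mul_card_subgroup (setupU (F := F) hq hn).Psi.ker
  rw [Nat.card_congr (QuotientGroup.quotientKerEquivOfSurjective _ (fullU hq hn hdim)).toEquiv, card_ker hq hn, card_GamU,
    card_GU_SU hq (by omega), card_SU_PSU hq (by omega)] at h1
  have hq0 : 0 < q + 1 := Nat.succ_pos q
  apply Nat.eq_of_mul_eq_mul_right hq0
  rw [← h1]
  ring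

theorem fld_eq_one_iff (hq : QConj σ q) (hn : 3 ≤ n) (hdim : (n = 3 ∧ 3 ≤ q) ∨ 4 ≤ n) (α : MulAut (PSU n F q)) :
    (setupU hq hn).fld (fullU hq hn hdim) α = 1 ↔ α ∈ (setupU (F := F) hq hn).gam.range := by
  obtain ⟨γ, rfl⟩ := fullU hq hn hdim α
  rw [Setup.fld_Psi]
  constructor
  · intro h
    refine ⟨⟨γ.1.left, γ.2⟩, ?_⟩
    rw [Setup.gam_eq]
    congr 1
    apply Subtype.ext
    change sm γ.1.left 1 = γ.1
    rw [← h]
    rfl
  · rintro ⟨g, hg⟩
    rw [Setup.gam_eq, Setup.Psi_inj] at hg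
    obtain ⟨c, _, hc⟩ := hg
    have h1 := congrArg SemidirectProduct.right hc
    change 1 = 1 * γ.1.right at h1
    rw [one_mul] at h1
    exact h1.symm

theorem fld_surj (hq : QConj σ q) (hn : 3 ≤ n) (hdim : (n = 3 ∧ 3 ≤ q) ∨ 4 ≤ n) :
    Function.Surjective ((setupU (F := F) hq hn).fld (fullU hq hn hdim)) := by
  intro τ
  exact ⟨(setupU hq hn).Psi ⟨sm 1 τ, one_mem (GU n F q)⟩, Setup.fld_Psi _ _ _⟩

theorem out_ker (hq : QConj σ q) (hn : 3 ≤ n) {H : Type*} [Group H]
    (φ : Cfsg.Out (PSU n F q) →* H)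
    (hφ : ∀ α : MulAut (PSU n F q), φ (QuotientGroup.mk α) = 1 ↔ α ∈ (setupU (F := F) hq hn).gam.range) :
    IsCyclic φ.ker ∧ Nat.card φ.ker = Nat.gcd n (q + 1) := by
  have hfin := hq.finite
  let δ : GU n F q →* Cfsg.Out (PSU n F q) := (QuotientGroup.mk' _).comp (setupU (F := F) hq hn).gam
  have hr : δ.range = φ.ker := by
    ext x
    constructor
    · rintro ⟨g, rfl⟩
      exact (hφ _).2 ⟨g, rfl⟩
    · intro hx
      obtain ⟨α, rfl⟩ := QuotientGroup.mk_surjective x
      obtain ⟨g, rfl⟩ := (hφ α).1 hx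
      exact ⟨g, rfl⟩
  let D : GU n F q →* normOne σ ⧸ (powMonoidHom n : normOne σ →* normOne σ).range :=
    (QuotientGroup.mk' _).comp (detG hq n)
  have hker : δ.ker = D.ker := by
    ext g
    rw [MonoidHom.mem_ker, MonoidHom.mem_ker]
    show (QuotientGroup.mk ((setupU (F := F) hq hn).gam g) : Cfsg.Out (PSU n F q)) = 1 ↔
      (QuotientGroup.mk (detG hq n g) : normOne σ ⧸ (powMonoidHom n : normOne σ →* normOne σ).range) = 1
    rw [QuotientGroup.eq_one_iff, QuotientGroup.eq_one_iff, gam_mem_inn_iff hq hn]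
  have hD : Function.Surjective D := by
    intro x
    obtain ⟨c, rfl⟩ := QuotientGroup.mk_surjective x
    obtain ⟨g, rfl⟩ := detG_surj (n := n) hq (by omega) c
    exact ⟨g, rfl⟩
  have e1 : GU n F q ⧸ δ.ker ≃* δ.range := QuotientGroup.quotientKerEquivRange δ
  have e2 : GU n F q ⧸ D.ker ≃* normOne σ ⧸ (powMonoidHom n : normOne σ →* normOne σ).range := QuotientGroup.quotientKerEquivOfSurjective D hD
  have e3 : φ.ker ≃* normOne σ ⧸ (powMonoidHom n : normOne σ →* normOne σ).range :=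
    (MulEquiv.subgroupCongr hr).symm.trans (e1.symm.trans ((QuotientGroup.quotientMulEquivOfEq hker).trans e2))
  have hcyc : IsCyclic (normOne σ ⧸ (powMonoidHom n : normOne σ →* normOne σ).range) :=
    isCyclic_of_surjective (QuotientGroup.mk' _) (QuotientGroup.mk'_surjective _)
  refine ⟨(MulEquiv.isCyclic e3).2 hcyc, ?_⟩
  rw [Nat.card_congr e3.toEquiv]
  have := IsCyclic.index_powMonoidHom_range (G := normOne σ) n
  rw [card_normOne hq, Nat.gcd_comm] at this
  exact this

end CfsgLib.AutPSU
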