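import Cfsg.Agent.Lib.AutPO8
import Cfsg.Agent.Lib.AutPSU11

/-!
# Automorphisms of `PΩ(Q)`, part 9: the setup
-/

set_option autoImplicit false
set_option linter.unusedSimpArgs false
set_option linter.unusedSectionVars false

namespace CfsgLib.AutPO

open Module Matrix Cfsg CfsgLib.Quad CfsgLib.SemiAut
open CfsgLib.AutPSp (scal scal_coe scal_isScal scal_mulVec exists_scal_of)

section abs

variable {F V : Type*} [Field F] [AddCommGroup V] [Module F V] [FiniteDimensional F V]

local notation "β[" Q "]" => QuadraticMap.polarBilin Q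

variable {Q : QuadraticForm F V} [Finite F] (hQ : (β[Q]).Nondegenerate)
include hQ

theorem scal_of_par (hV : 7 ≤ finrank F V) {φ : F ≃+* F} {g : V ≃+ V} {r : F} (h : SS Q φ g r)
    (hp : ∀ u, Q u = 0 → ∃ d : F, g u = d • u) : ∃ d : F, φ = RingEquiv.refl F ∧ ∀ x, g x = d • x := by
  have hp' : ∀ u, ∃ d : F, Q u = 0 → g u = d • u := by
    intro u
    by_cases hu : Q u = 0
    · obtain ⟨d, hd⟩ := hp u hu
      exact ⟨d, fun _ => hd⟩
    · exact ⟨0, fun h => absurd h hu⟩
  choose d hd using hp'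
  have hconst : ∀ u w, Rt Q u w → d u = d w := by
    intro u w hr
    have hs : Q (u + w) = 0 := by rw [Quad.map_add, hr.hu, hr.hw, hr.huw]; ring
    have e1 := hd (u + w) hs
    rw [_root_.map_add g, hd u hr.hu, hd w hr.hw] at e1
    have e4 : (d u - d (u + w)) • u + (d w - d (u + w)) • w = 0 := by
      have : (d u - d (u + w)) • u + (d w - d (u + w)) • w = (d u • u + d w • w) - d (u + w) • (u + w) := by
        module
      rw [this, e1, sub_self]
    have e5 := LinearIndependent.pair_iff.1 hr.li _ _ e4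
    rw [sub_eq_zero.1 e5.1, sub_eq_zero.1 e5.2]
  obtain ⟨u0, hu00, hu0⟩ := exists_singular hQ (by omega)
  have hall : ∀ x, x ≠ 0 → Q x = 0 → g x = d u0 • x := by
    intro x hx0 hx
    rw [hd x hx, const_of hQ (by omega) d hconst hx0 hx hu00 hu0]
  have hd0 : d u0 ≠ 0 := by
    intro h0
    have := hall u0 hu00 hu0
    rw [h0, zero_smul] at this
    exact hu00 ((AddEquiv.map_eq_zero_iff g).1 this)
  have hφ : φ = RingEquiv.refl F := by
    apply RingEquiv.ext
    intro t
    change φ t = t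
    by_cases ht : t = 0
    · rw [ht, map_zero]
    have h1 := hall (t • u0) (smul_ne_zero ht hu00) (by rw [Quad.map_smul, hu0, mul_zero])
    rw [h.smul, hall u0 hu00 hu0, smul_smul, smul_smul] at h1
    have h2 := smul_left_injective F hu00 h1
    change φ t * d u0 = d u0 * t at h2
    rw [mul_comm] at h2
    exact mul_left_cancel₀ hd0 h2
  refine ⟨d u0, hφ, ?_⟩
  intro x
  have hx : x ∈ Submodule.span F {v | Q v = 0} := by rw [span_singular hQ (by omega)]; trivial
  induction hx using Submodule.span_induction with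
  | mem x hx =>
    by_cases hx0 : x = 0
    · rw [hx0, map_zero, smul_zero]
    · exact hall x hx0 hx
  | zero => rw [map_zero, smul_zero]
  | add x y _ _ hx hy => rw [_root_.map_add g, hx, hy, smul_add]
  | smul c x _ hx =>
    rw [h.smul, hx, hφ, smul_comm]
    rfl

end abs

variable {F : Type*} [Field F] {ι : Type} [Fintype ι] [DecidableEq ι] {Q : QuadraticForm F (ι → F)}

local notation "β[" Q "]" => QuadraticMap.polarBilin Q

theorem sl_mul (g h : GL ι F) (σ τ : RingAut F) (v : ι → F) :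
    sl (g * gmHom ι F σ h) (σ * τ) v = sl g σ (sl h τ v) := by
  have h1 : ∀ w : ι → F, (h.1.map σ) *ᵥ (fun i => σ (w i)) = fun i => σ ((h.1 *ᵥ w) i) :=
    fun w => (CfsgLib.AutPSp.map_mulVec' (σ : F →+* F) h.1 w).symm
  rw [sl_apply, sl_apply, sl_apply, ← h1, mulVec_mulVec]
  rfl

theorem sl_one (v : ι → F) : sl (1 : GL ι F) (1 : RingAut F) v = v := by
  rw [sl_apply, Units.val_one, one_mulVec]
  rfl

/-- the semilinear semisimilarities -/
def GamO (Q : QuadraticForm F (ι → F)) : Subgroup (GamL ι F) where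
  carrier := {γ | IsSemisimilarityPair (⇑Q) γ.left γ.right}
  one_mem' := ⟨1, fun v => by
    change Q (sl (1 : GL ι F) (1 : RingAut F) v) = _
    rw [sl_one, Units.val_one, one_mul]
    rfl⟩
  mul_mem' {a b} ha hb := by
    obtain ⟨c, hc⟩ := ha
    obtain ⟨d, hd⟩ := hb
    refine ⟨c * Units.map (a.right : F →* F) d, fun v => ?_⟩
    change Q (sl (a.left * gmHom ι F a.right b.left) (a.right * b.right) v) = _
    rw [sl_mul]
    have h1 : Q (sl a.left a.right (sl b.left b.right v)) = c * a.right (Q (sl b.left b.right v)) := hc _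
    have h2 : Q (sl b.left b.right v) = d * b.right (Q v) := hd v
    rw [h1, h2, map_mul, Units.val_mul, mul_assoc]
    rfl
  inv_mem' {a} ha := by
    obtain ⟨c, hc⟩ := ha
    refine ⟨Units.map ((a.right)⁻¹ : RingAut F) c⁻¹, fun v => ?_⟩
    change Q (sl (a⁻¹).left (a⁻¹).right v) = _
    have h1 : Q (sl a.left a.right (sl (a⁻¹).left (a⁻¹).right v)) = c * a.right (Q (sl (a⁻¹).left (a⁻¹).right v)) := hc _
    rw [← sl_mul] at h1
    have h2 : sl (a.left * gmHom ι F a.right (a⁻¹).left) (a.right * (a⁻¹).right) v = v := by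
      have : (⟨a.left * gmHom ι F a.right (a⁻¹).left, a.right * (a⁻¹).right⟩ : GamL ι F) = 1 := mul_inv_cancel a
      have e1 := congrArg SemidirectProduct.left this
      have e2 := congrArg SemidirectProduct.right this
      change a.left * gmHom ι F a.right (a⁻¹).left = 1 at e1
      change a.right * (a⁻¹).right = 1 at e2
      rw [e1, e2, sl_one]
    rw [h2] at h1
    have h3 : a.right ((a.right)⁻¹ (Q v)) = Q v := a.right.apply_symm_apply _
    apply a.right.injective
    rw [map_mul]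
    change a.right (Q (sl (a⁻¹).left (a⁻¹).right v)) = a.right ((a.right)⁻¹ (c⁻¹ : Fˣ)) * a.right ((a.right)⁻¹ (Q v))
    rw [h3, h1]
    have h4 : a.right ((a.right)⁻¹ ((c⁻¹ : Fˣ) : F)) = (c⁻¹ : Fˣ) := a.right.apply_symm_apply _
    rw [h4, ← mul_assoc, ← Units.val_mul, inv_mul_cancel, Units.val_one, one_mul]

theorem mem_GamO {g : GL ι F} {σ : RingAut F} : sm g σ ∈ GamO Q ↔ IsSemisimilarityPair (⇑Q) g σ := Iff.rfl

/-- the similarity group -/
abbrev Sim (Q : QuadraticForm F (ι → F)) : Subgroup (GL ι F) := Geo.quadSimilarityGroup (F := F) (⇑Q)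

theorem mem_Sim {g : GL ι F} : g ∈ Sim Q ↔ ∃ c : Fˣ, ∀ v, Q (g.1 *ᵥ v) = (c : F) * Q v := Iff.rfl

theorem lin_mem {g : GL ι F} : lin g ∈ GamO Q ↔ g ∈ Sim Q := Iff.rfl

/-- the embedding -/
def embO (Q : QuadraticForm F (ι → F)) : Omega F ⇑Q →* GL ι F := (isometryGroup F ⇑Q).subtype.comp (Omega F ⇑Q).subtype

theorem embO_coe (s : Omega F ⇑Q) : (embO Q s).1 = s.1.1.1 := rfl

theorem embO_inj : Function.Injective (embO Q) := fun _ _ h => Subtype.ext (Subtype.ext h)

theorem embO_pres (s : Omega F ⇑Q) (v : ι → F) : Q ((embO Q s).1 *ᵥ v) = Q v := s.1.2 v v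

theorem embO_mem (s : Omega F ⇑Q) : embO Q s ∈ Sim Q := ⟨1, fun v => by rw [embO_pres, Units.val_one, one_mul]⟩

theorem conj_Sim (γ : GamL ι F) (hγ : γ ∈ GamO Q) (g : GL ι F) (hg : g ∈ Sim Q) : ∃ g' ∈ Sim Q, γ * lin g * γ⁻¹ = lin g' := by
  obtain ⟨h, σ⟩ := γ
  refine ⟨h * gmHom ι F σ g * h⁻¹, ?_, sm_conj_lin h g σ⟩
  rw [← lin_mem, ← sm_conj_lin]
  exact mul_mem (mul_mem hγ (lin_mem.2 hg)) (inv_mem hγ)

section nd

variable [Finite F] (hQ : (β[Q]).Nondegenerate) (hV : 7 ≤ finrank F (ι → F))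
include hQ hV

theorem conj_embO {γ : GamL ι F} (hγ : γ ∈ GamO Q) (s : Omega F ⇑Q) :
    ∃ s' : Omega F ⇑Q, γ * lin (embO Q s) * γ⁻¹ = lin (embO Q s') := by
  obtain ⟨c, hSS⟩ := SS_of_pair hγ
  obtain ⟨B, hB⟩ := hSS.exists_ind hQ hV
  obtain ⟨g, σ⟩ := γ
  refine ⟨(JJ hQ hV).symm (B (JJ hQ hV s)), ?_⟩
  change sm g σ * lin (embO Q s) * (sm g σ)⁻¹ = _
  rw [sm_conj_lin]
  congr 1
  apply Units.ext
  symm
  apply (mat_iff (σ := (σ : F ≃+* F)) (A := (embO Q s).1)).2
  intro x
  rw [embO_coe, ← JJ_apply hQ hV, MulEquiv.apply_symm_apply]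
  have := hB (JJ hQ hV s) x
  rw [JJ_apply hQ hV s] at this
  exact this

/-- the general setup -/
theorem setupO (GG : Subgroup (GL ι F)) (h1 : GG ≤ Sim Q)
    (h2 : ∀ γ ∈ GamO Q, ∀ g ∈ GG, ∃ g' ∈ GG, γ * lin g * γ⁻¹ = lin g') (h3 : ∀ s, embO Q s ∈ GG) :
    Setup (embO Q) (GamO Q) GG := by
  have hinj : Function.Injective (lin.comp (embO Q) : Omega F ⇑Q →* _) := fun a b hab => embO_inj (lin_injective hab)
  have hfinG := finG Q
  have hfin : Finite (Omega F ⇑Q) := Finite.of_equiv _ (JJ hQ hV).symm.toEquiv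
  refine { inj := embO_inj, norm := ?_, mem := fun g hg => h1 hg, irr := ?_, conj := h2, range := h3 }
  · rintro γ hγ
    apply mem_norm_of hinj
    intro s
    obtain ⟨s', hs'⟩ := conj_embO hQ hV hγ s
    exact ⟨s', hs'⟩
  · rintro ⟨g, σ⟩ hg hγ
    obtain ⟨c, hSS⟩ := SS_of_pair hg
    obtain ⟨B, hB⟩ := hSS.exists_ind hQ hV
    have hB1 : ∀ s : Omega F ⇑Q, ∃ z ∈ Subgroup.center (eichG Q), B (JJ hQ hV s) = JJ hQ hV s * z := by
      intro s
      obtain ⟨z, hz, hz'⟩ := hγ s
      refine ⟨JJ hQ hV z, ?_, ?_⟩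
      · rw [Subgroup.mem_center_iff]
        intro y
        obtain ⟨y, rfl⟩ := (JJ hQ hV).surjective y
        rw [← map_mul, Subgroup.mem_center_iff.1 hz y, map_mul]
      · rw [← map_mul]
        have h4 : sm g σ * lin (embO Q s) * (sm g σ)⁻¹ = lin (embO Q (s * z)) := hz'
        rw [sm_conj_lin] at h4
        have h5 := congrArg Units.val (lin_injective h4)
        have h6 : (embO Q (s * z)).1 = g.1 * (embO Q s).1.map σ * (g⁻¹).1 := h5.symm
        have h7 := (mat_iff (σ := (σ : F ≃+* F)) (A := (embO Q s).1)).1 h6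
        apply G_ext
        intro x
        obtain ⟨x, rfl⟩ := (sl g σ).surjective x
        have h8 := hB (JJ hQ hV s) x
        change (B (JJ hQ hV s)).1.1 (sl g σ x) = _ at h8
        rw [h8, JJ_apply hQ hV, JJ_apply hQ hV]
        exact (h7 x).symm
    have hpar : ∀ u, Q u = 0 → ∃ d : F, sl g σ u = d • u := by
      intro u hu
      by_cases hu0 : u = 0
      · exact ⟨0, by rw [hu0, map_zero, smul_zero]⟩
      obtain ⟨f, hf, huf⟩ := exists_partner hQ hu0 hu
      obtain ⟨w, huw, hfw, hw⟩ := exists_hperp_map_eq hQ hu hf huf (by omega) (1 : F)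
      obtain ⟨s, hs⟩ := (JJ hQ hV).surjective (ei Q u w)
      obtain ⟨z, hz, hz'⟩ := hB1 s
      rw [hs] at hz'
      have e1 := hSS.ind_ei hB hu huw
      have e2 : E Q (sl g σ u) ((c : F)⁻¹ • sl g σ w) = E Q u w := by
        change QuotientGroup.mk (ei Q (sl g σ u) ((c : F)⁻¹ • sl g σ w)) = (QuotientGroup.mk (ei Q u w) : eichG Q ⧸ _)
        symm
        rw [mk_eq_iff]
        refine ⟨z, hz, ?_⟩
        rw [← hz']
        exact e1.symm
      have hfu : Q (sl g σ u) = 0 := by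
        have := hSS.q u
        rw [hu, map_zero, mul_zero] at this
        exact this
      have hfu0 : sl g σ u ≠ 0 := fun h => hu0 ((AddEquiv.map_eq_zero_iff (sl g σ)).1 h)
      have hfuw : β[Q] (sl g σ u) ((c : F)⁻¹ • sl g σ w) = 0 := by
        have := hSS.pol u w
        rw [huw, map_zero, mul_zero] at this
        rw [LinearMap.map_smul]
        change (c : F)⁻¹ • β[Q] (sl g σ u) (sl g σ w) = 0
        rw [show β[Q] (sl g σ u) (sl g σ w) = 0 from this, smul_zero]
      have e3 := E_inj hQ (by omega) hfu hfuw hu huw e2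
      obtain ⟨d, hd0, hd⟩ := par hQ hu0 hu huw (by rw [hw]; exact one_ne_zero) hfu0 hfu hfuw e3.symm
      refine ⟨d⁻¹, ?_⟩
      conv_rhs => rw [hd]
      rw [smul_smul, inv_mul_cancel₀ hd0, one_smul]
    obtain ⟨d, hσ, hd⟩ := scal_of_par hQ hV hSS hpar
    have hσ1 : σ = 1 := hσ
    subst hσ1
    refine ⟨g, ⟨d, ?_⟩, rfl⟩
    apply CfsgLib.Symp.mulVec_injective_matrix
    intro x
    rw [smul_mulVec, one_mulVec]
    exact hd x

theorem setupFull : Setup (embO Q) (GamO Q) (Sim Q) := setupO hQ hV (Sim Q) le_rfl conj_Sim embO_mem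

end nd

end CfsgLib.AutPO
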