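import Cfsg.Agent.Lib.AutPSU9
import Cfsg.Agent.Lib.AutPSp7

/-!
# Automorphisms of `PSU`, part 10: matrices.
-/

set_option autoImplicit false
set_option linter.unusedSimpArgs false
set_option linter.unusedSectionVars false
set_option linter.unusedVariables false

namespace CfsgLib.AutPSU

open Module CfsgLib.Herm

section abstract

variable {F V : Type*} [Field F] [AddCommGroup V] [Module F V] [FiniteDimensional F V]
  {σ : F →+* F} {q : ℕ} {B : V →ₛₗ[σ] V →ₗ[F] F}

/-- a semilinear isometry fixing all isotropic points is a scalar -/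
theorem SI.scalar (hq : QConj σ q) (h : HForm B) (hV : 3 ≤ finrank F V) {φ : F →+* F} {g : V ≃+ V} (hg : SI B φ g)
    (hfix : ∀ v, v ≠ 0 → B v v = 0 → ∃ c : F, g v = c • v) : ∃ a : F, ∀ x, g x = a • x := by
  obtain ⟨e, he, he0⟩ := h.exists_isotropic hq (by omega)
  obtain ⟨f, hf0, hf⟩ := h.exists_partner hq he he0
  have hfe : B f e = 1 := by rw [← h.symm, hf, map_one]
  have hf' : f ≠ 0 := by
    rintro rfl
    rw [map_zero] at hf
    exact zero_ne_one hf
  obtain ⟨a, ha⟩ := hfix e he he0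
  obtain ⟨b, hb⟩ := hfix f hf' hf0
  have hab : σ a * b = 1 := by
    have h1 := hg.form e f
    rw [ha, hb, hf, map_one, map_smul_left, map_smul_right, hf, mul_one] at h1
    exact h1
  have ha0 : a ≠ 0 := by
    rintro rfl
    rw [map_zero, zero_mul] at hab
    exact zero_ne_one hab
  have hb0 : b ≠ 0 := by
    rintro rfl
    rw [mul_zero] at hab
    exact zero_ne_one hab
  have hσb : σ b ≠ 0 := (map_ne_zero σ).2 hb0
  have hσa : σ a ≠ 0 := (map_ne_zero σ).2 ha0
  have hfr := finrank_hpp hq h he0 hf0 hf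
  have hW' := hpp_hform hq h he0 hf0 hf
  have hWn : Nontrivial (hpp B e f) := Module.nontrivial_of_finrank_pos (R := F) (by omega)
  have hgW : ∀ w ∈ hpp B e f, g w ∈ hpp B e f := by
    intro w hw
    rw [mem_hpp] at hw ⊢
    constructor
    · have h1 := hg.form e w
      rw [ha, hw.1, map_zero, map_smul_left] at h1
      exact (mul_eq_zero.1 h1).resolve_left hσa
    · have h1 := hg.form f w
      rw [hb, hw.2, map_zero, map_smul_left] at h1
      exact (mul_eq_zero.1 h1).resolve_left hσb
  have hkey : ∀ (w : V) (c : F), w ∈ hpp B e f → c + σ c + B w w = 0 → g w = a • w ∧ φ c * b = a * c := by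
    intro w c hw hc
    have hw' := mem_hpp.1 hw
    have hiso : B (e + w + c • f) (e + w + c • f) = 0 := by
      simp only [map_add_left, map_add_right, map_smul_left, map_smul_right, he0, hf0, hf, hfe, hw'.1, hw'.2, comm0 h hw'.1,
        comm0 h hw'.2, mul_zero, mul_one, add_zero, zero_add]
      linear_combination hc
    have hne : e + w + c • f ≠ 0 := by
      intro h0
      have h1 := congrArg (B f) h0
      rw [map_add_right, map_add_right, map_smul_right, hfe, hw'.2, hf0, map_zero, mul_zero, add_zero, add_zero] at h1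
      exact one_ne_zero h1
    obtain ⟨l, hl⟩ := hfix _ hne hiso
    rw [map_add, map_add, hg.smul, ha, hb] at hl
    have hgw := mem_hpp.1 (hgW w hw)
    have h1 := congrArg (B f) hl
    have h2 := congrArg (B e) hl
    simp only [map_add_right, map_smul_right, he0, hf0, hf, hfe, hw'.1, hw'.2, hgw.1, hgw.2, mul_zero, mul_one, add_zero, zero_add] at h1 h2
    rw [← h1] at h2 hl
    refine ⟨?_, h2⟩
    rw [smul_smul, h2] at hl
    have h3 : a • e + g w + (a * c) • f = a • e + a • w + (a * c) • f := by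
      rw [hl]
      module
    exact add_left_cancel (add_right_cancel h3)
  have hφ : ∀ c : F, φ c * b = a * c := by
    intro c
    by_cases hc : c + σ c = 0
    · exact (hkey 0 c (zero_mem _) (by rw [map_zero, add_zero, hc])).2
    · obtain ⟨w, hw⟩ := hW'.exists_norm_eq hq (c := -(c + σ c)) (by rw [map_neg, hq.trace_fixed]) (neg_ne_zero.2 hc)
      change B w.1 w.1 = _ at hw
      exact (hkey w.1 c w.2 (by rw [hw, add_neg_cancel])).2
  have hba : b = a := by
    have := hφ 1
    rwa [map_one, one_mul, mul_one] at this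
  have hφ1 : ∀ c, φ c = c := by
    intro c
    have := hφ c
    rw [hba, mul_comm a] at this
    exact mul_right_cancel₀ ha0 this
  refine ⟨a, fun x => ?_⟩
  have h1 := hpp_decomp h he0 hf0 hf x
  obtain ⟨w, hw⟩ : ∃ w, w = x - B f x • e - B e x • f := ⟨_, rfl⟩
  rw [← hw] at h1
  obtain ⟨c, hc⟩ := exists_cc hq h w
  have h2 := (hkey w c h1 hc).1
  have h3 : x = w + B f x • e + B e x • f := by rw [hw]; abel
  rw [h3, map_add, map_add, hg.smul, hg.smul, ha, hb, h2, hφ1, hφ1, hba]
  module

end abstract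

open Matrix Cfsg CfsgLib.SemiAut CfsgLib.Descent2 CfsgLib.AutPSp

variable {F : Type*} [Field F] {σ : F →+* F} {q n : ℕ}

/-- the embedding of the special unitary group in the general linear group -/
def embU (n : ℕ) (F : Type*) [Field F] (q : ℕ) : SU n F q →* GL (Fin n) F :=
  Matrix.SpecialLinearGroup.toGL.comp (SU n F q).subtype

theorem embU_coe (s : SU n F q) : (embU n F q s).1 = s.1.1 := rfl

theorem embU_injective : Function.Injective (embU n F q) := by
  intro a b hab
  exact Subtype.ext (Subtype.ext (congrArg Units.val hab))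

theorem mem_GU (hq : QConj σ q) {g : GL (Fin n) F} :
    g ∈ GU n F q ↔ ∀ u v : Fin n → F, stdH σ n (g.1 *ᵥ u) (g.1 *ᵥ v) = stdH σ n u v := by
  constructor
  · intro hg u v
    have := hg v u
    rw [hermForm_eq hq, hermForm_eq hq] at this
    exact this
  · intro hg u v
    rw [hermForm_eq hq, hermForm_eq hq]
    exact hg v u

theorem mem_SU (hq : QConj σ q) {g : Matrix.SpecialLinearGroup (Fin n) F} :
    g ∈ SU n F q ↔ ∀ u v : Fin n → F, stdH σ n (g.1 *ᵥ u) (g.1 *ᵥ v) = stdH σ n u v := by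
  constructor
  · intro hg u v
    have := hg v u
    rw [hermForm_eq hq, hermForm_eq hq] at this
    exact this
  · intro hg u v
    rw [hermForm_eq hq, hermForm_eq hq]
    exact hg v u

theorem stdH_map (hq : QConj σ q) (τ : F →+* F) (v w : Fin n → F) :
    stdH σ n (fun i => τ (v i)) (fun i => τ (w i)) = τ (stdH σ n v w) := by
  rw [stdH_apply, stdH_apply, map_sum]
  exact Finset.sum_congr rfl fun i _ => by rw [map_mul, map_sigma hq]

theorem gm_mem_GU (hq : QConj σ q) (τ : RingAut F) {g : GL (Fin n) F} (hg : g ∈ GU n F q) : gmHom _ F τ g ∈ GU n F q := by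
  rw [mem_GU hq] at hg ⊢
  intro u v
  obtain ⟨u, rfl⟩ := exists_pre τ u
  obtain ⟨v, rfl⟩ := exists_pre τ v
  rw [gmHom_apply]
  have h1 : ∀ w : Fin n → F, (g.1.map τ) *ᵥ (fun i => τ (w i)) = fun i => τ ((g.1 *ᵥ w) i) :=
    fun w => (map_mulVec' (τ : F →+* F) g.1 w).symm
  have h2 : ∀ w w' : Fin n → F, stdH σ n (fun i => τ (w i)) (fun i => τ (w' i)) = τ (stdH σ n w w') :=
    fun w w' => stdH_map hq (τ : F →+* F) w w'
  rw [h1, h1, h2, h2, hg]

/-- the semilinear isometries -/
def GamU (hq : QConj σ q) (n : ℕ) : Subgroup (GamL (Fin n) F) where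
  carrier := {γ | γ.left ∈ GU n F q}
  one_mem' := by
    change (1 : GL (Fin n) F) ∈ GU n F q
    exact one_mem _
  mul_mem' {a b} ha hb := by
    change a.left * gmHom _ F a.right b.left ∈ GU n F q
    exact mul_mem ha (gm_mem_GU hq _ hb)
  inv_mem' {a} ha := by
    change (a⁻¹).left ∈ GU n F q
    rw [SemidirectProduct.inv_left]
    exact gm_mem_GU hq _ (inv_mem ha)

theorem sm_mem_GamU (hq : QConj σ q) {g : GL (Fin n) F} {τ : RingAut F} : sm g τ ∈ GamU hq n ↔ g ∈ GU n F q := Iff.rfl

theorem embU_mem (hq : QConj σ q) (s : SU n F q) : embU n F q s ∈ GU n F q := by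
  rw [mem_GU hq]
  exact (mem_SU hq).1 s.2

theorem exists_embU (hq : QConj σ q) {g : GL (Fin n) F} (hg : g ∈ GU n F q) (hd : g.1.det = 1) : ∃ s : SU n F q, embU n F q s = g := by
  let A : Matrix.SpecialLinearGroup (Fin n) F := ⟨g.1, hd⟩
  have hA : A ∈ SU n F q := (mem_SU hq).2 ((mem_GU hq).1 hg)
  exact ⟨⟨A, hA⟩, Units.ext rfl⟩

/-- isometries normalize the special unitary group -/
theorem conj_embU (hq : QConj σ q) {g : GL (Fin n) F} (hg : g ∈ GU n F q) (τ : RingAut F) (s : SU n F q) :
    ∃ s' : SU n F q, g * gmHom _ F τ (embU n F q s) * g⁻¹ = embU n F q s' := by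
  obtain ⟨s', hs'⟩ := exists_embU hq (g := g * gmHom _ F τ (embU n F q s) * g⁻¹)
    (mul_mem (mul_mem hg (gm_mem_GU hq τ (embU_mem hq s))) (inv_mem hg)) (by
      rw [Units.val_mul, Units.val_mul, det_mul, det_mul, gmHom_apply]
      have h1 : ((embU n F q s).1.map τ).det = 1 := by
        have h2 : ((embU n F q s).1.map τ).det = τ ((embU n F q s).1.det) := (RingHom.map_det (τ : F →+* F) _).symm
        rw [h2, embU_coe, s.1.2, map_one]
      rw [h1, mul_one, ← det_mul, ← Units.val_mul, mul_inv_cancel, Units.val_one, det_one])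
  exact ⟨s', hs'.symm⟩

theorem SUEquiv_mem_center (hq : QConj σ q) (s : SU n F q) : s ∈ Subgroup.center (SU n F q) ↔ SUEquiv hq n s ∈ Subgroup.center (SUL (stdH σ n)) := by
  rw [Subgroup.mem_center_iff, Subgroup.mem_center_iff]
  constructor
  · intro h g
    obtain ⟨g, rfl⟩ := (SUEquiv hq n).surjective g
    rw [← map_mul, h, map_mul]
  · intro h g
    apply (SUEquiv hq n).injective
    rw [map_mul, h, map_mul]

/-- the setup -/
theorem setupU (hq : QConj σ q) (hn : 3 ≤ n) : Setup (embU n F q) (GamU hq n) (GU n F q) := by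
  have hfin := hq.finite
  have hV : 3 ≤ finrank F (Fin n → F) := by rw [Module.finrank_fin_fun]; exact hn
  have hinj : Function.Injective (lin.comp (embU n F q) : SU n F q →* _) := fun a b hab => embU_injective (lin_injective hab)
  refine { inj := embU_injective, norm := ?_, mem := ?_, irr := ?_, conj := ?_, range := embU_mem hq }
  · rintro ⟨g, τ⟩ hg
    have hfs : Finite (SU n F q) := by
      have := finite_K (B := stdH σ n) hq
      exact Finite.of_equiv _ (SUEquiv hq n).symm.toEquiv
    apply mem_norm_of hinj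
    intro s
    obtain ⟨s', hs'⟩ := conj_embU hq hg τ s
    refine ⟨s', ?_⟩
    change sm g τ * lin (embU n F q s) * (sm g τ)⁻¹ = lin (embU n F q s')
    rw [sm_conj_lin, hs']
  · intro g hg
    exact hg
  · rintro ⟨g, τ⟩ hg hγ
    have hg' : g ∈ GU n F q := hg
    rw [mem_GU hq] at hg'
    -- the semilinear map
    let G : (Fin n → F) ≃+ (Fin n → F) :=
      { toFun := fun v => g.1 *ᵥ (fun i => τ (v i))
        invFun := fun v => fun i => τ.symm (((g⁻¹).1 *ᵥ v) i)
        left_inv := by
          intro v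
          change (fun i => τ.symm (((g⁻¹).1 *ᵥ (g.1 *ᵥ (fun i => τ (v i)))) i)) = v
          rw [mulVec_mulVec, Units.inv_mul, one_mulVec]
          ext i
          exact τ.symm_apply_apply _
        right_inv := by
          intro v
          change g.1 *ᵥ (fun i => τ (τ.symm (((g⁻¹).1 *ᵥ v) i))) = v
          have h1 : (fun i => τ (τ.symm (((g⁻¹).1 *ᵥ v) i))) = (g⁻¹).1 *ᵥ v := by
            ext i
            exact τ.apply_symm_apply _
          rw [h1, mulVec_mulVec, Units.mul_inv, one_mulVec]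
        map_add' := by
          intro v w
          rw [← mulVec_add]
          congr 1
          ext i
          simp }
    have hG : ∀ v, G v = g.1 *ᵥ (fun i => τ (v i)) := fun v => rfl
    have hSI : SI (stdH σ n) (τ : F →+* F) G := by
      constructor
      · intro a x
        rw [hG, hG]
        have h1 : (fun i => τ ((a • x) i)) = τ a • (fun i => τ (x i)) := by ext i; simp
        rw [h1, mulVec_smul]
        rfl
      · intro x y
        rw [hG, hG, hg']
        exact stdH_map hq (τ : F →+* F) x y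
    have h := stdH_hform hq n
    obtain ⟨t, ht0, ht⟩ := hq.exists_trace_ne_zero (map_zero σ)
    obtain ⟨a, ha⟩ := hSI.scalar hq h hV (by
      intro v hv hv0
      obtain ⟨s, hs⟩ := (SUEquiv hq n).surjective (tv h v t)
      obtain ⟨z, hz, hz'⟩ := hγ s
      have h2 : sm g τ * lin (embU n F q s) * (sm g τ)⁻¹ = lin (embU n F q (s * z)) := hz'
      rw [sm_conj_lin] at h2
      have h3 := lin_injective h2
      have h4 : (tv h (G v) (τ t)) = tv h v t * SUEquiv hq n z := by
        apply K_ext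
        intro x
        obtain ⟨y, rfl⟩ := G.surjective x
        have h5 := hSI.tv hq h hv0 ht y
        change (tv h (G v) (τ t)).1 (G y) = _ at h5
        rw [h5, ← hs, ← map_mul, SUEquiv_apply, SUEquiv_apply]
        have h6 : (s * z).1.1 = g.1 * s.1.1.map τ * (g⁻¹).1 := congrArg Units.val h3.symm
        change g.1 *ᵥ (fun i => τ ((s.1.1 *ᵥ y) i)) = (s * z).1.1 *ᵥ (g.1 *ᵥ (fun i => τ (y i)))
        have h7 : (fun i => τ ((s.1.1 *ᵥ y) i)) = s.1.1.map τ *ᵥ (fun i => τ (y i)) := map_mulVec' (τ : F →+* F) s.1.1 y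
        rw [h6, h7, mulVec_mulVec, mulVec_mulVec, Matrix.mul_assoc (g.1 * s.1.1.map τ), Units.inv_mul, Matrix.mul_one]
      have h5 : T h v t = T h (G v) (τ t) := by
        rw [T, T, h4, mk_eq_iff h]
        exact ⟨_, (SUEquiv_mem_center hq z).1 hz, rfl⟩
      have hτt : τ t + σ (τ t) = 0 := by
        have := map_sigma hq (τ : F →+* F) t
        change τ (σ t) = σ (τ t) at this
        rw [← this, ← map_add, ht, map_zero]
      have hGv : stdH σ n (G v) (G v) = 0 := by rw [hSI.form, hv0, map_zero]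
      exact T_par h hq hV hv0 hGv ((map_ne_zero_iff G G.injective).2 hv) ht hτt ((map_ne_zero τ).2 ht0) h5)
    obtain ⟨hτ, hs⟩ := semi_scalar τ g ⟨⟨0, by omega⟩, ⟨1, by omega⟩, by simp⟩ (fun v => ⟨a, ha v⟩)
    refine ⟨g, hs, ?_⟩
    rw [hτ]
    rfl
  · rintro ⟨h, τ⟩ hh g hg
    refine ⟨h * gmHom _ F τ g * h⁻¹, mul_mem (mul_mem hh (gm_mem_GU hq τ hg)) (inv_mem hh), ?_⟩
    exact sm_conj_lin h g τ

/-- every automorphism is induced by a semilinear isometry -/
theorem mainU (hq : QConj σ q) (hdim : (n = 3 ∧ 3 ≤ q) ∨ 4 ≤ n) (α : MulAut (PSU n F q)) :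
    ∃ (g : GL (Fin n) F) (τ : F ≃+* F), g ∈ GU n F q ∧ IsInducedBySemilinearPSU g τ α := by
  have hfin := hq.finite
  obtain ⟨p, hp⟩ := CharP.exists F
  have : Fintype F := Fintype.ofFinite F
  have hpp : Fact p.Prime := ⟨CharP.char_is_prime F p⟩
  have hdim' : (finrank F (Fin n → F) = 3 ∧ 3 ≤ q) ∨ 4 ≤ finrank F (Fin n → F) := by
    rw [Module.finrank_fin_fun]; exact hdim
  let E := CfsgLib.Symp.quotCenterCongr (SUEquiv hq n)
  have hE : ∀ s : SU n F q, E (QuotientGroup.mk s) = QuotientGroup.mk (SUEquiv hq n s) := fun s => rfl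
  obtain ⟨φ, g, hg, hmain⟩ := main p hq (stdH_hform hq n) hdim' ((E.symm.trans α).trans E)
  obtain ⟨M, hM⟩ := exists_matrix φ (g : (Fin n → F) →+ (Fin n → F)) (fun c v => hg.smul c v)
  have hM' : ∀ v, g v = M *ᵥ (fun i => φ (v i)) := hM
  have hφ : Function.Bijective φ := Finite.injective_iff_bijective.1 φ.injective
  have hlift : ∀ v : Fin n → F, ∃ w : Fin n → F, v = fun i => φ (w i) := by
    intro v
    refine ⟨fun i => Function.surjInv hφ.2 (v i), ?_⟩
    ext i
    exact (Function.surjInv_eq hφ.2 _).symm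
  have hdet : M.det ≠ 0 := by
    intro h0
    obtain ⟨v, hv, hv'⟩ := Matrix.exists_mulVec_eq_zero_iff.2 h0
    obtain ⟨w, rfl⟩ := hlift v
    rw [← hM', map_eq_zero_iff g g.injective] at hv'
    apply hv
    rw [hv']
    ext i
    simp
  refine ⟨Matrix.GeneralLinearGroup.mkOfDetNeZero M hdet, RingEquiv.ofBijective φ hφ, ?_, ?_⟩
  · rw [mem_GU hq]
    intro u v
    obtain ⟨u, rfl⟩ := hlift u
    obtain ⟨v, rfl⟩ := hlift v
    change stdH σ n (M *ᵥ _) (M *ᵥ _) = _
    rw [← hM', ← hM', hg.form, stdH_map hq]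
  · intro s s' hss'
    have h1 := hmain (SUEquiv hq n s) (SUEquiv hq n s') (by
      intro x
      rw [SUEquiv_apply, SUEquiv_apply, hM', hM', map_mulVec' φ, mulVec_mulVec, mulVec_mulVec]
      congr 1
      rw [hss']
      have e1 : (((Matrix.GeneralLinearGroup.mkOfDetNeZero M hdet)⁻¹ : GL (Fin n) F) : Matrix (Fin n) (Fin n) F) * M = 1 := by
        change (((Matrix.GeneralLinearGroup.mkOfDetNeZero M hdet)⁻¹ : GL (Fin n) F) : Matrix (Fin n) (Fin n) F) * ((Matrix.GeneralLinearGroup.mkOfDetNeZero M hdet : GL (Fin n) F) : Matrix (Fin n) (Fin n) F) = 1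
        rw [← Units.val_mul, inv_mul_cancel]
        rfl
      rw [Matrix.mul_assoc, e1, Matrix.mul_one]
      rfl)
    rw [← hE, ← hE] at h1
    change E (α (E.symm (E (QuotientGroup.mk s)))) = _ at h1
    rw [E.symm_apply_apply] at h1
    exact E.injective h1

theorem fullU (hq : QConj σ q) (hn : 3 ≤ n) (hdim : (n = 3 ∧ 3 ≤ q) ∨ 4 ≤ n) :
    Function.Surjective (setupU (F := F) hq hn).Psi := by
  intro α
  obtain ⟨g, τ, hg, h⟩ := mainU hq hdim α
  exact ⟨⟨sm g τ, hg⟩, (((setupU hq hn).ind_iff (σ := τ) (show sm g τ ∈ GamU hq n from hg) α).1 h).symm⟩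

end CfsgLib.AutPSU
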