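import Cfsg.Agent.Lib.AutPSU11

/-!
# Automorphisms of `PSU`, part 12: Hilbert 90 for the unitary group, field automorphisms.
-/

set_option autoImplicit false
set_option linter.unusedSimpArgs false
set_option linter.unusedSectionVars false
set_option linter.unusedVariables false

namespace CfsgLib.AutPSU

open Module Matrix Cfsg CfsgLib.SemiAut CfsgLib.Descent2 CfsgLib.AutPSp CfsgLib.Herm

variable {F : Type*} [Field F] {σ : F →+* F} {q n : ℕ}

theorem stdH_dot (x y : Fin n → F) : stdH σ n x y = (fun i => σ (x i)) ⬝ᵥ y := stdH_apply σ x y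

/-- the Gram matrix -/
def gram (σ : F →+* F) (k : Matrix (Fin n) (Fin n) F) : Matrix (Fin n) (Fin n) F := (k.map σ)ᵀ * k

theorem gram_spec (k : Matrix (Fin n) (Fin n) F) (x y : Fin n → F) : stdH σ n (k *ᵥ x) (k *ᵥ y) = stdH σ n x (gram σ k *ᵥ y) := by
  rw [stdH_dot, stdH_dot, map_mulVec' σ k x, gram, ← mulVec_mulVec, Matrix.dotProduct_mulVec _ (k.map σ)ᵀ, vecMul_transpose]

theorem stdH_single_left (M : Matrix (Fin n) (Fin n) F) (a b : Fin n) : stdH σ n (Pi.single a 1) (M *ᵥ Pi.single b 1) = M a b := by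
  rw [stdH_dot]
  have h1 : (fun i => σ ((Pi.single a 1 : Fin n → F) i)) = Pi.single a 1 := by
    ext i
    simp only [Pi.single_apply]
    split_ifs
    · rw [map_one]
    · rw [map_zero]
  rw [h1]
  simp

theorem gram_apply (k : Matrix (Fin n) (Fin n) F) (a b : Fin n) :
    gram σ k a b = stdH σ n (k *ᵥ Pi.single a 1) (k *ᵥ Pi.single b 1) := by
  rw [gram_spec, stdH_single_left]

theorem map_single (τ : F →+* F) (a : Fin n) : (fun i => τ ((Pi.single a 1 : Fin n → F) i)) = Pi.single a 1 := by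
  ext i
  simp only [Pi.single_apply]
  split_ifs
  · rw [map_one]
  · rw [map_zero]

section fixed

variable {F₀ : Type*} [Field F₀] {σ₀ : F₀ →+* F₀} {q₀ : ℕ} (hq₀ : QConj σ₀ q₀) (j : F₀ →+* F) (τ : RingAut F)
  (hj : ∀ x, τ x = x ↔ ∃ y, j y = x) (hjσ : ∀ y, j (σ₀ y) = σ (j y))

include hjσ in
theorem stdH_j (x y : Fin n → F₀) : stdH σ n (fun i => j (x i)) (fun i => j (y i)) = j (stdH σ₀ n x y) := by
  rw [stdH_apply, stdH_apply, map_sum]
  exact Finset.sum_congr rfl fun i _ => by rw [map_mul, hjσ]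

include hq₀ hj hjσ

/-- a scalar fixed by `σ` -/
theorem exists_d (hq : QConj σ q) {d₀ ν : F} (hd₀ : d₀ ≠ 0) (hν : σ ν = ν) (h : τ d₀ * ν = d₀) :
    ∃ d : F, d ≠ 0 ∧ σ d = d ∧ τ d * ν = d := by
  obtain ⟨e, he⟩ : ∃ e : F₀, j e * d₀ + σ (j e * d₀) ≠ 0 := by
    by_contra! hcon
    obtain ⟨e, he⟩ := hq₀.exists_ne
    apply he
    apply j.injective
    have h1 := hcon 1
    have h2 := hcon e
    rw [map_one, one_mul] at h1
    rw [map_mul, ← hjσ] at h2
    have h3 : σ d₀ = - d₀ := by linear_combination h1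
    rw [h3] at h2
    have h4 : (j e - j (σ₀ e)) * d₀ = 0 := by linear_combination h2
    rcases mul_eq_zero.1 h4 with h5 | h5
    · exact (sub_eq_zero.1 h5).symm
    · exact absurd h5 hd₀
  refine ⟨_, he, ?_, ?_⟩
  · rw [map_add, hq.invol, add_comm]
  · have h1 : τ (j e) = j e := (hj _).2 ⟨e, rfl⟩
    have h2 : τ (σ (j e * d₀)) = σ (τ (j e * d₀)) := map_sigma hq (τ : F →+* F) _
    rw [map_add, h2, map_mul τ, h1, add_mul]
    have h3 : σ (j e * τ d₀) * ν = σ (j e * d₀) := by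
      rw [← h]
      nth_rewrite 2 [← hν]
      rw [← map_mul]
      congr 1
      rw [h]
      linear_combination (j e) * h
    rw [h3, mul_assoc, h]

/-- Hilbert 90 for the unitary group -/
theorem descent_GU (hq : QConj σ q) (hn : 1 ≤ n) {g : GL (Fin n) F} (hg : g ∈ GU n F q)
    (h : ∃ c : GL (Fin n) F, IsScal c ∧ (lin g * sm 1 τ) ^ (orderOf τ) = lin c) :
    ∃ k ∈ GU n F q, ∃ c : GL (Fin n) F, IsScal c ∧ lin g * sm 1 τ = lin c * (lin k * sm 1 τ * (lin k)⁻¹) := by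
  have hfin := hq.finite
  have hne : Nonempty (Fin n) := ⟨⟨0, by omega⟩⟩
  obtain ⟨c0, hc0, h⟩ := h
  obtain ⟨k, c, hc, hk⟩ := descent_scal τ g c0 hc0 h
  obtain ⟨c, rfl⟩ := exists_scal_of hc
  rw [mem_GU hq] at hg
  have hk' : ∀ v : Fin n → F, (c : F) • (k.1 *ᵥ v) = g.1 *ᵥ (k.1.map τ *ᵥ v) := by
    intro v
    rw [mulVec_mulVec, hk, scal_coe, Matrix.smul_mul, Matrix.one_mul, smul_mulVec]
  set A := gram σ k.1 with hA
  set ν : F := σ c * c with hν
  have hνσ : σ ν = ν := by rw [hν, map_mul, hq.invol, mul_comm]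
  have hAτ : A.map τ = ν • A := by
    ext a b
    rw [Matrix.map_apply, Matrix.smul_apply, hA, gram_apply, smul_eq_mul]
    have h1 := stdH_map (σ := σ) hq (τ : F →+* F) (k.1 *ᵥ Pi.single a 1) (k.1 *ᵥ Pi.single b 1)
    have h2 : ∀ a, (fun i => τ ((k.1 *ᵥ (Pi.single a 1 : Fin n → F)) i)) = k.1.map τ *ᵥ Pi.single a 1 := by
      intro a
      have h3 := map_mulVec' (τ : F →+* F) k.1 (Pi.single a 1)
      rw [map_single (τ : F →+* F)] at h3
      exact h3
    have h3 : stdH σ n (fun i => τ ((k.1 *ᵥ (Pi.single a 1 : Fin n → F)) i)) (fun i => τ ((k.1 *ᵥ (Pi.single b 1 : Fin n → F)) i)) =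
      τ (stdH σ n (k.1 *ᵥ Pi.single a 1) (k.1 *ᵥ Pi.single b 1)) := h1
    rw [← h3, h2, h2, ← hg, ← hk', ← hk', map_smul_left, map_smul_right, hν]
    ring
  obtain ⟨J', hJ'⟩ : ∃ J' : GL (Fin n) F, J'.1 = A := by
    have h2 : k.1.det ≠ 0 := ((Matrix.isUnit_iff_isUnit_det _).1 k.isUnit).ne_zero
    have h1 : A.det ≠ 0 := by
      rw [hA, gram, det_mul, det_transpose]
      have h3 : (k.1.map σ).det = σ k.1.det := (RingHom.map_det σ _).symm
      rw [h3]
      exact mul_ne_zero ((map_ne_zero σ).2 h2) h2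
    exact ⟨Matrix.GeneralLinearGroup.mkOfDetNeZero A h1, rfl⟩
  obtain ⟨d₀, hd₀, hdA₀⟩ := fixed_up_to_scalar τ J' (l := ν) (by rw [hJ', hAτ])
  rw [hJ'] at hdA₀
  have hcan : ∀ a b : F, a • A = b • A → a = b := by
    intro a b hab
    have h1 : (a - b) • A = 0 := by rw [sub_smul, hab, sub_self]
    rcases smul_eq_zero.1 h1 with h2 | h2
    · exact sub_eq_zero.1 h2
    · exfalso
      have h3 := J'.mul_inv
      rw [← hJ'] at h2
      have h4 : J'.1 * (J'⁻¹).1 = 1 := h3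
      rw [h2, Matrix.zero_mul] at h4
      have := congrFun (congrFun h4 ⟨0, by omega⟩) ⟨0, by omega⟩
      rw [Matrix.one_apply_eq, Matrix.zero_apply] at this
      exact zero_ne_one this
  have hsm : ∀ a : F, (a • A).map τ = (τ a * ν) • A := by
    intro a
    have : (a • A).map τ = τ a • A.map τ := by ext x y; simp
    rw [this, hAτ, smul_smul]
  obtain ⟨d, hd0, hdσ, hd⟩ := exists_d hq₀ j τ hj hjσ hq hd₀ hνσ (hcan _ _ (by rw [← hsm, hdA₀]))
  obtain ⟨A0, hA0⟩ := fixed_matrix τ j hj (d • A) (by rw [hsm, hd])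
  have hjmul : ∀ (M : Matrix (Fin n) (Fin n) F₀) (y : Fin n → F₀), (fun i => j ((M *ᵥ y) i)) = M.map j *ᵥ (fun i => j (y i)) := by
    intro M y
    ext i
    simp only [mulVec, dotProduct, map_sum, map_mul, Matrix.map_apply]
  -- the form over the fixed field
  let B0 : (Fin n → F₀) →ₛₗ[σ₀] (Fin n → F₀) →ₗ[F₀] F₀ :=
    { toFun := fun x => (stdH σ₀ n x).comp (Matrix.mulVecLin A0)
      map_add' := fun x y => by ext z; simp [map_add_left]
      map_smul' := fun a x => by ext z; simp [map_smul_left] }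
  have hB0 : ∀ x y, B0 x y = stdH σ₀ n x (A0 *ᵥ y) := fun x y => rfl
  have hjB0 : ∀ x y, j (B0 x y) = d * stdH σ n (k.1 *ᵥ (fun i => j (x i))) (k.1 *ᵥ (fun i => j (y i))) := by
    intro x y
    rw [hB0, ← stdH_j j hjσ, hjmul, hA0, smul_mulVec, map_smul_right, gram_spec]
  have hdet0 : A0.det ≠ 0 := by
    intro h0
    have h1 : j A0.det = (A0.map j).det := by
      rw [RingHom.map_det]; rfl
    rw [h0, map_zero, hA0, det_smul] at h1
    have h2 : A.det ≠ 0 := by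
      rw [← hJ']
      exact ((Matrix.isUnit_iff_isUnit_det _).1 J'.isUnit).ne_zero
    exact mul_ne_zero (pow_ne_zero _ hd0) h2 h1.symm
  have hB0f : HForm B0 := by
    refine ⟨fun x y => ?_, fun x hx => ?_⟩
    · apply j.injective
      rw [hjσ, hjB0, hjB0, map_mul, hdσ, (stdH_hform hq n).symm]
    · apply (stdH_hform hq₀ n).nd
      intro z
      have h1 := hx (A0⁻¹ *ᵥ z)
      rw [hB0, mulVec_mulVec, Matrix.mul_nonsing_inv _ (isUnit_iff_ne_zero.2 hdet0), one_mulVec] at h1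
      exact h1
  obtain ⟨e, he⟩ := exists_isometry hq₀ hB0f (stdH_hform hq₀ n) rfl
  let H0 : Matrix (Fin n) (Fin n) F₀ := LinearMap.toMatrix' (e : (Fin n → F₀) →ₗ[F₀] (Fin n → F₀))
  have hH0 : ∀ v, H0 *ᵥ v = e v := by
    intro v
    rw [← Matrix.toLin'_apply, Matrix.toLin'_toMatrix']
    rfl
  have hH0det : H0.det ≠ 0 := by
    intro h0
    obtain ⟨v, hv, hv'⟩ := Matrix.exists_mulVec_eq_zero_iff.2 h0
    rw [hH0] at hv'
    exact hv (e.map_eq_zero_iff.1 hv')
  let H : GL (Fin n) F := Matrix.GeneralLinearGroup.map j (Matrix.GeneralLinearGroup.mkOfDetNeZero H0 hH0det)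
  have hH : H.1 = H0.map j := rfl
  have hHτ : H.1.map τ = H.1 := by
    ext a b
    rw [hH, Matrix.map_apply, Matrix.map_apply]
    exact (hj _).2 ⟨_, rfl⟩
  have hgr : gram σ H.1 = d • A := by
    ext a b
    have h1 : ∀ a, (Pi.single a 1 : Fin n → F) = (fun i => j ((Pi.single a 1 : Fin n → F₀) i)) := by
      intro a
      ext i
      simp only [Pi.single_apply]
      split_ifs
      · rw [map_one]
      · rw [map_zero]
    rw [gram_apply, Matrix.smul_apply, smul_eq_mul, hA, gram_apply, h1, h1, hH, ← hjmul, ← hjmul, stdH_j j hjσ, hH0, hH0, he, hjB0]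
  have hHB : ∀ x y : Fin n → F, stdH σ n (H.1 *ᵥ x) (H.1 *ᵥ y) = d * stdH σ n (k.1 *ᵥ x) (k.1 *ᵥ y) := by
    intro x y
    rw [gram_spec, hgr, smul_mulVec, map_smul_right, gram_spec]
  obtain ⟨s, hs0, hs⟩ := hq.exists_norm_ne hdσ hd0
  refine ⟨scal (Units.mk0 s hs0) * (k * H⁻¹), ?_, scal (Units.mk0 (τ s) ((map_ne_zero τ).2 hs0) * c * (Units.mk0 s hs0)⁻¹), scal_isScal _, ?_⟩
  · rw [mem_GU hq]
    intro u v
    have h1 := hHB ((H⁻¹).1 *ᵥ u) ((H⁻¹).1 *ᵥ v)
    rw [mulVec_mulVec, mulVec_mulVec, Units.mul_inv, one_mulVec, one_mulVec] at h1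
    rw [Units.val_mul, Units.val_mul, ← mulVec_mulVec, ← mulVec_mulVec, ← mulVec_mulVec, ← mulVec_mulVec, scal_mulVec, scal_mulVec,
      map_smul_left, map_smul_right, h1, Units.val_mk0, ← hs]
    ring
  · rw [sm_conj_iff _ _ _ _ (scal_isScal _)]
    have h1 : gmHom _ F τ (k * H⁻¹) = gmHom _ F τ k * H⁻¹ := by
      rw [map_mul, map_inv]
      congr 2
      exact Units.ext hHτ
    have h2 : (k * H⁻¹).1.map τ = (k.1.map τ) * (H⁻¹).1 := congrArg Units.val h1
    have h4 : (scal (Units.mk0 s hs0) * (k * H⁻¹) : GL (Fin n) F).1 = s • (k * H⁻¹).1 := by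
      rw [Units.val_mul, scal_coe, Matrix.smul_mul, Matrix.one_mul, Units.val_mk0]
    have h3 : (scal (Units.mk0 s hs0) * (k * H⁻¹) : GL (Fin n) F).1.map τ = τ s • ((k.1.map τ) * (H⁻¹).1) := by
      rw [h4, ← h2]
      ext a b
      rw [Matrix.map_apply, Matrix.smul_apply, Matrix.smul_apply, smul_eq_mul, smul_eq_mul, map_mul, Matrix.map_apply]
    rw [h3, h4, Matrix.mul_smul, ← Matrix.mul_assoc, hk, scal_coe, scal_coe, Matrix.smul_mul, Matrix.smul_mul,
      Matrix.smul_mul, Matrix.one_mul, Matrix.one_mul, smul_smul, smul_smul, ← Units.val_mul]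
    congr 1
    rw [Units.val_mul, Units.val_mul, Units.val_inv_eq_inv_val, Units.val_mk0, Units.val_mk0, mul_assoc (τ s * c), inv_mul_cancel₀ hs0, mul_one]

end fixed

end CfsgLib.AutPSU
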