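import Cfsg.Agent.Lib.AutPSU12

/-!
# Automorphisms of `PSU`, part 13: centralizers and splitting for field automorphisms.
-/

set_option autoImplicit false
set_option linter.unusedSimpArgs false
set_option linter.unusedSectionVars false
set_option linter.unusedVariables false

namespace CfsgLib.AutPSU

open Module Matrix Cfsg CfsgLib.SemiAut CfsgLib.Descent2 CfsgLib.AutPSp CfsgLib.Herm

variable {F : Type*} [Field F] {σ : F →+* F} {q n : ℕ}

theorem mem_GU_gram (hq : QConj σ q) (g : GL (Fin n) F) : g ∈ GU n F q ↔ gram σ g.1 = 1 := by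
  rw [mem_GU hq]
  constructor
  · intro h
    ext a b
    rw [gram_apply, h, stdH_single, Matrix.one_apply]
  · intro h u v
    rw [gram_spec, h, one_mulVec]

theorem odd_pow {F₀ : Type*} [Field F₀] {σ₀ : F₀ →+* F₀} {q₀ : ℕ} (hq₀ : QConj σ₀ q₀) {r : ℕ} (hr : Odd r) (y : F₀) :
    y ^ (q₀ ^ r) = σ₀ y := by
  obtain ⟨s, rfl⟩ := hr
  induction s with
  | zero => rw [mul_zero, zero_add, pow_one, hq₀.pow]
  | succ s ih =>
    have e : 2 * (s + 1) + 1 = 2 * s + 1 + 2 := by ring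
    rw [e, pow_add, pow_mul, ih, pow_two, pow_mul, ← hq₀.pow, ← hq₀.pow, hq₀.invol]

/-- the data of the fixed field -/
theorem exists_data [Fintype F] (hq : QConj σ q) {p f r : ℕ} [Fact p.Prime] (hqp : q = p ^ f) (hf : 1 ≤ f) (τ : RingAut F)
    (hτ : orderOf τ = r) (hr : Odd r) (F₀ : Type*) [Field F₀] [Fintype F₀] (hF₀ : Fintype.card F₀ = p ^ (2 * (f / r))) :
    r ∣ f ∧ ∃ j : F₀ →+* F, (∀ x, τ x = x ↔ ∃ y, j y = x) ∧ ∃ σ₀ : F₀ →+* F₀, QConj σ₀ (p ^ (f / r)) ∧ ∀ y, j (σ₀ y) = σ (j y) := by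
  have hF : Fintype.card F = p ^ (2 * f) := by
    rw [← Nat.card_eq_fintype_card, hq.card, hqp, ← pow_mul, mul_comm]
  have hrf2 : r ∣ 2 * f := by
    have hfin : Finite (RingAut F) := Finite.of_injective (fun σ : RingAut F => (σ : F → F)) DFunLike.coe_injective
    rw [← hτ, ← AutPSL.ringAut_card hF]
    exact orderOf_dvd_natCard τ
  have hrf : r ∣ f := by
    have hcop : Nat.Coprime r 2 := Nat.coprime_two_right.2 hr
    exact hcop.dvd_of_dvd_mul_left hrf2
  obtain ⟨_, j, hj⟩ := AutPSL.exists_emb τ hF hτ F₀ (by rw [hF₀, Nat.mul_div_assoc _ hrf])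
  obtain ⟨σ₀, hσ₀⟩ := exists_sigma (F := F₀) (q := p ^ (f / r)) (by
    rw [Nat.card_eq_fintype_card, hF₀, ← pow_mul, mul_comm])
  refine ⟨hrf, j, hj, σ₀, hσ₀, fun y => ?_⟩
  rw [hq.pow, ← map_pow]
  congr 1
  have h1 : q = (p ^ (f / r)) ^ r := by rw [hqp, ← pow_mul, Nat.div_mul_cancel hrf]
  rw [h1, odd_pow hσ₀ hr]

theorem hNU (hq : QConj σ q) (hn : 3 ≤ n) (hdim : (n = 3 ∧ 3 ≤ q) ∨ 4 ≤ n) (α δ : MulAut (PSU n F q)) :
    δ ∈ (setupU (F := F) hq hn).gam.range ↔ α * δ * α⁻¹ ∈ (setupU (F := F) hq hn).gam.range :=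
  (setupU hq hn).conj_mem (fullU hq hn hdim) α δ

theorem one_mem_GamU (hq : QConj σ q) (n : ℕ) (τ : RingAut F) : sm 1 τ ∈ GamU hq n := one_mem (GU n F q)

theorem std_iffU (hq : QConj σ q) (hn : 3 ≤ n) (τ : F ≃+* F) (β : MulAut (PSU n F q)) :
    IsFieldAutPSUOf τ β ↔ β = (setupU hq hn).Psi ⟨sm 1 τ, one_mem_GamU hq n τ⟩ :=
  (setupU hq hn).std_iff (σ := τ) (one_mem_GamU hq n τ) β

theorem inndiag_eqU (hq : QConj σ q) (hn : 3 ≤ n) : inndiagPSU n F q = (setupU (F := F) hq hn).gam.range :=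
  (setupU hq hn).inndiag_eq

section fixed

variable {F₀ : Type*} [Field F₀] {σ₀ : F₀ →+* F₀} {q₀ : ℕ} (hq₀ : QConj σ₀ q₀) (j : F₀ →+* F) (τ : RingAut F)
  (hj : ∀ x, τ x = x ↔ ∃ y, j y = x) (hjσ : ∀ y, j (σ₀ y) = σ (j y))

include hjσ in
theorem gram_map (M : Matrix (Fin n) (Fin n) F₀) : gram σ (M.map j) = (gram σ₀ M).map j := by
  rw [gram, gram, Matrix.map_mul, ← Matrix.transpose_map]
  congr 1
  ext a b
  simp only [Matrix.transpose_apply, Matrix.map_apply, hjσ]

include hq₀ hjσ in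
theorem map_mem_GU (hq : QConj σ q) (h : GL (Fin n) F₀) : Matrix.GeneralLinearGroup.map j h ∈ GU n F q ↔ h ∈ GU n F₀ q₀ := by
  rw [mem_GU_gram hq, mem_GU_gram hq₀]
  have h1 : gram σ (Matrix.GeneralLinearGroup.map j h).1 = (gram σ₀ h.1).map j := gram_map j hjσ h.1
  rw [h1]
  constructor
  · intro h2
    ext a b
    apply j.injective
    have h3 := congrFun (congrFun h2 a) b
    rw [Matrix.map_apply] at h3
    rw [h3, Matrix.one_apply, Matrix.one_apply]
    split_ifs <;> simp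
  · intro h2
    rw [h2, Matrix.map_one _ (map_zero j) (map_one j)]

include hq₀ hj hjσ

/-- isometries commuting with a field automorphism modulo scalars -/
theorem cent_GU (hq : QConj σ q) (hn : 1 ≤ n) {g : GL (Fin n) F} (hg : g ∈ GU n F q)
    (h : ∃ c : GL (Fin n) F, IsScal c ∧ sm 1 τ * lin g = lin c * (lin g * sm 1 τ)) :
    ∃ (h : GU n F₀ q₀) (c : Fˣ), g = scal c * Matrix.GeneralLinearGroup.map j h.1 := by
  have hfin := hq.finite
  have hne : Nonempty (Fin n) := ⟨⟨0, by omega⟩⟩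
  obtain ⟨c, ⟨l, hl⟩, h⟩ := h
  rw [sm_comm_iff, hl, Matrix.smul_mul, Matrix.one_mul] at h
  obtain ⟨d, hd0, hd⟩ := fixed_up_to_scalar τ g h
  have h1 : (scal (Units.mk0 d hd0) * g : GL (Fin n) F).1 = d • g.1 := by
    rw [Units.val_mul, scal_coe, Matrix.smul_mul, Matrix.one_mul, Units.val_mk0]
  obtain ⟨k, hk⟩ := fixed_GL τ j hj (scal (Units.mk0 d hd0) * g) (by rw [h1, hd])
  -- the multiplier of `k`
  have hgk : gram σ (Matrix.GeneralLinearGroup.map j k).1 = (σ d * d) • 1 := by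
    rw [hk, h1]
    ext a b
    rw [gram_apply, smul_mulVec, smul_mulVec, map_smul_left, map_smul_right, (mem_GU hq).1 hg, stdH_single, Matrix.smul_apply,
      Matrix.one_apply, smul_eq_mul, mul_assoc]
  have hgk' : (gram σ₀ k.1).map j = (σ d * d) • 1 := by
    rw [← gram_map j hjσ, ← hgk]
    rfl
  let i0 : Fin n := ⟨0, by omega⟩
  obtain ⟨D, hD⟩ : ∃ D : F₀, j D = σ d * d := by
    refine ⟨gram σ₀ k.1 i0 i0, ?_⟩
    have := congrFun (congrFun hgk' i0) i0
    rw [Matrix.map_apply, Matrix.smul_apply, Matrix.one_apply_eq, smul_eq_mul, mul_one] at this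
    exact this
  have hD0 : D ≠ 0 := by
    rintro rfl
    rw [map_zero] at hD
    exact mul_ne_zero ((map_ne_zero σ).2 hd0) hd0 hD.symm
  have hDσ : σ₀ D = D := by
    apply j.injective
    rw [hjσ, hD, map_mul, hq.invol, mul_comm]
  have hgk0 : gram σ₀ k.1 = D • 1 := by
    ext a b
    apply j.injective
    have := congrFun (congrFun hgk' a) b
    rw [Matrix.map_apply] at this
    rw [this, Matrix.smul_apply, Matrix.smul_apply, smul_eq_mul, smul_eq_mul, map_mul, hD, Matrix.one_apply, Matrix.one_apply]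
    congr 1
    split_ifs <;> simp
  obtain ⟨s, hs0, hs⟩ := hq₀.exists_norm_ne (c := D⁻¹) (by rw [map_inv₀, hDσ]) (inv_ne_zero hD0)
  have hk' : scal (Units.mk0 s hs0) * k ∈ GU n F₀ q₀ := by
    rw [mem_GU hq₀]
    intro u v
    rw [Units.val_mul, ← mulVec_mulVec, ← mulVec_mulVec, scal_mulVec, scal_mulVec, map_smul_left, map_smul_right, gram_spec, hgk0,
      smul_mulVec, one_mulVec, map_smul_right, Units.val_mk0, ← mul_assoc, ← mul_assoc, mul_comm (σ₀ s), hs, inv_mul_cancel₀ hD0, one_mul]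
  refine ⟨⟨_, hk'⟩, (Units.mk0 d hd0)⁻¹ * (Units.map (j : F₀ →* F) (Units.mk0 s hs0))⁻¹, ?_⟩
  have h2 : Matrix.GeneralLinearGroup.map j (scal (Units.mk0 s hs0) : GL (Fin n) F₀) = scal (Units.map (j : F₀ →* F) (Units.mk0 s hs0)) := by
    apply Units.ext
    change (scal (Units.mk0 s hs0) : GL (Fin n) F₀).1.map j = _
    rw [scal_coe, scal_coe]
    ext a b
    simp only [Matrix.map_apply, Matrix.smul_apply, smul_eq_mul, map_mul, Matrix.one_apply]
    congr 1
    split_ifs <;> simp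
  have hsc : ∀ a b : Fˣ, (scal (a * b) : GL (Fin n) F) = scal a * scal b := by
    intro a b
    apply Units.ext
    rw [Units.val_mul, scal_coe, scal_coe, scal_coe, Matrix.smul_mul, Matrix.one_mul, smul_smul, Units.val_mul]
  have hsi : ∀ a : Fˣ, (scal a⁻¹ : GL (Fin n) F) * scal a = 1 := by
    intro a
    rw [← hsc, inv_mul_cancel]
    apply Units.ext
    rw [scal_coe, Units.val_one, one_smul, Units.val_one]
  change g = scal _ * Matrix.GeneralLinearGroup.map j (scal (Units.mk0 s hs0) * k)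
  rw [map_mul, h2, hsc, mul_assoc, ← mul_assoc (scal (Units.map (j : F₀ →* F) (Units.mk0 s hs0))⁻¹), hsi, one_mul, hk, ← mul_assoc, hsi, one_mul]

theorem gm_mapU (h : GL (Fin n) F₀) : (Matrix.GeneralLinearGroup.map j h).1.map τ = (Matrix.GeneralLinearGroup.map j h).1 := by
  ext a b
  rw [Matrix.map_apply]
  exact (hj _).2 ⟨_, rfl⟩

/-- centralizer part of S2705 -/
theorem centralizer_fieldU (hq : QConj σ q) (hn : 3 ≤ n) (hdim : (n = 3 ∧ 3 ≤ q) ∨ 4 ≤ n) {x α : MulAut (PSU n F q)}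
    (hx : α * x * α⁻¹ = (setupU (F := F) hq hn).Psi ⟨sm 1 τ, one_mem_GamU hq n τ⟩) :
    Nonempty (↥(inndiagPSU n F q ⊓ Subgroup.centralizer {x}) ≃* PGU n F₀ q₀) := by
  rw [inndiag_eqU hq hn]
  refine (setupU hq hn).centralizer_eq (hNU hq hn hdim) ((Matrix.GeneralLinearGroup.map j).comp (GU n F₀ q₀).subtype)
    ((Geo.scalars (Fin n) F₀).subgroupOf (GU n F₀ q₀)) ?_ ?_ ?_ ?_ hx
  · intro h
    exact (map_mem_GU hq₀ j hjσ hq h.1).2 h.2
  · intro h
    have h1 := (sm_comm_iff τ (Matrix.GeneralLinearGroup.map j h.1) 1).2 (by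
      rw [gm_mapU hq₀ j τ hj hjσ, Units.val_one, Matrix.one_mul])
    rw [map_one, one_mul] at h1
    exact h1
  · intro h
    rw [Subgroup.mem_subgroupOf, Geo.mem_scalars_iff]
    constructor
    · rintro ⟨c, hc⟩
      refine ⟨j c, ?_⟩
      change h.1.1.map j = _
      rw [hc]
      ext a b
      simp only [Matrix.map_apply, Matrix.smul_apply, smul_eq_mul, map_mul, Matrix.one_apply]
      split_ifs <;> simp
    · rintro ⟨c, hc⟩
      have hc' : h.1.1.map j = c • (1 : Matrix (Fin n) (Fin n) F) := hc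
      have h1 : ∀ a b, j (h.1.1 a b) = c * (1 : Matrix (Fin n) (Fin n) F) a b := fun a b => congrFun (congrFun hc' a) b
      let i0 : Fin n := ⟨0, by omega⟩
      have h2 : h.1.1 = (h.1.1 i0 i0) • (1 : Matrix (Fin n) (Fin n) F₀) := by
        ext a b
        apply j.injective
        rw [h1, Matrix.smul_apply, smul_eq_mul, map_mul, h1, Matrix.one_apply_eq, mul_one, Matrix.one_apply, Matrix.one_apply]
        split_ifs <;> simp
      have h3 : h.1.1 i0 i0 ≠ 0 := by
        intro h0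
        rw [h0, zero_smul] at h2
        have h4 : h.1.1 * (h.1⁻¹).1 = 1 := h.1.mul_inv
        rw [h2, Matrix.zero_mul] at h4
        have := congrFun (congrFun h4 i0) i0
        rw [Matrix.one_apply_eq, Matrix.zero_apply] at this
        exact zero_ne_one this
      exact ⟨Units.mk0 _ h3, h2⟩
  · intro g hg h
    obtain ⟨k, c, hk⟩ := cent_GU hq₀ j τ hj hjσ hq (by omega) hg h
    exact ⟨k, scal c, scal_isScal c, hk⟩

/-- splitting part of S2705 -/
theorem split_fieldU (hq : QConj σ q) (hn : 3 ≤ n) (hdim : (n = 3 ∧ 3 ≤ q) ∨ 4 ≤ n) {x α : MulAut (PSU n F q)}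
    (hx : α * x * α⁻¹ = (setupU (F := F) hq hn).Psi ⟨sm 1 τ, one_mem_GamU hq n τ⟩) :
    splitClassCount (inndiagPSU n F q) (Inn (PSU n F q)) x = Nat.gcd n ((q + 1) / (q₀ + 1)) := by
  have hfin := hq.finite
  rw [inndiag_eqU hq hn]
  have hjn : ∀ u : normOne σ₀, Units.map (j : F₀ →* F) u.1 ∈ normOne σ := by
    intro u
    rw [mem_normOne]
    change j u.1.1 * σ (j u.1.1) = 1
    rw [← hjσ, ← map_mul, mem_normOne.1 u.2, map_one]
  let jN : normOne σ₀ →* normOne σ := ((Units.map (j : F₀ →* F)).comp (normOne σ₀).subtype).codRestrict (normOne σ) hjn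
  have hjNinj : Function.Injective jN := by
    intro a b hab
    have h1 := congrArg (fun x => x.1.1) hab
    exact Subtype.ext (Units.ext (j.injective h1))
  let S0 : Subgroup (normOne σ) := jN.range
  let D : GU n F q →* normOne σ ⧸ ((powMonoidHom n : normOne σ →* normOne σ).range ⊔ S0) := (QuotientGroup.mk' _).comp (detG hq n)
  have hDiff : ∀ g : GU n F q, D g = 1 ↔ detG hq n g ∈ (powMonoidHom n : normOne σ →* normOne σ).range ⊔ S0 := by
    intro g
    exact QuotientGroup.eq_one_iff _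
  have hD : Function.Surjective D := by
    intro x
    obtain ⟨c, rfl⟩ := QuotientGroup.mk_surjective x
    obtain ⟨g, hg⟩ := detG_surj (n := n) hq (by omega) c
    exact ⟨g, by change QuotientGroup.mk _ = _; rw [hg]⟩
  have hcard : Nat.card S0 = q₀ + 1 := by
    rw [← card_normOne hq₀]
    exact (Nat.card_congr (MonoidHom.ofInjective hjNinj).toEquiv).symm
  let mJ : GU n F₀ q₀ → GU n F q := fun h => ⟨Matrix.GeneralLinearGroup.map j h.1, (map_mem_GU hq₀ j hjσ hq h.1).2 h.2⟩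
  have hdJ : ∀ h : GU n F₀ q₀, detG hq n (mJ h) = jN (detG hq₀ n h) := by
    intro h
    apply Subtype.ext
    apply Units.ext
    change (h.1.1.map j).det = j (h.1.1.det)
    rw [RingHom.map_det]
    rfl
  rw [(setupU hq hn).split_card (hNU hq hn hdim) D hD ?_ hx]
  · have h1 := AutPSL.index_sup (C := normOne σ) n S0
    rw [hcard, card_normOne hq] at h1
    exact h1
  · intro g
    rw [hDiff]
    constructor
    · intro hg
      obtain ⟨a, ⟨a0, ha⟩, b, ⟨b0, rfl⟩, hab⟩ := Subgroup.mem_sup.1 hg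
      obtain ⟨h0, hh0⟩ := detG_surj (n := n) hq₀ (by omega) b0
      have hdet : detG hq n (g * (mJ h0)⁻¹) = a0 ^ n := by
        rw [map_mul, map_inv, hdJ, hh0, ← hab, mul_inv_cancel_right, ← ha]
        rfl
      have hc1 : (scal a0.1 : GL (Fin n) F) ∈ GU n F q := (scal_mem_GU hq (by omega) a0.1).2 a0.2
      obtain ⟨s, hs⟩ := exists_embU hq (g := (scal a0.1)⁻¹ * (g * (mJ h0)⁻¹).1) (mul_mem (inv_mem hc1) (g * (mJ h0)⁻¹).2) (by
        have h1 : Matrix.GeneralLinearGroup.det ((scal a0.1)⁻¹ * (g * (mJ h0)⁻¹).1) = 1 := by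
          rw [map_mul, map_inv, det_scal, ← detG_coe hq, hdet]
          exact inv_mul_cancel _
        exact congrArg Units.val h1)
      refine ⟨s, (mJ h0).1, (mJ h0).2, ⟨1, ⟨1, by rw [one_smul, Units.val_one]⟩, ?_⟩, scal a0.1, scal_isScal _, ?_⟩
      · exact (sm_comm_iff τ _ 1).2 (by
          change (Matrix.GeneralLinearGroup.map j h0.1).1.map τ = _ * (Matrix.GeneralLinearGroup.map j h0.1).1
          rw [gm_mapU hq₀ j τ hj hjσ, Units.val_one, Matrix.one_mul])
      · rw [hs, mul_inv_cancel_left, Subgroup.coe_mul, Subgroup.coe_inv, inv_mul_cancel_right]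
    · rintro ⟨s, h, hh, hc, c, hc', hg⟩
      have hne : Nonempty (Fin n) := ⟨⟨0, by omega⟩⟩
      obtain ⟨c', rfl⟩ := exists_scal_of hc'
      obtain ⟨k, d, hk⟩ := cent_GU hq₀ j τ hj hjσ hq (by omega) hh hc
      have hcn : (scal c' : GL (Fin n) F) ∈ GU n F q := by
        have : (scal c' : GL (Fin n) F) = g.1 * (embU n F q s * h)⁻¹ := by rw [hg]; group
        rw [this]
        exact mul_mem g.2 (inv_mem (mul_mem (embU_mem hq s) hh))
      have hdn : (scal d : GL (Fin n) F) ∈ GU n F q := by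
        have : (scal d : GL (Fin n) F) = h * ((mJ k).1)⁻¹ := by rw [hk, mul_inv_cancel_right]
        rw [this]
        exact mul_mem hh (inv_mem (mJ k).2)
      have hcn' := (scal_mem_GU hq (by omega) c').1 hcn
      have hdn' := (scal_mem_GU hq (by omega) d).1 hdn
      have h1 : detG hq n g = (⟨c', hcn'⟩ : normOne σ) ^ n * ((⟨d, hdn'⟩ : normOne σ) ^ n * jN (detG hq₀ n k)) := by
        apply Subtype.ext
        rw [detG_coe, hg, hk, map_mul, map_mul, map_mul, det_scal, det_scal]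
        have h2 : Matrix.GeneralLinearGroup.det (embU n F q s) = 1 := Units.ext s.1.2
        rw [h2, mul_one, ← hdJ]
        rfl
      rw [h1]
      refine mul_mem (Subgroup.mem_sup_left ⟨_, rfl⟩) (mul_mem (Subgroup.mem_sup_left ⟨_, rfl⟩) (Subgroup.mem_sup_right ⟨_, rfl⟩))

/-- S2711 -/
theorem conj_fieldU (hq : QConj σ q) (hn : 3 ≤ n) (hdim : (n = 3 ∧ 3 ≤ q) ∨ 4 ≤ n) {x α δ : MulAut (PSU n F q)}
    (hx : α * x * α⁻¹ = (setupU (F := F) hq hn).Psi ⟨sm 1 τ, one_mem_GamU hq n τ⟩) {r : ℕ}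
    (hxr : orderOf x = r) (hδ : δ ∈ inndiagPSU n F q) : orderOf (δ * x) = r ↔ IsConjUnder (inndiagPSU n F q) x (δ * x) := by
  have hpow : orderOf (α * x * α⁻¹) = orderOf x :=
    orderOf_injective (MulAut.conj α).toMonoidHom (MulAut.conj α).injective x
  have hr : orderOf ((setupU (F := F) hq hn).Psi ⟨sm 1 τ, one_mem_GamU hq n τ⟩) = r := by rw [← hx, hpow, hxr]
  rw [inndiag_eqU hq hn] at hδ ⊢
  refine (setupU hq hn).conj_iff (hNU hq hn hdim) hr ?_ hx hδ
  intro g hg h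
  rw [Setup.orderOf_std] at hr
  rw [← hr] at h
  exact descent_GU hq₀ j τ hj hjσ hq (by omega) hg h

end fixed

end CfsgLib.AutPSU
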