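import Cfsg.Agent.Lib.AutPSU1

/-!
# Automorphisms of `PSU`, part 2: Sylow `p`-subgroups and their centres.
-/

set_option autoImplicit false
set_option linter.unusedSimpArgs false
set_option linter.unusedSectionVars false

namespace CfsgLib.AutPSU

open Module CfsgLib.Herm

variable {F V : Type*} [Field F] [AddCommGroup V] [Module F V] [FiniteDimensional F V]
  {σ : F →+* F} {q : ℕ} {B : V →ₛₗ[σ] V →ₗ[F] F}

/-- the unipotent radical of the stabilizer of an isotropic point -/
def Q (B : V →ₛₗ[σ] V →ₗ[F] F) (v : V) : Subgroup (SUL B) where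
  carrier := {g | g.1 v = v ∧ ∀ y : V, B v y = 0 → ∃ a : F, g.1 y = y + a • v}
  one_mem' := ⟨one_apply' v, fun y _ => ⟨0, by rw [one_apply', zero_smul, add_zero]⟩⟩
  mul_mem' := by
    rintro g k ⟨hg, hg'⟩ ⟨hh, hh'⟩
    refine ⟨by rw [mul_apply', hh, hg], fun y hy => ?_⟩
    obtain ⟨a, ha⟩ := hg' y hy
    obtain ⟨b, hb⟩ := hh' y hy
    refine ⟨a + b, ?_⟩
    rw [mul_apply', hb, map_add, map_smul, ha, hg]
    module
  inv_mem' := by
    rintro g ⟨hg, hg'⟩
    refine ⟨by conv_lhs => rw [← hg, inv_apply'], fun y hy => ?_⟩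
    obtain ⟨a, ha⟩ := hg' y hy
    refine ⟨-a, ?_⟩
    apply g.1.injective
    rw [apply_inv', map_add, map_smul, ha, hg]
    module

theorem mem_Q {v : V} {g : SUL B} : g ∈ Q B v ↔ g.1 v = v ∧ ∀ y : V, B v y = 0 → ∃ a : F, g.1 y = y + a • v := Iff.rfl

theorem si_mem_Q (h : HForm B) {v w : V} {c : F} (hv : B v v = 0) (hvw : B v w = 0) (hc : c + σ c + B w w = 0) :
    si h v w c ∈ Q B v := by
  refine ⟨?_, fun y hy => ⟨- B w y, ?_⟩⟩
  · rw [si_apply h hv hvw hc, hv, comm0 h hvw]
    simp
  · rw [si_apply h hv hvw hc, hy, zero_smul, mul_zero, zero_sub, add_zero]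

theorem tv_mem_Q (h : HForm B) {v : V} {c : F} (hv : B v v = 0) (hc : c + σ c = 0) : tv h v c ∈ Q B v := by
  refine ⟨?_, fun y hy => ⟨0, ?_⟩⟩
  · rw [tv_apply h hv hc, hv, mul_zero, zero_smul, add_zero]
  · rw [tv_apply h hv hc, hy, mul_zero]

theorem conj_mem_Q {v : V} {g k : SUL B} {l : F} (hl : l ≠ 0) (hk : k.1 v = l • v) (hg : g ∈ Q B v) : k * g * k⁻¹ ∈ Q B v := by
  obtain ⟨hg, hg'⟩ := hg
  have hk2 : (k⁻¹).1 v = l⁻¹ • v := by
    apply k.1.injective
    rw [apply_inv', map_smul, hk, smul_smul, inv_mul_cancel₀ hl, one_smul]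
  refine ⟨by rw [mul_apply', mul_apply', hk2, map_smul, hg, map_smul, hk, smul_smul, inv_mul_cancel₀ hl, one_smul], fun y hy => ?_⟩
  obtain ⟨a, ha⟩ := hg' ((k⁻¹).1 y) (by
    have h1 : B (k.1 v) y = 0 := by rw [hk, map_smul_left, hy, mul_zero]
    rw [← pres k, apply_inv', h1])
  refine ⟨a * l, ?_⟩
  rw [mul_apply', mul_apply', ha, map_add, map_smul, hk, apply_inv', smul_smul]

theorem perp_perp {v f d : V} (h : HForm B) (hf : B v f = 1) (hd : ∀ u, B v u = 0 → B d u = 0) : ∃ a : F, d = a • v := by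
  refine ⟨B f d, ?_⟩
  rw [← sub_eq_zero]
  apply h.nd
  intro x
  have h2 := hd (x - B v x • f) (by
    rw [map_sub_right, map_smul_right, hf, mul_one, sub_self])
  rw [map_sub_right, map_smul_right] at h2
  rw [map_sub_left, map_smul_left, h.symm f d, ← h2]
  ring

variable {p : ℕ} [Fact p.Prime] [CharP F p]

theorem pow_mem_Q (hV : Nontrivial V) {v : V} {g : SUL B} (hg : g ∈ Q B v) : g ^ (p ^ 2) = 1 := by
  obtain ⟨hg, hg'⟩ := hg
  let N : V →ₗ[F] V := (g.1 : V →ₗ[F] V) - 1
  have hN : ∀ x, N x = g.1 x - x := fun x => rfl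
  have h1 : N ^ 3 = 0 := by
    apply LinearMap.ext
    intro x
    rw [pow_succ, pow_two, LinearMap.zero_apply]
    change N (N (N x)) = 0
    have h2 : B v (N x) = 0 := by
      rw [hN, map_sub_right]
      nth_rewrite 1 [← hg]
      rw [pres, sub_self]
    obtain ⟨a, ha⟩ := hg' _ h2
    rw [hN (N x), ha, add_sub_cancel_left, map_smul, hN, hg, sub_self, smul_zero]
  have h2 : (g.1 : V →ₗ[F] V) ^ (p ^ 2) = 1 := by
    have h3 : (g.1 : V →ₗ[F] V) = 1 + N := by simp only [N]; abel
    rw [h3]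
    have : CharP (Module.End F V) p := charP_of_injective_algebraMap (algebraMap F (Module.End F V)).injective p
    rw [add_pow_char_pow_of_commute p 2 (Commute.one_left N), one_pow]
    have h4 : 3 ≤ p ^ 2 := by
      have := (Fact.out : p.Prime).two_le
      nlinarith
    rw [← Nat.sub_add_cancel h4, pow_add, h1, mul_zero, add_zero]
  have h5 : ∀ (n : ℕ) (x : V), (g ^ n).1 x = ((g.1 : V →ₗ[F] V) ^ n) x := by
    intro n
    induction n with
    | zero => intro x; rfl
    | succ n ih => intro x; rw [pow_succ, mul_apply', ih, pow_succ]; rfl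
  apply K_ext
  intro x
  rw [h5, h2]
  rfl

theorem isPGroup_Q [Nontrivial V] (v : V) : IsPGroup p (Q B v) := by
  rintro ⟨g, hg⟩
  exact ⟨2, Subtype.ext (pow_mem_Q inferInstance hg)⟩

/-- a `p`-element fixing a point fixes its vectors -/
theorem fix_of_point {g : SUL B} {v : V} (hv : v ≠ 0) {a : F} (hg : g.1 v = a • v) {k : ℕ} (hk : g ^ (p ^ k) = 1) : g.1 v = v := by
  have h1 : ∀ n : ℕ, (g ^ n).1 v = a ^ n • v := by
    intro n
    induction n with
    | zero => rw [pow_zero, pow_zero, one_apply', one_smul]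
    | succ n ih => rw [pow_succ, mul_apply', hg, map_smul, ih, smul_smul, pow_succ, mul_comm]
  have h2 : a ^ (p ^ k) = 1 := by
    have := h1 (p ^ k)
    rw [hk, one_apply'] at this
    have h3 : (a ^ (p ^ k) - 1) • v = 0 := by
      rw [sub_smul, ← this, one_smul, sub_self]
    rcases smul_eq_zero.1 h3 with h4 | h4
    · exact sub_eq_zero.1 h4
    · exact absurd h4 hv
  have h3 : a = 1 := by
    have h4 : (a - 1) ^ (p ^ k) = 0 := by
      rw [sub_pow_char_pow, h2, one_pow, sub_self]
    exact sub_eq_zero.1 (pow_eq_zero_iff (pow_ne_zero _ (Fact.out : p.Prime).ne_zero) |>.1 h4)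
  rw [hg, h3, one_smul]

/-- a `p`-group of linear maps preserving a nonzero subspace fixes a nonzero vector of it -/
theorem exists_fixed [Finite F] (P : Subgroup (SUL B)) (hP : IsPGroup p P) (W : Submodule F V) (hW : W ≠ ⊥)
    (hPW : ∀ g ∈ P, ∀ w ∈ W, g.1 w ∈ W) : ∃ w ∈ W, w ≠ 0 ∧ ∀ g ∈ P, g.1 w = w := by
  have hfinV : Finite V := Module.finite_of_finite F
  let _ : MulAction P W :=
    { smul := fun g w => ⟨g.1.1 w.1, hPW g.1 g.2 w.1 w.2⟩
      one_smul := fun w => rfl
      mul_smul := fun g k w => rfl }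
  have hsm : ∀ (g : P) (w : W), ((g • w : W) : V) = g.1.1 w.1 := fun g w => rfl
  have hWp : p ∣ Nat.card W := by
    have hF : p ∣ Nat.card F := by
      have h1 : (Nat.card F : F) = 0 := by
        have := Fintype.ofFinite F
        rw [Nat.card_eq_fintype_card]
        exact Nat.cast_card_eq_zero F
      exact (CharP.cast_eq_zero_iff F p _).1 h1
    rw [Module.natCard_eq_pow_finrank (K := F)]
    apply dvd_pow hF
    intro h0
    apply hW
    exact Submodule.finrank_eq_zero.1 h0
  have h0 : (0 : W) ∈ MulAction.fixedPoints P W := by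
    intro g
    apply Subtype.ext
    rw [hsm]
    exact map_zero _
  obtain ⟨w, hw, hw0⟩ := hP.exists_fixed_point_of_prime_dvd_card_of_fixed_point W hWp h0
  refine ⟨w.1, w.2, fun h => hw0 (Subtype.ext h.symm), fun g hg => ?_⟩
  have := hw ⟨g, hg⟩
  exact congrArg Subtype.val this

/-- a `p`-subgroup fixes an isotropic vector -/
theorem exists_fixed_isotropic (hq : QConj σ q) (h : HForm B) (hV : 3 ≤ finrank F V) (P : Subgroup (SUL B)) (hP : IsPGroup p P) :
    ∃ v, v ≠ 0 ∧ B v v = 0 ∧ ∀ g ∈ P, g.1 v = v := by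
  have hfin := hq.finite
  have hnt : Nontrivial V := by
    apply Module.nontrivial_of_finrank_pos (R := F)
    omega
  obtain ⟨u, _, hu0, hu⟩ := exists_fixed (p := p) P hP ⊤ (by
    intro h0
    have := congrArg (fun W : Submodule F V => finrank F W) h0
    simp only [finrank_top, finrank_bot] at this
    omega) (fun _ _ _ _ => trivial)
  by_cases huu : B u u = 0
  · exact ⟨u, hu0, huu, hu⟩
  have hW : perp B (F ∙ u) ≠ ⊥ := by
    intro h0
    have h1 := finrank_perp_span h huu
    rw [h0, finrank_bot] at h1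
    omega
  obtain ⟨w, hw, hw0, hw'⟩ := exists_fixed (p := p) P hP (perp B (F ∙ u)) hW (by
    intro g hg w hw
    rw [mem_perp_span] at hw ⊢
    have h1 : B (g.1 u) (g.1 w) = 0 := by rw [pres, hw]
    rwa [hu g hg] at h1)
  rw [mem_perp_span] at hw
  by_cases hww : B w w = 0
  · exact ⟨w, hw0, hww, hw'⟩
  -- combine
  obtain ⟨c, hc⟩ := hq.exists_norm (c := - B u u / B w w) (by
    rw [map_div₀, map_neg, h.symm, h.symm])
  refine ⟨u + c • w, ?_, ?_, ?_⟩
  · intro h0
    have h1 := congrArg (B u) h0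
    rw [map_add_right, map_smul_right, hw, mul_zero, add_zero, map_zero] at h1
    exact huu h1
  · rw [map_add_left, map_add_right, map_add_right, map_smul_left, map_smul_left, map_smul_right, map_smul_right, hw,
      comm0 h hw, mul_zero, mul_zero, add_zero, zero_add, ← mul_assoc, mul_comm (σ c), hc, div_mul_cancel₀ _ hww,
      add_neg_cancel]
  · intro g hg
    rw [map_add, map_smul, hu g hg, hw' g hg]

/-- elements commuting with the unipotent radical are transvections -/
theorem central_form (hq : QConj σ q) (h : HForm B) {v : V} (hv : v ≠ 0) (hv0 : B v v = 0) {z : SUL B} (hz : z.1 v = v)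
    (hc : ∀ g ∈ Q B v, z * g = g * z) : ∃ c : F, c + σ c = 0 ∧ z = tv h v c := by
  have hfin := hq.finite
  obtain ⟨f, hf0, hf⟩ := h.exists_partner hq hv hv0
  have hfv : B f v = 1 := by rw [← h.symm, hf, map_one]
  have hex : ∀ u, B v u = 0 → ∃ c, c + σ c + B u u = 0 := by
    intro u _
    obtain ⟨c, hc⟩ := hq.exists_trace (c := - B u u) (by rw [map_neg, h.symm])
    exact ⟨c, by rw [hc, neg_add_cancel]⟩
  have hzv : ∀ x, B v (z.1 x) = B v x := by
    intro x
    conv_lhs => rw [← hz]
    exact pres z v x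
  have hcx : ∀ u c x, B v u = 0 → c + σ c + B u u = 0 → z.1 x + B v x • z.1 u + (c * B v x - B u x) • v =
      z.1 x + B v x • u + (c * B v x - B u (z.1 x)) • v := by
    intro u c x hu hc'
    have h1 := hc _ (si_mem_Q h hv0 hu hc')
    have h2 : (z * si h v u c).1 x = (si h v u c * z).1 x := by rw [h1]
    rw [mul_apply', mul_apply', si_apply h hv0 hu hc', si_apply h hv0 hu hc', map_add, map_add, map_smul, map_smul, hz, hzv] at h2
    exact h2
  -- `z` acts on `v^⊥`
  have h1 : ∀ y, B v y = 0 → ∃ a : F, z.1 y = y + a • v := by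
    intro y hy
    obtain ⟨a, ha⟩ := perp_perp (v := v) (f := f) (d := z.1 y - y) h hf (by
      intro u hu
      obtain ⟨c, hc'⟩ := hex u hu
      have h2 := hcx u c y hu hc'
      rw [hy, zero_smul, zero_smul, mul_zero, zero_sub, zero_sub, add_zero, add_right_inj] at h2
      have h3 : (B u (z.1 y) - B u y) • v = 0 := by
        rw [sub_smul, sub_eq_zero, ← neg_inj, ← neg_smul, ← neg_smul, h2]
      rcases smul_eq_zero.1 h3 with h4 | h4
      · rw [← h.symm, map_sub_right, h4, map_zero]
      · exact absurd h4 hv)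
    exact ⟨a, by rw [← ha]; abel⟩
  obtain ⟨w0, hw0⟩ : ∃ w0, z.1 f = f + w0 := ⟨z.1 f - f, by abel⟩
  have hvw0 : B v w0 = 0 := by
    have h2 := hzv f
    rw [hw0, map_add_right] at h2
    exact add_eq_left.1 h2
  -- coefficients
  have h2 : ∀ y, B v y = 0 → z.1 y = y - B w0 y • v := by
    intro y hy
    obtain ⟨a, ha⟩ := h1 y hy
    have h3 := pres z f y
    rw [hw0, ha, map_add_left, map_add_right, map_add_right, map_smul_right, map_smul_right, hfv, comm0 h hvw0, mul_one,
      mul_zero, add_zero] at h3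
    rw [ha]
    have : a = - B w0 y := by linear_combination h3
    rw [this]
    module
  have h3 : ∀ w, B v w = 0 → B w0 w = σ (B w0 w) := by
    intro w hw
    obtain ⟨c, hc'⟩ := hex w hw
    have h4 := hcx w c f hw hc'
    rw [hf, h2 w hw, hw0, map_add_right] at h4
    have h5 : (B w w0 - B w0 w) • v = 0 := by
      have h6 := sub_eq_zero.2 h4
      rw [← h6]
      module
    rcases smul_eq_zero.1 h5 with h6 | h6
    · rw [h.symm, sub_eq_zero.1 h6]
    · exact absurd h6 hv
  have h4 : ∀ w, B v w = 0 → B w0 w = 0 := by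
    intro w hw
    obtain ⟨a, ha⟩ := hq.exists_ne
    have h5 := h3 w hw
    have h6 := h3 (a • w) (by rw [map_smul_right, hw, mul_zero])
    rw [map_smul_right, map_mul, ← h5] at h6
    by_contra hne
    exact ha (mul_right_cancel₀ hne h6).symm
  obtain ⟨b, hb⟩ := perp_perp (v := v) (f := f) (d := w0) h hf h4
  have h5 : ∀ x, z.1 x = x + (b * B v x) • v := by
    intro x
    have h6 := h2 (x - B v x • f) (by rw [map_sub_right, map_smul_right, hf, mul_one, sub_self])
    rw [h4 _ (by rw [map_sub_right, map_smul_right, hf, mul_one, sub_self]), zero_smul, sub_zero, map_sub, map_smul, hw0, hb] at h6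
    have h7 : z.1 x = x - B v x • f + B v x • (f + b • v) := by rw [← h6]; abel
    rw [h7]
    module
  have h6 : b + σ b = 0 := by
    have h7 := pres z f f
    rw [h5, hf0, hf, mul_one, map_add_left, map_add_right, map_add_right, map_smul_left, map_smul_left, map_smul_right, map_smul_right,
      hf0, hf, hfv, hv0] at h7
    linear_combination h7
  refine ⟨b, h6, ?_⟩
  apply K_ext
  intro x
  rw [h5, tv_apply h hv0 h6]

end CfsgLib.AutPSU
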