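import Cfsg.Agent.Lib.AutPSU2

/-!
# Automorphisms of `PSU`, part 3: normal `p`-subgroups of point stabilizers.
-/

set_option autoImplicit false
set_option linter.unusedSimpArgs false
set_option linter.unusedSectionVars false

namespace CfsgLib.AutPSU

open Module CfsgLib.Herm

variable {F V : Type*} [Field F] [AddCommGroup V] [Module F V] [FiniteDimensional F V]
  {σ : F →+* F} {q : ℕ} {B : V →ₛₗ[σ] V →ₗ[F] F}

/-- `W` is spanned by isotropic vectors -/
theorem eq_zero_of_perp_isotropic (hq : QConj σ q) (h : HForm B) {v f : V} (hv : B v v = 0) (hf : B f f = 0) (hvf : B v f = 1)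
    (hW : 2 ≤ finrank F (hpp B v f)) {y : V} (hy : y ∈ hpp B v f) (hyu : ∀ u ∈ hpp B v f, B u u = 0 → B u y = 0) : y = 0 := by
  have hW' := hpp_hform hq h hv hf hvf
  have h1 : ∀ w : hpp B v f, B w.1 y = 0 := by
    intro w
    refine isotropic_induction hq hW' hW (P := fun w => B w.1 y = 0) ?_ ?_ w
    · intro w hw
      exact hyu w.1 w.2 hw
    · intro a b ha hb
      change B (a.1 + b.1) y = 0
      rw [map_add_left, ha, hb, add_zero]
  have h2 := hW'.nd ⟨y, hy⟩ (fun w => by
    change B y w.1 = 0
    exact comm0 h (h1 w))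
  exact congrArg Subtype.val h2

theorem exists_isotropic_comb (hq : QConj σ q) (h : HForm B) {x y : V} (hx : B x x = 0) (hy : B y y = 0) :
    ∃ c : F, c ≠ 0 ∧ B (x + c • y) (x + c • y) = 0 := by
  obtain ⟨t, ht0, ht⟩ := hq.exists_trace_ne_zero (map_zero σ)
  by_cases hb : B x y = 0
  · refine ⟨1, one_ne_zero, ?_⟩
    rw [one_smul, map_add_left, map_add_right, map_add_right, hx, hy, hb, comm0 h hb]
    simp
  · refine ⟨t * (B x y)⁻¹, mul_ne_zero ht0 (inv_ne_zero hb), ?_⟩
    rw [map_add_left, map_add_right, map_add_right, map_smul_left, map_smul_right, map_smul_left, map_smul_right, hx, hy,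
      ← h.symm x y, ← map_mul, mul_assoc t, inv_mul_cancel₀ hb, mul_one]
    linear_combination ht

variable {p : ℕ} [Fact p.Prime] [CharP F p]

/-- normal `p`-subgroups of the stabilizer of an isotropic point -/
theorem normal_le_Q (hq : QConj σ q) (h : HForm B) (hV : 3 ≤ finrank F V) {v : V} (hv : v ≠ 0) (hv0 : B v v = 0)
    (R : Subgroup (SUL B)) (hR : IsPGroup p R) (hfix : ∀ r ∈ R, r.1 v = v) (hQ : Q B v ≤ R)
    (hnorm : ∀ k : SUL B, (∃ l : F, k.1 v = l • v) → ∀ r ∈ R, k⁻¹ * r * k ∈ R) : R ≤ Q B v := by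
  have hfin := hq.finite
  obtain ⟨f, hf0, hf⟩ := h.exists_partner hq hv hv0
  have hfv : B f v = 1 := by rw [← h.symm, hf, map_one]
  let M : Subgroup (SUL B) :=
    { carrier := {r | r ∈ R ∧ r.1 f = f}
      one_mem' := ⟨one_mem _, one_apply' f⟩
      mul_mem' := by
        rintro a b ⟨ha, ha'⟩ ⟨hb, hb'⟩
        exact ⟨mul_mem ha hb, by rw [mul_apply', hb', ha']⟩
      inv_mem' := by
        rintro a ⟨ha, ha'⟩
        exact ⟨inv_mem ha, by conv_lhs => rw [← ha', inv_apply']⟩ }
  have hM : ∀ r, r ∈ M ↔ r ∈ R ∧ r.1 f = f := fun r => Iff.rfl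
  have hMp : IsPGroup p M := hR.to_le (fun r hr => hr.1)
  set W := hpp B v f with hWdef
  have hMW : ∀ r ∈ M, ∀ w ∈ W, r.1 w ∈ W := by
    intro r hr w hw
    rw [mem_hpp] at hw ⊢
    constructor
    · conv_lhs => rw [← hfix r hr.1]
      rw [pres, hw.1]
    · conv_lhs => rw [← hr.2]
      rw [pres, hw.2]
  have hWdim := finrank_hpp hq h hv0 hf0 hf
  have hWne : W ≠ ⊥ := by
    intro h0
    rw [← hWdef, h0, finrank_bot] at hWdim
    omega
  obtain ⟨y, hyW, hy0, hy⟩ := exists_fixed (p := p) M hMp W hWne hMW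
  let U : Submodule F V :=
    { carrier := {w | w ∈ W ∧ ∀ r ∈ M, r.1 w = w}
      zero_mem' := ⟨zero_mem _, fun r _ => map_zero _⟩
      add_mem' := by
        rintro a b ⟨ha, ha'⟩ ⟨hb, hb'⟩
        exact ⟨add_mem ha hb, fun r hr => by rw [map_add, ha' r hr, hb' r hr]⟩
      smul_mem' := by
        rintro c a ⟨ha, ha'⟩
        exact ⟨Submodule.smul_mem _ c ha, fun r hr => by rw [map_smul, ha' r hr]⟩ }
  have hyU : y ∈ U := ⟨hyW, hy⟩
  have hUW : W ≤ U := by
    by_cases hW2 : 2 ≤ finrank F W
    · obtain ⟨t, ht0, ht⟩ := hq.exists_trace_ne_zero (map_zero σ)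
      -- the main step
      have hstep : ∀ x ∈ U, ∀ u ∈ W, B u u = 0 → B u x ≠ 0 → u ∈ U := by
        intro x hx u hu huu hux
        have hu' := mem_hpp.1 hu
        have htv : (tv h u t).1 v = v := by
          rw [tv_apply h huu ht, comm0 h hu'.1, mul_zero, zero_smul, add_zero]
        have htf : (tv h u t).1 f = f := by
          rw [tv_apply h huu ht, comm0 h hu'.2, mul_zero, zero_smul, add_zero]
        have h1 : (tv h u t).1 x ∈ U := by
          refine ⟨?_, fun r hr => ?_⟩
          · rw [tv_apply h huu ht]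
            exact add_mem hx.1 (Submodule.smul_mem _ _ hu)
          · have h2 : (tv h u t)⁻¹ * r * tv h u t ∈ M := by
              refine ⟨hnorm _ ⟨1, by rw [htv, one_smul]⟩ r hr.1, ?_⟩
              rw [mul_apply', mul_apply', htf, hr.2]
              conv_lhs => rw [← htf, inv_apply']
            have h3 := hx.2 _ h2
            rw [mul_apply', mul_apply'] at h3
            conv_rhs => rw [← h3, apply_inv']
        rw [tv_apply h huu ht] at h1
        have h2 : (t * B u x) • u ∈ U := by
          have := sub_mem h1 hx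
          rwa [add_sub_cancel_left] at this
        have h3 := U.smul_mem (t * B u x)⁻¹ h2
        rwa [smul_smul, inv_mul_cancel₀ (mul_ne_zero ht0 hux), one_smul] at h3
      obtain ⟨u, hu, huu, huy⟩ : ∃ u ∈ W, B u u = 0 ∧ B u y ≠ 0 := by
        by_contra! hcon
        exact hy0 (eq_zero_of_perp_isotropic hq h hv0 hf0 hf hW2 hyW hcon)
      have huU := hstep y hyU u hu huu huy
      have hu0 : u ≠ 0 := by
        rintro rfl
        rw [map_zero_left] at huy
        exact huy rfl
      -- a partner of `u` in `W`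
      have hW' := hpp_hform hq h hv0 hf0 hf
      obtain ⟨u', hu'0, hu'⟩ := hW'.exists_partner hq (e := ⟨u, hu⟩) (fun h0 => hu0 (congrArg Subtype.val h0)) huu
      change B u u'.1 = 1 at hu'
      change B u'.1 u'.1 = 0 at hu'0
      have hu'u : B u'.1 u = 1 := by rw [← h.symm, hu', map_one]
      have hu'U : u'.1 ∈ U := hstep u huU u'.1 u'.2 hu'0 (by rw [hu'u]; exact one_ne_zero)
      have hiso : ∀ w ∈ W, B w w = 0 → w ∈ U := by
        intro w hw hww
        by_contra hwU
        have hperp : ∀ x ∈ U, B w x = 0 := by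
          intro x hx
          by_contra hne
          exact hwU (hstep x hx w hw hww hne)
        have hw0 : w = 0 := by
          apply eq_zero_of_perp_isotropic hq h hv0 hf0 hf hW2 hw
          intro u3 hu3 hu33
          by_cases h3u : B u3 u = 0
          · obtain ⟨c, hc0, hc⟩ := exists_isotropic_comb hq h hu33 hu'0
            have h4 : u3 + c • u'.1 ∈ U := by
              apply hstep u huU _ (add_mem hu3 (Submodule.smul_mem _ _ u'.2)) hc
              rw [map_add_left, map_smul_left, h3u, zero_add, hu'u, mul_one]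
              exact (map_ne_zero σ).2 hc0
            have h5 := hperp _ h4
            rw [map_add_right, map_smul_right, hperp _ hu'U, mul_zero, add_zero] at h5
            exact comm0 h h5
          · exact comm0 h (hperp _ (hstep u huU u3 hu3 hu33 h3u))
        rw [hw0] at hwU
        exact hwU (zero_mem _)
      intro w hw
      refine isotropic_induction hq hW' hW2 (P := fun w => w.1 ∈ U) ?_ ?_ ⟨w, hw⟩
      · intro w hw
        exact hiso w.1 w.2 hw
      · intro a b ha hb
        exact add_mem ha hb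
    · have hUle : U ≤ W := fun w hw => hw.1
      have h1 : finrank F W = 1 := by
        change finrank F W + 2 = finrank F V at hWdim
        have h2 : finrank F W < 2 := not_le.1 hW2
        omega
      have h2 : 1 ≤ finrank F U := by
        rw [Nat.one_le_iff_ne_zero, Ne, Submodule.finrank_eq_zero]
        intro h0
        rw [h0] at hyU
        exact hy0 ((Submodule.mem_bot F).1 hyU)
      have h3 := Submodule.eq_of_le_of_finrank_le hUle (by omega)
      exact h3.ge
  -- conclusion
  intro r hr
  have h1 : B v (r.1 f) = 1 := by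
    conv_lhs => rw [← hfix r hr]
    rw [pres, hf]
  have hw := hpp_decomp h hv0 hf0 hf (r.1 f)
  rw [h1, one_smul] at hw
  obtain ⟨w, hwdef⟩ : ∃ w, w = r.1 f - B f (r.1 f) • v - f := ⟨_, rfl⟩
  rw [← hwdef] at hw
  have hw' := mem_hpp.1 hw
  have hrf : r.1 f = f + w + B f (r.1 f) • v := by rw [hwdef]; abel
  have hc : B f (r.1 f) + σ (B f (r.1 f)) + B w w = 0 := by
    have h2 := pres r f f
    rw [hf0] at h2
    generalize B f (r.1 f) = c at *
    rw [hrf] at h2
    simp only [map_add_left, map_add_right, map_smul_left, map_smul_right, hf0, hv0, hf, hfv, hw'.1, hw'.2, comm0 h hw'.1,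
      comm0 h hw'.2, mul_zero, mul_one, add_zero, zero_add] at h2
    linear_combination h2
  have hXQ := si_mem_Q h hv0 hw'.1 hc
  set X := si h v w (B f (r.1 f)) with hX
  have hXf : X.1 f = r.1 f := by
    rw [hX, si_apply h hv0 hw'.1 hc, hf, comm0 h hw'.2, one_smul, mul_one, sub_zero]
    exact hrf.symm
  have hXr : X⁻¹ * r ∈ M := by
    refine ⟨mul_mem (inv_mem (hQ hXQ)) hr, ?_⟩
    rw [mul_apply', ← hXf, inv_apply']
  have h2 : X⁻¹ * r = 1 := by
    apply K_ext
    intro x
    have h3 := hpp_decomp h hv0 hf0 hf x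
    have h4 := (hUW h3).2 _ hXr
    have h5 : x = (x - B f x • v - B v x • f) + B f x • v + B v x • f := by abel
    rw [h5, map_add, map_add, map_smul, map_smul, h4, hfix _ hXr.1, hXr.2, one_apply']
  have h3 : r = X := by
    rw [inv_mul_eq_one] at h2
    exact h2.symm
  rw [h3]
  exact hXQ

end CfsgLib.AutPSU
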