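import Cfsg.Agent.Lib.AutPSU3

/-!
# Automorphisms of `PSU`, part 4: automorphisms preserve transvection groups and unipotent radicals.
-/

set_option autoImplicit false
set_option linter.unusedSimpArgs false
set_option linter.unusedSectionVars false

namespace CfsgLib.AutPSU

open Module CfsgLib.Herm

/-- the centre of a Sylow subgroup as a set -/
def Cen {p : ℕ} {H : Type*} [Group H] (P : Sylow p H) : Set H := {z | z ∈ P ∧ ∀ g ∈ P, g * z = z * g}

/-- the image of a Sylow subgroup under an isomorphism -/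
noncomputable def mapS {p : ℕ} [Fact p.Prime] {H K : Type*} [Group H] [Group K] [Finite H] (α : H ≃* K) (P : Sylow p H) : Sylow p K :=
  P.mapSurjective (f := α.toMonoidHom) α.surjective

theorem mem_mapS {p : ℕ} [Fact p.Prime] {H K : Type*} [Group H] [Group K] [Finite H] (α : H ≃* K) (P : Sylow p H) (z : H) :
    α z ∈ mapS α P ↔ z ∈ P := by
  constructor
  · rintro ⟨y, hy, hyz⟩
    rwa [← α.injective hyz]
  · intro hz
    exact ⟨z, hz, rfl⟩

theorem mem_Cen_mapS {p : ℕ} [Fact p.Prime] {H K : Type*} [Group H] [Group K] [Finite H] (α : H ≃* K) (P : Sylow p H) (z : H) :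
    α z ∈ Cen (mapS α P) ↔ z ∈ Cen P := by
  constructor
  · rintro ⟨h1, h2⟩
    refine ⟨(mem_mapS α P z).1 h1, fun g hg => ?_⟩
    have := h2 (α g) ((mem_mapS α P g).2 hg)
    rw [← map_mul, ← map_mul] at this
    exact α.injective this
  · rintro ⟨h1, h2⟩
    refine ⟨(mem_mapS α P z).2 h1, fun g hg => ?_⟩
    obtain ⟨g, rfl⟩ := α.surjective g
    rw [mem_mapS] at hg
    rw [← map_mul, h2 g hg, map_mul]

variable {F V : Type*} [Field F] [AddCommGroup V] [Module F V] [FiniteDimensional F V]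
  {σ : F →+* F} {q : ℕ} {B : V →ₛₗ[σ] V →ₗ[F] F}

/-- the transvection group -/
def TT (h : HForm B) (v : V) : Set (SUL B ⧸ Subgroup.center (SUL B)) := {z | ∃ c : F, c + σ c = 0 ∧ z = T h v c}

theorem finite_K (hq : QConj σ q) : Finite (SUL B) := by
  have hfin := hq.finite
  have hfinV : Finite V := Module.finite_of_finite F
  have : Finite (V ≃ₗ[F] V) := Finite.of_injective (fun g : V ≃ₗ[F] V => (g : V → V)) DFunLike.coe_injective
  infer_instance

theorem T_smul (hq : QConj σ q) (h : HForm B) {v : V} (hv0 : B v v = 0) {c a : F} (hc : c + σ c = 0) :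
    T h (a • v) c = T h v (c * (a * σ a)) := by
  rw [T, T]
  congr 1
  apply K_ext
  intro x
  rw [tv_apply h (by rw [map_smul_left, map_smul_right, hv0, mul_zero, mul_zero]) hc,
    tv_apply h hv0 (by rw [map_mul, hq.norm_fixed, ← add_mul, hc, zero_mul]), map_smul_left]
  module

theorem TT_smul (hq : QConj σ q) (h : HForm B) {v : V} (hv0 : B v v = 0) {a : F} (ha : a ≠ 0) : TT h (a • v) = TT h v := by
  have hN : a * σ a ≠ 0 := mul_ne_zero ha ((map_ne_zero σ).2 ha)
  ext z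
  constructor
  · rintro ⟨c, hc, rfl⟩
    exact ⟨_, by rw [map_mul, hq.norm_fixed, ← add_mul, hc, zero_mul], T_smul hq h hv0 hc⟩
  · rintro ⟨c, hc, rfl⟩
    have hc' : c * (a * σ a)⁻¹ + σ (c * (a * σ a)⁻¹) = 0 := by
      rw [map_mul, map_inv₀, hq.norm_fixed, ← add_mul, hc, zero_mul]
    refine ⟨c * (a * σ a)⁻¹, hc', ?_⟩
    rw [T_smul hq h hv0 hc', mul_assoc, inv_mul_cancel₀ hN, mul_one]

theorem TT_par (hq : QConj σ q) (h : HForm B) (hV : 3 ≤ finrank F V) {v w : V} (hv0 : B v v = 0) (hw0 : B w w = 0) (hw : w ≠ 0)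
    (hvw : TT h v = TT h w) : ∃ l : F, w = l • v := by
  obtain ⟨t, ht0, ht⟩ := hq.exists_trace_ne_zero (map_zero σ)
  have h1 : T h w t ∈ TT h v := by rw [hvw]; exact ⟨t, ht, rfl⟩
  obtain ⟨c, hc, hc'⟩ := h1
  exact T_par h hq hV hv0 hw0 hw hc ht ht0 hc'.symm

theorem conj_TT (h : HForm B) {v : V} (hv0 : B v v = 0) (g : SUL B) (z : SUL B ⧸ Subgroup.center (SUL B)) :
    QuotientGroup.mk g * z * (QuotientGroup.mk g)⁻¹ ∈ TT h (g.1 v) ↔ z ∈ TT h v := by
  constructor
  · rintro ⟨c, hc, hc'⟩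
    refine ⟨c, hc, ?_⟩
    rw [← conj_T h g hv0 hc] at hc'
    have := mul_right_cancel hc'
    exact mul_left_cancel this
  · rintro ⟨c, hc, rfl⟩
    exact ⟨c, hc, conj_T h g hv0 hc⟩

theorem Q_smul (v : V) {a : F} (ha : a ≠ 0) : Q B (a • v) = Q B v := by
  ext g
  constructor
  · rintro ⟨h1, h2⟩
    rw [map_smul] at h1
    have h3 : g.1 v = v := by
      have := congrArg (fun x => a⁻¹ • x) h1
      simpa [smul_smul, inv_mul_cancel₀ ha] using this
    refine ⟨h3, fun y hy => ?_⟩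
    obtain ⟨b, hb⟩ := h2 y (by rw [map_smul_left, hy, mul_zero])
    exact ⟨b * a, by rw [hb, smul_smul]⟩
  · rintro ⟨h1, h2⟩
    refine ⟨by rw [map_smul, h1], fun y hy => ?_⟩
    rw [map_smul_left] at hy
    obtain ⟨b, hb⟩ := h2 y (by
      rcases mul_eq_zero.1 hy with h3 | h3
      · exact absurd h3 ((map_ne_zero σ).2 ha)
      · exact h3)
    exact ⟨b * a⁻¹, by rw [hb, smul_smul, mul_assoc, inv_mul_cancel₀ ha, mul_one]⟩

variable {p : ℕ} [Fact p.Prime] [CharP F p]

theorem Q_le_sylow (hq : QConj σ q) (hV : 3 ≤ finrank F V) {v : V} (P : Sylow p (SUL B)) (hfix : ∀ g ∈ P, g.1 v = v) :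
    Q B v ≤ P := by
  have hnt : Nontrivial V := by
    apply Module.nontrivial_of_finrank_pos (R := F)
    omega
  have h1 : IsPGroup p (P ⊔ Q B v : Subgroup (SUL B)) := by
    apply P.2.to_sup_of_normal_right' (isPGroup_Q v)
    intro g hg
    rw [Subgroup.mem_normalizer_iff]
    intro k
    have hgv : g.1 v = (1 : F) • v := by rw [one_smul]; exact hfix g hg
    have hgv' : (g⁻¹).1 v = (1 : F) • v := by rw [one_smul]; exact hfix g⁻¹ (inv_mem hg)
    constructor
    · intro hk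
      exact conj_mem_Q one_ne_zero hgv hk
    · intro hk
      have := conj_mem_Q (k := g⁻¹) one_ne_zero hgv' hk
      have e : g⁻¹ * (g * k * g⁻¹) * g⁻¹⁻¹ = k := by group
      rwa [e] at this
  rw [← P.3 h1 le_sup_left]
  exact le_sup_right

theorem cen_eq (hq : QConj σ q) (h : HForm B) (hV : 3 ≤ finrank F V) (P : Sylow p (SUL B ⧸ Subgroup.center (SUL B))) :
    ∃ (v : V) (P' : Sylow p (SUL B)), v ≠ 0 ∧ B v v = 0 ∧ Cen P = TT h v ∧ (∀ g ∈ P', g.1 v = v) ∧ Q B v ≤ P' ∧
      (∀ g ∈ P', (QuotientGroup.mk g : SUL B ⧸ Subgroup.center (SUL B)) ∈ P) ∧ (∀ z ∈ P, ∃ g ∈ P', z = QuotientGroup.mk g) := by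
  have hnt : Nontrivial V := by
    apply Module.nontrivial_of_finrank_pos (R := F)
    omega
  have hfinK : Finite (SUL B) := finite_K hq
  obtain ⟨P', rfl⟩ := Sylow.mapSurjective_surjective (QuotientGroup.mk'_surjective (Subgroup.center (SUL B))) p P
  obtain ⟨v, hv, hv0, hfix⟩ := exists_fixed_isotropic (p := p) hq h hV P' P'.2
  have hQ := Q_le_sylow hq hV P' hfix
  have hmk : ∀ g ∈ P', (QuotientGroup.mk g : SUL B ⧸ Subgroup.center (SUL B)) ∈
      P'.mapSurjective (QuotientGroup.mk'_surjective (Subgroup.center (SUL B))) := fun g hg => ⟨g, hg, rfl⟩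
  refine ⟨v, P', hv, hv0, ?_, hfix, hQ, hmk, ?_⟩
  · ext z
    constructor
    · rintro ⟨⟨s, hs, rfl⟩, hz⟩
      obtain ⟨c, hc, hc'⟩ := central_form hq h hv hv0 (hfix s hs) (by
        intro x hx
        have hx' := hQ hx
        have h1 := hz (QuotientGroup.mk x) (hmk x hx')
        obtain ⟨d, hd, hd'⟩ := (mk_eq_iff h (a := s * x) (b := x * s)).1 h1.symm
        have h2 : d ∈ P' := by
          have e : d = (s * x)⁻¹ * (x * s) := by rw [hd', inv_mul_cancel_left]
          rw [e]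
          exact mul_mem (inv_mem (mul_mem hs hx')) (mul_mem hx' hs)
        obtain ⟨k, hk⟩ := P'.2 ⟨d, h2⟩
        have h3 := center_p (p := p) h hq (by omega) hd (k := k) (congrArg Subtype.val hk)
        rw [hd', h3, mul_one])
      refine ⟨c, hc, ?_⟩
      rw [T, ← hc']
      rfl
    · rintro ⟨c, hc, rfl⟩
      refine ⟨hmk _ (hQ (tv_mem_Q h hv0 hc)), ?_⟩
      rintro _ ⟨x, hx, rfl⟩
      have h1 := conj_T h x hv0 hc
      rw [hfix x hx] at h1
      exact mul_inv_eq_iff_eq_mul.1 h1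
  · rintro _ ⟨g, hg, rfl⟩
    exact ⟨g, hg, rfl⟩

theorem exists_cen (hq : QConj σ q) (h : HForm B) (hV : 3 ≤ finrank F V) {v : V} (hv : v ≠ 0) (hv0 : B v v = 0) :
    ∃ P : Sylow p (SUL B ⧸ Subgroup.center (SUL B)), Cen P = TT h v := by
  have hfinK : Finite (SUL B) := finite_K hq
  obtain ⟨P0⟩ : Nonempty (Sylow p (SUL B ⧸ Subgroup.center (SUL B))) := inferInstance
  obtain ⟨v0, _, hv0', hv00, hP0, _⟩ := cen_eq hq h hV P0
  obtain ⟨g, hg, hgv⟩ := exists_SUL_isotropic hq h hV hv0' hv00 hv hv0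
  refine ⟨mapS (MulAut.conj (QuotientGroup.mk ⟨g, hg⟩)) P0, ?_⟩
  ext z
  obtain ⟨z, rfl⟩ := (MulAut.conj (QuotientGroup.mk ⟨g, hg⟩ : SUL B ⧸ Subgroup.center (SUL B))).surjective z
  rw [mem_Cen_mapS, hP0, ← hgv]
  exact (conj_TT h hv00 ⟨g, hg⟩ z).symm

/-- the intersection of the Sylow subgroups with centre `TT v` -/
def QQ (p : ℕ) (h : HForm B) (v : V) : Set (SUL B ⧸ Subgroup.center (SUL B)) :=
  {z | ∀ P : Sylow p (SUL B ⧸ Subgroup.center (SUL B)), Cen P = TT h v → z ∈ P}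

theorem mem_QQ_iff (hq : QConj σ q) (h : HForm B) (hV : 3 ≤ finrank F V) {v : V} (hv : v ≠ 0) (hv0 : B v v = 0)
    (z : SUL B ⧸ Subgroup.center (SUL B)) : z ∈ QQ p h v ↔ ∃ g ∈ Q B v, z = QuotientGroup.mk g := by
  have hnt : Nontrivial V := by
    apply Module.nontrivial_of_finrank_pos (R := F)
    omega
  have hfinK : Finite (SUL B) := finite_K hq
  constructor
  · intro hz
    obtain ⟨P0, hP0⟩ := exists_cen (p := p) hq h hV hv hv0
    obtain ⟨w, P', hw, hw0, hPw, hfix, hQ, hmk, hlift⟩ := cen_eq hq h hV P0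
    obtain ⟨l, hl⟩ := TT_par hq h hV hv0 hw0 hw (hP0.symm.trans hPw)
    have hl0 : l ≠ 0 := by
      rintro rfl
      exact hw (by rw [hl, zero_smul])
    have hfix' : ∀ g ∈ P', g.1 v = v := by
      intro g hg
      have h1 := hfix g hg
      rw [hl, map_smul] at h1
      have := congrArg (fun x => l⁻¹ • x) h1
      simpa [smul_smul, inv_mul_cancel₀ hl0] using this
    have hQ' : Q B v ≤ P' := Q_le_sylow hq hV P' hfix'
    -- the core
    let R : Subgroup (SUL B) :=
      { carrier := {r | ∀ k : SUL B, (∃ a : F, k.1 v = a • v) → k⁻¹ * r * k ∈ P'}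
        one_mem' := fun k _ => by rw [mul_one, inv_mul_cancel]; exact one_mem _
        mul_mem' := by
          intro a b ha hb k hk
          have e : k⁻¹ * (a * b) * k = (k⁻¹ * a * k) * (k⁻¹ * b * k) := by group
          rw [e]
          exact mul_mem (ha k hk) (hb k hk)
        inv_mem' := by
          intro a ha k hk
          have e : k⁻¹ * a⁻¹ * k = (k⁻¹ * a * k)⁻¹ := by group
          rw [e]
          exact inv_mem (ha k hk) }
    have hRP : R ≤ P' := by
      intro r hr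
      have := hr 1 ⟨1, by rw [one_smul, one_apply']⟩
      rwa [inv_one, one_mul, mul_one] at this
    have hRQ : R ≤ Q B v := by
      apply normal_le_Q (p := p) hq h hV hv hv0 R (P'.2.to_le hRP) (fun r hr => hfix' r (hRP hr))
      · intro g hg k hk
        obtain ⟨a, ha⟩ := hk
        have ha0 : a ≠ 0 := by
          rintro rfl
          rw [zero_smul] at ha
          exact apply_ne_zero k hv ha
        have hk2 : (k⁻¹).1 v = a⁻¹ • v := by
          apply k.1.injective
          rw [apply_inv', map_smul, ha, smul_smul, inv_mul_cancel₀ ha0, one_smul]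
        have := conj_mem_Q (inv_ne_zero ha0) hk2 hg
        rw [inv_inv] at this
        exact hQ' this
      · rintro k ⟨a, ha⟩ r hr k' ⟨b, hb⟩
        have h1 := hr (k * k') ⟨b * a, by rw [mul_apply', hb, map_smul, ha, smul_smul]⟩
        have e : k'⁻¹ * (k⁻¹ * r * k) * k' = (k * k')⁻¹ * r * (k * k') := by group
        rw [e]
        exact h1
    obtain ⟨g, hg, rfl⟩ := hlift z (hz P0 hP0)
    refine ⟨g, hRQ ?_, rfl⟩
    intro k hk
    obtain ⟨a, ha⟩ := hk
    have ha0 : a ≠ 0 := by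
      rintro rfl
      rw [zero_smul] at ha
      exact apply_ne_zero k hv ha
    -- the conjugate Sylow subgroup
    have hcen : Cen (mapS (MulAut.conj (QuotientGroup.mk k : SUL B ⧸ Subgroup.center (SUL B))) P0) = TT h v := by
      ext z
      obtain ⟨z, rfl⟩ := (MulAut.conj (QuotientGroup.mk k : SUL B ⧸ Subgroup.center (SUL B))).surjective z
      rw [mem_Cen_mapS, hP0, ← TT_smul hq h hv0 ha0, ← ha]
      have := (conj_TT h hv0 k z).symm
      rw [ha, TT_smul hq h hv0 ha0] at this ⊢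
      exact this
    have h1 := hz _ hcen
    have h2 : (QuotientGroup.mk g : SUL B ⧸ Subgroup.center (SUL B)) =
        MulAut.conj (QuotientGroup.mk k : SUL B ⧸ Subgroup.center (SUL B)) (QuotientGroup.mk (k⁻¹ * g * k)) := by
      rw [MulAut.conj_apply]
      change QuotientGroup.mk g = QuotientGroup.mk (k * (k⁻¹ * g * k) * k⁻¹)
      congr 1
      group
    rw [h2, mem_mapS] at h1
    obtain ⟨s, hs, hs'⟩ := hlift _ h1
    obtain ⟨c, hc, hc'⟩ := (mk_eq_iff h).1 hs'.symm
    obtain ⟨m, hm⟩ := P'.2 ⟨s, hs⟩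
    obtain ⟨m', hm'⟩ := P'.2 ⟨g, hg⟩
    have hm1 : s ^ (p ^ m) = 1 := congrArg Subtype.val hm
    have hm2 : g ^ (p ^ m') = 1 := congrArg Subtype.val hm'
    have hc1 : c = 1 := by
      apply center_p (p := p) h hq (by omega) hc (k := m + m')
      have hcomm : Commute s c := (Subgroup.mem_center_iff.1 hc s)
      have h3 : (s * c) ^ (p ^ (m + m')) = 1 := by
        rw [← hc']
        have e : (k⁻¹ * g * k) = k⁻¹ * g * (k⁻¹)⁻¹ := by rw [inv_inv]
        rw [e, conj_pow, pow_add, mul_comm (p ^ m), pow_mul, hm2, one_pow]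
        group
      rw [hcomm.mul_pow, pow_add, pow_mul s, hm1, one_pow, one_mul] at h3
      rw [pow_add]
      exact h3
    rw [hc', hc1, mul_one]
    exact hs
  · rintro ⟨g, hg, rfl⟩ P hP
    obtain ⟨w, P', hw, hw0, hPw, hfix, hQ, hmk, hlift⟩ := cen_eq hq h hV P
    obtain ⟨l, hl⟩ := TT_par hq h hV hv0 hw0 hw (hP.symm.trans hPw)
    have hl0 : l ≠ 0 := by
      rintro rfl
      exact hw (by rw [hl, zero_smul])
    rw [hl, Q_smul v hl0] at hQ
    exact hmk g (hQ hg)

/-- automorphisms permute the transvection groups -/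
theorem exists_point (p : ℕ) [Fact p.Prime] [CharP F p] (hq : QConj σ q) (h : HForm B) (hV : 3 ≤ finrank F V)
    (α : MulAut (SUL B ⧸ Subgroup.center (SUL B)))
    {v : V} (hv : v ≠ 0) (hv0 : B v v = 0) : ∃ w : V, w ≠ 0 ∧ B w w = 0 ∧ ∀ z, α z ∈ TT h w ↔ z ∈ TT h v := by
  have hfinK : Finite (SUL B) := finite_K hq
  obtain ⟨P, hP⟩ := exists_cen (p := p) hq h hV hv hv0
  obtain ⟨w, _, hw, hw0, hPw, _⟩ := cen_eq hq h hV (mapS α P)
  refine ⟨w, hw, hw0, fun z => ?_⟩
  rw [← hPw, ← hP]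
  exact mem_Cen_mapS α P z

theorem QQ_map (hq : QConj σ q) (h : HForm B) (α : MulAut (SUL B ⧸ Subgroup.center (SUL B)))
    {v w : V} (hvw : ∀ z, α z ∈ TT h w ↔ z ∈ TT h v) (z : SUL B ⧸ Subgroup.center (SUL B)) (hz : z ∈ QQ p h v) :
    α z ∈ QQ p h w := by
  have hfinK : Finite (SUL B) := finite_K hq
  intro P hP
  have h1 : Cen (mapS α.symm P) = TT h v := by
    ext y
    obtain ⟨y, rfl⟩ := α.symm.surjective y
    rw [mem_Cen_mapS, hP, ← hvw, MulEquiv.apply_symm_apply]
  have h2 := hz _ h1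
  have h3 : z = α.symm (α z) := (α.symm_apply_apply z).symm
  rw [h3, mem_mapS] at h2
  exact h2

end CfsgLib.AutPSU
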