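import Cfsg.Agent.Lib.AutPSU4

/-!
# Automorphisms of `PSU`, part 5: the additive map.
-/

set_option autoImplicit false
set_option linter.unusedSimpArgs false
set_option linter.unusedSectionVars false
set_option linter.unusedVariables false

namespace CfsgLib.AutPSU

open Module CfsgLib.Herm

variable {F V : Type*} [Field F] [AddCommGroup V] [Module F V] [FiniteDimensional F V]
  {σ : F →+* F} {q : ℕ} {B : V →ₛₗ[σ] V →ₗ[F] F}

theorem si_smul (hq : QConj σ q) (h : HForm B) {v y : V} {c a : F} (hv0 : B v v = 0) (hy : B v y = 0) (hc : c + σ c + B y y = 0) :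
    si h (a • v) y c = si h v (σ a • y) (c * (a * σ a)) ∨ a = 0 := by
  by_cases ha : a = 0
  · exact Or.inr ha
  left
  apply K_ext
  intro x
  rw [si_apply h (by rw [map_smul_left, map_smul_right, hv0, mul_zero, mul_zero]) (by rw [map_smul_left, hy, mul_zero]) hc,
    si_apply h hv0 (by rw [map_smul_right, hy, mul_zero]) (by
      rw [map_smul_left, map_smul_right, hq.invol, map_mul, hq.norm_fixed]
      linear_combination (a * σ a) * hc), map_smul_left, map_smul_left, hq.invol]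
  module

/-- elements of the unipotent radical are Siegel elements -/
theorem Q_form (hq : QConj σ q) (h : HForm B) {v f : V} (hv0 : B v v = 0) (hf0 : B f f = 0) (hf : B v f = 1)
    {g : SUL B} (hg : g ∈ Q B v) : ∃ w ∈ hpp B v f, ∃ c : F, c + σ c + B w w = 0 ∧ g = si h v w c := by
  have hfv : B f v = 1 := by rw [← h.symm, hf, map_one]
  obtain ⟨hgv, hg'⟩ := hg
  have h1 : B v (g.1 f) = 1 := by
    conv_lhs => rw [← hgv]
    rw [pres, hf]
  have hw := hpp_decomp h hv0 hf0 hf (g.1 f)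
  rw [h1, one_smul] at hw
  obtain ⟨w, hwdef⟩ : ∃ w, w = g.1 f - B f (g.1 f) • v - f := ⟨_, rfl⟩
  rw [← hwdef] at hw
  have hw' := mem_hpp.1 hw
  have hrf : g.1 f = f + w + B f (g.1 f) • v := by rw [hwdef]; abel
  have hc : B f (g.1 f) + σ (B f (g.1 f)) + B w w = 0 := by
    have h2 := pres g f f
    rw [hf0] at h2
    generalize B f (g.1 f) = c at *
    rw [hrf] at h2
    simp only [map_add_left, map_add_right, map_smul_left, map_smul_right, hf0, hv0, hf, hfv, hw'.1, hw'.2, comm0 h hw'.1,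
      comm0 h hw'.2, mul_zero, mul_one, add_zero, zero_add] at h2
    linear_combination h2
  refine ⟨w, hw, B f (g.1 f), hc, ?_⟩
  have hXQ := si_mem_Q h hv0 hw'.1 hc
  set X := si h v w (B f (g.1 f)) with hX
  have hXf : X.1 f = g.1 f := by
    rw [hX, si_apply h hv0 hw'.1 hc, hf, comm0 h hw'.2, one_smul, mul_one, sub_zero]
    exact hrf.symm
  have hmem : X⁻¹ * g ∈ Q B v := mul_mem (inv_mem hXQ) ⟨hgv, hg'⟩
  have hff : (X⁻¹ * g).1 f = f := by rw [mul_apply', ← hXf, inv_apply']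
  have h2 : X⁻¹ * g = 1 := by
    apply K_ext
    intro x
    have h3 := mem_hpp.1 (hpp_decomp h hv0 hf0 hf x)
    obtain ⟨a, ha⟩ := hmem.2 _ h3.1
    have h5 : x = (x - B f x • v - B v x • f) + B f x • v + B v x • f := by abel
    have h6 : a = 0 := by
      have h7 := pres (X⁻¹ * g) f (x - B f x • v - B v x • f)
      rw [hff, ha, map_add_right, map_smul_right, hfv, mul_one, add_eq_left] at h7
      exact h7
    rw [h6, zero_smul, add_zero] at ha
    rw [h5, map_add, map_add, map_smul, map_smul, ha, hmem.1, hff, one_apply']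
  rw [inv_mul_eq_one] at h2
  exact h2.symm

theorem si_f (h : HForm B) {v f w : V} {c : F} (hv0 : B v v = 0) (hf : B v f = 1) (hw : w ∈ hpp B v f)
    (hc : c + σ c + B w w = 0) : (si h v w c).1 f = f + w + c • v := by
  have hw' := mem_hpp.1 hw
  rw [si_apply h hv0 hw'.1 hc, hf, comm0 h hw'.2, one_smul, mul_one, sub_zero]

variable {p : ℕ} [Fact p.Prime] [CharP F p]

theorem mk_si_inj (p : ℕ) [Fact p.Prime] [CharP F p] (hq : QConj σ q) (h : HForm B) (hV : 3 ≤ finrank F V) {v f : V} (hv0 : B v v = 0)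
    (hf : B v f = 1) {w w' : V} {c c' : F} (hw : w ∈ hpp B v f) (hc : c + σ c + B w w = 0) (hw' : w' ∈ hpp B v f)
    (hc' : c' + σ c' + B w' w' = 0)
    (heq : (QuotientGroup.mk (si h v w c) : SUL B ⧸ Subgroup.center (SUL B)) = QuotientGroup.mk (si h v w' c')) :
    w = w' ∧ c = c' := by
  have hnt : Nontrivial V := by
    apply Module.nontrivial_of_finrank_pos (R := F)
    omega
  have hfv : B f v = 1 := by rw [← h.symm, hf, map_one]
  have h1 : (si h v w c)⁻¹ * si h v w' c' ∈ Subgroup.center (SUL B) := QuotientGroup.eq.1 heq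
  have h2 : (si h v w c)⁻¹ * si h v w' c' ∈ Q B v :=
    mul_mem (inv_mem (si_mem_Q h hv0 (mem_hpp.1 hw).1 hc)) (si_mem_Q h hv0 (mem_hpp.1 hw').1 hc')
  have h3 := center_p (p := p) h hq (by omega) h1 (pow_mem_Q (p := p) hnt h2)
  rw [inv_mul_eq_one] at h3
  have h4 : (si h v w c).1 f = (si h v w' c').1 f := by rw [h3]
  rw [si_f h hv0 hf hw hc, si_f h hv0 hf hw' hc'] at h4
  have h5 := congrArg (B f) h4
  rw [map_add_right, map_add_right, map_add_right, map_add_right, map_smul_right, map_smul_right, (mem_hpp.1 hw).2,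
    (mem_hpp.1 hw').2, hfv, mul_one, mul_one] at h5
  have h6 : c = c' := by linear_combination h5
  rw [h6] at h4
  exact ⟨by have := add_right_cancel h4; exact add_left_cancel this, h6⟩

theorem exists_cc (hq : QConj σ q) (h : HForm B) (w : V) : ∃ c, c + σ c + B w w = 0 := by
  obtain ⟨c, hc⟩ := hq.exists_trace (c := - B w w) (by rw [map_neg, h.symm])
  exact ⟨c, by rw [hc, neg_add_cancel]⟩

/-- the additive map induced on `W` -/
theorem exists_A (p : ℕ) [Fact p.Prime] [CharP F p] (hq : QConj σ q) (h : HForm B) (hV : 3 ≤ finrank F V) {v f : V} (hv : v ≠ 0) (hv0 : B v v = 0)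
    (hf0 : B f f = 0) (hf : B v f = 1) (α : MulAut (SUL B ⧸ Subgroup.center (SUL B)))
    (hα : ∀ z, α z ∈ TT h v ↔ z ∈ TT h v) :
    ∃ A : hpp B v f →+ hpp B v f, Function.Injective A ∧ ∀ (w : hpp B v f) (c : F), c + σ c + B w.1 w.1 = 0 →
      ∃ c' : F, c' + σ c' + B (A w).1 (A w).1 = 0 ∧ α (QuotientGroup.mk (si h v w.1 c)) = QuotientGroup.mk (si h v (A w).1 c') := by
  have hkey : ∀ (w : hpp B v f) (c : F), c + σ c + B w.1 w.1 = 0 → ∃ (w' : hpp B v f) (c' : F), c' + σ c' + B w'.1 w'.1 = 0 ∧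
      α (QuotientGroup.mk (si h v w.1 c)) = QuotientGroup.mk (si h v w'.1 c') := by
    intro w c hc
    have h1 : (QuotientGroup.mk (si h v w.1 c) : SUL B ⧸ Subgroup.center (SUL B)) ∈ QQ p h v :=
      (mem_QQ_iff hq h hV hv hv0 _).2 ⟨_, si_mem_Q h hv0 (mem_hpp.1 w.2).1 hc, rfl⟩
    have h2 := QQ_map hq h α hα _ h1
    obtain ⟨g, hg, hg'⟩ := (mem_QQ_iff hq h hV hv hv0 _).1 h2
    obtain ⟨w', hw', c', hc', rfl⟩ := Q_form hq h hv0 hf0 hf hg
    exact ⟨⟨w', hw'⟩, c', hc', hg'⟩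
  choose cc hcc using fun w : hpp B v f => exists_cc hq h w.1
  choose A c' hc' hA using fun w : hpp B v f => hkey w (cc w) (hcc w)
  -- independence of `c`
  have hind : ∀ (w : hpp B v f) (c : F), c + σ c + B w.1 w.1 = 0 → ∃ d : F, d + σ d + B (A w).1 (A w).1 = 0 ∧
      α (QuotientGroup.mk (si h v w.1 c)) = QuotientGroup.mk (si h v (A w).1 d) := by
    intro w c hc
    have ht : (c - cc w) + σ (c - cc w) = 0 := by
      rw [map_sub]
      linear_combination hc - hcc w
    have h1 : si h v w.1 c = si h v w.1 (cc w) * tv h v (c - cc w) := by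
      rw [← si_zero h hv0 ht, si_mul h hv0 (mem_hpp.1 w.2).1 (hcc w) (map_zero _) (by rw [map_zero, add_zero, ht]), add_zero,
        map_zero, sub_zero, add_sub_cancel]
    obtain ⟨t, ht', htt⟩ := (hα (T h v (c - cc w))).2 ⟨_, ht, rfl⟩
    have h0 : c' w + t + σ (c' w + t) + B (A w).1 (A w).1 = 0 := by
      rw [map_add]
      linear_combination hc' w + ht'
    refine ⟨c' w + t, h0, ?_⟩
    rw [h1]
    change α (QuotientGroup.mk (si h v w.1 (cc w)) * T h v (c - cc w)) = _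
    rw [map_mul, hA, htt, T]
    change QuotientGroup.mk (si h v (A w).1 (c' w) * tv h v t) = _
    rw [← si_zero h hv0 ht', si_mul h hv0 (mem_hpp.1 (A w).2).1 (hc' w) (map_zero _) (by rw [map_zero, add_zero, ht']), add_zero,
      map_zero, sub_zero]
  have hadd : ∀ w w' : hpp B v f, A (w + w') = A w + A w' := by
    intro w w'
    have h1 : cc w + cc w' - B w.1 w'.1 + σ (cc w + cc w' - B w.1 w'.1) + B (w + w').1 (w + w').1 = 0 := by
      rw [map_sub, map_add, h.symm, Submodule.coe_add, map_add_left, map_add_right, map_add_right]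
      linear_combination hcc w + hcc w'
    obtain ⟨d, hd, hd'⟩ := hind (w + w') _ h1
    have h2 : si h v w.1 (cc w) * si h v w'.1 (cc w') = si h v (w + w').1 (cc w + cc w' - B w.1 w'.1) :=
      si_mul h hv0 (mem_hpp.1 w.2).1 (hcc w) (mem_hpp.1 w'.2).1 (hcc w')
    rw [← h2] at hd'
    have h3 : α (QuotientGroup.mk (si h v w.1 (cc w)) * QuotientGroup.mk (si h v w'.1 (cc w'))) = QuotientGroup.mk (si h v (A (w + w')).1 d) := hd'
    rw [map_mul, hA, hA] at h3
    have h4 : si h v (A w).1 (c' w) * si h v (A w').1 (c' w') = si h v ((A w).1 + (A w').1) (c' w + c' w' - B (A w).1 (A w').1) :=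
      si_mul h hv0 (mem_hpp.1 (A w).2).1 (hc' w) (mem_hpp.1 (A w').2).1 (hc' w')
    have h5 : (QuotientGroup.mk (si h v ((A w).1 + (A w').1) (c' w + c' w' - B (A w).1 (A w').1)) : SUL B ⧸ Subgroup.center (SUL B)) =
        QuotientGroup.mk (si h v (A (w + w')).1 d) := by
      rw [← h4]
      exact h3
    have h6 := mk_si_inj p hq h hV hv0 hf (add_mem (A w).2 (A w').2) (by
      rw [map_sub, map_add, h.symm, map_add_left, map_add_right, map_add_right]
      linear_combination hc' w + hc' w') (A (w + w')).2 hd h5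
    exact Subtype.ext h6.1.symm
  refine ⟨AddMonoidHom.mk' A hadd, ?_, hind⟩
  rw [injective_iff_map_eq_zero]
  intro w hw
  have hw' : A w = 0 := hw
  have h1 := hA w
  have hcw := hc' w
  rw [hw', Submodule.coe_zero, map_zero, add_zero] at hcw
  rw [hw', Submodule.coe_zero, si_zero h hv0 hcw] at h1
  have h2 : α (QuotientGroup.mk (si h v w.1 (cc w))) ∈ TT h v := ⟨_, hcw, h1⟩
  rw [hα] at h2
  obtain ⟨t, ht, ht'⟩ := h2
  rw [T, ← si_zero h hv0 ht] at ht'
  have h3 := mk_si_inj p hq h hV hv0 hf w.2 (hcc w) (zero_mem _) (by rw [map_zero, add_zero, ht]) ht'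
  exact Subtype.ext h3.1

/-- automorphisms normalizing `TT v` -/
theorem stab_point (hq : QConj σ q) (h : HForm B) (hV : 3 ≤ finrank F V) {v v' : V} (hv : v ≠ 0) (hv0 : B v v = 0)
    (hv' : v' ≠ 0) (hv'0 : B v' v' = 0)
    (α : MulAut (SUL B ⧸ Subgroup.center (SUL B))) (hα : ∀ z, α z ∈ TT h v' ↔ z ∈ TT h v) {k k' : SUL B}
    (hkk : α (QuotientGroup.mk k) = QuotientGroup.mk k') {l : F} (hk : k.1 v = l • v) : ∃ l' : F, l' ≠ 0 ∧ k'.1 v' = l' • v' := by
  have hl : l ≠ 0 := by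
    rintro rfl
    rw [zero_smul] at hk
    exact apply_ne_zero k hv hk
  have h1 : TT h v' = TT h (k'.1 v') := by
    ext z
    obtain ⟨z, rfl⟩ := (MulAut.conj (QuotientGroup.mk k' : SUL B ⧸ Subgroup.center (SUL B))).surjective z
    rw [MulAut.conj_apply, conj_TT h hv'0]
    obtain ⟨z, rfl⟩ := α.surjective z
    rw [← hkk, ← map_inv, ← map_mul, ← map_mul, hα, hα, ← conj_TT h hv0 k z, hk, TT_smul hq h hv0 hl]
  obtain ⟨l', hl'⟩ := TT_par hq h hV hv'0 (by rw [pres, hv'0]) (apply_ne_zero k' hv') h1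
  refine ⟨l', ?_, hl'⟩
  rintro rfl
  rw [zero_smul] at hl'
  exact apply_ne_zero k' hv' hl'

theorem mem_W_of (h : HForm B) {v f : V} {k : SUL B} {l m : F} (hl : l ≠ 0) (hm : m ≠ 0) (hk : k.1 v = l • v) (hkf : k.1 f = m • f)
    {w : V} (hw : w ∈ hpp B v f) : k.1 w ∈ hpp B v f := by
  rw [mem_hpp] at hw ⊢
  constructor
  · have h1 : B (k.1 v) (k.1 w) = 0 := by rw [pres, hw.1]
    rw [hk, map_smul_left] at h1
    rcases mul_eq_zero.1 h1 with h2 | h2
    · exact absurd h2 ((map_ne_zero σ).2 hl)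
    · exact h2
  · have h1 : B (k.1 f) (k.1 w) = 0 := by rw [pres, hw.2]
    rw [hkf, map_smul_left] at h1
    rcases mul_eq_zero.1 h1 with h2 | h2
    · exact absurd h2 ((map_ne_zero σ).2 hm)
    · exact h2

/-- equivariance of the additive map -/
theorem A_equiv (p : ℕ) [Fact p.Prime] [CharP F p] (hq : QConj σ q) (h : HForm B) (hV : 3 ≤ finrank F V) {v f : V} (hv : v ≠ 0) (hv0 : B v v = 0)
    (hf' : f ≠ 0) (hf0 : B f f = 0) (hf : B v f = 1) (α : MulAut (SUL B ⧸ Subgroup.center (SUL B)))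
    (hα : ∀ z, α z ∈ TT h v ↔ z ∈ TT h v) (hαf : ∀ z, α z ∈ TT h f ↔ z ∈ TT h f)
    {A : hpp B v f → hpp B v f} (hA : ∀ (w : hpp B v f) (c : F), c + σ c + B w.1 w.1 = 0 →
      ∃ c' : F, c' + σ c' + B (A w).1 (A w).1 = 0 ∧ α (QuotientGroup.mk (si h v w.1 c)) = QuotientGroup.mk (si h v (A w).1 c'))
    {k k' : SUL B} (hkk : α (QuotientGroup.mk k) = QuotientGroup.mk k') {l m : F} (hk : k.1 v = l • v) (hkf : k.1 f = m • f) :
    ∃ l' : F, l' ≠ 0 ∧ k'.1 v = l' • v ∧ ∀ w w' : hpp B v f, w'.1 = σ l • k.1 w.1 → (A w').1 = σ l' • k'.1 (A w).1 := by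
  have hl : l ≠ 0 := by
    rintro rfl
    rw [zero_smul] at hk
    exact apply_ne_zero k hv hk
  have hm : m ≠ 0 := by
    rintro rfl
    rw [zero_smul] at hkf
    exact apply_ne_zero k hf' hkf
  obtain ⟨l', hl', hk'⟩ := stab_point hq h hV hv hv0 hv hv0 α hα hkk hk
  obtain ⟨m', hm', hkf'⟩ := stab_point hq h hV hf' hf0 hf' hf0 α hαf hkk hkf
  refine ⟨l', hl', hk', fun w w' hww => ?_⟩
  obtain ⟨c, hc⟩ := exists_cc hq h w.1
  obtain ⟨c', hc', hcc'⟩ := hA w c hc
  have hkW := mem_W_of h hl hm hk hkf w.2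
  have hkW' := mem_W_of h hl' hm' hk' hkf' (A w).2
  have h1 : k * si h v w.1 c * k⁻¹ = si h v w'.1 (c * (l * σ l)) := by
    rw [conj_si h k hv0 (mem_hpp.1 w.2).1 hc, hk, hww]
    exact (si_smul hq h hv0 (mem_hpp.1 hkW).1 (by rw [pres, hc])).resolve_right hl
  have h2 : k' * si h v (A w).1 c' * k'⁻¹ = si h v (σ l' • k'.1 (A w).1) (c' * (l' * σ l')) := by
    rw [conj_si h k' hv0 (mem_hpp.1 (A w).2).1 hc', hk']
    exact (si_smul hq h hv0 (mem_hpp.1 hkW').1 (by rw [pres, hc'])).resolve_right hl'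
  have h0 : c * (l * σ l) + σ (c * (l * σ l)) + B w'.1 w'.1 = 0 := by
    rw [hww, map_smul_left, map_smul_right, hq.invol, map_mul, hq.norm_fixed, pres]
    linear_combination (l * σ l) * hc
  have h0' : c' * (l' * σ l') + σ (c' * (l' * σ l')) + B (σ l' • k'.1 (A w).1) (σ l' • k'.1 (A w).1) = 0 := by
    rw [map_smul_left, map_smul_right, hq.invol, map_mul, hq.norm_fixed, pres]
    linear_combination (l' * σ l') * hc'
  obtain ⟨d, hd, hdd⟩ := hA w' _ h0
  have h3 : α (QuotientGroup.mk (k * si h v w.1 c * k⁻¹)) = QuotientGroup.mk (k' * si h v (A w).1 c' * k'⁻¹) := by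
    change α (QuotientGroup.mk k * QuotientGroup.mk (si h v w.1 c) * (QuotientGroup.mk k)⁻¹) = _
    rw [map_mul, map_mul, map_inv, hkk, hcc']
    rfl
  rw [h1, h2, hdd] at h3
  exact (mk_si_inj p hq h hV hv0 hf (A w').2 hd (Submodule.smul_mem _ _ hkW') h0' h3).1

end CfsgLib.AutPSU
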