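import Cfsg.Agent.Lib.AutPSU5

/-!
# Automorphisms of `PSU`, part 6: semilinearity.
-/

set_option autoImplicit false
set_option linter.unusedSimpArgs false
set_option linter.unusedSectionVars false
set_option linter.unusedVariables false

namespace CfsgLib.AutPSU

open Module CfsgLib.Herm

section field

variable {F : Type*} [Field F] {σ : F →+* F} {q : ℕ}

/-- additive maps multiplicative against the fixed field and one more element -/
theorem mult_of (hq : QConj σ q) (φ : F →+ F) (hb : ∀ b a, σ b = b → φ (b * a) = φ b * φ a) {x : F} (hx : σ x ≠ x)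
    (hxx : ∀ a, φ (x * a) = φ x * φ a) (c a : F) : φ (c * a) = φ c * φ a := by
  have hne : x - σ x ≠ 0 := sub_ne_zero.2 (Ne.symm hx)
  obtain ⟨b0, b1, hb0, hb1, rfl⟩ : ∃ b0 b1, σ b0 = b0 ∧ σ b1 = b1 ∧ c = b0 + b1 * x := by
    have h1 : σ ((c - σ c) / (x - σ x)) = (c - σ c) / (x - σ x) := by
      rw [map_div₀, map_sub, map_sub, hq.invol, hq.invol, ← neg_sub c, ← neg_sub x, neg_div_neg_eq]
    have h2 : (c - σ c) / (x - σ x) * (x - σ x) = c - σ c := div_mul_cancel₀ _ hne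
    refine ⟨c - (c - σ c) / (x - σ x) * x, (c - σ c) / (x - σ x), ?_, h1, by ring⟩
    rw [map_sub, map_mul, h1]
    linear_combination h2
  rw [add_mul, map_add, map_add, mul_assoc, hb _ _ hb0, hb _ _ hb1, hb _ _ hb1, hxx]
  ring

theorem exists_norm_one (hq : QConj σ q) {m : ℕ} (hm : 0 < m) (hmq : m < q + 1) : ∃ y : F, y * σ y = 1 ∧ y ^ m ≠ 1 := by
  classical
  have := hq.finite
  by_contra! hcon
  have h1 := hq.card_norm_one
  have h2 : Nat.card {a : F // a * σ a = 1} ≤ m := by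
    have hinj : Function.Injective (fun a : {a : F // a * σ a = 1} =>
        (⟨a.1, by rw [Multiset.mem_toFinset, Polynomial.mem_nthRoots hm]; exact hcon a.1 a.2⟩ :
          {x // x ∈ (Polynomial.nthRoots m (1 : F)).toFinset})) := by
      intro a b hab
      exact Subtype.ext (congrArg (fun x => x.1) hab)
    have h3 := Nat.card_le_card_of_injective _ hinj
    refine h3.trans ?_
    rw [Nat.card_eq_fintype_card, Fintype.card_coe]
    exact (Multiset.toFinset_card_le _).trans (Polynomial.card_nthRoots m 1)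
  omega

theorem norm_one_ne_zero {y : F} (hy : y * σ y = 1) : y ≠ 0 := by
  rintro rfl
  rw [zero_mul] at hy
  exact zero_ne_one hy

end field

variable {F V : Type*} [Field F] [AddCommGroup V] [Module F V] [FiniteDimensional F V]
  {σ : F →+* F} {q : ℕ} {B : V →ₛₗ[σ] V →ₗ[F] F}

theorem exists_torus3 (hq : QConj σ q) (h : HForm B) {v f : V} (hv0 : B v v = 0) (hf0 : B f f = 0) (hf : B v f = 1)
    {w0 : V} (hw0 : w0 ∈ hpp B v f) (hw1 : B w0 w0 = 1) {l : F} (hl : l ≠ 0) :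
    ∃ k : SUL B, k.1 v = l • v ∧ k.1 f = (σ l)⁻¹ • f ∧ k.1 w0 = (σ l * l⁻¹) • w0 := by
  have hσl : σ l ≠ 0 := (map_ne_zero σ).2 hl
  have hfv : B f v = 1 := by rw [← h.symm, hf, map_one]
  have hw := mem_hpp.1 hw0
  have hc : (σ l * l⁻¹) * σ (σ l * l⁻¹) = 1 := by
    rw [map_mul, hq.invol, map_inv₀]
    field_simp
  refine ⟨⟨hsH hq h hv0 hf0 hf hl * qrefl h hw1 hc, mem_SUL.2 ⟨mul_mem (hsH_mem hq h hv0 hf0 hf hl) (qrefl_mem h hw1 hc), ?_⟩⟩, ?_, ?_, ?_⟩
  · rw [det_mul_eq, det_hsH, det_qrefl]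
    field_simp
  · change hsH hq h hv0 hf0 hf hl (qrefl h hw1 hc v) = _
    rw [qrefl_apply, comm0 h hw.1, mul_zero, zero_smul, add_zero, hsH_apply, hfv, hv0]
    module
  · change hsH hq h hv0 hf0 hf hl (qrefl h hw1 hc f) = _
    rw [qrefl_apply, comm0 h hw.2, mul_zero, zero_smul, add_zero, hsH_apply, hf0, hf]
    module
  · change hsH hq h hv0 hf0 hf hl (qrefl h hw1 hc w0) = _
    rw [qrefl_apply, hw1, hsH_apply, map_add_right, map_smul_right, hw.2, map_add_right, map_smul_right, hw.1]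
    module

theorem exists_torus4 (hq : QConj σ q) (h : HForm B) {v f : V} (hv0 : B v v = 0) (hf0 : B f f = 0) (hf : B v f = 1)
    {u u' : V} (hu : u ∈ hpp B v f) (hu' : u' ∈ hpp B v f) (huu : B u u = 0) (huu' : B u' u' = 0) (huf : B u u' = 1)
    {l s : F} (hl : l ≠ 0) (hs : s ≠ 0) (hss : σ s = s) :
    ∃ k : SUL B, k.1 v = l • v ∧ k.1 f = (σ l)⁻¹ • f ∧ k.1 u = (l⁻¹ * s) • u := by
  have hσl : σ l ≠ 0 := (map_ne_zero σ).2 hl
  have hfv : B f v = 1 := by rw [← h.symm, hf, map_one]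
  have huf' : B u' u = 1 := by rw [← h.symm, huf, map_one]
  have hw := mem_hpp.1 hu
  have hw' := mem_hpp.1 hu'
  have hls : l⁻¹ * s ≠ 0 := mul_ne_zero (inv_ne_zero hl) hs
  refine ⟨⟨hsH hq h hv0 hf0 hf hl * hsH hq h huu huu' huf hls,
    mem_SUL.2 ⟨mul_mem (hsH_mem hq h hv0 hf0 hf hl) (hsH_mem hq h huu huu' huf hls), ?_⟩⟩, ?_, ?_, ?_⟩
  · rw [det_mul_eq, det_hsH, det_hsH, map_mul, hss, map_inv₀]
    field_simp
  · change hsH hq h hv0 hf0 hf hl (hsH hq h huu huu' huf hls v) = _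
    rw [hsH_apply hq h huu, comm0 h hw.1, comm0 h hw'.1, hsH_apply]
    simp only [mul_zero, zero_smul, add_zero, hfv, hv0]
    module
  · change hsH hq h hv0 hf0 hf hl (hsH hq h huu huu' huf hls f) = _
    rw [hsH_apply hq h huu, comm0 h hw.2, comm0 h hw'.2, hsH_apply]
    simp only [mul_zero, zero_smul, add_zero, hf0, hf]
    module
  · change hsH hq h hv0 hf0 hf hl (hsH hq h huu huu' huf hls u) = _
    rw [hsH_apply hq h huu, huf', huu, hsH_apply]
    simp only [map_add_right, map_smul_right, hw.1, hw.2]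
    module

/-- the data of the induced additive map -/
structure Dat (h : HForm B) (v f : V) (α : MulAut (SUL B ⧸ Subgroup.center (SUL B))) (A : hpp B v f →+ hpp B v f) : Prop where
  hV : 3 ≤ finrank F V
  hv : v ≠ 0
  hv0 : B v v = 0
  hf' : f ≠ 0
  hf0 : B f f = 0
  hf : B v f = 1
  hα : ∀ z, α z ∈ TT h v ↔ z ∈ TT h v
  hαf : ∀ z, α z ∈ TT h f ↔ z ∈ TT h f
  inj : Function.Injective A
  hA : ∀ (w : hpp B v f) (c : F), c + σ c + B w.1 w.1 = 0 →
      ∃ c' : F, c' + σ c' + B (A w).1 (A w).1 = 0 ∧ α (QuotientGroup.mk (si h v w.1 c)) = QuotientGroup.mk (si h v (A w).1 c')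

variable {h : HForm B} {v f : V} {α : MulAut (SUL B ⧸ Subgroup.center (SUL B))} {A : hpp B v f →+ hpp B v f}

theorem Dat.equiv (p : ℕ) [Fact p.Prime] [CharP F p] (D : Dat h v f α A) (hq : QConj σ q) 
    {k k' : SUL B} (hkk : α (QuotientGroup.mk k) = QuotientGroup.mk k') {l m : F} (hk : k.1 v = l • v) (hkf : k.1 f = m • f) :
    ∃ l' : F, l' ≠ 0 ∧ k'.1 v = l' • v ∧ ∀ w w' : hpp B v f, w'.1 = σ l • k.1 w.1 → (A w').1 = σ l' • k'.1 (A w).1 :=
  A_equiv p hq h D.hV D.hv D.hv0 D.hf' D.hf0 D.hf α D.hα D.hαf D.hA hkk hk hkf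

theorem Dat.ne_zero (D : Dat h v f α A) {w : hpp B v f} (hw : w ≠ 0) : A w ≠ 0 := by
  intro h0
  exact hw (D.inj (by rw [h0, map_zero]))

theorem Dat.semilin3 (p : ℕ) [Fact p.Prime] [CharP F p] (D : Dat h v f α A) (hq : QConj σ q) (hV3 : finrank F V = 3) (hq3 : 3 ≤ q) :
    ∃ φ : F →+* F, ∀ (a : F) (w : hpp B v f), A (a • w) = φ a • A w := by
  have hfr := finrank_hpp hq h D.hv0 D.hf0 D.hf
  have hfr1 : finrank F (hpp B v f) = 1 := by omega
  have hWn : Nontrivial (hpp B v f) := Module.nontrivial_of_finrank_pos (R := F) (by omega)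
  have hW' := hpp_hform hq h D.hv0 D.hf0 D.hf
  obtain ⟨w0, hw1⟩ := hW'.exists_norm_eq hq (map_one σ) one_ne_zero
  change B w0.1 w0.1 = 1 at hw1
  have hw0 : w0 ≠ 0 := by
    rintro rfl
    rw [Submodule.coe_zero, map_zero] at hw1
    exact zero_ne_one hw1
  have hsp : ∀ w1 : hpp B v f, w1 ≠ 0 → ∀ w, ∃ c : F, c • w1 = w := fun w1 hw1 =>
    (finrank_eq_one_iff_of_nonzero' w1 hw1).1 hfr1
  have hA0 := D.ne_zero hw0
  choose φ hφ using fun a : F => hsp (A w0) hA0 (A (a • w0))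
  have hcan : ∀ a b : F, a • A w0 = b • A w0 → a = b := by
    intro a b hab
    have h1 : (a - b) • A w0 = 0 := by rw [sub_smul, hab, sub_self]
    rcases smul_eq_zero.1 h1 with h2 | h2
    · exact sub_eq_zero.1 h2
    · exact absurd h2 hA0
  have hadd : ∀ a b, φ (a + b) = φ a + φ b := by
    intro a b
    apply hcan
    rw [hφ, add_smul, map_add, add_smul, hφ, hφ]
  have h1 : φ 1 = 1 := by
    apply hcan
    rw [hφ, one_smul, one_smul]
  let φ' : F →+ F := AddMonoidHom.mk' φ hadd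
  -- the torus
  have htor : ∀ l : F, l ≠ 0 → ∀ a, φ ((σ l * (σ l * l⁻¹)) * a) = φ (σ l * (σ l * l⁻¹)) * φ a := by
    intro l hl
    obtain ⟨k, hkv, hkf, hkw⟩ := exists_torus3 hq h D.hv0 D.hf0 D.hf w0.2 hw1 hl
    obtain ⟨k', hk'⟩ := QuotientGroup.mk_surjective (α (QuotientGroup.mk k))
    obtain ⟨l', hl', hkv', heq⟩ := D.equiv p hq hk'.symm hkv hkf
    obtain ⟨l'', hl'', hkf'⟩ := stab_point hq h D.hV D.hf' D.hf0 D.hf' D.hf0 α D.hαf hk'.symm hkf
    obtain ⟨m, hm⟩ := hsp w0 hw0 ⟨k'.1 w0.1, mem_W_of h hl' hl'' hkv' hkf' w0.2⟩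
    have hm' : ∀ w : hpp B v f, k'.1 w.1 = m • w.1 := by
      intro w
      obtain ⟨c, rfl⟩ := hsp w0 hw0 w
      have h2 : m • w0.1 = k'.1 w0.1 := congrArg Subtype.val hm
      rw [Submodule.coe_smul, map_smul, ← h2, smul_smul, smul_smul, mul_comm]
    have h2 : ∀ a, φ ((σ l * (σ l * l⁻¹)) * a) = σ l' * m * φ a := by
      intro a
      apply hcan
      rw [hφ]
      apply Subtype.ext
      rw [heq (a • w0) _ (by
        rw [Submodule.coe_smul, Submodule.coe_smul, map_smul, hkw, smul_smul, smul_smul]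
        congr 1
        ring), hm', ← hφ, Submodule.coe_smul, Submodule.coe_smul, smul_smul, smul_smul]
    intro a
    have h3 := h2 1
    rw [mul_one, h1, mul_one] at h3
    rw [h2, h3]
  have hfix : ∀ b a, σ b = b → φ' (b * a) = φ' b * φ' a := by
    intro b a hb
    by_cases hb0 : b = 0
    · rw [hb0, zero_mul, map_zero, zero_mul]
    have := htor b hb0 a
    rwa [hb, mul_inv_cancel₀ hb0, mul_one] at this
  obtain ⟨y, hy, hy3⟩ := exists_norm_one hq (m := 3) (by norm_num) (by omega)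
  obtain ⟨l, hl0, hl⟩ := hq.hilbert90 hy
  have hσl : σ l ≠ 0 := (map_ne_zero σ).2 hl0
  have hmul := mult_of hq φ' hfix (x := σ l * (σ l * l⁻¹)) (by
    intro h2
    apply hy3
    rw [map_mul, map_mul, hq.invol, map_inv₀] at h2
    rw [← hl]
    field_simp at h2 ⊢
    linear_combination h2) (htor l hl0)
  let ψ : F →+* F := { φ' with map_one' := h1, map_mul' := hmul }
  refine ⟨ψ, fun a w => ?_⟩
  obtain ⟨c, rfl⟩ := hsp w0 hw0 w
  rw [smul_smul, ← hφ, ← hφ, smul_smul]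
  congr 1
  exact hmul a c

/-- images of isotropic vectors of `W` -/
theorem Dat.exists_u1 (p : ℕ) [Fact p.Prime] [CharP F p] (D : Dat h v f α A) (hq : QConj σ q) {u : hpp B v f} (hu0 : u ≠ 0)
    (huu : B u.1 u.1 = 0) : ∃ u1 : hpp B v f, u1 ≠ 0 ∧ B u1.1 u1.1 = 0 ∧ ∀ z, α z ∈ TT h u1.1 ↔ z ∈ TT h u.1 := by
  obtain ⟨t, ht0, ht⟩ := hq.exists_trace_ne_zero (map_zero σ)
  obtain ⟨u1, hu10, hu11, hu1⟩ := exists_point p hq h D.hV α (v := u.1) (fun h0 => hu0 (Subtype.ext h0)) huu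
  have hperp : ∀ w : V, w ≠ 0 → B w w = 0 → (∀ z, α z ∈ TT h w ↔ z ∈ TT h w) → B w u.1 = 0 → B w u1 = 0 := by
    intro w hw0 hw hαw hwu
    obtain ⟨c, hc, hc'⟩ := (hu1 (T h u.1 t)).2 ⟨t, ht, rfl⟩
    obtain ⟨d, hd, hd'⟩ := (hαw (T h w t)).2 ⟨t, ht, rfl⟩
    have hc0 : c ≠ 0 := by
      rintro rfl
      rw [T_zero, map_eq_one_iff α α.injective] at hc'
      exact T_ne_one h hq D.hV huu (fun h0 => hu0 (Subtype.ext h0)) ht ht0 hc'
    have hd0 : d ≠ 0 := by
      rintro rfl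
      rw [T_zero, map_eq_one_iff α α.injective] at hd'
      exact T_ne_one h hq D.hV hw hw0 ht ht0 hd'
    rw [← T_comm h hq D.hV hw hu11 hu10 hd hd0 hc hc0, ← hc', ← hd', ← map_mul, ← map_mul,
      (T_comm h hq D.hV hw huu (fun h0 => hu0 (Subtype.ext h0)) ht ht0 ht ht0).2 hwu]
  refine ⟨⟨u1, mem_hpp.2 ⟨hperp v D.hv D.hv0 D.hα (mem_hpp.1 u.2).1, hperp f D.hf' D.hf0 D.hαf (mem_hpp.1 u.2).2⟩⟩,
    fun h0 => hu10 (congrArg Subtype.val h0), hu11, hu1⟩

/-- the images under `A` of the multiples of an isotropic vector -/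
theorem Dat.A_isotropic (p : ℕ) [Fact p.Prime] [CharP F p] (D : Dat h v f α A) (hq : QConj σ q) {u : hpp B v f} (hu0 : u ≠ 0)
    (huu : B u.1 u.1 = 0) : B (A u).1 (A u).1 = 0 ∧ (∀ z, α z ∈ TT h (A u).1 ↔ z ∈ TT h u.1) ∧
      (∀ a : F, ∃ c : F, c • A u = A (a • u)) ∧ ∀ t t', t + σ t = 0 → t' + σ t' = 0 → α (T h u.1 t) = T h (A u).1 t' →
        ∀ w : hpp B v f, A ((t * B u.1 w.1) • u) = (t' * B (A u).1 (A w).1) • A u := by
  obtain ⟨t, ht0, ht⟩ := hq.exists_trace_ne_zero (map_zero σ)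
  obtain ⟨u1, hu10, hu11, hu1⟩ := D.exists_u1 p hq hu0 huu
  have hW' := hpp_hform hq h D.hv0 D.hf0 D.hf
  obtain ⟨u', huu', huf⟩ := hW'.exists_partner hq hu0 huu
  change B u.1 u'.1 = 1 at huf
  have hu := mem_hpp.1 u.2
  have hu1' := mem_hpp.1 u1.2
  have hmain : ∀ u2 : hpp B v f, B u2.1 u2.1 = 0 → ∀ t t', t + σ t = 0 → t' + σ t' = 0 → α (T h u.1 t) = T h u2.1 t' →
      ∀ w : hpp B v f, A ((t * B u.1 w.1) • u) = (t' * B u2.1 (A w).1) • u2 := by
    intro u2 hu22 t t' ht ht' htt w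
    have hu2' := mem_hpp.1 u2.2
    have hkv : (tv h u.1 t).1 v = (1 : F) • v := by
      rw [tv_apply h huu ht, comm0 h hu.1, mul_zero, zero_smul, add_zero, one_smul]
    have hkf : (tv h u.1 t).1 f = (1 : F) • f := by
      rw [tv_apply h huu ht, comm0 h hu.2, mul_zero, zero_smul, add_zero, one_smul]
    obtain ⟨l', hl', hkv', heq⟩ := D.equiv p hq (k := tv h u.1 t) (k' := tv h u2.1 t') htt hkv hkf
    have hl'1 : l' = 1 := by
      rw [tv_apply h hu22 ht', comm0 h hu2'.1, mul_zero, zero_smul, add_zero] at hkv'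
      have h1 : (l' - 1) • v = 0 := by rw [sub_smul, ← hkv', one_smul, sub_self]
      rcases smul_eq_zero.1 h1 with h2 | h2
      · exact sub_eq_zero.1 h2
      · exact absurd h2 D.hv
    have h1 := heq w (w + (t * B u.1 w.1) • u) (by
      rw [map_one, one_smul, tv_apply h huu ht]
      rfl)
    rw [hl'1, map_one, one_smul, tv_apply h hu22 ht', map_add, Submodule.coe_add, add_right_inj] at h1
    exact Subtype.ext h1
  have hline : ∀ a : F, ∃ c : F, c • u1 = A (a • u) := by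
    intro a
    obtain ⟨t', ht', htt⟩ := (hu1 (T h u.1 t)).2 ⟨t, ht, rfl⟩
    refine ⟨_, (hmain u1 hu11 t t' ht ht' htt ((t⁻¹ * a) • u')).symm.trans ?_⟩
    rw [Submodule.coe_smul, map_smul_right, huf, mul_one, mul_inv_cancel_left₀ ht0]
  obtain ⟨c1, hc1⟩ := hline 1
  rw [one_smul] at hc1
  have hA0 := D.ne_zero hu0
  have hc10 : c1 ≠ 0 := by
    rintro rfl
    rw [zero_smul] at hc1
    exact hA0 hc1.symm
  have hAA : B (A u).1 (A u).1 = 0 := by
    rw [← hc1, Submodule.coe_smul, map_smul_left, map_smul_right, hu11, mul_zero, mul_zero]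
  refine ⟨hAA, ?_, ?_, ?_⟩
  · intro z
    rw [← hc1, Submodule.coe_smul, TT_smul hq h hu11 hc10, hu1]
  · intro a
    obtain ⟨c, hc⟩ := hline a
    refine ⟨c * c1⁻¹, ?_⟩
    rw [← hc1, smul_smul, mul_assoc, inv_mul_cancel₀ hc10, mul_one, hc]
  · intro t t' ht ht' htt w
    exact hmain (A u) hAA t t' ht ht' htt w

end CfsgLib.AutPSU
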