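import Cfsg.Agent.Lib.AutPSU6

/-!
# Automorphisms of `PSU`, part 7: semilinearity in dimension at least four; the form.
-/

set_option autoImplicit false
set_option linter.unusedSimpArgs false
set_option linter.unusedSectionVars false
set_option linter.unusedVariables false

namespace CfsgLib.AutPSU

open Module CfsgLib.Herm

variable {F V : Type*} [Field F] [AddCommGroup V] [Module F V] [FiniteDimensional F V]
  {σ : F →+* F} {q : ℕ} {B : V →ₛₗ[σ] V →ₗ[F] F}
  {h : HForm B} {v f : V} {α : MulAut (SUL B ⧸ Subgroup.center (SUL B))} {A : hpp B v f →+ hpp B v f}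

theorem Dat.phi_u (p : ℕ) [Fact p.Prime] [CharP F p] (D : Dat h v f α A) (hq : QConj σ q) {u : hpp B v f} (hu0 : u ≠ 0)
    (huu : B u.1 u.1 = 0) : ∃ φ : F →+* F, ∀ a : F, A (a • u) = φ a • A u := by
  obtain ⟨hAA, hTA, hline, _⟩ := D.A_isotropic p hq hu0 huu
  have hW' := hpp_hform hq h D.hv0 D.hf0 D.hf
  obtain ⟨u', huu', huf⟩ := hW'.exists_partner hq hu0 huu
  change B u.1 u'.1 = 1 at huf
  change B u'.1 u'.1 = 0 at huu'
  have hA0 := D.ne_zero hu0
  choose φ hφ using hline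
  have hcan : ∀ a b : F, a • A u = b • A u → a = b := by
    intro a b hab
    have h1 : (a - b) • A u = 0 := by rw [sub_smul, hab, sub_self]
    rcases smul_eq_zero.1 h1 with h2 | h2
    · exact sub_eq_zero.1 h2
    · exact absurd h2 hA0
  have hadd : ∀ a b, φ (a + b) = φ a + φ b := by
    intro a b
    apply hcan
    rw [hφ, add_smul, map_add, add_smul, hφ, hφ]
  have h1 : φ 1 = 1 := by
    apply hcan
    rw [hφ, one_smul, one_smul]
  let φ' : F →+ F := AddMonoidHom.mk' φ hadd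
  have htor : ∀ l s : F, l ≠ 0 → s ≠ 0 → σ s = s → ∀ a, φ ((σ l * (l⁻¹ * s)) * a) = φ (σ l * (l⁻¹ * s)) * φ a := by
    intro l s hl hs hss
    obtain ⟨k, hkv, hkf, hku⟩ := exists_torus4 hq h D.hv0 D.hf0 D.hf u.2 u'.2 huu huu' huf hl hs hss
    obtain ⟨k', hk'⟩ := QuotientGroup.mk_surjective (α (QuotientGroup.mk k))
    obtain ⟨l', hl', hkv', heq⟩ := D.equiv p hq hk'.symm hkv hkf
    obtain ⟨m, hm0, hm⟩ := stab_point hq h D.hV (v := u.1) (v' := (A u).1) (fun h0 => hu0 (Subtype.ext h0)) huu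
      (fun h0 => hA0 (Subtype.ext h0)) hAA α hTA hk'.symm hku
    have h2 : ∀ a, φ ((σ l * (l⁻¹ * s)) * a) = σ l' * m * φ a := by
      intro a
      apply hcan
      rw [hφ]
      apply Subtype.ext
      rw [heq (a • u) _ (by
        rw [Submodule.coe_smul, Submodule.coe_smul, map_smul, hku, smul_smul, smul_smul]
        congr 1
        ring), ← hφ, Submodule.coe_smul, Submodule.coe_smul, map_smul, hm, smul_smul, smul_smul]
      congr 1
      ring
    intro a
    have h3 := h2 1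
    rw [mul_one, h1, mul_one] at h3
    rw [h2, h3]
  have hfix : ∀ b a, σ b = b → φ' (b * a) = φ' b * φ' a := by
    intro b a hb
    by_cases hb0 : b = 0
    · rw [hb0, zero_mul, map_zero, zero_mul]
    have := htor 1 b one_ne_zero hb0 hb a
    rwa [map_one, one_mul, inv_one, one_mul] at this
  have hq2 := hq.two_le
  obtain ⟨y, hy, hy3⟩ := exists_norm_one hq (m := 2) (by norm_num) (by omega)
  obtain ⟨l, hl0, hl⟩ := hq.hilbert90 hy
  have hσl : σ l ≠ 0 := (map_ne_zero σ).2 hl0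
  have hmul := mult_of hq φ' hfix (x := σ l * (l⁻¹ * 1)) (by
    intro h2
    apply hy3
    rw [map_mul, map_mul, hq.invol, map_inv₀, map_one] at h2
    rw [← hl]
    field_simp at h2 ⊢
    linear_combination h2) (htor l 1 hl0 one_ne_zero (map_one σ))
  exact ⟨{ φ' with map_one' := h1, map_mul' := hmul }, fun a => (hφ a).symm⟩

theorem Dat.phi_eq (p : ℕ) [Fact p.Prime] [CharP F p] (D : Dat h v f α A) (hq : QConj σ q) {u w : hpp B v f} (hu0 : u ≠ 0)
    (huu : B u.1 u.1 = 0) (hw0 : w ≠ 0) (hww : B w.1 w.1 = 0) (φ ψ : F →+* F) (hφ : ∀ a : F, A (a • u) = φ a • A u)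
    (hψ : ∀ a : F, A (a • w) = ψ a • A w) (a : F) : φ a = ψ a := by
  have hfin := hq.finite
  have hAu := D.ne_zero hu0
  have hAw := D.ne_zero hw0
  by_cases hc : ∃ c : F, w = c • u
  · obtain ⟨c, rfl⟩ := hc
    have hc0 : c ≠ 0 := by
      rintro rfl
      exact hw0 (zero_smul _ _)
    have h1 := hψ a
    rw [smul_smul, hφ, hφ, smul_smul, map_mul, ← sub_eq_zero, ← sub_smul] at h1
    rcases smul_eq_zero.1 h1 with h2 | h2
    · rw [← sub_mul] at h2
      rcases mul_eq_zero.1 h2 with h3 | h3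
      · exact sub_eq_zero.1 h3
      · exact absurd h3 ((map_ne_zero φ).2 hc0)
    · exact absurd h2 hAu
  · obtain ⟨c, hc0, hcz⟩ := exists_isotropic_comb hq h huu hww
    have hz0 : u + c • w ≠ 0 := by
      intro h0
      apply hc
      refine ⟨- c⁻¹, ?_⟩
      have h1 : u = - (c • w) := eq_neg_of_add_eq_zero_left h0
      rw [h1, smul_neg, neg_smul, neg_neg, smul_smul, inv_mul_cancel₀ hc0, one_smul]
    obtain ⟨χ, hχ⟩ := D.phi_u p hq (u := u + c • w) hz0 hcz
    have h1 := hχ a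
    rw [smul_add, map_add, hφ, smul_smul, hψ, map_add, hψ, map_mul] at h1
    have h2 : (φ a - χ a) • A u = ((χ a - ψ a) * ψ c) • A w := by
      rw [sub_smul, sub_mul, sub_smul, sub_eq_sub_iff_add_eq_add, h1]
      module
    have h3 : φ a = χ a := by
      by_contra hne
      have hne' : φ a - χ a ≠ 0 := sub_ne_zero.2 hne
      obtain ⟨b, hb⟩ := (Finite.injective_iff_surjective.1 ψ.injective) ((φ a - χ a)⁻¹ * ((χ a - ψ a) * ψ c))
      have h4 : A u = A (b • w) := by
        rw [hψ, hb, mul_smul, ← h2, smul_smul, inv_mul_cancel₀ hne', one_smul]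
      have h5 := D.inj h4
      have hb0 : b ≠ 0 := by
        rintro rfl
        exact hu0 (by rw [h5, zero_smul])
      exact hc ⟨b⁻¹, by rw [h5, smul_smul, inv_mul_cancel₀ hb0, one_smul]⟩
    rw [h3, sub_self, zero_smul] at h2
    rcases smul_eq_zero.1 h2.symm with h4 | h4
    · rcases mul_eq_zero.1 h4 with h5 | h5
      · rw [h3]
        exact sub_eq_zero.1 h5
      · exact absurd h5 ((map_ne_zero ψ).2 hc0)
    · exact absurd h4 hAw

theorem Dat.semilin4 (p : ℕ) [Fact p.Prime] [CharP F p] (D : Dat h v f α A) (hq : QConj σ q) (hV4 : 4 ≤ finrank F V) :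
    ∃ φ : F →+* F, ∀ (a : F) (w : hpp B v f), A (a • w) = φ a • A w := by
  have hfr := finrank_hpp hq h D.hv0 D.hf0 D.hf
  have hW' := hpp_hform hq h D.hv0 D.hf0 D.hf
  obtain ⟨u, hu0, huu⟩ := hW'.exists_isotropic hq (by omega)
  obtain ⟨φ, hφ⟩ := D.phi_u p hq hu0 huu
  refine ⟨φ, fun a w => ?_⟩
  refine isotropic_induction hq hW' (by omega) (P := fun w => A (a • w) = φ a • A w) ?_ ?_ w
  · intro w hww
    by_cases hw0 : w = 0
    · rw [hw0, smul_zero, map_zero, smul_zero]
    obtain ⟨ψ, hψ⟩ := D.phi_u p hq hw0 hww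
    rw [hψ, D.phi_eq p hq hu0 huu hw0 hww φ ψ hφ hψ]
  · intro x y hx hy
    rw [smul_add, map_add, hx, hy, map_add, smul_add]

theorem Dat.semilin (p : ℕ) [Fact p.Prime] [CharP F p] (D : Dat h v f α A) (hq : QConj σ q)
    (hV : (finrank F V = 3 ∧ 3 ≤ q) ∨ 4 ≤ finrank F V) :
    ∃ φ : F →+* F, ∀ (a : F) (w : hpp B v f), A (a • w) = φ a • A w := by
  rcases hV with hV | hV
  · exact D.semilin3 p hq hV.1 hV.2
  · exact D.semilin4 p hq hV

/-- the commutator of two Siegel elements -/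
theorem si_comm (h : HForm B) {u y y' : V} {c c' : F} (hu : B u u = 0) (hy : B u y = 0) (hc : c + σ c + B y y = 0)
    (hy' : B u y' = 0) (hc' : c' + σ c' + B y' y' = 0) :
    si h u y c * si h u y' c' = si h u y' c' * si h u y c * tv h u (B y' y - B y y') := by
  have ht : B y' y - B y y' + σ (B y' y - B y y') = 0 := by
    rw [map_sub, h.symm, h.symm]
    ring
  have h1 : c' + c - B y' y + σ (c' + c - B y' y) + B (y' + y) (y' + y) = 0 := by
    rw [map_sub, map_add, h.symm, map_add_left, map_add_right, map_add_right]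
    linear_combination hc + hc'
  rw [si_mul h hu hy hc hy' hc', si_mul h hu hy' hc' hy hc, ← si_zero h hu ht,
    si_mul h hu (by rw [map_add_right, hy, hy', add_zero]) h1 (map_zero _) (by rw [map_zero, add_zero, ht]), add_zero, map_zero, sub_zero,
    add_comm y y']
  congr 1
  ring

/-- trace-zero elements -/
theorem exists_sub_of_trace (hq : QConj σ q) {t : F} (ht : t + σ t = 0) : ∃ b : F, t = b - σ b := by
  obtain ⟨b0, hb0⟩ := hq.exists_ne
  have hne : b0 - σ b0 ≠ 0 := sub_ne_zero.2 (Ne.symm hb0)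
  refine ⟨t / (b0 - σ b0) * b0, ?_⟩
  have h1 : σ (t / (b0 - σ b0)) = t / (b0 - σ b0) := by
    rw [map_div₀, map_sub, hq.invol, ← neg_sub b0, (by linear_combination ht : σ t = - t), neg_div_neg_eq]
  rw [map_mul, h1]
  field_simp

theorem map_sigma (hq : QConj σ q) (φ : F →+* F) (a : F) : φ (σ a) = σ (φ a) := by
  rw [hq.pow, hq.pow, map_pow]

/-- the form on `W` -/
theorem Dat.form (p : ℕ) [Fact p.Prime] [CharP F p] (D : Dat h v f α A) (hq : QConj σ q)
    {φ : F →+* F} (hφ : ∀ (a : F) (w : hpp B v f), A (a • w) = φ a • A w) :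
    ∃ r : F, r ≠ 0 ∧ σ r = r ∧ (∀ w w' : hpp B v f, B (A w).1 (A w').1 = r * φ (B w.1 w'.1)) ∧
      ∀ t, t + σ t = 0 → α (T h v t) = T h v (r * φ t) := by
  have hfin := hq.finite
  have hfv : B f v = 1 := by rw [← h.symm, D.hf, map_one]
  have hfr := finrank_hpp hq h D.hv0 D.hf0 D.hf
  have hW' := hpp_hform hq h D.hv0 D.hf0 D.hf
  have hV := D.hV
  have hWn : Nontrivial (hpp B v f) := Module.nontrivial_of_finrank_pos (R := F) (by omega)
  have hτ : ∀ t : F, t + σ t = 0 → ∃ t' : F, t' + σ t' = 0 ∧ α (T h v t) = T h v t' := fun t ht =>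
    (D.hα (T h v t)).2 ⟨t, ht, rfl⟩
  choose! τ hτ0 hτ1 using hτ
  have hTinj : ∀ t t', t + σ t = 0 → t' + σ t' = 0 → T h v t = T h v t' → t = t' := by
    intro t t' ht ht' htt
    rw [T, T, ← si_zero h D.hv0 ht, ← si_zero h D.hv0 ht'] at htt
    exact (mk_si_inj p hq h D.hV D.hv0 D.hf (zero_mem _) (by rw [map_zero, add_zero, ht]) (zero_mem _)
      (by rw [map_zero, add_zero, ht']) htt).2
  -- the commutator relation
  have hcomm : ∀ w w' : hpp B v f, τ (B w'.1 w.1 - B w.1 w'.1) = B (A w').1 (A w).1 - B (A w).1 (A w').1 := by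
    intro w w'
    obtain ⟨c, hc⟩ := exists_cc hq h w.1
    obtain ⟨c', hc'⟩ := exists_cc hq h w'.1
    obtain ⟨d, hd, hd1⟩ := D.hA w c hc
    obtain ⟨d', hd', hd1'⟩ := D.hA w' c' hc'
    have ht : B w'.1 w.1 - B w.1 w'.1 + σ (B w'.1 w.1 - B w.1 w'.1) = 0 := by
      rw [map_sub, h.symm, h.symm]
      ring
    have ht' : B (A w').1 (A w).1 - B (A w).1 (A w').1 + σ (B (A w').1 (A w).1 - B (A w).1 (A w').1) = 0 := by
      rw [map_sub, h.symm, h.symm]
      ring
    have h1 := si_comm h D.hv0 (mem_hpp.1 w.2).1 hc (mem_hpp.1 w'.2).1 hc'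
    have h2 := si_comm h D.hv0 (mem_hpp.1 (A w).2).1 hd (mem_hpp.1 (A w').2).1 hd'
    have h3 : (QuotientGroup.mk (si h v w.1 c) : SUL B ⧸ Subgroup.center (SUL B)) * QuotientGroup.mk (si h v w'.1 c') =
        QuotientGroup.mk (si h v w'.1 c') * QuotientGroup.mk (si h v w.1 c) * T h v (B w'.1 w.1 - B w.1 w'.1) :=
      congrArg QuotientGroup.mk h1
    have h4 : (QuotientGroup.mk (si h v (A w).1 d) : SUL B ⧸ Subgroup.center (SUL B)) * QuotientGroup.mk (si h v (A w').1 d') =
        QuotientGroup.mk (si h v (A w').1 d') * QuotientGroup.mk (si h v (A w).1 d) * T h v (B (A w').1 (A w).1 - B (A w).1 (A w').1) :=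
      congrArg QuotientGroup.mk h2
    have h5 := congrArg α h3
    rw [map_mul, map_mul, map_mul, hd1, hd1', hτ1 _ ht, h4] at h5
    exact (hTinj _ _ ht' (hτ0 _ ht) (mul_left_cancel h5)).symm
  -- in terms of `φ`
  have hkey : ∀ (w w' : hpp B v f) (a : F), τ (σ (a * B w.1 w'.1) - a * B w.1 w'.1) =
      σ (φ a * B (A w).1 (A w').1) - φ a * B (A w).1 (A w').1 := by
    intro w w' a
    have h1 := hcomm w (a • w')
    rw [hφ, Submodule.coe_smul, Submodule.coe_smul, map_smul_left, map_smul_left, map_smul_right, map_smul_right] at h1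
    rw [map_mul, map_mul, h.symm, h.symm]
    exact h1
  obtain ⟨w0, hw1⟩ := hW'.exists_norm_eq hq (map_one σ) one_ne_zero
  change B w0.1 w0.1 = 1 at hw1
  obtain ⟨r, hr⟩ : ∃ r, r = B (A w0).1 (A w0).1 := ⟨_, rfl⟩
  have hr1 : σ r = r := by rw [hr, h.symm]
  have hτr : ∀ b : F, τ (σ b - b) = r * φ (σ b - b) := by
    intro b
    have h1 := hkey w0 w0 b
    rw [hw1, mul_one, ← hr] at h1
    rw [h1, map_mul, hr1, map_sub, map_sigma hq]
    ring
  obtain ⟨b0, hb0⟩ := hq.exists_ne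
  have hr0 : r ≠ 0 := by
    intro h0
    have h1 := hτr b0
    have ht : σ b0 - b0 + σ (σ b0 - b0) = 0 := by
      rw [map_sub, hq.invol]
      ring
    have h2 := hτ1 _ ht
    rw [h1, h0, zero_mul, T_zero, map_eq_one_iff α α.injective] at h2
    exact T_ne_one h hq D.hV D.hv0 D.hv ht (sub_ne_zero.2 hb0) h2
  refine ⟨r, hr0, hr1, ?_, ?_⟩
  · intro w w'
    obtain ⟨x, hx⟩ : ∃ x, x = B w.1 w'.1 := ⟨_, rfl⟩
    obtain ⟨y, hy⟩ : ∃ y, y = B (A w).1 (A w').1 := ⟨_, rfl⟩
    have hk : ∀ a, σ (φ a * (y - r * φ x)) = φ a * (y - r * φ x) := by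
      intro a
      have h1 := hkey w w' a
      rw [← hx, ← hy, hτr] at h1
      rw [mul_sub, map_sub]
      rw [map_sub, map_sigma hq, map_mul φ] at h1
      have e1 : σ (φ a * (r * φ x)) = r * σ (φ a * φ x) := by
        rw [map_mul, map_mul, map_mul, hr1]
        ring
      rw [e1]
      linear_combination - h1
    have h0 : y - r * φ x = 0 := by
      by_contra hne
      have h1 := hk b0
      have h2 := hk 1
      rw [map_one, one_mul] at h2
      rw [map_mul, h2] at h1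
      have h3 := mul_right_cancel₀ hne h1
      rw [← map_sigma hq] at h3
      exact hb0 (φ.injective h3)
    rw [← hx, ← hy]
    exact sub_eq_zero.1 h0
  · intro t ht
    obtain ⟨b, hb⟩ := exists_sub_of_trace hq ht
    have h1 : t = σ (-b) - (-b) := by rw [hb, map_neg]; ring
    rw [hτ1 t ht, h1, hτr]

end CfsgLib.AutPSU
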