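import Cfsg.Agent.Lib.AutPSU7

/-!
# Automorphisms of `PSU`, part 8: rigidity.
-/

set_option autoImplicit false
set_option linter.unusedSimpArgs false
set_option linter.unusedSectionVars false
set_option linter.unusedVariables false

namespace CfsgLib.AutPSU

open Module CfsgLib.Herm

variable {F V : Type*} [Field F] [AddCommGroup V] [Module F V] [FiniteDimensional F V]
  {σ : F →+* F} {q : ℕ} {B : V →ₛₗ[σ] V →ₗ[F] F}
  {h : HForm B} {v f : V} {α : MulAut (SUL B ⧸ Subgroup.center (SUL B))}

theorem si_mul_tv (h : HForm B) {u y : V} {c t : F} (hu : B u u = 0) (hy : B u y = 0) (hc : c + σ c + B y y = 0) (ht : t + σ t = 0) :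
    si h u y c * tv h u t = si h u y (c + t) := by
  rw [← si_zero h hu ht, si_mul h hu hy hc (map_zero _) (by rw [map_zero, add_zero, ht]), add_zero, map_zero, sub_zero]

/-- the unipotent radical is fixed -/
theorem rigid1 (p : ℕ) [Fact p.Prime] [CharP F p] (hq : QConj σ q) (D : Dat h v f α (AddMonoidHom.id _))
    (hdim : (finrank F V = 3 ∧ 3 ≤ q) ∨ 4 ≤ finrank F V)
    (hT : ∀ t, t + σ t = 0 → α (T h v t) = T h v t) (w : hpp B v f) (c : F) (hc : c + σ c + B w.1 w.1 = 0) :
    α (QuotientGroup.mk (si h v w.1 c)) = QuotientGroup.mk (si h v w.1 c) := by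
  have hfin := hq.finite
  have hfv : B f v = 1 := by rw [← h.symm, D.hf, map_one]
  have hfr := finrank_hpp hq h D.hv0 D.hf0 D.hf
  have hW' := hpp_hform hq h D.hv0 D.hf0 D.hf
  have hV := D.hV
  have hWn : Nontrivial (hpp B v f) := Module.nontrivial_of_finrank_pos (R := F) (by omega)
  choose cc hcc using fun w : hpp B v f => exists_cc hq h w.1
  choose c' hc' hc'1 using fun w : hpp B v f => D.hA w (cc w) (hcc w)
  obtain ⟨δ, hδ⟩ : ∃ δ : hpp B v f → F, ∀ w, δ w = c' w - cc w := ⟨_, fun w => rfl⟩
  have hδ0 : ∀ w, δ w + σ (δ w) = 0 := by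
    intro w
    have h1 := hc' w
    rw [AddMonoidHom.id_apply] at h1
    rw [hδ, map_sub]
    linear_combination h1 - hcc w
  have hval : ∀ (w : hpp B v f) (c : F), c + σ c + B w.1 w.1 = 0 → c + δ w + σ (c + δ w) + B w.1 w.1 = 0 := by
    intro w c hc
    rw [map_add]
    linear_combination hc + hδ0 w
  have hmain : ∀ (w : hpp B v f) (c : F), c + σ c + B w.1 w.1 = 0 →
      α (QuotientGroup.mk (si h v w.1 c)) = QuotientGroup.mk (si h v w.1 (c + δ w)) := by
    intro w c hc
    have ht : (c - cc w) + σ (c - cc w) = 0 := by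
      rw [map_sub]
      linear_combination hc - hcc w
    have h1 : si h v w.1 c = si h v w.1 (cc w) * tv h v (c - cc w) := by
      rw [si_mul_tv h D.hv0 (mem_hpp.1 w.2).1 (hcc w) ht, add_sub_cancel]
    have h2 : (QuotientGroup.mk (si h v w.1 c) : SUL B ⧸ Subgroup.center (SUL B)) =
      QuotientGroup.mk (si h v w.1 (cc w)) * T h v (c - cc w) := congrArg QuotientGroup.mk h1
    rw [h2, map_mul, hc'1, hT _ ht, AddMonoidHom.id_apply, T]
    change QuotientGroup.mk (si h v w.1 (c' w) * tv h v (c - cc w)) = _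
    have h3 := hc' w
    rw [AddMonoidHom.id_apply] at h3
    rw [si_mul_tv h D.hv0 (mem_hpp.1 w.2).1 h3 ht, hδ]
    congr 2
    ring
  have hadd : ∀ w w', δ (w + w') = δ w + δ w' := by
    intro w w'
    have h1 : cc w + cc w' - B w.1 w'.1 + σ (cc w + cc w' - B w.1 w'.1) + B (w + w').1 (w + w').1 = 0 := by
      rw [map_sub, map_add, h.symm, Submodule.coe_add, map_add_left, map_add_right, map_add_right]
      linear_combination hcc w + hcc w'
    have h2 : si h v w.1 (cc w) * si h v w'.1 (cc w') = si h v (w + w').1 (cc w + cc w' - B w.1 w'.1) :=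
      si_mul h D.hv0 (mem_hpp.1 w.2).1 (hcc w) (mem_hpp.1 w'.2).1 (hcc w')
    have h3 := hmain (w + w') _ h1
    rw [← h2] at h3
    have h4 : α (QuotientGroup.mk (si h v w.1 (cc w)) * QuotientGroup.mk (si h v w'.1 (cc w'))) =
      QuotientGroup.mk (si h v (w + w').1 (cc w + cc w' - B w.1 w'.1 + δ (w + w'))) := h3
    rw [map_mul, hmain w _ (hcc w), hmain w' _ (hcc w')] at h4
    have h5 : si h v w.1 (cc w + δ w) * si h v w'.1 (cc w' + δ w') = si h v (w + w').1 (cc w + δ w + (cc w' + δ w') - B w.1 w'.1) :=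
      si_mul h D.hv0 (mem_hpp.1 w.2).1 (hval w _ (hcc w)) (mem_hpp.1 w'.2).1 (hval w' _ (hcc w'))
    have h6 : (QuotientGroup.mk (si h v (w + w').1 (cc w + δ w + (cc w' + δ w') - B w.1 w'.1)) : SUL B ⧸ Subgroup.center (SUL B)) =
        QuotientGroup.mk (si h v (w + w').1 (cc w + cc w' - B w.1 w'.1 + δ (w + w'))) := by
      rw [← h5]
      exact h4
    have h7 := mk_si_inj p hq h D.hV D.hv0 D.hf (w + w').2 (by
      rw [map_sub, map_add, map_add, map_add, h.symm, Submodule.coe_add, map_add_left, map_add_right, map_add_right]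
      linear_combination hcc w + hcc w' + hδ0 w + hδ0 w') (w + w').2 (by
      rw [map_add]
      linear_combination h1 + hδ0 (w + w')) h6
    linear_combination - h7.2
  let Δ : hpp B v f →+ F := AddMonoidHom.mk' δ hadd
  have hΔ : ∀ w, Δ w = δ w := fun w => rfl
  have hzero : ∀ w, Δ w = 0 := by
    rcases hdim with ⟨hV3, hq3⟩ | hV4
    · -- dimension three
      have hfr1 : finrank F (hpp B v f) = 1 := by omega
      obtain ⟨w0, hw1⟩ := hW'.exists_norm_eq hq (map_one σ) one_ne_zero
      change B w0.1 w0.1 = 1 at hw1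
      have hw0 : w0 ≠ 0 := by
        rintro rfl
        rw [Submodule.coe_zero, map_zero] at hw1
        exact zero_ne_one hw1
      have hsp : ∀ w1 : hpp B v f, w1 ≠ 0 → ∀ w, ∃ c : F, c • w1 = w := fun w1 hw1 =>
        (finrank_eq_one_iff_of_nonzero' w1 hw1).1 hfr1
      obtain ⟨l, hl, hl3⟩ := exists_norm_one hq (m := 3) (by norm_num) (by omega)
      have hl0 := norm_one_ne_zero hl
      have hσl : σ l = l⁻¹ := by rw [← mul_right_inj' hl0, hl, mul_inv_cancel₀ hl0]
      obtain ⟨k, hkv, hkf, hkw⟩ := exists_torus3 hq h D.hv0 D.hf0 D.hf w0.2 hw1 hl0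
      have hkw' : ∀ w : hpp B v f, k.1 w.1 = (σ l * l⁻¹) • w.1 := by
        intro w
        obtain ⟨c, rfl⟩ := hsp w0 hw0 w
        rw [Submodule.coe_smul, map_smul, hkw, smul_smul, smul_smul, mul_comm]
      obtain ⟨k', hk'⟩ := QuotientGroup.mk_surjective (α (QuotientGroup.mk k))
      obtain ⟨l', hl', hkv', heq⟩ := D.equiv p hq hk'.symm hkv hkf
      -- norms
      have hll : l' * σ l' = 1 := by
        obtain ⟨t, ht0, ht⟩ := hq.exists_trace_ne_zero (map_zero σ)
        have h1 := conj_T h k D.hv0 ht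
        rw [hkv, T_smul hq h D.hv0 ht, hl, mul_one] at h1
        have h2 := congrArg α h1
        rw [map_mul, map_mul, map_inv, hT t ht, ← hk', conj_T h k' D.hv0 ht, hkv', T_smul hq h D.hv0 ht] at h2
        have ht' : t * (l' * σ l') + σ (t * (l' * σ l')) = 0 := by
          rw [map_mul, hq.norm_fixed, ← add_mul, ht, zero_mul]
        rw [T, T, ← si_zero h D.hv0 ht, ← si_zero h D.hv0 ht'] at h2
        have h3 := (mk_si_inj p hq h D.hV D.hv0 D.hf (zero_mem _) (by rw [map_zero, add_zero, ht']) (zero_mem _)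
          (by rw [map_zero, add_zero, ht]) h2).2
        have h4 : t * (l' * σ l' - 1) = 0 := by rw [mul_sub, h3, mul_one, sub_self]
        rcases mul_eq_zero.1 h4 with h5 | h5
        · exact absurd h5 ht0
        · exact sub_eq_zero.1 h5
      have hkey : ∀ w, δ ((l⁻¹ ^ 3) • w) = δ w := by
        intro w
        obtain ⟨c, hc⟩ := exists_cc hq h w.1
        have hx : ((l⁻¹ ^ 3) • w : hpp B v f).1 = σ l • k.1 w.1 := by
          rw [hkw', smul_smul, hσl, Submodule.coe_smul]
          congr 1
          ring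
        have hN : l⁻¹ * σ l⁻¹ = 1 := by rw [map_inv₀, ← mul_inv, hl, inv_one]
        have hc2 : c + σ c + B ((l⁻¹ ^ 3) • w : hpp B v f).1 ((l⁻¹ ^ 3) • w : hpp B v f).1 = 0 := by
          rw [Submodule.coe_smul, map_smul_left, map_smul_right, map_pow]
          have e1 : (σ l⁻¹) ^ 3 * ((l⁻¹) ^ 3 * B w.1 w.1) = (l⁻¹ * σ l⁻¹) ^ 3 * B w.1 w.1 := by ring
          rw [e1, hN, one_pow, one_mul, hc]
        have hkW := mem_W_of h hl0 (inv_ne_zero ((map_ne_zero σ).2 hl0)) hkv hkf w.2
        have h1 : k * si h v w.1 c * k⁻¹ = si h v ((l⁻¹ ^ 3) • w : hpp B v f).1 c := by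
          rw [conj_si h k D.hv0 (mem_hpp.1 w.2).1 hc, hkv, hx]
          have := (si_smul hq h D.hv0 (mem_hpp.1 hkW).1 (c := c) (by rw [pres, hc])).resolve_right hl0
          rw [this, hl, mul_one]
        have h2 : σ l' • k'.1 w.1 = ((l⁻¹ ^ 3) • w : hpp B v f).1 := (heq w _ hx).symm
        have hkW' : B v (k'.1 w.1) = 0 := by
          have h3 : B (k'.1 v) (k'.1 w.1) = 0 := by rw [pres, (mem_hpp.1 w.2).1]
          rw [hkv', map_smul_left] at h3
          rcases mul_eq_zero.1 h3 with h4 | h4
          · exact absurd h4 ((map_ne_zero σ).2 hl')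
          · exact h4
        have h3 : k' * si h v w.1 (c + δ w) * k'⁻¹ = si h v ((l⁻¹ ^ 3) • w : hpp B v f).1 (c + δ w) := by
          rw [conj_si h k' D.hv0 (mem_hpp.1 w.2).1 (hval w c hc), hkv', ← h2]
          have := (si_smul hq h D.hv0 hkW' (c := c + δ w) (by rw [pres, hval w c hc])).resolve_right hl'
          rw [this, hll, mul_one]
        have h4 : (QuotientGroup.mk k : SUL B ⧸ Subgroup.center (SUL B)) * QuotientGroup.mk (si h v w.1 c) * (QuotientGroup.mk k)⁻¹ =
            QuotientGroup.mk (si h v ((l⁻¹ ^ 3) • w : hpp B v f).1 c) := congrArg QuotientGroup.mk h1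
        have h5 : (QuotientGroup.mk k' : SUL B ⧸ Subgroup.center (SUL B)) * QuotientGroup.mk (si h v w.1 (c + δ w)) * (QuotientGroup.mk k')⁻¹ =
            QuotientGroup.mk (si h v ((l⁻¹ ^ 3) • w : hpp B v f).1 (c + δ w)) := congrArg QuotientGroup.mk h3
        have h6 := congrArg α h4
        rw [map_mul, map_mul, map_inv, hmain w c hc, ← hk', h5, hmain _ c hc2] at h6
        have h7 := (mk_si_inj p hq h D.hV D.hv0 D.hf ((l⁻¹ ^ 3) • w : hpp B v f).2 (by
          rw [map_add]
          linear_combination hc2 + hδ0 w) ((l⁻¹ ^ 3) • w : hpp B v f).2 (hval _ c hc2) h6).2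
        linear_combination - h7
      intro w
      have hne : l⁻¹ ^ 3 - 1 ≠ 0 := by
        rw [sub_ne_zero, inv_pow]
        intro h1
        exact hl3 (inv_eq_one.1 h1)
      have h1 : w = l⁻¹ ^ 3 • ((l⁻¹ ^ 3 - 1)⁻¹ • w) - (l⁻¹ ^ 3 - 1)⁻¹ • w := by
        rw [smul_smul, ← sub_smul, ← sub_one_mul, mul_inv_cancel₀ hne, one_smul]
      rw [h1, map_sub, hΔ, hΔ, hkey, sub_self]
    · -- dimension at least four
      intro w
      refine isotropic_induction hq hW' (by omega) (P := fun w => Δ w = 0) ?_ ?_ w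
      · intro u huu
        change B u.1 u.1 = 0 at huu
        by_cases hu0 : u = 0
        · rw [hu0, map_zero]
        obtain ⟨u', _, huf⟩ := hW'.exists_partner hq hu0 huu
        change B u.1 u'.1 = 1 at huf
        obtain ⟨_, hTA, _, h4⟩ := D.A_isotropic p hq hu0 huu
        obtain ⟨t, ht0, ht⟩ := hq.exists_trace_ne_zero (map_zero σ)
        obtain ⟨t', ht', htt⟩ := (hTA (T h u.1 t)).2 ⟨t, ht, rfl⟩
        have htt' : t = t' := by
          have h1 := h4 t t' ht ht' htt u'
          rw [AddMonoidHom.id_apply, AddMonoidHom.id_apply, AddMonoidHom.id_apply, huf, mul_one, mul_one] at h1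
          have h2 : (t - t') • u = 0 := by rw [sub_smul, h1, sub_self]
          rcases smul_eq_zero.1 h2 with h3 | h3
          · exact sub_eq_zero.1 h3
          · exact absurd h3 hu0
        rw [← htt', AddMonoidHom.id_apply] at htt
        have hu := mem_hpp.1 u.2
        have htv : (tv h u.1 t).1 v = v := by
          rw [tv_apply h huu ht, comm0 h hu.1, mul_zero, zero_smul, add_zero]
        have hkey : ∀ w : hpp B v f, Δ ((t * B u.1 w.1) • u) = 0 := by
          intro w
          obtain ⟨c, hc⟩ := exists_cc hq h w.1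
          have hw2 : (tv h u.1 t).1 w.1 = (w + (t * B u.1 w.1) • u : hpp B v f).1 := by
            rw [tv_apply h huu ht]
            rfl
          have hc2 : c + σ c + B (w + (t * B u.1 w.1) • u : hpp B v f).1 (w + (t * B u.1 w.1) • u : hpp B v f).1 = 0 := by
            rw [← hw2, pres, hc]
          have h1 : tv h u.1 t * si h v w.1 c * (tv h u.1 t)⁻¹ = si h v (w + (t * B u.1 w.1) • u : hpp B v f).1 c := by
            rw [conj_si h _ D.hv0 (mem_hpp.1 w.2).1 hc, htv, hw2]
          have h3 : tv h u.1 t * si h v w.1 (c + δ w) * (tv h u.1 t)⁻¹ = si h v (w + (t * B u.1 w.1) • u : hpp B v f).1 (c + δ w) := by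
            rw [conj_si h _ D.hv0 (mem_hpp.1 w.2).1 (hval w c hc), htv, hw2]
          have h4 : T h u.1 t * QuotientGroup.mk (si h v w.1 c) * (T h u.1 t)⁻¹ =
              QuotientGroup.mk (si h v (w + (t * B u.1 w.1) • u : hpp B v f).1 c) := congrArg QuotientGroup.mk h1
          have h5 : T h u.1 t * QuotientGroup.mk (si h v w.1 (c + δ w)) * (T h u.1 t)⁻¹ =
              QuotientGroup.mk (si h v (w + (t * B u.1 w.1) • u : hpp B v f).1 (c + δ w)) := congrArg QuotientGroup.mk h3
          have h6 := congrArg α h4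
          rw [map_mul, map_mul, map_inv, hmain w c hc, htt, h5, hmain _ c hc2] at h6
          have h7 := (mk_si_inj p hq h D.hV D.hv0 D.hf (w + (t * B u.1 w.1) • u : hpp B v f).2 (by
            rw [map_add]
            linear_combination hc2 + hδ0 w) (w + (t * B u.1 w.1) • u : hpp B v f).2 (hval _ c hc2) h6).2
          have h8 : δ (w + (t * B u.1 w.1) • u) = δ w := by linear_combination - h7
          rw [hadd] at h8
          exact add_eq_left.1 h8
        have h1 := hkey (t⁻¹ • u')
        rw [Submodule.coe_smul, map_smul_right, huf, mul_one, mul_inv_cancel₀ ht0, one_smul] at h1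
        exact h1
      · intro a b ha hb
        rw [map_add, ha, hb, add_zero]
  rw [hmain w c hc]
  have := hzero w
  rw [hΔ] at this
  rw [this, add_zero]

/-- the automorphism preserving the unipotent radical is trivial -/
theorem rigid (p : ℕ) [Fact p.Prime] [CharP F p] (hq : QConj σ q) (D : Dat h v f α (AddMonoidHom.id _))
    (hdim : (finrank F V = 3 ∧ 3 ≤ q) ∨ 4 ≤ finrank F V)
    (hT : ∀ t, t + σ t = 0 → α (T h v t) = T h v t) : α = 1 := by
  have hfin := hq.finite
  have hfv : B f v = 1 := by rw [← h.symm, D.hf, map_one]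
  have hV := D.hV
  have hsi := rigid1 p hq D hdim hT
  -- points opposite `v`
  have hopp : ∀ z : V, B z z = 0 → B v z = 1 → ∀ y, α y ∈ TT h z ↔ y ∈ TT h z := by
    intro z hz hvz y
    have hw := hpp_decomp h D.hv0 D.hf0 D.hf z
    rw [hvz, one_smul] at hw
    obtain ⟨w, hwdef⟩ : ∃ w, w = z - B f z • v - f := ⟨_, rfl⟩
    rw [← hwdef] at hw
    have hw' := mem_hpp.1 hw
    have hrf : z = f + w + B f z • v := by rw [hwdef]; abel
    have hc : B f z + σ (B f z) + B w w = 0 := by
      have h2 := hz
      generalize B f z = c at *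
      rw [hrf] at h2
      simp only [map_add_left, map_add_right, map_smul_left, map_smul_right, D.hf0, D.hv0, D.hf, hfv, hw'.1, hw'.2, comm0 h hw'.1,
        comm0 h hw'.2, mul_zero, mul_one, add_zero, zero_add] at h2
      linear_combination h2
    have hX : (si h v w (B f z)).1 f = z := by
      rw [si_f h D.hv0 D.hf hw hc, ← hrf]
    obtain ⟨y, rfl⟩ := (MulAut.conj (QuotientGroup.mk (si h v w (B f z)) : SUL B ⧸ Subgroup.center (SUL B))).surjective y
    rw [MulAut.conj_apply, map_mul, map_mul, map_inv, hsi ⟨w, hw⟩ _ hc]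
    have hTT : TT h z = TT h ((si h v w (B f z)).1 f) := by rw [hX]
    rw [hTT]
    rw [conj_TT h D.hf0, conj_TT h D.hf0]
    exact D.hαf y
  -- transvections opposite `v`
  have hoppT : ∀ z : V, B z z = 0 → B v z = 1 → ∀ c, c + σ c = 0 → α (T h z c) = T h z c := by
    intro z hz hvz c hc
    obtain ⟨c', hc', hcc⟩ := (hopp z hz hvz (T h z c)).2 ⟨c, hc, rfl⟩
    have hzv : B z v = 1 := by rw [← h.symm, hvz, map_one]
    have hfr := finrank_hpp hq h D.hv0 hz hvz
    have hW' := hpp_hform hq h D.hv0 hz hvz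
    have hWn : Nontrivial (hpp B v z) := Module.nontrivial_of_finrank_pos (R := F) (by omega)
    obtain ⟨w, hw⟩ := hW'.exists_ne_zero hq
    change B w.1 w.1 ≠ 0 at hw
    have hw' := mem_hpp.1 w.2
    obtain ⟨g, hg⟩ := exists_cc hq h w.1
    have hg0 : g ≠ 0 := by
      rintro rfl
      rw [map_zero, add_zero, zero_add] at hg
      exact hw hg
    obtain ⟨y, hy⟩ : ∃ y, y = z + w.1 + g • v := ⟨_, rfl⟩
    have hvy : B v y = 1 := by
      rw [hy, map_add_right, map_add_right, map_smul_right, hvz, hw'.1, D.hv0]; ring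
    have hzy : B z y = g := by
      rw [hy, map_add_right, map_add_right, map_smul_right, hz, hw'.2, hzv]; ring
    have hyy : B y y = 0 := by
      rw [hy]
      simp only [map_add_left, map_add_right, map_smul_left, map_smul_right, hz, D.hv0, hvz, hzv, hw'.1, hw'.2, comm0 h hw'.1,
        comm0 h hw'.2, mul_zero, mul_one, add_zero, zero_add]
      linear_combination hg
    have hcg : 1 + c * g ≠ 0 := by
      intro h0
      have hc0 : c ≠ 0 := by
        rintro rfl
        rw [zero_mul, add_zero] at h0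
        exact one_ne_zero h0
      have hσc : σ c = - c := by linear_combination hc
      have h1 : g = - c⁻¹ := by
        have : c * (g + c⁻¹) = 0 := by rw [mul_add, mul_inv_cancel₀ hc0]; linear_combination h0
        rcases mul_eq_zero.1 this with h2 | h2
        · exact absurd h2 hc0
        · linear_combination h2
      rw [h1, map_neg, map_inv₀, hσc, inv_neg, neg_neg, neg_add_cancel, zero_add] at hg
      exact hw hg
    obtain ⟨t, ht0, ht⟩ := hq.exists_trace_ne_zero (map_zero σ)
    obtain ⟨t', ht', htt⟩ := (hopp y hyy hvy (T h y t)).2 ⟨t, ht, rfl⟩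
    have hy0 : y ≠ 0 := by
      rintro rfl
      rw [map_zero] at hvy
      exact zero_ne_one hvy
    have ht'0 : t' ≠ 0 := by
      rintro rfl
      rw [T_zero, map_eq_one_iff α α.injective] at htt
      exact T_ne_one h hq D.hV hyy hy0 ht ht0 htt
    have h1 := conj_T h (tv h z c) hyy ht
    rw [tv_apply h hz hc, hzy] at h1
    have h2 := conj_T h (tv h z c') hyy ht'
    rw [tv_apply h hz hc', hzy] at h2
    have hvy1 : B v (y + (c * g) • z) = 1 + c * g := by rw [map_add_right, map_smul_right, hvy, hvz, mul_one]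
    have hyy1 : B (y + (c * g) • z) (y + (c * g) • z) = 0 := by
      have := pres (tv h z c) y y
      rwa [tv_apply h hz hc, hzy, hyy] at this
    have hyy2 : B (y + (c' * g) • z) (y + (c' * g) • z) = 0 := by
      have := pres (tv h z c') y y
      rwa [tv_apply h hz hc', hzy, hyy] at this
    -- the point `y + cgz` is preserved
    have h3 : α (T h (y + (c * g) • z) t) ∈ TT h (y + (c * g) • z) := by
      have h4 := TT_smul hq h hyy1 (a := (1 + c * g)⁻¹) (inv_ne_zero hcg)
      rw [← h4, hopp _ (by rw [map_smul_left, map_smul_right, hyy1, mul_zero, mul_zero]) (by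
        rw [map_smul_right, hvy1, inv_mul_cancel₀ hcg]), h4]
      exact ⟨t, ht, rfl⟩
    obtain ⟨d, hd, hdd⟩ := h3
    have h4 := congrArg α h1
    have hcc' : α (QuotientGroup.mk (tv h z c)) = QuotientGroup.mk (tv h z c') := hcc
    rw [map_mul, map_mul, map_inv, htt, hcc', h2, hdd] at h4
    have hy20 : y + (c' * g) • z ≠ 0 := by
      have := apply_ne_zero (tv h z c') hy0
      rwa [tv_apply h hz hc', hzy] at this
    obtain ⟨l, hl⟩ := T_par h hq D.hV hyy1 hyy2 hy20 hd ht' ht'0 h4.symm
    have h5 := congrArg (B z) hl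
    rw [map_smul_right, map_add_right, map_add_right, map_smul_right, map_smul_right, hzy, hz, mul_zero, mul_zero, add_zero] at h5
    have hl1 : l = 1 := by
      have : (l - 1) * g = 0 := by rw [sub_mul, ← h5, one_mul, sub_self]
      rcases mul_eq_zero.1 this with h6 | h6
      · exact sub_eq_zero.1 h6
      · exact absurd h6 hg0
    have h6 := congrArg (B v) hl
    rw [hl1, one_smul, hvy1, map_add_right, map_smul_right, hvy, hvz, mul_one, add_right_inj] at h6
    rw [hcc, mul_right_cancel₀ hg0 h6]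
  -- scaling
  have hoppT' : ∀ z : V, B z z = 0 → B v z ≠ 0 → ∀ c, c + σ c = 0 → α (T h z c) = T h z c := by
    intro z hz hvz c hc
    have h1 : T h z c = T h ((B v z)⁻¹ • z) (c * (B v z * σ (B v z))) := by
      have hc2 : c * (B v z * σ (B v z)) + σ (c * (B v z * σ (B v z))) = 0 := by
        rw [map_mul, hq.norm_fixed, ← add_mul, hc, zero_mul]
      rw [T_smul hq h hz hc2]
      congr 1
      have hσ := (map_ne_zero σ).2 hvz
      rw [map_inv₀]
      field_simp
    rw [h1]
    exact hoppT _ (by rw [map_smul_left, map_smul_right, hz, mul_zero, mul_zero]) (by rw [map_smul_right, inv_mul_cancel₀ hvz]) _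
      (by rw [map_mul, hq.norm_fixed, ← add_mul, hc, zero_mul])
  -- all transvections
  have hall : ∀ u : V, B u u = 0 → ∀ c, c + σ c = 0 → α (T h u c) = T h u c := by
    intro u huu c hc
    by_cases hu0 : u = 0
    · have : T h u c = 1 := by
        rw [T, show tv h u c = 1 from K_ext (fun x => by rw [tv_apply h huu hc, hu0, smul_zero, add_zero, one_apply'])]
        rfl
      rw [this, map_one]
    by_cases hvu : B v u = 0
    · obtain ⟨z, hz, hvz, hzu⟩ : ∃ z : V, B z z = 0 ∧ B v z ≠ 0 ∧ B z u ≠ 0 := by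
        by_cases hfu : B f u = 0
        · have hW' := hpp_hform hq h D.hv0 D.hf0 D.hf
          have huW : u ∈ hpp B v f := mem_hpp.2 ⟨hvu, hfu⟩
          obtain ⟨w, hw⟩ : ∃ w : hpp B v f, B w.1 u ≠ 0 := by
            by_contra! hcon
            exact hu0 (congrArg Subtype.val (hW'.nd ⟨u, huW⟩ (fun y => comm0 h (hcon y))))
          obtain ⟨g, hg⟩ := exists_cc hq h w.1
          have hw' := mem_hpp.1 w.2
          refine ⟨f + w.1 + g • v, ?_, ?_, ?_⟩
          · rw [← si_f h D.hv0 D.hf w.2 hg, pres, D.hf0]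
          · rw [map_add_right, map_add_right, map_smul_right, D.hf, hw'.1, D.hv0, mul_zero, add_zero, add_zero]
            exact one_ne_zero
          · rw [map_add_left, map_add_left, map_smul_left, hfu, hvu, mul_zero, add_zero, zero_add]
            exact hw
        · exact ⟨f, D.hf0, by rw [D.hf]; exact one_ne_zero, hfu⟩
      obtain ⟨t, ht0, ht⟩ := hq.exists_trace_ne_zero (map_zero σ)
      have h1 := conj_T h (tv h z t) huu hc
      have h2 : α (T h ((tv h z t).1 u) c) = T h ((tv h z t).1 u) c := by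
        apply hoppT' _ (by rw [pres, huu]) _ c hc
        rw [tv_apply h hz ht, map_add_right, map_smul_right, hvu, zero_add]
        exact mul_ne_zero (mul_ne_zero ht0 hzu) hvz
      have h3 : α (QuotientGroup.mk (tv h z t)) = QuotientGroup.mk (tv h z t) := hoppT' z hz hvz t ht
      rw [← h1, map_mul, map_mul, map_inv, h3] at h2
      exact mul_left_cancel (mul_right_cancel h2)
    · exact hoppT' u huu hvu c hc
  -- conclusion
  have hTG : TG B = SUL B := TG_eq hq h (Or.inr hdim)
  let S : Subgroup (SUL B) := 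
    { carrier := {g | α (QuotientGroup.mk g) = QuotientGroup.mk g}
      one_mem' := map_one α
      mul_mem' := by
        intro a b ha hb
        change α (QuotientGroup.mk a * QuotientGroup.mk b) = _
        rw [map_mul, ha, hb]
        rfl
      inv_mem' := by
        intro a ha
        change α (QuotientGroup.mk a)⁻¹ = _
        rw [map_inv, ha]
        rfl }
  have hS : ∀ g : SUL B, g ∈ S := by
    have h1 : TG B ≤ S.map (SUL B).subtype := by
      rw [TG, Subgroup.closure_le]
      rintro g ⟨u, c, hu, hc, hg⟩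
      refine ⟨tv h u c, hall u hu c hc, ?_⟩
      apply LinearEquiv.ext
      intro x
      rw [hg]
      exact tv_apply h hu hc x
    intro g
    have h2 : g.1 ∈ TG B := by rw [hTG]; exact g.2
    obtain ⟨g', hg', hgg⟩ := h1 h2
    rwa [← Subtype.ext hgg]
  apply MulEquiv.ext
  intro z
  obtain ⟨g, rfl⟩ := QuotientGroup.mk_surjective z
  exact hS g

end CfsgLib.AutPSU
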