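import Cfsg.Agent.Lib.AutPSU8

/-!
# Automorphisms of `PSU`, part 9: semilinear isometries and the main theorem.
-/

set_option autoImplicit false
set_option linter.unusedSimpArgs false
set_option linter.unusedSectionVars false
set_option linter.unusedVariables false

namespace CfsgLib.AutPSU

open Module CfsgLib.Herm

variable {F V : Type*} [Field F] [AddCommGroup V] [Module F V] [FiniteDimensional F V]
  {σ : F →+* F} {q : ℕ} {B : V →ₛₗ[σ] V →ₗ[F] F}

/-- semilinear isometries -/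
structure SI (B : V →ₛₗ[σ] V →ₗ[F] F) (φ : F →+* F) (g : V ≃+ V) : Prop where
  smul : ∀ (a : F) x, g (a • x) = φ a • g x
  form : ∀ x y, B (g x) (g y) = φ (B x y)

theorem SI.tv (hq : QConj σ q) (h : HForm B) {φ : F →+* F} {g : V ≃+ V} (hg : SI B φ g) {u : V} {c : F} (hu : B u u = 0) (hc : c + σ c = 0) (x : V) :
    (tv h (g u) (φ c)).1 (g x) = g ((tv h u c).1 x) := by
  rw [tv_apply h hu hc, tv_apply h (by rw [hg.form, hu, map_zero]) (by rw [← map_sigma hq, ← map_add, hc, map_zero]), map_add,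
    hg.smul, hg.form, map_mul]

theorem SI.si (hq : QConj σ q) (h : HForm B) {φ : F →+* F} {g : V ≃+ V} (hg : SI B φ g) {u y : V} {c : F} (hu : B u u = 0) (hy : B u y = 0)
    (hc : c + σ c + B y y = 0) (x : V) :
    (si h (g u) (g y) (φ c)).1 (g x) = g ((si h u y c).1 x) := by
  rw [si_apply h hu hy hc, si_apply h (by rw [hg.form, hu, map_zero]) (by rw [hg.form, hy, map_zero])
    (by rw [← map_sigma hq, hg.form, ← map_add, ← map_add, hc, map_zero]), map_add, map_add, hg.smul, hg.smul, hg.form, hg.form, map_sub, map_mul]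

theorem SI.exists_conj (hq : QConj σ q) (h : HForm B) (hdim : (finrank F V = 3 ∧ 3 ≤ q) ∨ 4 ≤ finrank F V)
    {φ : F →+* F} {g : V ≃+ V} (hg : SI B φ g) (k : SUL B) : ∃ k' : SUL B, ∀ x, k'.1 (g x) = g (k.1 x) := by
  have hTG : TG B = SUL B := TG_eq hq h (Or.inr hdim)
  let S : Subgroup (SUL B) := 
    { carrier := {k | ∃ k' : SUL B, ∀ x, k'.1 (g x) = g (k.1 x)}
      one_mem' := ⟨1, fun x => rfl⟩
      mul_mem' := by
        rintro a b ⟨a', ha⟩ ⟨b', hb⟩
        exact ⟨a' * b', fun x => by rw [mul_apply', mul_apply', hb, ha]⟩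
      inv_mem' := by
        rintro a ⟨a', ha⟩
        refine ⟨a'⁻¹, fun x => ?_⟩
        apply a'.1.injective
        rw [apply_inv', ha, apply_inv'] }
  have h1 : TG B ≤ S.map (SUL B).subtype := by
    rw [TG, Subgroup.closure_le]
    rintro k ⟨u, c, hu, hc, hk⟩
    refine ⟨AutPSU.tv h u c, ⟨AutPSU.tv h (g u) (φ c), hg.tv hq h hu hc⟩, ?_⟩
    apply LinearEquiv.ext
    intro x
    rw [hk]
    exact tv_apply h hu hc x
  have h2 : k.1 ∈ TG B := by rw [hTG]; exact k.2
  obtain ⟨k', hk', hkk⟩ := h1 h2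
  rwa [← Subtype.ext hkk]

theorem SI.exists_beta (hq : QConj σ q) (h : HForm B) (hdim : (finrank F V = 3 ∧ 3 ≤ q) ∨ 4 ≤ finrank F V)
    {φ : F →+* F} {g : V ≃+ V} (hg : SI B φ g) : ∃ β : MulAut (SUL B ⧸ Subgroup.center (SUL B)),
      ∀ k k' : SUL B, (∀ x, k'.1 (g x) = g (k.1 x)) → β (QuotientGroup.mk k) = QuotientGroup.mk k' := by
  have hfin := hq.finite
  have hfinK : Finite (SUL B) := finite_K hq
  choose c hc using hg.exists_conj hq h hdim
  have huniq : ∀ k k' k'' : SUL B, (∀ x, k'.1 (g x) = g (k.1 x)) → (∀ x, k''.1 (g x) = g (k.1 x)) → k' = k'' := by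
    intro k k' k'' h1 h2
    apply K_ext
    intro x
    obtain ⟨x, rfl⟩ := g.surjective x
    rw [h1, h2]
  let C : SUL B →* SUL B := MonoidHom.mk' c (fun a b => huniq (a * b) _ _ (hc _) (fun x => by
    rw [mul_apply', hc, hc, mul_apply']))
  have hCinj : Function.Injective C := by
    rw [injective_iff_map_eq_one]
    intro k hk
    apply K_ext
    intro x
    apply g.injective
    rw [← hc k x]
    change (C k).1 (g x) = _
    rw [hk]
    rfl
  have hCbij : Function.Bijective C := Finite.injective_iff_bijective.1 hCinj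
  let C' : MulAut (SUL B) := MulEquiv.ofBijective C hCbij
  have hC' : ∀ k, C' k = c k := fun k => rfl
  refine ⟨QuotientGroup.congr (Subgroup.center (SUL B)) (Subgroup.center (SUL B)) C' ?_, ?_⟩
  · exact Subgroup.characteristic_iff_map_eq.1 inferInstance C'
  · intro k k' hkk'
    change QuotientGroup.mk (C' k) = _
    rw [hC', huniq k _ _ (hc k) hkk']

variable {h : HForm B} {v f : V} {α : MulAut (SUL B ⧸ Subgroup.center (SUL B))} {A : hpp B v f →+ hpp B v f}

theorem Dat.exists_g (D : Dat h v f α A) (hq : QConj σ q) {φ : F →+* F} (hφ : ∀ (a : F) (w : hpp B v f), A (a • w) = φ a • A w)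
    {r κ : F} (hr0 : r ≠ 0) (hr : ∀ w w' : hpp B v f, B (A w).1 (A w').1 = r * φ (B w.1 w'.1)) (hκ0 : κ ≠ 0) (hκ : κ * σ κ = r) :
    ∃ g : V ≃+ V, SI B φ g ∧ g v = κ • v ∧ g f = (σ κ)⁻¹ • f ∧ ∀ w : hpp B v f, g w.1 = (σ κ)⁻¹ • (A w).1 := by
  have hfin := hq.finite
  have hfinV : Finite V := Module.finite_of_finite F
  have hfv : B f v = 1 := by rw [← h.symm, D.hf, map_one]
  have hσκ : σ κ ≠ 0 := (map_ne_zero σ).2 hκ0
  obtain ⟨pr, hpr⟩ : ∃ pr : V → hpp B v f, ∀ x, (pr x).1 = x - B f x • v - B v x • f :=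
    ⟨fun x => ⟨_, hpp_decomp h D.hv0 D.hf0 D.hf x⟩, fun x => rfl⟩
  have hpradd : ∀ x y, pr (x + y) = pr x + pr y := by
    intro x y
    apply Subtype.ext
    rw [Submodule.coe_add, hpr, hpr, hpr, map_add_right, map_add_right]
    module
  have hprsmul : ∀ (a : F) x, pr (a • x) = a • pr x := by
    intro a x
    apply Subtype.ext
    rw [Submodule.coe_smul, hpr, hpr, map_smul_right, map_smul_right]
    module
  let G : V →+ V := AddMonoidHom.mk' (fun x => (φ (B f x) * κ) • v + (φ (B v x) * (σ κ)⁻¹) • f + (σ κ)⁻¹ • (A (pr x)).1) (by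
    intro x y
    simp only [map_add_right, map_add, hpradd, Submodule.coe_add]
    module)
  have hG : ∀ x, G x = (φ (B f x) * κ) • v + (φ (B v x) * (σ κ)⁻¹) • f + (σ κ)⁻¹ • (A (pr x)).1 := fun x => rfl
  have hform : ∀ x y, B (G x) (G y) = φ (B x y) := by
    intro x y
    have h1 : B x y = σ (B f x) * B v y + σ (B v x) * B f y + B (pr x).1 (pr y).1 := by
      rw [hpr, hpr]
      simp only [map_sub_left, map_sub_right, map_smul_left, map_smul_right, D.hf0, D.hv0, D.hf, hfv]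
      rw [h.symm f x, h.symm v x]
      ring
    have hx := mem_hpp.1 (A (pr x)).2
    have hy := mem_hpp.1 (A (pr y)).2
    rw [hG, hG, h1]
    simp only [map_add_left, map_add_right, map_smul_left, map_smul_right, D.hf0, D.hv0, D.hf, hfv, hx.1, hx.2, hy.1, hy.2,
      comm0 h hx.1, comm0 h hx.2, mul_zero, add_zero, zero_add, mul_one]
    rw [hr, ← hκ, map_mul σ, map_mul σ, map_inv₀, hq.invol, map_add, map_add, map_mul φ, map_mul φ, map_sigma hq, map_sigma hq]
    field_simp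
    ring
  have hinj : Function.Injective G := by
    rw [injective_iff_map_eq_zero]
    intro x hx
    apply h.nd
    intro y
    apply φ.injective
    rw [← hform, hx, map_zero_left, map_zero]
  have hbij : Function.Bijective G := Finite.injective_iff_bijective.1 hinj
  refine ⟨AddEquiv.ofBijective G hbij, ⟨?_, hform⟩, ?_, ?_, ?_⟩
  · intro a x
    change G _ = φ a • G x
    rw [hG, hG, map_smul_right, map_smul_right, hprsmul, hφ, map_mul, map_mul, Submodule.coe_smul]
    module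
  · change G v = _
    have h1 : pr v = 0 := by
      apply Subtype.ext
      rw [hpr, hfv, D.hv0, one_smul, zero_smul, sub_self, sub_zero]
      rfl
    rw [hG, hfv, D.hv0, h1, map_zero, map_zero, map_one, Submodule.coe_zero]
    module
  · change G f = _
    have h1 : pr f = 0 := by
      apply Subtype.ext
      rw [hpr, D.hf, D.hf0, one_smul, zero_smul, sub_zero, sub_self]
      rfl
    rw [hG, D.hf, D.hf0, h1, map_zero, map_zero, map_one, Submodule.coe_zero]
    module
  · intro w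
    change G w.1 = _
    have hw := mem_hpp.1 w.2
    have h1 : pr w.1 = w := by
      apply Subtype.ext
      rw [hpr, hw.1, hw.2]
      module
    rw [hG, hw.1, hw.2, h1, map_zero]
    module

/-- the automorphism is induced by a semilinear isometry -/
theorem Dat.main (p : ℕ) [Fact p.Prime] [CharP F p] (D : Dat h v f α A) (hq : QConj σ q)
    (hdim : (finrank F V = 3 ∧ 3 ≤ q) ∨ 4 ≤ finrank F V) :
    ∃ (φ : F →+* F) (g : V ≃+ V), SI B φ g ∧ ∀ k k' : SUL B, (∀ x, k'.1 (g x) = g (k.1 x)) →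
      α (QuotientGroup.mk k) = QuotientGroup.mk k' := by
  have hfin := hq.finite
  have hfinV : Finite V := Module.finite_of_finite F
  obtain ⟨φ, hφ⟩ := D.semilin p hq hdim
  obtain ⟨r, hr0, hrσ, hr, hT⟩ := D.form p hq hφ
  obtain ⟨κ, hκ0, hκ⟩ := hq.exists_norm_ne hrσ hr0
  obtain ⟨g, hg, hgv, hgf, hgw⟩ := D.exists_g hq hφ hr0 hr hκ0 hκ
  obtain ⟨β, hβ⟩ := hg.exists_beta hq h hdim
  have hσκ : σ κ ≠ 0 := (map_ne_zero σ).2 hκ0
  have hφs : Function.Surjective φ := (Finite.injective_iff_surjective.1 φ.injective)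
  refine ⟨φ, g, hg, ?_⟩
  -- the action of `β`
  have hβT : ∀ u c, B u u = 0 → c + σ c = 0 → β (T h u c) = T h (g u) (φ c) := by
    intro u c hu hc
    exact hβ _ _ (hg.tv hq h hu hc)
  have hβsi : ∀ (w : hpp B v f) c, c + σ c + B w.1 w.1 = 0 → β (QuotientGroup.mk (AutPSU.si h v w.1 c)) =
      QuotientGroup.mk (AutPSU.si h v (A w).1 (r * φ c)) := by
    intro w c hc
    have hAw := mem_hpp.1 (A w).2
    have h0 : φ c + σ (φ c) + B ((σ κ)⁻¹ • (A w).1) ((σ κ)⁻¹ • (A w).1) = 0 := by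
      rw [map_smul_left, map_smul_right, map_inv₀, hq.invol, hr, ← hκ, ← map_sigma hq]
      have e1 : κ⁻¹ * ((σ κ)⁻¹ * (κ * σ κ * φ (B w.1 w.1))) = φ (B w.1 w.1) := by field_simp
      rw [e1, ← map_add, ← map_add, hc, map_zero]
    rw [hβ _ _ (hg.si hq h D.hv0 (mem_hpp.1 w.2).1 hc), hgv, hgw,
      (si_smul hq h D.hv0 (by rw [map_smul_right, hAw.1, mul_zero]) h0).resolve_right hκ0, smul_smul, mul_inv_cancel₀ hσκ, one_smul,
      hκ, mul_comm r]
  -- the corrected automorphism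
  have hβi : ∀ x y, (β⁻¹ * α) x = y ↔ α x = β y := by
    intro x y
    rw [MulAut.mul_apply]
    constructor
    · intro h1
      rw [← h1, MulAut.apply_inv_self]
    · intro h1
      rw [h1, MulAut.inv_apply_self]
  have hβTT : ∀ (u : V), B u u = 0 → ∀ z, β z ∈ TT h (g u) ↔ z ∈ TT h u := by
    intro u hu z
    constructor
    · rintro ⟨c, hc, hc'⟩
      obtain ⟨c, rfl⟩ := hφs c
      have hc1 : c + σ c = 0 := by
        apply φ.injective
        rw [map_add, map_sigma hq, hc, map_zero]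
      rw [← hβT u c hu hc1] at hc'
      exact ⟨c, hc1, β.injective hc'⟩
    · rintro ⟨c, hc, rfl⟩
      exact ⟨φ c, by rw [← map_sigma hq, ← map_add, hc, map_zero], hβT u c hu hc⟩
  have hD' : Dat h v f (β⁻¹ * α) (AddMonoidHom.id _) := by
    refine ⟨D.hV, D.hv, D.hv0, D.hf', D.hf0, D.hf, ?_, ?_, Function.injective_id, ?_⟩
    · intro z
      rw [← D.hα z]
      have h1 := hβTT v D.hv0 ((β⁻¹ * α) z)
      rw [hgv, TT_smul hq h D.hv0 hκ0, MulAut.mul_apply, MulAut.apply_inv_self] at h1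
      exact h1.symm
    · intro z
      rw [← D.hαf z]
      have h1 := hβTT f D.hf0 ((β⁻¹ * α) z)
      rw [hgf, TT_smul hq h D.hf0 (inv_ne_zero hσκ), MulAut.mul_apply, MulAut.apply_inv_self] at h1
      exact h1.symm
    · intro w c hc
      obtain ⟨c', hc', hcc⟩ := D.hA w c hc
      obtain ⟨d, hd⟩ := hφs (r⁻¹ * c')
      have hd1 : c' = r * φ d := by rw [hd, mul_inv_cancel_left₀ hr0]
      have hd2 : d + σ d + B w.1 w.1 = 0 := by
        apply φ.injective
        have h1 := hc'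
        rw [hr, hd1, map_mul σ, hrσ, ← mul_add, ← mul_add] at h1
        rw [map_add, map_add, map_sigma hq, map_zero]
        exact (mul_eq_zero.1 h1).resolve_left hr0
      refine ⟨d, hd2, ?_⟩
      rw [hβi, hcc, AddMonoidHom.id_apply, hβsi w d hd2, hd1]
  have h1 := rigid p hq hD' hdim (by
    intro t ht
    rw [hβi, hT t ht, hβT v t D.hv0 ht, hgv, T_smul hq h D.hv0 (by rw [← map_sigma hq, ← map_add, ht, map_zero]), hκ, mul_comm r])
  have h2 : α = β := by
    rw [inv_mul_eq_one] at h1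
    exact h1.symm
  intro k k' hkk'
  rw [h2]
  exact hβ k k' hkk'

/-- every automorphism of `PSU` is induced by a semilinear isometry -/
theorem main (p : ℕ) [Fact p.Prime] [CharP F p] (hq : QConj σ q) (h : HForm B)
    (hdim : (finrank F V = 3 ∧ 3 ≤ q) ∨ 4 ≤ finrank F V) (α : MulAut (SUL B ⧸ Subgroup.center (SUL B))) :
    ∃ (φ : F →+* F) (g : V ≃+ V), SI B φ g ∧ ∀ k k' : SUL B, (∀ x, k'.1 (g x) = g (k.1 x)) →
      α (QuotientGroup.mk k) = QuotientGroup.mk k' := by
  have hfin := hq.finite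
  have hfinV : Finite V := Module.finite_of_finite F
  have hV : 3 ≤ finrank F V := by omega
  obtain ⟨v, hv, hv0⟩ := h.exists_isotropic hq (by omega)
  obtain ⟨f, hf0, hf⟩ := h.exists_partner hq hv hv0
  have hf' : f ≠ 0 := by
    rintro rfl
    rw [map_zero] at hf
    exact zero_ne_one hf
  obtain ⟨v1, hv1, hv10, hαv⟩ := exists_point p hq h hV α hv hv0
  obtain ⟨f1, hf1, hf10, hαf⟩ := exists_point p hq h hV α hf' hf0
  obtain ⟨t, ht0, ht⟩ := hq.exists_trace_ne_zero (map_zero σ)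
  have hne : B v1 f1 ≠ 0 := by
    intro h0
    obtain ⟨c, hc, hcc⟩ := (hαv (T h v t)).2 ⟨t, ht, rfl⟩
    obtain ⟨d, hd, hdd⟩ := (hαf (T h f t)).2 ⟨t, ht, rfl⟩
    have hc0 : c ≠ 0 := by
      rintro rfl
      rw [T_zero, map_eq_one_iff α α.injective] at hcc
      exact T_ne_one h hq hV hv0 hv ht ht0 hcc
    have hd0 : d ≠ 0 := by
      rintro rfl
      rw [T_zero, map_eq_one_iff α α.injective] at hdd
      exact T_ne_one h hq hV hf0 hf' ht ht0 hdd
    have h1 := (T_comm h hq hV hv10 hf10 hf1 hc hc0 hd hd0).2 h0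
    rw [← hcc, ← hdd, ← map_mul, ← map_mul] at h1
    have h2 := (T_comm h hq hV hv0 hf0 hf' ht ht0 ht ht0).1 (α.injective h1)
    rw [hf] at h2
    exact one_ne_zero h2
  obtain ⟨s, hs, hsv, hsf⟩ := exists_SUL_pair hq h hV (e := v1) (f := (B v1 f1)⁻¹ • f1) (e' := v) (f' := f) hv10
    (by rw [map_smul_left, map_smul_right, hf10, mul_zero, mul_zero]) (by rw [map_smul_right, inv_mul_cancel₀ hne]) hv0 hf0 hf
  let S : SUL B := ⟨s, hs⟩
  have hSv : S.1 v1 = v := hsv
  have hSf : S.1 ((B v1 f1)⁻¹ • f1) = f := hsf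
  have hαv' : ∀ z, (MulAut.conj (QuotientGroup.mk S : SUL B ⧸ Subgroup.center (SUL B)) * α) z ∈ TT h v ↔ z ∈ TT h v := by
    intro z
    rw [MulAut.mul_apply, MulAut.conj_apply, ← hαv z]
    nth_rewrite 1 [← hSv]
    exact conj_TT h hv10 S (α z)
  have hαf' : ∀ z, (MulAut.conj (QuotientGroup.mk S : SUL B ⧸ Subgroup.center (SUL B)) * α) z ∈ TT h f ↔ z ∈ TT h f := by
    intro z
    rw [MulAut.mul_apply, MulAut.conj_apply, ← hαf z]
    nth_rewrite 1 [← hSf]
    rw [conj_TT h (by rw [map_smul_left, map_smul_right, hf10, mul_zero, mul_zero]), TT_smul hq h hf10 (inv_ne_zero hne)]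
  obtain ⟨A, hAinj, hA⟩ := exists_A p hq h hV hv hv0 hf0 hf _ hαv'
  have D : Dat h v f (MulAut.conj (QuotientGroup.mk S) * α) A := ⟨hV, hv, hv0, hf', hf0, hf, hαv', hαf', hAinj, hA⟩
  obtain ⟨φ, g, hg, hmain⟩ := D.main p hq hdim
  have hg2 : SI B φ (g.trans (S⁻¹).1.toAddEquiv) := by
    constructor
    · intro a x
      change (S⁻¹).1 (g (a • x)) = φ a • (S⁻¹).1 (g x)
      rw [hg.smul, map_smul]
    · intro x y
      change B ((S⁻¹).1 (g x)) ((S⁻¹).1 (g y)) = _
      rw [pres, hg.form]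
  refine ⟨φ, _, hg2, ?_⟩
  intro k k' hkk'
  have h1 := hmain k (S * k' * S⁻¹) (by
    intro x
    have h2 := hkk' x
    change k'.1 ((S⁻¹).1 (g x)) = (S⁻¹).1 (g (k.1 x)) at h2
    rw [mul_apply', mul_apply', h2, apply_inv'])
  rw [MulAut.mul_apply, MulAut.conj_apply] at h1
  have h2 : (QuotientGroup.mk (S * k' * S⁻¹) : SUL B ⧸ Subgroup.center (SUL B)) =
    QuotientGroup.mk S * QuotientGroup.mk k' * (QuotientGroup.mk S)⁻¹ := rfl
  rw [h2] at h1
  exact mul_left_cancel (mul_right_cancel h1)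

end CfsgLib.AutPSU
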