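import Cfsg.Agent.Lib.AutPSL4

/-!
# The fundamental theorem of projective geometry
-/

set_option autoImplicit false

namespace CfsgLib.FTPG

open Module

variable {F V : Type*} [Field F] [AddCommGroup V] [Module F V]

/-- collinear: `u` is in the span of `v` and `w` -/
def Col (F : Type*) {V : Type*} [Field F] [AddCommGroup V] [Module F V] (u v w : V) : Prop :=
  ∃ a b : F, u = a • v + b • w

theorem Col.self {u v : V} : Col F u v v ↔ ∃ a : F, u = a • v := by
  constructor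
  · rintro ⟨a, b, h⟩
    exact ⟨a + b, by rw [h, add_smul]⟩
  · rintro ⟨a, h⟩
    exact ⟨a, 0, by rw [h, zero_smul, add_zero]⟩

/-- a map on nonzero vectors preserving collinearity in both directions -/
structure Coll (F : Type*) {V : Type*} [Field F] [AddCommGroup V] [Module F V] (f : V → V) : Prop where
  ne_zero : ∀ v, v ≠ 0 → f v ≠ 0
  col : ∀ u v w, u ≠ 0 → v ≠ 0 → w ≠ 0 → (Col F (f u) (f v) (f w) ↔ Col F u v w)

namespace Coll

variable {f : V → V} (hf : Coll F f)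

include hf

theorem par {u v : V} (hu : u ≠ 0) (hv : v ≠ 0) : (∃ a : F, f u = a • f v) ↔ ∃ a : F, u = a • v := by
  rw [← Col.self, ← Col.self]
  exact hf.col u v v hu hv hv

/-- the relation defining the additive map -/
theorem exists_h {φ : V →ₗ[F] F} {v0 : V} (hφ : φ v0 = 1) (w : V) (hw : φ w = 0) :
    ∃ x : V, (∃ a : F, x = a • f w) ∧ (w ≠ 0 → x ≠ 0) ∧ (w = 0 → x = 0) ∧ ∃ c : F, c ≠ 0 ∧ f v0 + x = c • f (v0 + w) := by
  have hv0 : v0 ≠ 0 := by
    rintro rfl
    rw [map_zero] at hφ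
    exact zero_ne_one hφ
  rcases eq_or_ne w 0 with h | h
  · subst h
    refine ⟨0, ⟨0, by rw [zero_smul]⟩, fun h => absurd rfl h, fun _ => rfl, 1, one_ne_zero, ?_⟩
    rw [add_zero, add_zero, one_smul]
  · have hvw : v0 + w ≠ 0 := by
      intro h1
      have := congrArg φ h1
      rw [map_add, hφ, hw, add_zero, map_zero] at this
      exact one_ne_zero this
    obtain ⟨a, b, hab⟩ := (hf.col (v0 + w) v0 w hvw hv0 h).2 ⟨1, 1, by rw [one_smul, one_smul]⟩
    have ha : a ≠ 0 := by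
      rintro rfl
      obtain ⟨c, hc⟩ := (hf.par hvw h).1 ⟨b, by rw [hab, zero_smul, zero_add]⟩
      have := congrArg φ hc
      rw [map_add, hφ, hw, add_zero, map_smul, hw, smul_zero] at this
      exact one_ne_zero this
    have hb : b ≠ 0 := by
      rintro rfl
      obtain ⟨c, hc⟩ := (hf.par hvw hv0).1 ⟨a, by rw [hab, zero_smul, add_zero]⟩
      have := congrArg φ hc
      rw [map_add, hφ, hw, add_zero, map_smul, hφ, smul_eq_mul, mul_one] at this
      rw [← this, one_smul] at hc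
      exact h (by rwa [add_eq_left] at hc)
    refine ⟨(a⁻¹ * b) • f w, ⟨_, rfl⟩, fun _ => ?_, fun h0 => absurd h0 h, a⁻¹, inv_ne_zero ha, ?_⟩
    · exact smul_ne_zero (mul_ne_zero (inv_ne_zero ha) hb) (hf.ne_zero w h)
    · rw [hab, smul_add, smul_smul, smul_smul, inv_mul_cancel₀ ha, one_smul]

theorem ftpg (h3 : 3 ≤ finrank F V) :
    ∃ (σ : F →+* F) (h : V →+ V), (∀ (c : F) (v : V), h (c • v) = σ c • h v) ∧
      ∀ v, v ≠ 0 → ∃ c : F, c ≠ 0 ∧ h v = c • f v := by
  classical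
  have : FiniteDimensional F V := by
    apply FiniteDimensional.of_finrank_pos
    omega
  have : Nontrivial V := by
    apply Module.nontrivial_of_finrank_pos (R := F)
    omega
  obtain ⟨v0, hv0⟩ := exists_ne (0 : V)
  obtain ⟨φ, hφ⟩ : ∃ φ : V →ₗ[F] F, φ v0 = 1 := by
    obtain ⟨φ, hφ⟩ := (LinearMap.toSpanSingleton F V v0).exists_leftInverse_of_injective
      (LinearMap.ker_eq_bot.2 (fun a b hab => by
        rw [LinearMap.toSpanSingleton_apply, LinearMap.toSpanSingleton_apply] at hab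
        exact smul_left_injective F hv0 hab))
    refine ⟨φ, ?_⟩
    have := LinearMap.congr_fun hφ 1
    rwa [LinearMap.comp_apply, LinearMap.toSpanSingleton_apply, one_smul, LinearMap.id_apply] at this
  have hmem : ∀ w : LinearMap.ker φ, φ w = 0 := fun w => LinearMap.mem_ker.1 w.2
  choose h ha hne hz c hc0 hc using fun w : LinearMap.ker φ => hf.exists_h hφ (w : V) (hmem w)
  have hk : 2 ≤ finrank F (LinearMap.ker φ) := by
    have h1 := LinearMap.finrank_range_add_finrank_ker φ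
    have h2 : finrank F (LinearMap.range φ) ≤ 1 := by
      have := Submodule.finrank_le (LinearMap.range φ)
      rwa [Module.finrank_self] at this
    omega
  have hex : ∀ w : LinearMap.ker φ, w ≠ 0 → ∃ w' : LinearMap.ker φ, w' ≠ 0 ∧ ∀ a : F, w' ≠ a • w := by
    intro w hw
    obtain ⟨w', hw'⟩ := exists_linearIndependent_pair_of_one_lt_finrank (R := F) (by omega : 1 < finrank F (LinearMap.ker φ)) hw
    rw [LinearIndependent.pair_iff' hw] at hw'
    refine ⟨w', ?_, fun a ha => hw' a ha.symm⟩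
    rintro rfl
    exact hw' 0 (zero_smul _ _)
  have hpar' : ∀ w w' : LinearMap.ker φ, w ≠ 0 → w' ≠ 0 → (∃ a : F, h w' = a • h w) → ∃ a : F, w' = a • w := by
    intro w w' hw hw' ⟨a, haa⟩
    have hw0 : (w : V) ≠ 0 := fun h => hw (Subtype.ext h)
    have hw'0 : (w' : V) ≠ 0 := fun h => hw' (Subtype.ext h)
    obtain ⟨b, hb⟩ := ha w
    obtain ⟨b', hb'⟩ := ha w'
    have hb0 : b' ≠ 0 := by
      rintro rfl
      exact hne w' hw'0 (by rw [hb', zero_smul])
    obtain ⟨d, hd⟩ := (hf.par hw'0 hw0).1 ⟨b'⁻¹ * a * b, by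
      rw [mul_assoc, mul_smul, mul_smul, ← hb, ← haa, hb', smul_smul, inv_mul_cancel₀ hb0, one_smul]⟩
    exact ⟨d, Subtype.ext hd⟩
  have hpar : ∀ w w' : LinearMap.ker φ, w ≠ 0 → (∃ a : F, w' = a • w) → ∃ a : F, h w' = a • h w := by
    intro w w' hw ⟨a, haa⟩
    have hw0 : (w : V) ≠ 0 := fun h => hw (Subtype.ext h)
    by_cases hw' : w' = 0
    · exact ⟨0, by rw [zero_smul, hz w' (by rw [hw']; rfl)]⟩
    have hw'0 : (w' : V) ≠ 0 := fun h => hw' (Subtype.ext h)
    obtain ⟨b, hb⟩ := ha w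
    obtain ⟨b', hb'⟩ := ha w'
    have hb0 : b ≠ 0 := by
      rintro rfl
      exact hne w hw0 (by rw [hb, zero_smul])
    obtain ⟨d, hd⟩ := (hf.par hw'0 hw0).2 ⟨a, by rw [haa]; rfl⟩
    refine ⟨b' * d * b⁻¹, ?_⟩
    rw [hb', hd, hb, smul_smul, smul_smul, mul_assoc, mul_assoc, inv_mul_cancel₀ hb0, mul_one]
  have hvw : ∀ w : LinearMap.ker φ, v0 + (w : V) ≠ 0 := by
    intro w h1
    have := congrArg φ h1
    rw [map_add, hφ, hmem, add_zero, map_zero] at this
    exact one_ne_zero this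
  -- independence
  have hindep : ∀ w1 w2 : LinearMap.ker φ, w1 ≠ 0 → w2 ≠ 0 → (∀ a : F, w2 ≠ a • w1) → ∀ a b d : F,
      a • f v0 + b • h w1 + d • h w2 = 0 → a = 0 ∧ b = 0 ∧ d = 0 := by
    intro w1 w2 hw1 hw2 hw12 a b d habd
    have hw10 : (w1 : V) ≠ 0 := fun h => hw1 (Subtype.ext h)
    have hw20 : (w2 : V) ≠ 0 := fun h => hw2 (Subtype.ext h)
    obtain ⟨b1, hb1⟩ := ha w1
    obtain ⟨b2, hb2⟩ := ha w2
    have ha0 : a = 0 := by
      by_contra hne0
      obtain ⟨x, y, hxy⟩ := (hf.col v0 w1 w2 hv0 hw10 hw20).1 ⟨-(a⁻¹ * b * b1), -(a⁻¹ * d * b2), by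
        have h5 : a • f v0 = -(b • h w1) - d • h w2 := by
          rw [← sub_eq_zero, ← habd]
          abel
        have h6 : f v0 = a⁻¹ • (-(b • h w1) - d • h w2) := by
          rw [← h5, smul_smul, inv_mul_cancel₀ hne0, one_smul]
        rw [h6, hb1, hb2]
        module⟩
      have := congrArg φ hxy
      rw [map_add, map_smul, map_smul, hφ, hmem, hmem, smul_zero, smul_zero, add_zero] at this
      exact one_ne_zero this
    rw [ha0, zero_smul, zero_add] at habd
    have hd0 : d = 0 := by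
      by_contra hne0
      obtain ⟨x, hx⟩ := hpar' w1 w2 hw1 hw2 ⟨-(d⁻¹ * b), by
        have h5 : d • h w2 = -(b • h w1) := by
          rw [← sub_eq_zero, ← habd]
          abel
        rw [neg_smul, mul_smul, ← smul_neg, ← h5, smul_smul, inv_mul_cancel₀ hne0, one_smul]⟩
      exact hw12 x hx
    rw [hd0, zero_smul, add_zero] at habd
    refine ⟨ha0, ?_, hd0⟩
    rcases smul_eq_zero.1 habd with h5 | h5
    · exact h5
    · exact absurd h5 (hne w1 hw10)
  -- one coefficient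
  have hone : ∀ w1 w2 : LinearMap.ker φ, w1 ≠ 0 → w2 ≠ 0 → (∀ a : F, w2 ≠ a • w1) →
      ∃ b : F, h (w1 + w2) = h w1 + b • h w2 := by
    intro w1 w2 hw1 hw2 hw12
    have hw10 : (w1 : V) ≠ 0 := fun h => hw1 (Subtype.ext h)
    have hw20 : (w2 : V) ≠ 0 := fun h => hw2 (Subtype.ext h)
    have hs : (w1 + w2 : LinearMap.ker φ) ≠ 0 := by
      intro h0
      apply hw12 (-1)
      rw [neg_smul, one_smul, eq_neg_iff_add_eq_zero, add_comm]
      exact h0
    have hs0 : ((w1 + w2 : LinearMap.ker φ) : V) ≠ 0 := fun h => hs (Subtype.ext h)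
    obtain ⟨b1, hb1⟩ := ha w1
    obtain ⟨b2, hb2⟩ := ha w2
    obtain ⟨b3, hb3⟩ := ha (w1 + w2)
    have hb10 : b1 ≠ 0 := by
      rintro rfl
      exact hne w1 hw10 (by rw [hb1, zero_smul])
    have hb20 : b2 ≠ 0 := by
      rintro rfl
      exact hne w2 hw20 (by rw [hb2, zero_smul])
    obtain ⟨x, y, hxy⟩ := (hf.col (v0 + (w1 + w2 : LinearMap.ker φ)) (v0 + w1) w2 (hvw _) (hvw _) hw20).2
      ⟨1, 1, by rw [one_smul, one_smul, Submodule.coe_add, add_assoc]⟩
    obtain ⟨x', y', hxy'⟩ := (hf.col (w1 + w2 : LinearMap.ker φ) w1 w2 hs0 hw10 hw20).2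
      ⟨1, 1, by rw [one_smul, one_smul, Submodule.coe_add]⟩
    have e1 : h (w1 + w2) = (b3 * x' * b1⁻¹) • h w1 + (b3 * y' * b2⁻¹) • h w2 := by
      rw [hb3, hxy', hb1, hb2, smul_smul, smul_smul, mul_assoc, mul_assoc, mul_assoc, mul_assoc, inv_mul_cancel₀ hb10,
        inv_mul_cancel₀ hb20, mul_one, mul_one, smul_add, smul_smul, smul_smul]
    have e2 : f v0 + h (w1 + w2) = (c (w1 + w2) * x * (c w1)⁻¹) • (f v0 + h w1) + (c (w1 + w2) * y * b2⁻¹) • h w2 := by
      rw [hc, hxy, hc w1, hb2, smul_smul, smul_smul, mul_assoc, mul_assoc, mul_assoc, mul_assoc, inv_mul_cancel₀ (hc0 w1),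
        inv_mul_cancel₀ hb20, mul_one, mul_one, smul_add, smul_smul, smul_smul]
    have e3 := hindep w1 w2 hw1 hw2 hw12 (1 - c (w1 + w2) * x * (c w1)⁻¹)
      ((b3 * x' * b1⁻¹) - (c (w1 + w2) * x * (c w1)⁻¹)) ((b3 * y' * b2⁻¹) - (c (w1 + w2) * y * b2⁻¹)) (by
        rw [e1] at e2
        have e4 := sub_eq_zero.2 e2
        rw [← e4]
        module)
    refine ⟨b3 * y' * b2⁻¹, ?_⟩
    rw [e1, sub_eq_zero.1 e3.2.1, ← sub_eq_zero.1 e3.1, one_smul]
  have hsymm : ∀ w1 w2 : LinearMap.ker φ, w1 ≠ 0 → (∀ a : F, w2 ≠ a • w1) → (∀ a : F, w1 ≠ a • w2) := by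
    intro w1 w2 hw1 h12 a haa
    have ha0 : a ≠ 0 := by
      rintro rfl
      exact hw1 (by rw [haa, zero_smul])
    exact h12 a⁻¹ (by rw [haa, smul_smul, inv_mul_cancel₀ ha0, one_smul])
  have hadd1 : ∀ w1 w2 : LinearMap.ker φ, w1 ≠ 0 → w2 ≠ 0 → (∀ a : F, w2 ≠ a • w1) → h (w1 + w2) = h w1 + h w2 := by
    intro w1 w2 hw1 hw2 hw12
    obtain ⟨b, hb⟩ := hone w1 w2 hw1 hw2 hw12
    obtain ⟨b', hb'⟩ := hone w2 w1 hw2 hw1 (hsymm w1 w2 hw1 hw12)
    have := hindep w1 w2 hw1 hw2 hw12 0 (1 - b') (b - 1) (by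
      rw [add_comm w2 w1, hb] at hb'
      have e4 := sub_eq_zero.2 hb'
      rw [← e4]
      module)
    rw [hb, sub_eq_zero.1 this.2.2, one_smul]
  have h00 : h 0 = 0 := hz 0 rfl
  have hadd : ∀ w1 w2 : LinearMap.ker φ, h (w1 + w2) = h w1 + h w2 := by
    intro w1 w2
    by_cases hw1 : w1 = 0
    · rw [hw1, zero_add, h00, zero_add]
    by_cases hw2 : w2 = 0
    · rw [hw2, add_zero, h00, add_zero]
    by_cases h12 : ∀ a : F, w2 ≠ a • w1
    · exact hadd1 w1 w2 hw1 hw2 h12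
    push Not at h12
    obtain ⟨a, haa⟩ := h12
    obtain ⟨w3, hw3, hw13⟩ := hex w1 hw1
    have e1 : h (w1 + (w2 + w3)) = h w1 + h (w2 + w3) := by
      apply hadd1 w1 _ hw1
      · intro h0
        apply hw13 (-a)
        rw [neg_smul, ← haa, eq_neg_iff_add_eq_zero, add_comm]
        exact h0
      · intro b hb
        apply hw13 (b - a)
        rw [sub_smul, ← haa, ← hb]
        abel
    have ha0 : a ≠ 0 := by
      rintro rfl
      exact hw2 (by rw [haa, zero_smul])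
    have e2 : h (w2 + w3) = h w2 + h w3 := by
      apply hadd1 w2 w3 hw2 hw3
      intro b hb
      apply hw13 (b * a)
      rw [hb, haa, smul_smul]
    have e3 : h (w1 + w2 + w3) = h (w1 + w2) + h w3 := by
      by_cases h0 : w1 + w2 = 0
      · rw [h0, h00, zero_add, zero_add]
      · apply hadd1 _ _ h0 hw3
        intro b hb
        apply hw13 (b * (1 + a))
        rw [hb, haa]
        module
    rw [← add_assoc, e3, e2, ← add_assoc] at e1
    exact add_right_cancel e1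
  obtain ⟨w1, hw1⟩ : ∃ w1 : LinearMap.ker φ, w1 ≠ 0 := by
    have : Nontrivial (LinearMap.ker φ) := by
      apply Module.nontrivial_of_finrank_pos (R := F)
      omega
    exact exists_ne 0
  obtain ⟨w2, hw2, hw12⟩ := hex w1 hw1
  obtain ⟨σ, hσ⟩ := AutPSL.semilinear_of_lines (F := F) (AddMonoidHom.mk' h hadd)
    (fun w hw => hne w (fun h => hw (Subtype.ext h)))
    (fun w a => by
      by_cases hw : w = 0
      · exact ⟨0, by rw [hw, smul_zero, map_zero, smul_zero]⟩
      · exact hpar w (a • w) hw ⟨a, rfl⟩)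
    (fun w w' hw ⟨a, haa⟩ => by
      by_cases hw' : w' = 0
      · exact ⟨0, by rw [hw', zero_smul]⟩
      · exact hpar' w w' hw hw' ⟨a, haa⟩)
    ⟨w1, w2, hw1, hw2, by rintro ⟨a, haa⟩; exact hw12 a haa,
      by rintro ⟨a, haa⟩; exact hsymm w1 w2 hw1 hw12 a haa⟩
  have hσ' : ∀ (a : F) (w : LinearMap.ker φ), h (a • w) = σ a • h w := hσ
  let pr : V → LinearMap.ker φ := fun v => ⟨v - φ v • v0, by
    rw [LinearMap.mem_ker, map_sub, map_smul, hφ, smul_eq_mul, mul_one, sub_self]⟩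
  have hpr : ∀ v, v = φ v • v0 + (pr v : V) := fun v => by
    change v = φ v • v0 + (v - φ v • v0)
    abel
  have hpr_add : ∀ u v, pr (u + v) = pr u + pr v := by
    intro u v
    apply Subtype.ext
    change u + v - φ (u + v) • v0 = (u - φ u • v0) + (v - φ v • v0)
    rw [map_add]
    module
  have hpr_smul : ∀ (a : F) v, pr (a • v) = a • pr v := by
    intro a v
    apply Subtype.ext
    change a • v - φ (a • v) • v0 = a • (v - φ v • v0)
    rw [map_smul, smul_eq_mul]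
    module
  let H : V →+ V := AddMonoidHom.mk' (fun v => σ (φ v) • f v0 + h (pr v)) (by
    intro u v
    change σ (φ (u + v)) • f v0 + h (pr (u + v)) = (σ (φ u) • f v0 + h (pr u)) + (σ (φ v) • f v0 + h (pr v))
    rw [map_add, map_add, hpr_add, hadd]
    module)
  have hH : ∀ v, H v = σ (φ v) • f v0 + h (pr v) := fun v => rfl
  refine ⟨σ, H, ?_, ?_⟩
  · intro a v
    rw [hH, hH, map_smul, hpr_smul, hσ', smul_eq_mul, map_mul, smul_add, smul_smul]
  · intro v hv
    by_cases hv1 : φ v = 0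
    · obtain ⟨a, haa⟩ := ha (pr v)
      have h5 : (pr v : V) = v := by
        rw [hpr v, hv1, zero_smul, zero_add]
        change ((pr ((pr v : V)) : LinearMap.ker φ) : V) = _
        change (pr v : V) - φ (pr v) • v0 = _
        rw [hmem, zero_smul, sub_zero]
      have h6 : h (pr v) ≠ 0 := hne (pr v) (by rw [h5]; exact hv)
      refine ⟨a, ?_, ?_⟩
      · rintro rfl
        exact h6 (by rw [haa, zero_smul])
      · rw [hH, hv1, map_zero, zero_smul, zero_add, haa, h5]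
    · have hv2 : v = φ v • (v0 + (((φ v)⁻¹ • pr v : LinearMap.ker φ) : V)) := by
        rw [smul_add, Submodule.coe_smul, smul_smul, mul_inv_cancel₀ hv1, one_smul]
        exact hpr v
      have h5 : H v = σ (φ v) • (f v0 + h ((φ v)⁻¹ • pr v)) := by
        rw [hH, smul_add, ← hσ', smul_smul, mul_inv_cancel₀ hv1, one_smul]
      have hv3 : v0 + (((φ v)⁻¹ • pr v : LinearMap.ker φ) : V) = (φ v)⁻¹ • v := by
        rw [eq_inv_smul_iff₀ hv1]
        exact hv2.symm
      obtain ⟨d, hd⟩ := (hf.par (hvw ((φ v)⁻¹ • pr v)) hv).2 ⟨(φ v)⁻¹, hv3⟩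
      have hd0 : d ≠ 0 := by
        rintro rfl
        rw [zero_smul] at hd
        exact hf.ne_zero _ (hvw _) hd
      refine ⟨σ (φ v) * c ((φ v)⁻¹ • pr v) * d, ?_, ?_⟩
      · exact mul_ne_zero (mul_ne_zero ((map_ne_zero σ).2 hv1) (hc0 _)) hd0
      · rw [h5, hc, hd, smul_smul, smul_smul]

end Coll

end CfsgLib.FTPG
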