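import Cfsg.Agent.Lib.Symp2
import Cfsg.Agent.Lib.FTPG
import Cfsg.Prelude.Def_LieTypeDatum

/-!
# Automorphisms of `PSp_{2m}(F)`, part 1: transvections in `Sp` and `PSp`.
-/

set_option autoImplicit false
set_option linter.unusedSimpArgs false
set_option linter.unusedSectionVars false

namespace CfsgLib.AutPSp

open Module Matrix Cfsg CfsgLib.Symp

variable {F : Type*} [Field F] {m : ℕ}

local notation "V" => (Fin m ⊕ Fin m → F)
local notation "G" => Matrix.symplecticGroup (Fin m) F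

theorem B_swap (u v : V) : sympB m F u v = - sympB m F v u :=
  (sympB_isAlt.neg_eq v u).symm

theorem B_self (v : V) : sympB m F v v = 0 := sympB_isAlt v

theorem G_pres (g : G) (u v : V) : sympB m F (g.1 *ᵥ u) (g.1 *ᵥ v) = sympB m F u v := by
  rw [sympB_apply, sympB_apply]
  exact (mem_symplecticGroup_iff g.1).1 g.2 u v

theorem G_ext {g h : G} (hgh : ∀ v : V, g.1 *ᵥ v = h.1 *ᵥ v) : g = h :=
  Subtype.ext (mulVec_injective_matrix hgh)

theorem mul_mulVec (g h : G) (v : V) : (g * h).1 *ᵥ v = g.1 *ᵥ (h.1 *ᵥ v) :=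
  (mulVec_mulVec v g.1 h.1).symm

theorem one_mulVec' (v : V) : (1 : G).1 *ᵥ v = v := Matrix.one_mulVec v

theorem inv_mulVec (g : G) (v : V) : (g⁻¹).1 *ᵥ (g.1 *ᵥ v) = v := by
  rw [← mul_mulVec, inv_mul_cancel, one_mulVec']

theorem mulVec_inv (g : G) (v : V) : g.1 *ᵥ ((g⁻¹).1 *ᵥ v) = v := by
  rw [← mul_mulVec, mul_inv_cancel, one_mulVec']

theorem mulVec_inj (g : G) {u v : V} (h : g.1 *ᵥ u = g.1 *ᵥ v) : u = v := by
  rw [← inv_mulVec g u, h, inv_mulVec]

theorem mulVec_ne_zero (g : G) {u : V} (h : u ≠ 0) : g.1 *ᵥ u ≠ 0 := by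
  intro h0
  exact h (mulVec_inj g (by rw [h0, Matrix.mulVec_zero]))

/-- the transvection -/
def tr (v : V) (c : F) : G := ⟨sympTransvection m v c, sympTransvection_mem v c⟩

theorem tr_mulVec (v x : V) (c : F) : (tr v c).1 *ᵥ x = x + (c * sympB m F x v) • v := by
  rw [sympB_apply]
  exact sympTransvection_mulVec v x c

theorem conj_tr (g : G) (v : V) (c : F) : g * tr v c * g⁻¹ = tr (g.1 *ᵥ v) c := by
  apply G_ext
  intro x
  rw [mul_mulVec, mul_mulVec, tr_mulVec, tr_mulVec, Matrix.mulVec_add, Matrix.mulVec_smul, mulVec_inv]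
  have : sympB m F ((g⁻¹).1 *ᵥ x) v = sympB m F x (g.1 *ᵥ v) := by
    rw [← G_pres g, mulVec_inv]
  rw [this]

theorem tr_mul (v : V) (c d : F) : tr v c * tr v d = tr v (c + d) := by
  apply G_ext
  intro x
  rw [mul_mulVec, tr_mulVec, tr_mulVec, tr_mulVec]
  simp only [map_add, map_smul, LinearMap.add_apply, LinearMap.smul_apply, B_self, smul_eq_mul, mul_zero, add_zero]
  module

theorem tr_zero (v : V) : tr v 0 = 1 := by
  apply G_ext
  intro x
  rw [tr_mulVec, zero_mul, zero_smul, add_zero, one_mulVec']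

theorem exists_B_ne {v : V} (hv : v ≠ 0) : ∃ x : V, sympB m F x v = 1 := by
  by_contra! h
  apply hv
  have h2 : ∀ x, sympB m F x v = 0 := by
    intro x
    by_contra h0
    apply h ((sympB m F x v)⁻¹ • x)
    rw [map_smul, LinearMap.smul_apply, smul_eq_mul, inv_mul_cancel₀ h0]
  exact sympB_nondegenerate.2 v h2

/-- minus one -/
theorem neg_one_mem' : (-1 : Matrix (Fin m ⊕ Fin m) (Fin m ⊕ Fin m) F) ∈ Matrix.symplecticGroup (Fin m) F := by
  rw [SymplecticGroup.mem_iff]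
  simp

theorem mem_center_iff (g : G) : g ∈ Subgroup.center G ↔ (∃ a : F, ∀ v : V, g.1 *ᵥ v = a • v) := by
  constructor
  · intro hg
    have h1 : ∀ v : V, ∃ a : F, g.1 *ᵥ v = a • v := by
      intro v
      by_cases hv : v = 0
      · exact ⟨0, by rw [hv, Matrix.mulVec_zero, smul_zero]⟩
      obtain ⟨x, hx⟩ := exists_B_ne hv
      have h2 := Subgroup.mem_center_iff.1 hg (tr v 1)
      have h3 : (tr v 1 * g).1 *ᵥ x = (g * tr v 1).1 *ᵥ x := by rw [h2]
      rw [mul_mulVec, mul_mulVec, tr_mulVec, tr_mulVec, hx, Matrix.mulVec_add, Matrix.mulVec_smul, add_right_inj, one_mul,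
        one_mul, one_smul] at h3
      exact ⟨_, h3.symm⟩
    have h4 := AltForm.eq_smul_of_fix_points (g := ((toIsom m F g : AltForm.isom (sympB m F)) : (Fin m ⊕ Fin m → F) ≃ₗ[F] (Fin m ⊕ Fin m → F))) h1
    exact h4
  · rintro ⟨a, ha⟩
    rw [Subgroup.mem_center_iff]
    intro h
    apply G_ext
    intro v
    rw [mul_mulVec, mul_mulVec, ha, ha, Matrix.mulVec_smul]

theorem scalar_sq {g : G} {a : F} (hm : 1 ≤ m) (h : ∀ v : V, g.1 *ᵥ v = a • v) : a ^ 2 = 1 := by
  have hne : (Pi.single (Sum.inl ⟨0, by omega⟩) 1 : V) ≠ 0 := by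
    intro h0
    have := congrFun h0 (Sum.inl ⟨0, by omega⟩)
    rw [Pi.single_eq_same, Pi.zero_apply] at this
    exact one_ne_zero this
  obtain ⟨x, hx⟩ := exists_B_ne hne
  have h1 := G_pres g x (Pi.single (Sum.inl ⟨0, by omega⟩) 1)
  rw [h, h, map_smul, map_smul, LinearMap.smul_apply, hx, smul_eq_mul, smul_eq_mul, mul_one] at h1
  rw [sq]
  exact h1

end CfsgLib.AutPSp
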