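import Cfsg.Agent.Lib.AutPSp1

/-!
# Automorphisms of `PSp_{2m}(F)`, part 2: the centre of a Sylow `p`-subgroup.
-/

set_option autoImplicit false
set_option linter.unusedSimpArgs false
set_option linter.unusedSectionVars false

namespace CfsgLib.AutPSp

open Module Matrix Cfsg CfsgLib.Symp

variable {F : Type*} [Field F] {m : ℕ}

local notation "V" => (Fin m ⊕ Fin m → F)
local notation "G" => Matrix.symplecticGroup (Fin m) F

/-- the elements of the unipotent radical of the stabilizer of a point -/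
def X (v w : V) (c : F) : G := tr (v + w) 1 * tr v (c - 1) * tr w (-1)

theorem X_mulVec {v w : V} (h : sympB m F v w = 0) (c : F) (x : V) :
    (X v w c).1 *ᵥ x = x + sympB m F x v • w + sympB m F x w • v + (c * sympB m F x v) • v := by
  have h' : sympB m F w v = 0 := by rw [B_swap, h, neg_zero]
  rw [X, mul_mulVec, mul_mulVec, tr_mulVec, tr_mulVec, tr_mulVec]
  simp only [map_add, map_smul, LinearMap.add_apply, LinearMap.smul_apply, B_self, h, h', smul_eq_mul, mul_zero, add_zero]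
  module

/-- the unipotent radical of the stabilizer of a point -/
def Q (v : V) : Subgroup G where
  carrier := {g | g.1 *ᵥ v = v ∧ ∀ y : V, sympB m F y v = 0 → ∃ a : F, g.1 *ᵥ y = y + a • v}
  one_mem' := ⟨one_mulVec' v, fun y _ => ⟨0, by rw [one_mulVec', zero_smul, add_zero]⟩⟩
  mul_mem' := by
    rintro g h ⟨hg, hg'⟩ ⟨hh, hh'⟩
    refine ⟨by rw [mul_mulVec, hh, hg], fun y hy => ?_⟩
    obtain ⟨a, ha⟩ := hg' y hy
    obtain ⟨b, hb⟩ := hh' y hy
    refine ⟨a + b, ?_⟩
    rw [mul_mulVec, hb, Matrix.mulVec_add, Matrix.mulVec_smul, ha, hg]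
    module
  inv_mem' := by
    rintro g ⟨hg, hg'⟩
    refine ⟨by conv_lhs => rw [← hg, inv_mulVec], fun y hy => ?_⟩
    obtain ⟨a, ha⟩ := hg' y hy
    refine ⟨-a, ?_⟩
    apply mulVec_inj g
    rw [mulVec_inv, Matrix.mulVec_add, Matrix.mulVec_smul, ha, hg]
    module

theorem mem_Q {v : V} {g : G} :
    g ∈ Q v ↔ g.1 *ᵥ v = v ∧ ∀ y : V, sympB m F y v = 0 → ∃ a : F, g.1 *ᵥ y = y + a • v := Iff.rfl

theorem X_mem_Q {v w : V} (h : sympB m F v w = 0) (c : F) : X v w c ∈ Q v := by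
  refine ⟨?_, fun y hy => ⟨sympB m F y w, ?_⟩⟩
  · rw [X_mulVec h, B_self, h, zero_smul, zero_smul, mul_zero, zero_smul]
    simp
  · rw [X_mulVec h, hy, zero_smul, mul_zero, zero_smul, add_zero, add_zero]

theorem tr_mem_Q (v : V) (c : F) : tr v c ∈ Q v := by
  refine ⟨?_, fun y hy => ⟨0, ?_⟩⟩
  · rw [tr_mulVec, B_self, mul_zero, zero_smul, add_zero]
  · rw [tr_mulVec, hy, mul_zero, zero_smul]

theorem conj_mem_Q {v : V} {g h : G} (hh : h.1 *ᵥ v = v) (hg : g ∈ Q v) : h * g * h⁻¹ ∈ Q v := by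
  obtain ⟨hg, hg'⟩ := hg
  have hh2 : (h⁻¹).1 *ᵥ v = v := by conv_lhs => rw [← hh, inv_mulVec]
  refine ⟨by rw [mul_mulVec, mul_mulVec, hh2, hg, hh], fun y hy => ?_⟩
  obtain ⟨a, ha⟩ := hg' ((h⁻¹).1 *ᵥ y) (by
    rw [← hh2, G_pres, hy])
  refine ⟨a, ?_⟩
  rw [mul_mulVec, mul_mulVec, ha, Matrix.mulVec_add, Matrix.mulVec_smul, hh, mulVec_inv]

variable {p : ℕ} [Fact p.Prime] [CharP F p]

theorem pow_mem_Q {v : V} {g : G} (hg : g ∈ Q v) : g ^ (p ^ 2) = 1 := by
  obtain ⟨hg, hg'⟩ := hg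
  have h1 : (g.1 - 1) ^ 3 = 0 := by
    apply mulVec_injective_matrix
    intro x
    rw [pow_succ, pow_two, ← mulVec_mulVec, ← mulVec_mulVec, Matrix.zero_mulVec]
    simp only [Matrix.sub_mulVec, Matrix.one_mulVec]
    have h2 : sympB m F (g.1 *ᵥ x - x) v = 0 := by
      rw [map_sub, LinearMap.sub_apply]
      nth_rewrite 1 [← hg]
      rw [G_pres, sub_self]
    obtain ⟨a, ha⟩ := hg' _ h2
    rw [ha, Matrix.mulVec_sub, Matrix.mulVec_add, Matrix.mulVec_smul, hg, ha]
    module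
  have h2 : g.1 ^ (p ^ 2) = 1 := by
    rcases Nat.eq_zero_or_pos m with hm | hm
    · subst hm
      exact Subsingleton.elim _ _
    have : Nonempty (Fin m ⊕ Fin m) := ⟨Sum.inl ⟨0, hm⟩⟩
    have h3 : g.1 = 1 + (g.1 - 1) := by abel
    rw [h3, add_pow_char_pow_of_commute p 2 (Commute.one_left _), one_pow]
    have h4 : 3 ≤ p ^ 2 := by
      have := (Fact.out : p.Prime).two_le
      nlinarith
    rw [← Nat.sub_add_cancel h4, pow_add, h1, mul_zero, add_zero]
  apply Subtype.ext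
  rw [SubmonoidClass.coe_pow]
  exact h2

theorem isPGroup_Q (v : V) : IsPGroup p (Q v) := by
  rintro ⟨g, hg⟩
  exact ⟨2, Subtype.ext (pow_mem_Q hg)⟩

/-- the natural action -/
@[instance_reducible] def act (m : ℕ) (F : Type*) [Field F] : MulAction (Matrix.symplecticGroup (Fin m) F) (Fin m ⊕ Fin m → F) where
  smul g v := g.1 *ᵥ v
  one_smul v := one_mulVec' v
  mul_smul g h v := mul_mulVec g h v

theorem exists_sylow [Finite F] (hm : 1 ≤ m) : ∃ (P : Sylow p G) (v : V), v ≠ 0 ∧ (∀ g ∈ P, g.1 *ᵥ v = v) ∧ Q v ≤ P := by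
  let P : Sylow p G := Classical.arbitrary _
  let _ := act m F
  have hV : p ∣ Nat.card V := by
    have hF : p ∣ Nat.card F := by
      have h1 : (Nat.card F : F) = 0 := by
        have := Fintype.ofFinite F
        rw [Nat.card_eq_fintype_card]
        exact Nat.cast_card_eq_zero F
      exact (CharP.cast_eq_zero_iff F p _).1 h1
    have := Fintype.ofFinite F
    rw [Nat.card_eq_fintype_card, Fintype.card_fun]
    rw [Nat.card_eq_fintype_card] at hF
    apply dvd_pow hF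
    rw [Fintype.card_sum, Fintype.card_fin]
    omega
  have h0 : (0 : V) ∈ MulAction.fixedPoints P V := by
    intro g
    exact Matrix.mulVec_zero _
  obtain ⟨v, hv, hv0⟩ := P.2.exists_fixed_point_of_prime_dvd_card_of_fixed_point V hV h0
  have hfix : ∀ g ∈ P, g.1 *ᵥ v = v := fun g hg => hv ⟨g, hg⟩
  refine ⟨P, v, fun h => hv0 h.symm, hfix, ?_⟩
  have h1 : IsPGroup p (P ⊔ Q v : Subgroup G) := by
    apply P.2.to_sup_of_normal_right' (isPGroup_Q v)
    intro g hg
    rw [Subgroup.mem_normalizer_iff]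
    intro h
    constructor
    · intro hh
      exact conj_mem_Q (hfix g hg) hh
    · intro hh
      have := conj_mem_Q (h := g⁻¹) (hfix g⁻¹ (inv_mem hg)) hh
      have e : g⁻¹ * (g * h * g⁻¹) * g⁻¹⁻¹ = h := by group
      rwa [e] at this
  rw [← P.3 h1 le_sup_left]
  exact le_sup_right

omit [Fact p.Prime] in
theorem center_p {g : G} (hm : 1 ≤ m) (hg : g ∈ Subgroup.center G) {k : ℕ} (hk : g ^ (p ^ k) = 1) [Fact p.Prime] : g = 1 := by
  obtain ⟨a, ha⟩ := (mem_center_iff g).1 hg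
  have h1 : ∀ (n : ℕ) (v : V), (g ^ n).1 *ᵥ v = a ^ n • v := by
    intro n
    induction n with
    | zero => intro v; rw [pow_zero, pow_zero, one_mulVec', one_smul]
    | succ n ih => intro v; rw [pow_succ, mul_mulVec, ha, Matrix.mulVec_smul, ih, smul_smul, pow_succ, mul_comm]
  have hne : (Pi.single (Sum.inl ⟨0, by omega⟩) 1 : V) ≠ 0 := by
    intro h0
    have := congrFun h0 (Sum.inl ⟨0, by omega⟩)
    rw [Pi.single_eq_same, Pi.zero_apply] at this
    exact one_ne_zero this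
  have h2 : a ^ (p ^ k) = 1 := by
    have := h1 (p ^ k) (Pi.single (Sum.inl ⟨0, by omega⟩) 1)
    rw [hk, one_mulVec'] at this
    have h3 : (a ^ (p ^ k) - 1) • (Pi.single (Sum.inl ⟨0, by omega⟩) 1 : V) = 0 := by
      rw [sub_smul, ← this, one_smul, sub_self]
    rcases smul_eq_zero.1 h3 with h4 | h4
    · exact sub_eq_zero.1 h4
    · exact absurd h4 hne
  have h3 : a = 1 := by
    have h4 : (a - 1) ^ (p ^ k) = 0 := by
      rw [sub_pow_char_pow, h2, one_pow, sub_self]
    exact sub_eq_zero.1 (pow_eq_zero_iff (pow_ne_zero _ (Fact.out : p.Prime).ne_zero) |>.1 h4)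
  apply G_ext
  intro v
  rw [ha, h3, one_smul, one_mulVec']

theorem perp_perp {v f d : V} (hf : sympB m F f v = 1) (hd : ∀ u, sympB m F u v = 0 → sympB m F u d = 0) :
    d = sympB m F f d • v := by
  have h1 : ∀ x, sympB m F x (d - sympB m F f d • v) = 0 := by
    intro x
    have h2 := hd (x - sympB m F x v • f) (by
      rw [map_sub, map_smul, LinearMap.sub_apply, LinearMap.smul_apply, hf, smul_eq_mul, mul_one, sub_self])
    rw [map_sub, map_smul, LinearMap.sub_apply, LinearMap.smul_apply, smul_eq_mul] at h2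
    rw [map_sub, map_smul, smul_eq_mul, ← h2]
    ring
  exact sub_eq_zero.1 (sympB_nondegenerate.2 _ h1)

/-- elements commuting with the unipotent radical -/
theorem central_form {v : V} (hv : v ≠ 0) {z : G} (hz : z.1 *ᵥ v = v) (hc : ∀ g ∈ Q v, z * g = g * z) :
    ∃ (w : V) (c : F), sympB m F v w = 0 ∧ z = X v w c ∧ (∀ u, sympB m F u v = 0 → 2 * sympB m F u w = 0) := by
  obtain ⟨f, hf⟩ := exists_B_ne hv
  have hcx : ∀ u x, sympB m F u v = 0 → z.1 *ᵥ x + sympB m F x v • (z.1 *ᵥ u) + sympB m F x u • v =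
      z.1 *ᵥ x + sympB m F (z.1 *ᵥ x) v • u + sympB m F (z.1 *ᵥ x) u • v := by
    intro u x hu
    have hvu : sympB m F v u = 0 := by rw [B_swap, hu, neg_zero]
    have h1 := hc _ (X_mem_Q hvu 0)
    have h2 : (z * X v u 0).1 *ᵥ x = (X v u 0 * z).1 *ᵥ x := by rw [h1]
    rw [mul_mulVec, mul_mulVec, X_mulVec hvu, X_mulVec hvu, zero_mul, zero_mul, zero_smul, add_zero, add_zero] at h2
    rw [Matrix.mulVec_add, Matrix.mulVec_add, Matrix.mulVec_smul, Matrix.mulVec_smul, hz] at h2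
    exact h2
  have hzv : ∀ x, sympB m F (z.1 *ᵥ x) v = sympB m F x v := by
    intro x
    conv_lhs => rw [← hz]
    exact G_pres z x v
  have h1 : ∀ y, sympB m F y v = 0 → ∃ a : F, z.1 *ᵥ y = y + a • v := by
    intro y hy
    refine ⟨sympB m F f (z.1 *ᵥ y - y), ?_⟩
    rw [← perp_perp hf, add_sub_cancel]
    intro u hu
    have h2 := hcx u y hu
    rw [hzv, hy, zero_smul, zero_smul, add_zero, add_right_inj] at h2
    have h3 : (sympB m F y u - sympB m F (z.1 *ᵥ y) u) • v = 0 := by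
      rw [sub_smul, h2, sub_self]
    rcases smul_eq_zero.1 h3 with h4 | h4
    · rw [map_sub, B_swap u, B_swap u y, sub_neg_eq_add, neg_add_eq_sub, h4]
    · exact absurd h4 hv
  have hw : sympB m F v (z.1 *ᵥ f - f) = 0 := by
    rw [B_swap, map_sub, LinearMap.sub_apply, hzv, sub_self, neg_zero]
  have hy : ∀ y, sympB m F y v = 0 → z.1 *ᵥ y = y + sympB m F y (z.1 *ᵥ f - f) • v := by
    intro y hy
    obtain ⟨a, ha⟩ := h1 y hy
    have h2 := G_pres z y f
    have h3 : sympB m F v (z.1 *ᵥ f) = -1 := by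
      rw [B_swap, hzv, hf]
    rw [ha, map_add, map_smul, LinearMap.add_apply, LinearMap.smul_apply, h3, smul_eq_mul] at h2
    have h4 : a = sympB m F y (z.1 *ᵥ f) - sympB m F y f := by
      rw [← h2]
      ring
    rw [ha, h4, map_sub]
  refine ⟨z.1 *ᵥ f - f, - sympB m F f (z.1 *ᵥ f - f), hw, ?_, ?_⟩
  · apply G_ext
    intro x
    have h2 := hy (x - sympB m F x v • f) (by
      rw [map_sub, map_smul, LinearMap.sub_apply, LinearMap.smul_apply, hf, smul_eq_mul, mul_one, sub_self])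
    have h3 : z.1 *ᵥ x = z.1 *ᵥ (x - sympB m F x v • f) + sympB m F x v • (z.1 *ᵥ f) := by
      rw [← Matrix.mulVec_smul, ← Matrix.mulVec_add, sub_add_cancel]
    have hzf : z.1 *ᵥ f = f + (z.1 *ᵥ f - f) := by abel
    rw [h3, h2, X_mulVec hw]
    generalize z.1 *ᵥ f - f = w at hw hzf ⊢
    rw [hzf, map_sub, map_smul, LinearMap.sub_apply, LinearMap.smul_apply, smul_eq_mul]
    module
  · intro u hu
    have h2 := hcx u f hu
    rw [hzv, hf, one_smul, one_smul, hy u hu] at h2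
    have hzf : z.1 *ᵥ f = f + (z.1 *ᵥ f - f) := by abel
    generalize z.1 *ᵥ f - f = w at hw hzf h2 ⊢
    rw [hzf, map_add, LinearMap.add_apply, B_swap w u] at h2
    have h3 : (2 * sympB m F u w) • v = 0 := by
      have h4 := sub_eq_zero.2 h2
      rw [← h4]
      module
    rcases smul_eq_zero.1 h3 with h4 | h4
    · exact h4
    · exact absurd h4 hv

end CfsgLib.AutPSp
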