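import Cfsg.Agent.Lib.AutPSp2

/-!
# Automorphisms of `PSp_{2m}(F)`, part 3: transvections are characterized.
-/

set_option autoImplicit false
set_option linter.unusedSimpArgs false
set_option linter.unusedSectionVars false

namespace CfsgLib.AutPSp

open Module Matrix Cfsg CfsgLib.Symp

variable {F : Type*} [Field F] {m : ℕ}

local notation "V" => (Fin m ⊕ Fin m → F)
local notation "G" => Matrix.symplecticGroup (Fin m) F

theorem conj_X (h : G) (v w : V) (c : F) : h * X v w c * h⁻¹ = X (h.1 *ᵥ v) (h.1 *ᵥ w) c := by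
  rw [X, X, ← Matrix.mulVec_add, ← conj_tr, ← conj_tr, ← conj_tr]
  group

theorem X_smul {v : V} (a c : F) : X v (a • v) c = tr v (2 * a + c) := by
  apply G_ext
  intro x
  rw [X_mulVec (by rw [map_smul, B_self, smul_zero]), tr_mulVec, map_smul, smul_eq_mul]
  module

theorem exists_f2 {v w : V} (hv : v ≠ 0) (hw : ∀ a : F, w ≠ a • v) :
    ∃ f : V, sympB m F v f = 0 ∧ sympB m F w f = 1 := by
  obtain ⟨f, hf⟩ := exists_B_ne hv
  by_contra! hcon
  apply hw _ (perp_perp hf (d := w) ?_)
  intro u hu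
  by_contra hne
  apply hcon (-(sympB m F u w)⁻¹ • u)
  · rw [map_smul, B_swap v u, hu, neg_zero, smul_zero]
  · rw [map_smul, B_swap w u, smul_eq_mul, neg_mul_neg, inv_mul_cancel₀ hne]

theorem exists_e3 (hm : 3 ≤ m) (v w f : V) : ∃ e : V, sympB m F v e = 0 ∧ sympB m F w e = 0 ∧ sympB m F f e = 0 ∧
    ∀ a : F, e ≠ a • v := by
  let L : V →ₗ[F] (Fin 3 → F) := LinearMap.pi ![sympB m F v, sympB m F w, sympB m F f]
  have h1 := LinearMap.finrank_range_add_finrank_ker L
  have h2 : finrank F (LinearMap.range L) ≤ 3 := by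
    have := Submodule.finrank_le (LinearMap.range L)
    rwa [Module.finrank_fin_fun] at this
  rw [finrank_symp] at h1
  have h3 : ¬ LinearMap.ker L ≤ Submodule.span F {v} := by
    intro hle
    have h4 := Submodule.finrank_mono hle
    have h5 : finrank F (Submodule.span F {v}) ≤ 1 := by
      have := finrank_span_le_card (R := F) ({v} : Set V)
      simpa using this
    omega
  rw [SetLike.not_le_iff_exists] at h3
  obtain ⟨e, he, he'⟩ := h3
  rw [LinearMap.mem_ker] at he
  refine ⟨e, ?_, ?_, ?_, ?_⟩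
  · simpa [L] using congrFun he 0
  · simpa [L] using congrFun he 1
  · simpa [L] using congrFun he 2
  · intro a ha
    apply he'
    rw [ha]
    exact Submodule.smul_mem _ _ (Submodule.mem_span_singleton_self v)

theorem not_Tl [CharP F 2] (hm : 3 ≤ m) {v w : V} (hv : v ≠ 0) (hw : ∀ a : F, w ≠ a • v) (hvw : sympB m F v w = 0) (c : F) :
    ∃ h : G, (X v w c * (h * X v w c * h⁻¹)) ^ 4 = 1 ∧ (X v w c * (h * X v w c * h⁻¹)) ^ 2 ≠ 1 := by
  obtain ⟨f, hvf, hwf⟩ := exists_f2 hv hw
  obtain ⟨e, hve, hwe, hfe, he⟩ := exists_e3 hm v w f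
  have he0 : e ≠ 0 := by
    intro h
    exact he 0 (by rw [h, zero_smul])
  have hwv : sympB m F w v = 0 := by rw [B_swap, hvw, neg_zero]
  have hfv : sympB m F f v = 0 := by rw [B_swap, hvf, neg_zero]
  have hev : sympB m F e v = 0 := by rw [B_swap, hve, neg_zero]
  have hew : sympB m F e w = 0 := by rw [B_swap, hwe, neg_zero]
  have hef : sympB m F e f = 0 := by rw [B_swap, hfe, neg_zero]
  have hfw : sympB m F f w = 1 := by rw [B_swap, hwf, CharTwo.neg_eq]
  obtain ⟨h, hh⟩ := exists_symp_family (m := m) (F := F) ![v, w] ![e, f]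
    (by
      rw [LinearIndependent.pair_iff' hv]
      intro a ha
      exact hw a ha.symm)
    (by
      rw [LinearIndependent.pair_iff' he0]
      intro a ha
      have := congrArg (sympB m F w) ha
      rw [map_smul, hwe, smul_zero, hwf] at this
      exact zero_ne_one this)
    (by
      intro i j
      rw [← sympB_apply, ← sympB_apply]
      fin_cases i <;> fin_cases j <;> simp [B_self, hvw, hwv, hef, hfe])
  have hhv : h.1 *ᵥ v = e := hh 0
  have hhw : h.1 *ᵥ w = f := hh 1
  refine ⟨h, ?_⟩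
  rw [conj_X, hhv, hhw]
  let N : Matrix (Fin m ⊕ Fin m) (Fin m ⊕ Fin m) F := (X v w c).1 - 1
  let N' : Matrix (Fin m ⊕ Fin m) (Fin m ⊕ Fin m) F := (X e f c).1 - 1
  have hN : ∀ x, N *ᵥ x = sympB m F x v • w + sympB m F x w • v + (c * sympB m F x v) • v := by
    intro x
    rw [Matrix.sub_mulVec, Matrix.one_mulVec, X_mulVec hvw]
    abel
  have hN' : ∀ x, N' *ᵥ x = sympB m F x e • f + sympB m F x f • e + (c * sympB m F x e) • e := by
    intro x
    rw [Matrix.sub_mulVec, Matrix.one_mulVec, X_mulVec hef]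
    abel
  have hNv : N *ᵥ v = 0 := by rw [hN, B_self, hvw]; simp
  have hNw : N *ᵥ w = 0 := by rw [hN, B_self, hwv]; simp
  have hNe : N *ᵥ e = 0 := by rw [hN, hev, hew]; simp
  have hNf : N *ᵥ f = v := by rw [hN, hfv, hfw]; simp
  have hN'e : N' *ᵥ e = 0 := by rw [hN', B_self, hef]; simp
  have hN'f : N' *ᵥ f = 0 := by rw [hN', B_self, hfe]; simp
  have hN'v : N' *ᵥ v = 0 := by rw [hN', hve, hvf]; simp
  have hN'w : N' *ᵥ w = e := by rw [hN', hwe, hwf]; simp
  have h1 : ∀ x, (N * N') *ᵥ x = sympB m F x e • v := by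
    intro x
    rw [← mulVec_mulVec, hN' x, Matrix.mulVec_add, Matrix.mulVec_add, Matrix.mulVec_smul, Matrix.mulVec_smul,
      Matrix.mulVec_smul, hNf, hNe]
    simp
  have h2 : ∀ x, (N' * N) *ᵥ x = sympB m F x v • e := by
    intro x
    rw [← mulVec_mulVec, hN x, Matrix.mulVec_add, Matrix.mulVec_add, Matrix.mulVec_smul, Matrix.mulVec_smul,
      Matrix.mulVec_smul, hN'w, hN'v]
    simp
  have h3 : N * N = 0 := by
    apply mulVec_injective_matrix
    intro x
    rw [← mulVec_mulVec, hN x, Matrix.mulVec_add, Matrix.mulVec_add, Matrix.mulVec_smul, Matrix.mulVec_smul,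
      Matrix.mulVec_smul, hNw, hNv]
    simp
  have h4 : N' * N' = 0 := by
    apply mulVec_injective_matrix
    intro x
    rw [← mulVec_mulVec, hN' x, Matrix.mulVec_add, Matrix.mulVec_add, Matrix.mulVec_smul, Matrix.mulVec_smul,
      Matrix.mulVec_smul, hN'e, hN'f]
    simp
  have h5 : N' * (N * N') = 0 := by
    apply mulVec_injective_matrix
    intro x
    rw [← mulVec_mulVec, h1 x, Matrix.mulVec_smul, hN'v]
    simp
  have h6 : N * (N' * N) = 0 := by
    apply mulVec_injective_matrix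
    intro x
    rw [← mulVec_mulVec, h2 x, Matrix.mulVec_smul, hNe]
    simp
  have h7 : (X v w c).1 = 1 + N := by simp only [N]; abel
  have h8 : (X e f c).1 = 1 + N' := by simp only [N']; abel
  have : Nonempty (Fin m ⊕ Fin m) := ⟨Sum.inl ⟨0, by omega⟩⟩
  have h9 : (X v w c * X e f c : G).1 = 1 + (N + N' + N * N') := by
    rw [Submonoid.coe_mul, h7, h8]
    noncomm_ring
  have h10 : (N + N' + N * N') ^ 2 = N * N' + N' * N := by
    have e1 : (N + N' + N * N') ^ 2 = N * N + N * N' + N * N * N' + N' * N + N' * N' + N' * (N * N') + N * (N' * N) +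
        N * (N' * N') + N * (N' * (N * N')) := by noncomm_ring
    rw [e1, h3, h4, h5, h6]
    simp
  have h11 : (N * N' + N' * N) ^ 2 = 0 := by
    have e1 : (N * N' + N' * N) ^ 2 = N * (N' * (N * N')) + N * (N' * N') * N + N' * (N * N) * N' + N' * (N * (N' * N)) := by
      noncomm_ring
    rw [e1, h3, h4, h5, h6]
    simp
  have hsq : ∀ A : Matrix (Fin m ⊕ Fin m) (Fin m ⊕ Fin m) F, (1 + A) ^ 2 = 1 + A ^ 2 := by
    intro A
    have e1 : (1 + A) ^ 2 = 1 + A ^ 2 + (A + A) := by noncomm_ring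
    rw [e1, CharTwo.add_self_eq_zero, add_zero]
  have h12 : ((X v w c * X e f c : G) ^ 2).1 = 1 + (N * N' + N' * N) := by
    rw [SubmonoidClass.coe_pow, h9, hsq, h10]
  constructor
  · apply Subtype.ext
    have e1 : (X v w c * X e f c : G) ^ 4 = ((X v w c * X e f c : G) ^ 2) ^ 2 := by rw [← pow_mul]
    rw [e1, SubmonoidClass.coe_pow, h12, hsq, h11, add_zero]
    rfl
  · intro hcon
    rw [hcon] at h12
    obtain ⟨x, hx⟩ := exists_B_ne hv
    have e1 : (1 : G).1 *ᵥ x = x + (sympB m F x e • v + e) := by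
      rw [h12, Matrix.add_mulVec, Matrix.one_mulVec, Matrix.add_mulVec, h1, h2, hx, one_smul]
    rw [one_mulVec', left_eq_add] at e1
    apply he (-(sympB m F x e))
    rw [neg_smul, eq_neg_iff_add_eq_zero, add_comm]
    exact e1

theorem tr_Tl [CharP F 2] (v w : V) (c d : F) (h4 : (tr v c * tr w d : G) ^ 4 = 1) : (tr v c * tr w d : G) ^ 2 = 1 := by
  obtain ⟨b, hb⟩ : ∃ b, b = sympB m F v w := ⟨_, rfl⟩
  have hb' : sympB m F w v = b := by rw [B_swap, ← hb, CharTwo.neg_eq]
  have h2 : (2 : F) = 0 := CharTwo.two_eq_zero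
  by_cases hv : v = 0
  · subst hv
    apply G_ext
    intro x
    rw [one_mulVec', pow_two, mul_mulVec, mul_mulVec, mul_mulVec]
    simp only [tr_mulVec, map_add, map_smul, LinearMap.add_apply, LinearMap.smul_apply, B_self, smul_eq_mul, mul_zero,
      add_zero, smul_zero]
    have : x + (d * sympB m F x w) • w + (d * sympB m F x w) • w = x + (2 * (d * sympB m F x w)) • w := by module
    rw [this, h2, zero_mul, zero_smul, add_zero]
  have key : c * d * b * b = 0 := by
    by_contra hne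
    set M : Matrix (Fin m ⊕ Fin m) (Fin m ⊕ Fin m) F := (tr v c * tr w d : G).1 with hM
    have hMx : ∀ x, M *ᵥ x = (tr v c).1 *ᵥ ((tr w d).1 *ᵥ x) := fun x => mul_mulVec _ _ x
    have hMv : M *ᵥ v = v + (c * d * b * b) • v + (d * b) • w := by
      rw [hMx]
      simp only [tr_mulVec, map_add, map_smul, LinearMap.add_apply, LinearMap.smul_apply, B_self, smul_eq_mul, mul_zero,
        add_zero, hb', ← hb]
      module
    have hMw : M *ᵥ w = w + (c * b) • v := by
      rw [hMx]
      simp only [tr_mulVec, map_add, map_smul, LinearMap.add_apply, LinearMap.smul_apply, B_self, smul_eq_mul, mul_zero,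
        add_zero, hb', zero_smul]
    have hMM : M *ᵥ (M *ᵥ v) = (c * d * b * b) • (M *ᵥ v) + v := by
      have e1 : M *ᵥ (M *ᵥ v) = M *ᵥ v + (c * d * b * b) • (M *ᵥ v) + (d * b) • (M *ᵥ w) := by
        conv_lhs => rw [hMv, Matrix.mulVec_add, Matrix.mulVec_add, Matrix.mulVec_smul, Matrix.mulVec_smul]
      have e2 : (d * b) • (M *ᵥ w) = M *ᵥ v - v := by
        rw [hMw, hMv]
        module
      rw [e1, e2]
      have e3 : M *ᵥ v + (c * d * b * b) • (M *ᵥ v) + (M *ᵥ v - v) = (c * d * b * b) • (M *ᵥ v) + (2 : F) • (M *ᵥ v) + (v - (2 : F) • v) := by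
        module
      rw [e3, h2, zero_smul, zero_smul, add_zero, sub_zero]
    have hM4 : M *ᵥ (M *ᵥ (M *ᵥ (M *ᵥ v))) = v := by
      have e1 : ((tr v c * tr w d : G) ^ 4).1 *ᵥ v = v := by rw [h4, one_mulVec']
      have e2 : ((tr v c * tr w d : G) ^ 4) = (tr v c * tr w d) * ((tr v c * tr w d) * ((tr v c * tr w d) * (tr v c * tr w d))) := by
        simp only [pow_succ, pow_zero, one_mul, mul_assoc]
      rw [e2, mul_mulVec _ _ v, mul_mulVec _ _ v, mul_mulVec _ _ v] at e1
      exact e1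
    generalize c * d * b * b = t at hne hMM
    have e1 : M *ᵥ (M *ᵥ (M *ᵥ v)) = t • (M *ᵥ (M *ᵥ v)) + M *ᵥ v := by
      conv_lhs => rw [hMM, Matrix.mulVec_add, Matrix.mulVec_smul]
    have e2 : M *ᵥ (M *ᵥ (M *ᵥ (M *ᵥ v))) = t • (M *ᵥ (M *ᵥ (M *ᵥ v))) + M *ᵥ (M *ᵥ v) := by
      conv_lhs => rw [e1, Matrix.mulVec_add, Matrix.mulVec_smul]
    have hM2 : M *ᵥ (M *ᵥ v) ≠ 0 := mulVec_ne_zero (tr v c * tr w d) (mulVec_ne_zero (tr v c * tr w d) hv)
    rw [hM4] at e2
    generalize M *ᵥ (M *ᵥ (M *ᵥ v)) = y3 at *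
    generalize M *ᵥ (M *ᵥ v) = y2 at *
    generalize M *ᵥ v = y1 at *
    have e3 : (t * t) • y2 = 0 := by
      have e4 : (t * t) • y2 = t • y3 + y2 - v + (v + t • y1 - y2 - (2 : F) • (t • y1)) := by
        rw [e1]
        module
      rw [e4, ← e2, h2, zero_smul, sub_self, zero_add, sub_zero, hMM]
      abel
    rcases smul_eq_zero.1 e3 with h5 | h5
    · exact hne (mul_self_eq_zero.1 h5)
    · exact hM2 h5
  have hb1 : c * d * b = 0 := by
    rcases mul_eq_zero.1 key with h5 | h5
    · exact h5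
    · rw [h5, mul_zero]
  have hz : ∀ x, (tr v c * tr w d : G).1 *ᵥ x = x + (d * sympB m F x w) • w + (c * sympB m F x v) • v := by
    intro x
    rw [mul_mulVec]
    simp only [tr_mulVec, map_add, map_smul, LinearMap.add_apply, LinearMap.smul_apply, smul_eq_mul, hb']
    have e1 : c * (sympB m F x v + d * sympB m F x w * b) = c * sympB m F x v := by
      linear_combination (sympB m F x w) * hb1
    rw [e1]
  apply G_ext
  intro x
  rw [one_mulVec', pow_two, mul_mulVec, hz, hz]
  simp only [map_add, map_smul, LinearMap.add_apply, LinearMap.smul_apply, B_self, smul_eq_mul, mul_zero,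
    add_zero, hb', ← hb]
  have e1 : d * (sympB m F x w + c * sympB m F x v * b) = d * sympB m F x w := by
    linear_combination (sympB m F x v) * hb1
  have e2 : c * (sympB m F x v + d * sympB m F x w * b) = c * sympB m F x v := by
    linear_combination (sympB m F x w) * hb1
  rw [e1, e2]
  have e3 : x + (d * sympB m F x w) • w + (c * sympB m F x v) • v + (d * sympB m F x w) • w + (c * sympB m F x v) • v =
      x + (2 * (d * sympB m F x w)) • w + (2 * (c * sympB m F x v)) • v := by module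
  rw [e3, h2, zero_mul, zero_mul, zero_smul, zero_smul, add_zero, add_zero]

end CfsgLib.AutPSp
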