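import Cfsg.Agent.Lib.AutPSp4

/-!
# Automorphisms of `PSp_{2m}(F)`, part 5: the main theorem.
-/

set_option autoImplicit false
set_option linter.unusedSimpArgs false
set_option linter.unusedSectionVars false

namespace CfsgLib.AutPSp

open Module Matrix Cfsg CfsgLib.Symp CfsgLib.FTPG

variable {F : Type*} [Field F] {m : ℕ}

local notation "V" => (Fin m ⊕ Fin m → F)
local notation "G" => Matrix.symplecticGroup (Fin m) F

theorem exists_perp_two (hm : 2 ≤ m) (v w : V) : ∃ e : V, e ≠ 0 ∧ sympB m F e v = 0 ∧ sympB m F e w = 0 := by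
  let L : V →ₗ[F] (Fin 2 → F) := LinearMap.pi ![sympB m F v, sympB m F w]
  have h1 := LinearMap.finrank_range_add_finrank_ker L
  have h2 : finrank F (LinearMap.range L) ≤ 2 := by
    have := Submodule.finrank_le (LinearMap.range L)
    rwa [Module.finrank_fin_fun] at this
  rw [finrank_symp] at h1
  have h3 : LinearMap.ker L ≠ ⊥ := by
    intro h
    rw [h, finrank_bot] at h1
    omega
  obtain ⟨e, he, he0⟩ := Submodule.exists_mem_ne_zero_of_ne_bot h3
  rw [LinearMap.mem_ker] at he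
  refine ⟨e, he0, ?_, ?_⟩
  · rw [B_swap, neg_eq_zero]
    simpa [L] using congrFun he 0
  · rw [B_swap, neg_eq_zero]
    simpa [L] using congrFun he 1

theorem T_par (hm : 2 ≤ m) {a b : V} {c d : F} (hb : b ≠ 0) (hd : d ≠ 0) (h : (T a c : PSp m F) = T b d) :
    ∃ l : F, b = l • a := by
  obtain ⟨z, hz, hz'⟩ := mk_eq_iff.1 h
  obtain ⟨l, hl⟩ := (mem_center_iff z).1 hz
  have h1 : ∀ x, x + (d * sympB m F x b) • b = l • (x + (c * sympB m F x a) • a) := by
    intro x
    rw [← tr_mulVec, hz', mul_mulVec, hl, Matrix.mulVec_smul, tr_mulVec]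
  obtain ⟨e, he0, hea, heb⟩ := exists_perp_two hm a b
  have h2 := h1 e
  rw [hea, heb, mul_zero, mul_zero, zero_smul, zero_smul, add_zero] at h2
  have hl1 : l = 1 := by
    have h3 : (l - 1) • e = 0 := by rw [sub_smul, ← h2, one_smul, sub_self]
    rcases smul_eq_zero.1 h3 with h4 | h4
    · exact sub_eq_zero.1 h4
    · exact absurd h4 he0
  obtain ⟨x, hx⟩ := exists_B_ne hb
  have h3 := h1 x
  rw [hl1, one_smul, add_right_inj, hx, mul_one] at h3
  refine ⟨d⁻¹ * (c * sympB m F x a), ?_⟩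
  rw [mul_smul, ← h3, smul_smul, inv_mul_cancel₀ hd, one_smul]

theorem T_comm (hm : 2 ≤ m) {v w : V} {c d : F} (hw : w ≠ 0) (hc : c ≠ 0) (hd : d ≠ 0) :
    (T v c : PSp m F) * T w d = T w d * T v c ↔ sympB m F v w = 0 := by
  constructor
  · intro h
    have h1 : (T v c : PSp m F) * T w d * (T v c)⁻¹ = T w d := by rw [h, mul_inv_cancel_right]
    rw [T, conj_T, tr_mulVec] at h1
    obtain ⟨l, hl⟩ := T_par hm hw hd h1
    have h2 := congrArg (sympB m F w) hl
    rw [B_self, map_smul, map_add, map_smul, B_self, zero_add, smul_eq_mul, smul_eq_mul] at h2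
    by_contra hne
    have hne' : sympB m F w v ≠ 0 := by
      rw [B_swap]
      exact neg_ne_zero.2 hne
    have hl0 : l ≠ 0 := by
      rintro rfl
      exact hw (by rw [hl, zero_smul])
    exact mul_ne_zero hl0 (mul_ne_zero (mul_ne_zero hc hne') hne') h2.symm
  · intro h
    have h1 : (T v c : PSp m F) * T w d * (T v c)⁻¹ = T w d := by
      rw [T, conj_T, tr_mulVec, B_swap, h, neg_zero, mul_zero, zero_smul, add_zero]
    exact mul_inv_eq_iff_eq_mul.1 h1

theorem T_ne_one (hm : 2 ≤ m) {v : V} (hv : v ≠ 0) {c : F} (hc : c ≠ 0) : (T v c : PSp m F) ≠ 1 := by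
  intro h
  have h1 : (T 0 0 : PSp m F) = T v c := by
    rw [h, T, tr_zero]
    rfl
  obtain ⟨l, hl⟩ := T_par hm hv hc h1
  exact hv (by rw [hl, smul_zero])

theorem T_zero (v : V) : (T v 0 : PSp m F) = 1 := by
  rw [T, tr_zero]
  rfl

theorem col_iff (u v w : V) : Col F u v w ↔ ∀ x, sympB m F x v = 0 → sympB m F x w = 0 → sympB m F x u = 0 := by
  constructor
  · rintro ⟨a, b, rfl⟩ x h1 h2
    rw [map_add, map_smul, map_smul, h1, h2, smul_zero, smul_zero, add_zero]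
  · intro h
    have h1 : (sympB m F u) ∈ Submodule.span F (Set.range ![sympB m F v, sympB m F w]) := by
      apply mem_span_of_iInf_ker_le_ker
      intro x hx
      simp only [Submodule.mem_iInf, LinearMap.mem_ker] at hx
      have h2 := hx 0
      have h3 := hx 1
      simp only [Matrix.cons_val_zero, Matrix.cons_val_one] at h2 h3
      rw [LinearMap.mem_ker, B_swap, neg_eq_zero]
      exact h x (by rw [B_swap, h2, neg_zero]) (by rw [B_swap, h3, neg_zero])
    rw [Matrix.range_cons, Matrix.range_cons, Matrix.range_empty, Set.union_empty, Set.singleton_union,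
      Submodule.mem_span_pair] at h1
    obtain ⟨a, b, hab⟩ := h1
    refine ⟨a, b, ?_⟩
    have h2 : sympB m F (u - (a • v + b • w)) = 0 := by
      rw [map_sub, map_add, map_smul, map_smul, hab, sub_self]
    exact sub_eq_zero.1 (sympB_nondegenerate.1 _ (fun y => by rw [h2]; rfl))

/-- a linear map with every vector an eigenvector is a scalar -/
theorem exists_scalar {ι : Type*} [Fintype ι] [DecidableEq ι] (M : Matrix ι ι F) (h : ∀ v : ι → F, ∃ c : F, M *ᵥ v = c • v) :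
    ∃ c : F, ∀ v : ι → F, M *ᵥ v = c • v := by
  obtain ⟨a, ha⟩ := (Matrix.mulVecLin M).exists_eq_smul_id_of_forall_notLinearIndependent fun v => by
    by_cases hv : v = 0
    · simp [hv, linearIndependent_fin2]
    · obtain ⟨a, ha⟩ := h v
      rw [LinearIndependent.pair_iff' hv]
      push Not
      exact ⟨a, ha.symm⟩
  exact ⟨a, fun v => by
    have := DFunLike.congr_fun ha v
    simpa using this⟩

/-- a matrix preserving perpendicularity is a similitude -/
theorem exists_mu (g : Matrix (Fin m ⊕ Fin m) (Fin m ⊕ Fin m) F)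
    (h : ∀ v w : V, sympB m F v w = 0 → sympB m F (g *ᵥ v) (g *ᵥ w) = 0) :
    ∃ c : F, ∀ v w : V, sympB m F (g *ᵥ v) (g *ᵥ w) = c * sympB m F v w := by
  have h1 : ∀ v w : V, sympB m F (g *ᵥ v) (g *ᵥ w) = sympB m F v ((-(Matrix.J (Fin m) F) * gᵀ * Matrix.J (Fin m) F * g) *ᵥ w) := by
    intro v w
    rw [sympB_apply, sympB_apply, sympForm, sympForm, mulVec_mulVec, mulVec_mulVec]
    have e1 : Matrix.J (Fin m) F * (-(Matrix.J (Fin m) F) * gᵀ * Matrix.J (Fin m) F * g) = gᵀ * (Matrix.J (Fin m) F * g) := by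
      rw [← Matrix.mul_assoc, ← Matrix.mul_assoc, ← Matrix.mul_assoc, Matrix.mul_neg, Matrix.J_squared, neg_neg,
        Matrix.one_mul, Matrix.mul_assoc]
    rw [e1, ← mulVec_mulVec _ gᵀ, Matrix.dotProduct_mulVec v gᵀ, Matrix.vecMul_transpose]
  obtain ⟨c, hc⟩ := exists_scalar (-(Matrix.J (Fin m) F) * gᵀ * Matrix.J (Fin m) F * g) (by
    intro w
    by_cases hw : w = 0
    · exact ⟨0, by rw [hw, Matrix.mulVec_zero, smul_zero]⟩
    obtain ⟨f, hf⟩ := exists_B_ne hw
    refine ⟨_, perp_perp hf ?_⟩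
    intro u hu
    rw [← h1]
    exact h u w hu)
  refine ⟨c, fun v w => ?_⟩
  rw [h1, hc, map_smul, smul_eq_mul]

theorem sympB_map (σ : F →+* F) (v w : V) : sympB m F (fun i => σ (v i)) (fun i => σ (w i)) = σ (sympB m F v w) := by
  rw [sympB_apply, sympB_apply, sympForm_eq, sympForm_eq, map_sum]
  exact Finset.sum_congr rfl fun i _ => by rw [map_sub, map_mul, map_mul]

/-- a semilinear map is given by a matrix -/
theorem exists_matrix {ι : Type*} [Fintype ι] [DecidableEq ι] (σ : F →+* F) (h : (ι → F) →+ (ι → F))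
    (hs : ∀ (c : F) v, h (c • v) = σ c • h v) : ∃ M : Matrix ι ι F, ∀ v, h v = M *ᵥ (fun i => σ (v i)) := by
  refine ⟨fun i j => h (Pi.single j 1) i, fun v => ?_⟩
  have h1 : v = ∑ j, v j • (Pi.single j 1 : ι → F) := by
    ext i
    simp [Finset.sum_apply, Pi.single_apply]
  conv_lhs => rw [h1, map_sum]
  ext i
  rw [Finset.sum_apply]
  simp only [Matrix.mulVec, dotProduct]
  apply Finset.sum_congr rfl
  intro j _
  rw [hs, Pi.smul_apply, smul_eq_mul, mul_comm]

theorem map_mulVec' {ι : Type*} [Fintype ι] (σ : F →+* F) (M : Matrix ι ι F) (v : ι → F) :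
    (fun i => σ ((M *ᵥ v) i)) = (M.map σ) *ᵥ (fun i => σ (v i)) := by
  ext i
  simp only [Matrix.mulVec, dotProduct, map_sum, map_mul, Matrix.map_apply]

variable {p : ℕ} [Fact p.Prime] [CharP F p] [Finite F]

theorem exists_f (hm : 2 ≤ m) (h4 : m = 2 → p ≠ 2) (α : MulAut (PSp m F)) (v : V) (hv : v ≠ 0) (c : F) (hc : c ≠ 0) :
    ∃ (w : V) (d : F), w ≠ 0 ∧ d ≠ 0 ∧ α (T v c) = T w d := by
  obtain ⟨w, d, hw, hwd⟩ := (isTP_iff hm h4 _).1 (((isTP_iff hm h4 _).2 ⟨v, c, hv, rfl⟩ : IsTP p (T v c : PSp m F)).map α)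
  refine ⟨w, d, hw, ?_, hwd⟩
  rintro rfl
  rw [T_zero, map_eq_one_iff α α.injective] at hwd
  exact T_ne_one hm hv hc hwd

theorem main (hm : 2 ≤ m) (h4 : m = 2 → p ≠ 2) (α : MulAut (PSp m F)) :
    ∃ (g : GL (Fin m ⊕ Fin m) F) (σ : F ≃+* F), g ∈ GSp m F ∧ IsInducedBySemilinearPSp g σ α := by
  classical
  choose! f c hf0 hc0 hf using fun (v : V) (hv : v ≠ 0) => exists_f (p := p) hm h4 α v hv 1 one_ne_zero
  have hsurj : ∀ y : V, y ≠ 0 → ∃ (x : V) (d : F), x ≠ 0 ∧ d ≠ 0 ∧ α (T x d) = T y 1 := by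
    intro y hy
    obtain ⟨x, d, hx, hd, h⟩ := exists_f (p := p) hm h4 α⁻¹ y hy 1 one_ne_zero
    exact ⟨x, d, hx, hd, by rw [← h, MulAut.apply_inv_self]⟩
  have hperp : ∀ v w, v ≠ 0 → w ≠ 0 → (sympB m F (f v) (f w) = 0 ↔ sympB m F v w = 0) := by
    intro v w hv hw
    rw [← T_comm hm (hf0 w hw) (hc0 v hv) (hc0 w hw), ← T_comm hm hw one_ne_zero one_ne_zero (c := 1) (d := 1),
      ← hf v hv, ← hf w hw, ← map_mul, ← map_mul]
    exact α.injective.eq_iff
  have hperp' : ∀ x d y w, x ≠ 0 → d ≠ 0 → y ≠ 0 → w ≠ 0 → α (T x d) = T y 1 → (sympB m F y (f w) = 0 ↔ sympB m F x w = 0) := by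
    intro x d y w hx hd hy hw h
    rw [← T_comm hm (hf0 w hw) one_ne_zero (hc0 w hw), ← T_comm hm hw hd one_ne_zero (c := d) (d := 1),
      ← h, ← hf w hw, ← map_mul, ← map_mul]
    exact α.injective.eq_iff
  have hcoll : Coll F f := by
    refine ⟨hf0, ?_⟩
    intro u v w hu hv hw
    rw [col_iff, col_iff]
    constructor
    · intro h x hxv hxw
      by_cases hx : x = 0
      · rw [hx, map_zero, LinearMap.zero_apply]
      rw [← hperp x u hx hu]
      exact h _ ((hperp x v hx hv).2 hxv) ((hperp x w hx hw).2 hxw)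
    · intro h y hyv hyw
      by_cases hy : y = 0
      · rw [hy, map_zero, LinearMap.zero_apply]
      obtain ⟨x, d, hx, hd, hxy⟩ := hsurj y hy
      rw [hperp' x d y u hx hd hy hu hxy]
      exact h x ((hperp' x d y v hx hd hy hv hxy).1 hyv) ((hperp' x d y w hx hd hy hw hxy).1 hyw)
  obtain ⟨σ, h, hs, hh⟩ := hcoll.ftpg (by rw [finrank_symp]; omega)
  have hσ : Function.Bijective σ := Finite.injective_iff_bijective.1 σ.injective
  obtain ⟨M, hM⟩ := exists_matrix σ h hs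
  have hh0 : ∀ v, v ≠ 0 → h v ≠ 0 := by
    intro v hv
    obtain ⟨a, ha, hav⟩ := hh v hv
    rw [hav]
    exact smul_ne_zero ha (hf0 v hv)
  have hlift : ∀ v : V, ∃ w : V, v = fun i => σ (w i) := by
    intro v
    refine ⟨fun i => Function.surjInv hσ.2 (v i), ?_⟩
    ext i
    exact (Function.surjInv_eq hσ.2 _).symm
  have hdet : IsUnit M.det := by
    rw [isUnit_iff_ne_zero]
    intro h0
    obtain ⟨v, hv, hv'⟩ := Matrix.exists_mulVec_eq_zero_iff.2 h0
    obtain ⟨w, rfl⟩ := hlift v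
    apply hh0 w
    · rintro rfl
      apply hv
      ext i
      simp
    · rw [hM, hv']
  obtain ⟨μ, hμ⟩ := exists_mu M (by
    intro v w hvw
    obtain ⟨v, rfl⟩ := hlift v
    obtain ⟨w, rfl⟩ := hlift w
    rw [sympB_map, map_eq_zero] at hvw
    rw [← hM, ← hM]
    by_cases hv : v = 0
    · rw [hv, map_zero, map_zero, LinearMap.zero_apply]
    by_cases hw : w = 0
    · rw [hw, map_zero, map_zero]
    obtain ⟨a, ha, hav⟩ := hh v hv
    obtain ⟨b, hb, hbw⟩ := hh w hw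
    rw [hav, hbw, map_smul, map_smul, LinearMap.smul_apply, (hperp v w hv hw).2 hvw, smul_zero, smul_zero])
  have hμ0 : μ ≠ 0 := by
    intro h0
    have hne : (Pi.single (Sum.inl ⟨0, by omega⟩) 1 : V) ≠ 0 := by
      intro h0
      have := congrFun h0 (Sum.inl ⟨0, by omega⟩)
      rw [Pi.single_eq_same, Pi.zero_apply] at this
      exact one_ne_zero this
    obtain ⟨w, hw⟩ := hlift (Pi.single (Sum.inl ⟨0, by omega⟩) 1 : V)
    have hw0 : w ≠ 0 := by
      rintro rfl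
      apply hne
      rw [hw]
      ext i
      simp
    obtain ⟨x, hx⟩ := exists_B_ne (hh0 w hw0)
    have hx' : x = M *ᵥ (M⁻¹ *ᵥ x) := by
      rw [mulVec_mulVec, Matrix.mul_nonsing_inv _ hdet, Matrix.one_mulVec]
    rw [hx', hM, hμ, h0, zero_mul] at hx
    exact zero_ne_one hx
  refine ⟨Matrix.GeneralLinearGroup.mkOfDetNeZero M hdet.ne_zero, RingEquiv.ofBijective σ hσ, ⟨Units.mk0 μ hμ0, ?_⟩, ?_⟩
  · intro u v
    rw [← sympB_apply, ← sympB_apply]
    exact hμ u v
  · intro s s' hss'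
    obtain ⟨k, hk⟩ := QuotientGroup.mk_surjective (α (QuotientGroup.mk s))
    rw [← hk]
    have hs' : ∀ v, s'.1 *ᵥ h v = h (s.1 *ᵥ v) := by
      intro v
      rw [hM, hM, map_mulVec' σ s.1 v, mulVec_mulVec, mulVec_mulVec]
      congr 1
      rw [hss']
      have e1 : (((Matrix.GeneralLinearGroup.mkOfDetNeZero M hdet.ne_zero)⁻¹ : GL (Fin m ⊕ Fin m) F) : Matrix (Fin m ⊕ Fin m) (Fin m ⊕ Fin m) F) * M = 1 := by
        change (((Matrix.GeneralLinearGroup.mkOfDetNeZero M hdet.ne_zero)⁻¹ : GL (Fin m ⊕ Fin m) F) : Matrix (Fin m ⊕ Fin m) (Fin m ⊕ Fin m) F) * ((Matrix.GeneralLinearGroup.mkOfDetNeZero M hdet.ne_zero : GL (Fin m ⊕ Fin m) F) : Matrix (Fin m ⊕ Fin m) (Fin m ⊕ Fin m) F) = 1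
        rw [← Units.val_mul, inv_mul_cancel]
        rfl
      rw [Matrix.mul_assoc, e1, Matrix.mul_one]
      rfl
    have hkey : ∀ v, v ≠ 0 → ∃ l : F, k.1 *ᵥ h v = l • (s'.1 *ᵥ h v) := by
      intro v hv
      have hsv : s.1 *ᵥ v ≠ 0 := mulVec_ne_zero s hv
      have e1 : α (T (s.1 *ᵥ v) 1) = T (k.1 *ᵥ f v) (c v) := by
        rw [← conj_T, map_mul, map_mul, map_inv, hf v hv, ← hk, conj_T]
      rw [hf _ hsv] at e1
      obtain ⟨l, hl⟩ := T_par hm (mulVec_ne_zero k (hf0 v hv)) (hc0 v hv) e1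
      obtain ⟨a, ha, hav⟩ := hh v hv
      obtain ⟨b, hb, hbv⟩ := hh _ hsv
      refine ⟨a * l * b⁻¹, ?_⟩
      rw [hs', hav, Matrix.mulVec_smul, hl, hbv, smul_smul, smul_smul, mul_assoc _ b⁻¹, inv_mul_cancel₀ hb, mul_one]
    obtain ⟨l, hl⟩ := exists_scalar (s'⁻¹ * k : G).1 (by
      intro v
      by_cases hv : v = 0
      · exact ⟨0, by rw [hv, Matrix.mulVec_zero, smul_zero]⟩
      have hv' : v = M *ᵥ (M⁻¹ *ᵥ v) := by
        rw [mulVec_mulVec, Matrix.mul_nonsing_inv _ hdet, Matrix.one_mulVec]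
      obtain ⟨w, hw⟩ := hlift (M⁻¹ *ᵥ v)
      rw [hw, ← hM] at hv'
      have hw0 : w ≠ 0 := by
        rintro rfl
        exact hv (by rw [hv', map_zero])
      obtain ⟨l, hl⟩ := hkey w hw0
      refine ⟨l, ?_⟩
      rw [hv', mul_mulVec, hl, Matrix.mulVec_smul, inv_mulVec])
    rw [QuotientGroup.eq]
    have e2 : s'⁻¹ * k ∈ Subgroup.center G := (mem_center_iff _).2 ⟨l, hl⟩
    have e3 : k⁻¹ * s' = (s'⁻¹ * k)⁻¹ := by group
    rw [e3]
    exact inv_mem e2

end CfsgLib.AutPSp
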