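import Cfsg.Agent.Lib.SemiAut

/-!
# Automorphisms induced by semilinear maps: the general setup and its consequences
-/

set_option autoImplicit false
set_option linter.unusedSectionVars false

namespace CfsgLib.SemiAut

open Matrix Cfsg

variable {ι : Type*} [Fintype ι] [DecidableEq ι] {F : Type*} [Field F] {S : Type*} [Group S]

/-- the general setup: `S` is a matrix group (embedded by `e`), `Γ` a group of semilinear maps normalizing it, `GG` a group of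
matrices in `Γ` (similitudes) -/
structure Setup (e : S →* GL ι F) (Γ : Subgroup (GamL ι F)) (GG : Subgroup (GL ι F)) : Prop where
  inj : Function.Injective e
  norm : Γ ≤ NN (lin.comp e)
  mem : ∀ g ∈ GG, lin g ∈ Γ
  irr : ∀ γ ∈ Γ, (∀ s, ∃ z ∈ Subgroup.center S, γ * lin (e s) * γ⁻¹ = lin (e (s * z))) → ∃ g : GL ι F, IsScal g ∧ γ = lin g
  conj : ∀ γ ∈ Γ, ∀ g ∈ GG, ∃ g' ∈ GG, γ * lin g * γ⁻¹ = lin g'
  range : ∀ s, e s ∈ GG

/-- the predicate that an automorphism is induced by a semilinear map -/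
def Ind (e : S →* GL ι F) (g : GL ι F) (σ : F ≃+* F) (β : S ⧸ Subgroup.center S ≃* S ⧸ Subgroup.center S) : Prop :=
  ∀ s s' : S, (e s').1 = g.1 * (e s).1.map σ * (g⁻¹).1 → β (QuotientGroup.mk s) = QuotientGroup.mk s'

theorem IsScal.central {g : GL ι F} (hg : IsScal g) (h : GL ι F) : g * h = h * g := by
  obtain ⟨c, hc⟩ := hg
  apply Units.ext
  rw [Units.val_mul, Units.val_mul, hc, Matrix.smul_mul, Matrix.mul_smul, Matrix.one_mul, Matrix.mul_one]

theorem IsScal.conj {g : GL ι F} (hg : IsScal g) (γ : GamL ι F) : ∃ g', IsScal g' ∧ γ * lin g * γ⁻¹ = lin g' := by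
  obtain ⟨h, σ⟩ := γ
  refine ⟨h * gmHom ι F σ g * h⁻¹, ?_, sm_conj_lin h g σ⟩
  obtain ⟨c, hc⟩ := hg
  have h1 : IsScal (gmHom ι F σ g) := by
    refine ⟨σ c, ?_⟩
    rw [gmHom_apply, hc]
    ext a b
    rw [Matrix.map_apply, Matrix.smul_apply, Matrix.smul_apply, smul_eq_mul, smul_eq_mul, map_mul, Matrix.one_apply]
    congr 1
    split_ifs
    · rw [map_one]
    · rw [map_zero]
  rw [← h1.central, mul_inv_cancel_right]
  exact h1

theorem IsScal.inv {g : GL ι F} (hg : IsScal g) : IsScal g⁻¹ := by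
  obtain ⟨c, hc⟩ := hg
  rcases isEmpty_or_nonempty ι with hι | ⟨⟨i⟩⟩
  · exact ⟨1, Subsingleton.elim _ _⟩
  have hc0 : c ≠ 0 := by
    rintro rfl
    have h1 : g.1 * (g⁻¹).1 = 1 := g.mul_inv
    rw [hc, zero_smul, Matrix.zero_mul] at h1
    have := congrFun (congrFun h1 i) i
    rw [Matrix.one_apply_eq, Matrix.zero_apply] at this
    exact zero_ne_one this
  refine ⟨c⁻¹, ?_⟩
  have h1 : g.1 * (g⁻¹).1 = 1 := g.mul_inv
  rw [hc, Matrix.smul_mul, Matrix.one_mul] at h1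
  rw [← h1, smul_smul, inv_mul_cancel₀ hc0, one_smul]

theorem IsScal.mul {g h : GL ι F} (hg : IsScal g) (hh : IsScal h) : IsScal (g * h) := by
  obtain ⟨c, hc⟩ := hg
  obtain ⟨d, hd⟩ := hh
  refine ⟨c * d, ?_⟩
  rw [Units.val_mul, hc, hd, Matrix.smul_mul, Matrix.one_mul, smul_smul]

namespace Setup

variable {e : S →* GL ι F} {Γ : Subgroup (GamL ι F)} {GG : Subgroup (GL ι F)} (hS : Setup e Γ GG)

include hS in
theorem inj' : Function.Injective (lin.comp e : S →* GamL ι F) := by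
  intro a b hab
  exact hS.inj (lin_injective hab)

/-- the homomorphism to the automorphism group -/
noncomputable def Psi : Γ →* MulAut (S ⧸ Subgroup.center S) :=
  (psi hS.inj').comp (Subgroup.inclusion hS.norm)

theorem Psi_eq (γ : Γ) : hS.Psi γ = psi hS.inj' ⟨γ.1, hS.norm γ.2⟩ := rfl

/-- restricted to the matrices -/
noncomputable def gam : GG →* MulAut (S ⧸ Subgroup.center S) :=
  hS.Psi.comp ((lin.comp GG.subtype).codRestrict Γ (fun g => hS.mem g.1 g.2))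

theorem gam_eq (g : GG) : hS.gam g = hS.Psi ⟨lin g.1, hS.mem g.1 g.2⟩ := rfl

theorem gam_psi (g : GG) : hS.gam g = psi hS.inj' ⟨lin g.1, hS.norm (hS.mem g.1 g.2)⟩ := rfl

theorem Psi_mk (γ : Γ) {s s' : S} (h : γ.1 * lin (e s) * γ.1⁻¹ = lin (e s')) :
    hS.Psi γ (QuotientGroup.mk s) = QuotientGroup.mk s' := psi_mk hS.inj' _ h

theorem Psi_eq_one {γ : Γ} : hS.Psi γ = 1 ↔ ∃ g : GL ι F, IsScal g ∧ γ.1 = lin g := by
  rw [Psi_eq, psi_eq_one_iff]
  constructor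
  · intro h
    exact hS.irr γ.1 γ.2 h
  · rintro ⟨g, hg, hγ⟩ s
    refine ⟨1, one_mem _, ?_⟩
    rw [mul_one, hγ]
    change lin g * lin (e s) * (lin g)⁻¹ = lin (e s)
    rw [← map_mul, hg.central, map_mul, mul_inv_cancel_right]

theorem Psi_inj {γ δ : Γ} : hS.Psi γ = hS.Psi δ ↔ ∃ g : GL ι F, IsScal g ∧ γ.1 = lin g * δ.1 := by
  rw [← mul_inv_eq_one, ← map_inv, ← map_mul, Psi_eq_one]
  constructor
  · rintro ⟨g, hg, h⟩
    refine ⟨g, hg, ?_⟩
    rw [← h, Subgroup.coe_mul, Subgroup.coe_inv, inv_mul_cancel_right]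
  · rintro ⟨g, hg, h⟩
    refine ⟨g, hg, ?_⟩
    rw [Subgroup.coe_mul, Subgroup.coe_inv, h, mul_inv_cancel_right]

/-- the semilinear predicate -/
theorem ind_iff {g : GL ι F} {σ : F ≃+* F} (hg : sm g σ ∈ Γ) (β : MulAut (S ⧸ Subgroup.center S)) :
    Ind e g σ β ↔ β = hS.Psi ⟨sm g σ, hg⟩ := by
  have key : ∀ s s' : S, ((e s').1 = g.1 * (e s).1.map σ * (g⁻¹).1) ↔ sm g σ * lin (e s) * (sm g σ)⁻¹ = lin (e s') := by
    intro s s'
    rw [sm_conj_lin, lin_injective.eq_iff]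
    constructor
    · intro h
      apply Units.ext
      rw [h]
      rfl
    · intro h
      rw [← h]
      rfl
  constructor
  · intro h
    apply psi_unique
    intro s s' hs
    exact h s s' ((key s s').2 hs)
  · rintro rfl s s' hs
    exact hS.Psi_mk _ ((key s s').1 hs)

/-- the group generated by the automorphisms induced by the matrices -/
theorem inndiag_eq : autSubgroupOf (fun β : S ⧸ Subgroup.center S ≃* S ⧸ Subgroup.center S =>
    ∃ g ∈ GG, Ind e g (RingEquiv.refl F) β) = hS.gam.range := by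
  apply le_antisymm
  · rw [autSubgroupOf, Subgroup.closure_le]
    rintro β ⟨g, hg, hβ⟩
    have hβ' := (hS.ind_iff (hS.mem g hg) β).1 hβ
    exact ⟨⟨g, hg⟩, hβ'.symm⟩
  · rintro _ ⟨g, rfl⟩
    apply Subgroup.subset_closure
    exact ⟨g.1, g.2, (hS.ind_iff (hS.mem g.1 g.2) _).2 rfl⟩

theorem inn_le : Inn (S ⧸ Subgroup.center S) ≤ hS.gam.range := by
  rintro _ ⟨x, rfl⟩
  obtain ⟨s, rfl⟩ := QuotientGroup.mk_surjective x
  exact ⟨⟨e s, hS.range s⟩, psi_range hS.inj' s⟩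

theorem conj_mem_range (γ : Γ) {δ : MulAut (S ⧸ Subgroup.center S)} (hδ : δ ∈ hS.gam.range) :
    hS.Psi γ * δ * (hS.Psi γ)⁻¹ ∈ hS.gam.range := by
  obtain ⟨g, rfl⟩ := hδ
  obtain ⟨g', hg', h⟩ := hS.conj γ.1 γ.2 g.1 g.2
  refine ⟨⟨g', hg'⟩, ?_⟩
  rw [gam_eq, gam_eq, ← map_inv, ← map_mul, ← map_mul]
  congr 1
  apply Subtype.ext
  exact h.symm

theorem conj_mem (hfull : Function.Surjective hS.Psi) (α δ : MulAut (S ⧸ Subgroup.center S)) :
    δ ∈ hS.gam.range ↔ α * δ * α⁻¹ ∈ hS.gam.range := by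
  obtain ⟨γ, rfl⟩ := hfull α
  constructor
  · exact hS.conj_mem_range γ
  · intro h
    have h1 := hS.conj_mem_range γ⁻¹ h
    rw [map_inv, inv_inv] at h1
    have h2 : (hS.Psi γ)⁻¹ * (hS.Psi γ * δ * (hS.Psi γ)⁻¹) * hS.Psi γ = δ := by group
    rwa [h2] at h1

variable (hN : ∀ α δ : MulAut (S ⧸ Subgroup.center S), δ ∈ hS.gam.range ↔ α * δ * α⁻¹ ∈ hS.gam.range)

include hN

/-- automorphisms of prime order in a coset -/
theorem conj_iff {x0 : Γ} {r : ℕ} (hr : orderOf (hS.Psi x0) = r)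
    (H : ∀ g ∈ GG, (∃ c : GL ι F, IsScal c ∧ (lin g * x0.1) ^ r = lin c) →
      ∃ k ∈ GG, ∃ c : GL ι F, IsScal c ∧ lin g * x0.1 = lin c * (lin k * x0.1 * (lin k)⁻¹))
    {x α δ : MulAut (S ⧸ Subgroup.center S)} (hx : α * x * α⁻¹ = hS.Psi x0) (hδ : δ ∈ hS.gam.range) :
    orderOf (δ * x) = r ↔ IsConjUnder hS.gam.range x (δ * x) := by
  have hpow : ∀ α y : MulAut (S ⧸ Subgroup.center S), orderOf (α * y * α⁻¹) = orderOf y := by
    intro α y
    exact orderOf_injective (MulAut.conj α).toMonoidHom (MulAut.conj α).injective y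
  constructor
  · intro h
    obtain ⟨g, hg⟩ := (hN α δ).1 hδ
    have h1 : orderOf (α * (δ * x) * α⁻¹) = r := by rw [hpow, h]
    have h2 : α * (δ * x) * α⁻¹ = hS.Psi (⟨lin g.1, hS.mem g.1 g.2⟩ * x0) := by
      rw [map_mul, ← hx, ← gam_eq, hg]
      group
    have h3 : hS.Psi ((⟨lin g.1, hS.mem g.1 g.2⟩ * x0) ^ r) = 1 := by
      rw [map_pow, ← h2, ← h1, pow_orderOf_eq_one]
    rw [Psi_eq_one] at h3
    obtain ⟨k, hk, c, hc, hkc⟩ := H g.1 g.2 h3
    have h4 : hS.Psi (⟨lin g.1, hS.mem g.1 g.2⟩ * x0) = hS.gam ⟨k, hk⟩ * hS.Psi x0 * (hS.gam ⟨k, hk⟩)⁻¹ := by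
      rw [gam_eq, ← map_inv, ← map_mul, ← map_mul, Psi_inj]
      exact ⟨c, hc, hkc⟩
    rw [← h2, ← hx] at h4
    refine ⟨α⁻¹ * hS.gam ⟨k, hk⟩ * α, ?_, ?_⟩
    · rw [hN α]
      have e1 : α * (α⁻¹ * hS.gam ⟨k, hk⟩ * α) * α⁻¹ = hS.gam ⟨k, hk⟩ := by group
      rw [e1]
      exact ⟨_, rfl⟩
    · calc δ * x = α⁻¹ * (α * (δ * x) * α⁻¹) * α := by group
        _ = _ := by rw [h4]; group
  · rintro ⟨h, _, hh⟩
    rw [hh, hpow, ← hr, ← hx, hpow]

theorem centralizer_eq {G0 : Type*} [Group G0] (J : G0 →* GL ι F) (N0 : Subgroup G0) [N0.Normal] {x0 : Γ}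
    (hJ : ∀ h, J h ∈ GG) (hJx : ∀ h, x0.1 * lin (J h) = lin (J h) * x0.1) (hN0 : ∀ h, h ∈ N0 ↔ IsScal (J h))
    (H : ∀ g ∈ GG, (∃ c : GL ι F, IsScal c ∧ x0.1 * lin g = lin c * (lin g * x0.1)) →
      ∃ h, ∃ c : GL ι F, IsScal c ∧ g = c * J h)
    {x α : MulAut (S ⧸ Subgroup.center S)} (hx : α * x * α⁻¹ = hS.Psi x0) :
    Nonempty (↥(hS.gam.range ⊓ Subgroup.centralizer {x}) ≃* G0 ⧸ N0) := by
  obtain ⟨e1⟩ := AutPSL.centralizer_conj hS.gam.range α x (hN α)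
  rw [hx] at e1
  let ρ : G0 →* MulAut (S ⧸ Subgroup.center S) := hS.gam.comp (J.codRestrict GG hJ)
  have hρ : ∀ h, ρ h = hS.Psi ⟨lin (J h), hS.mem _ (hJ h)⟩ := fun h => rfl
  have hrange : ρ.range = hS.gam.range ⊓ Subgroup.centralizer {hS.Psi x0} := by
    ext y
    constructor
    · rintro ⟨h, rfl⟩
      refine ⟨⟨_, rfl⟩, ?_⟩
      change ρ h ∈ Subgroup.centralizer {hS.Psi x0}
      rw [Subgroup.mem_centralizer_iff]
      rintro _ rfl
      rw [hρ, ← map_mul, ← map_mul]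
      congr 1
      apply Subtype.ext
      exact hJx h
    · rintro ⟨⟨g, rfl⟩, hg⟩
      have h1 := Subgroup.mem_centralizer_iff.1 hg _ rfl
      rw [gam_eq, ← map_mul, ← map_mul, Psi_inj] at h1
      obtain ⟨h, c, hc, hgc⟩ := H g.1 g.2 h1
      refine ⟨h, ?_⟩
      symm
      rw [hρ, gam_eq, Psi_inj]
      refine ⟨c, hc, ?_⟩
      change lin g.1 = lin c * lin (J h)
      rw [← map_mul, ← hgc]
  have hker : ρ.ker = N0 := by
    ext h
    rw [MonoidHom.mem_ker, hρ, Psi_eq_one, hN0]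
    constructor
    · rintro ⟨g, hg, h1⟩
      have h2 : J h = g := lin_injective h1
      rwa [h2]
    · intro h1
      exact ⟨_, h1, rfl⟩
  exact ⟨e1.trans ((MulEquiv.subgroupCongr hrange).symm.trans ((QuotientGroup.quotientKerEquivRange ρ).symm.trans
    (QuotientGroup.quotientMulEquivOfEq hker)))⟩

/-- the number of `S`-classes -/
theorem split_card {A : Type*} [Group A] (D : GG →* A) (hD : Function.Surjective D) {x0 : Γ}
    (H : ∀ g : GG, D g = 1 ↔ ∃ s : S, ∃ h ∈ GG, (∃ c : GL ι F, IsScal c ∧ x0.1 * lin h = lin c * (lin h * x0.1)) ∧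
      ∃ c : GL ι F, IsScal c ∧ g.1 = c * e s * h)
    {x α : MulAut (S ⧸ Subgroup.center S)} (hx : α * x * α⁻¹ = hS.Psi x0) :
    splitClassCount hS.gam.range (Inn (S ⧸ Subgroup.center S)) x = Nat.card A := by
  have hI : ∀ h, h ∈ Inn (S ⧸ Subgroup.center S) ↔ α * h * α⁻¹ ∈ Inn (S ⧸ Subgroup.center S) := by
    intro h
    have hnorm : (Inn (S ⧸ Subgroup.center S)).Normal := inferInstance
    refine ⟨fun hh => hnorm.conj_mem _ hh _, fun hh => ?_⟩
    have h1 := hnorm.conj_mem _ hh α⁻¹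
    have h2 : α⁻¹ * (α * h * α⁻¹) * α⁻¹⁻¹ = h := by group
    rwa [h2] at h1
  rw [← AutPSL.split_conj _ _ α (hN α) hI, hx]
  apply AutPSL.split_eq hS.gam D hD _ hS.inn_le
  intro g
  rw [H]
  constructor
  · rintro ⟨s, h, hh, hc, c, hc', hg⟩
    refine ⟨MulAut.conj (QuotientGroup.mk s), ⟨_, rfl⟩, hS.gam ⟨h, hh⟩, ⟨_, rfl⟩, ?_, ?_⟩
    · symm
      rw [gam_eq, ← map_mul, ← map_mul, Psi_inj]
      exact hc
    · rw [← psi_range hS.inj' s]
      change hS.gam g = hS.Psi ⟨lin (e s), hS.mem _ (hS.range s)⟩ * hS.gam ⟨h, hh⟩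
      rw [gam_eq, gam_eq, ← map_mul, Psi_inj]
      refine ⟨c, hc', ?_⟩
      change lin g.1 = lin c * (lin (e s) * lin h)
      rw [← map_mul, ← map_mul, ← mul_assoc, ← hg]
  · rintro ⟨_, ⟨x, rfl⟩, _, ⟨h, rfl⟩, hcomm, hg⟩
    obtain ⟨s, rfl⟩ := QuotientGroup.mk_surjective x
    refine ⟨s, h.1, h.2, ?_, ?_⟩
    · have h1 := hcomm.symm
      rw [gam_eq, ← map_mul, ← map_mul, Psi_inj] at h1
      exact h1
    · rw [← psi_range hS.inj' s] at hg
      change hS.gam g = hS.Psi ⟨lin (e s), hS.mem _ (hS.range s)⟩ * hS.gam h at hg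
      rw [gam_eq, gam_eq, ← map_mul, Psi_inj] at hg
      obtain ⟨c, hc, hg⟩ := hg
      refine ⟨c, hc, ?_⟩
      apply lin_injective
      rw [map_mul, map_mul, mul_assoc]
      exact hg

end Setup

end CfsgLib.SemiAut
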