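import Cfsg.Agent.Lib.Descent
import Cfsg.Agent.Lib.SemiAut2

/-!
# Galois descent (Hilbert 90) for `GL_n` over a cyclic extension, general index types.
-/

set_option autoImplicit false

namespace CfsgLib.Descent2

open Matrix

variable {F : Type*} [Field F]

variable {ι : Type*} [Fintype ι] [DecidableEq ι]

/-- `σ` applied to the entries of a matrix -/
theorem map_mulVec (σ : RingAut F) (g : Matrix ι ι F) (v : ι → F) :
    (fun i => σ ((g *ᵥ v) i)) = g.map σ *ᵥ (fun i => σ (v i)) := by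
  ext i
  simp only [mulVec, dotProduct, map_sum, map_mul, Matrix.map_apply]

/-- partial norms -/
def nm (σ : RingAut F) (g : Matrix ι ι F) : ℕ → Matrix ι ι F
  | 0 => 1
  | (i + 1) => g * (nm σ g i).map σ

theorem nm_succ' (σ : RingAut F) (g : Matrix ι ι F) (i : ℕ) :
    nm σ g (i + 1) = nm σ g i * g.map (σ ^ i) := by
  induction i with
  | zero =>
    show g * (1 : Matrix ι ι F).map σ = 1 * g.map ⇑(σ ^ 0 : RingAut F)
    rw [Matrix.map_one _ (map_zero σ) (map_one σ), mul_one, one_mul]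
    ext i j; rfl
  | succ i ih =>
    have e1 : ∀ A B : Matrix ι ι F, (A * B).map σ = A.map σ * B.map σ := fun A B => Matrix.map_mul (f := (σ : F →+* F))
    have e2 : (g.map (σ ^ i)).map σ = g.map (σ ^ (i + 1)) := by
      rw [pow_succ']
      ext i j; rfl
    show g * (nm σ g (i + 1)).map σ = (g * (nm σ g i).map σ) * g.map (σ ^ (i + 1))
    rw [ih, e1, e2, mul_assoc]

theorem nm_smul (σ : RingAut F) (c : F) (g : Matrix ι ι F) (i : ℕ) :
    nm σ (c • g) i = (∏ j ∈ Finset.range i, (σ ^ j) c) • nm σ g i := by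
  induction i with
  | zero => show (1 : Matrix ι ι F) = _ • 1; simp
  | succ i ih =>
    rw [nm_succ', nm_succ', ih, Finset.prod_range_succ]
    have : (c • g).map (σ ^ i) = (σ ^ i) c • g.map (σ ^ i) := by
      ext a b; simp
    rw [this, Matrix.smul_mul, Matrix.mul_smul, smul_smul]

/-- **Galois descent** -/
theorem descent (σ : RingAut F) (hσ : IsOfFinOrder σ) (g : Matrix ι ι F)
    (hg : nm σ g (orderOf σ) = 1) : ∃ h : GL ι F, g * h.1.map σ = h.1 := by
  classical
  set r := orderOf σ with hr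
  have hr0 : 0 < r := orderOf_pos_iff.2 hσ
  -- the fixed vectors
  let S : Set (ι → F) := {w | g *ᵥ (fun i => σ (w i)) = w}
  have hfix : ∀ (v : ι → F) (c : F), (∑ i ∈ Finset.range r, (σ ^ i) c • (nm σ g i *ᵥ (fun k => (σ ^ i) (v k)))) ∈ S := by
    intro v c
    show g *ᵥ (fun k => σ ((∑ i ∈ Finset.range r, (σ ^ i) c • (nm σ g i *ᵥ (fun k => (σ ^ i) (v k)))) k)) = _
    have h1 : (fun k => σ ((∑ i ∈ Finset.range r, (σ ^ i) c • (nm σ g i *ᵥ (fun k => (σ ^ i) (v k)))) k)) =
        ∑ i ∈ Finset.range r, (σ ^ (i + 1)) c • ((nm σ g i).map σ *ᵥ (fun k => (σ ^ (i + 1)) (v k))) := by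
      ext k
      rw [Finset.sum_apply, Finset.sum_apply, map_sum]
      apply Finset.sum_congr rfl
      intro i _
      rw [Pi.smul_apply, Pi.smul_apply, smul_eq_mul, smul_eq_mul, map_mul]
      have h2 := congrFun (map_mulVec σ (nm σ g i) (fun k => (σ ^ i) (v k))) k
      have h3 : ∀ x, σ ((σ ^ i) x) = (σ ^ (i + 1)) x := fun x => by rw [pow_succ']; rfl
      simp only [h3] at h2
      rw [h2, h3]
    rw [h1, mulVec_sum]
    have h2 : ∀ i, g *ᵥ ((σ ^ (i + 1)) c • ((nm σ g i).map σ *ᵥ (fun k => (σ ^ (i + 1)) (v k)))) =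
        (σ ^ (i + 1)) c • (nm σ g (i + 1) *ᵥ (fun k => (σ ^ (i + 1)) (v k))) := by
      intro i
      rw [mulVec_smul, mulVec_mulVec]
      rfl
    simp only [h2]
    have h3 := Finset.sum_range_succ' (fun i => (σ ^ i) c • (nm σ g i *ᵥ (fun k => (σ ^ i) (v k)))) r
    have h4 := Finset.sum_range_succ (fun i => (σ ^ i) c • (nm σ g i *ᵥ (fun k => (σ ^ i) (v k)))) r
    rw [h3] at h4
    have h5 : (σ ^ r) c • (nm σ g r *ᵥ (fun k => (σ ^ r) (v k))) = (σ ^ 0) c • (nm σ g 0 *ᵥ (fun k => (σ ^ 0) (v k))) := by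
      rw [hg, hr, pow_orderOf_eq_one, pow_zero]
      rfl
    rw [h5] at h4
    exact add_right_cancel h4
  have hspan : Submodule.span F S = ⊤ := by
    by_contra hne
    obtain ⟨f, hf0, hf⟩ := Submodule.exists_le_ker_of_lt_top _ (lt_top_iff_ne_top.2 hne)
    apply hf0
    apply LinearMap.ext
    intro v
    -- independence of characters
    have hind : LinearIndependent F (fun i : Fin r => (fun x : F => (σ ^ (i : ℕ)) x)) := by
      have h1 := linearIndependent_monoidHom F F
      let φ : Fin r → (F →* F) := fun i => ((σ ^ (i : ℕ) : RingAut F) : F →+* F).toMonoidHom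
      have hinj : Function.Injective φ := by
        intro i j hij
        have h2 : σ ^ (i : ℕ) = σ ^ (j : ℕ) := RingEquiv.ext fun x => DFunLike.congr_fun hij x
        exact Fin.ext (pow_injOn_Iio_orderOf (x := σ) i.2 j.2 h2)
      exact h1.comp φ hinj
    have h2 : ∑ i : Fin r, f (nm σ g i *ᵥ (fun k => (σ ^ (i : ℕ)) (v k))) • (fun x : F => (σ ^ (i : ℕ)) x) = 0 := by
      ext c
      rw [Finset.sum_apply]
      have h3 := hf (Submodule.subset_span (hfix v c))
      rw [LinearMap.mem_ker, map_sum, ← Fin.sum_univ_eq_sum_range (fun i => f ((σ ^ i) c • (nm σ g i *ᵥ (fun k => (σ ^ i) (v k))))) r] at h3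
      rw [Pi.zero_apply, ← h3]
      apply Finset.sum_congr rfl
      intro i _
      rw [Pi.smul_apply, smul_eq_mul, map_smul, smul_eq_mul, mul_comm]
    have h4 := Fintype.linearIndependent_iff.1 hind _ h2 ⟨0, hr0⟩
    have h5 : nm σ g ((⟨0, hr0⟩ : Fin r) : ℕ) *ᵥ (fun k => (σ ^ ((⟨0, hr0⟩ : Fin r) : ℕ)) (v k)) = v := by
      show (1 : Matrix ι ι F) *ᵥ (fun k => (σ ^ 0) (v k)) = v
      rw [one_mulVec, pow_zero]; rfl
    rw [h5] at h4
    exact h4
  let b := Module.Basis.ofSpan hspan.ge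
  have hbS : ∀ i, b i ∈ S := fun i => Module.Basis.ofSpan_subset hspan.ge ⟨i, rfl⟩
  have hcard : Module.finrank F (ι → F) = Fintype.card ι := Module.finrank_fintype_fun_eq_card F
  have hfin : Finite (hspan.ge |> fun h => ((linearIndepOn_empty F id).extend (Set.empty_subset S) : Set (ι → F))) :=
    Module.Finite.finite_basis b
  have : Fintype _ := Fintype.ofFinite (hspan.ge |> fun h => ((linearIndepOn_empty F id).extend (Set.empty_subset S) : Set (ι → F)))
  have hc : Fintype.card (hspan.ge |> fun h => ((linearIndepOn_empty F id).extend (Set.empty_subset S) : Set (ι → F))) = Fintype.card ι := by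
    rw [← Module.finrank_eq_card_basis b, hcard]
  let b' := b.reindex (Fintype.equivOfCardEq hc)
  have hb'S : ∀ i, b' i ∈ S := fun i => by
    rw [Module.Basis.reindex_apply]
    exact hbS _
  let A : Matrix ι ι F := Matrix.of fun i j => b' j i
  have hA : IsUnit A := by
    have h1 : A = (Pi.basisFun F ι).toMatrix b' := by
      ext i j
      simp [A, Module.Basis.toMatrix_apply]
    rw [h1]
    have := (Pi.basisFun F ι).invertibleToMatrix b'
    exact isUnit_of_invertible _
  obtain ⟨h, hh⟩ := hA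
  refine ⟨h, ?_⟩
  rw [hh]
  ext i j
  have h1 := congrFun (hb'S j) i
  rw [mul_apply]
  exact h1

end CfsgLib.Descent2

namespace CfsgLib.Descent2

open Matrix CfsgLib.SemiAut

variable {F : Type*} [Field F] {ι : Type*} [Fintype ι] [DecidableEq ι]

theorem sm_pow (σ : RingAut F) (g : GL ι F) (i : ℕ) :
    ∃ g' : GL ι F, g'.1 = nm σ g.1 i ∧ (sm g σ) ^ i = sm g' (σ ^ i) := by
  induction i with
  | zero => exact ⟨1, rfl, rfl⟩
  | succ i ih =>
    obtain ⟨g', h1, h2⟩ := ih
    refine ⟨g * gmHom ι F σ g', ?_, ?_⟩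
    · rw [Units.val_mul, gmHom_apply, h1]
      rfl
    · rw [pow_succ', h2, sm_mul, pow_succ']

theorem sm_comm_iff (σ : RingAut F) (g c : GL ι F) :
    sm 1 σ * lin g = lin c * (lin g * sm 1 σ) ↔ g.1.map σ = c.1 * g.1 := by
  rw [lin_eq, lin_eq, sm_mul, sm_mul, sm_mul, sm_inj]
  simp only [map_one, one_mul, mul_one, and_true, MulAut.one_apply]
  constructor
  · intro h
    rw [← Units.val_mul, ← h]
    rfl
  · intro h
    apply Units.ext
    rw [Units.val_mul, ← h]
    rfl

theorem sm_conj_iff (σ : RingAut F) (g c k : GL ι F) (hc : IsScal c) :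
    lin g * sm 1 σ = lin c * (lin k * sm 1 σ * (lin k)⁻¹) ↔ g.1 * k.1.map σ = c.1 * k.1 := by
  rw [← mul_assoc, eq_mul_inv_iff_mul_eq, lin_eq, lin_eq, lin_eq, sm_mul, sm_mul, sm_mul, sm_mul, sm_inj]
  simp only [map_one, one_mul, mul_one, and_true, MulAut.one_apply]
  constructor
  · intro h
    rw [← Units.val_mul c k, ← h]
    rfl
  · intro h
    apply Units.ext
    rw [Units.val_mul, Units.val_mul, ← h]
    rfl

/-- Hilbert 90 for the general linear group modulo scalars -/
theorem descent_scal [Finite F] [Nonempty ι] (σ : RingAut F) (g c : GL ι F) (hc : IsScal c)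
    (h : (lin g * sm 1 σ) ^ (orderOf σ) = lin c) :
    ∃ k : GL ι F, ∃ c' : GL ι F, IsScal c' ∧ g.1 * k.1.map σ = c'.1 * k.1 := by
  have hfin : Finite (RingAut F) := Finite.of_injective (fun σ : RingAut F => (σ : F → F)) DFunLike.coe_injective
  have hof : IsOfFinOrder σ := isOfFinOrder_of_finite σ
  obtain ⟨i0⟩ := (inferInstance : Nonempty ι)
  rw [← sm_eq] at h
  obtain ⟨g', hg', hg''⟩ := sm_pow σ g (orderOf σ)
  have h1 : g' = c := by
    rw [h, lin_eq] at hg''
    exact (sm_inj.1 hg'').1.symm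
  rw [h1] at hg'
  obtain ⟨l, hl⟩ := hc
  -- `l` is fixed
  have hl0 : l ≠ 0 := by
    rintro rfl
    have h2 : c.1 * (c⁻¹).1 = 1 := c.mul_inv
    rw [hl, zero_smul, Matrix.zero_mul] at h2
    have := congrFun (congrFun h2 i0) i0
    rw [Matrix.one_apply_eq, Matrix.zero_apply] at this
    exact zero_ne_one this
  have hσl : σ l = l := by
    have h2 : (sm g σ) * (sm g σ) ^ (orderOf σ) = (sm g σ) ^ (orderOf σ) * sm g σ := by
      rw [← pow_succ, ← pow_succ']
    rw [h, lin_eq, sm_mul, sm_mul, sm_inj] at h2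
    have h3 : g.1 * c.1.map σ = c.1 * g.1 := by
      have := congrArg Units.val h2.1
      rw [Units.val_mul, Units.val_mul, map_one] at this
      exact this
    rw [hl] at h3
    have h4 : (l • (1 : Matrix ι ι F)).map σ = σ l • (1 : Matrix ι ι F) := by
      ext a b
      rw [Matrix.map_apply, Matrix.smul_apply, Matrix.smul_apply, smul_eq_mul, smul_eq_mul, map_mul, Matrix.one_apply]
      congr 1
      split_ifs
      · rw [map_one]
      · rw [map_zero]
    rw [h4, Matrix.smul_mul, Matrix.mul_smul, Matrix.mul_one, Matrix.one_mul] at h3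
    have h5 : (σ l - l) • g.1 = 0 := by rw [sub_smul, h3, sub_self]
    have h6 := congrArg (fun M => M * (g⁻¹).1) h5
    have h7 : g.1 * (g⁻¹).1 = 1 := g.mul_inv
    simp only [Matrix.smul_mul, h7, Matrix.zero_mul] at h6
    have h8 := congrFun (congrFun h6 i0) i0
    rw [Matrix.smul_apply, Matrix.one_apply_eq, smul_eq_mul, mul_one] at h8
    exact sub_eq_zero.1 h8
  obtain ⟨m, hm⟩ := CfsgLib.Descent.exists_nrm σ hσl
  have hm0 : m ≠ 0 := by
    rintro rfl
    apply hl0
    rw [← hm]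
    exact Finset.prod_eq_zero (Finset.mem_range.2 (orderOf_pos_iff.2 hof)) (map_zero (σ ^ 0))
  obtain ⟨k, hk⟩ := descent σ hof (m⁻¹ • g.1) (by
    rw [nm_smul, ← hg', hl, smul_smul]
    have : ∏ j ∈ Finset.range (orderOf σ), (σ ^ j) m⁻¹ = (∏ j ∈ Finset.range (orderOf σ), (σ ^ j) m)⁻¹ := by
      rw [← Finset.prod_inv_distrib]
      exact Finset.prod_congr rfl fun j _ => map_inv₀ _ _
    rw [this, hm, inv_mul_cancel₀ hl0, one_smul])
  refine ⟨k, Matrix.GeneralLinearGroup.mkOfDetNeZero (m • 1) (by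
    rw [det_smul, det_one, mul_one]
    exact pow_ne_zero _ hm0), ⟨m, rfl⟩, ?_⟩
  change g.1 * k.1.map σ = (m • (1 : Matrix ι ι F)) * k.1
  rw [Matrix.smul_mul, Matrix.one_mul]
  conv_rhs => rw [← hk, Matrix.smul_mul, smul_smul, mul_inv_cancel₀ hm0, one_smul]

/-- the descent of matrices fixed up to scalars -/
theorem fixed_up_to_scalar [Finite F] [Nonempty ι] (σ : RingAut F) (g : GL ι F) {l : F} (h : g.1.map σ = l • g.1) :
    ∃ c : F, c ≠ 0 ∧ (c • g.1).map σ = c • g.1 := by
  obtain ⟨i0⟩ := (inferInstance : Nonempty ι)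
  have h1 : ∀ i, g.1.map (σ ^ i : RingAut F) = (∏ k ∈ Finset.range i, (σ ^ k) l) • g.1 := by
    intro i
    induction i with
    | zero => rw [pow_zero, Finset.prod_range_zero, one_smul]; ext a b; rfl
    | succ i ih =>
      have e1 : g.1.map (σ ^ (i + 1) : RingAut F) = (g.1.map σ).map (σ ^ i : RingAut F) := by
        rw [pow_succ]; ext a b; rfl
      rw [e1, h, Finset.prod_range_succ]
      have e2 : (l • g.1).map (σ ^ i : RingAut F) = (σ ^ i) l • g.1.map (σ ^ i : RingAut F) := by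
        ext a b; simp
      rw [e2, ih, smul_smul, mul_comm]
  have h2 := h1 (orderOf σ)
  rw [pow_orderOf_eq_one] at h2
  have h3 : g.1.map (1 : RingAut F) = g.1 := by ext i j; rfl
  rw [h3] at h2
  have h4 : ∏ k ∈ Finset.range (orderOf σ), (σ ^ k) l = 1 := by
    have h5 : (∏ k ∈ Finset.range (orderOf σ), (σ ^ k) l - 1) • g.1 = 0 := by rw [sub_smul, one_smul, ← h2, sub_self]
    have h6 := congrArg (fun M => M * (g⁻¹).1) h5
    have h7 : g.1 * (g⁻¹).1 = 1 := g.mul_inv
    simp only [Matrix.smul_mul, h7, Matrix.zero_mul] at h6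
    have h8 := congrFun (congrFun h6 i0) i0
    rw [Matrix.smul_apply, Matrix.one_apply_eq, smul_eq_mul, mul_one] at h8
    exact sub_eq_zero.1 h8
  obtain ⟨c, hc, hc'⟩ := AutPSL.hilbert90 σ h4
  refine ⟨c, hc, ?_⟩
  have e2 : (c • g.1).map σ = σ c • g.1.map σ := by
    ext a b; simp
  rw [e2, h, smul_smul, mul_comm, hc']

/-- matrices with entries in the fixed field -/
theorem fixed_matrix {F₀ : Type*} [Field F₀] (σ : RingAut F) (j : F₀ →+* F) (hj : ∀ x, σ x = x ↔ ∃ y, j y = x)
    (g : Matrix ι ι F) (hg : g.map σ = g) : ∃ h : Matrix ι ι F₀, h.map j = g := by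
  have h1 : ∀ a b, ∃ y, j y = g a b := fun a b => (hj _).1 (congrFun (congrFun hg a) b)
  choose h hh using h1
  exact ⟨Matrix.of h, by ext a b; exact hh a b⟩

theorem fixed_GL {F₀ : Type*} [Field F₀] (σ : RingAut F) (j : F₀ →+* F) (hj : ∀ x, σ x = x ↔ ∃ y, j y = x)
    (g : GL ι F) (hg : (g.1).map σ = g.1) : ∃ h : GL ι F₀, Matrix.GeneralLinearGroup.map j h = g := by
  obtain ⟨h, h2⟩ := fixed_matrix σ j hj g.1 hg
  have h3 : j h.det = g.1.det := by
    rw [RingHom.map_det, ← h2]; rfl
  have h4 : h.det ≠ 0 := by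
    intro h0
    rw [h0, map_zero] at h3
    exact ((Matrix.isUnit_iff_isUnit_det _).1 g.isUnit).ne_zero h3.symm
  refine ⟨Matrix.GeneralLinearGroup.mkOfDetNeZero _ h4, ?_⟩
  apply Units.ext
  exact h2

/-- a semilinear map fixing all points is a scalar -/
theorem semi_scalar (σ : RingAut F) (g : GL ι F) (hι : ∃ i j : ι, i ≠ j)
    (h : ∀ v : ι → F, ∃ c : F, g.1 *ᵥ (fun i => σ (v i)) = c • v) : σ = 1 ∧ IsScal g := by
  have hs : ∀ i, ∃ c : F, c ≠ 0 ∧ g.1 *ᵥ (Pi.single i 1) = c • (Pi.single i 1 : ι → F) := by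
    intro i
    obtain ⟨c, hc⟩ := h (Pi.single i 1)
    have h1 : (fun k => σ ((Pi.single i 1 : ι → F) k)) = Pi.single i 1 := by
      ext k
      simp only [Pi.single_apply]
      split_ifs
      · rw [map_one]
      · rw [map_zero]
    rw [h1] at hc
    refine ⟨c, ?_, hc⟩
    rintro rfl
    rw [zero_smul] at hc
    have h2 : (g⁻¹).1 *ᵥ (g.1 *ᵥ (Pi.single i 1)) = (Pi.single i 1 : ι → F) := by
      rw [mulVec_mulVec, ← Units.val_mul, inv_mul_cancel, Units.val_one, one_mulVec]
    rw [hc, mulVec_zero] at h2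
    have := congrFun h2 i
    rw [Pi.single_eq_same, Pi.zero_apply] at this
    exact zero_ne_one this
  choose c hc0 hc using hs
  have key : ∀ i j, i ≠ j → ∀ a : F, σ a * c j = c i * a := by
    intro i j hij a
    obtain ⟨l, hl⟩ := h (Pi.single i 1 + a • Pi.single j 1)
    have h1 : (fun k => σ ((Pi.single i 1 + a • Pi.single j 1 : ι → F) k)) = Pi.single i 1 + σ a • Pi.single j 1 := by
      ext k
      simp only [Pi.add_apply, Pi.smul_apply, Pi.single_apply, map_add, smul_eq_mul, map_mul]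
      congr 1
      · split_ifs
        · rw [map_one]
        · rw [map_zero]
      · congr 1
        split_ifs
        · rw [map_one]
        · rw [map_zero]
    rw [h1, mulVec_add, mulVec_smul, hc, hc] at hl
    have h2 := congrFun hl i
    have h3 := congrFun hl j
    simp only [Pi.add_apply, Pi.smul_apply, Pi.single_eq_same, Pi.single_eq_of_ne hij, Pi.single_eq_of_ne hij.symm, smul_eq_mul,
      mul_one, mul_zero, add_zero, zero_add] at h2 h3
    rw [h3, h2]
  obtain ⟨i, j, hij⟩ := hι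
  have hcc : ∀ k, c k = c i := by
    intro k
    by_cases hk : k = i
    · rw [hk]
    · have := key i k (fun h => hk h.symm) 1
      rw [map_one, one_mul, mul_one] at this
      exact this
  refine ⟨?_, c i, ?_⟩
  · ext a
    have h1 := key i j hij a
    rw [hcc j, mul_comm] at h1
    exact mul_left_cancel₀ (hc0 i) h1
  · ext a b
    have h1 := congrFun (hc b) a
    rw [Matrix.mulVec_single_one] at h1
    rw [Matrix.smul_apply, smul_eq_mul, Matrix.one_apply]
    change g.1 a b = _
    change g.1 a b = _ at h1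
    rw [h1, Pi.smul_apply, Pi.single_apply, smul_eq_mul, hcc b]

end CfsgLib.Descent2
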