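import Cfsg.Agent.Lib.AutPSp5
import Cfsg.Agent.Lib.Descent2

/-!
# Automorphisms of `PSp_{2m}(F)`, part 6: the setup, Hilbert 90 for `GSp`.
-/

set_option autoImplicit false
set_option linter.unusedSimpArgs false
set_option linter.unusedSectionVars false

namespace CfsgLib.AutPSp

open Module Matrix Cfsg CfsgLib.Symp CfsgLib.SemiAut CfsgLib.Descent2

variable {F : Type*} [Field F] {m : ℕ}

local notation "V" => (Fin m ⊕ Fin m → F)
local notation "G" => Matrix.symplecticGroup (Fin m) F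

/-- the embedding of the symplectic group in the general linear group -/
def emb (m : ℕ) (F : Type*) [Field F] : Matrix.symplecticGroup (Fin m) F →* GL (Fin m ⊕ Fin m) F :=
  (Matrix.symplecticGroup (Fin m) F).subtype.toHomUnits

theorem emb_coe (s : G) : (emb m F s).1 = s.1 := rfl

theorem emb_injective : Function.Injective (emb m F) := by
  intro a b hab
  exact Subtype.ext (congrArg Units.val hab)

theorem mem_GSp {g : GL (Fin m ⊕ Fin m) F} :
    g ∈ GSp m F ↔ ∃ c : Fˣ, ∀ u v : V, sympB m F (g.1 *ᵥ u) (g.1 *ᵥ v) = (c : F) * sympB m F u v := by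
  constructor
  · rintro ⟨c, hc⟩
    exact ⟨c, fun u v => by rw [sympB_apply, sympB_apply]; exact hc u v⟩
  · rintro ⟨c, hc⟩
    exact ⟨c, fun u v => by rw [← sympB_apply, ← sympB_apply]; exact hc u v⟩

/-- every vector is the image of a vector under a field automorphism -/
theorem exists_pre (σ : RingAut F) {ι : Type*} (v : ι → F) : ∃ w : ι → F, v = fun i => σ (w i) :=
  ⟨fun i => σ.symm (v i), by ext i; exact (σ.apply_symm_apply _).symm⟩

theorem gm_mem_GSp (σ : RingAut F) {g : GL (Fin m ⊕ Fin m) F} (hg : g ∈ GSp m F) : gmHom _ F σ g ∈ GSp m F := by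
  rw [mem_GSp] at hg ⊢
  obtain ⟨c, hc⟩ := hg
  refine ⟨Units.map (σ : F →* F) c, fun u v => ?_⟩
  obtain ⟨u, rfl⟩ := exists_pre σ u
  obtain ⟨v, rfl⟩ := exists_pre σ v
  rw [gmHom_apply]
  have h1 : ∀ w : V, (g.1.map σ) *ᵥ (fun i => σ (w i)) = fun i => σ ((g.1 *ᵥ w) i) :=
    fun w => (map_mulVec' (σ : F →+* F) g.1 w).symm
  have h2 : ∀ w w' : V, sympB m F (fun i => σ (w i)) (fun i => σ (w' i)) = σ (sympB m F w w') :=
    fun w w' => sympB_map (σ : F →+* F) w w'
  rw [h1, h1, h2, h2, hc, map_mul]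
  rfl

/-- the semilinear similitudes -/
def GamSp (m : ℕ) (F : Type*) [Field F] : Subgroup (GamL (Fin m ⊕ Fin m) F) where
  carrier := {γ | γ.left ∈ GSp m F}
  one_mem' := by
    change (1 : GL (Fin m ⊕ Fin m) F) ∈ GSp m F
    exact one_mem _
  mul_mem' {a b} ha hb := by
    change a.left * gmHom _ F a.right b.left ∈ GSp m F
    exact mul_mem ha (gm_mem_GSp _ hb)
  inv_mem' {a} ha := by
    change (a⁻¹).left ∈ GSp m F
    rw [SemidirectProduct.inv_left]
    exact gm_mem_GSp _ (inv_mem ha)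

theorem sm_mem_GamSp {g : GL (Fin m ⊕ Fin m) F} {σ : RingAut F} : sm g σ ∈ GamSp m F ↔ g ∈ GSp m F := Iff.rfl

theorem emb_mem (s : G) : emb m F s ∈ GSp m F := by
  rw [mem_GSp]
  exact ⟨1, fun u v => by rw [Units.val_one, one_mul]; exact G_pres s u v⟩

/-- similitudes normalize the symplectic group -/
theorem conj_emb {g : GL (Fin m ⊕ Fin m) F} (hg : g ∈ GSp m F) (σ : RingAut F) (s : G) :
    ∃ s' : G, g * gmHom _ F σ (emb m F s) * g⁻¹ = emb m F s' := by
  rw [mem_GSp] at hg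
  obtain ⟨c, hc⟩ := hg
  have h1 : ∀ u v : V, sympB m F ((s.1.map σ) *ᵥ u) ((s.1.map σ) *ᵥ v) = sympB m F u v := by
    intro u v
    obtain ⟨u, rfl⟩ := exists_pre σ u
    obtain ⟨v, rfl⟩ := exists_pre σ v
    have h1 : ∀ w : V, (s.1.map σ) *ᵥ (fun i => σ (w i)) = fun i => σ ((s.1 *ᵥ w) i) :=
      fun w => (map_mulVec' (σ : F →+* F) s.1 w).symm
    have h2 : ∀ w w' : V, sympB m F (fun i => σ (w i)) (fun i => σ (w' i)) = σ (sympB m F w w') :=
      fun w w' => sympB_map (σ : F →+* F) w w'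
    rw [h1, h1, h2, h2, G_pres]
  have h2 : g.1 * s.1.map σ * (g⁻¹).1 ∈ Matrix.symplecticGroup (Fin m) F := by
    rw [mem_symplecticGroup_iff]
    intro u v
    rw [← sympB_apply, ← sympB_apply, ← mulVec_mulVec, ← mulVec_mulVec, ← mulVec_mulVec, ← mulVec_mulVec, hc, h1, ← hc,
      mulVec_mulVec, mulVec_mulVec, Units.mul_inv, one_mulVec, one_mulVec]
  refine ⟨⟨_, h2⟩, ?_⟩
  apply Units.ext
  rfl

/-- the setup -/
theorem setup [Finite F] (hm : 2 ≤ m) : Setup (emb m F) (GamSp m F) (GSp m F) := by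
  have hinj : Function.Injective (lin.comp (emb m F) : G →* _) := fun a b hab => emb_injective (lin_injective hab)
  refine { inj := emb_injective, norm := ?_, mem := ?_, irr := ?_, conj := ?_, range := emb_mem }
  · rintro ⟨g, σ⟩ hg
    apply mem_norm_of hinj
    intro s
    obtain ⟨s', hs'⟩ := conj_emb hg σ s
    refine ⟨s', ?_⟩
    change sm g σ * lin (emb m F s) * (sm g σ)⁻¹ = lin (emb m F s')
    rw [sm_conj_lin, hs']
  · intro g hg
    exact hg
  · rintro ⟨g, σ⟩ hg hγ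
    have hg' : g ∈ GSp m F := hg
    rw [mem_GSp] at hg'
    obtain ⟨c, hc⟩ := hg'
    have h1 : ∀ v : V, ∃ d : F, g.1 *ᵥ (fun i => σ (v i)) = d • v := by
      intro v
      by_cases hv : v = 0
      · refine ⟨0, ?_⟩
        rw [hv, zero_smul]
        have : (fun i => σ ((0 : V) i)) = 0 := by ext i; simp
        rw [this, mulVec_zero]
      obtain ⟨z, hz, hz'⟩ := hγ (tr v 1)
      have h2 : sm g σ * lin (emb m F (tr v 1)) * (sm g σ)⁻¹ = lin (emb m F (tr v 1 * z)) := hz'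
      rw [sm_conj_lin] at h2
      have h3 := lin_injective h2
      have h4 : tr (g.1 *ᵥ (fun i => σ (v i))) (c : F)⁻¹ = tr v 1 * z := by
        apply emb_injective
        rw [← h3]
        apply Units.ext
        change (tr (g.1 *ᵥ (fun i => σ (v i))) (c : F)⁻¹).1 = g.1 * (tr v 1).1.map σ * (g⁻¹).1
        apply mulVec_injective_matrix
        intro x
        obtain ⟨y, hy⟩ := exists_pre σ ((g⁻¹).1 *ᵥ x)
        have hx : x = g.1 *ᵥ (fun i => σ (y i)) := by
          rw [← hy, mulVec_mulVec, Units.mul_inv, one_mulVec]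
        have h2 : ∀ w w' : V, sympB m F (fun i => σ (w i)) (fun i => σ (w' i)) = σ (sympB m F w w') :=
          fun w w' => sympB_map (σ : F →+* F) w w'
        have h5 : ((tr v 1).1.map σ) *ᵥ (fun i => σ (y i)) = fun i => σ (((tr v 1).1 *ᵥ y) i) :=
          (map_mulVec' (σ : F →+* F) (tr v 1).1 y).symm
        rw [tr_mulVec, ← mulVec_mulVec, hy, ← mulVec_mulVec, h5, tr_mulVec, hx, hc, h2]
        have h6 : (fun i => σ ((y + (1 * sympB m F y v) • v) i)) = (fun i => σ (y i)) + σ (sympB m F y v) • (fun i => σ (v i)) := by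
          ext i
          simp
        rw [h6, mulVec_add, mulVec_smul, ← mul_assoc, inv_mul_cancel₀ c.ne_zero, one_mul]
      have h5 : (T (g.1 *ᵥ (fun i => σ (v i))) (c : F)⁻¹ : PSp m F) = T v 1 := by
        rw [T, T, h4, eq_comm, mk_eq_iff]
        exact ⟨z, hz, rfl⟩
      have h6 : g.1 *ᵥ (fun i => σ (v i)) ≠ 0 := by
        intro h0
        have h7 : (g⁻¹).1 *ᵥ (g.1 *ᵥ (fun i => σ (v i))) = fun i => σ (v i) := by
          rw [mulVec_mulVec, Units.inv_mul, one_mulVec]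
        rw [h0, mulVec_zero] at h7
        apply hv
        ext i
        have := congrFun h7 i
        rw [Pi.zero_apply] at this
        rw [Pi.zero_apply]
        exact σ.injective (by rw [← this, map_zero])
      obtain ⟨l, hl⟩ := T_par hm h6 (inv_ne_zero c.ne_zero) h5.symm
      exact ⟨l, hl⟩
    obtain ⟨hσ, hs⟩ := semi_scalar σ g ⟨Sum.inl ⟨0, by omega⟩, Sum.inl ⟨1, by omega⟩, by simp⟩ h1
    refine ⟨g, hs, ?_⟩
    rw [hσ]
    rfl
  · rintro ⟨h, σ⟩ hh g hg
    refine ⟨h * gmHom _ F σ g * h⁻¹, mul_mem (mul_mem hh (gm_mem_GSp σ hg)) (inv_mem hh), ?_⟩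
    exact sm_conj_lin h g σ

theorem exists_fixedField (σ : RingAut F) : ∃ (K : Subfield F), ∀ x, σ x = x ↔ ∃ y : K, K.subtype y = x := by
  refine ⟨RingHom.eqLocusField (σ : F →+* F) (RingHom.id F), fun x => ?_⟩
  constructor
  · intro h
    exact ⟨⟨x, h⟩, rfl⟩
  · rintro ⟨y, rfl⟩
    exact y.2

theorem exists_B_eq_one (hm : 1 ≤ m) : ∃ u v : V, sympB m F u v = 1 := by
  have hne : (Pi.single (Sum.inl ⟨0, by omega⟩) 1 : V) ≠ 0 := by
    intro h0
    have := congrFun h0 (Sum.inl ⟨0, by omega⟩)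
    rw [Pi.single_eq_same, Pi.zero_apply] at this
    exact one_ne_zero this
  obtain ⟨x, hx⟩ := exists_B_ne hne
  exact ⟨x, _, hx⟩

/-- the form with Gram matrix `A` -/
theorem toBilin'_eq {ι K : Type*} [Fintype ι] [DecidableEq ι] [Field K] (A : Matrix ι ι K) (u v : ι → K) :
    Matrix.toBilin' A u v = u ⬝ᵥ (A *ᵥ v) := Matrix.toBilin'_apply' A u v

/-- Hilbert 90 for the group of symplectic similitudes -/
theorem descent_GSp [Finite F] (hm : 1 ≤ m) (σ : RingAut F) {g : GL (Fin m ⊕ Fin m) F} (hg : g ∈ GSp m F)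
    (h : ∃ c : GL (Fin m ⊕ Fin m) F, IsScal c ∧ (lin g * sm 1 σ) ^ (orderOf σ) = lin c) :
    ∃ k ∈ GSp m F, ∃ c : GL (Fin m ⊕ Fin m) F, IsScal c ∧ lin g * sm 1 σ = lin c * (lin k * sm 1 σ * (lin k)⁻¹) := by
  have hne : Nonempty (Fin m ⊕ Fin m) := ⟨Sum.inl ⟨0, by omega⟩⟩
  obtain ⟨c0, hc0, h⟩ := h
  obtain ⟨k, c, ⟨l, hl⟩, hk⟩ := descent_scal σ g c0 hc0 h
  rw [mem_GSp] at hg
  obtain ⟨ν, hν⟩ := hg
  have hl0 : l ≠ 0 := by
    rintro rfl
    have h1 : c.1 * (c⁻¹).1 = 1 := c.mul_inv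
    rw [hl, zero_smul, Matrix.zero_mul] at h1
    have h2 := congrFun (congrFun h1 (Sum.inl ⟨0, by omega⟩)) (Sum.inl ⟨0, by omega⟩)
    rw [Matrix.one_apply_eq, Matrix.zero_apply] at h2
    exact zero_ne_one h2
  have hk' : ∀ v : V, l • (k.1 *ᵥ v) = g.1 *ᵥ (k.1.map σ *ᵥ v) := by
    intro v
    rw [mulVec_mulVec, hk, hl, Matrix.smul_mul, Matrix.one_mul, smul_mulVec]
  have hB : ∀ u v : V, l * l * sympB m F (k.1 *ᵥ u) (k.1 *ᵥ v) =
      ν * sympB m F ((k.1.map σ) *ᵥ u) ((k.1.map σ) *ᵥ v) := by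
    intro u v
    rw [← hν, ← hk', ← hk', map_smul, map_smul, LinearMap.smul_apply, smul_eq_mul, smul_eq_mul]
    ring
  let A : Matrix (Fin m ⊕ Fin m) (Fin m ⊕ Fin m) F := k.1ᵀ * Matrix.J (Fin m) F * k.1
  have hA : ∀ u v : V, u ⬝ᵥ (A *ᵥ v) = sympB m F (k.1 *ᵥ u) (k.1 *ᵥ v) := by
    intro u v
    rw [sympB_apply, sympForm, ← mulVec_mulVec, ← mulVec_mulVec, Matrix.dotProduct_mulVec u k.1ᵀ, vecMul_transpose]
  have hAent : ∀ a b, A a b = sympB m F (k.1 *ᵥ Pi.single a 1) (k.1 *ᵥ Pi.single b 1) := by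
    intro a b
    rw [← hA]
    simp
  set τ : F := (l * l)⁻¹ * ν with hτ
  have hll : l * l ≠ 0 := mul_ne_zero hl0 hl0
  have hτ0 : τ ≠ 0 := mul_ne_zero (inv_ne_zero hll) ν.ne_zero
  have hAσ : A = τ • A.map σ := by
    ext a b
    rw [Matrix.smul_apply, Matrix.map_apply, hAent]
    have h1 := hB (Pi.single a 1) (Pi.single b 1)
    have h2 : ∀ a, (k.1.map σ) *ᵥ (Pi.single a 1 : V) = fun i => σ ((k.1 *ᵥ (Pi.single a 1 : V)) i) := by
      intro a
      have h3 : (fun i => σ ((Pi.single a 1 : V) i)) = Pi.single a 1 := by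
        ext i
        simp only [Pi.single_apply]
        split_ifs
        · rw [map_one]
        · rw [map_zero]
      have h4 := map_mulVec' (σ : F →+* F) k.1 (Pi.single a 1)
      change (fun i => σ ((k.1 *ᵥ (Pi.single a 1 : V)) i)) = (k.1.map σ) *ᵥ (fun i => σ ((Pi.single a 1 : V) i)) at h4
      rw [h4, h3]
    have h5 : ∀ w w' : V, sympB m F (fun i => σ (w i)) (fun i => σ (w' i)) = σ (sympB m F w w') :=
      fun w w' => sympB_map (σ : F →+* F) w w'
    rw [h2, h2, h5] at h1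
    rw [smul_eq_mul, hτ, mul_assoc, ← h1, ← mul_assoc, inv_mul_cancel₀ hll, one_mul]
  -- `A` is invertible
  obtain ⟨J', hJ'⟩ : ∃ J' : GL (Fin m ⊕ Fin m) F, J'.1 = A := by
    have h1 : A.det ≠ 0 := by
      simp only [A]
      rw [det_mul, det_mul, det_transpose]
      have h2 : k.1.det ≠ 0 := ((Matrix.isUnit_iff_isUnit_det _).1 k.isUnit).ne_zero
      have h3 : (Matrix.J (Fin m) F).det ≠ 0 := by
        have := Matrix.isUnit_det_J (l := Fin m) (R := F)
        exact this.ne_zero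
      exact mul_ne_zero (mul_ne_zero h2 h3) h2
    exact ⟨Matrix.GeneralLinearGroup.mkOfDetNeZero A h1, rfl⟩
  obtain ⟨d, hd0, hd⟩ := fixed_up_to_scalar σ J' (l := τ⁻¹) (by
    rw [hJ']
    conv_rhs => rw [hAσ, smul_smul, inv_mul_cancel₀ hτ0, one_smul])
  rw [hJ'] at hd
  obtain ⟨K, hK⟩ := exists_fixedField σ
  obtain ⟨A0, hA0⟩ := fixed_matrix σ K.subtype hK (d • A) hd
  have hA0B : ∀ u v : Fin m ⊕ Fin m → K, K.subtype (Matrix.toBilin' A0 u v) =
      d * sympB m F (k.1 *ᵥ (fun i => K.subtype (u i))) (k.1 *ᵥ (fun i => K.subtype (v i))) := by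
    intro u v
    rw [toBilin'_eq, ← hA, ← smul_eq_mul, ← dotProduct_smul, ← smul_mulVec, ← hA0]
    have h1 : (fun i => K.subtype ((A0 *ᵥ v) i)) = A0.map K.subtype *ᵥ (fun i => K.subtype (v i)) := by
      ext i
      simp only [mulVec, dotProduct, map_sum, map_mul, Matrix.map_apply]
    rw [← h1]
    simp only [dotProduct, map_sum, map_mul]
  have hinjK : Function.Injective K.subtype := K.subtype.injective
  have hdet0 : A0.det ≠ 0 := by
    intro h0
    have h1 : K.subtype A0.det = (A0.map K.subtype).det := by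
      rw [RingHom.map_det]; rfl
    rw [h0, map_zero, hA0, det_smul] at h1
    have h2 : A.det ≠ 0 := by
      rw [← hJ']
      exact ((Matrix.isUnit_iff_isUnit_det _).1 J'.isUnit).ne_zero
    exact mul_ne_zero (pow_ne_zero _ hd0) h2 h1.symm
  obtain ⟨e, he⟩ := exists_equiv_sympB (m := m) (B := Matrix.toBilin' A0)
    (LinearMap.BilinForm.nondegenerate_toBilin'_iff_det_ne_zero.2 hdet0) (by
      intro u
      apply hinjK
      rw [hA0B, B_self, mul_zero, map_zero]) (finrank_symp m)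
  -- the matrix of `e`
  let H0 : Matrix (Fin m ⊕ Fin m) (Fin m ⊕ Fin m) K := LinearMap.toMatrix' (e : (Fin m ⊕ Fin m → K) →ₗ[K] (Fin m ⊕ Fin m → K))
  have hH0 : ∀ v, H0 *ᵥ v = e v := by
    intro v
    rw [← Matrix.toLin'_apply, Matrix.toLin'_toMatrix']
    rfl
  have hH0det : H0.det ≠ 0 := by
    intro h0
    obtain ⟨v, hv, hv'⟩ := Matrix.exists_mulVec_eq_zero_iff.2 h0
    rw [hH0] at hv'
    exact hv (e.map_eq_zero_iff.1 hv')
  let H : GL (Fin m ⊕ Fin m) F := Matrix.GeneralLinearGroup.map K.subtype (Matrix.GeneralLinearGroup.mkOfDetNeZero H0 hH0det)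
  have hH : H.1 = H0.map K.subtype := rfl
  have hHσ : H.1.map σ = H.1 := by
    ext a b
    rw [hH, Matrix.map_apply, Matrix.map_apply]
    exact (hK _).2 ⟨_, rfl⟩
  have hM : d • A = H.1ᵀ * Matrix.J (Fin m) F * H.1 := by
    ext a b
    have h1 : ∀ a, (fun i => K.subtype ((Pi.single a 1 : Fin m ⊕ Fin m → K) i)) = (Pi.single a 1 : V) := by
      intro a
      ext i
      simp only [Pi.single_apply]
      split_ifs
      · rw [map_one]
      · rw [map_zero]
    have h2 : (H.1ᵀ * Matrix.J (Fin m) F * H.1) a b = sympB m F (H.1 *ᵥ Pi.single a 1) (H.1 *ᵥ Pi.single b 1) := by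
      rw [sympB_apply, sympForm, mulVec_mulVec, ← vecMul_transpose, ← Matrix.dotProduct_mulVec, mulVec_mulVec]
      simp [Matrix.mul_assoc]
    have h3 : ∀ a, H.1 *ᵥ (Pi.single a 1 : V) = fun i => K.subtype ((H0 *ᵥ (Pi.single a 1)) i) := by
      intro a
      have h4 : (fun i => K.subtype ((H0 *ᵥ (Pi.single a 1)) i)) = H0.map K.subtype *ᵥ (fun i => K.subtype ((Pi.single a 1 : Fin m ⊕ Fin m → K) i)) := by
        ext i
        simp only [mulVec, dotProduct, map_sum, map_mul, Matrix.map_apply]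
      rw [h4, h1, hH]
    have h5 : ∀ w w' : Fin m ⊕ Fin m → K, sympB m F (fun i => K.subtype (w i)) (fun i => K.subtype (w' i)) = K.subtype (sympB m K w w') := by
      intro w w'
      rw [sympB_apply, sympB_apply, sympForm_eq, sympForm_eq, map_sum]
      exact Finset.sum_congr rfl fun i _ => by rw [map_sub, map_mul, map_mul]
    rw [h2, h3, h3, h5, hH0, hH0, he, hA0B, h1, h1, Matrix.smul_apply, smul_eq_mul, hAent]
  have hHB : ∀ x y : V, sympB m F (H.1 *ᵥ x) (H.1 *ᵥ y) = d * sympB m F (k.1 *ᵥ x) (k.1 *ᵥ y) := by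
    intro x y
    rw [← hA, ← smul_eq_mul, ← dotProduct_smul, ← smul_mulVec, hM, sympB_apply, sympForm, ← mulVec_mulVec, ← mulVec_mulVec,
      Matrix.dotProduct_mulVec x H.1ᵀ, vecMul_transpose]
  refine ⟨k * H⁻¹, ?_, c, ⟨l, hl⟩, ?_⟩
  · rw [mem_GSp]
    refine ⟨Units.mk0 d⁻¹ (inv_ne_zero hd0), fun u v => ?_⟩
    have h1 := hHB ((H⁻¹).1 *ᵥ u) ((H⁻¹).1 *ᵥ v)
    rw [mulVec_mulVec, mulVec_mulVec, Units.mul_inv, one_mulVec, one_mulVec] at h1
    rw [Units.val_mul, ← mulVec_mulVec, ← mulVec_mulVec, h1, Units.val_mk0, ← mul_assoc, inv_mul_cancel₀ hd0, one_mul]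
  · rw [sm_conj_iff _ _ _ _ ⟨l, hl⟩]
    have h1 : gmHom _ F σ (k * H⁻¹) = gmHom _ F σ k * H⁻¹ := by
      rw [map_mul, map_inv]
      congr 2
      exact Units.ext hHσ
    have h2 : (k * H⁻¹).1.map σ = (k.1.map σ) * (H⁻¹).1 := congrArg Units.val h1
    rw [h2, ← Matrix.mul_assoc, hk, Matrix.mul_assoc]
    rfl

end CfsgLib.AutPSp
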