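import Cfsg.Agent.Lib.BAb1

/-!
# Blocks with abelian defect group over a normal subgroup of `p`-power index
-/

set_option autoImplicit false
set_option linter.style.haveILetI false
set_option linter.unusedSectionVars false
set_option linter.unusedVariables false

open scoped ComplexConjugate

namespace CfsgLib.Block

open Cfsg CfsgLib.CharBasic CfsgLib.CharInd CfsgLib.BrauerInd8 CfsgLib.BrauerInd9

universe u v w

variable {G : Type u} [Group G] [Fintype G] {p : ℕ} {M : Ideal AlgInt} {N : Subgroup G} [hN : N.Normal]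

theorem free_of_abelian (hM : IsPModular p M) {k : ℕ} (hk : N.index = p ^ k) {B : Set (IrrCharacter G)} {P : Subgroup G}
    {e : Set (IrrCharacter (Cen P))} (hmax : MaxP p M B ⟨P, e⟩) (hab : ∀ x ∈ P, ∀ y ∈ P, x * y = y * x) (hNP : N ⊔ P = ⊤)
    {χ : IrrCharacter G} (hχ : χ ∈ B) {lam : G →* ℂˣ} (hlam : ∀ n ∈ N, lam n = 1) (hfix : ∀ g, (lam g : ℂ) * (χ : G → ℂ) g = (χ : G → ℂ) g) :
    lam = 1 := by
  have h1 : ∀ u ∈ P, lam u = 1 := by
    intro u hu
    obtain ⟨s, hs, hne⟩ := major_nonvanish hM hmax hu (fun d hd => hab d hd u hu) hχ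
    have h2 := hfix (u * (s : G))
    have h3 : (s : G) ∈ N := mem_of_regular_of_index hM.1 hk (by rwa [Subgroup.orderOf_coe])
    rw [map_mul, hlam _ h3, mul_one] at h2
    have h4 : (lam u : ℂ) = 1 := mul_right_cancel₀ hne (by rw [h2, one_mul])
    exact Units.ext h4
  have h5 : N ⊔ P ≤ lam.ker := sup_le (fun n hn => MonoidHom.mem_ker.mpr (hlam n hn)) (fun u hu => MonoidHom.mem_ker.mpr (h1 u hu))
  rw [hNP] at h5
  ext g
  have := MonoidHom.mem_ker.mp (h5 (Subgroup.mem_top g))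
  rw [this]
  rfl

theorem quot_comm {P : Subgroup G} (hab : ∀ x ∈ P, ∀ y ∈ P, x * y = y * x) (hNP : N ⊔ P = ⊤) :
    ∀ a b : G ⧸ N, a * b = b * a := by
  have h1 : ∀ a : G ⧸ N, ∃ x ∈ P, QuotientGroup.mk' N x = a := by
    intro a
    obtain ⟨g, rfl⟩ := QuotientGroup.mk'_surjective N a
    have hg : g ∈ N ⊔ P := by rw [hNP]; exact Subgroup.mem_top g
    obtain ⟨n, hn, x, hx, rfl⟩ := Subgroup.mem_sup_of_normal_left.mp hg
    refine ⟨x, hx, ?_⟩
    have : QuotientGroup.mk' N n = 1 := (QuotientGroup.eq_one_iff n).mpr hn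
    rw [map_mul, this, one_mul]
  intro a b
  obtain ⟨x, hx, rfl⟩ := h1 a
  obtain ⟨y, hy, rfl⟩ := h1 b
  rw [← map_mul, ← map_mul, hab x hx y hy]

section main

variable [Fintype N] (hM : IsPModular p M) {k : ℕ} (hk : N.index = p ^ k) {B : Set (IrrCharacter G)} {P : Subgroup G}
    {e : Set (IrrCharacter (Cen P))} (hmax : MaxP p M B ⟨P, e⟩) (hab : ∀ x ∈ P, ∀ y ∈ P, x * y = y * x) (hNP : N ⊔ P = ⊤)

include hM hk hmax hab hNP

/-- Restrictions are irreducible. -/
theorem res_irr_of_abelian {χ : IrrCharacter G} (hχ : χ ∈ B) : IsIrrCharacter N (fun n : N => (χ : G → ℂ) n) := by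
  classical
  haveI : Fintype (G ⧸ N) := Fintype.ofFinite _
  have hc := quot_comm (N := N) hab hNP
  have h1 := norm_res_eq (N := N) hc χ.2
  have h2 : Nat.card {lam : IrrCharacter (G ⧸ N) // ∀ g, ((inflL hc lam g : ℂˣ) : ℂ) * (χ : G → ℂ) g = (χ : G → ℂ) g} = 1 := by
    rw [Nat.card_eq_one_iff_unique]
    constructor
    · constructor
      intro a b
      apply Subtype.ext
      apply inflL_injective hc
      rw [free_of_abelian hM hk hmax hab hNP hχ (lam := inflL hc a.1) (fun n hn => Units.ext (inflL_of_mem hc _ hn)) a.2,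
        free_of_abelian hM hk hmax hab hNP hχ (lam := inflL hc b.1) (fun n hn => Units.ext (inflL_of_mem hc _ hn)) b.2]
    · obtain ⟨a, ha⟩ := inflL_surj hc (lam := (1 : G →* ℂˣ)) (fun n _ => rfl)
      refine ⟨⟨a, fun g => ?_⟩⟩
      rw [ha]
      simp
  rw [h2, Nat.cast_one] at h1
  rw [isIrr_iff]
  exact ⟨IsCharacter.comp (irr_isCharacter χ) N.subtype, h1⟩

/-- The members of `B` lying over a given character. -/
theorem card_over {θ : IrrCharacter N} {χ₀ : IrrCharacter G} (hχ₀ : χ₀ ∈ B) (h0 : ∀ n : N, (χ₀ : G → ℂ) n = (θ : N → ℂ) n)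
    (hall : ∀ χ : IrrCharacter G, (∀ n : N, (χ : G → ℂ) n = (θ : N → ℂ) n) → χ ∈ B) :
    Nat.card {χ : IrrCharacter G // χ ∈ B ∧ ∀ n : N, (χ : G → ℂ) n = (θ : N → ℂ) n} = N.index := by
  classical
  haveI : Fintype (G ⧸ N) := Fintype.ofFinite _
  have hc := quot_comm (N := N) hab hNP
  have h1 : Nat.card (IrrCharacter (G ⧸ N)) = N.index := by
    rw [card_irr_of_comm hc, Subgroup.index]
  rw [← h1]
  symm
  have hm : ∀ lam : IrrCharacter (G ⧸ N), ∀ n : N, (mulLin (inflL hc lam) χ₀ : G → ℂ) n = (θ : N → ℂ) n := by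
    intro lam n
    rw [mulLin_apply, inflL_of_mem hc lam n.2, one_mul, h0]
  refine Nat.card_congr (Equiv.ofBijective (fun lam => ⟨mulLin (inflL hc lam) χ₀, hall _ (hm lam), hm lam⟩) ⟨?_, ?_⟩)
  · intro a b hab'
    have h2 : ∀ g, ((inflL hc a g : ℂˣ) : ℂ) * (χ₀ : G → ℂ) g = ((inflL hc b g : ℂˣ) : ℂ) * (χ₀ : G → ℂ) g := by
      intro g
      have := congrFun (congrArg (fun x : {χ : IrrCharacter G // χ ∈ B ∧ ∀ n : N, (χ : G → ℂ) n = (θ : N → ℂ) n} => (x.1 : G → ℂ)) hab') g
      simpa only [mulLin_apply] using this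
    have h3 := free_of_abelian hM hk hmax hab hNP hχ₀ (lam := (inflL hc b)⁻¹ * inflL hc a)
      (fun n hn => by
        rw [MonoidHom.mul_apply, MonoidHom.inv_apply]
        have e1 : inflL hc a n = 1 := Units.ext (inflL_of_mem hc a hn)
        have e2 : inflL hc b n = 1 := Units.ext (inflL_of_mem hc b hn)
        rw [e1, e2]; simp) (fun g => by
        rw [MonoidHom.mul_apply, MonoidHom.inv_apply, Units.val_mul, mul_assoc, h2 g, ← mul_assoc]
        rw [← Units.val_mul, inv_mul_cancel, Units.val_one, one_mul])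
    apply inflL_injective hc
    ext g
    have h4 := DFunLike.congr_fun h3 g
    rw [MonoidHom.mul_apply, MonoidHom.inv_apply, MonoidHom.one_apply] at h4
    rw [inv_mul_eq_one.mp h4]
  · rintro ⟨χ, hχ, hχθ⟩
    have hcomm : commutator G ≤ N := by
      rw [← QuotientGroup.ker_mk' N]
      have : commutator G ≤ (QuotientGroup.mk' N).ker := by
        rw [commutator_def, Subgroup.commutator_le]
        intro g1 _ g2 _
        rw [MonoidHom.mem_ker, map_commutatorElement, commutatorElement_eq_one_iff_mul_comm]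
        exact hc _ _
      exact this
    have hne : ∀ ψ : IrrCharacter G, (∀ n : N, (ψ : G → ℂ) n = (θ : N → ℂ) n) → classInner (fun n : N => (ψ : G → ℂ) n) (θ : N → ℂ) ≠ 0 := by
      intro ψ hψ
      have : (fun n : N => (ψ : G → ℂ) n) = (θ : N → ℂ) := funext hψ
      rw [this, irr_inner, if_pos rfl]
      exact one_ne_zero
    obtain ⟨lam, hlam, heq⟩ := linear_twist_of_common hcomm θ.2 χ₀.2 χ.2 (hne χ₀ h0) (hne χ hχθ)
    obtain ⟨a, ha⟩ := inflL_surj hc hlam
    refine ⟨a, ?_⟩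
    apply Subtype.ext
    apply Subtype.ext
    funext g
    show (mulLin (inflL hc a) χ₀ : G → ℂ) g = (χ : G → ℂ) g
    rw [mulLin_apply, ha, heq]

end main

section rank

variable [Fintype N]

/-- Restrictions to a normal subgroup containing all regular elements preserve the regular rank. -/
theorem blockRank_of_res (hreg : ∀ g : G, ¬ p ∣ orderOf g → g ∈ N) (hp : p.Prime) {B : Set (IrrCharacter G)} {b : Set (IrrCharacter N)}
    (h1 : ∀ χ ∈ B, ∃ θ ∈ b, ∀ n : N, (χ : G → ℂ) n = (θ : N → ℂ) n)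
    (h2 : ∀ θ ∈ b, ∃ χ ∈ B, ∀ n : N, (χ : G → ℂ) n = (θ : N → ℂ) n) : blockRank p B = blockRank p b := by
  classical
  let E : (N → ℂ) →ₗ[ℂ] (G → ℂ) :=
    { toFun := fun f g => if h : g ∈ N then f ⟨g, h⟩ else 0
      map_add' := by
        intro f f'
        funext g
        by_cases h : g ∈ N
        · simp [h]
        · simp [h]
      map_smul' := by
        intro c f
        funext g
        by_cases h : g ∈ N
        · simp [h]
        · simp [h] }
  have hE : Function.Injective E := by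
    intro f f' hff
    funext n
    have := congrFun hff (n : G)
    simpa [E] using this
  have hiff : ∀ n : N, IsPRegular p n ↔ IsPRegular p (n : G) := by
    intro n
    unfold IsPRegular
    rw [Subgroup.orderOf_coe]
  have hval : ∀ (χ : IrrCharacter G) (θ : IrrCharacter N), (∀ n : N, (χ : G → ℂ) n = (θ : N → ℂ) n) →
      E (pRegularPart p (θ : N → ℂ)) = pRegularPart p (χ : G → ℂ) := by
    intro χ θ h
    funext g
    by_cases hg : g ∈ N
    · have e1 : E (pRegularPart p (θ : N → ℂ)) g = pRegularPart p (θ : N → ℂ) ⟨g, hg⟩ := dif_pos hg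
      rw [e1, pRegularPart, pRegularPart]
      by_cases hr : IsPRegular p g
      · rw [if_pos hr, if_pos ((hiff ⟨g, hg⟩).mpr hr), ← h ⟨g, hg⟩]
      · rw [if_neg hr, if_neg (fun hc => hr ((hiff ⟨g, hg⟩).mp hc))]
    · have e1 : E (pRegularPart p (θ : N → ℂ)) g = 0 := dif_neg hg
      rw [e1, pRegularPart]
      rw [if_neg]
      intro hr
      exact hg (hreg g hr)
  have himg : (fun χ : IrrCharacter G => pRegularPart p (χ : G → ℂ)) '' B = E '' ((fun θ : IrrCharacter N => pRegularPart p (θ : N → ℂ)) '' b) := by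
    apply Set.eq_of_subset_of_subset
    · rintro _ ⟨χ, hχ, rfl⟩
      obtain ⟨θ, hθ, h⟩ := h1 χ hχ
      exact ⟨_, ⟨θ, hθ, rfl⟩, hval χ θ h⟩
    · rintro _ ⟨_, ⟨θ, hθ, rfl⟩, rfl⟩
      obtain ⟨χ, hχ, h⟩ := h2 θ hθ
      exact ⟨χ, hχ, (hval χ θ h).symm⟩
  rw [blockRank, blockRank, himg, ← Submodule.map_span]
  exact (LinearEquiv.finrank_eq (Submodule.equivMapOfInjective E hE _)).symm

end rank

end CfsgLib.Block
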