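import Cfsg.Agent.Lib.BAb1
import Cfsg.Agent.Lib.BCor1
import Cfsg.Agent.Lib.BNil4

/-!
# Blocks with defect group `P` of `P · C(P)`
-/

set_option autoImplicit false
set_option linter.style.haveILetI false
set_option linter.unusedSectionVars false
set_option linter.unusedVariables false

open scoped ComplexConjugate

namespace CfsgLib.Block

open Cfsg CfsgLib.CharBasic CfsgLib.CharInd CfsgLib.BrauerInd8 CfsgLib.BrauerInd9

universe u v w

variable {G : Type u} [Group G] [Fintype G] {p : ℕ} {M : Ideal AlgInt} {P : Subgroup G}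

theorem normal_of_sup_cen (hG : P ⊔ Subgroup.centralizer (P : Set G) = ⊤) : P.Normal := by
  rw [← Subgroup.normalizer_eq_top_iff, eq_top_iff, ← hG]
  exact sup_le Subgroup.le_normalizer (le_cen_normalizer P)

theorem cen_normal_of_sup_cen (hG : P ⊔ Subgroup.centralizer (P : Set G) = ⊤) : (Cen P).Normal := by
  haveI := normal_of_sup_cen hG
  show (Subgroup.centralizer (P : Set G)).Normal
  infer_instance

theorem exists_factor (hG : P ⊔ Subgroup.centralizer (P : Set G) = ⊤) (ψ : IrrCharacter G) :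
    ∃ (η : IrrCharacter P) (ξ : IrrCharacter (Cen P)), ∀ (u : P) (c : Cen P), (ψ : G → ℂ) ((u : G) * (c : G)) = (η : P → ℂ) u * (ξ : Cen P → ℂ) c := by
  haveI := normal_of_sup_cen hG
  have hc : ∀ (m : P) (n : Cen P), Commute (P.subtype m) ((Cen P).subtype n) := by
    intro m n
    exact (Subgroup.mem_centralizer_iff.mp n.2 m m.2)
  let f : P × (Cen P) →* G := MonoidHom.noncommCoprod P.subtype (Cen P).subtype hc
  have hf : Function.Surjective f := by
    intro g
    have hg : g ∈ P ⊔ Subgroup.centralizer (P : Set G) := by rw [hG]; exact Subgroup.mem_top g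
    obtain ⟨x, hx, c, hc', rfl⟩ := Subgroup.mem_sup_of_normal_left.mp hg
    exact ⟨(⟨x, hx⟩, ⟨c, hc'⟩), rfl⟩
  have h1 : IsIrrCharacter (P × (Cen P)) ((ψ : G → ℂ) ∘ f) := IsIrrCharacter.comp ψ.2 f hf
  obtain ⟨η, ξ, hη, hξ, h2⟩ := (isIrr_prod_iff _).mp h1
  exact ⟨⟨η, hη⟩, ⟨ξ, hξ⟩, fun u c => congrFun h2 (u, c)⟩

section main

variable (hM : IsPModular p M) (hG : P ⊔ Subgroup.centralizer (P : Set G) = ⊤)

include hM hG

theorem regular_cen_of_sup (hP : IsPGroup p P) : ∀ s : G, ¬ p ∣ orderOf s → s ∈ Subgroup.centralizer (P : Set G) := by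
  intro s hs
  exact regular_mem_cen hM.1 hP (by rw [show P ⊔ Cen P = ⊤ from hG]; exact Subgroup.mem_top s) hs

theorem degree_of_ker (hP : IsPGroup p P) {B : Set (IrrCharacter G)} (hB : IsPBlock M B) (hD : IsDefectGroup p M B P)
    {θ : IrrCharacter G} (hθ : θ ∈ B) (hk : ∀ x ∈ P, (θ : G → ℂ) x = (θ : G → ℂ) 1) :
    (charDegree (θ : G → ℂ)).factorization p = P.index.factorization p := by
  haveI := normal_of_sup_cen hG
  haveI : Fact p.Prime := ⟨hM.1⟩
  have : Fintype (G ⧸ P) := Fintype.ofFinite _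
  have hreg := regular_cen_of_sup hM hG hP
  obtain ⟨φ, rfl⟩ := exists_infl P hk
  have h1 : charDegree ((infl P φ : IrrCharacter G) : G → ℂ) = charDegree (φ : G ⧸ P → ℂ) := by
    unfold charDegree
    rw [infl_apply, map_one]
  have h2 := isDefectGroup_barB hM hP hreg hB hD
  have h3 : P.map (QuotientGroup.mk' P) = ⊥ := by
    rw [Subgroup.map_eq_bot_iff, QuotientGroup.ker_mk']
  rw [h3] at h2
  obtain ⟨φ', h4, h5⟩ := eq_singleton_of_defect_bot hM (isPBlock_barB hM hP hreg hB) h2
  have h6 : φ ∈ barB P B := hθ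
  rw [h4, Set.mem_singleton_iff] at h6
  rw [h1, h6, h5]
  rfl

end main


/-- The sum over regular elements of a function invariant under a central `p`-subgroup. -/
theorem reg_sum_le {K : Type u} [Group K] [Fintype K] (hp : p.Prime) {Z : Subgroup K} (hZ : IsPGroup p Z) (hZc : ∀ z ∈ Z, ∀ g : K, z * g = g * z)
    {f : K → ℝ} (hf : ∀ g, 0 ≤ f g) (hfZ : ∀ z ∈ Z, ∀ g, f (z * g) = f g) :
    (Nat.card Z : ℝ) * ∑ s : K, (if p ∣ orderOf s then 0 else f s) ≤ ∑ g : K, f g := by
  classical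
  have h1 : (Nat.card Z : ℝ) * ∑ s : K, (if p ∣ orderOf s then 0 else f s) =
      ∑ x ∈ (Finset.univ : Finset Z) ×ˢ (Finset.univ.filter (fun s : K => ¬ p ∣ orderOf s)), f ((x.1 : K) * x.2) := by
    rw [Finset.sum_product]
    have h2 : ∀ z : Z, ∑ s ∈ Finset.univ.filter (fun s : K => ¬ p ∣ orderOf s), f ((z : K) * s) =
        ∑ s : K, (if p ∣ orderOf s then 0 else f s) := by
      intro z
      rw [Finset.sum_filter]
      apply Finset.sum_congr rfl
      intro s _
      rw [hfZ z z.2]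
      by_cases h : p ∣ orderOf s
      · rw [if_pos h, if_neg (not_not.mpr h)]
      · rw [if_neg h, if_pos h]
    rw [Finset.sum_congr rfl (fun z _ => h2 z), Finset.sum_const, Finset.card_univ, Nat.card_eq_fintype_card, nsmul_eq_mul]
  rw [h1]
  have hinj : Set.InjOn (fun x : Z × K => (x.1 : K) * x.2) ((Finset.univ : Finset Z) ×ˢ (Finset.univ.filter (fun s : K => ¬ p ∣ orderOf s)) : Finset (Z × K)) := by
    rintro ⟨z, s⟩ hx ⟨z', s'⟩ hx' h
    have hs := (Finset.mem_filter.mp (Finset.mem_product.mp (Finset.mem_coe.mp hx)).2).2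
    have hs' := (Finset.mem_filter.mp (Finset.mem_product.mp (Finset.mem_coe.mp hx')).2).2
    beta_reduce at h
    have ho : ∀ z : Z, ∃ k, orderOf (z : K) = p ^ k := by
      intro z
      haveI : Fact p.Prime := ⟨hp⟩
      obtain ⟨k, hk⟩ := IsPGroup.iff_orderOf.mp hZ z
      exact ⟨k, by rw [← hk, ← Subgroup.orderOf_coe]⟩
    have e1 : IsPPart p ((z : K) * s) (z : K) := ⟨s, rfl, hZc z z.2 s, ho z, hs⟩
    have e2 : IsPPart p ((z : K) * s) (z' : K) := by
      rw [h]
      exact ⟨s', rfl, hZc z' z'.2 s', ho z', hs'⟩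
    have e3 : (z : K) = z' := IsPPart.unique hp e1 e2
    have e4 : s = s' := by
      have h' : (z : K) * s = (z' : K) * s' := h
      rw [e3] at h'
      exact mul_left_cancel h'
    exact Prod.ext (Subtype.ext e3) e4
  have h3 := Finset.sum_image (f := f) hinj
  beta_reduce at h3
  rw [← h3]
  exact Finset.sum_le_univ_sum_of_nonneg hf

end CfsgLib.Block
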