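import Cfsg.Agent.Lib.BAb3
import Cfsg.Agent.Lib.BContr6

/-!
# Counting the members of a block with defect group `P` of `P · C(P)`
-/

set_option autoImplicit false
set_option linter.style.haveILetI false
set_option linter.unusedSectionVars false
set_option linter.unusedVariables false

open scoped ComplexConjugate

namespace CfsgLib.Block

open Cfsg CfsgLib.CharBasic CfsgLib.CharInd CfsgLib.BrauerInd8 CfsgLib.BrauerInd9

universe u v w

variable {G : Type u} [Group G] [Fintype G] {p : ℕ} {M : Ideal AlgInt} {P : Subgroup G}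

/-- If a set of naturals indexed by a finset, each at least `t > 0`, has sum of squares `t ^ 2`, the finset is a singleton. -/
theorem card_eq_one_of_sq {ι : Type*} (s : Finset ι) (n : ι → ℕ) {t : ℕ} (ht : 0 < t) (h : ∀ i ∈ s, t ≤ n i)
    (hs : ∑ i ∈ s, n i ^ 2 = t ^ 2) : s.card = 1 := by
  have h1 : s.card * t ^ 2 ≤ t ^ 2 := by
    calc s.card * t ^ 2 = ∑ i ∈ s, t ^ 2 := by rw [Finset.sum_const, smul_eq_mul]
      _ ≤ ∑ i ∈ s, n i ^ 2 := Finset.sum_le_sum (fun i hi => Nat.pow_le_pow_left (h i hi) 2)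
      _ = t ^ 2 := hs
  have ht2 : 0 < t ^ 2 := by positivity
  have h2 : s.card ≤ 1 := by
    by_contra hc
    push Not at hc
    nlinarith
  have h3 : s.card ≠ 0 := by
    intro hc
    rw [Finset.card_eq_zero] at hc
    rw [hc, Finset.sum_empty] at hs
    omega
  omega

section main

variable (hM : IsPModular p M) (hG : P ⊔ Subgroup.centralizer (P : Set G) = ⊤)

include hM hG

open scoped Classical in
theorem card_of_sup (hP : IsPGroup p P) {B : Set (IrrCharacter G)} (hB : IsPBlock M B) (hD : IsDefectGroup p M B P) :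
    Nat.card B = Nat.card (ConjClasses P) := by
  haveI : Fact p.Prime := ⟨hM.1⟩
  haveI := normal_of_sup_cen hG
  haveI hCn := cen_normal_of_sup_cen hG
  haveI : Fintype (Cen P) := Fintype.ofFinite _
  haveI : Fintype P := Fintype.ofFinite _
  have hreg := regular_cen_of_sup hM hG hP
  obtain ⟨e, hmax⟩ := exists_maxP_on hM hB hD
  have hst : ∀ x : G, x ∈ Stb (⟨P, e⟩ : BrauerPairIdx G) := by
    have h1 : (⊤ : Subgroup G) ≤ Stb (⟨P, e⟩ : BrauerPairIdx G) := by
      rw [← hG]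
      exact sup_le (self_le_Stb P e) (cen_le_Stb P e)
    exact fun x => h1 (Subgroup.mem_top x)
  have hcoef := coeff_of_stable hM hmax.1 hst
  have hDe := MaxP.defect_root hM hmax
  obtain ⟨hrank, θ, ⟨hθB, hθk⟩, huniq⟩ := blockRank_eq_one_of_defect hM hreg hB hD
  choose η ξ hf using exists_factor (G := G) hG
  have hdeg : ∀ {K : Type u} [Group K] [Fintype K] (χ : IrrCharacter K), (χ : K → ℂ) 1 = (charDegree (χ : K → ℂ) : ℂ) := fun χ =>
    one_eq_charDegree (irr_isCharacter χ)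
  have hne : ∀ {K : Type u} [Group K] [Fintype K] (χ : IrrCharacter K), charDegree (χ : K → ℂ) ≠ 0 := fun χ => charDegree_ne_zero χ.2
  have hu : ∀ (ψ : IrrCharacter G) (u : P), (ψ : G → ℂ) (u : G) = (η ψ : P → ℂ) u * (charDegree (ξ ψ : Cen P → ℂ) : ℂ) := by
    intro ψ u
    have := hf ψ u 1
    rwa [Subgroup.coe_one, mul_one, hdeg (ξ ψ)] at this
  have hc : ∀ (ψ : IrrCharacter G) (c : Cen P), (ψ : G → ℂ) (c : G) = (charDegree (η ψ : P → ℂ) : ℂ) * (ξ ψ : Cen P → ℂ) c := by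
    intro ψ c
    have := hf ψ 1 c
    rwa [Subgroup.coe_one, one_mul, hdeg (η ψ)] at this
  have h11 : ∀ ψ : IrrCharacter G, (ψ : G → ℂ) 1 = (charDegree (η ψ : P → ℂ) : ℂ) * (charDegree (ξ ψ : Cen P → ℂ) : ℂ) := by
    intro ψ
    have := hc ψ 1
    rwa [Subgroup.coe_one, hdeg (ξ ψ)] at this
  -- the members of `e`
  have hξe : ∀ ψ ∈ B, ξ ψ ∈ e := by
    intro ψ hψ
    apply mem_of_coeff (N := Cen P) hcoef hψ
    have h1 : (fun n : Cen P => (ψ : G → ℂ) n) = (charDegree (η ψ : P → ℂ) : ℂ) • (ξ ψ : Cen P → ℂ) := by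
      funext c
      exact hc ψ c
    rw [h1, classInner_smul_left, irr_inner, if_pos rfl, mul_one]
    exact_mod_cast hne (η ψ)
  -- the factor on `P` of `θ` is trivial
  have hθη : ∀ u : P, (η θ : P → ℂ) u = (charDegree (η θ : P → ℂ) : ℂ) := by
    intro u
    have h1 := hθk u u.2
    rw [hu, h11] at h1
    exact mul_right_cancel₀ (by exact_mod_cast hne (ξ θ)) h1
  have hker1 : ∀ ψ : IrrCharacter G, (∀ u : P, (η ψ : P → ℂ) u = (charDegree (η ψ : P → ℂ) : ℂ)) → charDegree (η ψ : P → ℂ) = 1 := by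
    intro ψ h
    have h1 := IsIrrCharacter.sum_norm_sq (η ψ).2
    have h2 : ∀ u : P, (η ψ : P → ℂ) u * conj ((η ψ : P → ℂ) u) = (charDegree (η ψ : P → ℂ) : ℂ) * (charDegree (η ψ : P → ℂ) : ℂ) := by
      intro u
      rw [h, Complex.conj_natCast]
    rw [Finset.sum_congr rfl (fun u _ => h2 u), Finset.sum_const, Finset.card_univ, ← Nat.card_eq_fintype_card, nsmul_eq_mul] at h1
    have h3 : Nat.card P * (charDegree (η ψ : P → ℂ) * charDegree (η ψ : P → ℂ)) = Nat.card P := by exact_mod_cast h1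
    have h4 : charDegree (η ψ : P → ℂ) * charDegree (η ψ : P → ℂ) = 1 := by
      have h5 : 0 < Nat.card P := Nat.card_pos
      exact Nat.eq_of_mul_eq_mul_left h5 (by rw [h3, mul_one])
    exact Nat.eq_one_of_mul_eq_one_right h4
  -- proportionality
  have hprop : ∀ ψ ∈ B, ∀ s : Cen P, ¬ p ∣ orderOf s → (ξ ψ : Cen P → ℂ) s * (charDegree (ξ θ : Cen P → ℂ) : ℂ) =
      (ξ θ : Cen P → ℂ) s * (charDegree (ξ ψ : Cen P → ℂ) : ℂ) := by
    intro ψ hψ s hs
    have h1 := prop_of_rank_one hM.1 hrank hψ hθB (g := (s : G)) (by rwa [Subgroup.orderOf_coe])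
    rw [hc, hc, h11, h11] at h1
    have e1 : (charDegree (η ψ : P → ℂ) : ℂ) ≠ 0 := by exact_mod_cast hne (η ψ)
    have e2 : (charDegree (η θ : P → ℂ) : ℂ) ≠ 0 := by exact_mod_cast hne (η θ)
    apply mul_left_cancel₀ (mul_ne_zero e1 e2)
    linear_combination h1
  have hp0 : 0 < charDegree (ξ θ : Cen P → ℂ) := Nat.pos_of_ne_zero (hne (ξ θ))
  -- integers
  set S : ℝ := ∑ s : Cen P, (if p ∣ orderOf s then 0 else ‖(ξ θ : Cen P → ℂ) s‖ ^ 2) with hS
  have hSpos : 0 < S := by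
    have h1 : ‖(ξ θ : Cen P → ℂ) 1‖ ^ 2 ≤ S := by
      have h2 : (if p ∣ orderOf (1 : Cen P) then (0:ℝ) else ‖(ξ θ : Cen P → ℂ) 1‖ ^ 2) = ‖(ξ θ : Cen P → ℂ) 1‖ ^ 2 := by
        rw [if_neg]
        rw [orderOf_one]
        exact hM.1.one_lt.ne' ∘ Nat.dvd_one.mp
      rw [← h2]
      apply Finset.single_le_sum (f := fun s : Cen P => (if p ∣ orderOf s then (0:ℝ) else ‖(ξ θ : Cen P → ℂ) s‖ ^ 2)) _ (Finset.mem_univ 1)
      intro s _
      by_cases h : p ∣ orderOf s
      · rw [if_pos h]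
      · rw [if_neg h]; positivity
    apply lt_of_lt_of_le _ h1
    rw [hdeg (ξ θ), Complex.norm_natCast]
    positivity
  have hint : ∀ ψ ∈ B, ((p : ℂ) ^ blockDefect p e * (Nat.card (Cen P) : ℂ)⁻¹ * (S : ℂ)) * (charDegree (ξ ψ : Cen P → ℂ) : ℂ) =
      (aInt p e (ξ θ) (ξ ψ) : ℂ) * (charDegree (ξ θ : Cen P → ℂ) : ℂ) := by
    intro ψ hψ
    rw [← rI_irr_irr hM hmax.1.ba (hξe θ hθB) (hξe ψ hψ), rI_eq]
    have h1 : (∑ g : Cen P, if p ∣ orderOf g then 0 else (ξ θ : Cen P → ℂ) g * conj ((ξ ψ : Cen P → ℂ) g)) * (charDegree (ξ θ : Cen P → ℂ) : ℂ) =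
        (S : ℂ) * (charDegree (ξ ψ : Cen P → ℂ) : ℂ) := by
      rw [hS]
      push_cast
      rw [Finset.sum_mul, Finset.sum_mul]
      apply Finset.sum_congr rfl
      intro s _
      by_cases h : p ∣ orderOf s
      · simp [h]
      · rw [if_neg h, if_neg h]
        have h2 := congrArg conj (hprop ψ hψ s h)
        rw [map_mul, map_mul, Complex.conj_natCast, Complex.conj_natCast] at h2
        have h3 : (ξ θ : Cen P → ℂ) s * conj ((ξ θ : Cen P → ℂ) s) = ((‖(ξ θ : Cen P → ℂ) s‖ ^ 2 : ℝ) : ℂ) := by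
          rw [Complex.mul_conj, Complex.normSq_eq_norm_sq]
        rw [← h3]
        linear_combination ((ξ θ : Cen P → ℂ) s) * h2
    linear_combination (-(p : ℂ) ^ blockDefect p e * (Nat.card (Cen P) : ℂ)⁻¹) * h1
  -- the bound
  have hle1 : (p : ℝ) ^ blockDefect p e * S ≤ Nat.card (Cen P) := by
    have hZc : ∀ z ∈ (P ⊓ Cen P).subgroupOf (Cen P), ∀ g : Cen P, z * g = g * z := by
      intro z hz g
      apply Subtype.ext
      have h1 : (z : G) ∈ P := (Subgroup.mem_subgroupOf.mp hz).1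
      exact (Subgroup.mem_centralizer_iff.mp g.2 _ h1)
    have h1 := reg_sum_le hM.1 (IsDefectGroup.isPGroup hM hDe) hZc (f := fun s => ‖(ξ θ : Cen P → ℂ) s‖ ^ 2) (fun g => by positivity)
      (fun z hz g => by
        have h1 : (z : G) ∈ P := (Subgroup.mem_subgroupOf.mp hz).1
        have h2 := hf θ ⟨z, h1⟩ g
        have h3 := hf θ 1 (z * g)
        rw [hθη] at h2 h3
        have h4 : (((1 : P) : G) * ((z * g : Cen P) : G)) = (((⟨z, h1⟩ : P) : G) * (g : G)) := by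
          rw [Subgroup.coe_one, one_mul]; rfl
        rw [h4, h2] at h3
        have h5 := mul_left_cancel₀ (by exact_mod_cast hne (η θ)) h3
        rw [h5])
    have h2 : ∑ g : Cen P, ‖(ξ θ : Cen P → ℂ) g‖ ^ 2 = (Nat.card (Cen P) : ℝ) := by
      have h3 := IsIrrCharacter.sum_norm_sq (ξ θ).2
      have h4 : ((∑ g : Cen P, ‖(ξ θ : Cen P → ℂ) g‖ ^ 2 : ℝ) : ℂ) = ((Nat.card (Cen P) : ℝ) : ℂ) := by
        push_cast
        rw [← h3]
        apply Finset.sum_congr rfl
        intro s _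
        rw [Complex.mul_conj, Complex.normSq_eq_norm_sq]
        push_cast
        rfl
      exact_mod_cast h4
    rw [h2] at h1
    have h3 := card_defectGroup hM hmax.1.ba hDe
    rw [h3] at h1
    exact_mod_cast h1
  have haθ : aInt p e (ξ θ) (ξ θ) = 1 := by
    have h1 := hint θ hθB
    have h2 := mul_right_cancel₀ (by exact_mod_cast hne (ξ θ)) h1
    have h3 : (p : ℝ) ^ blockDefect p e * (Nat.card (Cen P) : ℝ)⁻¹ * S = (aInt p e (ξ θ) (ξ θ) : ℝ) := by
      apply Complex.ofReal_injective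
      push_cast
      exact h2
    have hc0 : (0 : ℝ) < Nat.card (Cen P) := by exact_mod_cast Nat.card_pos
    have hp0 : (0 : ℝ) < p := by exact_mod_cast hM.1.pos
    have h4 : 0 < (aInt p e (ξ θ) (ξ θ) : ℝ) := by
      rw [← h3]; positivity
    have h5 : (aInt p e (ξ θ) (ξ θ) : ℝ) ≤ 1 := by
      rw [← h3]
      have : (p : ℝ) ^ blockDefect p e * (Nat.card (Cen P) : ℝ)⁻¹ * S = ((p : ℝ) ^ blockDefect p e * S) / (Nat.card (Cen P) : ℝ) := by
        field_simp
      rw [this, div_le_one hc0]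
      exact hle1
    have h6 : 0 < aInt p e (ξ θ) (ξ θ) := by exact_mod_cast h4
    have h7 : aInt p e (ξ θ) (ξ θ) ≤ 1 := by exact_mod_cast h5
    omega
  have hκ : (p : ℂ) ^ blockDefect p e * (Nat.card (Cen P) : ℂ)⁻¹ * (S : ℂ) = 1 := by
    have h1 := hint θ hθB
    rw [haθ, Int.cast_one] at h1
    exact mul_right_cancel₀ (by exact_mod_cast hne (ξ θ)) h1
  have hge : ∀ ψ ∈ B, charDegree (ξ θ : Cen P → ℂ) ≤ charDegree (ξ ψ : Cen P → ℂ) := by
    intro ψ hψ
    have h1 := hint ψ hψ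
    rw [hκ, one_mul] at h1
    have h2 : (charDegree (ξ ψ : Cen P → ℂ) : ℤ) = aInt p e (ξ θ) (ξ ψ) * (charDegree (ξ θ : Cen P → ℂ) : ℤ) := by
      exact_mod_cast h1
    have h3 : 0 < charDegree (ξ ψ : Cen P → ℂ) := Nat.pos_of_ne_zero (hne (ξ ψ))
    have h4 : 0 < aInt p e (ξ θ) (ξ ψ) := by
      by_contra hcon
      push Not at hcon
      have : (charDegree (ξ ψ : Cen P → ℂ) : ℤ) ≤ 0 := by
        rw [h2]
        exact mul_nonpos_of_nonpos_of_nonneg hcon (by positivity)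
      omega
    have h5 : (charDegree (ξ θ : Cen P → ℂ) : ℤ) ≤ charDegree (ξ ψ : Cen P → ℂ) := by
      rw [h2]
      nlinarith [Int.natCast_nonneg (charDegree (ξ θ : Cen P → ℂ))]
    exact_mod_cast h5
  -- the sums over the fibres
  have hfib : ∀ η₀ : IrrCharacter P, (Nat.card P : ℂ) * ∑ ψ ∈ Finset.univ.filter (fun ψ : IrrCharacter G => ψ ∈ B ∧ η ψ = η₀), (charDegree (ξ ψ : Cen P → ℂ) : ℂ) ^ 2 =
      ∑ ψ ∈ Finset.univ.filter (fun ψ : IrrCharacter G => ψ ∈ B), ((ψ : G → ℂ) 1) ^ 2 := by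
    intro η₀
    have hswap : ∑ u : P, (η₀ : P → ℂ) u * ∑ ψ ∈ Finset.univ.filter (fun ψ : IrrCharacter G => ψ ∈ B), (ψ : G → ℂ) 1 * conj ((ψ : G → ℂ) u) =
        ∑ ψ ∈ Finset.univ.filter (fun ψ : IrrCharacter G => ψ ∈ B), (ψ : G → ℂ) 1 * (charDegree (ξ ψ : Cen P → ℂ) : ℂ) * ∑ u : P, (η₀ : P → ℂ) u * conj ((η ψ : P → ℂ) u) := by
      simp only [Finset.mul_sum]
      rw [Finset.sum_comm]
      apply Finset.sum_congr rfl
      intro ψ _
      apply Finset.sum_congr rfl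
      intro u _
      rw [hu ψ u, map_mul, Complex.conj_natCast]
      ring
    have hl : ∑ u : P, (η₀ : P → ℂ) u * ∑ ψ ∈ Finset.univ.filter (fun ψ : IrrCharacter G => ψ ∈ B), (ψ : G → ℂ) 1 * conj ((ψ : G → ℂ) u) =
        (charDegree (η₀ : P → ℂ) : ℂ) * ∑ ψ ∈ Finset.univ.filter (fun ψ : IrrCharacter G => ψ ∈ B), ((ψ : G → ℂ) 1) ^ 2 := by
      rw [Finset.sum_eq_single (1 : P)]
      · rw [hdeg η₀]
        congr 1
        apply Finset.sum_congr rfl
        intro ψ _
        rw [Subgroup.coe_one, h11 ψ, map_mul, Complex.conj_natCast, Complex.conj_natCast]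
        ring
      · intro u _ hu1
        have h1 : p ∣ orderOf (u : G) := by
          obtain ⟨k, hk⟩ := IsPGroup.iff_orderOf.mp hP u
          rw [Subgroup.orderOf_coe, hk]
          rcases Nat.eq_zero_or_pos k with h0 | h0
          · rw [h0, pow_zero] at hk
            exact absurd (orderOf_eq_one_iff.mp hk) hu1
          · exact dvd_pow_self p h0.ne'
        have h2 := weak_block_orthogonality hM (inS_eB hM hB) (x := 1) (y := (u : G)) (by
          rw [orderOf_one]; exact hM.1.one_lt.ne' ∘ Nat.dvd_one.mp) h1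
        have h3 : ∑ ψ ∈ Finset.univ.filter (fun ψ : IrrCharacter G => ψ ∈ B), (ψ : G → ℂ) 1 * conj ((ψ : G → ℂ) u) = 0 := by
          rw [← h2, finsum_mem_eq, Finset.sum_filter]
        rw [h3, mul_zero]
      · intro h; exact absurd (Finset.mem_univ _) h
    have hr : ∑ ψ ∈ Finset.univ.filter (fun ψ : IrrCharacter G => ψ ∈ B), (ψ : G → ℂ) 1 * (charDegree (ξ ψ : Cen P → ℂ) : ℂ) * ∑ u : P, (η₀ : P → ℂ) u * conj ((η ψ : P → ℂ) u) =
        (charDegree (η₀ : P → ℂ) : ℂ) * ((Nat.card P : ℂ) * ∑ ψ ∈ Finset.univ.filter (fun ψ : IrrCharacter G => ψ ∈ B ∧ η ψ = η₀), (charDegree (ξ ψ : Cen P → ℂ) : ℂ) ^ 2) := by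
      have h1 : ∀ ψ : IrrCharacter G, ∑ u : P, (η₀ : P → ℂ) u * conj ((η ψ : P → ℂ) u) = if η ψ = η₀ then (Nat.card P : ℂ) else 0 := by
        intro ψ
        have h2 := irr_inner η₀ (η ψ)
        rw [classInner] at h2
        have h3 : (Nat.card P : ℂ) ≠ 0 := by exact_mod_cast Nat.card_pos.ne'
        by_cases h : η ψ = η₀
        · rw [if_pos h.symm] at h2
          rw [if_pos h]
          rw [inv_mul_eq_one₀ h3] at h2
          exact h2.symm
        · rw [if_neg (fun hc => h hc.symm)] at h2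
          rw [if_neg h]
          exact (mul_eq_zero.mp h2).resolve_left (inv_ne_zero h3)
      rw [Finset.mul_sum, Finset.mul_sum, ← Finset.filter_filter, Finset.sum_filter (p := fun ψ : IrrCharacter G => η ψ = η₀)]
      apply Finset.sum_congr rfl
      intro ψ _
      rw [h1 ψ, h11 ψ]
      by_cases h : η ψ = η₀
      · rw [if_pos h, if_pos h, h]
        ring
      · rw [if_neg h, if_neg h, mul_zero]
    rw [hl, hr] at hswap
    exact (mul_left_cancel₀ (by exact_mod_cast hne η₀) hswap).symm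
  have hsingle : Finset.univ.filter (fun ψ : IrrCharacter G => ψ ∈ B ∧ η ψ = η θ) = {θ} := by
    ext ψ
    rw [Finset.mem_filter, Finset.mem_singleton]
    constructor
    · rintro ⟨_, h1, h2⟩
      apply huniq ψ
      refine ⟨h1, ?_⟩
      intro x hx
      have e1 := hu ψ ⟨x, hx⟩
      have e2 := hu ψ 1
      rw [h2, hθη] at e1 e2
      have e3 : ((1 : P) : G) = 1 := rfl
      rw [e3] at e2
      rw [← e2] at e1
      exact e1
    · rintro rfl
      exact ⟨Finset.mem_univ _, hθB, rfl⟩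
  have hone : ∀ η₀ : IrrCharacter P, (Finset.univ.filter (fun ψ : IrrCharacter G => ψ ∈ B ∧ η ψ = η₀)).card = 1 := by
    intro η₀
    apply card_eq_one_of_sq _ (fun ψ => charDegree (ξ ψ : Cen P → ℂ)) hp0
    · intro ψ hψ
      exact hge ψ (Finset.mem_filter.mp hψ).2.1
    · have h1 := hfib η₀
      have h2 := hfib (η θ)
      rw [hsingle, Finset.sum_singleton, ← h1] at h2
      have h3 : (Nat.card P : ℂ) ≠ 0 := by exact_mod_cast Nat.card_pos.ne'
      have h4 := mul_left_cancel₀ h3 h2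
      exact_mod_cast h4.symm
  rw [← card_irr]
  refine Nat.card_congr (Equiv.ofBijective (fun ψ : B => η ψ.1) ⟨?_, ?_⟩)
  · intro a b hab
    apply Subtype.ext
    have h1 := Finset.card_eq_one.mp (hone (η b.1))
    obtain ⟨c, hc'⟩ := h1
    have ha : a.1 ∈ Finset.univ.filter (fun ψ : IrrCharacter G => ψ ∈ B ∧ η ψ = η b.1) := Finset.mem_filter.mpr ⟨Finset.mem_univ _, a.2, hab⟩
    have hb : b.1 ∈ Finset.univ.filter (fun ψ : IrrCharacter G => ψ ∈ B ∧ η ψ = η b.1) := Finset.mem_filter.mpr ⟨Finset.mem_univ _, b.2, rfl⟩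
    rw [hc', Finset.mem_singleton] at ha hb
    rw [ha, hb]
  · intro η₀
    obtain ⟨c, hc'⟩ := Finset.card_eq_one.mp (hone η₀)
    have h1 : c ∈ Finset.univ.filter (fun ψ : IrrCharacter G => ψ ∈ B ∧ η ψ = η₀) := by
      rw [hc']; exact Finset.mem_singleton_self c
    exact ⟨⟨c, (Finset.mem_filter.mp h1).2.1⟩, (Finset.mem_filter.mp h1).2.2⟩

end main

end CfsgLib.Block
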