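import Cfsg.Agent.Lib.BLat4
import Cfsg.Agent.Lib.BlockDom
import Cfsg.Agent.Lib.BlockV4

/-!
# 2-blocks of defect one
-/

set_option autoImplicit false
set_option linter.style.haveILetI false
set_option linter.unusedSectionVars false
set_option linter.unusedVariables false

open scoped ComplexConjugate

namespace CfsgLib.Block

open Cfsg CfsgLib.CharBasic CfsgLib.CharInd CfsgLib.BrauerInd8 CfsgLib.BrauerInd9

universe u v w

section lattice

variable {K : Type u} [Group K] [Fintype K] {p : ℕ} {M : Ideal AlgInt} {b : Set (IrrCharacter K)} [DecidablePred (· ∈ b)]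

/-- rank one -/
theorem LBas.E_one (hM : IsPModular p M) (hb : IsPBlock M b) (L : LBas p b 1) : L.E 0 0 = 1 ∧ L.C 0 0 = (p : ℤ) ^ blockDefect p b := by
  have hC := L.E_mul_C hM hb 0 0
  rw [Fin.sum_univ_one, if_pos rfl] at hC
  obtain ⟨i, j, hij⟩ := L.exists_not_dvd hM hb
  rw [Subsingleton.elim i 0, Subsingleton.elim j 0] at hij
  have hd : L.E 0 0 ∣ (p : ℤ) ^ blockDefect p b := ⟨_, hC.symm⟩
  have hcop : IsCoprime (L.E 0 0) ((p : ℤ) ^ blockDefect p b) :=
    IsCoprime.pow_right ((Prime.coprime_iff_not_dvd (Nat.prime_iff_prime_int.mp hM.1)).mpr hij).symm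
  have hu1 : IsUnit (L.E 0 0) := hcop.isUnit_of_dvd' dvd_rfl hd
  have hpos := L.E_pos hM hb 0
  have h1 : L.E 0 0 = 1 := by
    rcases Int.isUnit_iff.mp hu1 with h | h
    · exact h
    · omega
  exact ⟨h1, by rw [← hC, h1, one_mul]⟩

theorem LBas.m_ne_zero (hM : IsPModular p M) (L : LBas p b 1) {ξ : IrrCharacter K} (hξ : ξ ∈ b) : L.m ξ 0 ≠ 0 := by
  intro h
  have h1 := congrFun (L.hm ξ hξ) 1
  have h1reg : ¬ p ∣ orderOf (1 : K) := by rw [orderOf_one]; exact fun h => hM.1.one_lt.ne' (Nat.dvd_one.mp h)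
  rw [pRegularPart_apply_of_regular h1reg, Fin.sum_univ_one, h] at h1
  simp only [Int.cast_zero, zero_smul, Pi.zero_apply] at h1
  exact IsIrrCharacter.one_ne_zero ξ.2 h1

end lattice

section reg

variable {G : Type u} [Group G] [Fintype G] {p : ℕ} {M : Ideal AlgInt} {B : Set (IrrCharacter G)}

/-- In a block with a single pair of characters of 2-defect one the two characters agree on regular elements. -/
theorem agree_of_defect_one (hM : IsPModular 2 M) (hB : IsPBlock M B) (hd : blockDefect 2 B = 1) {χ ψ : IrrCharacter G} (hχ : χ ∈ B) (hψ : ψ ∈ B)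
    {g : G} (hg : ¬ 2 ∣ orderOf g) : (χ : G → ℂ) g = (ψ : G → ℂ) g := by
  classical
  by_cases hne : χ = ψ
  · rw [hne]
  have h1 := sum_aInt_sq hM hB hχ
  have hodd : ∀ φ ∈ B, ∀ η ∈ B, ¬ (2 : ℤ) ∣ aInt 2 B φ η := by
    intro φ hφ η hη
    have h2 := (aInt_spec hM hB hφ hη).2.2.1 (height_zero_of_defect_le_one hM hB hφ (by rw [hd]))
    rw [height_zero_of_defect_le_one hM hB hη (by rw [hd]), zero_add, pow_one] at h2
    exact_mod_cast h2
  have hge : ∀ φ ∈ B, ∀ η ∈ B, 1 ≤ aInt 2 B φ η ^ 2 := by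
    intro φ hφ η hη
    have h2 : aInt 2 B φ η ≠ 0 := by
      intro h; exact hodd φ hφ η hη (by rw [h]; exact dvd_zero _)
    have := sq_nonneg (aInt 2 B φ η)
    have h3 : aInt 2 B φ η ^ 2 ≠ 0 := pow_ne_zero _ h2
    omega
  have key : ∀ φ ∈ B, ∀ η ∈ B, φ ≠ η → aInt 2 B φ φ = 1 ∧ aInt 2 B φ η ^ 2 = 1 := by
    intro φ hφ η hη hne
    have h1 := sum_aInt_sq hM hB hφ
    rw [hd] at h1
    have h2 : aInt 2 B φ φ ^ 2 + aInt 2 B φ η ^ 2 ≤ ∑ ψ ∈ Finset.univ.filter (fun ψ : IrrCharacter G => ψ ∈ B), aInt 2 B φ ψ ^ 2 := by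
      rw [← Finset.sum_pair (f := fun ψ => aInt 2 B φ ψ ^ 2) hne]
      apply Finset.sum_le_sum_of_subset_of_nonneg
      · intro x hx
        rw [Finset.mem_insert, Finset.mem_singleton] at hx
        rcases hx with rfl | rfl
        · exact Finset.mem_filter.mpr ⟨Finset.mem_univ _, hφ⟩
        · exact Finset.mem_filter.mpr ⟨Finset.mem_univ _, hη⟩
      · intro x _ _; positivity
    rw [h1] at h2
    have h3 := hge φ hφ η hη
    set a := aInt 2 B φ φ
    set c := aInt 2 B φ η ^ 2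
    have h4 : (a - 1) ^ 2 ≤ 0 := by push_cast at h2; nlinarith
    have h5 : a = 1 := by nlinarith
    refine ⟨h5, ?_⟩
    rw [h5] at h2
    push_cast at h2
    omega
  obtain ⟨k1, k2⟩ := key χ hχ ψ hψ hne
  obtain ⟨k3, -⟩ := key ψ hψ χ hχ (Ne.symm hne)
  set ε := aInt 2 B χ ψ with hε
  have k4 : aInt 2 B ψ χ = ε := aInt_comm 2 B ψ χ
  have e1 := rI_irr_irr hM hB hχ hχ
  have e2 := rI_irr_irr hM hB hχ hψ
  have e3 := rI_irr_irr hM hB hψ hχ
  have e4 := rI_irr_irr hM hB hψ hψ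
  rw [k1] at e1
  rw [k3] at e4
  rw [k4] at e3
  rw [← hε] at e2
  have h2 : rI 2 ((χ : G → ℂ) + (-(ε : ℂ)) • (ψ : G → ℂ)) ((χ : G → ℂ) + (-(ε : ℂ)) • (ψ : G → ℂ)) = 0 := by
    rw [rI_add_left, rI_add_right, rI_add_right, rI_smul_left, rI_smul_left, rI_smul_right, rI_smul_right, map_neg, map_intCast]
    have hp0 : (((2 : ℕ) : ℂ) ^ blockDefect 2 B) ≠ 0 := pow_ne_zero _ (by norm_num)
    apply mul_left_cancel₀ hp0
    have h3 : (ε : ℂ) ^ 2 = 1 := by exact_mod_cast k2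
    push_cast at e1 e2 e3 e4 ⊢
    linear_combination e1 - ε * e2 - ε * e3 + ε ^ 2 * e4 - h3
  have h3 : pRegularPart 2 ((χ : G → ℂ) + (-(ε : ℂ)) • (ψ : G → ℂ)) = 0 := by
    apply eq_zero_of_rI (p := 2)
    · intro g hg; exact pRegularPart_apply_of_singular hg
    · rw [rI_pReg_left, rI_pReg_right, h2]
  have h4 : ∀ g : G, ¬ 2 ∣ orderOf g → (χ : G → ℂ) g = ε * (ψ : G → ℂ) g := by
    intro g hg
    have h5 := congrFun h3 g
    rw [pRegularPart_apply_of_regular hg, Pi.add_apply, Pi.smul_apply, smul_eq_mul, Pi.zero_apply] at h5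
    linear_combination h5
  have h1reg : ¬ 2 ∣ orderOf (1 : G) := by rw [orderOf_one]; decide
  have h5 := h4 1 h1reg
  rw [one_eq_charDegree (irr_isCharacter χ), one_eq_charDegree (irr_isCharacter ψ)] at h5
  have h6 : (charDegree (χ : G → ℂ) : ℤ) = ε * charDegree (ψ : G → ℂ) := by exact_mod_cast h5
  have h7 : 0 < charDegree (χ : G → ℂ) := Nat.pos_of_ne_zero (charDegree_ne_zero χ.2)
  have h8 : 0 < charDegree (ψ : G → ℂ) := Nat.pos_of_ne_zero (charDegree_ne_zero ψ.2)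
  have h9 : ε = 1 := by
    have h10 : (ε - 1) * (ε + 1) = 0 := by linear_combination k2
    rcases mul_eq_zero.mp h10 with h | h
    · omega
    · exfalso
      have h11 : ε = -1 := by omega
      rw [h11] at h6
      omega
  rw [h4 g hg, h9]; simp

end reg

section sub

variable {G : Type u} [Group G] [Fintype G] {p : ℕ} {M : Ideal AlgInt} {B : Set (IrrCharacter G)}

local notation "𝐂" u => (Subgroup.centralizer ({u} : Set _))

theorem sum_const_mul_dgen (hM : IsPModular p M) (hB : IsPBlock M B) {u : G} (hu1 : p ∣ orderOf u) (hu : ∃ k, orderOf u = p ^ k) [Fintype (𝐂 u)]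
    {b : Set (IrrCharacter (𝐂 u))} (hb : IsPBlock M b) {g : G} (hg : ¬ p ∣ orderOf g) {t : 𝐂 u} (ht : ¬ p ∣ orderOf t) [DecidablePred (· ∈ B)] :
    ∑ χ ∈ Finset.univ.filter (fun χ : IrrCharacter G => χ ∈ B), conj ((χ : G → ℂ) g) * dgen u b (χ : G → ℂ) t = 0 := by
  classical
  have h1 := blockPart_vanish_regular hM hb (θ := ∑ χ ∈ Finset.univ.filter (fun χ : IrrCharacter G => χ ∈ B), conj ((χ : G → ℂ) g) • transl u (χ : G → ℂ))
    (isClassFunction_sum _ _ (fun χ _ => isClassFunction_transl u (irr_isClassFunction χ))) (by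
      intro y hy
      have hsing : p ∣ orderOf (u * (y : G)) := by
        have hyr : ¬ p ∣ orderOf (y : G) := by rwa [Subgroup.orderOf_coe]
        have hc : Commute u (y : G) := (Subgroup.mem_centralizer_singleton_iff.mp y.2).symm
        have hpp : IsPPart p (u * (y : G)) u := ⟨y, rfl, hc, hu, hyr⟩
        by_contra hcon
        have h2 := IsPPart.one_of_regular hM.1 hpp hcon
        rw [h2, orderOf_one] at hu1
        exact hM.1.one_lt.ne' (Nat.dvd_one.mp hu1)
      have h2 := colSum_eq_zero hM hB hg hsing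
      have h3 := congrArg (starRingEnd ℂ) h2
      rw [conj_colSum, map_zero, colSum_eq_filter] at h3
      rw [Finset.sum_apply, ← h3]
      apply Finset.sum_congr rfl
      intro χ _
      rw [Pi.smul_apply, smul_eq_mul, mul_comm]
      rfl) ht
  rw [blockPart_sum_smul, Finset.sum_apply] at h1
  rw [← h1]
  apply Finset.sum_congr rfl
  intro χ _
  rfl

theorem LBas.sum_const_D (hM : IsPModular p M) {u : G} (hu1 : p ∣ orderOf u) (hu : ∃ k, orderOf u = p ^ k) [Fintype (𝐂 u)]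
    {b : Set (IrrCharacter (𝐂 u))} [DecidablePred (· ∈ b)] (hi : IsInducedBlock M (𝐂 u) b B) {n : ℕ} (L : LBas p b n) {g : G} (hg : ¬ p ∣ orderOf g) [DecidablePred (· ∈ B)] (i : Fin n) :
    ∑ χ ∈ Finset.univ.filter (fun χ : IrrCharacter G => χ ∈ B), conj ((χ : G → ℂ) g) * L.D (χ : G → ℂ) i = 0 := by
  have h1 : ∑ i, (∑ χ ∈ Finset.univ.filter (fun χ : IrrCharacter G => χ ∈ B), conj ((χ : G → ℂ) g) * L.D (χ : G → ℂ) i) • L.v i = 0 := by
    funext t
    rw [Finset.sum_apply, Pi.zero_apply]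
    by_cases ht : p ∣ orderOf t
    · apply Finset.sum_eq_zero
      intro i _
      rw [Pi.smul_apply, regLat_singular (L.mem i) ht, smul_zero]
    · rw [← sum_const_mul_dgen hM hi.2.1 hu1 hu hi.1 hg ht]
      have h2 : ∀ χ : G → ℂ, dgen u b χ t = ∑ i, L.D χ i * L.v i t := by
        intro χ
        have := congrFun (L.dgen_eq χ) t
        rw [pRegularPart_apply_of_regular ht, Finset.sum_apply] at this
        rw [this]; rfl
      have h3 : ∀ χ ∈ Finset.univ.filter (fun χ : IrrCharacter G => χ ∈ B), conj ((χ : G → ℂ) g) * dgen u b (χ : G → ℂ) t =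
          ∑ i, (conj ((χ : G → ℂ) g) * L.D (χ : G → ℂ) i) * L.v i t := by
        intro χ _
        rw [h2, Finset.mul_sum]
        apply Finset.sum_congr rfl
        intro i _
        ring
      rw [Finset.sum_congr rfl h3, Finset.sum_comm]
      apply Finset.sum_congr rfl
      intro i _
      rw [Pi.smul_apply, smul_eq_mul, Finset.sum_mul]
  exact Fintype.linearIndependent_iff.mp L.li _ h1 i

/-- The generalized decomposition numbers at an involution are integers. -/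
theorem LBas.D_int {u : G} (hu2 : u ^ 2 = 1) [Fintype (𝐂 u)] {b : Set (IrrCharacter (𝐂 u))} [DecidablePred (· ∈ b)] {n : ℕ} (L : LBas p b n)
    (χ : IrrCharacter G) (i : Fin n) : ∃ a : ℤ, L.D (χ : G → ℂ) i = a := by
  have h1 : ∀ ξ : IrrCharacter (𝐂 u), ∃ a : ℤ, classInner (transl u (χ : G → ℂ)) (ξ : (𝐂 u) → ℂ) * (L.m ξ i : ℂ) = a := by
    intro ξ
    obtain ⟨k, c, hc, h⟩ := inner_transl u hu2 χ ξ
    have h8 : (c - 1) * (c + 1) = 0 := by linear_combination hc
    rcases mul_eq_zero.mp h8 with h2 | h2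
    · refine ⟨k * L.m ξ i, ?_⟩
      rw [h, sub_eq_zero.mp h2]; push_cast; ring
    · refine ⟨-(k * L.m ξ i), ?_⟩
      rw [h, eq_neg_of_add_eq_zero_left h2]; push_cast; ring
  choose a ha using h1
  refine ⟨∑ ξ ∈ Finset.univ.filter (fun ξ : IrrCharacter (𝐂 u) => ξ ∈ b), a ξ, ?_⟩
  rw [LBas.D]
  push_cast
  exact Finset.sum_congr rfl (fun ξ _ => ha ξ)

/-- The data of a block with defect group of order two at the corresponding involution. -/
theorem def_one_data (hM : IsPModular 2 M) {x : G} (hx : orderOf x = 2) (hB : IsPBlock M B) (hBD : IsDefectGroup 2 M B (Subgroup.zpowers x))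
    [Fintype (𝐂 x)] {b : Set (IrrCharacter (𝐂 x))} (hi : IsInducedBlock M (𝐂 x) b B) [DecidablePred (· ∈ b)] :
    Nat.card B = 2 ∧ ∃ L : LBas 2 b 1, (∀ ξ ∈ b, L.m ξ 0 = 1 ∨ L.m ξ 0 = -1) ∧ ∃ a : IrrCharacter G → ℤ, (∀ χ ∈ B, a χ = 1 ∨ a χ = -1) ∧
      (∀ χ : IrrCharacter G, L.D (χ : G → ℂ) 0 = a χ) ∧ ∀ χ ∈ B, ∀ ψ ∈ B, χ ≠ ψ → a χ + a ψ = 0 := by
  classical
  haveI : Fact (Nat.Prime 2) := ⟨Nat.prime_two⟩
  have hx2 : x ^ 2 = 1 := by rw [← hx]; exact pow_orderOf_eq_one x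
  have hu : ∃ k, orderOf x = 2 ^ k := ⟨1, by rw [hx, pow_one]⟩
  have hdB : blockDefect 2 B = 1 := by
    have h1 := card_defectGroup hM hB hBD
    rw [Nat.card_zpowers, hx] at h1
    have : (2 : ℕ) ^ 1 = 2 ^ blockDefect 2 B := by rw [← h1, pow_one]
    exact (Nat.pow_right_injective le_rfl this).symm
  -- the defect group of `b`
  obtain ⟨D, hD⟩ := exists_defectGroup hM hi.1
  set Z : Subgroup (𝐂 x) := Subgroup.zpowers (uC x) with hZ
  have hZc : Z ≤ Subgroup.center (𝐂 x) := by rw [hZ, Subgroup.zpowers_le]; exact self_mem_center x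
  haveI hZn : Z.Normal := ⟨fun z hz g => by
    rw [(Subgroup.mem_center_iff.mp (hZc hz) g), mul_inv_cancel_right]; exact hz⟩
  have hZcard : Nat.card Z = 2 := by rw [hZ, Nat.card_zpowers, orderOf_uC, hx]
  have hZp : IsPGroup 2 Z := IsPGroup.of_card (n := 1) (by rw [hZcard, pow_one])
  have hZD : Z ≤ D := IsDefectGroup.normal_le hM hi.1 hD Z hZp
  have hdb : blockDefect 2 b ≤ 1 := by rw [← hdB]; exact blockDefect_le_of_induced hM hi
  have hDcard := card_defectGroup hM hi.1 hD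
  have hDle : Nat.card D ≤ 2 := by
    rw [hDcard]
    calc 2 ^ blockDefect 2 b ≤ 2 ^ 1 := Nat.pow_le_pow_right (by norm_num) hdb
      _ = 2 := by norm_num
  have hZD' : Z = D := Subgroup.eq_of_le_of_card_ge hZD (by rw [hZcard]; exact hDle)
  rw [← hZD'] at hD
  have hdb1 : blockDefect 2 b = 1 := by
    have h1 := card_defectGroup hM hi.1 hD
    rw [hZcard] at h1
    have : (2 : ℕ) ^ 1 = 2 ^ blockDefect 2 b := by rw [← h1, pow_one]
    exact (Nat.pow_right_injective le_rfl this).symm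
  have hl := (blockRank_eq_one_of_defect hM (D := Z) (by
    intro s _
    rw [Subgroup.mem_centralizer_iff]
    intro z hz
    exact (Subgroup.mem_center_iff.mp (hZc hz) s).symm) hi.1 hD).1
  obtain ⟨L⟩ := exists_lbas hM hi.1
  rw [hl] at L
  obtain ⟨hE, hC⟩ := L.E_one hM hi.1
  rw [hdb1, pow_one] at hC
  have hint := fun χ : IrrCharacter G => L.D_int hx2 χ 0
  choose a ha using hint
  have hane : ∀ χ ∈ B, a χ ≠ 0 := by
    intro χ hχ h
    obtain ⟨i, hi0⟩ := L.D_ne_zero hM hu hi (by rw [hdb1, hdB]) hχ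
    rw [Subsingleton.elim i 0, ha, h] at hi0
    exact hi0 (by simp)
  have hsum : ∑ χ ∈ Finset.univ.filter (fun χ : IrrCharacter G => χ ∈ B), a χ ^ 2 = 2 := by
    have h1 := L.sum_D_block hM hu hi 0 0
    rw [hC] at h1
    have h2 : ((∑ χ ∈ Finset.univ.filter (fun χ : IrrCharacter G => χ ∈ B), a χ ^ 2 : ℤ) : ℂ) = ((2 : ℕ) : ℂ) := by
      rw [← Int.cast_natCast, ← h1]
      push_cast
      apply Finset.sum_congr rfl
      intro χ _
      rw [ha, map_intCast]; ring
    exact_mod_cast h2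
  have hge : ∀ χ ∈ Finset.univ.filter (fun χ : IrrCharacter G => χ ∈ B), 1 ≤ a χ ^ 2 := by
    intro χ hχ
    have h1 := hane χ (Finset.mem_filter.mp hχ).2
    have h2 : 0 < a χ ^ 2 := by positivity
    omega
  have hcardB : Nat.card B = (Finset.univ.filter (fun χ : IrrCharacter G => χ ∈ B)).card := by
    rw [Nat.card_eq_fintype_card, Fintype.card_subtype]
  have hle2 : (Finset.univ.filter (fun χ : IrrCharacter G => χ ∈ B)).card ≤ 2 := by
    have h1 : ((Finset.univ.filter (fun χ : IrrCharacter G => χ ∈ B)).card : ℤ) ≤ 2 := by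
      rw [← hsum, Finset.card_eq_sum_ones]
      push_cast
      exact Finset.sum_le_sum hge
    exact_mod_cast h1
  obtain ⟨χ₀, hχ₀⟩ := IsPBlock.nonempty hM hB
  have hne1 : (Finset.univ.filter (fun χ : IrrCharacter G => χ ∈ B)).card ≠ 1 := by
    intro h
    obtain ⟨χ, hχ⟩ := Finset.card_eq_one.mp h
    rw [hχ, Finset.sum_singleton] at hsum
    have h1 : a χ ≤ 1 := by nlinarith
    have h2 : -1 ≤ a χ := by nlinarith
    have h3 : a χ = 0 ∨ a χ = 1 ∨ a χ = -1 := by omega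
    rcases h3 with h | h | h <;> rw [h] at hsum <;> norm_num at hsum
  have hne0 : 0 < (Finset.univ.filter (fun χ : IrrCharacter G => χ ∈ B)).card :=
    Finset.card_pos.mpr ⟨χ₀, Finset.mem_filter.mpr ⟨Finset.mem_univ _, hχ₀⟩⟩
  have hcard2 : (Finset.univ.filter (fun χ : IrrCharacter G => χ ∈ B)).card = 2 := by omega
  refine ⟨by rw [hcardB, hcard2], L, ?_, a, ?_, ha, ?_⟩
  · -- the coefficients of the members of `b`
    intro ξ hξ
    have h1 : L.m ξ 0 ^ 2 ≤ 2 := by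
      have h2 : L.m ξ 0 * L.m ξ 0 ≤ L.C 0 0 := by
        rw [LBas.C]
        exact Finset.single_le_sum (f := fun ξ : IrrCharacter (𝐂 x) => L.m ξ 0 * L.m ξ 0) (fun η _ => mul_self_nonneg _)
          (Finset.mem_filter.mpr ⟨Finset.mem_univ _, hξ⟩)
      rw [hC] at h2
      push_cast at h2
      nlinarith
    have h2 := L.m_ne_zero hM hξ
    have h3 : L.m ξ 0 ≤ 1 := by nlinarith
    have h4 : -1 ≤ L.m ξ 0 := by nlinarith
    omega
  · intro χ hχ
    have hmem : χ ∈ Finset.univ.filter (fun χ : IrrCharacter G => χ ∈ B) := Finset.mem_filter.mpr ⟨Finset.mem_univ _, hχ⟩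
    have h1 : a χ ^ 2 ≤ 1 := by
      have h2 : ((Finset.univ.filter (fun χ : IrrCharacter G => χ ∈ B)).erase χ).card = 1 := by
        rw [Finset.card_erase_of_mem hmem, hcard2]
      have h3 : (((Finset.univ.filter (fun χ : IrrCharacter G => χ ∈ B)).erase χ).card : ℤ) ≤
          ∑ ψ ∈ (Finset.univ.filter (fun χ : IrrCharacter G => χ ∈ B)).erase χ, a ψ ^ 2 := by
        rw [Finset.card_eq_sum_ones]
        push_cast
        exact Finset.sum_le_sum (fun ψ hψ => hge ψ (Finset.mem_of_mem_erase hψ))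
      rw [← Finset.add_sum_erase _ _ hmem] at hsum
      rw [h2] at h3
      push_cast at h3
      omega
    have h2 := hane χ hχ
    have h3 : a χ ≤ 1 := by nlinarith
    have h4 : -1 ≤ a χ := by nlinarith
    omega
  · intro χ hχ ψ hψ hne
    have hB2 : Finset.univ.filter (fun χ : IrrCharacter G => χ ∈ B) = {χ, ψ} := by
      symm
      apply Finset.eq_of_subset_of_card_le
      · intro y hy
        rw [Finset.mem_insert, Finset.mem_singleton] at hy
        rcases hy with rfl | rfl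
        · exact Finset.mem_filter.mpr ⟨Finset.mem_univ _, hχ⟩
        · exact Finset.mem_filter.mpr ⟨Finset.mem_univ _, hψ⟩
      · rw [hcard2, Finset.card_pair hne]
    have h1reg : ¬ 2 ∣ orderOf (1 : G) := by rw [orderOf_one]; decide
    have h1 := L.sum_const_D hM (by rw [hx]) hu hi h1reg 0
    rw [hB2, Finset.sum_pair hne, ha, ha] at h1
    have h2 := agree_of_defect_one hM hB hdB hχ hψ h1reg
    rw [← h2, one_eq_charDegree (irr_isCharacter χ), Complex.conj_natCast, ← mul_add] at h1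
    have h3 : (charDegree (χ : G → ℂ) : ℂ) ≠ 0 := by exact_mod_cast charDegree_ne_zero χ.2
    have h4 := (mul_eq_zero.mp h1).resolve_left h3
    exact_mod_cast h4

/-- Uniqueness of the inducing block. -/
theorem def_one_unique (hM : IsPModular 2 M) {x : G} (hx : orderOf x = 2) (hB : IsPBlock M B) (hBD : IsDefectGroup 2 M B (Subgroup.zpowers x))
    {b b' : Set (IrrCharacter (𝐂 x))} (hi : IsInducedBlock M (𝐂 x) b B) (hi' : IsInducedBlock M (𝐂 x) b' B) : b = b' := by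
  classical
  haveI : Fintype (𝐂 x) := Fintype.ofFinite _
  by_contra hne
  have hu : ∃ k, orderOf x = 2 ^ k := ⟨1, by rw [hx, pow_one]⟩
  obtain ⟨hc, L, hm, a, ha1, ha2, ha3⟩ := def_one_data hM hx hB hBD hi
  obtain ⟨-, L', hm', a', ha1', ha2', ha3'⟩ := def_one_data hM hx hB hBD hi'
  have hcardB : Nat.card B = (Finset.univ.filter (fun χ : IrrCharacter G => χ ∈ B)).card := by
    rw [Nat.card_eq_fintype_card, Fintype.card_subtype]
  rw [hcardB] at hc
  obtain ⟨χ, ψ, hχψ, hB2⟩ := Finset.card_eq_two.mp hc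
  have hχ : χ ∈ B := by
    have : χ ∈ Finset.univ.filter (fun χ : IrrCharacter G => χ ∈ B) := by rw [hB2]; exact Finset.mem_insert_self _ _
    exact (Finset.mem_filter.mp this).2
  have hψ : ψ ∈ B := by
    have : ψ ∈ Finset.univ.filter (fun χ : IrrCharacter G => χ ∈ B) := by rw [hB2]; exact Finset.mem_insert_of_mem (Finset.mem_singleton_self _)
    exact (Finset.mem_filter.mp this).2
  have hvne : ∀ {c : Set (IrrCharacter (𝐂 x))} (L : LBas 2 c 1), ∃ s : (𝐂 x), ¬ 2 ∣ orderOf s ∧ L.v 0 s ≠ 0 := by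
    intro c L
    have h1 := L.v_ne 0
    obtain ⟨s, hs⟩ := Function.ne_iff.mp h1
    refine ⟨s, ?_, hs⟩
    intro hd
    exact hs (regLat_singular (L.mem 0) hd)
  obtain ⟨s, hs, hvs⟩ := hvne L
  obtain ⟨t, ht, hvt⟩ := hvne L'
  have hdg : ∀ {c : Set (IrrCharacter (𝐂 x))} (L : LBas 2 c 1) (a : IrrCharacter G → ℤ), (∀ χ : IrrCharacter G, L.D (χ : G → ℂ) 0 = a χ) →
      ∀ (χ : IrrCharacter G) (s : 𝐂 x), ¬ 2 ∣ orderOf s → dgen x c (χ : G → ℂ) s = a χ * L.v 0 s := by
    intro c L a ha χ s hs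
    have := congrFun (L.dgen_eq (χ : G → ℂ)) s
    rw [pRegularPart_apply_of_regular hs, Fin.sum_univ_one] at this
    rw [this, Pi.smul_apply, smul_eq_mul, ha]
  have h1 := sum_block_dgen hM hu hi hi'.1 hs ht
  rw [if_neg hne, ← Finset.sum_filter, hB2, Finset.sum_pair hχψ, hdg L a ha2 χ s hs, hdg L a ha2 ψ s hs, hdg L' a' ha2' χ t ht, hdg L' a' ha2' ψ t ht,
    map_mul, map_mul, map_intCast, map_intCast] at h1
  have h2 : a ψ = - a χ := by have := ha3 χ hχ ψ hψ hχψ; omega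
  have h3 : a' ψ = - a' χ := by have := ha3' χ hχ ψ hψ hχψ; omega
  rw [h2, h3] at h1
  push_cast at h1
  have h4 : 2 * ((a χ : ℂ) * (a' χ : ℂ)) * (L.v 0 s * conj (L'.v 0 t)) = 0 := by linear_combination h1
  have h5 : (a χ : ℂ) ≠ 0 := by
    rcases ha1 χ hχ with h | h <;> rw [h] <;> norm_num
  have h6 : (a' χ : ℂ) ≠ 0 := by
    rcases ha1' χ hχ with h | h <;> rw [h] <;> norm_num
  have h7 : conj (L'.v 0 t) ≠ 0 := (map_ne_zero _).mpr hvt
  exact (mul_ne_zero (mul_ne_zero two_ne_zero (mul_ne_zero h5 h6)) (mul_ne_zero hvs h7)) h4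

/-- If a single block induces `B` then the translate agrees with its block part on regular elements. -/
theorem transl_eq_dgen (hM : IsPModular p M) {u : G} (hu : ∃ k, orderOf u = p ^ k) [Fintype (𝐂 u)] {b : Set (IrrCharacter (𝐂 u))}
    (hi : IsInducedBlock M (𝐂 u) b B) (huniq : ∀ c, IsInducedBlock M (𝐂 u) c B → c = b) {χ : IrrCharacter G} (hχ : χ ∈ B)
    {y : 𝐂 u} (hy : ¬ p ∣ orderOf y) : (χ : G → ℂ) (u * (y : G)) = dgen u b (χ : G → ℂ) y := by
  have hcl := isClassFunction_transl u (irr_isClassFunction χ)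
  have h1 : (transl u (χ : G → ℂ) - blockPart b (transl u (χ : G → ℂ))) y = 0 := by
    apply eq_sum_blockParts hM
    · intro g c
      rw [Pi.sub_apply, Pi.sub_apply, hcl, isClassFunction_blockPart]
    · intro c hc
      have e1 : blockPart c (transl u (χ : G → ℂ) - blockPart b (transl u (χ : G → ℂ))) =
          blockPart c (transl u (χ : G → ℂ)) - blockPart c (blockPart b (transl u (χ : G → ℂ))) :=
        map_sub (blockLin c) _ _
      rw [e1, Pi.sub_apply]
      by_cases hcb : c = b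
      · rw [hcb, blockPart_of_mem_span (blockPart_mem_span b _), sub_self]
      · rw [blockPart_of_mem_span_disjoint (disjoint_blocks hM hc hi.1 hcb) (blockPart_mem_span b _), Pi.zero_apply, sub_zero]
        obtain ⟨B', hB'⟩ := exists_inducedBlock_centralizer hM hu hc
        by_cases hBB : B' = B
        · rw [hBB] at hB'
          exact absurd (huniq c hB') hcb
        · have hχ' : χ ∉ B' := fun h => hBB (IsPBlock.eq_of_mem hM hB'.2.1 hi.2.1 h hχ)
          exact dgen_eq_zero hM hu hB' hχ' hy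
  rw [Pi.sub_apply] at h1
  exact sub_eq_zero.mp h1

/-- Blocks of defect one for `p = 2`. -/
theorem def_one_main (hM : IsPModular 2 M) {x : G} (hx : orderOf x = 2) (hB : IsPBlock M B) (hBD : IsDefectGroup 2 M B (Subgroup.zpowers x))
    {b : Set (IrrCharacter (𝐂 x))} (hi : IsInducedBlock M (𝐂 x) b B) {θ : IrrCharacter (𝐂 x)} (hθ : θ ∈ b) :
    Nat.card B = 2 ∧ (∀ χ ∈ B, ∀ ψ ∈ B, ∀ g : G, ¬ 2 ∣ orderOf g → (χ : G → ℂ) g = (ψ : G → ℂ) g) ∧
      ∃ χ₁ ∈ B, ∃ χ₂ ∈ B, χ₁ ≠ χ₂ ∧ ∃ ε₁ ε₂ : ℤ, (ε₁ = 1 ∨ ε₁ = -1) ∧ (ε₂ = 1 ∨ ε₂ = -1) ∧ ε₁ * ε₂ = -1 ∧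
        ∀ y : 𝐂 x, ¬ 2 ∣ orderOf y →
          (χ₁ : G → ℂ) (x * y) = (ε₁ : ℂ) * (θ : (𝐂 x) → ℂ) y ∧ (χ₂ : G → ℂ) (x * y) = (ε₂ : ℂ) * (θ : (𝐂 x) → ℂ) y := by
  classical
  haveI : Fintype (𝐂 x) := Fintype.ofFinite _
  have hu : ∃ k, orderOf x = 2 ^ k := ⟨1, by rw [hx, pow_one]⟩
  have hdB : blockDefect 2 B = 1 := by
    have h1 := card_defectGroup hM hB hBD
    rw [Nat.card_zpowers, hx] at h1
    have : (2 : ℕ) ^ 1 = 2 ^ blockDefect 2 B := by rw [← h1, pow_one]
    exact (Nat.pow_right_injective le_rfl this).symm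
  obtain ⟨hc, L, hm, a, ha1, ha2, ha3⟩ := def_one_data hM hx hB hBD hi
  refine ⟨hc, fun χ hχ ψ hψ g hg => agree_of_defect_one hM hB hdB hχ hψ hg, ?_⟩
  have hcardB : Nat.card B = (Finset.univ.filter (fun χ : IrrCharacter G => χ ∈ B)).card := by
    rw [Nat.card_eq_fintype_card, Fintype.card_subtype]
  rw [hcardB] at hc
  obtain ⟨χ, ψ, hχψ, hB2⟩ := Finset.card_eq_two.mp hc
  have hχ : χ ∈ B := by
    have : χ ∈ Finset.univ.filter (fun χ : IrrCharacter G => χ ∈ B) := by rw [hB2]; exact Finset.mem_insert_self _ _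
    exact (Finset.mem_filter.mp this).2
  have hψ : ψ ∈ B := by
    have : ψ ∈ Finset.univ.filter (fun χ : IrrCharacter G => χ ∈ B) := by rw [hB2]; exact Finset.mem_insert_of_mem (Finset.mem_singleton_self _)
    exact (Finset.mem_filter.mp this).2
  have hval : ∀ φ : IrrCharacter G, φ ∈ B → ∀ y : 𝐂 x, ¬ 2 ∣ orderOf y → (φ : G → ℂ) (x * y) = ((a φ * L.m θ 0 : ℤ) : ℂ) * (θ : (𝐂 x) → ℂ) y := by
    intro φ hφ y hy
    rw [transl_eq_dgen hM hu hi (fun c hc => def_one_unique hM hx hB hBD hc hi) hφ hy]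
    have h1 := congrFun (L.dgen_eq (φ : G → ℂ)) y
    rw [pRegularPart_apply_of_regular hy, Fin.sum_univ_one, Pi.smul_apply, smul_eq_mul, ha2] at h1
    have h2 := congrFun (L.hm θ hθ) y
    rw [pRegularPart_apply_of_regular hy, Fin.sum_univ_one, Pi.smul_apply, smul_eq_mul] at h2
    rw [h1, h2]
    have h3 : (L.m θ 0 : ℂ) * (L.m θ 0 : ℂ) = 1 := by
      rcases hm θ hθ with h | h <;> rw [h] <;> norm_num
    push_cast
    linear_combination (-(a φ : ℂ) * L.v 0 y) * h3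
  refine ⟨χ, hχ, ψ, hψ, hχψ, a χ * L.m θ 0, a ψ * L.m θ 0, ?_, ?_, ?_, fun y hy => ⟨hval χ hχ y hy, hval ψ hψ y hy⟩⟩
  · rcases ha1 χ hχ with h | h <;> rcases hm θ hθ with h' | h' <;> rw [h, h'] <;> norm_num
  · rcases ha1 ψ hψ with h | h <;> rcases hm θ hθ with h' | h' <;> rw [h, h'] <;> norm_num
  · have h2 : a ψ = - a χ := by have := ha3 χ hχ ψ hψ hχψ; omega
    rw [h2]
    rcases ha1 χ hχ with h | h <;> rcases hm θ hθ with h' | h' <;> rw [h, h'] <;> norm_num

end sub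

end CfsgLib.Block
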