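import Mathlib
import Cfsg.Prelude.Def_Blocks

/-!
# Roots of unity modulo a maximal ideal of the algebraic integers
-/

set_option autoImplicit false
set_option linter.style.haveILetI false

namespace CfsgLib.RootMod

open Cfsg

variable {p : ℕ} {M : Ideal AlgInt}

theorem natCast_mem_iff (hM : IsPModular p M) {m : ℕ} (h : (m : AlgInt) ∈ M) : p ∣ m := by
  by_contra hpm
  have hco : Nat.Coprime p m := (Nat.Prime.coprime_iff_not_dvd hM.1).mpr hpm
  have h1 : IsCoprime (p : ℤ) (m : ℤ) := Nat.isCoprime_iff_coprime.mpr hco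
  obtain ⟨a, b, hab⟩ := h1
  have h2 : ((a : ℤ) : AlgInt) * (p : AlgInt) + ((b : ℤ) : AlgInt) * (m : AlgInt) = 1 := by
    have := congrArg (fun z : ℤ => (z : AlgInt)) hab
    push_cast at this
    exact this
  apply hM.2.1.ne_top
  rw [Ideal.eq_top_iff_one, ← h2]
  exact M.add_mem (M.mul_mem_left _ hM.2.2) (M.mul_mem_left _ h)

theorem inj (hM : IsPModular p M) {ε₁ ε₂ : AlgInt} {m : ℕ} (hm : ¬ p ∣ m) (h1 : ε₁ ^ m = 1) (h2 : ε₂ ^ m = 1) (h : ε₁ - ε₂ ∈ M) : ε₁ = ε₂ := by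
  have hm0 : m ≠ 0 := by rintro rfl; exact hm (dvd_zero p)
  obtain ⟨k, rfl⟩ := Nat.exists_eq_succ_of_ne_zero hm0
  set z := ε₁ * ε₂ ^ k with hz
  have hz1 : z - 1 ∈ M := by
    have : z - 1 = (ε₁ - ε₂) * ε₂ ^ k := by
      rw [hz, ← h2, pow_succ]; ring
    rw [this]
    exact M.mul_mem_right _ h
  have hzm : z ^ (k + 1) = 1 := by
    rw [hz, mul_pow, h1, one_mul, ← pow_mul, mul_comm, pow_mul, h2, one_pow]
  by_cases hz2 : z = 1
  · have : ε₁ * ε₂ ^ (k + 1) = ε₂ := by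
      rw [pow_succ, ← mul_assoc, ← hz, hz2, one_mul]
    rwa [h2, mul_one] at this
  · exfalso
    have h3 : (∑ i ∈ Finset.range (k + 1), z ^ i) * (z - 1) = 0 := by
      rw [geom_sum_mul, hzm, sub_self]
    have h4 : ∑ i ∈ Finset.range (k + 1), z ^ i = 0 := by
      rcases mul_eq_zero.mp h3 with h5 | h5
      · exact h5
      · exact absurd (sub_eq_zero.mp h5) hz2
    have h5 : ∑ i ∈ Finset.range (k + 1), (z ^ i - 1) ∈ M := by
      apply M.sum_mem
      intro i _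
      exact M.mem_of_dvd (sub_one_dvd_pow_sub_one z i) hz1
    rw [Finset.sum_sub_distrib, h4, zero_sub, Finset.sum_const, Finset.card_range, nsmul_eq_mul, mul_one, neg_mem_iff] at h5
    exact hm (natCast_mem_iff hM h5)

theorem charP (hM : IsPModular p M) : CharP (AlgInt ⧸ M) p := by
  constructor
  intro m
  have h1 : ((m : ℕ) : AlgInt ⧸ M) = Ideal.Quotient.mk M (m : AlgInt) := (map_natCast _ m).symm
  rw [h1, Ideal.Quotient.eq_zero_iff_mem]
  constructor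
  · exact natCast_mem_iff hM
  · rintro ⟨k, rfl⟩
    push_cast
    exact M.mul_mem_right _ hM.2.2

theorem exists_pow (hM : IsPModular p M) {a : AlgInt} (ha : a ∉ M) : ∃ n : ℕ, 0 < n ∧ ¬ p ∣ n ∧ a ^ n - 1 ∈ M := by
  haveI := hM.2.1
  haveI hpf : Fact p.Prime := ⟨hM.1⟩
  haveI : CharP (AlgInt ⧸ M) p := charP hM
  letI : Field (AlgInt ⧸ M) := Ideal.Quotient.field M
  letI : Algebra (ZMod p) (AlgInt ⧸ M) := ZMod.algebra _ p
  set y : AlgInt ⧸ M := Ideal.Quotient.mk M a with hy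
  have hy0 : y ≠ 0 := by
    rw [hy, Ne, Ideal.Quotient.eq_zero_iff_mem]; exact ha
  have hint : IsIntegral (ZMod p) y := by
    have h1 : IsIntegral ℤ a := by
      have := a.2
      exact (isIntegral_algebraMap_iff (R := ℤ) (A := AlgInt) (B := ℂ) Subtype.val_injective).mp this
    have h2 : IsIntegral ℤ y := h1.map (Ideal.Quotient.mk M : AlgInt →+* AlgInt ⧸ M).toIntAlgHom
    exact h2.tower_top
  have hfg := hint.fg_adjoin_singleton
  haveI : Module.Finite (ZMod p) (Algebra.adjoin (ZMod p) {y}) := Module.Finite.iff_fg.mpr hfg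
  haveI : Finite (Algebra.adjoin (ZMod p) {y}) := Module.finite_of_finite (ZMod p)
  set w : Algebra.adjoin (ZMod p) {y} := ⟨y, Algebra.self_mem_adjoin_singleton _ _⟩ with hw
  obtain ⟨i, j, hij, hpow⟩ : ∃ i j : ℕ, i < j ∧ w ^ i = w ^ j := by
    obtain ⟨i, j, hne, h⟩ := Finite.exists_ne_map_eq_of_infinite (fun n : ℕ => w ^ n)
    rcases lt_or_gt_of_ne hne with h1 | h1
    · exact ⟨i, j, h1, h⟩
    · exact ⟨j, i, h1, h.symm⟩
  have hpow' : y ^ i = y ^ j := congrArg Subtype.val hpow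
  have h1 : y ^ (j - i) = 1 := by
    have h2 : y ^ i * y ^ (j - i) = y ^ i := by rw [← pow_add, Nat.add_sub_cancel' hij.le, ← hpow']
    exact mul_left_cancel₀ (pow_ne_zero i hy0) (by rw [h2, mul_one])
  obtain ⟨s, n, hn, hsn⟩ := Nat.exists_eq_pow_mul_and_not_dvd (Nat.sub_pos_of_lt hij).ne' p hM.1.ne_one
  refine ⟨n, Nat.pos_of_ne_zero (by rintro rfl; exact hn (dvd_zero p)), hn, ?_⟩
  rw [← Ideal.Quotient.eq_zero_iff_mem, map_sub, map_pow, map_one, ← hy]
  rw [hsn, mul_comm, pow_mul] at h1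
  have h2 : (y ^ n - 1) ^ p ^ s = 0 := by
    rw [sub_pow_char_pow, h1, one_pow, sub_self]
  exact pow_eq_zero_iff (pow_ne_zero s hM.1.ne_zero) |>.mp h2

theorem surj (hM : IsPModular p M) {a : AlgInt} (ha : a ∉ M) : ∃ ε : AlgInt, (∃ m : ℕ, ¬ p ∣ m ∧ (ε : ℂ) ^ m = 1) ∧ a - ε ∈ M := by
  obtain ⟨n, hn0, hn, h1⟩ := exists_pow hM ha
  have hζ := Complex.isPrimitiveRoot_exp n hn0.ne'
  set ζ : ℂ := Complex.exp (2 * Real.pi * Complex.I / n) with hζd
  have hint : ζ ∈ AlgInt := by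
    rw [mem_integralClosure_iff]
    exact hζ.isIntegral hn0
  have hζ' : IsPrimitiveRoot (⟨ζ, hint⟩ : AlgInt) n := by
    apply IsPrimitiveRoot.of_map_of_injective (f := AlgInt.val) _ Subtype.val_injective
    exact hζ
  have h2 := Polynomial.X_pow_sub_one_eq_prod hn0 hζ'
  have h3 := congrArg (Polynomial.eval a) h2
  rw [Polynomial.eval_sub, Polynomial.eval_pow, Polynomial.eval_X, Polynomial.eval_one, Polynomial.eval_prod] at h3
  rw [h3] at h1
  obtain ⟨ε, hε, hε2⟩ := (hM.2.1.isPrime.prod_mem_iff).mp h1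
  rw [Polynomial.eval_sub, Polynomial.eval_X, Polynomial.eval_C] at hε2
  rw [Polynomial.mem_nthRootsFinset hn0] at hε
  exact ⟨ε, ⟨n, hn, by rw [← SubmonoidClass.coe_pow, hε]; rfl⟩, hε2⟩

end CfsgLib.RootMod
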