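import Cfsg.Agent.Lib.BEasy40
import Cfsg.Agent.Lib.BlockTrans
import Cfsg.Agent.Lib.CharBasic3
import Cfsg.Agent.Lib.BlockV4

/-!
# Faithful characters of `p`-power degree
-/

set_option autoImplicit false
set_option linter.style.haveILetI false
set_option linter.unusedSectionVars false
set_option linter.unusedVariables false

open scoped ComplexConjugate Pointwise

namespace CfsgLib.PPow

open Cfsg CfsgLib.CharBasic CfsgLib.Block

universe u v

variable {G : Type u} [Group G] [Fintype G] {p : ℕ} {M : Ideal AlgInt}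

theorem s4730 [Fact p.Prime] (hM : IsPModular p M) (hZ : Subgroup.center G = ⊥) (P : Sylow p G) (a b : ℕ) (ha : Nat.card P = p ^ a) (hb : Nat.card (Subgroup.center ↥(P : Subgroup G)) = p ^ b) (χ : IrrCharacter G) (hfaith : ∀ g : G, (χ : G → ℂ) g = (χ : G → ℂ) 1 → g = 1) (n : ℕ) (hdeg : charDegree (χ : G → ℂ) = p ^ n) : blockDefect p (blockOf M (χ : G → ℂ)) ≤ a - b ∧ (IsMulCommutative ↥(P : Subgroup G) → blockDefect p (blockOf M (χ : G → ℂ)) = 0) := by
  classical
  have hp : p.Prime := Fact.out
  have hGa : (Nat.card G).factorization p = a := by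
    have h1 := P.card_eq_multiplicity
    rw [ha] at h1
    exact (Nat.pow_right_injective hp.two_le h1).symm
  obtain ⟨Z, hZdef⟩ : ∃ Z, Z = (Subgroup.center (P : Subgroup G)).map (P : Subgroup G).subtype := ⟨_, rfl⟩
  haveI : Fintype Z := Fintype.ofFinite Z
  have hZcard : Nat.card Z = p ^ b := by
    rw [hZdef, ← hb]
    exact (Nat.card_congr (Subgroup.equivMapOfInjective _ (P : Subgroup G).subtype (P : Subgroup G).subtype_injective).toEquiv).symm
  have hidx : ∀ z ∈ Z, ¬ p ∣ (Subgroup.centralizer ({z} : Set G)).index := by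
    intro z hz
    rw [hZdef] at hz
    obtain ⟨w, hw, rfl⟩ := hz
    intro hdvd
    apply P.not_dvd_index
    refine hdvd.trans (Subgroup.index_dvd_of_le ?_)
    intro x hx
    rw [Subgroup.mem_centralizer_iff]
    intro y hy
    rw [Set.mem_singleton_iff.mp hy]
    have h1 := Subgroup.mem_center_iff.mp hw ⟨x, hx⟩
    exact (congrArg Subtype.val h1).symm
  have hχz : ∀ z ∈ Z, z ≠ 1 → (χ : G → ℂ) z = 0 := by
    intro z hz hz1
    rcases IsIrrCharacter.zero_or_norm_eq_of_coprime χ.2 (n := p ^ n) (by rw [charDegree_one, hdeg]) z (Nat.Coprime.pow_left n ((Nat.Prime.coprime_iff_not_dvd hp).mpr (hidx z hz))) with h | h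
    · exact h
    · exfalso
      apply hz1
      have h2 : z ∈ Subgroup.center G := by
        rw [Subgroup.mem_center_iff]
        intro g
        have h3 := hfaith _ (IsCharacter.commutator_mem_ker (irr_isCharacter χ) h g)
        have h4 : z * g * z⁻¹ * g⁻¹ * (g * z) = z * g := by group
        rw [h3, one_mul] at h4
        exact h4
      rw [hZ] at h2
      exact Subgroup.mem_bot.mp h2
  have hmain : ∀ ψ : IrrCharacter G, ψ ∈ blockOf M (χ : G → ℂ) → b ≤ (charDegree (ψ : G → ℂ)).factorization p := by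
    intro ψ hψ
    have hψ1 : (ψ : G → ℂ) 1 ≠ 0 := IsIrrCharacter.one_ne_zero ψ.2
    have h1 : ∀ z ∈ Z, z ≠ 1 → MemLocalIdeal M ((ψ : G → ℂ) z / (ψ : G → ℂ) 1) := by
      intro z hz hz1
      have h2 := hψ z
      have h3 : centralChar (χ : G → ℂ) z = 0 := by
        rw [centralChar, hχz z hz hz1]; simp
      rw [h3, zero_sub] at h2
      have h4 := locIdeal_neg h2
      rw [neg_neg] at h4
      have h5 := locIdeal_mul_right hM h4 (inv_nat_mem_locRing hM (hidx z hz))
      have h6 : centralChar (ψ : G → ℂ) z * ((Subgroup.centralizer ({z} : Set G)).index : ℂ)⁻¹ = (ψ : G → ℂ) z / (ψ : G → ℂ) 1 := by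
        rw [centralChar]
        have h7 : ((Subgroup.centralizer ({z} : Set G)).index : ℂ) ≠ 0 := by exact_mod_cast Subgroup.index_ne_zero_of_finite
        field_simp
      rwa [h6] at h5
    obtain ⟨m, hm⟩ := sum_subgroup_char Z (irr_isCharacter ψ)
    obtain ⟨u, hu⟩ : ∃ u : ℂ, u = ∑ z : Z, (ψ : G → ℂ) z / (ψ : G → ℂ) 1 := ⟨_, rfl⟩
    have hu1 : MemLocalIdeal M (u - 1) := by
      have h2 : u - 1 = ∑ z ∈ Finset.univ.erase (1 : Z), (ψ : G → ℂ) z / (ψ : G → ℂ) 1 := by
        rw [hu, ← Finset.add_sum_erase _ _ (Finset.mem_univ (1 : Z)), OneMemClass.coe_one, div_self hψ1]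
        ring
      rw [h2]
      apply locIdeal_sum hM
      intro z hz
      exact h1 z z.2 (fun h => (Finset.mem_erase.mp hz).1 (Subtype.ext h))
    have hunot : ¬ MemLocalIdeal M u := by
      intro h
      apply one_notMem_locIdeal hM
      have h2 := locIdeal_add hM h (locIdeal_neg hu1)
      have h3 : u + -(u - 1) = 1 := by ring
      rwa [h3] at h2
    have humem : u ∈ locRing hM := by
      have h2 : u = (u - 1) + 1 := by ring
      rw [h2]
      exact add_mem (locIdeal_mem_locRing hM hu1) (one_mem _)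
    have hu0 : u ≠ 0 := by
      intro h
      exact hunot (h ▸ locIdeal_zero hM)
    have hrel : u * (charDegree (ψ : G → ℂ) : ℂ) = (p : ℂ) ^ b * m := by
      rw [hu, ← Finset.sum_div, hm, ← charDegree_one, div_mul_cancel₀ _ hψ1, hZcard]
      push_cast; ring
    have hdiv : (charDegree (ψ : G → ℂ) : ℂ) / ((p ^ b : ℕ) : ℂ) ∈ locRing hM := by
      have h2 : (charDegree (ψ : G → ℂ) : ℂ) / ((p ^ b : ℕ) : ℂ) = m * u⁻¹ := by
        have hp0 : (p : ℂ) ^ b ≠ 0 := pow_ne_zero _ (by exact_mod_cast hp.ne_zero)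
        push_cast
        rw [div_eq_iff hp0]
        field_simp
        linear_combination hrel
      rw [h2]
      exact mul_mem (natCast_mem_locRing hM m) (inv_mem_locRing hM humem hunot)
    have h3 := factorization_le_of_div_mem hM (charDegree_ne_zero ψ.2) (pow_ne_zero b hp.ne_zero) hdiv
    rwa [hp.factorization_pow, Finsupp.single_eq_same] at h3
  have hinf : b ≤ sInf ((fun ψ : IrrCharacter G => (charDegree (ψ : G → ℂ)).factorization p) '' (blockOf M (χ : G → ℂ))) := by
    apply le_csInf
    · exact ⟨_, χ, SameBlock.refl hM _, rfl⟩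
    · rintro _ ⟨ψ, hψ, rfl⟩
      exact hmain ψ hψ
  have hle : blockDefect p (blockOf M (χ : G → ℂ)) ≤ a - b := by
    rw [blockDefect, hGa]
    omega
  refine ⟨hle, fun hcomm => ?_⟩
  have hab : a = b := by
    have h1 : Subgroup.center (P : Subgroup G) = ⊤ := by
      rw [eq_top_iff]
      intro x _
      rw [Subgroup.mem_center_iff]
      intro y
      exact hcomm.is_comm.comm y x
    rw [h1, Subgroup.card_top] at hb
    have h2 : p ^ a = p ^ b := by rw [← ha, ← hb]
    exact Nat.pow_right_injective hp.two_le h2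
  omega

end CfsgLib.PPow
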