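import Cfsg.Agent.Lib.BEasy41
import Cfsg.Agent.Lib.DetChar

/-!
# Faithful characters of small degree in the principal block of a perfect group
-/

set_option autoImplicit false
set_option linter.style.haveILetI false
set_option linter.unusedSectionVars false
set_option linter.unusedVariables false

open scoped ComplexConjugate Pointwise commutatorElement

namespace CfsgLib.SmallDeg

open Cfsg CfsgLib.CharBasic CfsgLib.Block CfsgLib.DetChar

universe u v

variable {G : Type u} [Group G] [Fintype G] {p : ℕ} {M : Ideal AlgInt}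

theorem det_two {χ : G → ℂ} (hχ : IsCharacter G χ) (x : G) (c : ℂ) (m n : ℕ) (h : ∀ k : ℕ, χ (x ^ k) = m + n * c ^ k) : detChar χ x = c ^ n := by
  obtain ⟨r, ρ, rfl⟩ := hχ
  rw [detChar_apply]
  obtain ⟨b, ζ, -, h2, h3⟩ := exists_eigenbasis_rep ρ x
  rw [det_eq_prod_of_eigenbasis b (ρ x) ζ (fun i => by simpa using h2 i 1)]
  rw [prod_eq_of_powers ζ (Sum.elim (fun _ : Fin m => (1 : ℂ)) (fun _ : Fin n => c)) (by
    intro k
    have h5 := h3 (k : ℤ)
    simp only [zpow_natCast] at h5
    rw [← h5, h k, Fintype.sum_sum_type]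
    simp)]
  rw [Fintype.prod_sum_type]
  simp

theorem regular_trivial [Fact p.Prime] (hM : IsPModular p M) (hperf : commutator G = ⊤) (P : Sylow p G) (χ : IrrCharacter G) (hχ : χ ∈ principalBlock M G) (hfaith : ∀ g : G, (χ : G → ℂ) g = (χ : G → ℂ) 1 → g = 1) (hdeg : charDegree (χ : G → ℂ) < 2 * p)
    {x : G} (hx : x ∈ Subgroup.centralizer ((P : Subgroup G) : Set G)) (hxp : ¬ p ∣ orderOf x) : x = 1 := by
  classical
  have hp : p.Prime := Fact.out
  obtain ⟨X, hX⟩ : ∃ X, X = Subgroup.zpowers x := ⟨_, rfl⟩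
  haveI : Fintype X := Fintype.ofFinite X
  have hxX : x ∈ X := by rw [hX]; exact Subgroup.mem_zpowers x
  have hXcard : Nat.card X = orderOf x := by rw [hX, Nat.card_zpowers]
  have hXC : ∀ y ∈ X, y ∈ Subgroup.centralizer ((P : Subgroup G) : Set G) := by
    intro y hy
    rw [hX] at hy
    exact (Subgroup.zpowers_le.mpr hx) hy
  have hcommX : ∀ a b : X, a * b = b * a := by
    intro a b
    apply Subtype.ext
    have ha : (a : G) ∈ Subgroup.zpowers x := hX ▸ a.2
    have hb : (b : G) ∈ Subgroup.zpowers x := hX ▸ b.2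
    obtain ⟨i, hi⟩ := Subgroup.mem_zpowers_iff.mp ha
    obtain ⟨j, hj⟩ := Subgroup.mem_zpowers_iff.mp hb
    show (a : G) * b = b * a
    rw [← hi, ← hj, ← zpow_add, ← zpow_add, add_comm]
  have hχ1 : (χ : G → ℂ) 1 ≠ 0 := IsIrrCharacter.one_ne_zero χ.2
  have hval : ∀ y ∈ X, MemLocalIdeal M ((χ : G → ℂ) y / (χ : G → ℂ) 1 - 1) := by
    intro y hy
    have hidx : ¬ p ∣ (Subgroup.centralizer ({y} : Set G)).index := by
      intro hdvd
      apply P.not_dvd_index
      refine hdvd.trans (Subgroup.index_dvd_of_le ?_)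
      intro u hu
      rw [Subgroup.mem_centralizer_iff]
      intro w hw
      rw [Set.mem_singleton_iff.mp hw]
      exact (Subgroup.mem_centralizer_iff.mp (hXC y hy) u hu).symm
    have h2 := hχ y
    have h5 := locIdeal_mul_right hM (locIdeal_neg h2) (inv_nat_mem_locRing hM hidx)
    have h6 : -(centralChar (fun _ : G => (1 : ℂ)) y - centralChar (χ : G → ℂ) y) * ((Subgroup.centralizer ({y} : Set G)).index : ℂ)⁻¹ = (χ : G → ℂ) y / (χ : G → ℂ) 1 - 1 := by
      rw [centralChar, centralChar]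
      have h7 : ((Subgroup.centralizer ({y} : Set G)).index : ℂ) ≠ 0 := by exact_mod_cast Subgroup.index_ne_zero_of_finite
      field_simp
      ring
    rwa [h6] at h5
  -- the restriction to `X`
  have hresc : IsCharacter X (fun y : X => (χ : G → ℂ) y) := IsCharacter.comp (irr_isCharacter χ) X.subtype
  have hnat : ∀ ξ : IrrCharacter X, ∃ n : ℕ, classInner (fun y : X => (χ : G → ℂ) y) (ξ : X → ℂ) = n := fun ξ => IsCharacter.inner_nat hresc (irr_isCharacter ξ)
  choose A hA using hnat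
  have hlin : ∀ ξ : IrrCharacter X, (ξ : X → ℂ) 1 = 1 := fun ξ => IsIrrCharacter.degree_one_of_comm ξ.2 hcommX
  obtain ⟨one, hone⟩ : ∃ o : IrrCharacter X, ∀ y, (o : X → ℂ) y = 1 := ⟨⟨fun _ => 1, isIrr_one'⟩, fun _ => rfl⟩
  have hdvd : ∀ ξ : IrrCharacter X, ξ ≠ one → p ∣ A ξ := by
    intro ξ hξ
    rw [← locIdeal_nat_iff hM, ← hA ξ]
    have h1 : ∑ y : X, conj ((ξ : X → ℂ) y) = 0 := by
      have h2 : classInner (one : X → ℂ) (ξ : X → ℂ) = 0 := IsIrrCharacter.inner_eq_zero one.2 ξ.2 (fun h => hξ (Subtype.ext h.symm))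
      rw [classInner] at h2
      have h3 := (mul_eq_zero.mp h2).resolve_left (inv_ne_zero (by exact_mod_cast Nat.card_pos.ne'))
      rw [← h3]
      apply Finset.sum_congr rfl
      intro y _
      rw [hone, one_mul]
    have h2 : classInner (fun y : X => (χ : G → ℂ) y) (ξ : X → ℂ) = ((Nat.card X : ℂ)⁻¹ * (χ : G → ℂ) 1) * ∑ y : X, ((χ : G → ℂ) y / (χ : G → ℂ) 1 - 1) * conj ((ξ : X → ℂ) y) := by
      rw [classInner, mul_assoc]
      congr 1
      have h3 : ∑ y : X, ((χ : G → ℂ) y / (χ : G → ℂ) 1 - 1) * conj ((ξ : X → ℂ) y) = ∑ y : X, (χ : G → ℂ) y / (χ : G → ℂ) 1 * conj ((ξ : X → ℂ) y) - ∑ y : X, conj ((ξ : X → ℂ) y) := by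
        rw [← Finset.sum_sub_distrib]
        apply Finset.sum_congr rfl
        intro y _
        ring
      rw [h3, h1, sub_zero, Finset.mul_sum]
      apply Finset.sum_congr rfl
      intro y _
      field_simp
    rw [h2]
    apply locIdeal_mul_left hM
    · apply mul_mem
      · rw [hXcard]
        exact inv_nat_mem_locRing hM hxp
      · exact isIntegral_mem_locRing hM (IsCharacter.isIntegral (irr_isCharacter χ) _)
    · apply locIdeal_sum hM
      intro y _
      apply locIdeal_mul_right hM (hval y y.2)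
      exact isIntegral_mem_locRing hM (IsCharacter.isIntegral (IsCharacter.conj (irr_isCharacter ξ)) y)
  -- expansion
  have hexp : ∀ y : X, (χ : G → ℂ) y = ∑ ξ : IrrCharacter X, (A ξ : ℂ) * (ξ : X → ℂ) y := by
    intro y
    have h1 := congrFun (eq_sum_inner (IsCharacter.isClassFunction hresc)) y
    simp only [Finset.sum_apply, Pi.smul_apply, smul_eq_mul, hA] at h1
    exact h1
  have hsum : charDegree (χ : G → ℂ) = ∑ ξ : IrrCharacter X, A ξ := by
    have h1 := hexp 1
    rw [OneMemClass.coe_one, charDegree_one] at h1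
    simp only [hlin, mul_one] at h1
    exact_mod_cast h1
  by_cases hall : ∀ ξ : IrrCharacter X, ξ ≠ one → A ξ = 0
  · apply hfaith
    have h1 : ∀ y : X, (χ : G → ℂ) y = A one := by
      intro y
      rw [hexp y, Finset.sum_eq_single one]
      · rw [hone, mul_one]
      · intro ξ _ hξ
        rw [hall ξ hξ]; simp
      · intro h; exact absurd (Finset.mem_univ _) h
    have h2 := h1 ⟨x, hxX⟩
    have h3 := h1 1
    rw [OneMemClass.coe_one] at h3
    rw [h3]; exact h2
  · push Not at hall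
    obtain ⟨ξ₀, hξ₀, hA0⟩ := hall
    have h1 : ∑ ξ : IrrCharacter X, A ξ = A ξ₀ + (A one + ∑ ξ ∈ (Finset.univ.erase ξ₀).erase one, A ξ) := by
      rw [← Finset.add_sum_erase _ _ (Finset.mem_univ ξ₀), ← Finset.add_sum_erase _ _ (Finset.mem_erase.mpr ⟨hξ₀.symm, Finset.mem_univ one⟩)]
    rw [hsum, h1] at hdeg
    have h2 := Nat.le_of_dvd (Nat.pos_of_ne_zero hA0) (hdvd ξ₀ hξ₀)
    have h3 : ∀ ξ ∈ (Finset.univ.erase ξ₀).erase one, A ξ = 0 := by
      intro ξ hξ
      by_contra hne
      have h4 := Nat.le_of_dvd (Nat.pos_of_ne_zero hne) (hdvd ξ (Finset.mem_erase.mp hξ).1)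
      have h5 := Finset.single_le_sum (f := A) (fun _ _ => Nat.zero_le _) hξ
      omega
    have hAp : A ξ₀ = p := by
      obtain ⟨c, hc⟩ := hdvd ξ₀ hξ₀
      have hc1 : c = 1 := by
        have h4 : p * c < 2 * p := by omega
        have h5 : c < 2 := by
          by_contra h6
          have : p * 2 ≤ p * c := Nat.mul_le_mul_left p (by omega)
          omega
        have h6 : c ≠ 0 := by
          rintro rfl
          exact hA0 (by rw [hc, mul_zero])
        omega
      rw [hc, hc1, mul_one]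
    have hexp' : ∀ y : X, (χ : G → ℂ) y = A one + p * (ξ₀ : X → ℂ) y := by
      intro y
      rw [hexp y, ← Finset.add_sum_erase _ _ (Finset.mem_univ ξ₀), ← Finset.add_sum_erase _ _ (Finset.mem_erase.mpr ⟨hξ₀.symm, Finset.mem_univ one⟩),
        Finset.sum_eq_zero (fun ξ hξ => by rw [h3 ξ hξ]; simp), hAp, hone]
      ring
    obtain ⟨L, hL⟩ := IsCharacter.exists_linear (irr_isCharacter ξ₀) (hlin ξ₀)
    have hdet : detChar (χ : G → ℂ) x = ((L ⟨x, hxX⟩ : ℂˣ) : ℂ) ^ p := by
      apply det_two (irr_isCharacter χ) x _ (A one) p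
      intro k
      have h4 := hexp' (⟨x, hxX⟩ ^ k)
      rw [hL, map_pow, Units.val_pow_eq_pow_val] at h4
      exact h4
    obtain ⟨D, hD⟩ := detChar_hom (irr_isCharacter χ)
    have hD1 : D x = 1 := by
      have h4 : commutator G ≤ D.ker := by
        rw [commutator_def, Subgroup.commutator_le]
        intro a _ b _
        rw [MonoidHom.mem_ker, map_commutatorElement, commutatorElement_eq_one_iff_mul_comm]
        exact mul_comm _ _
      have h5 : x ∈ D.ker := h4 (by rw [hperf]; exact Subgroup.mem_top x)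
      exact MonoidHom.mem_ker.mp h5
    rw [hD, hD1, Units.val_one] at hdet
    have h6 : (L ⟨x, hxX⟩) ^ p = 1 := by
      apply Units.ext
      rw [Units.val_pow_eq_pow_val, Units.val_one]
      exact hdet.symm
    have h7 : (L ⟨x, hxX⟩) ^ (orderOf x) = 1 := by
      rw [← map_pow]
      have : (⟨x, hxX⟩ : X) ^ orderOf x = 1 := Subtype.ext (pow_orderOf_eq_one x)
      rw [this, map_one]
    have h8 : L ⟨x, hxX⟩ = 1 := by
      rw [← orderOf_eq_one_iff]
      exact Nat.eq_one_of_dvd_coprimes ((Nat.Prime.coprime_iff_not_dvd hp).mpr hxp) (orderOf_dvd_of_pow_eq_one h6) (orderOf_dvd_of_pow_eq_one h7)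
    apply hfaith
    have h9 := hexp' ⟨x, hxX⟩
    have h10 := hexp' 1
    rw [OneMemClass.coe_one, hlin] at h10
    rw [hL, h8, Units.val_one] at h9
    rw [h10]; exact h9

theorem s4729 [Fact p.Prime] (hM : IsPModular p M) (hperf : commutator G = ⊤) (P : Sylow p G) (χ : IrrCharacter G) (hχ : χ ∈ principalBlock M G) (hfaith : ∀ g : G, (χ : G → ℂ) g = (χ : G → ℂ) 1 → g = 1) (hdeg : charDegree (χ : G → ℂ) < 2 * p) : IsPGroup p ↥(Subgroup.centralizer ((P : Subgroup G) : Set G)) := by
  have hp : p.Prime := Fact.out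
  intro c
  obtain ⟨j, m, hm, hjm⟩ := Nat.exists_eq_pow_mul_and_not_dvd (orderOf_pos (c : G)).ne' p hp.ne_one
  refine ⟨j, ?_⟩
  apply Subtype.ext
  apply regular_trivial hM hperf P χ hχ hfaith hdeg (Subgroup.pow_mem _ c.2 _)
  rw [orderOf_pow, hjm, Nat.gcd_eq_right (dvd_mul_right _ _), Nat.mul_div_cancel_left _ (pow_pos hp.pos j)]
  exact hm

end CfsgLib.SmallDeg
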