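import Cfsg.Agent.Lib.BEasy38
import Cfsg.Agent.Lib.CharClifford

/-!
# Defect groups of a block of a quotient
-/

set_option autoImplicit false
set_option linter.style.haveILetI false
set_option linter.unusedSectionVars false
set_option linter.unusedVariables false

open scoped ComplexConjugate Pointwise commutatorElement

namespace CfsgLib.Quot4

open Cfsg CfsgLib.CharBasic CfsgLib.Block CfsgLib.Lam

universe u v

variable {G : Type u} [Group G] [Fintype G] {p : ℕ} {M : Ideal AlgInt}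

theorem index_eq (N : Subgroup G) [N.Normal] (g : G) : (Subgroup.centralizer ({g} : Set G)).index = (Subgroup.centralizer ({g} : Set G)).relIndex ((Subgroup.centralizer ({QuotientGroup.mk' N g} : Set (G ⧸ N))).comap (QuotientGroup.mk' N)) * (Subgroup.centralizer ({QuotientGroup.mk' N g} : Set (G ⧸ N))).index := by
  rw [← Subgroup.index_comap_of_surjective _ (QuotientGroup.mk'_surjective N)]
  rw [Subgroup.relIndex_mul_index]
  intro x hx
  rw [Subgroup.mem_comap, Subgroup.mem_centralizer_singleton_iff]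
  rw [Subgroup.mem_centralizer_singleton_iff] at hx
  rw [← map_mul, ← map_mul, hx]

theorem sylow_map [Fact p.Prime] (N : Subgroup G) [N.Normal] (K : Subgroup G) (C : Subgroup (G ⧸ N)) (hKC : K ≤ C.comap (QuotientGroup.mk' N)) (hk : ¬ p ∣ K.relIndex (C.comap (QuotientGroup.mk' N))) {D : Subgroup G} (hD : IsSylowOf p K D) :
    IsSylowOf p C (D.map (QuotientGroup.mk' N)) := by
  have hp : p.Prime := Fact.out
  obtain ⟨h1, h2, h3⟩ := isSylowOf_iff.mp hD
  rw [isSylowOf_iff]
  have hDC : D.map (QuotientGroup.mk' N) ≤ C := by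
    rw [Subgroup.map_le_iff_le_comap]
    exact h1.trans hKC
  have hpD : IsPGroup p (D.map (QuotientGroup.mk' N)) := h2.map _
  refine ⟨hDC, hpD, ?_⟩
  obtain ⟨m, hm⟩ := IsPGroup.iff_card.mp hpD
  have hcard1 : K.relIndex (C.comap (QuotientGroup.mk' N)) * Nat.card K = Nat.card (C.comap (QuotientGroup.mk' N)) := by
    rw [mul_comm, ← Nat.card_congr (Subgroup.subgroupOfEquivOfLe hKC).toEquiv]
    exact Subgroup.card_mul_index (K.subgroupOf (C.comap (QuotientGroup.mk' N)))
  have hcard2 : Nat.card (C.comap (QuotientGroup.mk' N)) = Nat.card C * Nat.card N := by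
    have hNC : N ≤ C.comap (QuotientGroup.mk' N) := by
      intro x hx
      rw [Subgroup.mem_comap, show QuotientGroup.mk' N x = 1 from (QuotientGroup.eq_one_iff x).mpr hx]
      exact C.one_mem
    rw [card_map_mk hNC, Subgroup.map_comap_eq_self_of_surjective (QuotientGroup.mk'_surjective N)]
  have hcard3 : Nat.card D = Nat.card (D ⊓ N : Subgroup G) * Nat.card (D.map (QuotientGroup.mk' N)) := by
    have h1 := Subgroup.card_mul_index ((QuotientGroup.mk' N).comp D.subtype).ker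
    rw [Subgroup.index_ker, MonoidHom.range_comp, Subgroup.range_subtype] at h1
    have h3 : ((QuotientGroup.mk' N).comp D.subtype).ker = N.subgroupOf D := by
      ext x
      rw [MonoidHom.mem_ker, Subgroup.mem_subgroupOf]
      exact QuotientGroup.eq_one_iff (x : G)
    have h2 : Nat.card ((QuotientGroup.mk' N).comp D.subtype).ker = Nat.card (D ⊓ N : Subgroup G) := by
      have h5 : Nat.card ((N.subgroupOf D).map D.subtype) = Nat.card (N.subgroupOf D) := Subgroup.card_map_of_injective D.subtype_injective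
      rw [h3, ← h5, Subgroup.subgroupOf_map_subtype, inf_comm]
    rw [← h1, h2]
  have f1 : (Nat.card D).factorization p = (Nat.card K).factorization p := by
    rw [h3, hp.factorization_pow, Finsupp.single_eq_same]
  have f2 : (Nat.card (C.comap (QuotientGroup.mk' N))).factorization p = (Nat.card K).factorization p := by
    rw [← hcard1, Nat.factorization_mul (by intro h; rw [h, zero_mul] at hcard1; exact Nat.card_pos.ne' hcard1.symm) Nat.card_pos.ne', Finsupp.add_apply, Nat.factorization_eq_zero_of_not_dvd hk, zero_add]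
  have f3 : (Nat.card (C.comap (QuotientGroup.mk' N))).factorization p = (Nat.card C).factorization p + (Nat.card N).factorization p := by
    rw [hcard2, Nat.factorization_mul Nat.card_pos.ne' Nat.card_pos.ne', Finsupp.add_apply]
  have f4 : (Nat.card D).factorization p = (Nat.card (D ⊓ N : Subgroup G)).factorization p + (Nat.card (D.map (QuotientGroup.mk' N))).factorization p := by
    rw [hcard3, Nat.factorization_mul Nat.card_pos.ne' Nat.card_pos.ne', Finsupp.add_apply]
  have f5 : (Nat.card (D ⊓ N : Subgroup G)).factorization p ≤ (Nat.card N).factorization p :=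
    (Nat.factorization_le_iff_dvd Nat.card_pos.ne' Nat.card_pos.ne').mpr (Subgroup.card_dvd_of_le inf_le_right) p
  have f6 : (Nat.card (D.map (QuotientGroup.mk' N))).factorization p ≤ (Nat.card C).factorization p :=
    (Nat.factorization_le_iff_dvd Nat.card_pos.ne' Nat.card_pos.ne').mpr (Subgroup.card_dvd_of_le hDC) p
  have f7 : (Nat.card (D.map (QuotientGroup.mk' N))).factorization p = m := by
    rw [hm, hp.factorization_pow, Finsupp.single_eq_same]
  rw [hm]
  congr 1
  omega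

theorem s4433 [Fact p.Prime] (hM : IsPModular p M) (N : Subgroup G) [N.Normal] (Bbar : Set (IrrCharacter (G ⧸ N))) (hBbar : IsPBlock M Bbar) (B : Set (IrrCharacter G)) (hB : IsPBlock M B) (hsub : ∀ χ ∈ Bbar, ∀ ψ : IrrCharacter G, (ψ : G → ℂ) = (χ : G ⧸ N → ℂ) ∘ QuotientGroup.mk → ψ ∈ B) (Dbar : Subgroup (G ⧸ N)) (hDbar : IsDefectGroup p M Bbar Dbar) : ∃ P : Subgroup G, IsDefectGroup p M B P ∧ Dbar ≤ P.map (QuotientGroup.mk' N) := by
  have hp : p.Prime := Fact.out
  haveI : Fintype (G ⧸ N) := Fintype.ofFinite _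
  obtain ⟨g, hg⟩ := exists_defectClass hM hB
  obtain ⟨D, hD⟩ := exists_isSylowOf (p := p) (Subgroup.centralizer ({g} : Set G))
  obtain ⟨χb, hχb⟩ : ∃ χb, χb ∈ Bbar := by
    obtain ⟨χ, rfl⟩ := hBbar
    exact ⟨χ, SameBlock.refl hM _⟩
  have hχ : infl N χb ∈ B := hsub χb hχb (infl N χb) ((rfl : (infl N χb : G → ℂ) = (χb : G ⧸ N → ℂ) ∘ QuotientGroup.mk' N))
  have hne := hg.2.2 _ hχ
  obtain ⟨k, hk⟩ : ∃ k, k = (Subgroup.centralizer ({g} : Set G)).relIndex ((Subgroup.centralizer ({QuotientGroup.mk' N g} : Set (G ⧸ N))).comap (QuotientGroup.mk' N)) := ⟨_, rfl⟩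
  have hcc : centralChar (infl N χb : G → ℂ) g = k * centralChar (χb : G ⧸ N → ℂ) (QuotientGroup.mk' N g) := by
    have e1 : (infl N χb : G → ℂ) g = (χb : G ⧸ N → ℂ) (QuotientGroup.mk' N g) := congrFun ((rfl : (infl N χb : G → ℂ) = (χb : G ⧸ N → ℂ) ∘ QuotientGroup.mk' N)) g
    have e2 : (infl N χb : G → ℂ) 1 = (χb : G ⧸ N → ℂ) 1 := by
      rw [show (infl N χb : G → ℂ) 1 = (χb : G ⧸ N → ℂ) (QuotientGroup.mk' N 1) from congrFun ((rfl : (infl N χb : G → ℂ) = (χb : G ⧸ N → ℂ) ∘ QuotientGroup.mk' N)) 1, map_one]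
    rw [centralChar, centralChar, e1, e2, index_eq N g, ← hk]
    push_cast
    ring
  rw [hcc] at hne
  have hk1 : ¬ p ∣ k := by
    intro h
    exact hne (locIdeal_mul_right hM ((locIdeal_nat_iff hM k).mpr h) (centralChar_mem_locRing hM χb.2 _))
  have hne2 : ¬ MemLocalIdeal M (centralChar (χb : G ⧸ N → ℂ) (QuotientGroup.mk' N g)) := by
    intro h
    exact hne (locIdeal_mul_left hM (natCast_mem_locRing hM k) h)
  obtain ⟨x, hconj, hDx⟩ := exists_conj_centralizing_defectGroup hM hBbar hDbar hχb hne2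
  obtain ⟨c, hc⟩ := isConj_iff.mp hconj
  have hsyl : IsSylowOf p (Subgroup.centralizer ({QuotientGroup.mk' N g} : Set (G ⧸ N))) (D.map (QuotientGroup.mk' N)) := by
    apply sylow_map N (Subgroup.centralizer ({g} : Set G)) _ _ (hk ▸ hk1) hD
    intro y hy
    rw [Subgroup.mem_comap, Subgroup.mem_centralizer_singleton_iff]
    rw [Subgroup.mem_centralizer_singleton_iff] at hy
    rw [← map_mul, ← map_mul, hy]
  obtain ⟨P0, hP0⟩ : ∃ P0 : Subgroup G, P0 = D := ⟨_, rfl⟩
  have hDp : IsPGroup p Dbar := by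
    obtain ⟨g', -, h'⟩ := isDefectGroup_iff.mp hDbar
    exact h'.isPGroup
  have hEp : IsPGroup p (Dbar.map (MulAut.conj c⁻¹).toMonoidHom) := hDp.map _
  have hEC : Dbar.map (MulAut.conj c⁻¹).toMonoidHom ≤ Subgroup.centralizer ({QuotientGroup.mk' N g} : Set (G ⧸ N)) := by
    rintro _ ⟨d, hd, rfl⟩
    have h1 := Subgroup.mem_centralizer_singleton_iff.mp (hDx hd)
    rw [Subgroup.mem_centralizer_singleton_iff]
    change c⁻¹ * d * c⁻¹⁻¹ * _ = _ * (c⁻¹ * d * c⁻¹⁻¹)
    have h2 : QuotientGroup.mk' N g = c⁻¹ * x * c := by rw [← hc]; group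
    rw [h2, inv_inv]
    calc c⁻¹ * d * c * (c⁻¹ * x * c) = c⁻¹ * (d * x) * c := by group
      _ = c⁻¹ * (x * d) * c := by rw [h1]
      _ = _ := by group
  obtain ⟨D2, hD2, hED2⟩ := exists_isSylowOf_ge hEp hEC
  obtain ⟨l, hl, hD2'⟩ := hsyl.conj hD2
  obtain ⟨y, hy⟩ := QuotientGroup.mk'_surjective N (c * l)
  refine ⟨D.map (MulAut.conj y).toMonoidHom, IsDefectGroup.conj hM (isDefectGroup_iff.mpr ⟨g, hg, hD⟩) y, ?_⟩
  intro d hd
  have h1 : c⁻¹ * d * c⁻¹⁻¹ ∈ D2 := hED2 ⟨d, hd, rfl⟩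
  rw [hD2'] at h1
  obtain ⟨_, ⟨d0, hd0, rfl⟩, h3⟩ := h1
  refine ⟨y * d0 * y⁻¹, ⟨d0, hd0, rfl⟩, ?_⟩
  rw [map_mul, map_mul, map_inv, hy]
  have h4 : l * QuotientGroup.mk' N d0 * l⁻¹ = c⁻¹ * d * c⁻¹⁻¹ := h3
  rw [inv_inv] at h4
  calc c * l * QuotientGroup.mk' N d0 * (c * l)⁻¹ = c * (l * QuotientGroup.mk' N d0 * l⁻¹) * c⁻¹ := by group
    _ = d := by rw [h4]; group

end CfsgLib.Quot4
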