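import Cfsg.Agent.Lib.BEasy45
import Cfsg.Agent.Lib.BlockCover

/-!
# Blocks of a quotient by a normal `p`-subgroup
-/

set_option autoImplicit false
set_option linter.style.haveILetI false
set_option linter.unusedSectionVars false
set_option linter.unusedVariables false

open scoped ComplexConjugate Pointwise commutatorElement

namespace CfsgLib.Quot4

open Cfsg CfsgLib.CharBasic CfsgLib.Block CfsgLib.Lam

universe u v

variable {G : Type u} [Group G] [Fintype G] {p : ℕ} {M : Ideal AlgInt}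

theorem defect_aux [Fact p.Prime] (hM : IsPModular p M) (N : Subgroup G) [N.Normal] [Fintype (G ⧸ N)] {B : Set (IrrCharacter G)} {χb : IrrCharacter (G ⧸ N)} (hχ : infl N χb ∈ B) {g : G} (hg : IsDefectClass M B g) :
    ¬ p ∣ (Subgroup.centralizer ({g} : Set G)).relIndex ((Subgroup.centralizer ({QuotientGroup.mk' N g} : Set (G ⧸ N))).comap (QuotientGroup.mk' N)) ∧ ¬ MemLocalIdeal M (centralChar (χb : G ⧸ N → ℂ) (QuotientGroup.mk' N g)) := by
  have hp : p.Prime := Fact.out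
  have hne := hg.2.2 _ hχ
  obtain ⟨k, hk⟩ : ∃ k, k = (Subgroup.centralizer ({g} : Set G)).relIndex ((Subgroup.centralizer ({QuotientGroup.mk' N g} : Set (G ⧸ N))).comap (QuotientGroup.mk' N)) := ⟨_, rfl⟩
  have hcc : centralChar (infl N χb : G → ℂ) g = k * centralChar (χb : G ⧸ N → ℂ) (QuotientGroup.mk' N g) := by
    have e1 : (infl N χb : G → ℂ) g = (χb : G ⧸ N → ℂ) (QuotientGroup.mk' N g) := rfl
    have e2 : (infl N χb : G → ℂ) 1 = (χb : G ⧸ N → ℂ) 1 := by
      rw [show (infl N χb : G → ℂ) 1 = (χb : G ⧸ N → ℂ) (QuotientGroup.mk' N 1) from rfl, map_one]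
    rw [centralChar, centralChar, e1, e2, index_eq N g, ← hk]
    push_cast
    ring
  rw [hcc] at hne
  rw [← hk]
  constructor
  · intro h
    exact hne (locIdeal_mul_right hM ((locIdeal_nat_iff hM k).mpr h) (centralChar_mem_locRing hM χb.2 _))
  · intro h
    exact hne (locIdeal_mul_left hM (natCast_mem_locRing hM k) h)

theorem eq_of_reg [Fact p.Prime] {N : Subgroup G} [N.Normal] (hN : IsPGroup p N) {y t : G} (hy : ¬ p ∣ orderOf y) (ht : ¬ p ∣ orderOf t) (hc : ∀ n ∈ N, y * n = n * y) (h : QuotientGroup.mk' N t = QuotientGroup.mk' N y) : t = y := by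
  have hp : p.Prime := Fact.out
  obtain ⟨n, hn⟩ : ∃ n : G, n = y⁻¹ * t := ⟨_, rfl⟩
  have hnN : n ∈ N := by
    rw [hn]
    exact QuotientGroup.eq.mp h.symm
  have htn : t = y * n := by rw [hn, mul_inv_cancel_left]
  have hm : n ^ (orderOf t * orderOf y) = 1 := by
    have h1 : t ^ (orderOf t * orderOf y) = 1 := by rw [pow_mul, pow_orderOf_eq_one, one_pow]
    have h2 : y ^ (orderOf t * orderOf y) = 1 := by rw [mul_comm, pow_mul, pow_orderOf_eq_one, one_pow]
    have h3 : (y * n) ^ (orderOf t * orderOf y) = y ^ (orderOf t * orderOf y) * n ^ (orderOf t * orderOf y) := (show Commute y n from hc n hnN).mul_pow _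
    rw [← htn, h1, h2, one_mul] at h3
    exact h3.symm
  obtain ⟨k, hk⟩ := hN ⟨n, hnN⟩
  have hk' : n ^ p ^ k = 1 := congrArg Subtype.val hk
  obtain ⟨j, -, hj⟩ := (Nat.dvd_prime_pow hp).mp (orderOf_dvd_of_pow_eq_one hk')
  have hj0 : j = 0 := by
    by_contra h
    have h4 : p ∣ orderOf t * orderOf y := ((dvd_pow_self p h).trans (hj ▸ orderOf_dvd_of_pow_eq_one hm))
    rcases hp.dvd_mul.mp h4 with h5 | h5
    · exact ht h5
    · exact hy h5
  rw [hj0, pow_zero] at hj
  rw [htn, orderOf_eq_one_iff.mp hj, mul_one]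

theorem map_conj_comm (N : Subgroup G) [N.Normal] (D : Subgroup G) (z : G) : (D.map (MulAut.conj z).toMonoidHom).map (QuotientGroup.mk' N) = (D.map (QuotientGroup.mk' N)).map (MulAut.conj (QuotientGroup.mk' N z)).toMonoidHom := by
  rw [Subgroup.map_map, Subgroup.map_map]
  congr 1

theorem s4434 [Fact p.Prime] (hM : IsPModular p M) (N : Subgroup G) [N.Normal] (hN : IsPGroup p N) (B : Set (IrrCharacter G)) (hB : IsPBlock M B) : ∃ Bbar : Set (IrrCharacter (G ⧸ N)), IsPBlock M Bbar ∧ (∀ χ ∈ Bbar, ∀ ψ : IrrCharacter G, (ψ : G → ℂ) = (χ : G ⧸ N → ℂ) ∘ QuotientGroup.mk → ψ ∈ B) ∧ ∀ Dbar : Subgroup (G ⧸ N), IsDefectGroup p M Bbar Dbar ↔ ∃ P : Subgroup G, IsDefectGroup p M B P ∧ Dbar = P.map (QuotientGroup.mk' N) := by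
  classical
  haveI : Fintype (G ⧸ N) := Fintype.ofFinite _
  obtain ⟨D, hD⟩ := exists_defectGroup hM hB
  obtain ⟨y, hy, hDy⟩ := isDefectGroup_iff.mp hD
  have hyreg := IsDefectClass.regular hM hB hy
  have hND : N ≤ D := IsDefectGroup.normal_le hM hB hD N hN
  have hcN : ∀ n ∈ N, y * n = n * y := by
    intro n hn
    exact (Subgroup.mem_centralizer_singleton_iff.mp (hDy.le (hND hn))).symm
  have hcoef : blockCoeff (barB N B) (QuotientGroup.mk' N y) = blockCoeff B y := by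
    rw [← coeff_eB, ← pushQ_eB hM, coeff_pushQ, Finset.sum_eq_single y]
    · rw [if_pos rfl, coeff_eB]
    · intro t _ ht
      split_ifs with h
      · rw [coeff_eB]
        apply blockCoeff_eq_zero hM (inS_eB hM hB)
        by_contra hcon
        exact ht (eq_of_reg hN hyreg hcon hcN h)
      · rfl
    · intro h; exact absurd (Finset.mem_univ _) h
  have hS : ∀ χ ∈ barB N B, ∀ ψ : IrrCharacter (G ⧸ N), ψ ∉ barB N B → ¬ SameBlock M (χ : G ⧸ N → ℂ) (ψ : G ⧸ N → ℂ) := by
    intro χ hχ ψ hψ h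
    apply hψ
    have h1 : SameBlock M (infl N χ : G → ℂ) (infl N ψ : G → ℂ) := sameBlock_inflate N hM h
    exact IsPBlock.mem_of_sameBlock hM hB hχ h1
  haveI : Fintype {b : Set (IrrCharacter (G ⧸ N)) // IsPBlock M b ∧ b ⊆ barB N B} := Fintype.ofFinite _
  have hsum := blockCoeff_eq_sum_blocks hM hS (QuotientGroup.mk' N y)
  obtain ⟨⟨Bbar, hBbar, hsub⟩, hb⟩ : ∃ b : {b : Set (IrrCharacter (G ⧸ N)) // IsPBlock M b ∧ b ⊆ barB N B}, ¬ MemLocalIdeal M (blockCoeff b.1 (QuotientGroup.mk' N y)) := by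
    by_contra hcon
    push Not at hcon
    apply hy.2.1
    rw [← hcoef, hsum]
    exact locIdeal_sum hM _ (fun b _ => hcon b)
  obtain ⟨χ0, hχ0⟩ : ∃ χ0, χ0 ∈ Bbar := by
    obtain ⟨χ, rfl⟩ := hBbar
    exact ⟨χ, SameBlock.refl hM _⟩
  have hcl : IsDefectClass M Bbar (QuotientGroup.mk' N y) := by
    refine ⟨?_, hb, fun χ hχ => (defect_aux hM N (hsub hχ) hy).2⟩
    rw [← coeff_eB]
    exact inS_eB hM hBbar _
  have hDD : IsDefectGroup p M Bbar (D.map (QuotientGroup.mk' N)) := by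
    rw [isDefectGroup_iff]
    refine ⟨_, hcl, ?_⟩
    apply sylow_map N (Subgroup.centralizer ({y} : Set G)) _ _ (defect_aux hM N (hsub hχ0) hy).1 hDy
    intro x hx
    rw [Subgroup.mem_comap, Subgroup.mem_centralizer_singleton_iff]
    rw [Subgroup.mem_centralizer_singleton_iff] at hx
    rw [← map_mul, ← map_mul, hx]
  refine ⟨Bbar, hBbar, ?_, ?_⟩
  · intro χ hχ ψ hψ
    have : ψ = infl N χ := Subtype.ext hψ
    rw [this]
    exact hsub hχ
  · intro Dbar
    constructor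
    · intro hDbar
      obtain ⟨x, hx⟩ := IsDefectGroup.isConj hM hBbar hDD hDbar
      obtain ⟨z, rfl⟩ := QuotientGroup.mk'_surjective N x
      exact ⟨_, IsDefectGroup.conj hM hD z, by rw [hx, map_conj_comm]⟩
    · rintro ⟨P, hP, rfl⟩
      obtain ⟨z, rfl⟩ := IsDefectGroup.isConj hM hB hD hP
      rw [map_conj_comm]
      exact IsDefectGroup.conj hM hDD _

end CfsgLib.Quot4
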