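import Cfsg.Agent.Lib.BFR2

/-!
# Fong–Reynolds, III
-/

set_option autoImplicit false
set_option linter.style.haveILetI false
set_option linter.unusedSectionVars false
set_option linter.unusedVariables false

open scoped ComplexConjugate

namespace CfsgLib.Block

open Cfsg CfsgLib.CharBasic CfsgLib.CharInd CfsgLib.CharClifford CfsgLib.CliffordCorr

universe u

variable {G : Type u} [Group G] [Fintype G] {N T : Subgroup G} [hN : N.Normal] [Fintype T] [Fintype N]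
  {p : ℕ} {M : Ideal AlgInt}

section FR

variable (hM : IsPModular p M) {b : Set (IrrCharacter N)} (hb : IsPBlock M b) (hNT : N ≤ T)
  (hT : ∀ g : G, g ∈ T ↔ ∀ θ ∈ b, ∀ θ' : IrrCharacter N, (∀ n : N, (θ' : N → ℂ) n = (θ : N → ℂ) ⟨g * n * g⁻¹, hN.conj_mem n n.2 g⟩) → θ' ∈ b)

include hM hb hT

theorem fr_all {B' : Set (IrrCharacter T)} (hB' : IsPBlock M B') (hov : ∃ ψ ∈ B', OvT hNT b (ψ : T → ℂ)) :
    ∀ ψ ∈ B', OvT hNT b (ψ : T → ℂ) := by
  obtain ⟨ψ, hψ, h⟩ := hov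
  exact fun ψ' hψ' => ovT_block hM hb hNT hT hB' hψ h hψ'

theorem fr_main {B' : Set (IrrCharacter T)} (hB' : IsPBlock M B') (hov : ∃ ψ ∈ B', OvT hNT b (ψ : T → ℂ)) :
    IsInducedBlock M T B' {χ : IrrCharacter G | ∃ ψ ∈ B', (χ : G → ℂ) = indFun T (ψ : T → ℂ)} := by
  have hall := fr_all hM hb hNT hT hB' hov
  obtain ⟨ψ, hψ, h⟩ := hov
  let χ : IrrCharacter G := ⟨indFun T (ψ : T → ℂ), (ovT_ind hM hb hNT hT ψ.2 h).1⟩
  have h1 := isInducedBlock_of_indFun hM ψ χ rfl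
  have hBψ : B' = blockOf M (ψ : T → ℂ) := IsPBlock.eq_of_mem hM hB' (isPBlock_blockOf ψ) hψ (mem_blockOf_self hM ψ)
  have h2 : {χ : IrrCharacter G | ∃ ψ ∈ B', (χ : G → ℂ) = indFun T (ψ : T → ℂ)} = blockOf M (χ : G → ℂ) := by
    apply Set.Subset.antisymm
    · rintro χ' ⟨ψ', hψ', h'⟩
      have h3 := isInducedBlock_of_indFun hM ψ' χ' h'
      have hBψ' : B' = blockOf M (ψ' : T → ℂ) :=
        IsPBlock.eq_of_mem hM hB' (isPBlock_blockOf ψ') hψ' (mem_blockOf_self hM ψ')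
      rw [← hBψ'] at h3
      rw [← hBψ] at h1
      rw [induced_unique hM h1 h3]
      exact mem_blockOf_self hM χ'
    · intro χ' hχ'
      exact mem_of_sameBlock_of_inS hM (inS_ind hM hb hNT hT hB' hall) (χ := χ) ⟨ψ, hψ, rfl⟩ hχ'
  rw [h2, hBψ]
  exact h1

theorem fr_eq {B' : Set (IrrCharacter T)} (hB' : IsPBlock M B') (hov : ∃ ψ ∈ B', OvT hNT b (ψ : T → ℂ))
    {B : Set (IrrCharacter G)} (hi : IsInducedBlock M T B' B) :
    B = {χ : IrrCharacter G | ∃ ψ ∈ B', (χ : G → ℂ) = indFun T (ψ : T → ℂ)} :=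
  induced_unique hM hi (fr_main hM hb hNT hT hB' hov)

theorem fr_sInf {B' : Set (IrrCharacter T)} (hB' : IsPBlock M B') (hov : ∃ ψ ∈ B', OvT hNT b (ψ : T → ℂ))
    {B : Set (IrrCharacter G)} (hi : IsInducedBlock M T B' B) :
    sInf ((fun χ : IrrCharacter G => (charDegree (χ : G → ℂ)).factorization p) '' B) = T.index.factorization p +
      sInf ((fun ψ : IrrCharacter T => (charDegree (ψ : T → ℂ)).factorization p) '' B') := by
  have hall := fr_all hM hb hNT hT hB' hov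
  have hBe := fr_eq hM hb hNT hT hB' hov hi
  have hTi0 : T.index ≠ 0 := Subgroup.index_ne_zero_of_finite
  have hdeg : ∀ (χ : IrrCharacter G) (ψ : IrrCharacter T), (χ : G → ℂ) = indFun T (ψ : T → ℂ) →
      charDegree (χ : G → ℂ) = T.index * charDegree (ψ : T → ℂ) := by
    intro χ ψ h
    have h1 : (χ : G → ℂ) 1 = (T.index : ℂ) * (ψ : T → ℂ) 1 := by rw [h, indFun_one]
    rw [one_eq_charDegree (irr_isCharacter χ), one_eq_charDegree (irr_isCharacter ψ)] at h1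
    exact_mod_cast h1
  have hfac : ∀ (χ : IrrCharacter G) (ψ : IrrCharacter T), (χ : G → ℂ) = indFun T (ψ : T → ℂ) →
      (charDegree (χ : G → ℂ)).factorization p = T.index.factorization p + (charDegree (ψ : T → ℂ)).factorization p := by
    intro χ ψ h
    rw [hdeg χ ψ h, Nat.factorization_mul hTi0 (charDegree_ne_zero ψ.2)]
    rfl
  obtain ⟨ψ₀, hψ₀, hmin⟩ : ∃ ψ ∈ B', (charDegree (ψ : T → ℂ)).factorization p =
      sInf ((fun ψ : IrrCharacter T => (charDegree (ψ : T → ℂ)).factorization p) '' B') := by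
    have hne : ((fun ψ : IrrCharacter T => (charDegree (ψ : T → ℂ)).factorization p) '' B').Nonempty := by
      obtain ⟨ψ, hψ, _⟩ := hov
      exact ⟨_, ψ, hψ, rfl⟩
    obtain ⟨ψ, hψ, h⟩ := Nat.sInf_mem hne
    exact ⟨ψ, hψ, h⟩
  apply le_antisymm
  · rw [← hmin]
    apply Nat.sInf_le
    refine ⟨⟨indFun T (ψ₀ : T → ℂ), (ovT_ind hM hb hNT hT ψ₀.2 (hall ψ₀ hψ₀)).1⟩, ?_, ?_⟩
    · rw [hBe]
      exact ⟨ψ₀, hψ₀, rfl⟩
    · exact hfac _ ψ₀ rfl
  · apply le_csInf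
    · rw [hBe]
      exact ⟨_, ⟨indFun T (ψ₀ : T → ℂ), (ovT_ind hM hb hNT hT ψ₀.2 (hall ψ₀ hψ₀)).1⟩, ⟨ψ₀, hψ₀, rfl⟩, rfl⟩
    · rintro _ ⟨χ, hχ, rfl⟩
      rw [hBe] at hχ
      obtain ⟨ψ, hψ, h⟩ := hχ
      simp only
      rw [hfac χ ψ h]
      have := Nat.sInf_le (s := (fun ψ : IrrCharacter T => (charDegree (ψ : T → ℂ)).factorization p) '' B') ⟨ψ, hψ, rfl⟩
      simp only at this
      omega

theorem fr_defect {B' : Set (IrrCharacter T)} (hB' : IsPBlock M B') (hov : ∃ ψ ∈ B', OvT hNT b (ψ : T → ℂ))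
    {B : Set (IrrCharacter G)} (hi : IsInducedBlock M T B' B) {D : Subgroup T} (hD : IsDefectGroup p M B' D) :
    IsDefectGroup p M B (D.map T.subtype) := by
  obtain ⟨E, hE, hDE⟩ := defectGroup_le_of_induced hM hi hD
  have h1 := sInf_degree_eq hM hB' hD
  have h2 := sInf_degree_eq hM hi.2.1 hE
  rw [fr_sInf hM hb hNT hT hB' hov hi] at h2
  have h3 : (Nat.card G).factorization p = T.index.factorization p + (Nat.card T).factorization p := by
    rw [← Subgroup.card_mul_index T, Nat.factorization_mul Nat.card_pos.ne' Subgroup.index_ne_zero_of_finite]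
    rw [Finsupp.add_apply, add_comm]
  have h4 : (Nat.card E).factorization p = (Nat.card D).factorization p := by omega
  have h5 : Nat.card E = Nat.card (D.map T.subtype) := by
    rw [card_map_subtype_le, card_factorization hM (IsDefectGroup.isPGroup hM hE),
      card_factorization hM (IsDefectGroup.isPGroup hM hD), h4]
  have h6 : D.map T.subtype = E := Subgroup.eq_of_le_of_card_ge hDE h5.le
  rw [h6]; exact hE

theorem fr_height {B' : Set (IrrCharacter T)} (hB' : IsPBlock M B') (hov : ∃ ψ ∈ B', OvT hNT b (ψ : T → ℂ))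
    {B : Set (IrrCharacter G)} (hi : IsInducedBlock M T B' B) {ψ : IrrCharacter T} (hψ : ψ ∈ B') :
    ∃ χ ∈ B, (χ : G → ℂ) = indFun T (ψ : T → ℂ) ∧ blockHeight p B (χ : G → ℂ) = blockHeight p B' (ψ : T → ℂ) := by
  have hall := fr_all hM hb hNT hT hB' hov
  have hBe := fr_eq hM hb hNT hT hB' hov hi
  let χ : IrrCharacter G := ⟨indFun T (ψ : T → ℂ), (ovT_ind hM hb hNT hT ψ.2 (hall ψ hψ)).1⟩
  refine ⟨χ, ?_, rfl, ?_⟩
  · rw [hBe]; exact ⟨ψ, hψ, rfl⟩
  · have h1 : (χ : G → ℂ) 1 = (T.index : ℂ) * (ψ : T → ℂ) 1 := indFun_one T _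
    rw [one_eq_charDegree (irr_isCharacter χ), one_eq_charDegree (irr_isCharacter ψ)] at h1
    have h2 : charDegree (χ : G → ℂ) = T.index * charDegree (ψ : T → ℂ) := by exact_mod_cast h1
    rw [blockHeight, blockHeight, fr_sInf hM hb hNT hT hB' hov hi, h2,
      Nat.factorization_mul Subgroup.index_ne_zero_of_finite (charDegree_ne_zero ψ.2), Finsupp.add_apply]
    omega

end FR

end CfsgLib.Block
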