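import Cfsg.Agent.Lib.BGlau7
import Cfsg.Agent.Lib.BFong1
import Cfsg.Agent.Lib.DetExt4

/-!
# Invariant characters above an invariant character: end of the relative version
-/

set_option autoImplicit false
set_option linter.style.haveILetI false
set_option linter.unusedSectionVars false
set_option linter.unusedVariables false

open scoped ComplexConjugate

namespace CfsgLib.Block

open Cfsg CfsgLib.CharBasic CfsgLib.CharInd CfsgLib.CharClifford CfsgLib.Cover2 CfsgLib.Cover3

universe u v w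

section

variable {G : Type u} [Group G] [Fintype G] {N : Subgroup G} [hN : N.Normal] [Fintype N] {ϑ : N → ℂ}
  {Γ : Type u} [Group Γ] [Finite Γ]

theorem cdata_prod (hϑ : IsIrrCharacter N ϑ) (D : CData N ϑ Γ) :
    haveI := D.nrm
    ∀ β : Γ ⧸ D.ι.range → ℂ, IsIrrCharacter (Γ ⧸ D.ι.range) β →
      IsIrrCharacter Γ (fun y => β (QuotientGroup.mk' D.ι.range y) * D.χ y) := by
  classical
  haveI := D.nrm
  intro β hβ
  haveI : Fintype Γ := Fintype.ofFinite _
  haveI : Fintype D.ι.range := Fintype.ofFinite _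
  have hres := cdata_res_irr hϑ D
  have hDc := IsIrrCharacter.isCharacter D.irr
  have hinv : ∀ g : Γ, conjFn g (fun x : D.ι.range => D.χ x) = fun x : D.ι.range => D.χ x :=
    fun g => conjFn_res (IsCharacter.isClassFunction hDc) g
  have h1irr : IsIrrCharacter D.ι.range (fun _ : D.ι.range => (1 : ℂ)) := isIrr_one'
  have hone : (fun _ : D.ι.range => (1 : ℂ)) * (fun x : D.ι.range => D.χ x) = fun x : D.ι.range => D.χ x := by
    funext x; simp
  have hg := CfsgLib.Gallagher.gallagher (φ := fun _ : D.ι.range => (1 : ℂ)) (θ := fun x : D.ι.range => D.χ x) h1irr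
    (fun g => by funext x; rfl) hinv (by rw [hone]; exact hres) D.irr (fun n => rfl)
  have hβ' : IsIrrCharacter Γ (β ∘ QuotientGroup.mk' D.ι.range) :=
    IsIrrCharacter.comp hβ _ (QuotientGroup.mk'_surjective _)
  have h1 := hg.mapsTo (x := β ∘ QuotientGroup.mk' D.ι.range) (by
    refine ⟨hβ', ?_⟩
    rw [CfsgLib.CharInd.frobenius _ _ (IsCharacter.isClassFunction (IsIrrCharacter.isCharacter hβ'))]
    have h2 : (fun n : D.ι.range => (β ∘ QuotientGroup.mk' D.ι.range) n) = (β 1) • (fun _ : D.ι.range => (1 : ℂ)) := by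
      funext n
      have h3 : QuotientGroup.mk' D.ι.range (n : Γ) = 1 := (QuotientGroup.eq_one_iff _).mpr n.2
      simp only [Function.comp_apply, Pi.smul_apply, smul_eq_mul, mul_one, h3]
    rw [h2, classInner_smul_right, IsIrrCharacter.inner_self h1irr, mul_one]
    intro h0
    exact IsIrrCharacter.one_ne_zero hβ ((map_eq_zero (starRingEnd ℂ)).mp h0))
  exact h1.1

end

theorem over_relative {Γ : Type u} [Group Γ] [Fintype Γ] (G N : Subgroup Γ) [hG : G.Normal] [hN : N.Normal] [Fintype G]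
    [Fintype N] (hNG : N ≤ G) (hcop : (G.index).Coprime (N.relIndex G))
    (hsolv : Group.IsSolvable (Γ ⧸ G) ∨ Group.IsSolvable (G ⧸ N.subgroupOf G)) (θ : IrrCharacter N)
    (hinv : ∀ x : Γ, conjFn x (θ : N → ℂ) = θ) :
    ∃ χ : IrrCharacter G, classInner (fun n : N => (χ : G → ℂ) ⟨n, hNG n.2⟩) (θ : N → ℂ) ≠ 0 ∧
      ∀ x : Γ, conjFn x (χ : G → ℂ) = χ := by
  classical
  obtain ⟨Γh, _, _, ⟨D⟩⟩ := exists_cdata θ.2 hinv
  let N' : Subgroup G := N.subgroupOf G
  haveI : N'.Normal := inferInstanceAs (N.subgroupOf G).Normal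
  haveI : Fintype N' := Fintype.ofFinite _
  let e : N' ≃* N := Subgroup.subgroupOfEquivOfLe hNG
  let θ' : IrrCharacter N' := irrCongr e θ
  let Gh : Subgroup Γh := G.comap D.π
  haveI : Gh.Normal := hG.comap D.π
  haveI : Fintype Gh := Fintype.ofFinite _
  let π' : Gh →* G :=
    { toFun := fun x => ⟨D.π x, x.2⟩
      map_one' := Subtype.ext (map_one _)
      map_mul' := fun x y => Subtype.ext (map_mul _ _ _) }
  have hπ' : Function.Surjective π' := by
    intro g
    obtain ⟨x, hx⟩ := D.surj g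
    exact ⟨⟨x, by show D.π x ∈ G; rw [hx]; exact g.2⟩, Subtype.ext hx⟩
  let ι' : N' →* Gh :=
    { toFun := fun n => ⟨D.ι (e n), by show D.π (D.ι (e n)) ∈ G; rw [D.πι]; exact hNG (e n).2⟩
      map_one' := Subtype.ext (by show D.ι (e 1) = 1; rw [map_one, map_one])
      map_mul' := fun x y => Subtype.ext (by show D.ι (e (x * y)) = D.ι (e x) * D.ι (e y); rw [map_mul, map_mul]) }
  have hconjι : ∀ (γ : Γh) (n : N'), ∃ n' : N', γ * D.ι (e n) * γ⁻¹ = D.ι (e n') ∧
      ((n' : G) : Γ) = D.π γ * ((n : G) : Γ) * (D.π γ)⁻¹ := by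
    intro γ n
    refine ⟨e.symm (MulAut.conjNormal (D.π γ) (e n)), ?_, ?_⟩
    · rw [D.cnj, e.apply_symm_apply]
    · have h1 : (((e.symm (MulAut.conjNormal (D.π γ) (e n)) : N') : G) : Γ) = ((MulAut.conjNormal (D.π γ) (e n) : N) : Γ) := by
        conv_rhs => rw [← e.apply_symm_apply (MulAut.conjNormal (D.π γ) (e n))]
        rfl
      rw [h1, MulAut.conjNormal_apply]
      rfl
  have hDχc := IsIrrCharacter.isCharacter D.irr
  have hres' : ∀ n : N', D.χ (ι' n) = (θ' : N' → ℂ) n := fun n => D.res (e n)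
  let D' : CData N' (θ' : N' → ℂ) Gh :=
    { π := π'
      ι := ι'
      χ := fun x => D.χ x
      surj := hπ'
      πι := fun n => Subtype.ext (D.πι (e n))
      nrm := ⟨by
        rintro _ ⟨n, rfl⟩ g
        obtain ⟨n', h1, -⟩ := hconjι g n
        exact ⟨n', Subtype.ext h1.symm⟩⟩
      cnj := by
        intro γ n
        obtain ⟨n', h1, h2⟩ := hconjι γ n
        apply Subtype.ext
        show (γ : Γh) * D.ι (e n) * (γ : Γh)⁻¹ = D.ι (e (MulAut.conjNormal (π' γ) n))
        rw [h1]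
        congr 2
        apply Subtype.ext
        apply Subtype.ext
        rw [h2, MulAut.conjNormal_apply]
        rfl
      cen := by
        intro z hz
        have h1 : D.π z = 1 := congrArg Subtype.val (MonoidHom.mem_ker.mp hz)
        rw [Subgroup.mem_center_iff]
        intro g
        exact Subtype.ext ((Subgroup.mem_center_iff.mp (D.cen h1)) g)
      irr := by
        apply CfsgLib.DetExt4.irr_of_comp ι' (IsCharacter.comp hDχc Gh.subtype)
        have : (D.χ ∘ Gh.subtype) ∘ ι' = (θ' : N' → ℂ) := funext hres'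
        rw [this]; exact θ'.2
      res := hres' }
  haveI hD'n := D'.nrm
  obtain ⟨χ₀, hχ₀⟩ := exists_over (N := N') (G := G) θ'
  obtain ⟨β₀, hβ₀, hβχ⟩ := cdata_factor θ'.2 D' χ₀.2 hχ₀
  let Q := Gh ⧸ D'.ι.range
  let mk : Gh →* Q := QuotientGroup.mk' D'.ι.range
  have hmk : Function.Surjective mk := QuotientGroup.mk'_surjective _
  haveI : Fintype Q := Fintype.ofFinite _
  -- the action of `Γh` on `Q`
  let cj : Γh → Gh ≃* Gh := fun γ => MulAut.conjNormal γ
  have hcj : ∀ γ x, ((cj γ x : Gh) : Γh) = γ * x * γ⁻¹ := fun γ x => MulAut.conjNormal_apply _ _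
  have hcjι : ∀ γ, ∀ x ∈ D'.ι.range, cj γ x ∈ D'.ι.range := by
    rintro γ _ ⟨n, rfl⟩
    obtain ⟨n', h1, -⟩ := hconjι γ n
    exact ⟨n', Subtype.ext (by rw [hcj]; exact h1.symm)⟩
  let φm : Γh → Q →* Q := fun γ => QuotientGroup.map D'.ι.range D'.ι.range (cj γ).toMonoidHom (fun x hx => hcjι γ x hx)
  have hφm : ∀ γ (x : Gh), φm γ (mk x) = mk (cj γ x) := fun γ x => rfl
  have hcj_mul : ∀ γ δ x, cj (γ * δ) x = cj γ (cj δ x) := fun γ δ x => by
    apply Subtype.ext; rw [hcj, hcj, hcj]; group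
  have hcj_one : ∀ x, cj 1 x = x := fun x => by
    apply Subtype.ext; rw [hcj]; group
  let φ : Γh →* MulAut Q :=
    { toFun := fun γ =>
        { toFun := φm γ
          invFun := φm γ⁻¹
          left_inv := fun x => by
            obtain ⟨x, rfl⟩ := hmk x
            rw [hφm, hφm, ← hcj_mul, inv_mul_cancel, hcj_one]
          right_inv := fun x => by
            obtain ⟨x, rfl⟩ := hmk x
            rw [hφm, hφm, ← hcj_mul, mul_inv_cancel, hcj_one]
          map_mul' := map_mul _ }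
      map_one' := by
        ext x
        obtain ⟨x, rfl⟩ := hmk x
        show φm 1 (mk x) = mk x
        rw [hφm, hcj_one]
      map_mul' := by
        intro γ δ
        ext x
        obtain ⟨x, rfl⟩ := hmk x
        show φm (γ * δ) (mk x) = φm γ (φm δ (mk x))
        rw [hφm, hφm, hφm, hcj_mul] }
  have hφ : ∀ γ (x : Gh), φ γ (mk x) = mk (cj γ x) := fun γ x => rfl
  let Z : Subgroup Q := D'.π.ker.map mk
  obtain ⟨β, hβ, hβZ⟩ := over_central φ Gh (by
      intro a ha
      refine ⟨mk ⟨a, ha⟩, ?_⟩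
      intro x
      obtain ⟨x, rfl⟩ := hmk x
      rw [hφ, ← map_inv, ← map_mul, ← map_mul]
      congr 1) Z
    (by
      rintro _ ⟨z, hz, rfl⟩
      rw [Subgroup.mem_center_iff]
      intro g
      obtain ⟨g, rfl⟩ := hmk g
      rw [← map_mul, ← map_mul, (Subgroup.mem_center_iff.mp (D'.cen hz)) g])
    (by
      rintro a _ ⟨z, hz, rfl⟩
      rw [hφ]
      congr 1
      apply Subtype.ext
      rw [hcj]
      have h1 : D.π z = 1 := congrArg Subtype.val (MonoidHom.mem_ker.mp hz)
      have h2 := (Subgroup.mem_center_iff.mp (D.cen h1)) a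
      rw [h2]; group)
    (by
      have h1 : Gh.index = G.index := Subgroup.index_comap_of_surjective G D.surj
      rw [h1]
      apply Nat.Coprime.coprime_dvd_right _ hcop
      have h2 : N.relIndex G = (N'.comap π').index := (Subgroup.index_comap_of_surjective N' hπ').symm
      rw [h2, ← Subgroup.index_comap_of_surjective Z hmk]
      apply Subgroup.index_dvd_of_le
      intro x hx
      rw [Subgroup.mem_comap] at hx ⊢
      refine ⟨(ι' ⟨π' x, hx⟩)⁻¹ * x, ?_, ?_⟩
      · show π' ((ι' ⟨π' x, hx⟩)⁻¹ * x) = 1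
        rw [map_mul, map_inv]
        have := D'.πι ⟨π' x, hx⟩
        have h3 : π' (ι' ⟨π' x, hx⟩) = π' x := this
        rw [h3, inv_mul_cancel]
      · rw [map_mul, map_inv]
        have h3 : mk (ι' ⟨π' x, hx⟩) = 1 := (QuotientGroup.eq_one_iff _).mpr ⟨_, rfl⟩
        rw [h3, inv_one, one_mul])
    (by
      rcases hsolv with hs | hs
      · left
        let f : Γh ⧸ Gh →* Γ ⧸ G := QuotientGroup.map Gh G D.π le_rfl
        have hf : Function.Injective f := by
          rw [← MonoidHom.ker_eq_bot_iff, eq_bot_iff]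
          intro x hx
          obtain ⟨y, rfl⟩ := QuotientGroup.mk_surjective x
          have h1 : ((D.π y : Γ) : Γ ⧸ G) = 1 := hx
          rw [QuotientGroup.eq_one_iff] at h1
          rw [Subgroup.mem_bot, QuotientGroup.eq_one_iff]
          exact h1
        exact Group.isSolvable_of_isSolvable_injective hf
      · right
        let f : Q →* G ⧸ N' := QuotientGroup.map D'.ι.range N' π' (by
          rintro _ ⟨n, rfl⟩
          rw [Subgroup.mem_comap]
          have := D'.πι n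
          have h3 : π' (D'.ι n) = (n : G) := this
          rw [h3]; exact n.2)
        have hker : f.ker ≤ Z.subtype.range := by
          intro x hx
          obtain ⟨y, rfl⟩ := hmk x
          have h1 : ((π' y : G) : G ⧸ N') = 1 := hx
          rw [QuotientGroup.eq_one_iff] at h1
          refine ⟨⟨mk y, ⟨(ι' ⟨π' y, h1⟩)⁻¹ * y, ?_, ?_⟩⟩, rfl⟩
          · show π' ((ι' ⟨π' y, h1⟩)⁻¹ * y) = 1
            rw [map_mul, map_inv]
            have := D'.πι ⟨π' y, h1⟩
            have h3 : π' (ι' ⟨π' y, h1⟩) = π' y := this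
            rw [h3, inv_mul_cancel]
          · rw [map_mul, map_inv]
            have h3 : mk (ι' ⟨π' y, h1⟩) = 1 := (QuotientGroup.eq_one_iff _).mpr ⟨_, rfl⟩
            rw [h3, inv_one, one_mul]
        have hZs : Group.IsSolvable Z := by
          apply Group.isSolvable_of_comm
          rintro ⟨_, ⟨z, hz, rfl⟩⟩ ⟨_, ⟨w, hw, rfl⟩⟩
          apply Subtype.ext
          show mk z * mk w = mk w * mk z
          rw [← map_mul, ← map_mul, (Subgroup.mem_center_iff.mp (D'.cen hz)) w]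
        exact Group.isSolvable_of_ker_le_range Z.subtype f hker)
    ⟨β₀, hβ₀⟩
  have hψ : IsIrrCharacter Gh (fun y => (β : Q → ℂ) (mk y) * D.χ y) := cdata_prod θ'.2 D' β β.2
  have hβ₀1 : β₀ 1 ≠ 0 := IsIrrCharacter.one_ne_zero hβ₀
  obtain ⟨χ, hχ, hχψ⟩ := descend hπ' hψ (by
    intro z hz
    have h1 := hβZ (mk z) ⟨z, hz, rfl⟩ 1
    rw [mul_one] at h1
    have h1' : (β : Q → ℂ) (mk z) * β₀ 1 = β₀ (mk z) * (β : Q → ℂ) 1 := h1
    have h2 : (χ₀ : G → ℂ) (π' z) = β₀ (mk z) * D.χ z := hβχ z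
    have h3 : (χ₀ : G → ℂ) (π' 1) = β₀ (mk 1) * D.χ ((1 : Gh) : Γh) := hβχ 1
    rw [MonoidHom.mem_ker.mp hz] at h2
    rw [map_one, map_one] at h3
    apply mul_right_cancel₀ hβ₀1
    show (β : Q → ℂ) (mk z) * D.χ z * β₀ 1 = (β : Q → ℂ) (mk 1) * D.χ ((1 : Gh) : Γh) * β₀ 1
    rw [map_one]
    calc (β : Q → ℂ) (mk z) * D.χ z * β₀ 1 = ((β : Q → ℂ) (mk z) * β₀ 1) * D.χ z := by ring
      _ = (β₀ (mk z) * D.χ z) * (β : Q → ℂ) 1 := by rw [h1']; ring
      _ = (χ₀ : G → ℂ) 1 * (β : Q → ℂ) 1 := by rw [← h2]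
      _ = _ := by rw [h3]; ring)
  have hval : ∀ x : Gh, χ (π' x) = (β : Q → ℂ) (mk x) * D.χ x := fun x => (congrFun hχψ x).symm
  refine ⟨⟨χ, hχ⟩, ?_, ?_⟩
  · have h1 : (fun n : N => χ ⟨n, hNG n.2⟩) = (β : Q → ℂ) 1 • (θ : N → ℂ) := by
      funext n
      have h2 := hval (ι' (e.symm n))
      have h3 : mk (ι' (e.symm n)) = 1 := (QuotientGroup.eq_one_iff _).mpr ⟨_, rfl⟩
      have h4 : π' (ι' (e.symm n)) = ⟨n, hNG n.2⟩ := by
        have h5 : π' (ι' (e.symm n)) = ((e.symm n : N') : G) := D'.πι (e.symm n)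
        rw [h5]
        apply Subtype.ext
        have h6 : ((e (e.symm n) : N) : Γ) = (((e.symm n : N') : G) : Γ) := rfl
        rw [← h6, e.apply_symm_apply]
      have h5 : D.χ (ι' (e.symm n)) = (θ : N → ℂ) n := by
        have h6 : D.χ (ι' (e.symm n)) = (θ : N → ℂ) (e (e.symm n)) := D.res _
        rw [h6, e.apply_symm_apply]
      rw [h4, h3, h5] at h2
      exact h2
    show classInner (fun n : N => χ ⟨n, hNG n.2⟩) (θ : N → ℂ) ≠ 0
    rw [h1, classInner_smul_left, IsIrrCharacter.inner_self θ.2, mul_one]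
    exact IsIrrCharacter.one_ne_zero β.2
  · intro x
    obtain ⟨a, rfl⟩ := D.surj x
    funext g
    obtain ⟨y, rfl⟩ := hπ' g
    rw [conjFn_apply]
    have h1 : (⟨D.π a * (π' y : G) * (D.π a)⁻¹, hG.conj_mem _ (π' y).2 (D.π a)⟩ : G) = π' (cj a y) := by
      apply Subtype.ext
      show D.π a * D.π y * (D.π a)⁻¹ = D.π (cj a y)
      rw [hcj, map_mul, map_mul, map_inv]
    show χ ⟨D.π a * (π' y : G) * (D.π a)⁻¹, hG.conj_mem _ (π' y).2 (D.π a)⟩ = χ (π' y)
    rw [h1, hval, hval, ← hφ, hβ a, hcj, IsCharacter.isClassFunction hDχc]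

end CfsgLib.Block
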