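import Mathlib
import Cfsg.Agent.Lib.Coprime

namespace CfsgLib.BGsix
open Subgroup
open scoped Pointwise

theorem part3 {G : Type*} [Group G] [Finite G] [Group.IsSolvable G] (K U H : Subgroup G) [K.Normal] (hKU : K ⊔ U = ⊤) (hH : H ≤ U) (hcop : (Nat.card H).Coprime (Nat.card K))
    (g : G) (hg : H.map (MulAut.conj g).toMonoidHom ≤ U) : ∃ u ∈ U, ∃ c ∈ K ⊓ Subgroup.centralizer (H : Set G), g = u * c := by
  have hgt : g ∈ U ⊔ K := by rw [sup_comm, hKU]; exact mem_top g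
  rw [mem_sup_of_normal_right] at hgt
  obtain ⟨u, hu, k, hk, rfl⟩ := hgt
  have hin : ∀ h ∈ H, k * h * k⁻¹ ∈ U := by
    intro h hh
    have h1 : u * k * h * (u * k)⁻¹ ∈ U := hg ⟨h, hh, rfl⟩
    have h2 : k * h * k⁻¹ = u⁻¹ * (u * k * h * (u * k)⁻¹) * u := by group
    rw [h2]
    exact U.mul_mem (U.mul_mem (U.inv_mem hu) h1) hu
  have hsol : Group.IsSolvable H := inferInstance
  have hHKU : H ≤ normalizer ((K ⊓ U : Subgroup G) : Set G) :=
    CfsgLib.Coprime.le_normalizer_inf (le_normalizer_of_normal) (hH.trans le_normalizer)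
  have hca : CfsgLib.Coprime.CopAct H (K ⊓ U) :=
    ⟨hHKU, Nat.Coprime.coprime_dvd_right (card_dvd_of_le inf_le_left) hcop, Or.inl hsol⟩
  have hcaK : CfsgLib.Coprime.CopAct H K := ⟨le_normalizer_of_normal, hcop, Or.inl hsol⟩
  have hB : MulAut.conj k • H ≤ (K ⊓ U) ⊔ H := by
    intro x hx
    rw [CfsgLib.SZ.mem_conj_iff] at hx
    have hx' : x = k * (k⁻¹ * x * k) * k⁻¹ := by group
    have hxU : x ∈ U := by rw [hx']; exact hin _ hx
    have h3 : x * (k⁻¹ * x * k)⁻¹ ∈ K := by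
      have : x * (k⁻¹ * x * k)⁻¹ = (x * k⁻¹ * x⁻¹) * k := by group
      rw [this]
      exact K.mul_mem (‹K.Normal›.conj_mem _ (K.inv_mem hk) x) hk
    have h4 : x * (k⁻¹ * x * k)⁻¹ ∈ U := U.mul_mem hxU (U.inv_mem (hH hx))
    have h5 : x = (x * (k⁻¹ * x * k)⁻¹) * (k⁻¹ * x * k) := by group
    rw [h5]
    exact mul_mem_sup ⟨h3, h4⟩ hx
  obtain ⟨v, hv, hvv⟩ := hca.conj hB (CfsgLib.SZ.card_conj _ _)
  have hc : v⁻¹ * k ∈ K := K.mul_mem (K.inv_mem hv.1) hk
  refine ⟨u * v, U.mul_mem hu hv.2, v⁻¹ * k, ⟨hc, ?_⟩, by group⟩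
  refine CfsgLib.Coprime.mem_centralizer_of_conj_eq hcaK.1 hcaK.2 hc ?_
  rw [map_mul, mul_smul, ← hvv, ← mul_smul, ← map_mul, inv_mul_cancel, map_one, one_smul]

theorem part1 {G : Type*} [Group G] [Finite G] (K U H : Subgroup G) [K.Normal] (hKU : K ⊔ U = ⊤) (hH : H ≤ U) (hcop : (Nat.card H).Coprime (Nat.card K)) :
    H ⊓ commutator G = H ⊓ ⁅U, U⁆ := by
  apply le_antisymm
  · rintro x ⟨hxH, hxG⟩
    refine ⟨hxH, ?_⟩
    have hm : (commutator G).map (QuotientGroup.mk' K) = (⁅U, U⁆ : Subgroup G).map (QuotientGroup.mk' K) := by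
      have h0 : (⊤ : Subgroup G).map (QuotientGroup.mk' K) = U.map (QuotientGroup.mk' K) := by
        rw [← hKU, Subgroup.map_sup, QuotientGroup.map_mk'_self, bot_sup_eq]
      rw [commutator_def, map_commutator, map_commutator, h0]
    have h1 : QuotientGroup.mk' K x ∈ (⁅U, U⁆ : Subgroup G).map (QuotientGroup.mk' K) := by
      rw [← hm]; exact mem_map_of_mem _ hxG
    obtain ⟨y, hy, hyx⟩ := h1
    have h2 : y⁻¹ * x ∈ K := QuotientGroup.eq.1 hyx
    rw [← map_subtype_commutator] at hy ⊢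
    obtain ⟨y', hy', rfl⟩ := hy
    have e0 : QuotientGroup.mk' (commutator U) y' = 1 := (QuotientGroup.eq_one_iff y').2 hy'
    have e1 : QuotientGroup.mk' (commutator U) ⟨x, hH hxH⟩ = QuotientGroup.mk' (commutator U) (y'⁻¹ * ⟨x, hH hxH⟩) := by
      rw [map_mul, map_inv, e0, inv_one, one_mul]
    have o1 : orderOf (QuotientGroup.mk' (commutator U) ⟨x, hH hxH⟩) ∣ Nat.card H := by
      refine (orderOf_map_dvd _ _).trans ?_
      rw [← Subgroup.orderOf_coe]
      have := orderOf_dvd_natCard (⟨x, hxH⟩ : H)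
      rwa [← Subgroup.orderOf_coe] at this
    have o2 : orderOf (QuotientGroup.mk' (commutator U) ⟨x, hH hxH⟩) ∣ Nat.card K := by
      rw [e1]
      refine (orderOf_map_dvd _ _).trans ?_
      rw [← Subgroup.orderOf_coe]
      have := orderOf_dvd_natCard (⟨_, h2⟩ : K)
      rwa [← Subgroup.orderOf_coe] at this
    have h3 := orderOf_eq_one_iff.mp (Nat.eq_one_of_dvd_coprimes hcop o1 o2)
    exact ⟨⟨x, hH hxH⟩, (QuotientGroup.eq_one_iff _).1 h3, rfl⟩
  · exact inf_le_inf_left _ (commutator_mono le_top le_top)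

theorem s1460 {G : Type*} [Group G] [Finite G] [Group.IsSolvable G] (K U H : Subgroup G) [K.Normal] (hKU : K ⊔ U = ⊤) (hH : H ≤ U) (hcop : (Nat.card H).Coprime (Nat.card K)) :
    H ⊓ commutator G = H ⊓ ⁅U, U⁆ ∧
      Subgroup.normalizer (H : Set G) = (K ⊓ Subgroup.centralizer (H : Set G)) ⊔ (U ⊓ Subgroup.normalizer (H : Set G)) ∧
      ∀ g : G, H.map (MulAut.conj g).toMonoidHom ≤ U → ∃ u ∈ U, ∃ c ∈ K ⊓ Subgroup.centralizer (H : Set G), g = u * c := by
  refine ⟨part1 K U H hKU hH hcop, ?_, part3 K U H hKU hH hcop⟩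
  apply le_antisymm
  · intro g hg
    have hgU : H.map (MulAut.conj g).toMonoidHom ≤ U := by
      rintro _ ⟨h, hh, rfl⟩
      exact hH ((mem_normalizer_iff.1 hg h).1 hh)
    obtain ⟨u, hu, c, hc, rfl⟩ := part3 K U H hKU hH hcop g hgU
    have hcn : c ∈ normalizer (H : Set G) := centralizer_le_normalizer _ hc.2
    have hun : u ∈ normalizer (H : Set G) := (mul_mem_cancel_right hcn).1 hg
    exact mul_mem (mem_sup_right ⟨hu, hun⟩) (mem_sup_left hc)
  · exact sup_le (inf_le_right.trans (centralizer_le_normalizer _)) inf_le_right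

end CfsgLib.BGsix
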