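import Cfsg.Agent.Lib.H9Sig2
import Cfsg.Agent.Lib.PL3
import Cfsg.Agent.Lib.Coprime2
import Cfsg.Agent.Lib.Core

/-! Best offenders in groups with self-centralizing `p'`-core. -/
set_option autoImplicit false
set_option linter.style.haveILetI false
set_option linter.unusedVariables false

namespace CfsgLib.BO

universe u

open CfsgLib CfsgLib.JSub CfsgLib.Coprime CfsgLib.PL2 CfsgLib.PL3 Subgroup
open scoped commutatorElement

variable {G : Type u} [Group G] [Finite G] {p : ℕ} [hp : Fact p.Prime]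

/-- fixed points -/
def cV (V B : Subgroup G) : Subgroup G := V ⊓ Subgroup.centralizer (B : Set G)

/-- the measure -/
noncomputable def mu (V B : Subgroup G) : ℕ := Nat.card B * Nat.card (cV V B)

omit [Finite G] hp in
theorem cV_anti {V B B' : Subgroup G} (h : B ≤ B') : cV V B' ≤ cV V B :=
  inf_le_inf_left _ (Subgroup.centralizer_le h)

omit [Finite G] hp in
theorem cV_le (V B : Subgroup G) : cV V B ≤ V := inf_le_left

omit [Finite G] hp in
theorem cV_bot (V : Subgroup G) : cV V ⊥ = V := by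
  unfold cV
  apply inf_eq_left.mpr
  intro x _
  rw [Subgroup.mem_centralizer_iff]
  intro y hy
  rw [Subgroup.mem_bot.mp hy, one_mul, mul_one]

omit [Finite G] hp in
theorem mem_cV {V B : Subgroup G} {x : G} : x ∈ cV V B ↔ x ∈ V ∧ ∀ b ∈ B, b * x = x * b := by
  unfold cV
  rw [Subgroup.mem_inf, Subgroup.mem_centralizer_iff]
  rfl

/-- the configuration -/
structure Cfg (p : ℕ) (V K A : Subgroup G) : Prop where
  vp : IsPGroup p V
  vc : ∀ x ∈ V, ∀ y ∈ V, x * y = y * x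
  ea : Cfsg.IsElementaryAbelian p A
  av : A ≤ Subgroup.normalizer (V : Set G)
  kv : K ≤ Subgroup.normalizer (V : Set G)
  ak : A ≤ Subgroup.normalizer (K : Set G)
  kc : (Nat.card K).Coprime p
  kf : K ⊓ Subgroup.centralizer (V : Set G) = ⊥
  af : A ⊓ Subgroup.centralizer (K : Set G) = ⊥

variable {V K A : Subgroup G}

/-- good hyperplanes -/
def Good (p : ℕ) (K A B : Subgroup G) : Prop := B ≤ A ∧ B.relIndex A = p ∧ ¬ K ⊓ Subgroup.centralizer (B : Set G) ≤ Subgroup.centralizer (A : Set G)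

theorem Cfg.ac (h : Cfg p V K A) : ∀ x ∈ A, ∀ y ∈ A, x * y = y * x := (CfsgLib.H6PR.ea_iff.1 h.ea).1

theorem Cfg.ap (h : Cfg p V K A) : IsPGroup p A := EA.isPGroup (EA_iff.mpr h.ea)

theorem Cfg.good_lt (h : Cfg p V K A) {B : Subgroup G} (hB : Good p K A B) : cV V A < cV V B := by
  obtain ⟨hBA, -, hB2⟩ := hB
  refine lt_of_le_not_ge (cV_anti hBA) ?_
  intro hle
  apply hB2
  set D := K ⊓ Subgroup.centralizer (B : Set G) with hD
  have hQ : ⁅D, A⁆ ≤ Subgroup.centralizer (cV V B : Set G) := by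
    rw [Subgroup.commutator_le]
    intro d hd a ha
    rw [Subgroup.mem_centralizer_iff]
    intro v hv
    obtain ⟨hd1, hd2⟩ := Subgroup.mem_inf.mp hd
    have hva : ∀ w ∈ cV V B, a * w * a⁻¹ = w := by
      intro w hw
      have h1 := (mem_cV.mp (hle hw)).2 a ha
      rw [h1]; group
    have hdv : ∀ d ∈ D, ∀ w ∈ cV V B, d * w * d⁻¹ ∈ cV V B := by
      intro d hd w hw
      obtain ⟨hd1, hd2⟩ := Subgroup.mem_inf.mp hd
      obtain ⟨hw1, hw2⟩ := mem_cV.mp hw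
      rw [mem_cV]
      refine ⟨(Subgroup.mem_normalizer_iff.mp (h.kv hd1) w).mp hw1, fun b hb => ?_⟩
      have h1 := Subgroup.mem_centralizer_iff.mp hd2 b hb
      have h2 := hw2 b hb
      calc b * (d * w * d⁻¹) = (b * d) * w * d⁻¹ := by group
        _ = (d * b) * w * d⁻¹ := by rw [h1]
        _ = d * (b * w) * d⁻¹ := by group
        _ = d * (w * b) * d⁻¹ := by rw [h2]
        _ = d * w * d⁻¹ * (d * b) * d⁻¹ := by group
        _ = d * w * d⁻¹ * (b * d) * d⁻¹ := by rw [h1]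
        _ = d * w * d⁻¹ * b := by group
    -- conj by a⁻¹ fixes v
    have h1 : a⁻¹ * v * a = v := by
      have := hva v hv
      calc a⁻¹ * v * a = a⁻¹ * (a * v * a⁻¹) * a := by rw [this]
        _ = v := by group
    have h2 := hdv d⁻¹ (D.inv_mem hd) v hv
    rw [inv_inv] at h2
    have h3 := hva _ h2
    rw [commutatorElement_def]
    have h4 : d * a * d⁻¹ * a⁻¹ * v * (d * a * d⁻¹ * a⁻¹)⁻¹ = v := by
      calc d * a * d⁻¹ * a⁻¹ * v * (d * a * d⁻¹ * a⁻¹)⁻¹ = d * (a * (d⁻¹ * (a⁻¹ * v * a) * d) * a⁻¹) * d⁻¹ := by group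
        _ = d * (a * (d⁻¹ * v * d) * a⁻¹) * d⁻¹ := by rw [h1]
        _ = d * (d⁻¹ * v * d) * d⁻¹ := by rw [h3]
        _ = v := by group
    exact (mul_inv_eq_iff_eq_mul.mp h4).symm
  have hAD : A ≤ Subgroup.normalizer (D : Set G) := by
    intro a ha
    apply CfsgLib.H7Basic.mem_normalizer_of_conj_mem
    intro d hd
    obtain ⟨hd1, hd2⟩ := Subgroup.mem_inf.mp hd
    refine Subgroup.mem_inf.mpr ⟨(Subgroup.mem_normalizer_iff.mp (h.ak ha) d).mp hd1, ?_⟩
    rw [Subgroup.mem_centralizer_iff]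
    intro b hb
    have h1 := Subgroup.mem_centralizer_iff.mp hd2 b hb
    have h2 := h.ac a ha b (hBA hb)
    calc b * (a * d * a⁻¹) = (b * a) * d * a⁻¹ := by group
      _ = (a * b) * d * a⁻¹ := by rw [h2]
      _ = a * (b * d) * a⁻¹ := by group
      _ = a * (d * b) * a⁻¹ := by rw [h1]
      _ = a * d * a⁻¹ * (a * b) * a⁻¹ := by group
      _ = a * d * a⁻¹ * (b * a) * a⁻¹ := by rw [h2]
      _ = a * d * a⁻¹ * b := by group
  have hQD : ⁅D, A⁆ ≤ D := commutator_le_of_le_normalizer hAD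
  have hQK : ⁅D, A⁆ ≤ K := hQD.trans inf_le_left
  have hPxQ := thompson_PxQ (p := p) _ B ⁅D, A⁆ V le_rfl (h.ap.to_le hBA)
    (Nat.Coprime.coprime_dvd_left (Subgroup.card_dvd_of_le hQK) h.kc) h.vp ?_ (hBA.trans h.av) (hQK.trans h.kv) ?_
  · have h1 : ⁅D, A⁆ = ⊥ := by
      rw [eq_bot_iff, ← h.kf]
      exact le_inf hQK hPxQ
    rwa [Subgroup.commutator_eq_bot_iff_le_centralizer] at h1
  · intro b hb
    rw [Subgroup.mem_centralizer_iff]
    intro q hq
    have h1 := Subgroup.mem_centralizer_iff.mp (Subgroup.mem_inf.mp (hQD hq)).2 b hb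
    exact h1.symm
  · intro v hv
    rw [Subgroup.mem_centralizer_iff]
    intro q hq
    exact (Subgroup.mem_centralizer_iff.mp (hQ hq) v hv).symm

theorem card_le_of_lt {X Y : Subgroup G} (hY : IsPGroup p Y) (h : X < Y) : p * Nat.card X ≤ Nat.card Y := by
  obtain ⟨n, hn⟩ := IsPGroup.iff_card.mp hY
  obtain ⟨m, hm⟩ := IsPGroup.iff_card.mp (hY.to_le h.le)
  have h1 := CfsgLib.H7Basic.card_lt_card_of_lt h
  rw [hn, hm] at h1
  have h2 := (Nat.pow_lt_pow_iff_right hp.out.one_lt).mp h1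
  rw [hn, hm, ← pow_succ']
  exact Nat.pow_le_pow_right hp.out.pos h2

theorem Cfg.exists_good (h : Cfg p V K A) {S : Subgroup G} (hSA : S ≤ A) (hS : S ≠ ⊥) : ∃ B, Good p K A B ∧ ¬ S ≤ B := by
  by_contra hc
  push Not at hc
  apply hS
  rw [eq_bot_iff, ← h.af]
  refine le_inf hSA ?_
  have hA1 : A ≠ ⊥ := by
    rintro rfl
    exact hS (le_bot_iff.mp hSA)
  obtain ⟨n, hn⟩ := IsPGroup.iff_card.mp h.ap
  have hn0 : n ≠ 0 := by
    rintro rfl
    rw [pow_zero] at hn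
    exact hA1 (Subgroup.eq_bot_of_card_eq _ hn)
  obtain ⟨m, rfl⟩ := Nat.exists_eq_succ_of_ne_zero hn0
  have hpK : ¬ p ∣ Nat.card K := fun hd => by
    have := Nat.eq_one_of_dvd_coprimes h.kc hd dvd_rfl
    exact hp.out.one_lt.ne' this
  have h1 := CfsgLib.H9Sig.le_iSup_hyperplane h.ea h.ak hpK le_rfl m ⊥ bot_le (by rw [Subgroup.relIndex_bot_left, hn])
  have h2 : K ⊓ Subgroup.centralizer ((⊥ : Subgroup G) : Set G) = K := cV_bot K
  rw [h2] at h1
  have h3 : K ≤ Subgroup.centralizer (S : Set G) := by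
    refine h1.trans (iSup_le ?_)
    rintro ⟨D, hD1, hD2⟩
    by_cases hg : K ⊓ Subgroup.centralizer (D : Set G) ≤ Subgroup.centralizer (A : Set G)
    · exact hg.trans (Subgroup.centralizer_le hSA)
    · have h4 := hc D ⟨hD1, hD2, hg⟩
      exact inf_le_right.trans (Subgroup.centralizer_le h4)
  rwa [Subgroup.le_centralizer_iff] at h3

theorem Cfg.sup_eq (h : Cfg p V K A) {B B₁ : Subgroup G} (hB : B ≤ A) (hB₁ : Good p K A B₁) (hn : ¬ B ≤ B₁) : B ⊔ B₁ = A := by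
  have h1 : B ⊔ B₁ ≤ A := sup_le hB hB₁.1
  have h2 : B₁ < B ⊔ B₁ := by
    refine lt_of_le_of_ne le_sup_right ?_
    intro he
    apply hn
    rw [he]; exact le_sup_left
  have h3 := card_le_of_lt (h.ap.to_le h1) h2
  have h4 : Nat.card A = p * Nat.card B₁ := by
    have := CfsgLib.PL1.relIndex_mul_card hB₁.1
    rw [← this, hB₁.2.1]
  exact Subgroup.eq_of_le_of_card_ge h1 (by rw [h4]; exact h3)

theorem Cfg.card_inf (h : Cfg p V K A) {B B₁ : Subgroup G} (hB : B ≤ A) (hB₁ : Good p K A B₁) (hn : ¬ B ≤ B₁) :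
    Nat.card B = p * Nat.card (B ⊓ B₁ : Subgroup G) := by
  have h1 := h.sup_eq hB hB₁ hn
  have hnorm : B₁ ≤ Subgroup.normalizer (B : Set G) := by
    intro b hb
    apply CfsgLib.H7Basic.mem_normalizer_of_conj_mem
    intro a ha
    rw [h.ac b (hB₁.1 hb) a (hB ha), mul_inv_cancel_right]; exact ha
  have h2 := card_sup_mul hnorm
  have h4 : Nat.card A = p * Nat.card B₁ := by
    have := CfsgLib.PL1.relIndex_mul_card hB₁.1
    rw [← this, hB₁.2.1]
  rw [h1, h4] at h2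
  have h5 : 0 < Nat.card B₁ := Nat.card_pos
  have h6 : Nat.card B₁ * (p * Nat.card (B ⊓ B₁ : Subgroup G)) = Nat.card B₁ * Nat.card B := by
    rw [mul_comm (Nat.card B₁) (Nat.card B), ← h2]; ring
  exact (Nat.eq_of_mul_eq_mul_left h5 h6).symm

theorem Cfg.mu_step (h : Cfg p V K A) {B B₁ : Subgroup G} (hB : B ≤ A) (hB₁ : Good p K A B₁) (hn : ¬ B ≤ B₁) :
    mu V B ≤ mu V (B ⊓ B₁) := by
  have h1 := h.sup_eq hB hB₁ hn
  have h2 := h.card_inf hB hB₁ hn
  have h3 : cV V B ⊔ cV V B₁ ≤ cV V (B ⊓ B₁) := sup_le (cV_anti inf_le_left) (cV_anti inf_le_right)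
  have h4 : cV V B ⊓ cV V B₁ = cV V A := by
    apply le_antisymm
    · intro x hx
      obtain ⟨hx1, hx2⟩ := Subgroup.mem_inf.mp hx
      obtain ⟨hxV, hxB⟩ := mem_cV.mp hx1
      obtain ⟨-, hxB₁⟩ := mem_cV.mp hx2
      rw [mem_cV]
      refine ⟨hxV, ?_⟩
      have h5 : B ⊔ B₁ ≤ Subgroup.centralizer {x} := by
        apply sup_le
        · intro b hb
          rw [Subgroup.mem_centralizer_iff]
          rintro _ rfl
          exact (hxB b hb).symm
        · intro b hb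
          rw [Subgroup.mem_centralizer_iff]
          rintro _ rfl
          exact (hxB₁ b hb).symm
      intro a ha
      rw [← h1] at ha
      exact (Subgroup.mem_centralizer_iff.mp (h5 ha) x rfl).symm
    · exact le_inf (cV_anti hB) (cV_anti hB₁.1)
  have hnorm : cV V B₁ ≤ Subgroup.normalizer (cV V B : Set G) := by
    intro b hb
    apply CfsgLib.H7Basic.mem_normalizer_of_conj_mem
    intro a ha
    rw [h.vc b (cV_le _ _ hb) a (cV_le _ _ ha), mul_inv_cancel_right]; exact ha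
  have h5 := card_sup_mul hnorm
  rw [h4] at h5
  have h6 := card_le_of_lt (h.vp.to_le (cV_le V B₁)) (h.good_lt hB₁)
  have h7 : Nat.card (cV V B ⊔ cV V B₁ : Subgroup G) ≤ Nat.card (cV V (B ⊓ B₁)) := Nat.card_le_card_of_injective _ (Subgroup.inclusion_injective h3)
  have h8 : 0 < Nat.card (cV V A) := Nat.card_pos
  have h9 : p * Nat.card (cV V B) ≤ Nat.card (cV V (B ⊓ B₁)) := by
    have h10 : Nat.card (cV V A) * (p * Nat.card (cV V B)) ≤ Nat.card (cV V A) * Nat.card (cV V (B ⊓ B₁)) := by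
      calc Nat.card (cV V A) * (p * Nat.card (cV V B)) = Nat.card (cV V B) * (p * Nat.card (cV V A)) := by ring
        _ ≤ Nat.card (cV V B) * Nat.card (cV V B₁) := Nat.mul_le_mul_left _ h6
        _ = Nat.card (cV V B ⊔ cV V B₁ : Subgroup G) * Nat.card (cV V A) := h5.symm
        _ ≤ Nat.card (cV V (B ⊓ B₁)) * Nat.card (cV V A) := Nat.mul_le_mul_right _ h7
        _ = Nat.card (cV V A) * Nat.card (cV V (B ⊓ B₁)) := by ring
    exact Nat.le_of_mul_le_mul_left h10 h8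
  unfold mu
  rw [h2]
  calc p * Nat.card (B ⊓ B₁ : Subgroup G) * Nat.card (cV V B) = Nat.card (B ⊓ B₁ : Subgroup G) * (p * Nat.card (cV V B)) := by ring
    _ ≤ Nat.card (B ⊓ B₁ : Subgroup G) * Nat.card (cV V (B ⊓ B₁)) := Nat.mul_le_mul_left _ h9

theorem Cfg.mu_le (h : Cfg p V K A) : mu V A ≤ Nat.card V := by
  obtain ⟨B, ⟨hB1, hB2⟩, hmin⟩ := Set.exists_min_image {B : Subgroup G | B ≤ A ∧ mu V A ≤ mu V B} (fun B => Nat.card B) (Set.toFinite _) ⟨A, le_rfl, le_rfl⟩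
  by_cases hB : B = ⊥
  · subst hB
    have h1 : mu V ⊥ = Nat.card V := by unfold mu; rw [cV_bot, Subgroup.card_bot, one_mul]
    rwa [h1] at hB2
  · exfalso
    obtain ⟨B₁, hg, hn⟩ := h.exists_good hB1 hB
    have h1 := hmin (B ⊓ B₁) ⟨inf_le_left.trans hB1, hB2.trans (h.mu_step hB1 hg hn)⟩
    have h2 := h.card_inf hB1 hg hn
    have h3 : 0 < Nat.card (B ⊓ B₁ : Subgroup G) := Nat.card_pos
    have h4 := hp.out.two_le
    have h1' : Nat.card B ≤ Nat.card (B ⊓ B₁ : Subgroup G) := h1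
    nlinarith

theorem Cfg.exists_small (h : Cfg p V K A) {D : Subgroup G} (hD : ¬ A ≤ D) :
    ∃ B, B ≤ A ∧ ¬ B ≤ D ∧ Nat.card B = p ∧ mu V A ≤ mu V B := by
  obtain ⟨B, ⟨hB1, hB2, hB3⟩, hmin⟩ := Set.exists_min_image {B : Subgroup G | B ≤ A ∧ ¬ B ≤ D ∧ mu V A ≤ mu V B}
    (fun B => Nat.card B) (Set.toFinite _) ⟨A, le_rfl, hD, le_rfl⟩
  refine ⟨B, hB1, hB2, ?_, hB3⟩
  have hBb : B ≠ ⊥ := by
    rintro rfl
    exact hB2 bot_le
  have key : ∀ B₁, Good p K A B₁ → ¬ B ≤ B₁ → B ⊓ D = B ⊓ B₁ := by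
    intro B₁ hg hn
    have h2 := h.card_inf hB1 hg hn
    have h3 : B ⊓ B₁ ≤ D := by
      by_contra h4
      have h1 := hmin (B ⊓ B₁) ⟨inf_le_left.trans hB1, h4, hB3.trans (h.mu_step hB1 hg hn)⟩
      have h3 : 0 < Nat.card (B ⊓ B₁ : Subgroup G) := Nat.card_pos
      have h4 := hp.out.two_le
      have h1' : Nat.card B ≤ Nat.card (B ⊓ B₁ : Subgroup G) := h1
      nlinarith
    have h4 : B ⊓ B₁ ≤ B ⊓ D := le_inf inf_le_left h3
    have h5 : B ⊓ D < B := lt_of_le_of_ne inf_le_left (fun he => hB2 (inf_eq_left.mp he))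
    have h6 := card_le_of_lt (h.ap.to_le hB1) h5
    rw [h2] at h6
    have h7 : Nat.card (B ⊓ D : Subgroup G) ≤ Nat.card (B ⊓ B₁ : Subgroup G) := Nat.le_of_mul_le_mul_left h6 hp.out.pos
    exact (Subgroup.eq_of_le_of_card_ge h4 h7).symm
  obtain ⟨B₁, hg, hn⟩ := h.exists_good hB1 hBb
  have h1 := key B₁ hg hn
  have h2 := h.card_inf hB1 hg hn
  by_cases hE : B ⊓ B₁ = ⊥
  · rw [hE, Subgroup.card_bot, mul_one] at h2
    exact h2
  · exfalso
    obtain ⟨B₂, hg2, hn2⟩ := h.exists_good (inf_le_left.trans hB1 : B ⊓ B₁ ≤ A) hE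
    have h3 := key B₂ hg2 (fun hh => hn2 (inf_le_left.trans hh))
    apply hn2
    rw [← h1, h3]
    exact inf_le_right

end CfsgLib.BO
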