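import Cfsg.Agent.Lib.BO9

/-! The group `E = [K,A] A`. -/
set_option autoImplicit false
set_option linter.style.haveILetI false
set_option linter.unusedVariables false

namespace CfsgLib.BO

universe u

open CfsgLib CfsgLib.JSub CfsgLib.Coprime CfsgLib.PL2 CfsgLib.PL3 CfsgLib.Dick CfsgLib.ThmA Subgroup
open scoped commutatorElement

variable {G : Type u} [Group G] [Finite G] {p : ℕ} [hp : Fact p.Prime] {V K : Subgroup G} {a : G}

/-- the pair group -/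
def LL (a x : G) : Subgroup G := Subgroup.zpowers a ⊔ Subgroup.zpowers (x * a * x⁻¹)

theorem Mo.LL_le (h : Mo p V K a) {x : G} (hx : x ∈ K) : LL a x ≤ K ⊔ Subgroup.zpowers a :=
  sup_le le_sup_right (Subgroup.zpowers_le.mpr (h.conj_mem hx))

theorem Mo.XN (h : Mo p V K a) : K ⊔ Subgroup.zpowers a ≤ Subgroup.normalizer (V : Set G) :=
  sup_le h.KN (Subgroup.zpowers_le.mpr h.aN)

theorem Mo.nm (h : Mo p V K a) {x : G} (hx : x ∈ K) (hxa : x * a ≠ a * x) : NM p (⁅V, LL a x⁆ : Subgroup G) (LL a x) :=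
  h.pair' hx hxa

theorem Mo.wirr (h : Mo p V K a) {x : G} (hx : x ∈ K) (hxa : x * a ≠ a * x) {U : Subgroup G} (hU : U ≤ ⁅V, LL a x⁆)
    (hn : LL a x ⊓ K ≤ Subgroup.normalizer (U : Set G)) : U = ⊥ ∨ U = ⁅V, LL a x⁆ :=
  (h.nm hx hxa).irr (h.pair hx hxa).1 (fun y hy n hn hyn => h.mem_K (h.LL_le hx hy) hn hyn) hU hn

theorem Mo.mem_LL (h : Mo p V K a) {x : G} (hx : x ∈ K) : x * a * x⁻¹ * a⁻¹ ∈ LL a x ⊓ K := by
  refine Subgroup.mem_inf.mpr ⟨mul_mem ((le_sup_right : Subgroup.zpowers (x * a * x⁻¹) ≤ LL a x) (Subgroup.mem_zpowers _))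
      (inv_mem ((le_sup_left : Subgroup.zpowers a ≤ LL a x) (Subgroup.mem_zpowers _))), ?_⟩
  have h4 : a * x⁻¹ * a⁻¹ ∈ K := (Subgroup.mem_normalizer_iff.mp h.aK _).mp (K.inv_mem hx)
  have h5 : x * a * x⁻¹ * a⁻¹ = x * (a * x⁻¹ * a⁻¹) := by group
  rw [h5]; exact K.mul_mem hx h4

theorem Mo.commD (h : Mo p V K a) {x : G} (hx : x ∈ K) (hxa : x * a ≠ a * x) : ⁅V, LL a x ⊓ K⁆ = ⁅V, LL a x⁆ := by
  rcases h.wirr hx hxa (Subgroup.commutator_mono le_rfl inf_le_left) norm_comm with h1 | h1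
  · exfalso
    have h2 := CfsgLib.PL1.commutator_eq_bot_iff'.mp h1 (h.mem_LL hx)
    have h3 : x * a * x⁻¹ * a⁻¹ ∈ (K ⊔ Subgroup.zpowers a) ⊓ Subgroup.centralizer (V : Set G) :=
      ⟨(le_sup_left : K ≤ _) (h.mem_LL hx).2, h2⟩
    rw [h.f, Subgroup.mem_bot] at h3
    apply hxa
    have h7 : x * a * x⁻¹ = a := mul_inv_eq_one.mp h3
    calc x * a = (x * a * x⁻¹) * x := by group
      _ = a * x := by rw [h7]
  · exact h1

theorem NM.big {W L : Subgroup G} (h : NM p W L) (hp23 : p = 2 ∨ p = 3) {K : Subgroup G} (hLK : ∀ y ∈ L, ∀ n : ℕ, n.Coprime p → y ^ n = 1 → y ∈ K) :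
    2 < Nat.card (L ⊓ K : Subgroup G) := by
  obtain ⟨w1, w2, e, h1, h2, hc, hinj, hr, he⟩ := h
  obtain ⟨d, n, hnp, hdn, hd⟩ := elt hp23
  by_contra hcon
  have hyK : ((e.symm d : L) : G) ∈ L ⊓ K := by
    refine ⟨(e.symm d).2, ?_⟩
    apply hLK _ (e.symm d).2 n hnp
    rw [← Subgroup.coe_pow, ← map_pow, hdn, map_one, Subgroup.coe_one]
  have h3 : ((e.symm d : L) : G) ^ 2 = 1 := by
    have h4 := Subgroup.orderOf_dvd_natCard _ hyK
    have h5 : 0 < Nat.card (L ⊓ K : Subgroup G) := Nat.card_pos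
    have h6 : Nat.card (L ⊓ K : Subgroup G) = 1 ∨ Nat.card (L ⊓ K : Subgroup G) = 2 := by omega
    rcases h6 with h6 | h6
    · rw [h6, Nat.dvd_one, orderOf_eq_one_iff] at h4
      rw [h4, one_pow]
    · rw [h6] at h4; exact orderOf_dvd_iff_pow_eq_one.mp h4
  have h4 : d ^ 2 = 1 := by
    apply e.symm.injective
    rw [map_pow, map_one]
    exact Subtype.ext h3
  have h5 : ∀ c : Fin 2 → ZMod p, (d : Matrix (Fin 2) (Fin 2) (ZMod p)).mulVec ((d : Matrix (Fin 2) (Fin 2) (ZMod p)).mulVec c) = c := by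
    intro c
    rw [Matrix.mulVec_mulVec, ← Matrix.SpecialLinearGroup.coe_mul, ← sq, h4, Matrix.SpecialLinearGroup.coe_one, Matrix.one_mulVec]
  have h6 : ∀ c : Fin 2 → ZMod p, c = 0 := by
    intro c
    have h7 : (d : Matrix (Fin 2) (Fin 2) (ZMod p)).mulVec c + c = 0 := by
      apply hd _ 1
      rw [Matrix.mulVec_add, h5, one_smul, add_comm]
    apply hd c (-1)
    rw [neg_one_smul]
    exact eq_neg_of_add_eq_zero_left h7
  have h7 := congrFun (h6 ![1, 0]) 0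
  have : (1 : ZMod p) = 0 := h7
  exact one_ne_zero this

theorem Mo.cardW (h : Mo p V K a) {x : G} (hx : x ∈ K) (hxa : x * a ≠ a * x) : Nat.card (⁅V, LL a x⁆ : Subgroup G) = p ^ 2 := (h.nm hx hxa).card

theorem pcore_bot_of_coprime {Ω : Subgroup G} (hc : (Nat.card Ω).Coprime p) : Cfsg.pCore p Ω = ⊥ := by
  have h1 : IsPGroup p (Cfsg.pCore p Ω) := CfsgLib.Core.pCore_isPGroup p Ω
  obtain ⟨n, hn⟩ := IsPGroup.iff_card.mp h1
  have h2 : Nat.card (Cfsg.pCore p Ω) ∣ Nat.card Ω := Subgroup.card_subgroup_dvd_card _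
  rw [hn] at h2
  have h3 : p ^ n = 1 := Nat.eq_one_of_dvd_coprimes (hc.pow_right n) h2 dvd_rfl
  rw [h3] at hn
  exact Subgroup.card_eq_one.mp hn

theorem Mo.cf (h : Mo p V K a) {Ω : Subgroup G} (hΩ : Ω ≤ K) : Cf p V Ω := by
  refine ⟨h.vp, h.vc, hΩ.trans h.KN, ?_, pcore_bot_of_coprime (Nat.Coprime.coprime_dvd_left (Subgroup.card_dvd_of_le hΩ) h.Kp)⟩
  rw [eq_bot_iff, ← h.f]
  exact inf_le_inf_right _ (hΩ.trans le_sup_left)

theorem Mo.W_eq (h : Mo p V K a) {x y : G} (hx : x ∈ K) (hxa : x * a ≠ a * x) (hy : y ∈ K) (hya : y * a ≠ a * y) :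
    ⁅V, LL a x⁆ = ⁅V, LL a y⁆ := by
  by_contra hne
  have hcx := h.cardW hx hxa
  have hcy := h.cardW hy hya
  -- the r-group
  have hQ : ∀ {z : G}, z ∈ K → LL a z ⊓ K ≤ ⁅K, Subgroup.zpowers a⁆ := fun hz w hw => h.mem_comm (h.le_sup hz hw.1) hw.2
  set Ω := (LL a x ⊓ K) ⊔ (LL a y ⊓ K) with hΩ
  have hΩQ : Ω ≤ ⁅K, Subgroup.zpowers a⁆ := sup_le (hQ hx) (hQ hy)
  have hΩK : Ω ≤ K := sup_le inf_le_right inf_le_right
  have hr : ∃ r, r.Prime ∧ IsPGroup r Ω := by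
    rcases h.s0614 ⟨x, hx, hxa⟩ with ⟨-, h3⟩ | ⟨-, h3, -⟩
    · exact ⟨3, Nat.prime_three, h3.to_le hΩQ⟩
    · exact ⟨2, Nat.prime_two, h3.to_le hΩQ⟩
  obtain ⟨r, hr, hrΩ⟩ := hr
  haveI : Fact r.Prime := ⟨hr⟩
  have hsn : ∀ D : Subgroup G, D ≤ Ω → Sn Ω D := by
    intro D hD
    refine ⟨hD, ?_⟩
    exact CfsgLib.PG.isSubnormal_of_nilpotent hrΩ.isNilpotent _
  have hcf := h.cf hΩK
  have hiD : ∀ {z : G}, z ∈ K → z * a ≠ a * z → Irr V (LL a z ⊓ K) := by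
    intro z hz hza U hU hn
    rw [h.commD hz hza] at hU ⊢
    exact h.wirr hz hza hU hn
  have hbig : ∀ {z : G}, z ∈ K → z * a ≠ a * z → 2 < Nat.card (LL a z ⊓ K : Subgroup G) := by
    intro z hz hza
    exact (h.nm hz hza).big (h.pair hx hxa).1 (fun y hy n hn hyn => h.mem_K (h.LL_le hz hy) hn hyn)
  obtain ⟨-, -, h3⟩ := hcf.main _ (LL a x ⊓ K) (LL a y ⊓ K) (hsn _ le_sup_left) (hsn _ le_sup_right) le_rfl (hiD hx hxa) (hiD hy hya)
    (by
      rw [h.commD hx hxa, h.commD hy hya]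
      intro hle
      exact hne (Subgroup.eq_of_le_of_card_ge hle (by rw [hcx, hcy])))
    (by
      rw [h.commD hx hxa, h.commD hy hya]
      intro hle
      exact hne (Subgroup.eq_of_le_of_card_ge hle (by rw [hcx, hcy])).symm)
    (hbig hx hxa) (hbig hy hya)
  rw [h.commD hx hxa, h.commD hy hya] at h3
  have h4 : ⁅V, Subgroup.zpowers a⁆ ≤ (⁅V, LL a x⁆ ⊓ ⁅V, LL a y⁆ : Subgroup G) :=
    le_inf (Subgroup.commutator_mono le_rfl le_sup_left) (Subgroup.commutator_mono le_rfl le_sup_left)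
  rw [h3, le_bot_iff] at h4
  have h5 := h.U
  rw [h4, Subgroup.card_bot] at h5
  exact hp.out.one_lt.ne h5

/-- `E = [K,A] A` -/
def EE (K : Subgroup G) (a : G) : Subgroup G := ⁅K, Subgroup.zpowers a⁆ ⊔ Subgroup.zpowers a

theorem Mo.EE_le (h : Mo p V K a) : EE K a ≤ K ⊔ Subgroup.zpowers a :=
  sup_le_sup_right (CfsgLib.Coprime.commutator_le_of_le_normalizer (Subgroup.zpowers_le.mpr h.aK)) _

theorem EE_le_of {M : Subgroup G} (h : ∀ y ∈ K, y * a * y⁻¹ ∈ M) (ha : a ∈ M) : EE K a ≤ M := by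
  apply sup_le _ (Subgroup.zpowers_le.mpr ha)
  rw [Subgroup.commutator_le]
  intro y hy z hz
  obtain ⟨n, rfl⟩ := Subgroup.mem_zpowers_iff.mp hz
  rw [commutatorElement_def]
  have h1 : y * a ^ n * y⁻¹ = (y * a * y⁻¹) ^ n := (conj_zpow).symm
  rw [h1]
  exact M.mul_mem (M.zpow_mem (h y hy) n) (M.inv_mem (M.zpow_mem ha n))

theorem Mo.commE (h : Mo p V K a) {x : G} (hx : x ∈ K) (hxa : x * a ≠ a * x) : ⁅V, EE K a⁆ = ⁅V, LL a x⁆ := by
  apply le_antisymm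
  · rw [CfsgLib.PL1.commutator_le_iff (h.EE_le.trans h.XN)]
    have hLN : ∀ {z : G}, z ∈ K → LL a z ≤ Subgroup.normalizer (V : Set G) := fun hz => (h.LL_le hz).trans h.XN
    have ha : a ∈ CfsgLib.PL1.actSub V ⁅V, LL a x⁆ :=
      (CfsgLib.PL1.commutator_le_iff (hLN hx)).mp le_rfl ((le_sup_left : Subgroup.zpowers a ≤ _) (Subgroup.mem_zpowers a))
    apply EE_le_of _ ha
    intro y hy
    by_cases hya : y * a = a * y
    · rw [hya, mul_inv_cancel_right]; exact ha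
    · rw [h.W_eq hx hxa hy hya]
      exact (CfsgLib.PL1.commutator_le_iff (hLN hy)).mp le_rfl
        ((le_sup_right : Subgroup.zpowers (y * a * y⁻¹) ≤ _) (Subgroup.mem_zpowers _))
  · exact Subgroup.commutator_mono le_rfl (h.le_sup hx)

theorem Mo.centE (h : Mo p V K a) (hne : ∃ x ∈ K, x * a ≠ a * x) : EE K a ⊓ Subgroup.centralizer ((⁅V, EE K a⁆ : Subgroup G) : Set G) = ⊥ := by
  obtain ⟨x, hx, hxa⟩ := hne
  set P := EE K a ⊓ Subgroup.centralizer ((⁅V, EE K a⁆ : Subgroup G) : Set G) with hP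
  have hEN := h.EE_le.trans h.XN
  have hEP : EE K a ≤ Subgroup.normalizer (P : Set G) := norm_cent norm_comm
  have hPp : IsPGroup p P := by
    apply quad_pgroup h.vp (inf_le_left.trans hEN)
    · rw [eq_bot_iff, ← h.f]
      exact inf_le_inf_right _ (inf_le_left.trans h.EE_le)
    · rw [Subgroup.commutator_eq_bot_iff_le_centralizer, Subgroup.le_centralizer_iff]
      exact inf_le_right.trans (Subgroup.centralizer_le (Subgroup.commutator_mono le_rfl inf_le_left))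
  have hAE : Subgroup.zpowers a ≤ EE K a := le_sup_right
  have h1 : IsPGroup p (P ⊔ Subgroup.zpowers a : Subgroup G) :=
    IsPGroup.to_sup_of_normal_left' hPp (IsPGroup.of_card (n := 1) (by rw [h.cardA, pow_one])) (hAE.trans hEP)
  have h2 := h.card_le (sup_le (inf_le_left.trans h.EE_le) le_sup_right) h1
  have h3 : Subgroup.zpowers a = P ⊔ Subgroup.zpowers a :=
    Subgroup.eq_of_le_of_card_ge le_sup_right (by rw [h.cardA]; exact h2)
  have h4 : P ≤ Subgroup.zpowers a := by rw [h3]; exact le_sup_left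
  rw [eq_bot_iff, ← (h.nm hx hxa).faithful, ← h.commE hx hxa]
  exact le_inf (h4.trans le_sup_left) inf_le_right

theorem Mo.E_eq (h : Mo p V K a) {x : G} (hx : x ∈ K) (hxa : x * a ≠ a * x) : EE K a = LL a x := by
  apply le_antisymm _ (h.le_sup hx)
  apply EE_le_of _ ((le_sup_left : Subgroup.zpowers a ≤ _) (Subgroup.mem_zpowers a))
  intro y hy
  have haE : a ∈ EE K a := (le_sup_right : Subgroup.zpowers a ≤ _) (Subgroup.mem_zpowers a)
  have hyE : y * a * y⁻¹ ∈ EE K a := by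
    have h1 : ⁅y, a⁆ ∈ ⁅K, Subgroup.zpowers a⁆ := Subgroup.commutator_mem_commutator hy (Subgroup.mem_zpowers a)
    have h2 : y * a * y⁻¹ = ⁅y, a⁆ * a := by rw [commutatorElement_def]; group
    rw [h2]
    exact Subgroup.mul_mem_sup h1 (Subgroup.mem_zpowers a)
  have hnm := h.nm hx hxa
  rw [← h.commE hx hxa] at hnm
  obtain ⟨s, hs, hsw⟩ := hnm.lift (t := y * a * y⁻¹) (norm_comm hyE) (by rw [conj_pow, h.ap]; group)
  have h3 : s⁻¹ * (y * a * y⁻¹) ∈ EE K a ⊓ Subgroup.centralizer ((⁅V, EE K a⁆ : Subgroup G) : Set G) := by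
    refine Subgroup.mem_inf.mpr ⟨mul_mem (inv_mem (h.le_sup hx hs)) hyE, ?_⟩
    rw [Subgroup.mem_centralizer_iff]
    intro w hw
    have h4 := hsw w hw
    calc w * (s⁻¹ * (y * a * y⁻¹)) = s⁻¹ * (s * w * s⁻¹) * (y * a * y⁻¹) := by group
      _ = s⁻¹ * ((y * a * y⁻¹) * w * (y * a * y⁻¹)⁻¹) * (y * a * y⁻¹) := by rw [h4]
      _ = _ := by group
  rw [h.centE ⟨x, hx, hxa⟩, Subgroup.mem_bot] at h3
  rw [← inv_mul_eq_one.mp h3]
  exact hs

theorem Mo.nmE (h : Mo p V K a) (hne : ∃ x ∈ K, x * a ≠ a * x) : NM p (⁅V, EE K a⁆ : Subgroup G) (EE K a) := by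
  obtain ⟨x, hx, hxa⟩ := hne
  rw [h.E_eq hx hxa]
  exact h.nm hx hxa

theorem Mo.E_inf (h : Mo p V K a) : EE K a ⊓ K = ⁅K, Subgroup.zpowers a⁆ := by
  apply le_antisymm
  · intro y hy
    exact h.mem_comm hy.1 hy.2
  · exact le_inf le_sup_left (CfsgLib.Coprime.commutator_le_of_le_normalizer (Subgroup.zpowers_le.mpr h.aK))

theorem Mo.commQ (h : Mo p V K a) (hne : ∃ x ∈ K, x * a ≠ a * x) : ⁅V, ⁅K, Subgroup.zpowers a⁆⁆ = ⁅V, EE K a⁆ := by
  obtain ⟨x, hx, hxa⟩ := hne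
  rw [← h.E_inf, h.E_eq hx hxa, h.commD hx hxa]

theorem Mo.irrQ (h : Mo p V K a) (hne : ∃ x ∈ K, x * a ≠ a * x) : Irr V ⁅K, Subgroup.zpowers a⁆ := by
  obtain ⟨x, hx, hxa⟩ := hne
  intro U hU hn
  rw [h.commQ ⟨x, hx, hxa⟩, h.E_eq hx hxa] at hU ⊢
  rw [← h.E_inf, h.E_eq hx hxa] at hn
  exact h.wirr hx hxa hU hn

theorem Mo.bigQ (h : Mo p V K a) (hne : ∃ x ∈ K, x * a ≠ a * x) : 2 < Nat.card (⁅K, Subgroup.zpowers a⁆ : Subgroup G) := by
  obtain ⟨x, hx, hxa⟩ := hne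
  rw [← h.E_inf, h.E_eq hx hxa]
  exact (h.nm hx hxa).big (h.pair hx hxa).1 (fun y hy n hn hyn => h.mem_K (h.LL_le hx hy) hn hyn)

end CfsgLib.BO
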