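import Cfsg.Agent.Lib.BO10

/-! Several offenders. -/
set_option autoImplicit false
set_option linter.style.haveILetI false
set_option linter.unusedVariables false

namespace CfsgLib.BO

universe u

open CfsgLib CfsgLib.JSub CfsgLib.Coprime CfsgLib.PL2 CfsgLib.PL3 CfsgLib.Dick CfsgLib.ThmA Subgroup
open scoped commutatorElement

variable {G : Type u} [Group G] [Finite G] {p : ℕ} [hp : Fact p.Prime] {V K H : Subgroup G} {a b : G}

theorem Mo.copV (h : Mo p V K a) {R : Subgroup G} (hR : R ≤ K) : CopAct R V := by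
  refine ⟨hR.trans h.KN, ?_, Or.inr ?_⟩
  · obtain ⟨n, hn⟩ := IsPGroup.iff_card.mp h.vp
    rw [hn]
    exact (Nat.Coprime.coprime_dvd_left (Subgroup.card_dvd_of_le hR) h.Kp).pow_right n
  · haveI := h.vp.isNilpotent
    infer_instance

theorem Mo.QA_norm (h : Mo p V K a) : Subgroup.zpowers a ≤ Subgroup.normalizer ((⁅K, Subgroup.zpowers a⁆ : Subgroup G) : Set G) := norm_comm

theorem Mo.cVQ (h : Mo p V K a) (hne : ∃ x ∈ K, x * a ≠ a * x) : cV V ⁅K, Subgroup.zpowers a⁆ = cV V (EE K a) := by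
  set Q : Subgroup G := ⁅K, Subgroup.zpowers a⁆ with hQ
  have hQK : Q ≤ K := CfsgLib.Coprime.commutator_le_of_le_normalizer (Subgroup.zpowers_le.mpr h.aK)
  have hEN := h.EE_le.trans h.XN
  have hWQ : (⁅V, EE K a⁆ ⊓ Subgroup.centralizer (Q : Set G) : Subgroup G) = ⊥ := by
    rcases h.irrQ hne (⁅V, EE K a⁆ ⊓ Subgroup.centralizer (Q : Set G)) (by rw [h.commQ hne]; exact inf_le_left)
      (by
        apply CfsgLib.Coprime.le_normalizer_inf
        · exact (le_sup_left : Q ≤ EE K a).trans norm_comm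
        · intro x hx
          apply CfsgLib.H7Basic.mem_normalizer_of_conj_mem
          intro z hz
          have := Subgroup.mem_centralizer_iff.mp hz x hx
          have h3 : x * z * x⁻¹ = z := by rw [this]; group
          rw [h3]; exact hz) with h1 | h1
    · exact h1
    · exfalso
      rw [← hQ, h.commQ hne] at h1
      have h2 : Q ≤ EE K a ⊓ Subgroup.centralizer ((⁅V, EE K a⁆ : Subgroup G) : Set G) :=
        le_inf le_sup_left (Subgroup.le_centralizer_iff.mp (inf_eq_left.mp h1))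
      rw [h.centE hne, le_bot_iff] at h2
      have h3 := h.bigQ hne
      rw [← hQ, h2, Subgroup.card_bot] at h3
      omega
  apply le_antisymm
  · intro v hv
    obtain ⟨hvV, hvQ⟩ := mem_cV.mp hv
    -- `a` centralizes `v`
    have h1 : ∀ z ∈ Subgroup.zpowers a, z * v = v * z := by
      intro z hz
      have hzE : z ∈ EE K a := (le_sup_right : Subgroup.zpowers a ≤ EE K a) hz
      have h2 : z * v * z⁻¹ * v⁻¹ ∈ (⁅V, EE K a⁆ ⊓ Subgroup.centralizer (Q : Set G) : Subgroup G) := by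
        refine Subgroup.mem_inf.mpr ⟨?_, ?_⟩
        · have h3 := Subgroup.commutator_mem_commutator hvV hzE
          have h4 : z * v * z⁻¹ * v⁻¹ = (⁅v, z⁆)⁻¹ := by rw [commutatorElement_def]; group
          rw [h4]; exact inv_mem h3
        · rw [Subgroup.mem_centralizer_iff]
          intro q hq
          have hq' : z⁻¹ * q * z ∈ Q := by
            have := (Subgroup.mem_normalizer_iff.mp (Subgroup.inv_mem _ (h.QA_norm hz)) q).mp hq
            rwa [inv_inv] at this
          have h3 := hvQ _ hq'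
          have h4 := hvQ q hq
          have h5 : q * (z * v * z⁻¹) = (z * v * z⁻¹) * q := by
            calc q * (z * v * z⁻¹) = z * ((z⁻¹ * q * z) * v) * z⁻¹ := by group
              _ = z * (v * (z⁻¹ * q * z)) * z⁻¹ := by rw [h3]
              _ = _ := by group
          have h6 : q * v⁻¹ = v⁻¹ * q := by
            calc q * v⁻¹ = v⁻¹ * (v * q) * v⁻¹ := by group
              _ = v⁻¹ * (q * v) * v⁻¹ := by rw [h4]
              _ = _ := by group
          calc q * (z * v * z⁻¹ * v⁻¹) = (q * (z * v * z⁻¹)) * v⁻¹ := by group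
            _ = (z * v * z⁻¹) * q * v⁻¹ := by rw [h5]
            _ = (z * v * z⁻¹) * (q * v⁻¹) := by group
            _ = (z * v * z⁻¹) * (v⁻¹ * q) := by rw [h6]
            _ = _ := by group
      rw [hWQ, Subgroup.mem_bot] at h2
      have h3 : z * v * z⁻¹ = v := mul_inv_eq_one.mp h2
      calc z * v = (z * v * z⁻¹) * z := by group
        _ = v * z := by rw [h3]
    refine mem_cV.mpr ⟨hvV, ?_⟩
    have h2 : EE K a ≤ Subgroup.centralizer ({v} : Set G) := by
      apply sup_le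
      · intro q hq
        rw [Subgroup.mem_centralizer_iff]
        rintro _ rfl
        exact (hvQ q hq).symm
      · intro z hz
        rw [Subgroup.mem_centralizer_iff]
        rintro _ rfl
        exact (h1 z hz).symm
    intro e he
    exact (Subgroup.mem_centralizer_iff.mp (h2 he) v rfl).symm
  · exact cV_anti le_sup_left

theorem Mo.inf_bot (h : Mo p V K a) (hne : ∃ x ∈ K, x * a ≠ a * x) : (⁅V, EE K a⁆ ⊓ cV V (EE K a) : Subgroup G) = ⊥ := by
  rw [Subgroup.eq_bot_iff_forall]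
  intro w hw
  obtain ⟨hw1, hw2⟩ := Subgroup.mem_inf.mp hw
  apply (h.nmE hne).fix hw1
  intro x hx
  rw [(mem_cV.mp hw2).2 x hx]; group

theorem Mo.sup_top (h : Mo p V K a) (hne : ∃ x ∈ K, x * a ≠ a * x) : (⁅V, EE K a⁆ ⊔ cV V (EE K a) : Subgroup G) = V := by
  have hQK : ⁅K, Subgroup.zpowers a⁆ ≤ K := CfsgLib.Coprime.commutator_le_of_le_normalizer (Subgroup.zpowers_le.mpr h.aK)
  have h1 := (h.copV hQK).commutator_sup
  rw [h.commQ hne] at h1
  rw [← h.cVQ hne]
  exact h1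

/-- environment -/
structure Env (p : ℕ) (V H K : Subgroup G) : Prop where
  n : H ≤ Subgroup.normalizer (V : Set G)
  f : H ⊓ Subgroup.centralizer (V : Set G) = ⊥
  KH : K ≤ H
  HK : H ≤ Subgroup.normalizer (K : Set G)

theorem Mo.conj (h : Mo p V K a) (hE : Env p V H K) (ha : a ∈ H) {g : G} (hg : g ∈ H) : Mo p V K (g * a * g⁻¹) := by
  have hga : g * a * g⁻¹ ∈ H := H.mul_mem (H.mul_mem hg ha) (H.inv_mem hg)
  refine ⟨h.vp, h.vc, hE.n hga, h.KN, hE.HK hga, h.Kp, ?_, ?_, ?_, ?_⟩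
  · rw [eq_bot_iff, ← hE.f]
    exact inf_le_inf_right _ (sup_le hE.KH (Subgroup.zpowers_le.mpr hga))
  · rw [conj_pow, h.ap]; group
  · intro h1
    apply h.a1
    have h2 : a = g⁻¹ * (g * a * g⁻¹) * g := by group
    rw [h2, h1]; group
  · rw [card_comm_conj (hE.n hg)]; exact h.U

theorem conj_ne (hE : Env p V H K) (hne : ∃ x ∈ K, x * a ≠ a * x) {g : G} (hg : g ∈ H) : ∃ x ∈ K, x * (g * a * g⁻¹) ≠ (g * a * g⁻¹) * x := by
  obtain ⟨x, hx, hxa⟩ := hne
  refine ⟨g * x * g⁻¹, (Subgroup.mem_normalizer_iff.mp (hE.HK hg) x).mp hx, ?_⟩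
  intro h1
  apply hxa
  calc x * a = g⁻¹ * ((g * x * g⁻¹) * (g * a * g⁻¹)) * g := by group
    _ = g⁻¹ * ((g * a * g⁻¹) * (g * x * g⁻¹)) * g := by rw [h1]
    _ = _ := by group

theorem EE_conj (hE : Env p V H K) {g : G} (hg : g ∈ H) : EE K (g * a * g⁻¹) = (EE K a).map (MulAut.conj g).toMonoidHom := by
  unfold EE
  have h1 : Subgroup.zpowers (g * a * g⁻¹) = (Subgroup.zpowers a).map (MulAut.conj g).toMonoidHom := by
    rw [MonoidHom.map_zpowers]; rfl
  rw [Subgroup.map_sup, Subgroup.map_commutator, CfsgLib.H7Basic.cj_eq_self_iff.2 (hE.HK hg), h1]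

theorem Mo.E_le_of_W_eq (h : Mo p V K a) (h' : Mo p V K b) (hE : Env p V H K) (ha : a ∈ H) (hb : b ∈ H)
    (hne : ∃ x ∈ K, x * a ≠ a * x) (hne' : ∃ x ∈ K, x * b ≠ b * x) (hW : ⁅V, EE K a⁆ = ⁅V, EE K b⁆) : EE K b ≤ EE K a := by
  have hQa : ⁅K, Subgroup.zpowers a⁆ ≤ K := CfsgLib.Coprime.commutator_le_of_le_normalizer (Subgroup.zpowers_le.mpr h.aK)
  have hQb : ⁅K, Subgroup.zpowers b⁆ ≤ K := CfsgLib.Coprime.commutator_le_of_le_normalizer (Subgroup.zpowers_le.mpr h'.aK)
  set R := ⁅K, Subgroup.zpowers a⁆ ⊔ ⁅K, Subgroup.zpowers b⁆ with hR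
  have hRK : R ≤ K := sup_le hQa hQb
  have h1 := (h.copV hRK).commutator_sup
  rw [hR, CfsgLib.PL1.commutator_sup_right (hQa.trans h.KN) (hQb.trans h.KN), h.commQ hne, h'.commQ hne', ← hW, sup_idem, ← hR] at h1
  have hcRa : V ⊓ Subgroup.centralizer (R : Set G) ≤ cV V (EE K a) := by
    rw [← h.cVQ hne]; exact cV_anti le_sup_left
  have hcRb : V ⊓ Subgroup.centralizer (R : Set G) ≤ cV V (EE K b) := by
    rw [← h'.cVQ hne']; exact cV_anti le_sup_right
  have hEaH : EE K a ≤ H := h.EE_le.trans (sup_le hE.KH (Subgroup.zpowers_le.mpr ha))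
  have hEbH : EE K b ≤ H := h'.EE_le.trans (sup_le hE.KH (Subgroup.zpowers_le.mpr hb))
  have key : ∀ t ∈ EE K b, t ^ p = 1 → t ∈ EE K a := by
    intro t ht htp
    obtain ⟨s, hs, hsw⟩ := (h.nmE hne).lift (t := t) (by rw [hW]; exact norm_comm ht) htp
    have h3 : s⁻¹ * t ∈ H ⊓ Subgroup.centralizer (V : Set G) := by
      refine Subgroup.mem_inf.mpr ⟨mul_mem (inv_mem (hEaH hs)) (hEbH ht), ?_⟩
      have h4 : V ≤ Subgroup.centralizer ({s⁻¹ * t} : Set G) := by
        rw [← h1]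
        apply sup_le
        · intro w hw
          rw [Subgroup.mem_centralizer_iff]
          rintro _ rfl
          have h4 := hsw w hw
          calc (s⁻¹ * t) * w = s⁻¹ * (t * w * t⁻¹) * t := by group
            _ = s⁻¹ * (s * w * s⁻¹) * t := by rw [h4]
            _ = _ := by group
        · intro w hw
          rw [Subgroup.mem_centralizer_iff]
          rintro _ rfl
          have h4 := (mem_cV.mp (hcRa hw)).2 s hs
          have h5 := (mem_cV.mp (hcRb hw)).2 t ht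
          calc (s⁻¹ * t) * w = s⁻¹ * (t * w) := by group
            _ = s⁻¹ * (w * t) := by rw [h5]
            _ = s⁻¹ * w * s * s⁻¹ * t := by group
            _ = s⁻¹ * (w * s) * s⁻¹ * t := by group
            _ = s⁻¹ * (s * w) * s⁻¹ * t := by rw [h4]
            _ = _ := by group
      rw [Subgroup.mem_centralizer_iff]
      intro v hv
      exact (Subgroup.mem_centralizer_iff.mp (h4 hv) _ rfl).symm
    rw [hE.f, Subgroup.mem_bot] at h3
    rw [← inv_mul_eq_one.mp h3]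
    exact hs
  have hbE : b ∈ EE K b := (le_sup_right : Subgroup.zpowers b ≤ _) (Subgroup.mem_zpowers b)
  apply EE_le_of _ (key b hbE h'.ap)
  intro y hy
  apply key
  · have h1 : ⁅y, b⁆ ∈ ⁅K, Subgroup.zpowers b⁆ := Subgroup.commutator_mem_commutator hy (Subgroup.mem_zpowers b)
    have h2 : y * b * y⁻¹ = ⁅y, b⁆ * b := by rw [commutatorElement_def]; group
    rw [h2]
    exact Subgroup.mul_mem_sup h1 (Subgroup.mem_zpowers b)
  · rw [conj_pow, h'.ap]; group

theorem Mo.disj (h : Mo p V K a) (h' : Mo p V K b) (hne : ∃ x ∈ K, x * a ≠ a * x) (hne' : ∃ x ∈ K, x * b ≠ b * x)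
    (hW : ⁅V, EE K a⁆ ≠ ⁅V, EE K b⁆) : ⁅⁅K, Subgroup.zpowers a⁆, ⁅K, Subgroup.zpowers b⁆⁆ = ⊥ ∧
      (⁅V, EE K a⁆ ⊓ ⁅V, EE K b⁆ : Subgroup G) = ⊥ := by
  have hQa : ⁅K, Subgroup.zpowers a⁆ ≤ K := CfsgLib.Coprime.commutator_le_of_le_normalizer (Subgroup.zpowers_le.mpr h.aK)
  have hQb : ⁅K, Subgroup.zpowers b⁆ ≤ K := CfsgLib.Coprime.commutator_le_of_le_normalizer (Subgroup.zpowers_le.mpr h'.aK)
  have hn : ∀ c : G, K ≤ Subgroup.normalizer ((⁅K, Subgroup.zpowers c⁆ : Subgroup G) : Set G) := fun c => CfsgLib.PStabN.le_normalizer_commutator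
  have hK : Sn K K := ⟨le_rfl, by rw [Subgroup.subgroupOf_self]; exact Subgroup.IsSubnormal.top⟩
  have ca := (h.nmE hne).card
  have cb := (h'.nmE hne').card
  obtain ⟨h1, -, h3⟩ := (h.cf le_rfl).main _ _ _ (hK.sub hQa (hn a)) (hK.sub hQb (hn b)) le_rfl (h.irrQ hne) (h'.irrQ hne')
    (by
      rw [h.commQ hne, h'.commQ hne']
      intro hle
      exact hW (Subgroup.eq_of_le_of_card_ge hle (by rw [ca, cb])))
    (by
      rw [h.commQ hne, h'.commQ hne']
      intro hle
      exact hW (Subgroup.eq_of_le_of_card_ge hle (by rw [ca, cb])).symm)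
    (h.bigQ hne) (h'.bigQ hne')
  rw [h.commQ hne, h'.commQ hne'] at h3
  exact ⟨h1, h3⟩

/-- offenders normalise the `W`s and `E`s -/
theorem Mo.norm_of (h : Mo p V K a) (h' : Mo p V K b) (hE : Env p V H K) (ha : a ∈ H) (hb : b ∈ H)
    (hne : ∃ x ∈ K, x * a ≠ a * x) :
    b ∈ Subgroup.normalizer ((⁅V, EE K a⁆ : Subgroup G) : Set G) ∧ b ∈ Subgroup.normalizer ((EE K a : Subgroup G) : Set G) := by
  have hc := h.conj hE ha hb
  have hcne := conj_ne hE hne hb
  have hcE := EE_conj (a := a) hE hb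
  have hWc : (⁅V, EE K (b * a * b⁻¹)⁆ : Subgroup G) = (⁅V, EE K a⁆ : Subgroup G).map (MulAut.conj b).toMonoidHom := by
    rw [hcE, conj_comm_map (hE.n hb)]
  have hEN := h.EE_le.trans h.XN
  have hWV : ⁅V, EE K a⁆ ≤ V := CfsgLib.PL1.commutator_le_left hEN
  by_cases hW : ⁅V, EE K a⁆ = ⁅V, EE K (b * a * b⁻¹)⁆
  · have h1 := h.E_le_of_W_eq hc hE ha (H.mul_mem (H.mul_mem hb ha) (H.inv_mem hb)) hne hcne hW
    constructor
    · rw [← CfsgLib.H7Basic.cj_eq_self_iff, ← hWc, ← hW]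
    · rw [hcE] at h1
      exact CfsgLib.H7Basic.mem_normalizer_of_cj_le h1
  · exfalso
    have h3 := (h.disj hc hne hcne hW).2
    -- `C_W(b)` is nontrivial
    have h4 : ⁅V, EE K a⁆ ⊓ cV V (Subgroup.zpowers b) = ⊥ := by
      rw [eq_bot_iff, ← h3]
      apply le_inf inf_le_left
      intro w hw
      obtain ⟨hw1, hw2⟩ := Subgroup.mem_inf.mp hw
      rw [hWc]
      refine ⟨w, hw1, ?_⟩
      show b * w * b⁻¹ = w
      rw [(mem_cV.mp hw2).2 b (Subgroup.mem_zpowers b)]; group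
    have h5 := card_comm_zpowers h'.vc h'.aN
    rw [h'.U] at h5
    have hnorm : cV V (Subgroup.zpowers b) ≤ Subgroup.normalizer ((⁅V, EE K a⁆ : Subgroup G) : Set G) := by
      intro x hx
      apply CfsgLib.H7Basic.mem_normalizer_of_conj_mem
      intro u hu
      rw [h.vc x (cV_le _ _ hx) u (hWV hu), mul_inv_cancel_right]; exact hu
    have h6 := card_sup_mul hnorm
    rw [h4, Subgroup.card_bot, mul_one, (h.nmE hne).card] at h6
    have h7 : Nat.card (⁅V, EE K a⁆ ⊔ cV V (Subgroup.zpowers b) : Subgroup G) ≤ Nat.card V :=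
      Nat.card_le_card_of_injective _ (Subgroup.inclusion_injective (sup_le hWV (cV_le _ _)))
    rw [h6, ← h5] at h7
    have h8 : 0 < Nat.card (cV V (Subgroup.zpowers b)) := Nat.card_pos
    have h9 := Nat.le_of_mul_le_mul_right h7 h8
    have h10 := hp.out.one_lt
    nlinarith

end CfsgLib.BO
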