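import Cfsg.Agent.Lib.BO11

/-! Structure theorem. -/
set_option autoImplicit false
set_option linter.style.haveILetI false
set_option linter.unusedVariables false

namespace CfsgLib.BO

universe u

open CfsgLib CfsgLib.JSub CfsgLib.Coprime CfsgLib.PL2 CfsgLib.PL3 CfsgLib.Dick CfsgLib.ThmA Subgroup
open scoped commutatorElement

variable {G : Type u} [Group G] [Finite G] {p : ℕ} [hp : Fact p.Prime] {V K H : Subgroup G} {a b : G}

/-- minimal offenders -/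
def MinOff (p : ℕ) (V H : Subgroup G) (a : G) : Prop :=
  Subgroup.zpowers a ≤ H ∧ Cfsg.IsBestOffenderOn p V (Subgroup.zpowers a) ∧ ⁅V, Subgroup.zpowers a⁆ ≠ ⊥ ∧
    ∀ B : Subgroup G, B ≤ Subgroup.zpowers a → Cfsg.IsBestOffenderOn p V B → ⁅V, B⁆ ≠ ⊥ → B = Subgroup.zpowers a

/-- the standing hypotheses -/
structure Hyp (p : ℕ) (V H : Subgroup G) : Prop where
  hV : Cfsg.IsElementaryAbelian p V
  hHV : H ≤ Subgroup.normalizer (V : Set G)
  hf : H ⊓ Subgroup.centralizer (V : Set G) = ⊥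
  hS1 : Subgroup.centralizer (Cfsg.pPrimeCore p ↥H : Set ↥H) ≤ Cfsg.pPrimeCore p ↥H
  hS3 : H = ⨆ A : {A : Subgroup G // A ≤ H ∧ Cfsg.IsBestOffenderOn p V A}, (A : Subgroup G)

theorem Hyp.env (h : Hyp p V H) : Env p V H (KK p H) := ⟨h.hHV, h.hf, KK_le, KK_norm⟩

theorem Hyp.mo (h : Hyp p V H) (ha : MinOff p V H a) : Mo p V (KK p H) a ∧ ∃ x ∈ KK p H, x * a ≠ a * x := by
  obtain ⟨h1, h2, h3, h4⟩ := ha
  obtain ⟨c, hcA, hc, hmo⟩ := mkMo h.hV h.hHV h.hf h.hS1 h1 h2 h3 h4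
  have haz : a ∈ Subgroup.zpowers c := by rw [← hc]; exact Subgroup.mem_zpowers a
  have hca := hmo.cardA
  rw [← hc] at hca
  have ho : orderOf a = p := by rw [← Nat.card_zpowers]; exact hca
  have ha1 : a ≠ 1 := by intro h5; rw [h5, orderOf_one] at ho; exact hp.out.one_lt.ne ho
  refine ⟨⟨hmo.vp, hmo.vc, h.hHV (h1 (Subgroup.mem_zpowers a)), hmo.KN, KK_norm (h1 (Subgroup.mem_zpowers a)), hmo.Kp, ?_, ?_, ha1, ?_⟩, ?_⟩
  · rw [hc]; exact hmo.f
  · rw [← ho]; exact pow_orderOf_eq_one a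
  · rw [hc]; exact hmo.U
  · exact exists_ne h.hV h.hHV h.hf h.hS1 h1 h2 ha1

/-- every best offender is generated by minimal ones -/
theorem Hyp.le_of (h : Hyp p V H) {M : Subgroup G} (hM : ∀ b, MinOff p V H b → b ∈ M) : H ≤ M := by
  rw [h.hS3]
  apply iSup_le
  rintro ⟨A, hAH, hA⟩
  obtain ⟨k, B, hB, -, hBA⟩ := s0612 h.hV h.hHV h.hf h.hS1 hAH hA
  show A ≤ M
  rw [← hBA]
  apply iSup_le
  intro i
  obtain ⟨h1, h2, h3, h4⟩ := hB i
  have hBH : B i ≤ H := h1.trans hAH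
  obtain ⟨c, hcA, hc, hmo⟩ := mkMo h.hV h.hHV h.hf h.hS1 hBH h2 h3 h4
  rw [hc, Subgroup.zpowers_le]
  apply hM
  rw [hc] at h2 h3 h4 hBH
  exact ⟨hBH, h2, h3, h4⟩

theorem Hyp.norm (h : Hyp p V H) (ha : MinOff p V H a) :
    H ≤ Subgroup.normalizer ((⁅V, EE (KK p H) a⁆ : Subgroup G) : Set G) ∧ H ≤ Subgroup.normalizer ((EE (KK p H) a : Subgroup G) : Set G) := by
  obtain ⟨h1, h2⟩ := h.mo ha
  constructor
  · apply h.le_of
    intro b hb
    exact (h1.norm_of (h.mo hb).1 h.env (ha.1 (Subgroup.mem_zpowers a)) (hb.1 (Subgroup.mem_zpowers b)) h2).1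
  · apply h.le_of
    intro b hb
    exact (h1.norm_of (h.mo hb).1 h.env (ha.1 (Subgroup.mem_zpowers a)) (hb.1 (Subgroup.mem_zpowers b)) h2).2

theorem Hyp.E_le (h : Hyp p V H) (ha : MinOff p V H a) : EE (KK p H) a ≤ H := (h.mo ha).1.EE_le.trans (sup_le KK_le ha.1)

theorem Hyp.sup (h : Hyp p V H) (ha : MinOff p V H a) :
    EE (KK p H) a ⊔ (H ⊓ Subgroup.centralizer ((⁅V, EE (KK p H) a⁆ : Subgroup G) : Set G)) = H := by
  obtain ⟨h1, h2⟩ := h.mo ha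
  apply le_antisymm (sup_le (h.E_le ha) inf_le_left)
  apply h.le_of
  intro b hb
  have hbH : b ∈ H := hb.1 (Subgroup.mem_zpowers b)
  obtain ⟨s, hs, hsw⟩ := (h1.nmE h2).lift (t := b) ((h.norm ha).1 hbH) (h.mo hb).1.ap
  have h3 : s⁻¹ * b ∈ H ⊓ Subgroup.centralizer ((⁅V, EE (KK p H) a⁆ : Subgroup G) : Set G) := by
    refine Subgroup.mem_inf.mpr ⟨mul_mem (inv_mem (h.E_le ha hs)) hbH, ?_⟩
    rw [Subgroup.mem_centralizer_iff]
    intro w hw
    have h4 := hsw w hw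
    calc w * (s⁻¹ * b) = s⁻¹ * (s * w * s⁻¹) * b := by group
      _ = s⁻¹ * (b * w * b⁻¹) * b := by rw [h4]
      _ = _ := by group
  have h4 : b = s * (s⁻¹ * b) := by group
  rw [h4]
  exact Subgroup.mul_mem_sup hs h3

theorem Hyp.inf (h : Hyp p V H) (ha : MinOff p V H a) :
    EE (KK p H) a ⊓ (H ⊓ Subgroup.centralizer ((⁅V, EE (KK p H) a⁆ : Subgroup G) : Set G)) = ⊥ := by
  obtain ⟨h1, h2⟩ := h.mo ha
  rw [eq_bot_iff, ← h1.centE h2]
  exact inf_le_inf_left _ inf_le_right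

theorem Hyp.comm (h : Hyp p V H) (ha : MinOff p V H a) :
    ⁅EE (KK p H) a, H ⊓ Subgroup.centralizer ((⁅V, EE (KK p H) a⁆ : Subgroup G) : Set G)⁆ = ⊥ := by
  rw [eq_bot_iff, ← h.inf ha]
  apply le_inf
  · exact CfsgLib.PL1.commutator_le_left ((inf_le_left : H ⊓ _ ≤ H).trans (h.norm ha).2)
  · rw [Subgroup.commutator_comm]
    exact CfsgLib.PL1.commutator_le_left ((h.E_le ha).trans (norm_cent (h.norm ha).1))

theorem Hyp.last (h : Hyp p V H) (ha : MinOff p V H a) :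
    ⁅V, H ⊓ Subgroup.centralizer ((⁅V, EE (KK p H) a⁆ : Subgroup G) : Set G)⁆ ≤ cV V (EE (KK p H) a) := by
  obtain ⟨h1, h2⟩ := h.mo ha
  set C := H ⊓ Subgroup.centralizer ((⁅V, EE (KK p H) a⁆ : Subgroup G) : Set G) with hC
  have hCN : C ≤ Subgroup.normalizer (V : Set G) := (inf_le_left : C ≤ H).trans h.hHV
  have hVc : IsMulCommutative V := ⟨⟨fun x y => Subtype.ext (h1.vc x x.2 y y.2)⟩⟩
  have hWV : ⁅V, EE (KK p H) a⁆ ≤ V := CfsgLib.PL1.commutator_le_left ((h.E_le ha).trans h.hHV)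
  have hcomm := h.comm ha
  rw [← hC, Subgroup.commutator_comm, Subgroup.commutator_eq_bot_iff_le_centralizer] at hcomm
  have hCc : C ≤ Subgroup.normalizer ((cV V (EE (KK p H) a) : Subgroup G) : Set G) := by
    intro c hc
    apply CfsgLib.H7Basic.mem_normalizer_of_conj_mem
    intro v hv
    obtain ⟨hv1, hv2⟩ := mem_cV.mp hv
    refine mem_cV.mpr ⟨(Subgroup.mem_normalizer_iff.mp (hCN hc) v).mp hv1, ?_⟩
    intro e he
    have h3 : e * c = c * e := Subgroup.mem_centralizer_iff.mp (hcomm hc) e he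
    have h4 : c⁻¹ * e = e * c⁻¹ := by
      calc c⁻¹ * e = c⁻¹ * (e * c) * c⁻¹ := by group
        _ = c⁻¹ * (c * e) * c⁻¹ := by rw [h3]
        _ = _ := by group
    calc e * (c * v * c⁻¹) = (e * c) * v * c⁻¹ := by group
      _ = c * (e * v) * c⁻¹ := by rw [h3]; group
      _ = c * v * (e * c⁻¹) := by rw [hv2 e he]; group
      _ = c * v * (c⁻¹ * e) := by rw [h4]
      _ = _ := by group
  have h3 := CfsgLib.PL1.commutator_sup_left (A := C) hVc hCN hWV (cV_le V (EE (KK p H) a))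
  rw [h1.sup_top h2] at h3
  rw [h3]
  apply sup_le
  · have h4 : ⁅⁅V, EE (KK p H) a⁆, C⁆ = ⊥ := by
      rw [Subgroup.commutator_eq_bot_iff_le_centralizer, Subgroup.le_centralizer_iff]
      exact inf_le_right
    rw [h4]; exact bot_le
  · exact CfsgLib.PL1.commutator_le_left hCc

end CfsgLib.BO
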