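import Cfsg.Agent.Lib.BO12

/-! The structure theorem S0617. -/
set_option autoImplicit false
set_option linter.style.haveILetI false
set_option linter.unusedVariables false

namespace CfsgLib.BO

universe u

open CfsgLib CfsgLib.JSub CfsgLib.Coprime CfsgLib.PL2 CfsgLib.PL3 CfsgLib.Dick CfsgLib.ThmA Subgroup
open scoped commutatorElement

variable {G : Type u} [Group G] [Finite G] {p : ℕ} [hp : Fact p.Prime] {V K H : Subgroup G} {a b : G}

/-- the index type of S0617 -/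
def IsE (p : ℕ) (V H E : Subgroup G) : Prop :=
  ∃ A : Subgroup G, A ≤ H ∧ Cfsg.IsBestOffenderOn p V A ∧ ⁅V, A⁆ ≠ ⊥ ∧
    (∀ B : Subgroup G, B ≤ A → Cfsg.IsBestOffenderOn p V B → ⁅V, B⁆ ≠ ⊥ → B = A) ∧ E = ⁅((Cfsg.pPrimeCore p ↥H).map H.subtype), A⁆ ⊔ A

theorem Hyp.isE_iff (h : Hyp p V H) {E : Subgroup G} : IsE p V H E ↔ ∃ a, MinOff p V H a ∧ E = EE (KK p H) a := by
  constructor
  · rintro ⟨A, h1, h2, h3, h4, rfl⟩
    obtain ⟨a, haA, rfl, hmo⟩ := mkMo h.hV h.hHV h.hf h.hS1 h1 h2 h3 h4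
    exact ⟨a, ⟨h1, h2, h3, h4⟩, rfl⟩
  · rintro ⟨a, ⟨h1, h2, h3, h4⟩, rfl⟩
    exact ⟨_, h1, h2, h3, h4, rfl⟩

theorem Hyp.W_ne (h : Hyp p V H) (ha : MinOff p V H a) (hb : MinOff p V H b) (hne : EE (KK p H) a ≠ EE (KK p H) b) :
    (⁅V, EE (KK p H) a⁆ ⊓ ⁅V, EE (KK p H) b⁆ : Subgroup G) = ⊥ := by
  obtain ⟨h1, h2⟩ := h.mo ha
  obtain ⟨h3, h4⟩ := h.mo hb
  apply (h1.disj h3 h2 h4 _).2
  intro hW
  apply hne
  have haH := ha.1 (Subgroup.mem_zpowers a)
  have hbH := hb.1 (Subgroup.mem_zpowers b)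
  exact le_antisymm (h3.E_le_of_W_eq h1 h.env hbH haH h4 h2 hW.symm) (h1.E_le_of_W_eq h3 h.env haH hbH h2 h4 hW)

theorem Hyp.E_cent (h : Hyp p V H) (ha : MinOff p V H a) (hb : MinOff p V H b) (hne : EE (KK p H) a ≠ EE (KK p H) b) :
    EE (KK p H) b ≤ Subgroup.centralizer ((⁅V, EE (KK p H) a⁆ : Subgroup G) : Set G) := by
  have h5 := h.W_ne ha hb hne
  have hWV : ⁅V, EE (KK p H) a⁆ ≤ V := CfsgLib.PL1.commutator_le_left ((h.E_le ha).trans h.hHV)
  rw [← Subgroup.commutator_eq_bot_iff_le_centralizer, eq_bot_iff, ← h5, Subgroup.commutator_comm]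
  apply le_inf
  · exact CfsgLib.PL1.commutator_le_left ((h.E_le hb).trans (h.norm ha).1)
  · exact Subgroup.commutator_mono hWV le_rfl

theorem Hyp.exists_min (h : Hyp p V H) (hH1 : H ≠ ⊥) : ∃ a, MinOff p V H a := by
  by_contra hcon
  push Not at hcon
  apply hH1
  rw [eq_bot_iff]
  exact h.le_of fun b hb => absurd hb (hcon b)

theorem Hyp.iSup_E (h : Hyp p V H) : (⨆ E : {E : Subgroup G // IsE p V H E}, (E : Subgroup G)) = H := by
  apply le_antisymm
  · apply iSup_le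
    rintro ⟨E, hE⟩
    obtain ⟨a, ha, rfl⟩ := h.isE_iff.mp hE
    exact h.E_le ha
  · apply h.le_of
    intro b hb
    have h1 : EE (KK p H) b ≤ ⨆ E : {E : Subgroup G // IsE p V H E}, (E : Subgroup G) :=
      le_iSup (fun E : {E : Subgroup G // IsE p V H E} => (E : Subgroup G)) ⟨_, h.isE_iff.mpr ⟨b, hb, rfl⟩⟩
    exact h1 ((le_sup_right : Subgroup.zpowers b ≤ _) (Subgroup.mem_zpowers b))

theorem Hyp.indep_E (h : Hyp p V H) : iSupIndep (fun E : {E : Subgroup G // IsE p V H E} => (E : Subgroup G)) := by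
  rintro ⟨E, hE⟩
  obtain ⟨a, ha, rfl⟩ := h.isE_iff.mp hE
  rw [disjoint_iff, eq_bot_iff, ← (h.mo ha).1.centE (h.mo ha).2]
  apply inf_le_inf_left
  apply iSup_le
  rintro ⟨F, hF⟩
  apply iSup_le
  intro hne
  obtain ⟨b, hb, rfl⟩ := h.isE_iff.mp hF
  exact h.E_cent ha hb (fun heq => hne (Subtype.ext heq.symm))

theorem Hyp.commVH (h : Hyp p V H) : ⁅V, H⁆ ≤ ⨆ E : {E : Subgroup G // IsE p V H E}, ⁅V, (E : Subgroup G)⁆ := by
  rw [CfsgLib.PL1.commutator_le_iff h.hHV]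
  apply h.le_of
  intro b hb
  have h1 : ⁅V, EE (KK p H) b⁆ ≤ ⨆ E : {E : Subgroup G // IsE p V H E}, ⁅V, (E : Subgroup G)⁆ :=
    le_iSup (fun E : {E : Subgroup G // IsE p V H E} => (⁅V, (E : Subgroup G)⁆ : Subgroup G)) ⟨_, h.isE_iff.mpr ⟨b, hb, rfl⟩⟩
  rw [CfsgLib.PL1.commutator_le_iff ((h.E_le hb).trans h.hHV)] at h1
  exact h1 ((le_sup_right : Subgroup.zpowers b ≤ EE (KK p H) b) (Subgroup.mem_zpowers b))

theorem Hyp.copK (h : Hyp p V H) : CopAct (KK p H) V := by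
  have hv : IsPGroup p V := EA.isPGroup (EA_iff.mpr h.hV)
  refine ⟨KK_le.trans h.hHV, ?_, Or.inr ?_⟩
  · obtain ⟨n, hn⟩ := IsPGroup.iff_card.mp hv
    rw [hn]
    exact KK_card.pow_right n
  · haveI := hv.isNilpotent
    infer_instance

/-- `C_V(K) = C_V(H)` -/
theorem Hyp.centK (h : Hyp p V H) : V ⊓ Subgroup.centralizer (KK p H : Set G) ≤ V ⊓ Subgroup.centralizer (H : Set G) := by
  apply le_inf inf_le_left
  rw [Subgroup.le_centralizer_iff]
  apply h.le_of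
  intro b hb
  obtain ⟨h1, h2⟩ := h.mo hb
  have h3 := h1.cVQ h2
  rw [Subgroup.mem_centralizer_iff]
  intro v hv
  have hQK : ⁅KK p H, Subgroup.zpowers b⁆ ≤ KK p H := CfsgLib.Coprime.commutator_le_of_le_normalizer (Subgroup.zpowers_le.mpr h1.aK)
  have h4 : v ∈ cV V ⁅KK p H, Subgroup.zpowers b⁆ := cV_anti hQK hv
  rw [h3] at h4
  exact ((mem_cV.mp h4).2 b ((le_sup_right : Subgroup.zpowers b ≤ EE (KK p H) b) (Subgroup.mem_zpowers b))).symm

theorem Hyp.T_le (h : Hyp p V H) : (⨆ E : {E : Subgroup G // IsE p V H E}, ⁅V, (E : Subgroup G)⁆) ≤ ⁅V, KK p H⁆ := by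
  apply iSup_le
  rintro ⟨E, hE⟩
  obtain ⟨b, hb, rfl⟩ := h.isE_iff.mp hE
  obtain ⟨h1, h2⟩ := h.mo hb
  show ⁅V, EE (KK p H) b⁆ ≤ _
  rw [← h1.commQ h2]
  exact Subgroup.commutator_mono le_rfl (CfsgLib.Coprime.commutator_le_of_le_normalizer (Subgroup.zpowers_le.mpr h1.aK))

theorem Hyp.sup_V (h : Hyp p V H) :
    (V ⊓ Subgroup.centralizer (H : Set G)) ⊔ (⨆ E : {E : Subgroup G // IsE p V H E}, ⁅V, (E : Subgroup G)⁆) = V := by
  apply le_antisymm
  · apply sup_le inf_le_left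
    apply iSup_le
    rintro ⟨E, hE⟩
    obtain ⟨b, hb, rfl⟩ := h.isE_iff.mp hE
    exact CfsgLib.PL1.commutator_le_left ((h.E_le hb).trans h.hHV)
  · rw [← h.copK.commutator_sup]
    apply sup_le
    · exact ((Subgroup.commutator_mono le_rfl KK_le).trans h.commVH).trans (by rw [h.copK.commutator_sup]; exact le_sup_right)
    · rw [h.copK.commutator_sup]
      exact h.centK.trans le_sup_left

theorem Hyp.indep_V (h : Hyp p V H) :
    iSupIndep (fun o : Option {E : Subgroup G // IsE p V H E} => o.elim (V ⊓ Subgroup.centralizer (H : Set G)) (fun E => ⁅V, (E : Subgroup G)⁆)) := by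
  rintro (_ | ⟨E, hE⟩)
  · rw [disjoint_iff]
    have h1 : (⨆ (j : Option {E : Subgroup G // IsE p V H E}) (_ : j ≠ none), (j.elim (V ⊓ Subgroup.centralizer (H : Set G)) (fun E => ⁅V, (E : Subgroup G)⁆) : Subgroup G)) ≤ ⁅V, KK p H⁆ := by
      apply iSup_le
      rintro (_ | E)
      · apply iSup_le; intro hc; exact absurd rfl hc
      · apply iSup_le
        intro _
        exact (le_iSup (fun E : {E : Subgroup G // IsE p V H E} => (⁅V, (E : Subgroup G)⁆ : Subgroup G)) E).trans h.T_le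
    have hVc : IsMulCommutative V := ⟨⟨fun x y => Subtype.ext ((CfsgLib.H6PR.ea_iff.1 h.hV).1 x x.2 y y.2)⟩⟩
    rw [eq_bot_iff, ← CfsgLib.Coprime.inf_commutator_eq_bot_of_abelian hVc h.copK.le_normalizer h.copK.coprime]
    apply inf_le_inf _ h1
    exact inf_le_inf_left _ (Subgroup.centralizer_le KK_le)
  · obtain ⟨a, ha, rfl⟩ := h.isE_iff.mp hE
    obtain ⟨h1, h2⟩ := h.mo ha
    rw [disjoint_iff, eq_bot_iff, ← h1.inf_bot h2]
    apply inf_le_inf_left
    apply iSup_le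
    rintro (_ | ⟨F, hF⟩)
    · apply iSup_le
      intro _
      exact inf_le_inf_left _ (Subgroup.centralizer_le (h.E_le ha))
    · apply iSup_le
      intro hne
      obtain ⟨b, hb, rfl⟩ := h.isE_iff.mp hF
      have hne' : EE (KK p H) b ≠ EE (KK p H) a := by
        intro heq
        apply hne
        rw [Option.some_inj]
        exact Subtype.ext heq
      apply le_inf
      · exact CfsgLib.PL1.commutator_le_left ((h.E_le hb).trans h.hHV)
      · rw [Subgroup.le_centralizer_iff]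
        exact h.E_cent hb ha hne'

end CfsgLib.BO
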