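import Cfsg.Agent.Lib.PSolvL
import Cfsg.Agent.Lib.PG

/-! The dual Hall–Higman lemma. -/
set_option autoImplicit false
set_option linter.style.haveILetI false
set_option linter.unusedVariables false

namespace CfsgLib.BO

universe u

open CfsgLib CfsgLib.PSolvL Subgroup Cfsg

variable {G : Type u} [Group G] [Finite G] {p : ℕ} [hp : Fact p.Prime]

theorem pCore_sub_bot (h : pCore p G = ⊥) (N : Subgroup G) [hN : N.Normal] : pCore p N = ⊥ := by
  have h1 := pCore_map_le (p := p) N
  rw [h, le_bot_iff] at h1
  exact (Subgroup.map_eq_bot_iff_of_injective _ N.subtype_injective).mp h1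

theorem dual_hh (h : pCore p G = ⊥) (hs : IsPSolvable p G) :
    Subgroup.centralizer (pPrimeCore p G : Set G) ≤ pPrimeCore p G := by
  haveI hPn := CfsgLib.Core.pPrimeCore_normal p G
  set P := pPrimeCore p G with hP
  set C := Subgroup.centralizer (P : Set G) with hC
  haveI hCn : C.Normal := CfsgLib.Solv.normal_centralizer_of_normal hPn
  by_contra hcon
  let Z : Subgroup C := P.subgroupOf C
  have hZc : Z ≤ Subgroup.center C := by
    intro z hz
    rw [Subgroup.mem_center_iff]
    intro c
    ext
    exact (Subgroup.mem_centralizer_iff.mp c.2 z hz).symm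
  haveI hZn : Z.Normal := inferInstance
  have hQ : Nontrivial (C ⧸ Z) := by
    rw [QuotientGroup.nontrivial_iff]
    intro h1
    apply hcon
    intro c hc
    have : (⟨c, hc⟩ : C) ∈ Z := by rw [h1]; exact Subgroup.mem_top _
    exact this
  have hZp : (Nat.card Z).Coprime p := by
    have h1 : Nat.card Z ∣ Nat.card P := by
      have h2 : Nat.card Z = Nat.card (Z.map C.subtype) := (Subgroup.card_map_of_injective C.subtype_injective).symm
      rw [h2]
      apply Subgroup.card_dvd_of_le
      rintro _ ⟨z, hz, rfl⟩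
      exact hz
    exact Nat.Coprime.coprime_dvd_left h1 (CfsgLib.Core.card_pPrimeCore_coprime p G)
  have hcoreC : pCore p C = ⊥ := pCore_sub_bot h C
  rcases exists_core_ne_bot (isPSolvable_quotient Z (isPSolvable_subgroup C hs)) hQ with h1 | h1
  · -- a normal p-subgroup of the quotient
    haveI h2 := CfsgLib.Core.pCore_normal p (C ⧸ Z)
    set D := (pCore p (C ⧸ Z)).comap (QuotientGroup.mk' Z) with hD
    haveI hDn : D.Normal := h2.comap _
    have hDcore : pCore p D = ⊥ := pCore_sub_bot hcoreC D
    -- `D` is nilpotent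
    let f : D →* (pCore p (C ⧸ Z)) := ((QuotientGroup.mk' Z).comp D.subtype).codRestrict _ (fun x => x.2)
    have hfk : f.ker ≤ Subgroup.center D := by
      intro x hx
      rw [Subgroup.mem_center_iff]
      intro y
      have hx1 : QuotientGroup.mk' Z (x : C) = 1 := congrArg Subtype.val (MonoidHom.mem_ker.mp hx)
      have hx2 : (x : C) ∈ Z := (QuotientGroup.eq_one_iff _).mp hx1
      ext
      have := Subgroup.mem_center_iff.mp (hZc hx2) y
      exact congrArg Subtype.val this
    have hnil : Group.IsNilpotent D := by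
      haveI := (CfsgLib.Core.pCore_isPGroup p (C ⧸ Z)).isNilpotent
      exact Subgroup.isNilpotent_of_ker_le_center f hfk
    let Q : Sylow p D := default
    have hQn : (Q : Subgroup D).Normal := by
      haveI := hnil
      infer_instance
    have hQb : (Q : Subgroup D) = ⊥ := by
      rw [eq_bot_iff, ← hDcore]
      exact CfsgLib.Core.le_pCore hQn Q.isPGroup'
    have hpD : p ∣ Nat.card D := by
      obtain ⟨a, ha⟩ := IsPGroup.iff_card.mp (CfsgLib.Core.pCore_isPGroup p (C ⧸ Z))
      rw [hD, CfsgLib.Hall.card_comap_mk, ha]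
      have ha0 : a ≠ 0 := by
        rintro rfl
        rw [pow_zero] at ha
        exact h1 (Subgroup.card_eq_one.mp ha)
      exact Dvd.dvd.mul_right (dvd_pow_self p ha0) _
    have h6 := Q.card_eq_multiplicity
    rw [hQb, Subgroup.card_bot] at h6
    have h7 : (Nat.card D).factorization p ≠ 0 := by
      intro h8
      rcases (Nat.factorization_eq_zero_iff _ _).mp h8 with h9 | h9 | h9
      · exact h9 hp.out
      · exact h9 hpD
      · exact Nat.card_pos.ne' h9
    exact (Nat.one_lt_pow h7 hp.out.one_lt).ne h6
  · haveI h2 := CfsgLib.Core.pPrimeCore_normal p (C ⧸ Z)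
    set D := (pPrimeCore p (C ⧸ Z)).comap (QuotientGroup.mk' Z) with hD
    haveI hDn : D.Normal := h2.comap _
    have hDp : (Nat.card D).Coprime p := by
      rw [hD, CfsgLib.Hall.card_comap_mk]
      exact (CfsgLib.Core.card_pPrimeCore_coprime p _).mul_left hZp
    have h3 : D ≤ pPrimeCore p C := CfsgLib.Core.le_pPrimeCore hDn hDp
    have h4 : D.map C.subtype ≤ P := (Subgroup.map_mono h3).trans (pPrimeCore_map_le C)
    have h5 : D ≤ Z := fun x hx => h4 (Subgroup.mem_map_of_mem _ hx)
    apply h1
    rw [eq_bot_iff]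
    intro y hy
    obtain ⟨x, rfl⟩ := QuotientGroup.mk'_surjective Z y
    exact (QuotientGroup.eq_one_iff x).mpr (h5 hy)

end CfsgLib.BO
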