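import Cfsg.Agent.Lib.ZJE5

/-! Thompson factorization in stable groups; the stable normal closure `W(S)`. -/
set_option autoImplicit false
set_option linter.style.haveILetI false
set_option linter.unusedVariables false

namespace CfsgLib.WS

universe u v

open CfsgLib CfsgLib.JSub CfsgLib.Coprime CfsgLib.PL1 CfsgLib.PL2 CfsgLib.PL3 CfsgLib.ZJ3 CfsgLib.ZJ4 CfsgLib.PSt
open scoped commutatorElement Pointwise

variable {G : Type u} [Group G] {p : ℕ} [hp : Fact p.Prime]

theorem quad_mono {V V' A A' : Subgroup G} (hV : V' ≤ V) (hA : A' ≤ A) (h : ⁅⁅V, A⁆, A⁆ = ⊥) : ⁅⁅V', A'⁆, A'⁆ = ⊥ := by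
  rw [eq_bot_iff, ← h]
  exact Subgroup.commutator_mono (Subgroup.commutator_mono hV hA) hA

/-- if quadratic elements act trivially then so does `J` -/
theorem J_le_centralizer [Finite G] (V : Subgroup G) [hVn : V.Normal] (hV : Cfsg.IsElementaryAbelian p V)
    (hst : ∀ a : G, (∃ n, a ^ p ^ n = 1) → ⁅⁅V, Subgroup.zpowers a⁆, Subgroup.zpowers a⁆ = ⊥ → a ∈ Subgroup.centralizer (V : Set G)) :
    J p (⊤ : Subgroup G) ≤ Subgroup.centralizer (V : Set G) := by
  apply sSup_le
  intro A hA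
  obtain ⟨h1, h2, h3⟩ := S0607 V hV A hA
  by_contra hnot
  have h4 : ⁅V, A⁆ ≠ ⊥ := by
    intro h
    apply hnot
    rw [Subgroup.commutator_comm, Subgroup.commutator_eq_bot_iff_le_centralizer] at h
    exact h
  apply h3 h4
  rw [Subgroup.commutator_comm, Subgroup.commutator_eq_bot_iff_le_centralizer]
  intro a ha
  refine hst a ⟨1, ?_⟩ (quad_mono le_rfl (by rwa [Subgroup.zpowers_le]) h2)
  rw [pow_one]
  exact h1.2.1.2 a ha

theorem quot_core {V : Subgroup G} [hVn : V.Normal] [(Subgroup.centralizer (V : Set G)).Normal]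
    (hO : Cfsg.pCore p (G ⧸ Subgroup.centralizer (V : Set G)) = ⊥) : LP p (Subgroup.centralizer (V : Set G)) = Subgroup.centralizer (V : Set G) := by
  show (Cfsg.pCore p (G ⧸ Subgroup.centralizer (V : Set G))).comap (QuotientGroup.mk' (Subgroup.centralizer (V : Set G))) = _
  rw [hO, MonoidHom.comap_bot, QuotientGroup.ker_mk']

/-- Thompson factorization in the stable case -/
theorem factorizable_of_stab [Finite G] (hc : Subgroup.centralizer (Cfsg.pCore p G : Set G) ≤ Cfsg.pCore p G)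
    (hO : Cfsg.pPrimeCore p G = ⊥) (hst : Stab p G) : Cfsg.IsThompsonFactorizable p G := by
  rw [factorizable_iff hO]
  set V := ⨆ S : Sylow p G, OZ p (S : Subgroup G) with hV
  haveI hVn : V.Normal := iSup_OZ_normal p G
  have hVe : Cfsg.IsElementaryAbelian p V := EA_iff.mp (iSup_OZ_EA hc)
  refine J_le_centralizer V hVe ?_
  intro a _ ha
  have h1 := hst V (EA.isPGroup (EA_iff.mpr hVe)) a ha
  have h2 : LP p (Subgroup.centralizer (V : Set G)) = Subgroup.centralizer (V : Set G) := by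
    haveI := LP_normal p (Subgroup.centralizer (V : Set G))
    exact S0601 _ inferInstance (le_LP p _) (relIndex_LP _)
  rwa [h2] at h1

theorem s0109 {G : Type*} [Group G] [Finite G] {p : ℕ} [Fact p.Prime] (hp : p ≠ 2) (hs : Group.IsSolvable G)
    (h3 : p = 3 → ∀ T : Sylow 2 G, IsMulCommutative T) (hF : ∀ N : Subgroup G, N.Normal → Nat.Coprime (Nat.card N) p → N = ⊥)
    (P : Sylow p G) (g : G) : ∃ a ∈ Subgroup.normalizer (Cfsg.thompsonSubgroupOf p (P : Subgroup G) : Set G),
    ∃ c ∈ Subgroup.centralizer {x : G | x ∈ (P : Subgroup G) ∧ (∀ y ∈ (P : Subgroup G), x * y = y * x) ∧ x ^ p = 1}, g = a * c := by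
  have hO : Cfsg.pPrimeCore p G = ⊥ := hF _ inferInstance (CfsgLib.Core.card_pPrimeCore_coprime p G)
  have hps := CfsgLib.PChain.of_solvable (p := p) Fact.out hs
  have hc := CfsgLib.PSolvL.hall_higman hO hps
  have hfree : ¬ Cfsg.Involves (Matrix.SpecialLinearGroup (Fin 2) (ZMod p)) G := by
    by_cases h : p = 3
    · exact CfsgLib.ThmA.free_of_sylow_two hp (h3 h)
    · have h2 := (Fact.out : p.Prime).two_le
      have h4 : p ≠ 4 := by rintro rfl; exact absurd (Fact.out : Nat.Prime 4) (by norm_num)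
      exact CfsgLib.ThmA.free_of_psolvable (by omega) hps
  have hfac := factorizable_of_stab hc hO (stab_of_normalizer (CfsgLib.ThmA.nstable_of_sl2_free hp hfree))
  obtain ⟨x, hx, c, hc', n, hn, h⟩ := hfac P g⁻¹
  rw [hO, Subgroup.mem_bot] at hx
  subst hx
  rw [one_mul] at h
  refine ⟨n⁻¹, inv_mem hn, c⁻¹, inv_mem ?_, ?_⟩
  · rw [Subgroup.mem_centralizer_iff]
    rintro y ⟨hy1, hy2, hy3⟩
    refine Subgroup.mem_centralizer_iff.mp hc' y ?_
    refine mem_omegaOne_of (Subgroup.mem_inf.mpr ⟨hy1, ?_⟩) hy3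
    rw [Subgroup.mem_centralizer_iff]
    intro z hz
    exact (hy2 z hz).symm
  · rw [← mul_inv_rev, ← h, inv_inv]

end CfsgLib.WS
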