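import Cfsg.Agent.Lib.BO13
import Cfsg.Agent.Lib.BO14
import Cfsg.Agent.Lib.WS1

/-! Transfer to a semidirect product; S0618. -/
set_option autoImplicit false
set_option linter.style.haveILetI false
set_option linter.unusedVariables false

namespace CfsgLib.BO

universe u

open CfsgLib CfsgLib.JSub CfsgLib.Coprime CfsgLib.PL2 CfsgLib.PL3 CfsgLib.Dick CfsgLib.ThmA Subgroup
open scoped commutatorElement

variable {G : Type u} [Group G] {p : ℕ}

section
variable (V : Subgroup G) [hVn : V.Normal] [Finite G]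

instance centN : (Subgroup.centralizer (V : Set G)).Normal := CfsgLib.Solv.normal_centralizer_of_normal hVn

/-- the faithful action of `G / C(V)` on `V` -/
noncomputable def phi : G ⧸ Subgroup.centralizer (V : Set G) →* MulAut V :=
  QuotientGroup.lift (Subgroup.centralizer (V : Set G)) (MulAut.conjNormal : G →* MulAut V) (by
    intro c hc
    ext v
    show c * (v : G) * c⁻¹ = v
    have := Subgroup.mem_centralizer_iff.mp hc v v.2
    rw [← this]; group)

theorem phi_mk (g : G) (v : V) : ((phi V (QuotientGroup.mk' _ g) v : V) : G) = g * v * g⁻¹ := rfl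

theorem phi_inj (q : G ⧸ Subgroup.centralizer (V : Set G)) (h : ∀ v, phi V q v = v) : q = 1 := by
  obtain ⟨g, rfl⟩ := QuotientGroup.mk'_surjective _ q
  rw [QuotientGroup.mk'_apply, QuotientGroup.eq_one_iff, Subgroup.mem_centralizer_iff]
  intro v hv
  have h1 := congrArg Subtype.val (h ⟨v, hv⟩)
  rw [phi_mk] at h1
  calc v * g = (g * v * g⁻¹) * g := by rw [h1]
    _ = g * v := by group

/-- the semidirect product -/
abbrev SD := V ⋊[phi V] (G ⧸ Subgroup.centralizer (V : Set G))

/-- image of `V` -/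
noncomputable def V' : Subgroup (SD V) := (SemidirectProduct.inl (φ := phi V)).range

/-- image of a subgroup of `G` -/
noncomputable def im (X : Subgroup G) : Subgroup (SD V) := (X.map (QuotientGroup.mk' (Subgroup.centralizer (V : Set G)))).map SemidirectProduct.inr

theorem mem_im {X : Subgroup G} {y : SD V} : y ∈ im V X ↔ ∃ x ∈ X, SemidirectProduct.inr (QuotientGroup.mk' (Subgroup.centralizer (V : Set G)) x) = y := by
  constructor
  · rintro ⟨_, ⟨x, hx, rfl⟩, rfl⟩; exact ⟨x, hx, rfl⟩
  · rintro ⟨x, hx, rfl⟩; exact ⟨_, ⟨x, hx, rfl⟩, rfl⟩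

theorem conj_inl (g : G) (v : V) : (SemidirectProduct.inr (QuotientGroup.mk' (Subgroup.centralizer (V : Set G)) g) : SD V) * SemidirectProduct.inl v *
    (SemidirectProduct.inr (QuotientGroup.mk' (Subgroup.centralizer (V : Set G)) g))⁻¹ = SemidirectProduct.inl (phi V (QuotientGroup.mk' _ g) v) := by
  rw [SemidirectProduct.inl_aut, map_inv]

theorem im_cent {X : Subgroup G} {v : V} : (SemidirectProduct.inl v : SD V) ∈ Subgroup.centralizer (im V X : Set (SD V)) ↔ (v : G) ∈ Subgroup.centralizer (X : Set G) := by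
  rw [Subgroup.mem_centralizer_iff, Subgroup.mem_centralizer_iff]
  constructor
  · intro h x hx
    have h1 := h _ ((mem_im V).mpr ⟨x, hx, rfl⟩)
    have h2 := conj_inl V x v
    rw [h1, mul_inv_cancel_right] at h2
    have h3 := congrArg Subtype.val (SemidirectProduct.inl_injective h2)
    rw [phi_mk] at h3
    calc x * (v : G) = (x * v * x⁻¹) * x := by group
      _ = v * x := by rw [← h3]
  · rintro h _ hy
    obtain ⟨x, hx, rfl⟩ := (mem_im V).mp hy
    have h2 := conj_inl V x v
    have h3 : phi V (QuotientGroup.mk' _ x) v = v := by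
      apply Subtype.ext
      rw [phi_mk, h x hx]; group
    rw [h3] at h2
    calc (SemidirectProduct.inr (QuotientGroup.mk' (Subgroup.centralizer (V : Set G)) x) : SD V) * SemidirectProduct.inl v
        = ((SemidirectProduct.inr (QuotientGroup.mk' (Subgroup.centralizer (V : Set G)) x) : SD V) * SemidirectProduct.inl v * (SemidirectProduct.inr (QuotientGroup.mk' (Subgroup.centralizer (V : Set G)) x))⁻¹) * SemidirectProduct.inr (QuotientGroup.mk' (Subgroup.centralizer (V : Set G)) x) := by rw [inv_mul_cancel_right]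
      _ = _ := by rw [h2]

theorem card_cent (X : Subgroup G) : Nat.card (V' V ⊓ Subgroup.centralizer (im V X : Set (SD V)) : Subgroup (SD V)) =
    Nat.card (V ⊓ Subgroup.centralizer (X : Set G) : Subgroup G) := by
  symm
  refine Nat.card_congr (Equiv.ofBijective (fun v => ⟨SemidirectProduct.inl (⟨v.1, v.2.1⟩ : V), ⟨⟨_, rfl⟩, (im_cent V).mpr v.2.2⟩⟩) ⟨?_, ?_⟩)
  · intro v w h
    have h1 := SemidirectProduct.inl_injective (congrArg Subtype.val h)
    exact Subtype.ext (Subtype.mk.inj h1)
  · rintro ⟨y, ⟨v, rfl⟩, hy⟩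
    exact ⟨⟨v, v.2, (im_cent V).mp hy⟩, rfl⟩

theorem im_mono {X Y : Subgroup G} (h : X ≤ Y) : im V X ≤ im V Y := Subgroup.map_mono (Subgroup.map_mono h)

instance finSD : Finite (SD V) := Finite.of_injective (fun x : SD V => (x.left, x.right)) (by
  intro x y h
  exact SemidirectProduct.ext (congrArg Prod.fst h) (congrArg Prod.snd h))

theorem card_im (X : Subgroup G) : Nat.card (im V X) * Nat.card (X ⊓ Subgroup.centralizer (V : Set G) : Subgroup G) = Nat.card X := by
  have h1 : Nat.card (im V X) = Nat.card (X.map (QuotientGroup.mk' (Subgroup.centralizer (V : Set G)))) :=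
    Subgroup.card_map_of_injective SemidirectProduct.inr_injective
  rw [h1]
  let f : X →* (G ⧸ Subgroup.centralizer (V : Set G)) := (QuotientGroup.mk' (Subgroup.centralizer (V : Set G))).comp X.subtype
  have h2 : f.range = X.map (QuotientGroup.mk' (Subgroup.centralizer (V : Set G))) := by
    ext y
    constructor
    · rintro ⟨x, rfl⟩; exact ⟨x, x.2, rfl⟩
    · rintro ⟨x, hx, rfl⟩; exact ⟨⟨x, hx⟩, rfl⟩
  have h3 : f.ker.map X.subtype = X ⊓ Subgroup.centralizer (V : Set G) := by
    ext y
    constructor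
    · rintro ⟨x, hx, rfl⟩
      exact ⟨x.2, (QuotientGroup.eq_one_iff _).mp (MonoidHom.mem_ker.mp hx)⟩
    · rintro ⟨hy1, hy2⟩
      exact ⟨⟨y, hy1⟩, MonoidHom.mem_ker.mpr ((QuotientGroup.eq_one_iff _).mpr hy2), rfl⟩
  rw [← h2, ← h3, Subgroup.card_map_of_injective X.subtype_injective]
  rw [mul_comm, ← Subgroup.index_ker, Subgroup.card_mul_index]

/-- best offenders transfer -/
theorem im_bo {A : Subgroup G} (hA : Cfsg.IsBestOffenderOn p V A) : Cfsg.IsBestOffenderOn p (V' V) (im V A) := by
  obtain ⟨h1, h2, h3⟩ := hA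
  refine ⟨?_, ?_, ?_⟩
  · intro B' hB'
    let B : Subgroup G := A ⊓ (B'.comap SemidirectProduct.inr).comap (QuotientGroup.mk' (Subgroup.centralizer (V : Set G)))
    have hBim : im V B = B' := by
      ext y
      rw [mem_im]
      constructor
      · rintro ⟨x, hx, rfl⟩; exact hx.2
      · intro hy
        obtain ⟨x, hx, rfl⟩ := (mem_im V).mp (hB' hy)
        exact ⟨x, ⟨hx, hy⟩, rfl⟩
    have hBC : B ⊓ Subgroup.centralizer (V : Set G) = A ⊓ Subgroup.centralizer (V : Set G) := by
      apply le_antisymm (inf_le_inf_right _ inf_le_left)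
      apply le_inf _ inf_le_right
      intro x hx
      refine ⟨hx.1, ?_⟩
      show SemidirectProduct.inr (QuotientGroup.mk' (Subgroup.centralizer (V : Set G)) x) ∈ B'
      have : QuotientGroup.mk' (Subgroup.centralizer (V : Set G)) x = 1 := (QuotientGroup.eq_one_iff _).mpr hx.2
      rw [this, map_one]; exact one_mem _
    have h4 := h1 B inf_le_left
    rw [← card_im V B, ← card_im V A, hBC, hBim] at h4
    have h5 : 0 < Nat.card (A ⊓ Subgroup.centralizer (V : Set G) : Subgroup G) := Nat.card_pos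
    rw [← hBim, card_cent, hBim, card_cent]
    have h6 : Nat.card (A ⊓ Subgroup.centralizer (V : Set G) : Subgroup G) * (Nat.card B' * Nat.card (V ⊓ Subgroup.centralizer (B : Set G) : Subgroup G)) ≤
        Nat.card (A ⊓ Subgroup.centralizer (V : Set G) : Subgroup G) * (Nat.card (im V A) * Nat.card (V ⊓ Subgroup.centralizer (A : Set G) : Subgroup G)) := by
      calc _ = Nat.card B' * Nat.card (A ⊓ Subgroup.centralizer (V : Set G) : Subgroup G) * Nat.card (V ⊓ Subgroup.centralizer (B : Set G) : Subgroup G) := by ring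
        _ ≤ Nat.card (im V A) * Nat.card (A ⊓ Subgroup.centralizer (V : Set G) : Subgroup G) * Nat.card (V ⊓ Subgroup.centralizer (A : Set G) : Subgroup G) := h4
        _ = _ := by ring
    exact Nat.le_of_mul_le_mul_left h6 h5
  · rw [Subgroup.commutator_le]
    intro x hx y hy
    obtain ⟨a, ha, rfl⟩ := (mem_im V).mp hx
    obtain ⟨b, hb, rfl⟩ := (mem_im V).mp hy
    have h0 : QuotientGroup.mk' (Subgroup.centralizer (V : Set G)) (⁅a, b⁆ : G) = 1 :=
      (QuotientGroup.eq_one_iff _).mpr (h2 (Subgroup.commutator_mem_commutator ha hb))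
    have h4 : ⁅(SemidirectProduct.inr (QuotientGroup.mk' (Subgroup.centralizer (V : Set G)) a) : SD V), (SemidirectProduct.inr (QuotientGroup.mk' (Subgroup.centralizer (V : Set G)) b) : SD V)⁆ = 1 := by
      rw [← map_commutatorElement, ← map_commutatorElement, h0, map_one]
    rw [h4]; exact one_mem _
  · intro x hx
    obtain ⟨a, ha, rfl⟩ := (mem_im V).mp hx
    have : QuotientGroup.mk' (Subgroup.centralizer (V : Set G)) (a ^ p) = 1 := (QuotientGroup.eq_one_iff _).mpr (h3 a ha)
    rw [← map_pow, ← map_pow, this, map_one]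
    exact one_mem _

theorem V'_ea (hV : Cfsg.IsElementaryAbelian p V) : Cfsg.IsElementaryAbelian p (V' V) := by
  rw [CfsgLib.H6PR.ea_iff] at hV ⊢
  constructor
  · rintro _ ⟨v, rfl⟩ _ ⟨w, rfl⟩
    rw [← map_mul, ← map_mul]
    congr 1
    exact Subtype.ext (hV.1 v v.2 w w.2)
  · rintro _ ⟨v, rfl⟩
    rw [← map_pow]
    have : v ^ p = 1 := Subtype.ext (hV.2 v v.2)
    rw [this, map_one]

theorem im_norm (X : Subgroup G) : im V X ≤ Subgroup.normalizer (V' V : Set (SD V)) := by
  intro y hy
  apply CfsgLib.H7Basic.mem_normalizer_of_conj_mem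
  rintro _ ⟨v, rfl⟩
  obtain ⟨x, hx, rfl⟩ := (mem_im V).mp hy
  rw [conj_inl]
  exact ⟨_, rfl⟩

theorem im_faith (X : Subgroup G) : im V X ⊓ Subgroup.centralizer (V' V : Set (SD V)) = ⊥ := by
  rw [Subgroup.eq_bot_iff_forall]
  intro y hy
  obtain ⟨hy1, hy2⟩ := Subgroup.mem_inf.mp hy
  obtain ⟨x, hx, rfl⟩ := (mem_im V).mp hy1
  have h1 : QuotientGroup.mk' (Subgroup.centralizer (V : Set G)) x = 1 := by
    apply phi_inj
    intro v
    have h2 := conj_inl V x v
    have h3 := Subgroup.mem_centralizer_iff.mp hy2 _ ⟨v, rfl⟩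
    rw [← h3, mul_inv_cancel_right] at h2
    exact (SemidirectProduct.inl_injective h2).symm
  rw [h1, map_one]

end

end CfsgLib.BO
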