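import Cfsg.Agent.Lib.BO15

/-! S0618. -/
set_option autoImplicit false
set_option linter.style.haveILetI false
set_option linter.unusedVariables false

namespace CfsgLib.BO

universe u

open CfsgLib CfsgLib.JSub CfsgLib.Coprime CfsgLib.PL2 CfsgLib.PL3 CfsgLib.Dick CfsgLib.ThmA CfsgLib.ZJ4 Subgroup
open scoped commutatorElement

variable {G : Type u} [Group G] [Finite G] {p : ℕ} [hp : Fact p.Prime]

theorem maxEA_bo (V : Subgroup G) [V.Normal] (hV : Cfsg.IsElementaryAbelian p V) (A : Subgroup G) (hA : A ∈ Cfsg.maxElementaryAbelianSubgroups p G) :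
    Cfsg.IsBestOffenderOn p V A := by
  have h1 := (CfsgLib.PL2.maxEA_top p A).mp hA
  refine ⟨CfsgLib.PL2.bestOffender_of_maxEA (CfsgLib.JSub.EA_iff.mpr hV) h1, ?_, fun a ha => ?_⟩
  · have h2 : ⁅A, A⁆ = ⊥ := by
      rw [Subgroup.commutator_eq_bot_iff_le_centralizer]
      intro a ha
      rw [Subgroup.mem_centralizer_iff]
      intro b hb
      exact h1.2.1.1 b hb a ha
    rw [h2]; exact bot_le
  · rw [h1.2.1.2 a ha]; exact one_mem _

theorem pCore_bot_congr {A B : Type*} [Group A] [Group B] [Finite A] [Finite B] (e : A ≃* B) (h : Cfsg.pCore p A = ⊥) : Cfsg.pCore p B = ⊥ := by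
  haveI := CfsgLib.Core.pCore_normal p B
  have h1 : (Cfsg.pCore p B).comap e.toMonoidHom ≤ Cfsg.pCore p A := by
    apply CfsgLib.Core.le_pCore (inferInstance)
    exact (CfsgLib.Core.pCore_isPGroup p B).comap_of_injective e.toMonoidHom e.injective
  rw [h, le_bot_iff] at h1
  rw [Subgroup.eq_bot_iff_forall]
  intro x hx
  have h2 : e.symm x ∈ (Cfsg.pCore p B).comap e.toMonoidHom := by
    show e (e.symm x) ∈ Cfsg.pCore p B
    rwa [e.apply_symm_apply]
  rw [h1, Subgroup.mem_bot] at h2
  rw [← e.apply_symm_apply x, h2, map_one]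

theorem Jnormal : (Cfsg.thompsonSubgroup p G).Normal := by
  rw [CfsgLib.PL2.thompson_eq]
  constructor
  intro n hn g
  have h1 : (J p (⊤ : Subgroup G)).map (MulAut.conj g).toMonoidHom = J p (⊤ : Subgroup G) := by
    rw [← J_map_conj]
    congr 1
    exact Subgroup.map_top_of_surjective _ (MulAut.conj g).surjective
  rw [← h1]
  exact ⟨n, hn, rfl⟩

/-- the hypotheses of the structure theorem hold for the image of `J(G)` -/
theorem hyp_J (V : Subgroup G) [hVn : V.Normal] (hV : Cfsg.IsElementaryAbelian p V) (hs : Cfsg.IsPSolvable p G)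
    (hO : Cfsg.pCore p (G ⧸ Subgroup.centralizer (V : Set G)) = ⊥) : Hyp p (V' V) (im V (Cfsg.thompsonSubgroup p G)) := by
  haveI := Jnormal (G := G) (p := p)
  set J := Cfsg.thompsonSubgroup p G with hJ
  set Hb := J.map (QuotientGroup.mk' (Subgroup.centralizer (V : Set G))) with hHb
  haveI hHbn : Hb.Normal := Subgroup.Normal.map inferInstance _ (QuotientGroup.mk'_surjective _)
  have hHc : Cfsg.pCore p Hb = ⊥ := pCore_sub_bot hO Hb
  have hHs : Cfsg.IsPSolvable p Hb := CfsgLib.PSolvL.isPSolvable_subgroup _ (CfsgLib.PSolvL.isPSolvable_quotient _ hs)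
  let e : Hb ≃* (im V J) := Hb.equivMapOfInjective (SemidirectProduct.inr (φ := phi V)) SemidirectProduct.inr_injective
  refine ⟨V'_ea V hV, im_norm V _, im_faith V _, dual_hh (pCore_bot_congr e hHc) (CfsgLib.PSolvL.isPSolvable_congr e hHs), ?_⟩
  apply le_antisymm
  · rw [im, Subgroup.map_le_iff_le_comap, Subgroup.map_le_iff_le_comap, hJ]
    apply sSup_le
    intro A hA
    rw [← Subgroup.map_le_iff_le_comap, ← Subgroup.map_le_iff_le_comap]
    have hAJ : A ≤ Cfsg.thompsonSubgroup p G := le_sSup hA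
    exact le_iSup (fun A : {A : Subgroup (SD V) // A ≤ im V J ∧ Cfsg.IsBestOffenderOn p (V' V) A} => (A : Subgroup (SD V)))
      ⟨im V A, im_mono V hAJ, im_bo V (maxEA_bo V hV A hA)⟩
  · apply iSup_le
    rintro ⟨A, hA1, hA2⟩
    exact hA1

theorem s0618_core (V : Subgroup G) [hVn : V.Normal] (hV : Cfsg.IsElementaryAbelian p V) (hs : Cfsg.IsPSolvable p G)
    (hO : Cfsg.pCore p (G ⧸ Subgroup.centralizer (V : Set G)) = ⊥) (hJ : ¬ Cfsg.thompsonSubgroup p G ≤ Subgroup.centralizer (V : Set G)) :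
    (p = 2 ∨ p = 3) ∧ ∃ E : Subgroup G, Subgroup.centralizer (V : Set G) ≤ E ∧
      E ≤ Cfsg.thompsonSubgroup p G ⊔ Subgroup.centralizer (V : Set G) ∧
      Cfsg.thompsonSubgroup p G ⊔ Subgroup.centralizer (V : Set G) ≤ Subgroup.normalizer (E : Set G) ∧
      ∃ hn : ((Subgroup.centralizer (V : Set G)).subgroupOf E).Normal,
        Nonempty ((↥E ⧸ (Subgroup.centralizer (V : Set G)).subgroupOf E) ≃* Matrix.SpecialLinearGroup (Fin 2) (ZMod p)) := by
  set J := Cfsg.thompsonSubgroup p G with hJdef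
  have hH := hyp_J V hV hs hO
  rw [← hJdef] at hH
  have hne : im V J ≠ ⊥ := by
    intro h1
    apply hJ
    intro x hx
    have h2 : (SemidirectProduct.inr (QuotientGroup.mk' (Subgroup.centralizer (V : Set G)) x) : SD V) ∈ im V J := (mem_im V).mpr ⟨x, hx, rfl⟩
    rw [h1, Subgroup.mem_bot] at h2
    have h3 : QuotientGroup.mk' (Subgroup.centralizer (V : Set G)) x = 1 := SemidirectProduct.inr_injective (h2.trans (map_one _).symm)
    exact (QuotientGroup.eq_one_iff _).mp h3
  obtain ⟨a, ha⟩ := hH.exists_min hne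
  obtain ⟨h1, x, hx, hxa⟩ := hH.mo ha
  refine ⟨(h1.pair hx hxa).1, ?_⟩
  obtain ⟨w1, w2, e, -⟩ := h1.nmE ⟨x, hx, hxa⟩
  set E' := EE (KK p (im V J)) a with hE'
  have hE'H : E' ≤ im V J := hH.E_le ha
  have hE'n := (hH.norm ha).2
  let f0 : G →* SD V := SemidirectProduct.inr.comp (QuotientGroup.mk' (Subgroup.centralizer (V : Set G)))
  let E : Subgroup G := E'.comap f0
  have hCE : Subgroup.centralizer (V : Set G) ≤ E := by
    intro c hc
    show f0 c ∈ E'
    have h2 : QuotientGroup.mk' (Subgroup.centralizer (V : Set G)) c = 1 := (QuotientGroup.eq_one_iff _).mpr hc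
    show (SemidirectProduct.inr (QuotientGroup.mk' (Subgroup.centralizer (V : Set G)) c) : SD V) ∈ E'
    rw [h2, map_one]; exact one_mem _
  have hker : ∀ g : G, f0 g = 1 → g ∈ Subgroup.centralizer (V : Set G) := by
    intro g hg
    have h3 : QuotientGroup.mk' (Subgroup.centralizer (V : Set G)) g = 1 := SemidirectProduct.inr_injective (hg.trans (map_one _).symm)
    exact (QuotientGroup.eq_one_iff _).mp h3
  have hEJ : E ≤ J ⊔ Subgroup.centralizer (V : Set G) := by
    intro g hg
    obtain ⟨y, hy, hyg⟩ := (mem_im V).mp (hE'H hg)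
    have h2 : f0 (y⁻¹ * g) = 1 := by
      rw [map_mul, map_inv]
      have : f0 y = f0 g := hyg
      rw [this, inv_mul_cancel]
    have h3 := hker _ h2
    have h4 : g = y * (y⁻¹ * g) := by group
    rw [h4]
    exact Subgroup.mul_mem_sup hy h3
  refine ⟨E, hCE, hEJ, ?_, inferInstance, ?_⟩
  · apply sup_le
    · intro g hg
      apply CfsgLib.H7Basic.mem_normalizer_of_conj_mem
      intro z hz
      show f0 (g * z * g⁻¹) ∈ E'
      rw [map_mul, map_mul, map_inv]
      exact (Subgroup.mem_normalizer_iff.mp (hE'n ((mem_im V).mpr ⟨g, hg, rfl⟩)) _).mp hz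
    · exact hCE.trans Subgroup.le_normalizer
  · let f : E →* E' := (f0.comp E.subtype).codRestrict E' (fun x => x.2)
    have hfs : Function.Surjective f := by
      rintro ⟨y, hy⟩
      obtain ⟨z, hz, rfl⟩ := (mem_im V).mp (hE'H hy)
      exact ⟨⟨z, hy⟩, rfl⟩
    have hfk : f.ker = (Subgroup.centralizer (V : Set G)).subgroupOf E := by
      ext z
      rw [MonoidHom.mem_ker, Subgroup.mem_subgroupOf]
      constructor
      · intro h2
        exact hker _ (congrArg Subtype.val h2)
      · intro h2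
        have h3 : QuotientGroup.mk' (Subgroup.centralizer (V : Set G)) (z : G) = 1 := (QuotientGroup.eq_one_iff _).mpr h2
        apply Subtype.ext
        show (SemidirectProduct.inr (QuotientGroup.mk' (Subgroup.centralizer (V : Set G)) (z : G)) : SD V) = 1
        rw [h3, map_one]
    exact ⟨((QuotientGroup.quotientMulEquivOfEq hfk.symm).trans (QuotientGroup.quotientKerEquivOfSurjective f hfs)).trans e⟩

theorem pCore_quot_bot (V : Subgroup G) [hVn : V.Normal] (hV : V = ⨆ S : Sylow p G, OZ p (S : Subgroup G)) :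
    Cfsg.pCore p (G ⧸ Subgroup.centralizer (V : Set G)) = ⊥ := by
  haveI := LP_normal p (Subgroup.centralizer (V : Set G))
  have h2 : LP p (Subgroup.centralizer (V : Set G)) = Subgroup.centralizer (V : Set G) := by
    have h3 := le_LP p (Subgroup.centralizer (V : Set G))
    have h4 := relIndex_LP (p := p) (Subgroup.centralizer (V : Set G))
    subst hV
    exact S0601 _ inferInstance h3 h4
  rw [Subgroup.eq_bot_iff_forall]
  intro y hy
  obtain ⟨g, rfl⟩ := QuotientGroup.mk'_surjective _ y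
  have h3 : g ∈ LP p (Subgroup.centralizer (V : Set G)) := hy
  rw [h2] at h3
  exact (QuotientGroup.eq_one_iff _).mpr h3

end CfsgLib.BO
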