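import Cfsg.Agent.Lib.BO16

/-! S0619. -/
set_option autoImplicit false
set_option linter.style.haveILetI false
set_option linter.unusedVariables false

namespace CfsgLib.BO

universe u

open CfsgLib CfsgLib.JSub CfsgLib.Coprime CfsgLib.PL2 CfsgLib.PL3 CfsgLib.Dick CfsgLib.ThmA CfsgLib.ZJ4 Subgroup
open scoped commutatorElement

variable {G : Type u} [Group G] [Finite G] {p : ℕ} [hp : Fact p.Prime]

/-- the exact order relation for maximal elementary abelian subgroups -/
theorem max_card (V : Subgroup G) [hVn : V.Normal] (hV : Cfsg.IsElementaryAbelian p V) (hs : Cfsg.IsPSolvable p G)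
    (hO : Cfsg.pCore p (G ⧸ Subgroup.centralizer (V : Set G)) = ⊥) {A : Subgroup G} (hA : A ∈ Cfsg.maxElementaryAbelianSubgroups p G) :
    Nat.card A * Nat.card (V ⊓ Subgroup.centralizer (A : Set G) : Subgroup G) =
      Nat.card V * Nat.card (A ⊓ Subgroup.centralizer (V : Set G) : Subgroup G) := by
  have hH := hyp_J V hV hs hO
  have hAJ : A ≤ Cfsg.thompsonSubgroup p G := le_sSup hA
  have h1 := s0610 hH.hV hH.hHV hH.hf hH.hS1 (im_mono V hAJ) (im_bo V (maxEA_bo V hV A hA))
  have h2 : Nat.card (V' V) = Nat.card V := by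
    symm
    exact Nat.card_congr (MonoidHom.ofInjective SemidirectProduct.inl_injective).toEquiv
  have h3 : Nat.card (im V A) * Nat.card (V ⊓ Subgroup.centralizer (A : Set G) : Subgroup G) = Nat.card V := by
    rw [← card_cent, ← h2]
    exact h1
  have h4 := card_im V A
  calc Nat.card A * Nat.card (V ⊓ Subgroup.centralizer (A : Set G) : Subgroup G)
      = (Nat.card (im V A) * Nat.card (V ⊓ Subgroup.centralizer (A : Set G) : Subgroup G)) * Nat.card (A ⊓ Subgroup.centralizer (V : Set G) : Subgroup G) := by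
        rw [← h4]; ring
    _ = _ := by rw [h3]

theorem s0619 (V : Subgroup G) [hVn : V.Normal] (hV : Cfsg.IsElementaryAbelian p V) (hs : Cfsg.IsPSolvable p G)
    (hO : Cfsg.pCore p (G ⧸ Subgroup.centralizer (V : Set G)) = ⊥) :
    ⁅Cfsg.omegaOne p (Cfsg.centerThompsonOf p (Subgroup.centralizer (V : Set G))), Cfsg.thompsonSubgroup p G⁆ ≤ V := by
  set C := Subgroup.centralizer (V : Set G) with hC
  set Z := Cfsg.omegaOne p (Cfsg.centerThompsonOf p C) with hZ
  have hVe : EA p V := EA_iff.mpr hV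
  have hVC : V ≤ C := by
    intro v hv
    rw [Subgroup.mem_centralizer_iff]
    exact fun w hw => hVe.1 w hw v hv
  have hJc : ∀ x ∈ Cfsg.centerThompsonOf p C, ∀ y ∈ Cfsg.centerThompsonOf p C, x * y = y * x := by
    intro x hx y hy
    exact (Subgroup.mem_centralizer_iff.mp hx.2 y hy.1).symm
  have key : ∀ A ∈ Cfsg.maxElementaryAbelianSubgroups p G, Z ≤ V ⊔ (A ⊓ C) := by
    intro A hA
    have hA' := (maxEA_top p A).mp hA
    have hcard := max_card V hV hs hO hA
    have hEA : EA p (V ⊔ (A ⊓ C)) := EA_sup hVe (hA'.2.1.mono inf_le_left) (Subgroup.le_centralizer_iff.mp inf_le_right)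
    have h1 : A ⊓ C ≤ Subgroup.normalizer (V : Set G) := fun x _ => by
      rw [Subgroup.normalizer_eq_top]; exact Subgroup.mem_top x
    have h2 := card_sup_mul h1
    have h3 : Nat.card (V ⊓ (A ⊓ C) : Subgroup G) ≤ Nat.card (V ⊓ Subgroup.centralizer (A : Set G) : Subgroup G) := by
      apply Nat.card_le_card_of_injective _ (Subgroup.inclusion_injective _)
      intro x hx
      refine Subgroup.mem_inf.mpr ⟨hx.1, ?_⟩
      rw [Subgroup.mem_centralizer_iff]
      exact fun y hy => hA'.2.1.1 y hy x hx.2.1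
    have h4 : 0 < Nat.card (V ⊓ Subgroup.centralizer (A : Set G) : Subgroup G) := Nat.card_pos
    have h5 : Nat.card A ≤ Nat.card (V ⊔ (A ⊓ C) : Subgroup G) := by
      have h6 : Nat.card A * Nat.card (V ⊓ Subgroup.centralizer (A : Set G) : Subgroup G) ≤
          Nat.card (V ⊔ (A ⊓ C) : Subgroup G) * Nat.card (V ⊓ Subgroup.centralizer (A : Set G) : Subgroup G) := by
        rw [hcard, ← h2]
        exact Nat.mul_le_mul_left _ h3
      exact Nat.le_of_mul_le_mul_right h6 h4
    have hmax : V ⊔ (A ⊓ C) ∈ maxEA p C :=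
      ⟨sup_le hVC inf_le_right, hEA, fun B _ hB => (hA'.2.2 B le_top hB).trans h5⟩
    intro z hz
    obtain ⟨hz1, hz2⟩ := (mem_omegaOne_iff hJc).mp hz
    have hzJ : z ∈ J p C := by rw [← J_eq]; exact hz1.1
    apply mem_maxEA_of_centralizes hmax (J_le p C hzJ) hz2
    rw [Subgroup.mem_centralizer_iff]
    intro y hy
    have hyJ : y ∈ J p C := le_J hmax hy
    rw [← J_eq] at hyJ
    exact Subgroup.mem_centralizer_iff.mp hz1.2 y hyJ
  have hJM : Cfsg.thompsonSubgroup p G ≤ (Subgroup.centralizer ((Z.map (QuotientGroup.mk' V) : Subgroup (G ⧸ V)) : Set (G ⧸ V))).comap (QuotientGroup.mk' V) := by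
    apply sSup_le
    intro A hA a ha
    have hA' := (maxEA_top p A).mp hA
    rw [Subgroup.mem_comap, Subgroup.mem_centralizer_iff]
    rintro _ ⟨z, hz, rfl⟩
    obtain ⟨v, hv, c, hc, rfl⟩ := (Subgroup.mem_sup_of_normal_left (s := V)).mp (key A hA hz)
    have h6 : QuotientGroup.mk' V v = 1 := (QuotientGroup.eq_one_iff _).mpr hv
    rw [map_mul, h6, one_mul, ← map_mul, ← map_mul, hA'.2.1.1 c hc.1 a ha]
  rw [Subgroup.commutator_le]
  intro z hz g hg
  have h7 := hJM hg
  rw [Subgroup.mem_comap, Subgroup.mem_centralizer_iff] at h7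
  have h8 := h7 _ ⟨z, hz, rfl⟩
  rw [← QuotientGroup.eq_one_iff]
  show QuotientGroup.mk' V ⁅z, g⁆ = 1
  rw [map_commutatorElement, commutatorElement_eq_one_iff_mul_comm]
  exact h8

end CfsgLib.BO
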