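import Cfsg.Agent.Lib.BO1
import Cfsg.Agent.Lib.PSolvL

/-! Best offenders in groups with self-centralizing `p'`-core. -/
set_option autoImplicit false
set_option linter.style.haveILetI false
set_option linter.unusedVariables false

namespace CfsgLib.BO

universe u

open CfsgLib CfsgLib.JSub CfsgLib.Coprime CfsgLib.PL2 CfsgLib.PL3 Subgroup
open scoped commutatorElement

variable {G : Type u} [Group G] [Finite G] {p : ℕ} [hp : Fact p.Prime] {V H A : Subgroup G}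

/-- the `p'`-core inside `G` -/
def KK (p : ℕ) (H : Subgroup G) : Subgroup G := (Cfsg.pPrimeCore p ↥H).map H.subtype

omit [Finite G] hp in
theorem KK_le : KK p H ≤ H := Subgroup.map_subtype_le _

omit [Finite G] hp in
theorem KK_norm : H ≤ Subgroup.normalizer (KK p H : Set G) := CfsgLib.PSolvL.le_normalizer_map_char

theorem KK_card : (Nat.card (KK p H)).Coprime p := by
  rw [KK, Subgroup.card_map_of_injective H.subtype_injective]
  exact CfsgLib.Core.card_pPrimeCore_coprime p H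

theorem offender_ea (hf : H ⊓ Subgroup.centralizer (V : Set G) = ⊥) (hAH : A ≤ H) (hA : Cfsg.IsBestOffenderOn p V A) :
    Cfsg.IsElementaryAbelian p A := by
  obtain ⟨-, h2, h3⟩ := hA
  rw [CfsgLib.H6PR.ea_iff]
  constructor
  · intro a ha b hb
    have h1 : ⁅a, b⁆ ∈ H ⊓ Subgroup.centralizer (V : Set G) :=
      Subgroup.mem_inf.mpr ⟨by
        rw [commutatorElement_def]
        exact H.mul_mem (H.mul_mem (H.mul_mem (hAH ha) (hAH hb)) (H.inv_mem (hAH ha))) (H.inv_mem (hAH hb)),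
        h2 (Subgroup.commutator_mem_commutator ha hb)⟩
    rw [hf, Subgroup.mem_bot, commutatorElement_eq_one_iff_mul_comm] at h1
    exact h1
  · intro a ha
    have h1 : a ^ p ∈ H ⊓ Subgroup.centralizer (V : Set G) := Subgroup.mem_inf.mpr ⟨H.pow_mem (hAH ha) _, h3 a ha⟩
    rw [hf, Subgroup.mem_bot] at h1
    exact h1

theorem mkCfg (hV : Cfsg.IsElementaryAbelian p V) (hHV : H ≤ Subgroup.normalizer (V : Set G))
    (hf : H ⊓ Subgroup.centralizer (V : Set G) = ⊥)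
    (hS1 : Subgroup.centralizer (Cfsg.pPrimeCore p ↥H : Set ↥H) ≤ Cfsg.pPrimeCore p ↥H)
    (hAH : A ≤ H) (hAe : Cfsg.IsElementaryAbelian p A) : Cfg p V (KK p H) A := by
  have hVe := EA_iff.mpr hV
  have hAp : IsPGroup p A := EA.isPGroup (EA_iff.mpr hAe)
  refine ⟨EA.isPGroup hVe, (CfsgLib.H6PR.ea_iff.1 hV).1, hAe, hAH.trans hHV, KK_le.trans hHV, hAH.trans KK_norm, KK_card, ?_, ?_⟩
  · rw [eq_bot_iff, ← hf]
    exact inf_le_inf_right _ KK_le
  · rw [eq_bot_iff]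
    intro x hx
    obtain ⟨hxA, hxc⟩ := Subgroup.mem_inf.mp hx
    have h1 : (⟨x, hAH hxA⟩ : H) ∈ Subgroup.centralizer (Cfsg.pPrimeCore p ↥H : Set ↥H) := by
      rw [Subgroup.mem_centralizer_iff]
      intro k hk
      exact Subtype.ext (Subgroup.mem_centralizer_iff.mp hxc k ⟨k, hk, rfl⟩)
    have h2 : x ∈ KK p H := ⟨_, hS1 h1, rfl⟩
    have h3 : A ⊓ KK p H = ⊥ := by
      apply CfsgLib.PL3.inf_eq_bot_of_coprime
      obtain ⟨n, hn⟩ := IsPGroup.iff_card.mp hAp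
      rw [hn]
      exact (KK_card.pow_right n).symm
    rw [← h3]
    exact Subgroup.mem_inf.mpr ⟨hxA, h2⟩

theorem mu_bot (V : Subgroup G) : mu V ⊥ = Nat.card V := by unfold mu; rw [cV_bot, Subgroup.card_bot, one_mul]

theorem s0610 (hV : Cfsg.IsElementaryAbelian p V) (hHV : H ≤ Subgroup.normalizer (V : Set G))
    (hf : H ⊓ Subgroup.centralizer (V : Set G) = ⊥)
    (hS1 : Subgroup.centralizer (Cfsg.pPrimeCore p ↥H : Set ↥H) ≤ Cfsg.pPrimeCore p ↥H)
    (hAH : A ≤ H) (hA : Cfsg.IsBestOffenderOn p V A) : mu V A = Nat.card V := by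
  have hc := mkCfg hV hHV hf hS1 hAH (offender_ea hf hAH hA)
  apply le_antisymm hc.mu_le
  have h1 : mu V ⊥ ≤ mu V A := hA.1 ⊥ bot_le
  rwa [mu_bot] at h1

/-- the order of the commutator with a cyclic group -/
theorem card_comm_zpowers {a : G} (hVc : ∀ x ∈ V, ∀ y ∈ V, x * y = y * x) (ha : a ∈ Subgroup.normalizer (V : Set G)) :
    Nat.card (⁅V, Subgroup.zpowers a⁆ : Subgroup G) * Nat.card (cV V (Subgroup.zpowers a)) = Nat.card V := by
  classical
  have hcm : ∀ v ∈ V, a * v * a⁻¹ ∈ V := fun v hv => (Subgroup.mem_normalizer_iff.mp ha v).mp hv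
  let f : V →* G :=
    { toFun := fun v => (v : G) * (a * (v : G)⁻¹ * a⁻¹)
      map_one' := by simp
      map_mul' := by
        intro v w
        have h1 : (a * (v : G)⁻¹ * a⁻¹) ∈ V := hcm _ (V.inv_mem v.2)
        have h2 : (a * (w : G)⁻¹ * a⁻¹) ∈ V := hcm _ (V.inv_mem w.2)
        have h3 := hVc _ h1 _ h2
        have h4 := hVc (w : G) w.2 _ h1
        show ((v : G) * w) * (a * ((v : G) * w)⁻¹ * a⁻¹) = (v : G) * (a * (v : G)⁻¹ * a⁻¹) * ((w : G) * (a * (w : G)⁻¹ * a⁻¹))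
        calc ((v : G) * w) * (a * ((v : G) * w)⁻¹ * a⁻¹) = (v : G) * w * ((a * (w : G)⁻¹ * a⁻¹) * (a * (v : G)⁻¹ * a⁻¹)) := by group
          _ = (v : G) * w * ((a * (v : G)⁻¹ * a⁻¹) * (a * (w : G)⁻¹ * a⁻¹)) := by rw [h3]
          _ = (v : G) * (w * (a * (v : G)⁻¹ * a⁻¹)) * (a * (w : G)⁻¹ * a⁻¹) := by group
          _ = (v : G) * ((a * (v : G)⁻¹ * a⁻¹) * w) * (a * (w : G)⁻¹ * a⁻¹) := by rw [h4]
          _ = (v : G) * (a * (v : G)⁻¹ * a⁻¹) * ((w : G) * (a * (w : G)⁻¹ * a⁻¹)) := by group }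
  have hf_apply : ∀ v : V, f v = (v : G) * (a * (v : G)⁻¹ * a⁻¹) := fun v => rfl
  have hfc : ∀ v : V, f v = ⁅(v : G), a⁆ := by intro v; rw [hf_apply, commutatorElement_def]; group
  have hrange : f.range = ⁅V, Subgroup.zpowers a⁆ := by
    apply le_antisymm
    · rintro _ ⟨v, rfl⟩
      rw [hfc]
      exact Subgroup.commutator_mem_commutator v.2 (Subgroup.mem_zpowers a)
    · have hk : ∀ (n : ℕ) (v : G), v ∈ V → v * (a ^ n * v⁻¹ * (a ^ n)⁻¹) ∈ f.range := by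
        intro n
        induction n with
        | zero => intro v hv; simp
        | succ n ih =>
          intro v hv
          have hv' : a ^ n * v⁻¹ * (a ^ n)⁻¹ ∈ V := by
            have h1 : a ^ n ∈ Subgroup.normalizer (V : Set G) := Subgroup.pow_mem _ ha n
            exact (Subgroup.mem_normalizer_iff.mp h1 _).mp (V.inv_mem hv)
          have h2 : f ⟨_, V.inv_mem hv'⟩ = (a ^ n * v⁻¹ * (a ^ n)⁻¹)⁻¹ * (a * (a ^ n * v⁻¹ * (a ^ n)⁻¹) * a⁻¹) := by
            rw [hf_apply]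
            simp only [inv_inv]
          have h3 := mul_mem (ih v hv) (⟨_, rfl⟩ : f ⟨_, V.inv_mem hv'⟩ ∈ f.range)
          rw [h2] at h3
          have h4 : v * (a ^ n * v⁻¹ * (a ^ n)⁻¹) * ((a ^ n * v⁻¹ * (a ^ n)⁻¹)⁻¹ * (a * (a ^ n * v⁻¹ * (a ^ n)⁻¹) * a⁻¹)) =
              v * (a ^ (n + 1) * v⁻¹ * (a ^ (n + 1))⁻¹) := by
            rw [pow_succ']; group
          rwa [h4] at h3
      rw [Subgroup.commutator_le]
      intro v hv z hz
      obtain ⟨n, rfl⟩ := (mem_powers_iff_mem_zpowers.mpr hz)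
      have h1 : ⁅v, a ^ n⁆ = v * (a ^ n * v⁻¹ * (a ^ n)⁻¹) := by rw [commutatorElement_def]; group
      show ⁅v, a ^ n⁆ ∈ f.range
      rw [h1]
      exact hk n v hv
  have hker : Nat.card f.ker = Nat.card (cV V (Subgroup.zpowers a)) := by
    have h1 : f.ker.map V.subtype = cV V (Subgroup.zpowers a) := by
      ext x
      rw [mem_cV]
      constructor
      · rintro ⟨v, hv, rfl⟩
        refine ⟨v.2, ?_⟩
        have h2 : f v = 1 := hv
        rw [hfc, commutatorElement_eq_one_iff_mul_comm] at h2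
        have h3 : Commute (v : G) a := h2
        intro b hb
        obtain ⟨k, rfl⟩ := Subgroup.mem_zpowers_iff.mp hb
        exact ((h3.zpow_right k).eq).symm
      · rintro ⟨hxV, hx⟩
        refine ⟨⟨x, hxV⟩, ?_, rfl⟩
        show f ⟨x, hxV⟩ = 1
        rw [hfc, commutatorElement_eq_one_iff_mul_comm]
        exact (hx a (Subgroup.mem_zpowers a)).symm
    rw [← h1, Subgroup.card_map_of_injective V.subtype_injective]
  have h1 := Subgroup.card_mul_index f.ker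
  rw [Subgroup.index_ker, hrange, hker] at h1
  rw [mul_comm]; exact h1

theorem small_offender (hV : Cfsg.IsElementaryAbelian p V) (hHV : H ≤ Subgroup.normalizer (V : Set G))
    (hf : H ⊓ Subgroup.centralizer (V : Set G) = ⊥)
    (hS1 : Subgroup.centralizer (Cfsg.pPrimeCore p ↥H : Set ↥H) ≤ Cfsg.pPrimeCore p ↥H)
    (hAH : A ≤ H) (hA : Cfsg.IsBestOffenderOn p V A) {D : Subgroup G} (hD : ¬ A ≤ D) :
    ∃ B, B ≤ A ∧ ¬ B ≤ D ∧ Nat.card B = p ∧ Cfsg.IsBestOffenderOn p V B ∧ ⁅V, B⁆ ≠ ⊥ := by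
  have hc := mkCfg hV hHV hf hS1 hAH (offender_ea hf hAH hA)
  obtain ⟨B, hB1, hB2, hB3, hB4⟩ := hc.exists_small hD
  have h1 := s0610 hV hHV hf hS1 hAH hA
  rw [h1] at hB4
  refine ⟨B, hB1, hB2, hB3, ⟨?_, ?_, ?_⟩, ?_⟩
  · intro B' hB'
    have h2 : Nat.card B' ∣ p := by rw [← hB3]; exact Subgroup.card_dvd_of_le hB'
    rcases (Nat.dvd_prime hp.out).mp h2 with h3 | h3
    · have h4 : B' = ⊥ := Subgroup.eq_bot_of_card_eq _ h3
      subst h4
      show mu V ⊥ ≤ mu V B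
      rw [mu_bot]; exact hB4
    · have h4 : B' = B := Subgroup.eq_of_le_of_card_ge hB' (by rw [h3, hB3])
      rw [h4]
  · exact (Subgroup.commutator_mono hB1 hB1).trans hA.2.1
  · exact fun a ha => hA.2.2 a (hB1 ha)
  · intro h2
    rw [Subgroup.commutator_comm, Subgroup.commutator_eq_bot_iff_le_centralizer] at h2
    have h3 : B ≤ ⊥ := by
      rw [← hf]
      exact le_inf (hB1.trans hAH) h2
    exact hB2 (h3.trans bot_le)

theorem s0611 (hV : Cfsg.IsElementaryAbelian p V) (hHV : H ≤ Subgroup.normalizer (V : Set G))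
    (hf : H ⊓ Subgroup.centralizer (V : Set G) = ⊥)
    (hS1 : Subgroup.centralizer (Cfsg.pPrimeCore p ↥H : Set ↥H) ≤ Cfsg.pPrimeCore p ↥H)
    (hAH : A ≤ H) (hA : Cfsg.IsBestOffenderOn p V A) (hAV : ⁅V, A⁆ ≠ ⊥)
    (hmin : ∀ B : Subgroup G, B ≤ A → Cfsg.IsBestOffenderOn p V B → ⁅V, B⁆ ≠ ⊥ → B = A) :
    Nat.card A = p ∧ Nat.card ↥(⁅V, A⁆) = p ∧ (cV V A).relIndex V = p ∧ p * Nat.card (cV V A) = Nat.card V := by
  have hAb : ¬ A ≤ ⊥ := by
    intro h
    apply hAV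
    rw [le_bot_iff.mp h, Subgroup.commutator_bot_right]
  obtain ⟨B, hB1, hB2, hB3, hB4, hB5⟩ := small_offender hV hHV hf hS1 hAH hA hAb
  have h1 := hmin B hB1 hB4 hB5
  subst h1
  have h2 := s0610 hV hHV hf hS1 hAH hA
  unfold mu at h2
  rw [hB3] at h2
  have h3 := CfsgLib.PL1.relIndex_mul_card (cV_le V B)
  have h4 : 0 < Nat.card (cV V B) := Nat.card_pos
  refine ⟨hB3, ?_, ?_, h2⟩
  · haveI : IsCyclic B := isCyclic_of_prime_card hB3
    obtain ⟨a, ha⟩ := (Subgroup.isCyclic_iff_exists_zpowers_eq_top B).mp this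
    have haB : a ∈ B := by rw [← ha]; exact Subgroup.mem_zpowers a
    have h5 := card_comm_zpowers (CfsgLib.H6PR.ea_iff.1 hV).1 (hHV (hAH haB))
    rw [ha, ← h2] at h5
    exact Nat.eq_of_mul_eq_mul_right h4 h5
  · rw [← h2] at h3
    exact Nat.eq_of_mul_eq_mul_right h4 h3

/-- extension of independent families -/
theorem indep_cons {A : Subgroup G} (hAc : ∀ x ∈ A, ∀ y ∈ A, x * y = y * x) {k : ℕ} {B : Fin k → Subgroup G} (hB : ∀ i, B i ≤ A)
    (hi : iSupIndep B) {T : Subgroup G} (hTA : T ≤ A) (hT : T ⊓ (⨆ i, B i) = ⊥) :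
    iSupIndep (Fin.cons T B : Fin (k + 1) → Subgroup G) ∧ ⨆ i, (Fin.cons T B : Fin (k + 1) → Subgroup G) i = T ⊔ ⨆ i, B i := by
  have hS : (⨆ i, B i) ≤ A := iSup_le hB
  have hsup : ⨆ i, (Fin.cons T B : Fin (k + 1) → Subgroup G) i = T ⊔ ⨆ i, B i := by
    apply le_antisymm
    · apply iSup_le
      intro i
      refine Fin.cases ?_ (fun i => ?_) i
      · exact le_sup_left
      · exact (le_iSup B i).trans le_sup_right
    · apply sup_le
      · exact le_iSup (Fin.cons T B : Fin (k + 1) → Subgroup G) 0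
      · exact iSup_le fun i => le_iSup (Fin.cons T B : Fin (k + 1) → Subgroup G) i.succ
  refine ⟨?_, hsup⟩
  intro i
  refine Fin.cases ?_ (fun i => ?_) i
  · rw [disjoint_iff, eq_bot_iff, ← hT]
    apply inf_le_inf_left
    apply iSup₂_le
    intro j hj
    obtain ⟨j, rfl⟩ := Fin.exists_succ_eq.mpr hj
    exact le_iSup B j
  · rw [disjoint_iff, eq_bot_iff]
    have h1 : (⨆ j, ⨆ (_ : j ≠ i.succ), (Fin.cons T B : Fin (k + 1) → Subgroup G) j) ≤ T ⊔ ⨆ j, ⨆ (_ : j ≠ i), B j := by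
      apply iSup₂_le
      intro j
      refine Fin.cases ?_ (fun j => ?_) j
      · intro _; exact le_sup_left
      · intro hj
        have hji : j ≠ i := fun h => hj (by rw [h])
        exact (le_iSup₂ (f := fun j (_ : j ≠ i) => B j) j hji).trans le_sup_right
    intro x hx
    obtain ⟨hx1, hx2⟩ := Subgroup.mem_inf.mp hx
    have hx1' : x ∈ B i := hx1
    have hx3 := h1 hx2
    set S' := ⨆ j, ⨆ (_ : j ≠ i), B j with hS'
    have hS'S : S' ≤ ⨆ i, B i := iSup₂_le fun j _ => le_iSup B j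
    have hnorm : T ≤ Subgroup.normalizer (S' : Set G) := by
      intro b hb
      apply CfsgLib.H7Basic.mem_normalizer_of_conj_mem
      intro a ha
      rw [hAc b (hTA hb) a (hS (hS'S ha)), mul_inv_cancel_right]; exact ha
    rw [sup_comm] at hx3
    obtain ⟨s, hs, t, ht, hst⟩ := (CfsgLib.Coprime.mem_sup_iff hnorm x).mp hx3
    have h2 : t ∈ T ⊓ ⨆ i, B i := by
      refine Subgroup.mem_inf.mpr ⟨ht, ?_⟩
      have h3 : t = s⁻¹ * x := by rw [← hst]; group
      rw [h3]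
      exact mul_mem (inv_mem (hS'S hs)) (le_iSup B i hx1')
    rw [hT, Subgroup.mem_bot] at h2
    rw [h2, mul_one] at hst
    have h4 := (hi i).le_bot (Subgroup.mem_inf.mpr ⟨hx1', by rw [← hst]; exact hs⟩)
    exact h4

theorem s0612 (hV : Cfsg.IsElementaryAbelian p V) (hHV : H ≤ Subgroup.normalizer (V : Set G))
    (hf : H ⊓ Subgroup.centralizer (V : Set G) = ⊥)
    (hS1 : Subgroup.centralizer (Cfsg.pPrimeCore p ↥H : Set ↥H) ≤ Cfsg.pPrimeCore p ↥H)
    (hAH : A ≤ H) (hA : Cfsg.IsBestOffenderOn p V A) :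
    ∃ (k : ℕ) (B : Fin k → Subgroup G), (∀ i, B i ≤ A ∧ Cfsg.IsBestOffenderOn p V (B i) ∧ ⁅V, B i⁆ ≠ ⊥ ∧
      ∀ C : Subgroup G, C ≤ B i → Cfsg.IsBestOffenderOn p V C → ⁅V, C⁆ ≠ ⊥ → C = B i) ∧ iSupIndep B ∧ ⨆ i, B i = A := by
  classical
  have hAe := offender_ea hf hAH hA
  have hAc := (CfsgLib.H6PR.ea_iff.1 hAe).1
  obtain ⟨S, ⟨k, B, hB1, hB2, hB3⟩, hmax⟩ := Set.exists_max_image {S : Subgroup G | ∃ (k : ℕ) (B : Fin k → Subgroup G), (∀ i, B i ≤ A ∧ Cfsg.IsBestOffenderOn p V (B i) ∧ ⁅V, B i⁆ ≠ ⊥ ∧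
      ∀ C : Subgroup G, C ≤ B i → Cfsg.IsBestOffenderOn p V C → ⁅V, C⁆ ≠ ⊥ → C = B i) ∧ iSupIndep B ∧ ⨆ i, B i = S}
    (fun S => Nat.card S) (Set.toFinite _) ⟨⊥, 0, fun i => i.elim0, fun i => i.elim0, fun i => i.elim0, by simp⟩
  have hSA : S ≤ A := by rw [← hB3]; exact iSup_le fun i => (hB1 i).1
  refine ⟨k, B, hB1, hB2, ?_⟩
  rw [hB3]
  apply le_antisymm hSA
  by_contra hn
  obtain ⟨T, hT1, hT2, hT3, hT4, hT5⟩ := small_offender hV hHV hf hS1 hAH hA hn
  have hTS : T ⊓ S = ⊥ := by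
    have h2 : Nat.card (T ⊓ S : Subgroup G) ∣ p := by rw [← hT3]; exact Subgroup.card_dvd_of_le inf_le_left
    rcases (Nat.dvd_prime hp.out).mp h2 with h3 | h3
    · exact Subgroup.eq_bot_of_card_eq _ h3
    · exfalso
      apply hT2
      have h4 : T ⊓ S = T := Subgroup.eq_of_le_of_card_ge inf_le_left (by rw [h3, hT3])
      rw [← h4]; exact inf_le_right
  obtain ⟨h1, h2⟩ := indep_cons hAc (fun i => (hB1 i).1) hB2 hT1 (by rw [hB3]; exact hTS)
  have h3 := hmax (T ⊔ S) ⟨k + 1, Fin.cons T B, ?_, h1, by rw [h2, hB3]⟩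
  · have h4 : S < T ⊔ S := by
      refine lt_of_le_of_ne le_sup_right ?_
      intro he
      apply hT2
      rw [he]; exact le_sup_left
    exact absurd (CfsgLib.H7Basic.card_lt_card_of_lt h4) (not_lt.mpr h3)
  · intro i
    refine Fin.cases ?_ (fun i => ?_) i
    · refine ⟨hT1, hT4, hT5, ?_⟩
      intro C hC _ hC2
      have h5 : Nat.card C ∣ p := by rw [← hT3]; exact Subgroup.card_dvd_of_le hC
      rcases (Nat.dvd_prime hp.out).mp h5 with h6 | h6
      · exfalso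
        apply hC2
        rw [Subgroup.eq_bot_of_card_eq _ h6, Subgroup.commutator_bot_right]
      · exact Subgroup.eq_of_le_of_card_ge hC (by rw [h6]; exact hT3.le)
    · exact hB1 i

end CfsgLib.BO
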