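import Cfsg.Agent.Lib.ThmA7
import Cfsg.Agent.Lib.BaerSuzuki
import Cfsg.Agent.Lib.PChain
import Cfsg.Agent.Lib.Core

set_option autoImplicit false
open Cfsg

namespace CfsgLib.QuadPair

open CfsgLib.ThmA
open scoped commutatorElement

variable {p : ℕ} [hp : Fact p.Prime]

theorem el_pgroup {G : Type*} [Group G] {V : Subgroup G} (hV : Cfsg.IsElementaryAbelian p V) : IsPGroup p V := by
  intro v
  refine ⟨1, ?_⟩
  rw [pow_one]
  exact Subtype.ext (hV.2 v v.2)

theorem quad_sl2 {G : Type*} [Group G] [Finite G] (hp2 : p ≠ 2) {V : Subgroup G} (hV : IsPGroup p V) {a b : G}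
    (haN : a ∈ Subgroup.normalizer (V : Set G)) (hbN : b ∈ Subgroup.normalizer (V : Set G))
    (hf : Subgroup.closure ({a, b} : Set G) ⊓ Subgroup.centralizer (V : Set G) = ⊥)
    (ha : ⁅⁅V, Subgroup.zpowers a⁆, Subgroup.zpowers a⁆ = ⊥) (hb : ⁅⁅V, Subgroup.zpowers b⁆, Subgroup.zpowers b⁆ = ⊥)
    (hnp : ¬ IsPGroup p (Subgroup.closure ({a, b} : Set G))) :
    ∃ (K : Subgroup G) (f : K →* Matrix.SpecialLinearGroup (Fin 2) (ZMod p)), K ≤ Subgroup.closure ({a, b} : Set G) ∧ Function.Surjective f := by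
  have h1 : NatSec p V (Subgroup.closure ({a, b} : Set G)) := by
    apply natSec_of_not_pgroup hp2 hV haN hbN ha hb
    intro h
    apply hnp
    intro x
    obtain ⟨n, hn⟩ := h x x.2
    refine ⟨n, ?_⟩
    have h2 : (x : G) ^ p ^ n ∈ Subgroup.closure ({a, b} : Set G) ⊓ Subgroup.centralizer (V : Set G) := ⟨Subgroup.pow_mem _ x.2 _, hn⟩
    rw [hf, Subgroup.mem_bot] at h2
    exact Subtype.ext h2
  obtain ⟨K, f, hK, hf', -⟩ := surj_sl2_of_natSec h1
  exact ⟨K, f, hK, hf'⟩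

theorem involves_of {G : Type*} [Group G] {A : Type*} [Group A] {K H : Subgroup G} (hKH : K ≤ H) (f : K →* A) (hf : Function.Surjective f) :
    Cfsg.Involves A H := by
  have e : (K.subgroupOf H) ≃* K := Subgroup.subgroupOfEquivOfLe hKH
  exact CfsgLib.Inv.of_surj (f.comp e.toMonoidHom) (hf.comp e.surjective)

theorem not_comm {G : Type*} [Group G] [Finite G] (hp2 : p ≠ 2) {K H : Subgroup G} (hKH : K ≤ H)
    (f : K →* Matrix.SpecialLinearGroup (Fin 2) (ZMod p)) (hf : Function.Surjective f) (T : Sylow 2 H) : ¬ IsMulCommutative T := by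
  haveI : Fact (Nat.Prime 2) := ⟨Nat.prime_two⟩
  intro hT
  refine free_of_sylow_two hp2 ?_ (involves_of hKH f hf)
  intro T'
  have e : T' ≃* T := Sylow.equiv T' T
  constructor
  constructor
  intro x y
  apply e.injective
  rw [map_mul, map_mul]
  exact hT.is_comm.comm _ _

theorem sec_three {G : Type*} [Group G] [Finite G] (hp2 : p ≠ 2) {K H : Subgroup G} (hKH : K ≤ H)
    (f : K →* Matrix.SpecialLinearGroup (Fin 2) (ZMod p)) (hf : Function.Surjective f) (hs : Cfsg.IsPSolvable p K) :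
    p = 3 ∧ ∃ (K L : Subgroup G) (_hL : (L.subgroupOf K).Normal), K ≤ H ∧ Nonempty ((K ⧸ L.subgroupOf K) ≃* Matrix.SpecialLinearGroup (Fin 2) (ZMod 3)) := by
  have h5 : ¬ 5 ≤ p := fun h => sl2_not_psolvable h (CfsgLib.PSolvL.isPSolvable_map f hf hs)
  have h3 : p = 3 := by
    have := hp.out.two_le
    have h4 : p ≠ 4 := by rintro rfl; exact absurd hp.out (by norm_num)
    omega
  subst h3
  refine ⟨rfl, K, f.ker.map K.subtype, ?_, hKH, ?_⟩
  · have : (f.ker.map K.subtype).subgroupOf K = f.ker := Subgroup.comap_map_eq_self_of_injective K.subtype_injective _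
    rw [this]; infer_instance
  · have : (f.ker.map K.subtype).subgroupOf K = f.ker := Subgroup.comap_map_eq_self_of_injective K.subtype_injective _
    haveI h9 : ((f.ker.map K.subtype).subgroupOf K).Normal := by rw [this]; infer_instance
    exact ⟨(QuotientGroup.quotientMulEquivOfEq this).trans (QuotientGroup.quotientKerEquivOfSurjective f hf)⟩

/-- Baer–Suzuki inside a subgroup. -/
theorem exists_pair {G : Type*} [Group G] [Finite G] {H : Subgroup G} {a : G} (haH : a ∈ H)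
    (hna : a ∉ (Cfsg.pCore p H).map H.subtype) : ∃ g ∈ H, ¬ IsPGroup p (Subgroup.closure ({a, g * a * g⁻¹} : Set G)) := by
  by_contra hc
  push Not at hc
  apply hna
  obtain ⟨N, hN, hNp, haN⟩ := CfsgLib.BaerSuzuki.baer_suzuki_elt (p := p) (⟨a, haH⟩ : H) (by
    intro g
    have h1 := hc g g.2
    have h2 : (Subgroup.closure ({⟨a, haH⟩, g * ⟨a, haH⟩ * g⁻¹} : Set H)).map H.subtype = Subgroup.closure ({a, (g : G) * a * (g : G)⁻¹} : Set G) := by
      rw [MonoidHom.map_closure]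
      congr 1
      rw [Set.image_insert_eq, Set.image_singleton]
      rfl
    rw [← h2] at h1
    exact h1.of_equiv (Subgroup.equivMapOfInjective _ _ H.subtype_injective).symm)
  exact ⟨⟨a, haH⟩, (le_sSup (show N ∈ {N : Subgroup H | N.Normal ∧ IsPGroup p N} from ⟨hN, hNp⟩) : N ≤ Cfsg.pCore p H) haN, rfl⟩

theorem conj_quad {G : Type*} [Group G] {V : Subgroup G} {a g : G} (hg : g ∈ Subgroup.normalizer (V : Set G))
    (ha : ⁅⁅V, Subgroup.zpowers a⁆, Subgroup.zpowers a⁆ = ⊥) :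
    ⁅⁅V, Subgroup.zpowers (g * a * g⁻¹)⁆, Subgroup.zpowers (g * a * g⁻¹)⁆ = ⊥ := by
  have h1 : V.map (MulAut.conj g).toMonoidHom = V := by
    apply le_antisymm
    · rintro _ ⟨v, hv, rfl⟩
      exact (Subgroup.mem_normalizer_iff.mp hg v).mp hv
    · intro v hv
      exact ⟨g⁻¹ * v * g, by simpa using (Subgroup.mem_normalizer_iff.mp (Subgroup.inv_mem _ hg) v).mp hv, by simp [mul_assoc]⟩
  have h2 : (Subgroup.zpowers a).map (MulAut.conj g).toMonoidHom = Subgroup.zpowers (g * a * g⁻¹) := by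
    rw [MonoidHom.map_zpowers]; rfl
  have h3 := congrArg (Subgroup.map (MulAut.conj g).toMonoidHom) ha
  rw [Subgroup.map_commutator, Subgroup.map_commutator, h1, h2, Subgroup.map_bot] at h3
  exact h3

theorem main {G : Type*} [Group G] [Finite G] (hp2 : p ≠ 2) {V H : Subgroup G} (hV : IsPGroup p V)
    (hHV : H ≤ Subgroup.normalizer (V : Set G)) (hf : H ⊓ Subgroup.centralizer (V : Set G) = ⊥) {a : G} (haH : a ∈ H)
    (hq : ⁅⁅V, Subgroup.zpowers a⁆, Subgroup.zpowers a⁆ = ⊥) (hna : a ∉ (Cfsg.pCore p H).map H.subtype) :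
    ∃ (K : Subgroup G) (f : K →* Matrix.SpecialLinearGroup (Fin 2) (ZMod p)), K ≤ H ∧ Function.Surjective f := by
  obtain ⟨g, hg, hgn⟩ := exists_pair haH hna
  have hle : Subgroup.closure ({a, g * a * g⁻¹} : Set G) ≤ H := by
    rw [Subgroup.closure_le]
    rintro x (rfl | hx)
    · exact haH
    · rw [Set.mem_singleton_iff.mp hx]
      exact H.mul_mem (H.mul_mem hg haH) (H.inv_mem hg)
  obtain ⟨K, f, hK, hf'⟩ := quad_sl2 hp2 hV (hHV haH) (hHV (H.mul_mem (H.mul_mem hg haH) (H.inv_mem hg)))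
    (by rw [eq_bot_iff, ← hf]; exact inf_le_inf_right _ hle) hq (conj_quad (hHV hg) hq) hgn
  exact ⟨K, f, hK.trans hle, hf'⟩

theorem psolv_sup {G : Type*} [Group G] [Finite G] {Q : Subgroup G} {a : G} (haQ : a ∈ Subgroup.normalizer (Q : Set G))
    (hQ : (Nat.card Q).Coprime p) {n : ℕ} (ha : a ^ p ^ n = 1) : Cfsg.IsPSolvable p (Q ⊔ Subgroup.zpowers a : Subgroup G) := by
  set X := Q ⊔ Subgroup.zpowers a with hX
  have hQX : Q ≤ X := le_sup_left
  have haX : a ∈ X := (le_sup_right : Subgroup.zpowers a ≤ X) (Subgroup.mem_zpowers a)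
  have hXQ : X ≤ Subgroup.normalizer (Q : Set G) := sup_le Subgroup.le_normalizer (Subgroup.zpowers_le.mpr haQ)
  haveI hN : (Q.subgroupOf X).Normal := Subgroup.normal_subgroupOf_iff_le_normalizer hQX |>.mpr hXQ
  have hcard : Nat.card (Q.subgroupOf X) = Nat.card Q := Nat.card_congr (Subgroup.subgroupOfEquivOfLe hQX).toEquiv
  rw [CfsgLib.PChain.isPSolvable_iff]
  refine CfsgLib.PChain.Reach.step (Q.subgroupOf X) ⊤ (CfsgLib.PChain.Reach.step ⊥ (Q.subgroupOf X) CfsgLib.PChain.Reach.bot hN bot_le (Or.inr ?_)) inferInstance le_top (Or.inl ?_)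
  · rw [Subgroup.relIndex_bot_left, hcard]; exact hQ
  · rw [Subgroup.relIndex_top_right, Subgroup.index]
    have h1 : IsPGroup p (X ⧸ Q.subgroupOf X) := by
      have h2 : (⊤ : Subgroup (X ⧸ Q.subgroupOf X)) = Subgroup.zpowers (QuotientGroup.mk' _ (⟨a, haX⟩ : X)) := by
        rw [eq_comm, eq_top_iff]
        have h3 : X ≤ ((Subgroup.zpowers (QuotientGroup.mk' (Q.subgroupOf X) (⟨a, haX⟩ : X))).comap (QuotientGroup.mk' (Q.subgroupOf X))).map X.subtype := by
          nth_rewrite 1 [hX]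
          apply sup_le
          · intro q hq
            refine ⟨⟨q, hQX hq⟩, ?_, rfl⟩
            have h4 : QuotientGroup.mk' (Q.subgroupOf X) (⟨q, hQX hq⟩ : X) = 1 := by
              rw [QuotientGroup.mk'_apply, QuotientGroup.eq_one_iff]; exact hq
            show QuotientGroup.mk' (Q.subgroupOf X) (⟨q, hQX hq⟩ : X) ∈ Subgroup.zpowers (QuotientGroup.mk' (Q.subgroupOf X) (⟨a, haX⟩ : X))
            rw [h4]; exact Subgroup.one_mem _
          · rw [Subgroup.zpowers_le]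
            exact ⟨⟨a, haX⟩, Subgroup.mem_zpowers _, rfl⟩
        intro y _
        obtain ⟨x, rfl⟩ := QuotientGroup.mk'_surjective _ y
        obtain ⟨x', hx', hxx⟩ := h3 x.2
        have : x' = x := Subtype.ext hxx
        rw [← this]; exact hx'
      have h5 : ∀ y : X ⧸ Q.subgroupOf X, y ^ p ^ n = 1 := by
        intro y
        have hy : y ∈ (⊤ : Subgroup (X ⧸ Q.subgroupOf X)) := Subgroup.mem_top y
        rw [h2] at hy
        obtain ⟨k, rfl⟩ := Subgroup.mem_zpowers_iff.mp hy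
        rw [← zpow_natCast, ← zpow_mul, mul_comm, zpow_mul, zpow_natCast, ← map_pow]
        have h6 : (⟨a, haX⟩ : X) ^ p ^ n = 1 := Subtype.ext ha
        rw [h6, map_one, one_zpow]
      exact fun y => ⟨n, h5 y⟩
    obtain ⟨m, hm⟩ := IsPGroup.iff_card.mp h1
    exact ⟨m, hm⟩

theorem main594 {G : Type*} [Group G] [Finite G] (hp2 : p ≠ 2) {V H : Subgroup G} (hV : IsPGroup p V)
    (hHV : H ≤ Subgroup.normalizer (V : Set G)) (hf : H ⊓ Subgroup.centralizer (V : Set G) = ⊥) {a : G} (haH : a ∈ H)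
    (hq : ⁅⁅V, Subgroup.zpowers a⁆, Subgroup.zpowers a⁆ = ⊥) {Q : Subgroup G} (hQH : Q ≤ H)
    (hQn : H ≤ Subgroup.normalizer (Q : Set G)) (hQ : (Nat.card Q).Coprime p) (hQa : ⁅Q, Subgroup.zpowers a⁆ ≠ ⊥) :
    p = 3 ∧ ∃ (K L : Subgroup G) (_hL : (L.subgroupOf K).Normal), K ≤ H ∧ Nonempty ((K ⧸ L.subgroupOf K) ≃* Matrix.SpecialLinearGroup (Fin 2) (ZMod 3)) := by
  obtain ⟨n, hn⟩ := CfsgLib.PSt.quad_pow hV (hHV haH) hq
  have ha : a ^ p ^ n = 1 := by
    have h2 : a ^ p ^ n ∈ H ⊓ Subgroup.centralizer (V : Set G) := ⟨Subgroup.pow_mem _ haH _, hn⟩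
    rw [hf, Subgroup.mem_bot] at h2
    exact h2
  have hXs := psolv_sup (hQn haH) hQ ha
  have hle : Q ⊔ Subgroup.zpowers a ≤ H := sup_le hQH (Subgroup.zpowers_le.mpr haH)
  have haX : a ∈ Q ⊔ Subgroup.zpowers a := (le_sup_right : Subgroup.zpowers a ≤ Q ⊔ Subgroup.zpowers a) (Subgroup.mem_zpowers a)
  obtain ⟨K, f, hK, hf'⟩ := main (a := a) hp2 (H := Q ⊔ Subgroup.zpowers a) hV (hle.trans hHV)
    (by rw [eq_bot_iff, ← hf]; exact inf_le_inf_right _ hle) haX hq (by
      intro h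
      apply hQa
      set X := Q ⊔ Subgroup.zpowers a with hX
      set P := (Cfsg.pCore p X).map X.subtype with hP
      have hPn : X ≤ Subgroup.normalizer (P : Set G) := by
        have : (Cfsg.pCore p X).Normal := Subgroup.sSup_normal _ (fun _ h => h.1)
        exact CfsgLib.PSolvL.le_normalizer_map_char
      have hPp : IsPGroup p P := by
        have : IsPGroup p (Cfsg.pCore p X) := CfsgLib.Core.pCore_isPGroup p X
        exact this.map _
      have h1 : ⁅Q, Subgroup.zpowers a⁆ ≤ Q ⊓ P := by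
        rw [Subgroup.commutator_le]
        intro q hq z hz
        refine ⟨?_, ?_⟩
        · have h3 : z ∈ Subgroup.normalizer (Q : Set G) := (Subgroup.zpowers_le.mpr (hQn haH)) hz
          have h4 : z * q⁻¹ * z⁻¹ ∈ Q := (Subgroup.mem_normalizer_iff.mp h3 _).mp (Q.inv_mem hq)
          have h5 : ⁅q, z⁆ = q * (z * q⁻¹ * z⁻¹) := by rw [commutatorElement_def]; group
          rw [h5]; exact Q.mul_mem hq h4
        · have h3 : q ∈ Subgroup.normalizer (P : Set G) := hPn ((le_sup_left : Q ≤ X) hq)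
          have hzP : z ∈ P := (Subgroup.zpowers_le.mpr h) hz
          have h4 : q * z * q⁻¹ ∈ P := (Subgroup.mem_normalizer_iff.mp h3 _).mp hzP
          rw [commutatorElement_def]
          exact P.mul_mem h4 (P.inv_mem hzP)
      have h2 : Q ⊓ P = ⊥ := by
        apply Subgroup.inf_eq_bot_of_coprime
        obtain ⟨k, hk⟩ := IsPGroup.iff_card.mp hPp
        rw [hk]
        exact hQ.pow_right k
      rw [eq_bot_iff, ← h2]; exact h1)
  exact sec_three hp2 (hK.trans hle) f hf' (CfsgLib.PSolvL.isPSolvable_of_le hK hXs)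

end CfsgLib.QuadPair
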