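import Cfsg.Agent.Lib.BO2
import Cfsg.Agent.Lib.QuadPair

/-! Transvection pairs generate `SL(2,p)`. -/
set_option autoImplicit false
set_option linter.style.haveILetI false
set_option linter.unusedVariables false

namespace CfsgLib.BO

universe u

open CfsgLib CfsgLib.JSub CfsgLib.Coprime CfsgLib.PL2 CfsgLib.PL3 CfsgLib.Dick CfsgLib.ThmA Subgroup
open scoped commutatorElement

variable {G : Type u} [Group G] {p : ℕ} [hp : Fact p.Prime]

/-- coordinates -/
def th (w1 w2 : G) (c : Fin 2 → ZMod p) : G := w1 ^ (c 0).val * w2 ^ (c 1).val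

theorem th_add {w1 w2 : G} (h1 : w1 ^ p = 1) (h2 : w2 ^ p = 1) (hc : w1 * w2 = w2 * w1) (c d : Fin 2 → ZMod p) :
    th w1 w2 (c + d) = th w1 w2 c * th w1 w2 d := by
  unfold th
  rw [Pi.add_apply, Pi.add_apply, pow_val_add h1, pow_val_add h2, pow_add, pow_add]
  have h3 : Commute w1 w2 := hc
  have h4 := (h3.pow_pow (d 0).val (c 1).val).eq
  calc w1 ^ (c 0).val * w1 ^ (d 0).val * (w2 ^ (c 1).val * w2 ^ (d 1).val)
      = w1 ^ (c 0).val * (w1 ^ (d 0).val * w2 ^ (c 1).val) * w2 ^ (d 1).val := by group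
    _ = w1 ^ (c 0).val * (w2 ^ (c 1).val * w1 ^ (d 0).val) * w2 ^ (d 1).val := by rw [h4]
    _ = _ := by group

theorem th_inj {w1 w2 : G} (h1 : w1 ^ p = 1) (h2 : w2 ^ p = 1) (hc : w1 * w2 = w2 * w1) (hn1 : w1 ≠ 1)
    (hi : ∀ k : ℕ, w2 ^ k ∈ Subgroup.zpowers w1 → w2 ^ k = 1) (hn2 : w2 ≠ 1) : Function.Injective (th (p := p) w1 w2) := by
  have ho1 : orderOf w1 = p := orderOf_eq_prime h1 hn1
  have ho2 : orderOf w2 = p := orderOf_eq_prime h2 hn2
  have hz : ∀ c : Fin 2 → ZMod p, th w1 w2 c = 1 → c = 0 := by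
    intro c hcz
    unfold th at hcz
    have h3 : w2 ^ (c 1).val = (w1 ^ (c 0).val)⁻¹ := (inv_eq_of_mul_eq_one_right hcz).symm
    have h4 := hi _ (by rw [h3]; exact inv_mem (Subgroup.npow_mem_zpowers w1 _))
    have h5 : w1 ^ (c 0).val = 1 := by rw [h4, mul_one] at hcz; exact hcz
    have h6 := orderOf_dvd_of_pow_eq_one h4
    have h7 := orderOf_dvd_of_pow_eq_one h5
    rw [ho2] at h6
    rw [ho1] at h7
    have h8 := Nat.eq_zero_of_dvd_of_lt h6 (ZMod.val_lt _)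
    have h9 := Nat.eq_zero_of_dvd_of_lt h7 (ZMod.val_lt _)
    funext i
    fin_cases i
    · exact (ZMod.val_eq_zero _).mp h9
    · exact (ZMod.val_eq_zero _).mp h8
  intro c d h
  have h3 : th w1 w2 (c - d) * th w1 w2 d = th w1 w2 c := by rw [← th_add h1 h2 hc, sub_add_cancel]
  rw [h] at h3
  have h4 : th w1 w2 (c - d) = 1 := by
    have := mul_right_cancel (b := th w1 w2 d) (h3.trans (one_mul _).symm)
    exact this
  exact sub_eq_zero.mp (hz _ h4)

theorem sl2_of_coords {a b w1 w2 : G} (h1 : w1 ^ p = 1) (h2 : w2 ^ p = 1) (hc : w1 * w2 = w2 * w1) (hn1 : w1 ≠ 1)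
    (hi : ∀ k : ℕ, w2 ^ k ∈ Subgroup.zpowers w1 → w2 ^ k = 1) (hn2 : w2 ≠ 1)
    (ha1 : a * w1 * a⁻¹ = w1) (ha2 : a * w2 * a⁻¹ = w1 * w2) (hb1 : b * w1 * b⁻¹ = w1 * w2) (hb2 : b * w2 * b⁻¹ = w2)
    (hf : ∀ x ∈ Subgroup.closure ({a, b} : Set G), x * w1 * x⁻¹ = w1 → x * w2 * x⁻¹ = w2 → x = 1) :
    Nonempty (Subgroup.closure ({a, b} : Set G) ≃* Matrix.SpecialLinearGroup (Fin 2) (ZMod p)) := by
  classical
  have hcc : Commute w1 w2 := hc
  have hinj := th_inj (p := p) h1 h2 hc hn1 hi hn2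
  have hval : ∀ i j : ZMod p, w1 ^ (i + j).val = w1 ^ i.val * w1 ^ j.val := fun i j => by rw [pow_val_add h1, pow_add]
  have hval2 : ∀ i j : ZMod p, w2 ^ (i + j).val = w2 ^ i.val * w2 ^ j.val := fun i j => by rw [pow_val_add h2, pow_add]
  set ua : SL2 (ZMod p) := mk2 (1 : ZMod p) 1 0 1 (by ring) with hua
  set ub : SL2 (ZMod p) := mk2 (1 : ZMod p) 0 1 1 (by ring) with hub
  have hmv : ∀ (M : SL2 (ZMod p)) (c : Fin 2 → ZMod p), (M : Matrix (Fin 2) (Fin 2) (ZMod p)).mulVec c = ![M 0 0 * c 0 + M 0 1 * c 1, M 1 0 * c 0 + M 1 1 * c 1] := by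
    intro M c
    funext i
    fin_cases i
    · simp [Matrix.mulVec, dotProduct, Fin.sum_univ_two]
    · simp [Matrix.mulVec, dotProduct, Fin.sum_univ_two]
  let r : G → SL2 (ZMod p) → Prop := fun x M => ∀ c, x * th w1 w2 c * x⁻¹ = th w1 w2 ((M : Matrix (Fin 2) (Fin 2) (ZMod p)).mulVec c)
  have hra : r a ua := by
    intro c
    rw [hmv]
    show a * (w1 ^ (c 0).val * w2 ^ (c 1).val) * a⁻¹ = w1 ^ ((1 : ZMod p) * c 0 + 1 * c 1).val * w2 ^ ((0 : ZMod p) * c 0 + 1 * c 1).val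
    rw [one_mul, one_mul, zero_mul, zero_add, hval]
    calc a * (w1 ^ (c 0).val * w2 ^ (c 1).val) * a⁻¹ = (a * w1 ^ (c 0).val * a⁻¹) * (a * w2 ^ (c 1).val * a⁻¹) := by group
      _ = (a * w1 * a⁻¹) ^ (c 0).val * (a * w2 * a⁻¹) ^ (c 1).val := by rw [conj_pow, conj_pow]
      _ = w1 ^ (c 0).val * (w1 ^ (c 1).val * w2 ^ (c 1).val) := by rw [ha1, ha2, hcc.mul_pow]
      _ = _ := by group
  have hrb : r b ub := by
    intro c
    rw [hmv]
    show b * (w1 ^ (c 0).val * w2 ^ (c 1).val) * b⁻¹ = w1 ^ ((1 : ZMod p) * c 0 + 0 * c 1).val * w2 ^ ((1 : ZMod p) * c 0 + 1 * c 1).val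
    rw [one_mul, one_mul, zero_mul, add_zero, hval2]
    calc b * (w1 ^ (c 0).val * w2 ^ (c 1).val) * b⁻¹ = (b * w1 ^ (c 0).val * b⁻¹) * (b * w2 ^ (c 1).val * b⁻¹) := by group
      _ = (b * w1 * b⁻¹) ^ (c 0).val * (b * w2 * b⁻¹) ^ (c 1).val := by rw [conj_pow, conj_pow]
      _ = (w1 ^ (c 0).val * w2 ^ (c 0).val) * w2 ^ (c 1).val := by rw [hb1, hb2, hcc.mul_pow]
      _ = _ := by group
  have hr1 : r 1 1 := by
    intro c
    rw [Matrix.SpecialLinearGroup.coe_one, Matrix.one_mulVec]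
    group
  have hrmul : ∀ x y M N, r x M → r y N → r (x * y) (M * N) := by
    intro x y M N hx hy c
    rw [Matrix.SpecialLinearGroup.coe_mul, ← Matrix.mulVec_mulVec, ← hx, ← hy]
    group
  have hrinv : ∀ x M, r x M → r x⁻¹ M⁻¹ := by
    intro x M hx c
    have h3 := hx (((M⁻¹ : SL2 (ZMod p)) : Matrix (Fin 2) (Fin 2) (ZMod p)).mulVec c)
    rw [Matrix.mulVec_mulVec, ← Matrix.SpecialLinearGroup.coe_mul, mul_inv_cancel, Matrix.SpecialLinearGroup.coe_one, Matrix.one_mulVec] at h3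
    rw [← h3]
    group
  have hex : ∀ x : Subgroup.closure ({a, b} : Set G), ∃ M, r (x : G) M := by
    rintro ⟨x, hx⟩
    induction hx using Subgroup.closure_induction with
    | mem x hx =>
      rcases hx with rfl | hx
      · exact ⟨ua, hra⟩
      · rw [Set.mem_singleton_iff] at hx
        subst hx
        exact ⟨ub, hrb⟩
    | one => exact ⟨1, hr1⟩
    | mul x y hx hy ihx ihy =>
      obtain ⟨M, hM⟩ := ihx
      obtain ⟨N, hN⟩ := ihy
      exact ⟨M * N, hrmul _ _ _ _ hM hN⟩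
    | inv x hx ihx =>
      obtain ⟨M, hM⟩ := ihx
      exact ⟨M⁻¹, hrinv _ _ hM⟩
  have hun : ∀ (x : Subgroup.closure ({a, b} : Set G)) M N, r (x : G) M → r (x : G) N → M = N := by
    intro x M N hM hN
    apply Subtype.ext
    apply mulVec_inj
    intro c
    exact hinj ((hM c).symm.trans (hN c))
  obtain ⟨f, hfr⟩ := exists_hom_of_rel (fun (x : Subgroup.closure ({a, b} : Set G)) M => r (x : G) M) hex hun
    (fun x y M N hx hy => hrmul _ _ _ _ hx hy)
  have hfinj : Function.Injective f := by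
    rw [injective_iff_map_eq_one]
    intro x hx
    have h3 := hfr x
    rw [hx] at h3
    have h4 : ∀ c : Fin 2 → ZMod p, (x : G) * th w1 w2 c * (x : G)⁻¹ = th w1 w2 c := by
      intro c
      have := h3 c
      rwa [Matrix.SpecialLinearGroup.coe_one, Matrix.one_mulVec] at this
    have hv1 : (1 : ZMod p).val = 1 := by
      haveI : Fact (1 < p) := ⟨hp.out.one_lt⟩
      exact ZMod.val_one p
    have e1 : th w1 w2 (![1, 0] : Fin 2 → ZMod p) = w1 := by
      show w1 ^ (1 : ZMod p).val * w2 ^ (0 : ZMod p).val = w1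
      rw [hv1, ZMod.val_zero, pow_one, pow_zero, mul_one]
    have e2 : th w1 w2 (![0, 1] : Fin 2 → ZMod p) = w2 := by
      show w1 ^ (0 : ZMod p).val * w2 ^ (1 : ZMod p).val = w2
      rw [hv1, ZMod.val_zero, pow_one, pow_zero, one_mul]
    apply Subtype.ext
    apply hf x x.2
    · have := h4 ![1, 0]
      rwa [e1] at this
    · have := h4 ![0, 1]
      rwa [e2] at this
  have hfsurj : Function.Surjective f := by
    rw [← MonoidHom.range_eq_top]
    apply sl2_generate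
    · refine ⟨⟨a, Subgroup.subset_closure (by simp)⟩, ?_⟩
      exact hun _ _ _ (hfr _) hra
    · refine ⟨⟨b, Subgroup.subset_closure (by simp)⟩, ?_⟩
      exact hun _ _ _ (hfr _) hrb
  exact ⟨MulEquiv.ofBijective f ⟨hfinj, hfsurj⟩⟩

end CfsgLib.BO
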