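import Cfsg.Agent.Lib.BO4

/-! Pairs of conjugate minimal offenders. -/
set_option autoImplicit false
set_option linter.style.haveILetI false
set_option linter.unusedVariables false

namespace CfsgLib.BO

universe u

open CfsgLib CfsgLib.JSub CfsgLib.Coprime CfsgLib.PL2 CfsgLib.PL3 CfsgLib.Dick CfsgLib.ThmA Subgroup
open scoped commutatorElement

variable {G : Type u} [Group G] [Finite G] {p : ℕ} [hp : Fact p.Prime]

/-- minimal offender data: `K` a `p'`-group normalised by `a` of order `p`, acting faithfully on `V` -/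
structure Mo (p : ℕ) (V K : Subgroup G) (a : G) : Prop where
  vp : IsPGroup p V
  vc : ∀ x ∈ V, ∀ y ∈ V, x * y = y * x
  aN : a ∈ Subgroup.normalizer (V : Set G)
  KN : K ≤ Subgroup.normalizer (V : Set G)
  aK : a ∈ Subgroup.normalizer (K : Set G)
  Kp : (Nat.card K).Coprime p
  f : (K ⊔ Subgroup.zpowers a) ⊓ Subgroup.centralizer (V : Set G) = ⊥
  ap : a ^ p = 1
  a1 : a ≠ 1
  U : Nat.card (⁅V, Subgroup.zpowers a⁆ : Subgroup G) = p

variable {V K : Subgroup G} {a : G}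

theorem Mo.order (h : Mo p V K a) : orderOf a = p := orderOf_eq_prime h.ap h.a1

theorem Mo.cardA (h : Mo p V K a) : Nat.card (Subgroup.zpowers a) = p := by rw [Nat.card_zpowers, h.order]

theorem Mo.card (h : Mo p V K a) : Nat.card (K ⊔ Subgroup.zpowers a : Subgroup G) = Nat.card K * p := by
  rw [CfsgLib.Coprime.card_sup (Subgroup.zpowers_le.mpr h.aK) (by rw [h.cardA]; exact h.Kp.symm), h.cardA]

/-- `p`-subgroups of `K A` have order at most `p` -/
theorem Mo.card_le (h : Mo p V K a) {X : Subgroup G} (hX : X ≤ K ⊔ Subgroup.zpowers a) (hXp : IsPGroup p X) : Nat.card X ≤ p := by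
  have h1 := Subgroup.card_dvd_of_le hX
  rw [h.card] at h1
  obtain ⟨n, hn⟩ := IsPGroup.iff_card.mp hXp
  have h2 : (Nat.card X).Coprime (Nat.card K) := by rw [hn]; exact (h.Kp.pow_right n).symm
  exact Nat.le_of_dvd hp.out.pos (h2.dvd_of_dvd_mul_left h1)

theorem Mo.conj_mem (h : Mo p V K a) {x : G} (hx : x ∈ K) : x * a * x⁻¹ ∈ K ⊔ Subgroup.zpowers a := by
  have h1 : x ∈ K ⊔ Subgroup.zpowers a := (le_sup_left : K ≤ _) hx
  have h2 : a ∈ K ⊔ Subgroup.zpowers a := (le_sup_right : Subgroup.zpowers a ≤ _) (Subgroup.mem_zpowers a)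
  exact mul_mem (mul_mem h1 h2) (inv_mem h1)

theorem card_comm_conj {x : G} (hx : x ∈ Subgroup.normalizer (V : Set G)) :
    Nat.card (⁅V, Subgroup.zpowers (x * a * x⁻¹)⁆ : Subgroup G) = Nat.card (⁅V, Subgroup.zpowers a⁆ : Subgroup G) := by
  have h1 : ⁅V, Subgroup.zpowers (x * a * x⁻¹)⁆ = (⁅V, Subgroup.zpowers a⁆ : Subgroup G).map (MulAut.conj x).toMonoidHom := by
    rw [Subgroup.map_commutator, CfsgLib.H7Basic.cj_eq_self_iff.2 hx, MonoidHom.map_zpowers]
    rfl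
  rw [h1, Subgroup.card_map_of_injective (MulAut.conj x).injective]

theorem Mo.pair (h : Mo p V K a) {x : G} (hx : x ∈ K) (hxa : x * a ≠ a * x) :
    (p = 2 ∨ p = 3) ∧ Nat.card (⁅V, Subgroup.zpowers a ⊔ Subgroup.zpowers (x * a * x⁻¹)⁆ : Subgroup G) = p ^ 2 ∧
      (Subgroup.zpowers a ⊔ Subgroup.zpowers (x * a * x⁻¹)) ⊓
        Subgroup.centralizer ((⁅V, Subgroup.zpowers a ⊔ Subgroup.zpowers (x * a * x⁻¹)⁆ : Subgroup G) : Set G) = ⊥ ∧
      Nonempty ((Subgroup.zpowers a ⊔ Subgroup.zpowers (x * a * x⁻¹) : Subgroup G) ≃* Matrix.SpecialLinearGroup (Fin 2) (ZMod p)) := by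
  classical
  have hpp := hp.out
  set b := x * a * x⁻¹ with hb
  set X := K ⊔ Subgroup.zpowers a with hX
  set L := Subgroup.zpowers a ⊔ Subgroup.zpowers b with hL
  set W : Subgroup G := ⁅V, L⁆ with hW
  have hXN : X ≤ Subgroup.normalizer (V : Set G) := sup_le h.KN (Subgroup.zpowers_le.mpr h.aN)
  have hLX : L ≤ X := sup_le le_sup_right (Subgroup.zpowers_le.mpr (h.conj_mem hx))
  have hLN : L ≤ Subgroup.normalizer (V : Set G) := hLX.trans hXN
  have hbN : b ∈ Subgroup.normalizer (V : Set G) := hXN (h.conj_mem hx)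
  have hob : orderOf b = p := by rw [← h.order]; exact (MulAut.conj x).orderOf_eq a
  have hbp : b ^ p = 1 := by rw [← hob]; exact pow_orderOf_eq_one b
  have hb1 : b ≠ 1 := by intro h1; rw [h1, orderOf_one] at hob; exact hpp.one_lt.ne hob
  have hcB : Nat.card (Subgroup.zpowers b) = p := by rw [Nat.card_zpowers, hob]
  have haL : a ∈ L := (le_sup_left : Subgroup.zpowers a ≤ L) (Subgroup.mem_zpowers a)
  have hbL : b ∈ L := (le_sup_right : Subgroup.zpowers b ≤ L) (Subgroup.mem_zpowers b)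
  set P := L ⊓ Subgroup.centralizer (W : Set G) with hP
  have hLW : L ≤ Subgroup.normalizer (W : Set G) := by
    rw [hW, Subgroup.commutator_comm]; exact CfsgLib.PStabN.le_normalizer_commutator
  have hPL : P ≤ L := inf_le_left
  have hLP : L ≤ Subgroup.normalizer (P : Set G) := by
    intro y hy
    apply CfsgLib.H7Basic.mem_normalizer_of_conj_mem
    intro z hz
    obtain ⟨hz1, hz2⟩ := Subgroup.mem_inf.mp hz
    refine Subgroup.mem_inf.mpr ⟨L.mul_mem (L.mul_mem hy hz1) (L.inv_mem hy), ?_⟩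
    rw [Subgroup.mem_centralizer_iff] at hz2 ⊢
    intro w hw
    have h1 : y⁻¹ * w * y ∈ W := by
      have := (Subgroup.mem_normalizer_iff.mp (Subgroup.inv_mem _ (hLW hy)) w).mp hw
      rwa [inv_inv] at this
    have h2 := hz2 _ h1
    calc w * (y * z * y⁻¹) = y * ((y⁻¹ * w * y) * z) * y⁻¹ := by group
      _ = y * (z * (y⁻¹ * w * y)) * y⁻¹ := by rw [h2]
      _ = _ := by group
  -- `P` is a `p`-group
  have hPp : IsPGroup p P := by
    rintro ⟨z, hz⟩
    obtain ⟨hz1, hz2⟩ := Subgroup.mem_inf.mp hz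
    have hq : ⁅⁅V, Subgroup.zpowers z⁆, Subgroup.zpowers z⁆ = ⊥ := by
      rw [Subgroup.commutator_eq_bot_iff_le_centralizer]
      have h1 : ⁅V, Subgroup.zpowers z⁆ ≤ W := Subgroup.commutator_mono le_rfl (Subgroup.zpowers_le.mpr hz1)
      apply h1.trans
      rw [Subgroup.le_centralizer_iff, Subgroup.zpowers_le]
      exact hz2
    obtain ⟨n, hn⟩ := CfsgLib.PSt.quad_pow h.vp (hLN hz1) hq
    refine ⟨n, Subtype.ext ?_⟩
    have h2 : z ^ p ^ n ∈ X ⊓ Subgroup.centralizer (V : Set G) := ⟨Subgroup.pow_mem _ (hLX hz1) _, hn⟩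
    rw [h.f, Subgroup.mem_bot] at h2
    exact h2
  have hPbot : P = ⊥ := by
    by_contra hne
    have hkey : ∀ c : G, c ∈ L → Nat.card (Subgroup.zpowers c) = p → P = Subgroup.zpowers c := by
      intro c hc hcc
      have hcp : IsPGroup p (Subgroup.zpowers c) := IsPGroup.of_card (n := 1) (by rw [hcc, pow_one])
      have h1 : IsPGroup p (P ⊔ Subgroup.zpowers c : Subgroup G) :=
        IsPGroup.to_sup_of_normal_left' hPp hcp ((Subgroup.zpowers_le.mpr hc).trans hLP)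
      have h2 := h.card_le (sup_le (hPL.trans hLX) ((Subgroup.zpowers_le.mpr hc).trans hLX)) h1
      have h3 : Subgroup.zpowers c = P ⊔ Subgroup.zpowers c :=
        Subgroup.eq_of_le_of_card_ge le_sup_right (by rw [hcc]; exact h2)
      have h4 : P ≤ Subgroup.zpowers c := by rw [h3]; exact le_sup_left
      have h5 : Nat.card P ∣ p := by rw [← hcc]; exact Subgroup.card_dvd_of_le h4
      rcases (Nat.dvd_prime hpp).mp h5 with h6 | h6
      · exact absurd (Subgroup.card_eq_one.mp h6) hne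
      · exact Subgroup.eq_of_le_of_card_ge h4 (by rw [h6, hcc])
    have h1 : Subgroup.zpowers b = Subgroup.zpowers a := (hkey b hbL hcB).symm.trans (hkey a haL h.cardA)
    have h2 : b * a⁻¹ ∈ Subgroup.zpowers a := mul_mem (h1 ▸ Subgroup.mem_zpowers b) (inv_mem (Subgroup.mem_zpowers a))
    have h3 : b * a⁻¹ ∈ K := by
      have h4 : a * x⁻¹ * a⁻¹ ∈ K := (Subgroup.mem_normalizer_iff.mp h.aK _).mp (K.inv_mem hx)
      have h5 : b * a⁻¹ = x * (a * x⁻¹ * a⁻¹) := by rw [hb]; group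
      rw [h5]; exact K.mul_mem hx h4
    have h4 : Subgroup.zpowers a ⊓ K = ⊥ := by
      apply CfsgLib.PL3.inf_eq_bot_of_coprime
      rw [h.cardA]; exact h.Kp.symm
    have h5 : b * a⁻¹ ∈ Subgroup.zpowers a ⊓ K := ⟨h2, h3⟩
    rw [h4, Subgroup.mem_bot] at h5
    apply hxa
    have h6 : b = a := mul_inv_eq_one.mp h5
    rw [hb] at h6
    calc x * a = (x * a * x⁻¹) * x := by group
      _ = a * x := by rw [h6]
  obtain ⟨h1, ⟨e⟩⟩ := CfsgLib.BO.pair h.aN hbN h.vc h.ap hbp h.a1 hb1 h.U (by rw [hb, card_comm_conj (h.KN hx)]; exact h.U) hPbot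
  refine ⟨?_, h1, hPbot, ⟨e⟩⟩
  have hs : Cfsg.IsPSolvable p L := CfsgLib.PSolvL.isPSolvable_of_le hLX
    (CfsgLib.QuadPair.psolv_sup h.aK h.Kp (n := 1) (by rw [pow_one]; exact h.ap))
  have hs2 : Cfsg.IsPSolvable p (SL2 (ZMod p)) := CfsgLib.PSolvL.isPSolvable_congr e hs
  by_contra hcon
  push Not at hcon
  have h5 : 5 ≤ p := by
    by_contra hlt
    have h2 := hpp.two_le
    have h3 : p = 4 := by omega
    rw [h3] at hpp
    exact absurd hpp (by norm_num)
  exact sl2_not_psolvable h5 hs2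

/-- minimal offenders give `Mo` -/
theorem mkMo {V H A : Subgroup G} (hV : Cfsg.IsElementaryAbelian p V) (hHV : H ≤ Subgroup.normalizer (V : Set G))
    (hf : H ⊓ Subgroup.centralizer (V : Set G) = ⊥)
    (hS1 : Subgroup.centralizer (Cfsg.pPrimeCore p ↥H : Set ↥H) ≤ Cfsg.pPrimeCore p ↥H)
    (hAH : A ≤ H) (hA : Cfsg.IsBestOffenderOn p V A) (hAV : ⁅V, A⁆ ≠ ⊥)
    (hmin : ∀ B : Subgroup G, B ≤ A → Cfsg.IsBestOffenderOn p V B → ⁅V, B⁆ ≠ ⊥ → B = A) :
    ∃ a ∈ A, A = Subgroup.zpowers a ∧ Mo p V (KK p H) a := by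
  have hpp := hp.out
  obtain ⟨h1, h2, -, -⟩ := s0611 hV hHV hf hS1 hAH hA hAV hmin
  have hc := mkCfg hV hHV hf hS1 hAH (offender_ea hf hAH hA)
  haveI : IsCyclic A := isCyclic_of_prime_card h1
  obtain ⟨a, ha⟩ := (Subgroup.isCyclic_iff_exists_zpowers_eq_top A).mp this
  have haA : a ∈ A := by rw [← ha]; exact Subgroup.mem_zpowers a
  have ho : orderOf a = p := by rw [← Nat.card_zpowers, ha, h1]
  refine ⟨a, haA, ha.symm, ⟨hc.vp, hc.vc, hHV (hAH haA), KK_le.trans hHV, KK_norm (hAH haA), KK_card, ?_, ?_, ?_, ?_⟩⟩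
  · rw [eq_bot_iff, ← hf, ha]
    exact inf_le_inf_right _ (sup_le KK_le hAH)
  · rw [← ho]; exact pow_orderOf_eq_one a
  · intro h; rw [h, orderOf_one] at ho; exact hpp.one_lt.ne ho
  · rw [ha]; exact h2

end CfsgLib.BO
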