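import Cfsg.Agent.Lib.BO5
import Cfsg.Agent.Lib.SL2
import Cfsg.Agent.Lib.Solv3

/-! The commutator `[K, a]`. -/
set_option autoImplicit false
set_option linter.style.haveILetI false
set_option linter.unusedVariables false

namespace CfsgLib.BO

universe u

open CfsgLib CfsgLib.JSub CfsgLib.Coprime CfsgLib.PL2 CfsgLib.PL3 CfsgLib.Dick CfsgLib.ThmA Subgroup
open scoped commutatorElement

variable {G : Type u} [Group G] [Finite G] {p : ℕ} [hp : Fact p.Prime] {V K : Subgroup G} {a : G}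

omit [Finite G] in
theorem card_sgOf {A B : Subgroup G} (h : A ≤ B) : Nat.card (A.subgroupOf B) = Nat.card A :=
  Nat.card_congr (Subgroup.subgroupOfEquivOfLe h).toEquiv

theorem card_SL2p : Nat.card (SL2 (ZMod p)) = p * (p - 1) * (p + 1) := by
  haveI : NeZero p := ⟨hp.out.ne_zero⟩
  have := CfsgLib.SL2.card_SL2 (F := ZMod p)
  rwa [ZMod.card] at this

theorem Mo.cop (h : Mo p V K a) : CopAct (Subgroup.zpowers a) K := by
  refine ⟨Subgroup.zpowers_le.mpr h.aK, by rw [h.cardA]; exact h.Kp.symm, Or.inl ?_⟩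
  infer_instance

theorem Mo.cent_syl (h : Mo p V K a) {r : ℕ} (hr : r.Prime) (hr2 : r ≠ 2) (hr3 : r ≠ 3) {R : Subgroup G} (hRK : R ≤ K)
    (hRr : IsPGroup r R) (haR : a ∈ Subgroup.normalizer (R : Set G)) : ∀ x ∈ R, x * a = a * x := by
  intro x hx
  by_contra hne
  obtain ⟨hp23, -, -, ⟨e⟩⟩ := h.pair (hRK hx) hne
  have h1 : Nat.card (Subgroup.zpowers a ⊔ Subgroup.zpowers (x * a * x⁻¹) : Subgroup G) ∣ 24 := by
    rw [Nat.card_congr e.toEquiv, card_SL2p]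
    rcases hp23 with rfl | rfl <;> norm_num
  have h2 : x * a * x⁻¹ * a⁻¹ ∈ R := by
    have h4 : a * x⁻¹ * a⁻¹ ∈ R := (Subgroup.mem_normalizer_iff.mp haR _).mp (R.inv_mem hx)
    have h5 : x * a * x⁻¹ * a⁻¹ = x * (a * x⁻¹ * a⁻¹) := by group
    rw [h5]; exact R.mul_mem hx h4
  have h3 : x * a * x⁻¹ * a⁻¹ ∈ Subgroup.zpowers a ⊔ Subgroup.zpowers (x * a * x⁻¹) :=
    mul_mem ((le_sup_right : Subgroup.zpowers (x * a * x⁻¹) ≤ _) (Subgroup.mem_zpowers _))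
      (inv_mem ((le_sup_left : Subgroup.zpowers a ≤ _) (Subgroup.mem_zpowers _)))
  have h4 : orderOf (x * a * x⁻¹ * a⁻¹) ∣ 24 := (Subgroup.orderOf_dvd_natCard _ h3).trans h1
  haveI : Fact r.Prime := ⟨hr⟩
  obtain ⟨n, hn⟩ := (IsPGroup.iff_orderOf.mp hRr) ⟨_, h2⟩
  rw [Subgroup.orderOf_mk] at hn
  rw [hn] at h4
  have h5 : (r ^ n).Coprime 24 := by
    apply Nat.Coprime.pow_left
    rw [Nat.Prime.coprime_iff_not_dvd hr]
    intro h6
    have h7 : r ∣ 2 ^ 3 * 3 := h6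
    rcases (Nat.Prime.dvd_mul hr).mp h7 with h8 | h8
    · exact hr2 ((Nat.prime_dvd_prime_iff_eq hr Nat.prime_two).mp (hr.dvd_of_dvd_pow h8))
    · exact hr3 ((Nat.prime_dvd_prime_iff_eq hr Nat.prime_three).mp h8)
  have h6 : r ^ n = 1 := Nat.eq_one_of_dvd_coprimes h5 dvd_rfl h4
  rw [h6, orderOf_eq_one_iff] at hn
  apply hne
  have h7 : x * a * x⁻¹ = a := mul_inv_eq_one.mp hn
  calc x * a = (x * a * x⁻¹) * x := by group
    _ = a * x := by rw [h7]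

theorem Mo.decomp (h : Mo p V K a) {r0 : ℕ} (hr0 : r0.Prime) (hpr : (p = 2 ∧ r0 = 3) ∨ (p = 3 ∧ r0 = 2)) :
    ∃ R : Subgroup G, R ≤ K ∧ IsPGroup r0 R ∧ a ∈ Subgroup.normalizer (R : Set G) ∧
      ∀ x ∈ K, ∃ r ∈ R, ∃ c ∈ K, c * a = a * c ∧ x = r * c := by
  classical
  haveI : Fact r0.Prime := ⟨hr0⟩
  obtain ⟨R, hR, hRa⟩ := h.cop.exists_isSyl r0
  refine ⟨R, hR.1, hR.isPGroup, hRa (Subgroup.mem_zpowers a), ?_⟩
  set C : Subgroup G := K ⊓ Subgroup.centralizer (Subgroup.zpowers a : Set G) with hC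
  have hcardC := Subgroup.card_mul_index (C.subgroupOf K)
  rw [card_sgOf inf_le_left] at hcardC
  have hcardR := Subgroup.card_mul_index (R.subgroupOf K)
  rw [card_sgOf hR.1] at hcardR
  have hK0 : Nat.card K ≠ 0 := Nat.card_pos.ne'
  have hcop : (R.subgroupOf K).index.Coprime (C.subgroupOf K).index := by
    by_contra hcon
    obtain ⟨r, hr, hr2, hr1⟩ := Nat.Prime.not_coprime_iff_dvd.mp hcon
    haveI : Fact r.Prime := ⟨hr⟩
    obtain ⟨T, hT, hTa⟩ := h.cop.exists_isSyl r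
    have hrne0 : r ≠ r0 := by
      rintro rfl
      -- r0 divides the index of the Sylow
      have h3 : r ^ ((Nat.card K).factorization r + 1) ∣ Nat.card K := by
        rw [pow_succ]
        rw [← hR.2]
        exact (mul_dvd_mul_left _ hr2).trans (by rw [hcardR])
      exact Nat.pow_succ_factorization_not_dvd hK0 hr h3
    have hrp : r ≠ p := by
      rintro rfl
      have h3 : r ∣ Nat.card K := hr1.trans (Dvd.intro_left _ hcardC)
      have h4 := Nat.Coprime.eq_one_of_dvd (h.Kp.symm) h3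
      exact hr.one_lt.ne' h4
    have hTC : T ≤ C := by
      apply le_inf hT.1
      intro t ht
      have h3 := h.cent_syl hr (by rcases hpr with ⟨h4, h5⟩ | ⟨h4, h5⟩ <;> omega) (by rcases hpr with ⟨h4, h5⟩ | ⟨h4, h5⟩ <;> omega)
        hT.1 hT.isPGroup (hTa (Subgroup.mem_zpowers a)) t ht
      rw [Subgroup.mem_centralizer_iff]
      intro z hz
      obtain ⟨n, rfl⟩ := Subgroup.mem_zpowers_iff.mp hz
      have h4 : Commute t a := h3
      exact (h4.zpow_right n).eq.symm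
    have h3 : r ^ ((Nat.card K).factorization r + 1) ∣ Nat.card K := by
      rw [pow_succ, ← hT.2]
      exact (mul_dvd_mul (Subgroup.card_dvd_of_le hTC) hr1).trans (by rw [hcardC])
    exact Nat.pow_succ_factorization_not_dvd hK0 hr h3
  intro x hx
  obtain ⟨r, hr, c, hc, hrc⟩ := CfsgLib.Solv3.exists_mul_of_coprime_index hcop ⟨x, hx⟩
  rw [Subgroup.mem_subgroupOf] at hr hc
  refine ⟨r, hr, c, c.2, ?_, congrArg Subtype.val hrc⟩
  exact (Subgroup.mem_centralizer_iff.mp (Subgroup.mem_inf.mp hc).2 a (Subgroup.mem_zpowers a)).symm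

theorem comm_le_of_decomp {R : Subgroup G} (haR : a ∈ Subgroup.normalizer (R : Set G))
    (hd : ∀ x ∈ K, ∃ r ∈ R, ∃ c ∈ K, c * a = a * c ∧ x = r * c) : ⁅K, Subgroup.zpowers a⁆ ≤ R := by
  rw [Subgroup.commutator_le]
  intro x hx z hz
  obtain ⟨r, hr, c, -, hc, rfl⟩ := hd x hx
  have hcz : c * z = z * c := by
    obtain ⟨n, rfl⟩ := Subgroup.mem_zpowers_iff.mp hz
    have h4 : Commute c a := hc
    exact (h4.zpow_right n).eq
  have hzR : z ∈ Subgroup.normalizer (R : Set G) := (Subgroup.zpowers_le.mpr haR) hz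
  have h4 : z * r⁻¹ * z⁻¹ ∈ R := (Subgroup.mem_normalizer_iff.mp hzR _).mp (R.inv_mem hr)
  have h5 : ⁅r * c, z⁆ = r * (z * r⁻¹ * z⁻¹) := by
    rw [commutatorElement_def]
    calc r * c * z * (r * c)⁻¹ * z⁻¹ = r * (c * z) * c⁻¹ * r⁻¹ * z⁻¹ := by group
      _ = r * (z * c) * c⁻¹ * r⁻¹ * z⁻¹ := by rw [hcz]
      _ = _ := by group
  rw [h5]
  exact R.mul_mem hr h4

theorem Mo.le_sup (h : Mo p V K a) {x : G} (hx : x ∈ K) :
    Subgroup.zpowers a ⊔ Subgroup.zpowers (x * a * x⁻¹) ≤ ⁅K, Subgroup.zpowers a⁆ ⊔ Subgroup.zpowers a := by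
  apply sup_le le_sup_right
  rw [Subgroup.zpowers_le]
  have h1 : ⁅x, a⁆ ∈ ⁅K, Subgroup.zpowers a⁆ := Subgroup.commutator_mem_commutator hx (Subgroup.mem_zpowers a)
  have h2 : x * a * x⁻¹ = ⁅x, a⁆ * a := by rw [commutatorElement_def]; group
  rw [h2]
  exact Subgroup.mul_mem_sup h1 (Subgroup.mem_zpowers a)

theorem Mo.inf_K (h : Mo p V K a) : Subgroup.zpowers a ⊓ K = ⊥ := by
  apply CfsgLib.PL3.inf_eq_bot_of_coprime
  rw [h.cardA]; exact h.Kp.symm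

/-- elements of `[K,A] A` lying in `K` lie in `[K,A]` -/
theorem Mo.mem_comm (h : Mo p V K a) {y : G} (hy : y ∈ ⁅K, Subgroup.zpowers a⁆ ⊔ Subgroup.zpowers a) (hyK : y ∈ K) :
    y ∈ ⁅K, Subgroup.zpowers a⁆ := by
  have hn : Subgroup.zpowers a ≤ Subgroup.normalizer ((⁅K, Subgroup.zpowers a⁆ : Subgroup G) : Set G) := by
    rw [Subgroup.commutator_comm]; exact CfsgLib.PStabN.le_normalizer_commutator
  obtain ⟨q, hq, z, hz, rfl⟩ := (CfsgLib.Coprime.mem_sup_iff hn y).mp hy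
  have hqK : q ∈ K := CfsgLib.Coprime.commutator_le_of_le_normalizer (Subgroup.zpowers_le.mpr h.aK) hq
  have hzK : z ∈ K := by
    have := K.mul_mem (K.inv_mem hqK) hyK
    rwa [inv_mul_cancel_left] at this
  have h1 : z ∈ Subgroup.zpowers a ⊓ K := ⟨hz, hzK⟩
  rw [h.inf_K, Subgroup.mem_bot] at h1
  rw [h1, mul_one]; exact hq

theorem Mo.mem_K (h : Mo p V K a) {y : G} (hy : y ∈ K ⊔ Subgroup.zpowers a) {n : ℕ} (hn : n.Coprime p) (hyn : y ^ n = 1) : y ∈ K := by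
  have hnK := Subgroup.zpowers_le.mpr h.aK
  haveI := CfsgLib.Coprime.normal_subgroupOf_sup hnK
  have h1 := CfsgLib.Coprime.index_subgroupOf_sup hnK (by rw [h.cardA]; exact h.Kp.symm)
  have h2 := Subgroup.pow_index_mem (K.subgroupOf (K ⊔ Subgroup.zpowers a)) (⟨y, hy⟩ : (K ⊔ Subgroup.zpowers a : Subgroup G))
  rw [h1, h.cardA, Subgroup.mem_subgroupOf] at h2
  have h3 : y ^ p ∈ K := h2
  obtain ⟨u, v, huv⟩ : ∃ u v : ℤ, (n : ℤ) * u + (p : ℤ) * v = 1 := by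
    have := Nat.gcd_eq_gcd_ab n p
    rw [hn.gcd_eq_one] at this
    exact ⟨_, _, this.symm⟩
  have h4 : y = (y ^ n) ^ u * (y ^ p) ^ v := by
    rw [← zpow_natCast, ← zpow_natCast, ← zpow_mul, ← zpow_mul, ← zpow_add, huv, zpow_one]
  rw [h4, hyn, one_zpow, one_mul]
  exact K.zpow_mem h3 v

theorem sl23_elts : ∃ i j : SL2 (ZMod 3), i ^ 4 = 1 ∧ j ^ 4 = 1 ∧ i * j ≠ j * i := by
  refine ⟨mk2 0 1 (-1) 0 (by decide), mk2 1 1 1 (-1) (by decide), ?_, ?_, ?_⟩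
  · apply Subtype.ext
    show (!![0, 1; -1, 0] : Matrix (Fin 2) (Fin 2) (ZMod 3)) ^ 4 = 1
    rw [pow_succ, pow_succ, pow_succ, pow_one, Matrix.one_fin_two]
    simp only [Matrix.mul_fin_two]
    congr 1
    
  · apply Subtype.ext
    show (!![1, 1; 1, -1] : Matrix (Fin 2) (Fin 2) (ZMod 3)) ^ 4 = 1
    rw [pow_succ, pow_succ, pow_succ, pow_one, Matrix.one_fin_two]
    simp only [Matrix.mul_fin_two]
    congr 1
  · intro h
    have h1 := congrArg (fun M : SL2 (ZMod 3) => M 0 0) h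
    have h2 : (mk2 0 1 (-1) 0 (by decide) * mk2 1 1 1 (-1) (by decide) : SL2 (ZMod 3)) 0 0 = 1 := by
      show (!![0, 1; -1, 0] * !![1, 1; 1, -1] : Matrix (Fin 2) (Fin 2) (ZMod 3)) 0 0 = 1
      simp [Matrix.mul_fin_two]
    have h3 : (mk2 1 1 1 (-1) (by decide) * mk2 0 1 (-1) 0 (by decide) : SL2 (ZMod 3)) 0 0 = -1 := by
      show (!![1, 1; 1, -1] * !![0, 1; -1, 0] : Matrix (Fin 2) (Fin 2) (ZMod 3)) 0 0 = -1
      simp [Matrix.mul_fin_two]
    rw [h2, h3] at h1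
    exact absurd h1 (by decide)

theorem Mo.nonab (h : Mo p V K a) (hp3 : p = 3) (hne : ∃ x ∈ K, x * a ≠ a * x) :
    ∃ y ∈ ⁅K, Subgroup.zpowers a⁆, ∃ z ∈ ⁅K, Subgroup.zpowers a⁆, y * z ≠ z * y := by
  subst hp3
  obtain ⟨x, hx, hxa⟩ := hne
  obtain ⟨-, -, -, ⟨e⟩⟩ := h.pair hx hxa
  obtain ⟨i, j, hi, hj, hij⟩ := sl23_elts
  have hmem : ∀ k : SL2 (ZMod 3), k ^ 4 = 1 → ((e.symm k : _) : G) ∈ ⁅K, Subgroup.zpowers a⁆ := by
    intro k hk
    have h1 := h.le_sup hx (e.symm k).2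
    apply h.mem_comm h1
    have h2 : ⁅K, Subgroup.zpowers a⁆ ⊔ Subgroup.zpowers a ≤ K ⊔ Subgroup.zpowers a :=
      sup_le_sup_right (CfsgLib.Coprime.commutator_le_of_le_normalizer (Subgroup.zpowers_le.mpr h.aK)) _
    apply h.mem_K (h2 h1) (n := 4) (by norm_num)
    rw [← Subgroup.coe_pow, ← map_pow, hk, map_one, Subgroup.coe_one]
  refine ⟨_, hmem i hi, _, hmem j hj, ?_⟩
  intro h1
  apply hij
  apply e.symm.injective
  rw [map_mul, map_mul]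
  exact Subtype.ext h1

theorem Mo.s0614 (h : Mo p V K a) (hne : ∃ x ∈ K, x * a ≠ a * x) :
    (p = 2 ∧ IsPGroup 3 (⁅K, Subgroup.zpowers a⁆ : Subgroup G)) ∨
      (p = 3 ∧ IsPGroup 2 (⁅K, Subgroup.zpowers a⁆ : Subgroup G) ∧ ¬ IsMulCommutative (⁅K, Subgroup.zpowers a⁆ : Subgroup G)) := by
  obtain ⟨x, hx, hxa⟩ := hne
  rcases (h.pair hx hxa).1 with h2 | h3
  · left
    refine ⟨h2, ?_⟩
    obtain ⟨R, hRK, hRp, hRa, hd⟩ := h.decomp Nat.prime_three (Or.inl ⟨h2, rfl⟩)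
    exact hRp.to_le (comm_le_of_decomp hRa hd)
  · right
    obtain ⟨R, hRK, hRp, hRa, hd⟩ := h.decomp Nat.prime_two (Or.inr ⟨h3, rfl⟩)
    refine ⟨h3, hRp.to_le (comm_le_of_decomp hRa hd), ?_⟩
    intro hc
    obtain ⟨y, hy, z, hz, hyz⟩ := h.nonab h3 ⟨x, hx, hxa⟩
    apply hyz
    exact congrArg Subtype.val (hc.is_comm.comm ⟨y, hy⟩ ⟨z, hz⟩)

/-- minimal offenders act nontrivially on the core -/
theorem exists_ne {V H : Subgroup G} (hV : Cfsg.IsElementaryAbelian p V) (hHV : H ≤ Subgroup.normalizer (V : Set G))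
    (hf : H ⊓ Subgroup.centralizer (V : Set G) = ⊥)
    (hS1 : Subgroup.centralizer (Cfsg.pPrimeCore p ↥H : Set ↥H) ≤ Cfsg.pPrimeCore p ↥H)
    (hAH : Subgroup.zpowers a ≤ H) (hA : Cfsg.IsBestOffenderOn p V (Subgroup.zpowers a)) (h1 : a ≠ 1) : ∃ x ∈ KK p H, x * a ≠ a * x := by
  have hc := mkCfg hV hHV hf hS1 hAH (offender_ea hf hAH hA)
  by_contra hcon
  push Not at hcon
  have h2 : a ∈ Subgroup.zpowers a ⊓ Subgroup.centralizer (KK p H : Set G) := by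
    exact ⟨Subgroup.mem_zpowers a, Subgroup.mem_centralizer_iff.mpr hcon⟩
  rw [hc.af, Subgroup.mem_bot] at h2
  exact h1 h2

end CfsgLib.BO
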