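import Cfsg.Agent.Lib.BO4
import Cfsg.Agent.Lib.Subnormal

/-! Two subnormal subgroups acting irreducibly on their commutators. -/
set_option autoImplicit false
set_option linter.style.haveILetI false
set_option linter.unusedVariables false

namespace CfsgLib.BO

universe u

open CfsgLib CfsgLib.JSub CfsgLib.Coprime CfsgLib.PL2 CfsgLib.PL3 CfsgLib.ThmA Subgroup
open scoped commutatorElement

variable {G : Type u} [Group G] [Finite G] {p : ℕ} [hp : Fact p.Prime] {V Ω E₁ E₂ X Y P : Subgroup G}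

/-- subnormal in `Ω` -/
def Sn (Ω X : Subgroup G) : Prop := X ≤ Ω ∧ (X.subgroupOf Ω).IsSubnormal

theorem Sn.sup (hX : Sn Ω X) (hY : Sn Ω Y) : Sn Ω (X ⊔ Y) :=
  ⟨sup_le hX.1 hY.1, by rw [Subgroup.subgroupOf_sup hX.1 hY.1]; exact CfsgLib.Subnormal.sup hX.2 hY.2⟩

omit [Finite G] in
theorem Sn.sub (hX : Sn Ω X) (hP : P ≤ X) (hn : X ≤ Subgroup.normalizer (P : Set G)) : Sn Ω P := by
  refine ⟨hP.trans hX.1, ?_⟩
  have hle : P.subgroupOf Ω ≤ X.subgroupOf Ω := Subgroup.comap_mono hP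
  refine Subgroup.IsSubnormal.step _ (X.subgroupOf Ω) hle hX.2 ?_
  rw [Subgroup.normal_subgroupOf_iff_le_normalizer hle]
  intro x hx
  rw [Subgroup.mem_subgroupOf] at hx
  rw [Subgroup.mem_normalizer_iff]
  intro y
  rw [Subgroup.mem_subgroupOf, Subgroup.mem_subgroupOf]
  exact (Subgroup.mem_normalizer_iff.mp (hn hx)) y

theorem Sn.pbot (hP : Sn Ω P) (hp' : IsPGroup p P) (hO : Cfsg.pCore p Ω = ⊥) : P = ⊥ := by
  have h1 : IsPGroup p (P.subgroupOf Ω) := hp'.of_equiv (Subgroup.subgroupOfEquivOfLe hP.1).symm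
  have h2 := le_pCore_of_isSubnormal hP.2 h1
  rw [hO, le_bot_iff, Subgroup.subgroupOf_eq_bot] at h2
  exact h2.eq_bot_of_le hP.1

omit [Finite G] in
theorem Sn.conj (hX : Sn Ω X) {g : G} (hg : g ∈ Ω) : Sn Ω (X.map (MulAut.conj g).toMonoidHom) := by
  constructor
  · rw [Subgroup.map_le_iff_le_comap]
    intro x hx
    exact Ω.mul_mem (Ω.mul_mem hg (hX.1 hx)) (Ω.inv_mem hg)
  · have h1 : (X.map (MulAut.conj g).toMonoidHom).subgroupOf Ω = (X.subgroupOf Ω).map (MulAut.conj (⟨g, hg⟩ : Ω)).toMonoidHom := by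
      ext y
      rw [Subgroup.mem_subgroupOf]
      constructor
      · rintro ⟨x, hx, hxy⟩
        exact ⟨⟨x, hX.1 hx⟩, hx, Subtype.ext hxy⟩
      · rintro ⟨x, hx, rfl⟩
        exact ⟨x, hx, rfl⟩
    rw [h1]
    exact hX.2.map (MulAut.conj (⟨g, hg⟩ : Ω)).surjective

omit [Finite G] in
theorem Sn.rel (hX : Sn Ω X) (hXY : X ≤ Y) (hY : Y ≤ Ω) : Sn Y X := by
  refine ⟨hXY, ?_⟩
  have h1 : X.subgroupOf Y = (X.subgroupOf Ω).comap (Subgroup.inclusion hY) := rfl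
  rw [h1]
  exact hX.2.comap _

theorem quad_pgroup (hV : IsPGroup p V) (hXN : X ≤ Subgroup.normalizer (V : Set G)) (hf : X ⊓ Subgroup.centralizer (V : Set G) = ⊥)
    (hq : ⁅⁅V, X⁆, X⁆ = ⊥) : IsPGroup p X := by
  rintro ⟨z, hz⟩
  have hz' := Subgroup.zpowers_le.mpr hz
  have hq' : ⁅⁅V, Subgroup.zpowers z⁆, Subgroup.zpowers z⁆ = ⊥ := by
    rw [eq_bot_iff, ← hq]
    exact Subgroup.commutator_mono (Subgroup.commutator_mono le_rfl hz') hz'
  obtain ⟨n, hn⟩ := CfsgLib.PSt.quad_pow hV (hXN hz) hq'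
  refine ⟨n, Subtype.ext ?_⟩
  have h2 : z ^ p ^ n ∈ X ⊓ Subgroup.centralizer (V : Set G) := ⟨Subgroup.pow_mem _ hz _, hn⟩
  rw [hf, Subgroup.mem_bot] at h2
  exact h2

theorem norm_comm : X ≤ Subgroup.normalizer ((⁅V, X⁆ : Subgroup G) : Set G) := by
  rw [Subgroup.commutator_comm]; exact CfsgLib.PStabN.le_normalizer_commutator

/-- centralizers of normalised subgroups are normalised -/
theorem norm_cent (h : X ≤ Subgroup.normalizer (Y : Set G)) : X ≤ Subgroup.normalizer ((X ⊓ Subgroup.centralizer (Y : Set G) : Subgroup G) : Set G) := by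
  intro y hy
  apply CfsgLib.H7Basic.mem_normalizer_of_conj_mem
  intro z hz
  obtain ⟨hz1, hz2⟩ := Subgroup.mem_inf.mp hz
  refine Subgroup.mem_inf.mpr ⟨X.mul_mem (X.mul_mem hy hz1) (X.inv_mem hy), ?_⟩
  rw [Subgroup.mem_centralizer_iff] at hz2 ⊢
  intro w hw
  have h1 : y⁻¹ * w * y ∈ Y := by
    have := (Subgroup.mem_normalizer_iff.mp (Subgroup.inv_mem _ (h hy)) w).mp hw
    rwa [inv_inv] at this
  have h2 := hz2 _ h1
  calc w * (y * z * y⁻¹) = y * ((y⁻¹ * w * y) * z) * y⁻¹ := by group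
    _ = y * (z * (y⁻¹ * w * y)) * y⁻¹ := by rw [h2]
    _ = _ := by group

/-- the configuration -/
structure Cf (p : ℕ) (V Ω : Subgroup G) : Prop where
  vp : IsPGroup p V
  vc : ∀ x ∈ V, ∀ y ∈ V, x * y = y * x
  n : Ω ≤ Subgroup.normalizer (V : Set G)
  f : Ω ⊓ Subgroup.centralizer (V : Set G) = ⊥
  O : Cfsg.pCore p Ω = ⊥

def Irr (V E : Subgroup G) : Prop := ∀ U : Subgroup G, U ≤ ⁅V, E⁆ → E ≤ Subgroup.normalizer (U : Set G) → U = ⊥ ∨ U = ⁅V, E⁆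

theorem Cf.cent_bot (h : Cf p V Ω) (hX : Sn Ω X) : X ⊓ Subgroup.centralizer ((⁅V, X⁆ : Subgroup G) : Set G) = ⊥ := by
  have hn : X ≤ Subgroup.normalizer ((⁅V, X⁆ : Subgroup G) : Set G) := norm_comm
  have h1 : Sn Ω (X ⊓ Subgroup.centralizer ((⁅V, X⁆ : Subgroup G) : Set G)) := hX.sub inf_le_left (norm_cent hn)
  refine h1.pbot (p := p) ?_ h.O
  apply quad_pgroup h.vp (inf_le_left.trans (hX.1.trans h.n))
  · rw [eq_bot_iff, ← h.f]
    exact inf_le_inf_right _ (inf_le_left.trans hX.1)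
  · rw [Subgroup.commutator_eq_bot_iff_le_centralizer, Subgroup.le_centralizer_iff]
    exact inf_le_right.trans (Subgroup.centralizer_le (Subgroup.commutator_mono le_rfl inf_le_left))

theorem Cf.caseA (h : Cf p V Ω) (h1 : Sn Ω E₁) (h2 : Sn Ω E₂) (hi : Irr V E₂)
    (hn : E₂ ≤ Subgroup.normalizer ((⁅V, E₁⁆ : Subgroup G) : Set G)) (hle : ¬ ⁅V, E₂⁆ ≤ ⁅V, E₁⁆) :
    ⁅E₁, E₂⁆ = ⊥ ∧ E₁ ⊓ E₂ = ⊥ ∧ (⁅V, E₁⁆ ⊓ ⁅V, E₂⁆ : Subgroup G) = ⊥ := by
  set E := E₁ ⊔ E₂ with hE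
  have hES : Sn Ω E := h1.sup h2
  have hEN : E ≤ Subgroup.normalizer (V : Set G) := hES.1.trans h.n
  set V₁ : Subgroup G := ⁅V, E₁⁆ with hV1
  have hV1V : V₁ ≤ V := CfsgLib.PL1.commutator_le_left (h1.1.trans h.n)
  have hEV1 : E ≤ Subgroup.normalizer (V₁ : Set G) := sup_le norm_comm hn
  have hVV : (V₁ ⊓ ⁅V, E₂⁆ : Subgroup G) = ⊥ := by
    rcases hi (V₁ ⊓ ⁅V, E₂⁆) inf_le_right (CfsgLib.Coprime.le_normalizer_inf hn norm_comm) with h3 | h3
    · exact h3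
    · exact absurd (inf_eq_right.mp h3) hle
  set M := E ⊓ CfsgLib.PL1.actSub V V₁ with hM
  set C := E ⊓ Subgroup.centralizer (V₁ : Set G) with hC
  have hE1M : E₁ ≤ M := le_inf le_sup_left ((CfsgLib.PL1.commutator_le_iff (h1.1.trans h.n)).mp le_rfl)
  have hE2C : E₂ ≤ C := by
    apply le_inf le_sup_right
    rw [Subgroup.le_centralizer_iff, ← Subgroup.commutator_eq_bot_iff_le_centralizer, eq_bot_iff, ← hVV]
    exact le_inf (CfsgLib.PL1.commutator_le_left hn) (Subgroup.commutator_mono hV1V le_rfl)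
  have hEC : E ≤ Subgroup.normalizer (C : Set G) := norm_cent hEV1
  have hEM : E ≤ Subgroup.normalizer (M : Set G) := by
    intro g hg
    apply CfsgLib.H7Basic.mem_normalizer_of_conj_mem
    intro x hx
    obtain ⟨hx1, hx2⟩ := Subgroup.mem_inf.mp hx
    refine Subgroup.mem_inf.mpr ⟨E.mul_mem (E.mul_mem hg hx1) (E.inv_mem hg), ?_⟩
    refine ⟨hEN (E.mul_mem (E.mul_mem hg hx1) (E.inv_mem hg)), ?_⟩
    intro v hv
    have h3 : g⁻¹ * v * g ∈ V := by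
      have := (Subgroup.mem_normalizer_iff.mp (Subgroup.inv_mem _ (hEN hg)) v).mp hv
      rwa [inv_inv] at this
    have h4 := hx2.2 _ h3
    have h5 := (Subgroup.mem_normalizer_iff.mp (hEV1 hg) _).mp h4
    have h6 : g * x * g⁻¹ * v * (g * x * g⁻¹)⁻¹ * v⁻¹ = g * (x * (g⁻¹ * v * g) * x⁻¹ * (g⁻¹ * v * g)⁻¹) * g⁻¹ := by group
    rw [h6]; exact h5
  have hMC : M ⊓ C = ⊥ := by
    have hSn : Sn Ω (M ⊓ C) := hES.sub (inf_le_left.trans inf_le_left) (CfsgLib.Coprime.le_normalizer_inf hEM hEC)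
    refine hSn.pbot (p := p) ?_ h.O
    apply quad_pgroup h.vp ((inf_le_left.trans inf_le_left).trans hEN)
    · rw [eq_bot_iff, ← h.f]
      exact inf_le_inf_right _ hSn.1
    · have h3 : ⁅V, M ⊓ C⁆ ≤ V₁ := (CfsgLib.PL1.commutator_le_iff ((inf_le_left.trans inf_le_left).trans hEN)).mpr (inf_le_left.trans inf_le_right)
      rw [Subgroup.commutator_eq_bot_iff_le_centralizer, Subgroup.le_centralizer_iff]
      exact (inf_le_right.trans inf_le_right).trans (Subgroup.centralizer_le h3)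
  refine ⟨?_, ?_, hVV⟩
  · rw [eq_bot_iff, ← hMC]
    have h3 : ⁅E₁, E₂⁆ ≤ ⁅M, C⁆ := Subgroup.commutator_mono hE1M hE2C
    apply h3.trans
    apply le_inf
    · exact CfsgLib.PL1.commutator_le_left ((inf_le_left : C ≤ E).trans hEM)
    · rw [Subgroup.commutator_comm]; exact CfsgLib.PL1.commutator_le_left ((inf_le_left : M ≤ E).trans hEC)
  · rw [eq_bot_iff, ← hMC]
    exact le_inf (inf_le_left.trans hE1M) (inf_le_right.trans hE2C)

theorem conj_comm_map {g : G} (hg : g ∈ Subgroup.normalizer (V : Set G)) (E : Subgroup G) :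
    (⁅V, E⁆ : Subgroup G).map (MulAut.conj g).toMonoidHom = ⁅V, E.map (MulAut.conj g).toMonoidHom⁆ := by
  rw [Subgroup.map_commutator, CfsgLib.H7Basic.cj_eq_self_iff.2 hg]

theorem card_conj (E : Subgroup G) (g : G) : Nat.card (E.map (MulAut.conj g).toMonoidHom) = Nat.card E :=
  Subgroup.card_map_of_injective (MulAut.conj g).injective

theorem Irr.conj {E : Subgroup G} (h : Irr V E) {g : G} (hg : g ∈ Subgroup.normalizer (V : Set G)) : Irr V (E.map (MulAut.conj g).toMonoidHom) := by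
  intro U hU hn
  rw [← conj_comm_map hg] at hU ⊢
  have hinv : ∀ A : Subgroup G, (A.map (MulAut.conj g⁻¹).toMonoidHom).map (MulAut.conj g).toMonoidHom = A := by
    intro A
    rw [Subgroup.map_map]
    convert Subgroup.map_id A using 2
    ext x
    show g * (g⁻¹ * x * g⁻¹⁻¹) * g⁻¹ = x
    group
  have hinv' : ∀ A : Subgroup G, (A.map (MulAut.conj g).toMonoidHom).map (MulAut.conj g⁻¹).toMonoidHom = A := by
    intro A
    rw [Subgroup.map_map]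
    convert Subgroup.map_id A using 2
    ext x
    show g⁻¹ * (g * x * g⁻¹) * g⁻¹⁻¹ = x
    group
  rcases h (U.map (MulAut.conj g⁻¹).toMonoidHom) (by rw [← hinv' ⁅V, E⁆]; exact Subgroup.map_mono hU) (by
    rw [← hinv' E]
    refine le_trans (Subgroup.map_mono hn) ?_
    exact Subgroup.le_normalizer_map _) with h1 | h1
  · left
    rw [← hinv U, h1, Subgroup.map_bot]
  · right
    rw [← hinv U, h1]

theorem Cf.main (h : Cf p V Ω) (n : ℕ) : ∀ E₁ E₂ : Subgroup G, Sn Ω E₁ → Sn Ω E₂ → Nat.card (E₁ ⊔ E₂ : Subgroup G) ≤ n → Irr V E₁ → Irr V E₂ →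
    ¬ ⁅V, E₁⁆ ≤ ⁅V, E₂⁆ → ¬ ⁅V, E₂⁆ ≤ ⁅V, E₁⁆ → 2 < Nat.card E₁ → 2 < Nat.card E₂ →
    ⁅E₁, E₂⁆ = ⊥ ∧ E₁ ⊓ E₂ = ⊥ ∧ (⁅V, E₁⁆ ⊓ ⁅V, E₂⁆ : Subgroup G) = ⊥ := by
  classical
  induction n with
  | zero =>
    intro E₁ E₂ _ _ hc
    have h0 : 0 < Nat.card (E₁ ⊔ E₂ : Subgroup G) := Nat.card_pos
    omega
  | succ n ih =>
    intro E₁ E₂ h1 h2 hc hi1 hi2 h12 h21 hc1 hc2
    by_cases hA : E₂ ≤ Subgroup.normalizer ((⁅V, E₁⁆ : Subgroup G) : Set G)
    · exact h.caseA h1 h2 hi2 hA h21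
    by_cases hB : E₁ ≤ Subgroup.normalizer ((⁅V, E₂⁆ : Subgroup G) : Set G)
    · obtain ⟨a1, a2, a3⟩ := h.caseA h2 h1 hi1 hB h12
      exact ⟨by rw [Subgroup.commutator_comm]; exact a1, by rw [inf_comm]; exact a2, by rw [inf_comm]; exact a3⟩
    exfalso
    -- the key consequence of induction
    have key : ∀ F₁ F₂ : Subgroup G, Sn Ω F₁ → Sn Ω F₂ → F₁ ⊔ F₂ = E₁ ⊔ E₂ → Irr V F₁ → ¬ ⁅V, F₂⁆ ≤ ⁅V, F₁⁆ → 2 < Nat.card F₁ →
        ∀ y ∈ F₂, y ∉ Subgroup.normalizer ((⁅V, F₁⁆ : Subgroup G) : Set G) →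
        ⁅F₁, F₁.map (MulAut.conj y).toMonoidHom⁆ = ⊥ ∧ (⁅V, F₁⁆ ⊓ (⁅V, F₁⁆ : Subgroup G).map (MulAut.conj y).toMonoidHom : Subgroup G) = ⊥ := by
      intro F₁ F₂ hF1 hF2 hsup hi hle hcF y hy hyn
      have hyN : y ∈ Subgroup.normalizer (V : Set G) := h.n (hF2.1 hy)
      have hFE : F₁ ≤ F₁ ⊔ F₂ := le_sup_left
      have hrel : Sn (F₁ ⊔ F₂) F₁ := hF1.rel hFE (sup_le hF1.1 hF2.1)
      rcases hrel.2.lt_normal with htop | ⟨K, hK, hFK, hKlt⟩
      · exfalso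
        apply hle
        rw [Subgroup.subgroupOf_eq_top] at htop
        exact Subgroup.commutator_mono le_rfl (le_sup_right.trans htop)
      · have hmap : K.map (F₁ ⊔ F₂).subtype < F₁ ⊔ F₂ := by
          refine lt_of_le_of_ne (Subgroup.map_subtype_le K) ?_
          intro heq
          apply hKlt.ne
          rw [eq_top_iff]
          intro x _
          have : (x : G) ∈ K.map (F₁ ⊔ F₂).subtype := by rw [heq]; exact x.2
          obtain ⟨z, hz, hzx⟩ := this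
          rwa [← Subtype.ext hzx]
        have hF1K : F₁ ≤ K.map (F₁ ⊔ F₂).subtype := by
          intro x hx
          exact ⟨⟨x, hFE hx⟩, hFK (by rw [Subgroup.mem_subgroupOf]; exact hx), rfl⟩
        have hF1yK : F₁.map (MulAut.conj y).toMonoidHom ≤ K.map (F₁ ⊔ F₂).subtype := by
          rintro _ ⟨x, hx, rfl⟩
          obtain ⟨z, hz, hzx⟩ := hF1K hx
          have hyE : y ∈ F₁ ⊔ F₂ := (le_sup_right : F₂ ≤ _) hy
          refine ⟨⟨y, hyE⟩ * z * ⟨y, hyE⟩⁻¹, hK.conj_mem z hz _, ?_⟩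
          rw [← hzx]
          rfl
        have hcard : Nat.card (F₁ ⊔ F₁.map (MulAut.conj y).toMonoidHom : Subgroup G) ≤ n := by
          have h3 : F₁ ⊔ F₁.map (MulAut.conj y).toMonoidHom < F₁ ⊔ F₂ := lt_of_le_of_lt (sup_le hF1K hF1yK) hmap
          have h4 := Set.ncard_lt_ncard (show ((F₁ ⊔ F₁.map (MulAut.conj y).toMonoidHom : Subgroup G) : Set G) ⊂ ((F₁ ⊔ F₂ : Subgroup G) : Set G) from h3) (Set.toFinite _)
          rw [← Nat.card_coe_set_eq, ← Nat.card_coe_set_eq] at h4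
          rw [hsup] at h4
          have h5 : Nat.card (F₁ ⊔ F₁.map (MulAut.conj y).toMonoidHom : Subgroup G) < Nat.card (E₁ ⊔ E₂ : Subgroup G) := h4
          omega
        have hVcard : Nat.card ((⁅V, F₁⁆ : Subgroup G).map (MulAut.conj y).toMonoidHom) = Nat.card (⁅V, F₁⁆ : Subgroup G) := card_conj _ _
        have hcm := conj_comm_map hyN F₁
        have hn1 : ¬ ⁅V, F₁⁆ ≤ ⁅V, F₁.map (MulAut.conj y).toMonoidHom⁆ := by
          rw [← hcm]
          intro h3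
          exact hyn (CfsgLib.H7Basic.cj_eq_self_iff.1 (Subgroup.eq_of_le_of_card_ge h3 hVcard.le).symm)
        have hn2 : ¬ ⁅V, F₁.map (MulAut.conj y).toMonoidHom⁆ ≤ ⁅V, F₁⁆ := by
          rw [← hcm]
          intro h3
          exact hyn (CfsgLib.H7Basic.cj_eq_self_iff.1 (Subgroup.eq_of_le_of_card_ge h3 hVcard.ge))
        obtain ⟨b1, b2, b3⟩ := ih F₁ (F₁.map (MulAut.conj y).toMonoidHom) hF1 (hF1.conj (hF2.1 hy)) hcard hi (hi.conj hyN) hn1 hn2 hcF (by rw [card_conj]; exact hcF)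
        rw [← hcm] at b3
        exact ⟨b1, b3⟩
    -- consequences
    have key2 : ∀ F₁ F₂ : Subgroup G, Sn Ω F₁ → Sn Ω F₂ → F₁ ⊔ F₂ = E₁ ⊔ E₂ → Irr V F₁ → ¬ ⁅V, F₂⁆ ≤ ⁅V, F₁⁆ → 2 < Nat.card F₁ →
        ∀ y ∈ F₂, y ∉ Subgroup.normalizer ((⁅V, F₁⁆ : Subgroup G) : Set G) → ∀ v ∈ ⁅V, F₁⁆, ∀ f ∈ F₁, f * (y * v * y⁻¹) * f⁻¹ = y * v * y⁻¹ := by
      intro F₁ F₂ hF1 hF2 hsup hi hle hcF y hy hyn v hv f hf
      obtain ⟨b1, b2⟩ := key F₁ F₂ hF1 hF2 hsup hi hle hcF y hy hyn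
      have hyN : y ∈ Subgroup.normalizer (V : Set G) := h.n (hF2.1 hy)
      have hFN : F₁ ≤ Subgroup.normalizer (V : Set G) := hF1.1.trans h.n
      have h3 : F₁ ≤ Subgroup.normalizer (((⁅V, F₁⁆ : Subgroup G).map (MulAut.conj y).toMonoidHom : Subgroup G) : Set G) := by
        intro z hz
        rw [conj_comm_map hyN]
        apply CfsgLib.PStabN.mem_normalizer_commutator (hFN hz)
        rw [Subgroup.commutator_eq_bot_iff_le_centralizer] at b1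
        exact CfsgLib.JSub.centralizer_le_normalizer _ (b1 hz)
      have h4 : ⁅(⁅V, F₁⁆ : Subgroup G).map (MulAut.conj y).toMonoidHom, F₁⁆ = ⊥ := by
        rw [eq_bot_iff, ← b2]
        apply le_inf
        · apply Subgroup.commutator_mono _ le_rfl
          rw [Subgroup.map_le_iff_le_comap]
          intro z hz
          exact (Subgroup.mem_normalizer_iff.mp hyN z).mp (CfsgLib.PL1.commutator_le_left hFN hz)
        · exact CfsgLib.PL1.commutator_le_left h3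
      have h5 : ⁅y * v * y⁻¹, f⁆ ∈ ⁅(⁅V, F₁⁆ : Subgroup G).map (MulAut.conj y).toMonoidHom, F₁⁆ :=
        Subgroup.commutator_mem_commutator ⟨v, hv, rfl⟩ hf
      rw [h4, Subgroup.mem_bot, commutatorElement_eq_one_iff_mul_comm] at h5
      rw [← h5]; group
    obtain ⟨y, hy, hyn⟩ := SetLike.not_le_iff_exists.mp hA
    obtain ⟨e₀, he₀, he₀n⟩ := SetLike.not_le_iff_exists.mp hB
    have hyN : y ∈ Subgroup.normalizer (V : Set G) := h.n (h2.1 hy)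
    have hV1V : ⁅V, E₁⁆ ≤ V := CfsgLib.PL1.commutator_le_left (h1.1.trans h.n)
    have ky := key E₁ E₂ h1 h2 rfl hi1 h21 hc1 y hy hyn
    have ky2 := key2 E₁ E₂ h1 h2 rfl hi1 h21 hc1 y hy hyn
    have hrel : ∀ e ∈ E₁, e ∉ Subgroup.normalizer ((⁅V, E₂⁆ : Subgroup G) : Set G) → ∀ v ∈ ⁅V, E₁⁆,
        y * ((e * v * e⁻¹)⁻¹ * (y * v * y⁻¹)) * y⁻¹ = (e * v * e⁻¹)⁻¹ * (y * v * y⁻¹) := by
      intro e he hen v hv
      have ke := key2 E₂ E₁ h2 h1 (sup_comm _ _) hi2 h12 hc2 e he hen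
      have hd : v⁻¹ * (y * v * y⁻¹) ∈ ⁅V, E₂⁆ := by
        have h3 : ⁅v⁻¹, y⁆ ∈ ⁅V, E₂⁆ := Subgroup.commutator_mem_commutator (V.inv_mem (hV1V hv)) hy
        rw [commutatorElement_def, inv_inv] at h3
        have h4 : v⁻¹ * (y * v * y⁻¹) = v⁻¹ * y * v * y⁻¹ := by group
        rw [h4]; exact h3
      have h3 := ke _ hd y hy
      have h4 : e * (v⁻¹ * (y * v * y⁻¹)) * e⁻¹ = (e * v * e⁻¹)⁻¹ * (y * v * y⁻¹) := by
        have h5 := ky2 v hv e he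
        calc e * (v⁻¹ * (y * v * y⁻¹)) * e⁻¹ = (e * v * e⁻¹)⁻¹ * (e * (y * v * y⁻¹) * e⁻¹) := by group
          _ = _ := by rw [h5]
      rw [h4] at h3
      exact h3
    have huniq : ∀ e ∈ E₁, e ∉ Subgroup.normalizer ((⁅V, E₂⁆ : Subgroup G) : Set G) →
        ∀ e' ∈ E₁, e' ∉ Subgroup.normalizer ((⁅V, E₂⁆ : Subgroup G) : Set G) → e = e' := by
      intro e he hen e' he' hen'
      have h3 : e'⁻¹ * e ∈ E₁ ⊓ Subgroup.centralizer ((⁅V, E₁⁆ : Subgroup G) : Set G) := by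
        refine Subgroup.mem_inf.mpr ⟨E₁.mul_mem (E₁.inv_mem he') he, ?_⟩
        rw [Subgroup.mem_centralizer_iff]
        intro v hv
        have hconjV : ∀ {g : G}, g ∈ Subgroup.normalizer (V : Set G) → ∀ z ∈ V, g * z * g⁻¹ ∈ V := fun hg z hz => (Subgroup.mem_normalizer_iff.mp hg z).mp hz
        have hev : e * v * e⁻¹ ∈ ⁅V, E₁⁆ := (Subgroup.mem_normalizer_iff.mp (norm_comm he) v).mp hv
        have hev' : e' * v * e'⁻¹ ∈ ⁅V, E₁⁆ := (Subgroup.mem_normalizer_iff.mp (norm_comm he') v).mp hv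
        have h4 := hrel e he hen v hv
        have h5 := hrel e' he' hen' v hv
        set w := e * v * e⁻¹ with hw
        set w' := e' * v * e'⁻¹ with hw'
        set t := y * v * y⁻¹ with ht
        have h6 : y * (w'⁻¹ * w) * y⁻¹ = w'⁻¹ * w := by
          have h7 : y * (w'⁻¹ * t * (w⁻¹ * t)⁻¹) * y⁻¹ = w'⁻¹ * t * (w⁻¹ * t)⁻¹ := by
            calc y * (w'⁻¹ * t * (w⁻¹ * t)⁻¹) * y⁻¹ = (y * (w'⁻¹ * t) * y⁻¹) * (y * (w⁻¹ * t) * y⁻¹)⁻¹ := by group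
              _ = _ := by rw [h4, h5]
          have h8 : w'⁻¹ * t * (w⁻¹ * t)⁻¹ = w'⁻¹ * w := by group
          rw [h8] at h7
          exact h7
        have h7 : w'⁻¹ * w ∈ ((⁅V, E₁⁆ : Subgroup G) ⊓ (⁅V, E₁⁆ : Subgroup G).map (MulAut.conj y).toMonoidHom : Subgroup G) := by
          refine Subgroup.mem_inf.mpr ⟨mul_mem (inv_mem hev') hev, ?_⟩
          exact ⟨w'⁻¹ * w, mul_mem (inv_mem hev') hev, h6⟩
        rw [ky.2, Subgroup.mem_bot] at h7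
        have h8 : w = w' := (inv_mul_eq_one.mp h7).symm
        calc v * (e'⁻¹ * e) = e'⁻¹ * w' * e := by rw [hw']; group
          _ = e'⁻¹ * w * e := by rw [h8]
          _ = e'⁻¹ * e * v := by rw [hw]; group
      rw [h.cent_bot h1, Subgroup.mem_bot] at h3
      exact (inv_mul_eq_one.mp h3).symm
    have hsub : (E₁ : Set G) ⊆ {1, e₀} := by
      intro x hx
      by_cases hxn : x ∈ Subgroup.normalizer ((⁅V, E₂⁆ : Subgroup G) : Set G)
      · left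
        have h3 : x * e₀ ∉ Subgroup.normalizer ((⁅V, E₂⁆ : Subgroup G) : Set G) := by
          intro h4
          apply he₀n
          have := mul_mem (inv_mem hxn) h4
          rwa [inv_mul_cancel_left] at this
        have h4 := huniq _ (E₁.mul_mem hx he₀) h3 _ he₀ he₀n
        exact mul_eq_right.mp h4
      · right
        exact huniq x hx hxn e₀ he₀ he₀n
    have h3 : Nat.card E₁ ≤ 2 := by
      have h4 := Set.ncard_le_ncard hsub (Set.toFinite _)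
      rw [← Nat.card_coe_set_eq] at h4
      have h5 : ({1, e₀} : Set G).ncard ≤ 2 := Set.ncard_insert_le _ _ |>.trans (by rw [Set.ncard_singleton])
      exact h4.trans h5
    omega

theorem s0615 (V E E₁ E₂ : Subgroup G) (hV : Cfsg.IsElementaryAbelian p V) (hEV : E ≤ Subgroup.normalizer (V : Set G))
    (hf : E ⊓ Subgroup.centralizer (V : Set G) = ⊥) (hgen : E = E₁ ⊔ E₂) (hs₁ : (E₁.subgroupOf E).IsSubnormal)
    (hs₂ : (E₂.subgroupOf E).IsSubnormal) (hOp : Cfsg.pCore p ↥E = ⊥) (hirr₁ : Irr V E₁) (hirr₂ : Irr V E₂)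
    (h12 : ¬ ⁅V, E₁⁆ ≤ ⁅V, E₂⁆) (h21 : ¬ ⁅V, E₂⁆ ≤ ⁅V, E₁⁆) (hc₁ : 2 < Nat.card E₁) (hc₂ : 2 < Nat.card E₂) :
    ⁅E₁, E₂⁆ = ⊥ ∧ E₁ ⊓ E₂ = ⊥ ∧ (⁅V, E₁⁆ ⊓ ⁅V, E₂⁆ : Subgroup G) = ⊥ ∧ ⁅V, E⁆ = (⁅V, E₁⁆ ⊔ ⁅V, E₂⁆ : Subgroup G) := by
  have h : Cf p V E := ⟨EA.isPGroup (EA_iff.mpr hV), (CfsgLib.H6PR.ea_iff.1 hV).1, hEV, hf, hOp⟩
  have hE1 : E₁ ≤ E := by rw [hgen]; exact le_sup_left
  have hE2 : E₂ ≤ E := by rw [hgen]; exact le_sup_right
  obtain ⟨a1, a2, a3⟩ := h.main _ E₁ E₂ ⟨hE1, hs₁⟩ ⟨hE2, hs₂⟩ le_rfl hirr₁ hirr₂ h12 h21 hc₁ hc₂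
  refine ⟨a1, a2, a3, ?_⟩
  rw [hgen, CfsgLib.PL1.commutator_sup_right (hE1.trans hEV) (hE2.trans hEV)]

end CfsgLib.BO
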