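import Cfsg.Agent.Lib.BO6
import Cfsg.Agent.Lib.BO7

/-! The natural module structure on `[V, L]`. -/
set_option autoImplicit false
set_option linter.style.haveILetI false
set_option linter.unusedVariables false

namespace CfsgLib.BO

universe u

open CfsgLib CfsgLib.JSub CfsgLib.Coprime CfsgLib.PL2 CfsgLib.PL3 CfsgLib.Dick CfsgLib.ThmA Subgroup
open scoped commutatorElement

variable {G : Type u} [Group G] {p : ℕ} [hp : Fact p.Prime]

/-- `W` is a natural `SL(2,p)`-module for `L` -/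
def NM (p : ℕ) [Fact p.Prime] (W L : Subgroup G) : Prop :=
  ∃ (w1 w2 : G) (e : L ≃* SL2 (ZMod p)), w1 ^ p = 1 ∧ w2 ^ p = 1 ∧ w1 * w2 = w2 * w1 ∧ Function.Injective (th (p := p) w1 w2) ∧
    (∀ w, w ∈ W ↔ ∃ c : Fin 2 → ZMod p, w = th w1 w2 c) ∧
    ∀ (x : L) (c : Fin 2 → ZMod p), (x : G) * th w1 w2 c * (x : G)⁻¹ = th w1 w2 (((e x : SL2 (ZMod p)) : Matrix (Fin 2) (Fin 2) (ZMod p)).mulVec c)

theorem sl2_of_coords' {a b w1 w2 : G} (h1 : w1 ^ p = 1) (h2 : w2 ^ p = 1) (hc : w1 * w2 = w2 * w1) (hn1 : w1 ≠ 1)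
    (hi : ∀ k : ℕ, w2 ^ k ∈ Subgroup.zpowers w1 → w2 ^ k = 1) (hn2 : w2 ≠ 1)
    (ha1 : a * w1 * a⁻¹ = w1) (ha2 : a * w2 * a⁻¹ = w1 * w2) (hb1 : b * w1 * b⁻¹ = w1 * w2) (hb2 : b * w2 * b⁻¹ = w2)
    (hf : ∀ x ∈ Subgroup.closure ({a, b} : Set G), x * w1 * x⁻¹ = w1 → x * w2 * x⁻¹ = w2 → x = 1) :
    ∃ e : Subgroup.closure ({a, b} : Set G) ≃* SL2 (ZMod p), ∀ (x : Subgroup.closure ({a, b} : Set G)) (c : Fin 2 → ZMod p),
      (x : G) * th w1 w2 c * (x : G)⁻¹ = th w1 w2 (((e x : SL2 (ZMod p)) : Matrix (Fin 2) (Fin 2) (ZMod p)).mulVec c) := by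
  classical
  have hcc : Commute w1 w2 := hc
  have hinj := th_inj (p := p) h1 h2 hc hn1 hi hn2
  have hval : ∀ i j : ZMod p, w1 ^ (i + j).val = w1 ^ i.val * w1 ^ j.val := fun i j => by rw [pow_val_add h1, pow_add]
  have hval2 : ∀ i j : ZMod p, w2 ^ (i + j).val = w2 ^ i.val * w2 ^ j.val := fun i j => by rw [pow_val_add h2, pow_add]
  set ua : SL2 (ZMod p) := mk2 (1 : ZMod p) 1 0 1 (by ring) with hua
  set ub : SL2 (ZMod p) := mk2 (1 : ZMod p) 0 1 1 (by ring) with hub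
  have hmv : ∀ (M : SL2 (ZMod p)) (c : Fin 2 → ZMod p), (M : Matrix (Fin 2) (Fin 2) (ZMod p)).mulVec c = ![M 0 0 * c 0 + M 0 1 * c 1, M 1 0 * c 0 + M 1 1 * c 1] := by
    intro M c
    funext i
    fin_cases i
    · simp [Matrix.mulVec, dotProduct, Fin.sum_univ_two]
    · simp [Matrix.mulVec, dotProduct, Fin.sum_univ_two]
  let r : G → SL2 (ZMod p) → Prop := fun x M => ∀ c, x * th w1 w2 c * x⁻¹ = th w1 w2 ((M : Matrix (Fin 2) (Fin 2) (ZMod p)).mulVec c)
  have hra : r a ua := by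
    intro c
    rw [hmv]
    show a * (w1 ^ (c 0).val * w2 ^ (c 1).val) * a⁻¹ = w1 ^ ((1 : ZMod p) * c 0 + 1 * c 1).val * w2 ^ ((0 : ZMod p) * c 0 + 1 * c 1).val
    rw [one_mul, one_mul, zero_mul, zero_add, hval]
    calc a * (w1 ^ (c 0).val * w2 ^ (c 1).val) * a⁻¹ = (a * w1 ^ (c 0).val * a⁻¹) * (a * w2 ^ (c 1).val * a⁻¹) := by group
      _ = (a * w1 * a⁻¹) ^ (c 0).val * (a * w2 * a⁻¹) ^ (c 1).val := by rw [conj_pow, conj_pow]
      _ = w1 ^ (c 0).val * (w1 ^ (c 1).val * w2 ^ (c 1).val) := by rw [ha1, ha2, hcc.mul_pow]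
      _ = _ := by group
  have hrb : r b ub := by
    intro c
    rw [hmv]
    show b * (w1 ^ (c 0).val * w2 ^ (c 1).val) * b⁻¹ = w1 ^ ((1 : ZMod p) * c 0 + 0 * c 1).val * w2 ^ ((1 : ZMod p) * c 0 + 1 * c 1).val
    rw [one_mul, one_mul, zero_mul, add_zero, hval2]
    calc b * (w1 ^ (c 0).val * w2 ^ (c 1).val) * b⁻¹ = (b * w1 ^ (c 0).val * b⁻¹) * (b * w2 ^ (c 1).val * b⁻¹) := by group
      _ = (b * w1 * b⁻¹) ^ (c 0).val * (b * w2 * b⁻¹) ^ (c 1).val := by rw [conj_pow, conj_pow]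
      _ = (w1 ^ (c 0).val * w2 ^ (c 0).val) * w2 ^ (c 1).val := by rw [hb1, hb2, hcc.mul_pow]
      _ = _ := by group
  have hr1 : r 1 1 := by
    intro c
    rw [Matrix.SpecialLinearGroup.coe_one, Matrix.one_mulVec]
    group
  have hrmul : ∀ x y M N, r x M → r y N → r (x * y) (M * N) := by
    intro x y M N hx hy c
    rw [Matrix.SpecialLinearGroup.coe_mul, ← Matrix.mulVec_mulVec, ← hx, ← hy]
    group
  have hrinv : ∀ x M, r x M → r x⁻¹ M⁻¹ := by
    intro x M hx c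
    have h3 := hx (((M⁻¹ : SL2 (ZMod p)) : Matrix (Fin 2) (Fin 2) (ZMod p)).mulVec c)
    rw [Matrix.mulVec_mulVec, ← Matrix.SpecialLinearGroup.coe_mul, mul_inv_cancel, Matrix.SpecialLinearGroup.coe_one, Matrix.one_mulVec] at h3
    rw [← h3]
    group
  have hex : ∀ x : Subgroup.closure ({a, b} : Set G), ∃ M, r (x : G) M := by
    rintro ⟨x, hx⟩
    induction hx using Subgroup.closure_induction with
    | mem x hx =>
      rcases hx with rfl | hx
      · exact ⟨ua, hra⟩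
      · rw [Set.mem_singleton_iff] at hx
        subst hx
        exact ⟨ub, hrb⟩
    | one => exact ⟨1, hr1⟩
    | mul x y hx hy ihx ihy =>
      obtain ⟨M, hM⟩ := ihx
      obtain ⟨N, hN⟩ := ihy
      exact ⟨M * N, hrmul _ _ _ _ hM hN⟩
    | inv x hx ihx =>
      obtain ⟨M, hM⟩ := ihx
      exact ⟨M⁻¹, hrinv _ _ hM⟩
  have hun : ∀ (x : Subgroup.closure ({a, b} : Set G)) M N, r (x : G) M → r (x : G) N → M = N := by
    intro x M N hM hN
    apply Subtype.ext
    apply mulVec_inj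
    intro c
    exact hinj ((hM c).symm.trans (hN c))
  obtain ⟨f, hfr⟩ := exists_hom_of_rel (fun (x : Subgroup.closure ({a, b} : Set G)) M => r (x : G) M) hex hun
    (fun x y M N hx hy => hrmul _ _ _ _ hx hy)
  have hfinj : Function.Injective f := by
    rw [injective_iff_map_eq_one]
    intro x hx
    have h3 := hfr x
    rw [hx] at h3
    have h4 : ∀ c : Fin 2 → ZMod p, (x : G) * th w1 w2 c * (x : G)⁻¹ = th w1 w2 c := by
      intro c
      have := h3 c
      rwa [Matrix.SpecialLinearGroup.coe_one, Matrix.one_mulVec] at this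
    have hv1 : (1 : ZMod p).val = 1 := by
      haveI : Fact (1 < p) := ⟨hp.out.one_lt⟩
      exact ZMod.val_one p
    have e1 : th w1 w2 (![1, 0] : Fin 2 → ZMod p) = w1 := by
      show w1 ^ (1 : ZMod p).val * w2 ^ (0 : ZMod p).val = w1
      rw [hv1, ZMod.val_zero, pow_one, pow_zero, mul_one]
    have e2 : th w1 w2 (![0, 1] : Fin 2 → ZMod p) = w2 := by
      show w1 ^ (0 : ZMod p).val * w2 ^ (1 : ZMod p).val = w2
      rw [hv1, ZMod.val_zero, pow_one, pow_zero, one_mul]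
    apply Subtype.ext
    apply hf x x.2
    · have := h4 ![1, 0]
      rwa [e1] at this
    · have := h4 ![0, 1]
      rwa [e2] at this
  have hfsurj : Function.Surjective f := by
    rw [← MonoidHom.range_eq_top]
    apply sl2_generate
    · refine ⟨⟨a, Subgroup.subset_closure (by simp)⟩, ?_⟩
      exact hun _ _ _ (hfr _) hra
    · refine ⟨⟨b, Subgroup.subset_closure (by simp)⟩, ?_⟩
      exact hun _ _ _ (hfr _) hrb
  exact ⟨MulEquiv.ofBijective f ⟨hfinj, hfsurj⟩, fun x c => hfr x c⟩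


variable [Finite G]

theorem pair' {V : Subgroup G} {a b : G} (haN : a ∈ Subgroup.normalizer (V : Set G)) (hbN : b ∈ Subgroup.normalizer (V : Set G))
    (hVc : ∀ x ∈ V, ∀ y ∈ V, x * y = y * x)
    (hap : a ^ p = 1) (hbp : b ^ p = 1) (ha1 : a ≠ 1) (hb1 : b ≠ 1)
    (hUa : Nat.card (⁅V, Subgroup.zpowers a⁆ : Subgroup G) = p) (hUb : Nat.card (⁅V, Subgroup.zpowers b⁆ : Subgroup G) = p)
    (hL : (Subgroup.zpowers a ⊔ Subgroup.zpowers b) ⊓
      Subgroup.centralizer ((⁅V, Subgroup.zpowers a ⊔ Subgroup.zpowers b⁆ : Subgroup G) : Set G) = ⊥) :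
    NM p (⁅V, Subgroup.zpowers a ⊔ Subgroup.zpowers b⁆ : Subgroup G) (Subgroup.zpowers a ⊔ Subgroup.zpowers b : Subgroup G) := by
  classical
  have hpp := hp.out
  set Ua : Subgroup G := ⁅V, Subgroup.zpowers a⁆ with hUa'
  set Ub : Subgroup G := ⁅V, Subgroup.zpowers b⁆ with hUb'
  set L : Subgroup G := Subgroup.zpowers a ⊔ Subgroup.zpowers b with hL'
  have hoa : orderOf a = p := orderOf_eq_prime hap ha1
  have hob : orderOf b = p := orderOf_eq_prime hbp hb1
  have hpa : IsPGroup p (Subgroup.zpowers a) := IsPGroup.of_card (n := 1) (by rw [Nat.card_zpowers, hoa, pow_one])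
  have hpb : IsPGroup p (Subgroup.zpowers b) := IsPGroup.of_card (n := 1) (by rw [Nat.card_zpowers, hob, pow_one])
  have hzaN : Subgroup.zpowers a ≤ Subgroup.normalizer (V : Set G) := Subgroup.zpowers_le.mpr haN
  have hzbN : Subgroup.zpowers b ≤ Subgroup.normalizer (V : Set G) := Subgroup.zpowers_le.mpr hbN
  have hLN : L ≤ Subgroup.normalizer (V : Set G) := sup_le hzaN hzbN
  have hUaV : Ua ≤ V := CfsgLib.PL1.commutator_le_left hzaN
  have hUbV : Ub ≤ V := CfsgLib.PL1.commutator_le_left hzbN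
  have hcab : ∀ u ∈ Ua, ∀ z ∈ Ub, u * z = z * u := fun u hu z hz => hVc u (hUaV hu) z (hUbV hz)
  -- `[V,L]`
  have hW : (⁅V, L⁆ : Subgroup G) = Ua ⊔ Ub := by
    apply le_antisymm
    · rw [CfsgLib.PL1.commutator_le_iff hLN]
      apply sup_le
      · rw [← CfsgLib.PL1.commutator_le_iff hzaN]; exact le_sup_left
      · rw [← CfsgLib.PL1.commutator_le_iff hzbN]; exact le_sup_right
    · exact sup_le (Subgroup.commutator_mono le_rfl le_sup_left) (Subgroup.commutator_mono le_rfl le_sup_right)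
  have hzaUa : Subgroup.zpowers a ≤ Subgroup.normalizer (Ua : Set G) := by
    rw [hUa', Subgroup.commutator_comm]; exact CfsgLib.PStabN.le_normalizer_commutator
  have hzbUb : Subgroup.zpowers b ≤ Subgroup.normalizer (Ub : Set G) := by
    rw [hUb', Subgroup.commutator_comm]; exact CfsgLib.PStabN.le_normalizer_commutator
  have hca := cent_of_card hUa hpa hzaUa a (Subgroup.mem_zpowers a)
  have hcb := cent_of_card hUb hpb hzbUb b (Subgroup.mem_zpowers b)
  have haL : a ∈ L := (le_sup_left : Subgroup.zpowers a ≤ L) (Subgroup.mem_zpowers a)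
  have hbL : b ∈ L := (le_sup_right : Subgroup.zpowers b ≤ L) (Subgroup.mem_zpowers b)
  have hfaith : ∀ x ∈ L, (∀ u ∈ Ua, x * u * x⁻¹ = u) → (∀ u ∈ Ub, x * u * x⁻¹ = u) → x = 1 := by
    intro x hx h1 h2
    have h3 : x ∈ L ⊓ Subgroup.centralizer ((⁅V, L⁆ : Subgroup G) : Set G) := by
      refine Subgroup.mem_inf.mpr ⟨hx, ?_⟩
      rw [hW, Subgroup.sup_eq_closure, Subgroup.centralizer_closure, Subgroup.mem_centralizer_iff]
      rintro u (hu | hu)
      · have := h1 u hu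
        calc u * x = (x * u * x⁻¹) * x := by rw [this]
          _ = x * u := by group
      · have := h2 u hu
        calc u * x = (x * u * x⁻¹) * x := by rw [this]
          _ = x * u := by group
    rw [hL, Subgroup.mem_bot] at h3
    exact h3
  have hgen : ∀ {U : Subgroup G}, Nat.card U = p → ∀ w ∈ U, w ≠ 1 → ∀ u ∈ U, ∃ k : ℕ, u = w ^ k := by
    intro U hU w hw hw1 u hu
    have h1 : orderOf w = p := by
      have h2 : orderOf w ∣ p := by rw [← hU]; exact Subgroup.orderOf_dvd_natCard U hw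
      rcases (Nat.dvd_prime hpp).mp h2 with h3 | h3
      · exact absurd (orderOf_eq_one_iff.mp h3) hw1
      · exact h3
    have h2 : Subgroup.zpowers w = U := by
      apply Subgroup.eq_of_le_of_card_ge (Subgroup.zpowers_le.mpr hw)
      rw [Nat.card_zpowers, h1, hU]
    rw [← h2] at hu
    obtain ⟨k, hk⟩ := mem_powers_iff_mem_zpowers.mpr hu
    exact ⟨k, hk.symm⟩
  have hexp : ∀ {U : Subgroup G}, Nat.card U = p → ∀ u ∈ U, u ^ p = 1 := by
    intro U hU u hu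
    have h1 : orderOf u ∣ p := by rw [← hU]; exact Subgroup.orderOf_dvd_natCard U hu
    exact orderOf_dvd_iff_pow_eq_one.mp h1
  have hnontriv : ∀ {U : Subgroup G}, Nat.card U = p → ∃ w ∈ U, w ≠ 1 := by
    intro U hU
    by_contra hcon
    push Not at hcon
    have h1 : U = ⊥ := (Subgroup.eq_bot_iff_forall U).mpr hcon
    rw [h1, Subgroup.card_bot] at hU
    exact hpp.one_lt.ne hU
  obtain ⟨w2, hw2, hw21⟩ := hnontriv hUb
  -- `w1 = [a, w2]`
  have haV : a * w2 * a⁻¹ * w2⁻¹ ∈ Ua := by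
    have h1 : ⁅w2, a⁆ ∈ Ua := Subgroup.commutator_mem_commutator (hUbV hw2) (Subgroup.mem_zpowers a)
    have h2 : a * w2 * a⁻¹ * w2⁻¹ = (⁅w2, a⁆)⁻¹ := by rw [commutatorElement_def]; group
    rw [h2]; exact Ua.inv_mem h1
  set w1 := a * w2 * a⁻¹ * w2⁻¹ with hw1
  have hw1U : w1 ∈ Ua := haV
  have hw11 : w1 ≠ 1 := by
    intro h
    apply ha1
    apply hfaith a haL hca
    intro u hu
    obtain ⟨k, rfl⟩ := hgen hUb w2 hw2 hw21 u hu
    rw [← conj_pow]
    have h1 : a * w2 * a⁻¹ = w2 := by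
      have : a * w2 * a⁻¹ = w1 * w2 := by rw [hw1]; group
      rw [this, h, one_mul]
    rw [h1]
  have ha2 : a * w2 * a⁻¹ = w1 * w2 := by rw [hw1]; group
  have hbV : b * w1 * b⁻¹ * w1⁻¹ ∈ Ub := by
    have h1 : ⁅w1, b⁆ ∈ Ub := Subgroup.commutator_mem_commutator (hUaV hw1U) (Subgroup.mem_zpowers b)
    have h2 : b * w1 * b⁻¹ * w1⁻¹ = (⁅w1, b⁆)⁻¹ := by rw [commutatorElement_def]; group
    rw [h2]; exact Ub.inv_mem h1
  obtain ⟨k, hk⟩ := hgen hUb w2 hw2 hw21 _ hbV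
  have hbw : b * w1 * b⁻¹ = w1 * w2 ^ k := by
    have h1 : b * w1 * b⁻¹ = w2 ^ k * w1 := by rw [← hk]; group
    rw [h1, hcab w1 hw1U _ (Ub.pow_mem hw2 k)]
  have hkp : k.Coprime p := by
    rw [Nat.coprime_comm, Nat.Prime.coprime_iff_not_dvd hpp]
    rintro ⟨m, hm⟩
    have h2 : w2 ^ k = 1 := by rw [hm, pow_mul, hexp hUb w2 hw2, one_pow]
    rw [h2, mul_one] at hbw
    apply hb1
    apply hfaith b hbL _ hcb
    intro u hu
    obtain ⟨j, rfl⟩ := hgen hUa w1 hw1U hw11 u hu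
    rw [← conj_pow, hbw]
  have hbpow : ∀ n : ℕ, b ^ n * w1 * (b ^ n)⁻¹ = w1 * w2 ^ (k * n) := by
    intro n
    induction n with
    | zero => simp
    | succ n ih =>
      have h1 : b ^ (n + 1) * w1 * (b ^ (n + 1))⁻¹ = b * (b ^ n * w1 * (b ^ n)⁻¹) * b⁻¹ := by rw [pow_succ']; group
      rw [h1, ih]
      calc b * (w1 * w2 ^ (k * n)) * b⁻¹ = (b * w1 * b⁻¹) * (b * w2 ^ (k * n) * b⁻¹) := by group
        _ = w1 * w2 ^ k * (w2 ^ (k * n)) := by rw [hbw, hcb _ (Ub.pow_mem hw2 _)]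
        _ = w1 * (w2 ^ k * w2 ^ (k * n)) := by group
        _ = w1 * w2 ^ (k * (n + 1)) := by rw [← pow_add]; congr 2; ring
  obtain ⟨m, hm⟩ : ∃ m : ℕ, k * m ≡ 1 [MOD p] := by
    obtain ⟨m, -, hm⟩ := Nat.exists_mul_mod_eq_one_of_coprime hkp hpp.one_lt
    refine ⟨m, ?_⟩
    unfold Nat.ModEq
    rw [hm, Nat.mod_eq_of_lt hpp.one_lt]
  have hw2m : w2 ^ (k * m) = w2 := by
    have h1 := pow_eq_pow_iff_modEq (x := w2) (n := k * m) (m := 1)
    have h2 : orderOf w2 = p := orderOf_eq_prime (hexp hUb w2 hw2) hw21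
    rw [h2, pow_one] at h1
    exact h1.mpr hm
  have hb' : (b ^ m) ^ k = b := by
    have h1 := pow_eq_pow_iff_modEq (x := b) (n := k * m) (m := 1)
    rw [hob, pow_one] at h1
    rw [← pow_mul, mul_comm m k]
    exact h1.mpr hm
  have hclos : Subgroup.closure ({a, b ^ m} : Set G) = L := by
    apply le_antisymm
    · rw [Subgroup.closure_le]
      rintro x (rfl | hx)
      · exact haL
      · rw [Set.mem_singleton_iff] at hx; subst hx; exact L.pow_mem hbL m
    · apply sup_le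
      · rw [Subgroup.zpowers_le]; exact Subgroup.subset_closure (by simp)
      · rw [Subgroup.zpowers_le]
        have h1 : (b ^ m) ^ k ∈ Subgroup.closure ({a, b ^ m} : Set G) := Subgroup.pow_mem _ (Subgroup.subset_closure (by simp)) k
        rwa [hb'] at h1
  have hdisj : Ua ⊓ Ub = ⊥ := by
    rw [Subgroup.eq_bot_iff_forall]
    intro z hz
    by_contra hz1
    obtain ⟨hza, hzb⟩ := Subgroup.mem_inf.mp hz
    apply ha1
    apply hfaith a haL hca
    intro u hu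
    obtain ⟨j, rfl⟩ := hgen hUb z hzb hz1 u hu
    exact hca _ (Ua.pow_mem hza j)
  have hrange : ∀ w, w ∈ (⁅V, L⁆ : Subgroup G) ↔ ∃ c : Fin 2 → ZMod p, w = th w1 w2 c := by
    intro w
    rw [hW]
    constructor
    · intro hw
      have hn : Ub ≤ Subgroup.normalizer (Ua : Set G) := by
        intro x hx
        apply CfsgLib.H7Basic.mem_normalizer_of_conj_mem
        intro u hu
        rw [← hcab u hu x hx, mul_inv_cancel_right]; exact hu
      obtain ⟨u, hu, z, hz, rfl⟩ := (CfsgLib.Coprime.mem_sup_iff hn w).mp hw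
      obtain ⟨i, rfl⟩ := hgen hUa w1 hw1U hw11 u hu
      obtain ⟨j, rfl⟩ := hgen hUb w2 hw2 hw21 z hz
      refine ⟨![(i : ZMod p), (j : ZMod p)], ?_⟩
      show w1 ^ i * w2 ^ j = w1 ^ ((i : ZMod p)).val * w2 ^ ((j : ZMod p)).val
      have hred : ∀ {z : G}, z ^ p = 1 → ∀ n : ℕ, z ^ ((n : ZMod p)).val = z ^ n := by
        intro z hz n
        rw [ZMod.val_natCast]
        exact (pow_eq_pow_mod n hz).symm
      rw [hred (hexp hUa w1 hw1U), hred (hexp hUb w2 hw2)]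
    · rintro ⟨c, rfl⟩
      exact Subgroup.mul_mem_sup (Ua.pow_mem hw1U _) (Ub.pow_mem hw2 _)
  have hind : ∀ j : ℕ, w2 ^ j ∈ Subgroup.zpowers w1 → w2 ^ j = 1 := by
    intro j hj
    have h1 : w2 ^ j ∈ Ua ⊓ Ub := ⟨(Subgroup.zpowers_le.mpr hw1U) hj, Ub.pow_mem hw2 j⟩
    rw [hdisj, Subgroup.mem_bot] at h1
    exact h1
  have hcoord := sl2_of_coords' (p := p) (a := a) (b := b ^ m) (hexp hUa w1 hw1U) (hexp hUb w2 hw2) (hcab w1 hw1U w2 hw2) hw11 hind hw21 (hca w1 hw1U) ha2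
    (by rw [hbpow, hw2m])
    (by
      have h1 := cent_of_card hUb hpb hzbUb (b ^ m) (Subgroup.pow_mem _ (Subgroup.mem_zpowers b) m)
      exact h1 w2 hw2)
    (by
      intro x hx h1 h2
      rw [hclos] at hx
      apply hfaith x hx
      · intro u hu
        obtain ⟨j, rfl⟩ := hgen hUa w1 hw1U hw11 u hu
        rw [← conj_pow, h1]
      · intro u hu
        obtain ⟨j, rfl⟩ := hgen hUb w2 hw2 hw21 u hu
        rw [← conj_pow, h2])
  rw [hclos] at hcoord
  obtain ⟨e, he⟩ := hcoord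
  exact ⟨w1, w2, e, hexp hUa w1 hw1U, hexp hUb w2 hw2, hcab w1 hw1U w2 hw2,
    th_inj (hexp hUa w1 hw1U) (hexp hUb w2 hw2) (hcab w1 hw1U w2 hw2) hw11 hind hw21, hrange, he⟩


variable {V K : Subgroup G} {a : G}

theorem Mo.pair' (h : Mo p V K a) {x : G} (hx : x ∈ K) (hxa : x * a ≠ a * x) :
    NM p (⁅V, Subgroup.zpowers a ⊔ Subgroup.zpowers (x * a * x⁻¹)⁆ : Subgroup G) (Subgroup.zpowers a ⊔ Subgroup.zpowers (x * a * x⁻¹) : Subgroup G) := by
  have hPbot0 := (h.pair hx hxa).2.2.1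
  classical
  have hpp := hp.out
  set b := x * a * x⁻¹ with hb
  set X := K ⊔ Subgroup.zpowers a with hX
  set L := Subgroup.zpowers a ⊔ Subgroup.zpowers b with hL
  set W : Subgroup G := ⁅V, L⁆ with hW
  have hXN : X ≤ Subgroup.normalizer (V : Set G) := sup_le h.KN (Subgroup.zpowers_le.mpr h.aN)
  have hLX : L ≤ X := sup_le le_sup_right (Subgroup.zpowers_le.mpr (h.conj_mem hx))
  have hLN : L ≤ Subgroup.normalizer (V : Set G) := hLX.trans hXN
  have hbN : b ∈ Subgroup.normalizer (V : Set G) := hXN (h.conj_mem hx)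
  have hob : orderOf b = p := by rw [← h.order]; exact (MulAut.conj x).orderOf_eq a
  have hbp : b ^ p = 1 := by rw [← hob]; exact pow_orderOf_eq_one b
  have hb1 : b ≠ 1 := by intro h1; rw [h1, orderOf_one] at hob; exact hpp.one_lt.ne hob
  have hcB : Nat.card (Subgroup.zpowers b) = p := by rw [Nat.card_zpowers, hob]
  have haL : a ∈ L := (le_sup_left : Subgroup.zpowers a ≤ L) (Subgroup.mem_zpowers a)
  have hbL : b ∈ L := (le_sup_right : Subgroup.zpowers b ≤ L) (Subgroup.mem_zpowers b)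
  set P := L ⊓ Subgroup.centralizer (W : Set G) with hP
  exact CfsgLib.BO.pair' h.aN hbN h.vc h.ap hbp h.a1 hb1 h.U (by rw [hb, card_comm_conj (h.KN hx)]; exact h.U) hPbot0


end CfsgLib.BO
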