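import Cfsg.Agent.Lib.BO8

/-! Natural modules. -/
set_option autoImplicit false
set_option linter.style.haveILetI false
set_option linter.unusedVariables false

namespace CfsgLib.BO

universe u

open CfsgLib CfsgLib.JSub CfsgLib.Coprime CfsgLib.PL2 CfsgLib.PL3 CfsgLib.Dick CfsgLib.ThmA Subgroup
open scoped commutatorElement

variable {G : Type u} [Group G] {p : ℕ} [hp : Fact p.Prime] {W L : Subgroup G}

theorem th_zero {w1 w2 : G} : th (p := p) w1 w2 0 = 1 := by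
  show w1 ^ (0 : ZMod p).val * w2 ^ (0 : ZMod p).val = 1
  rw [ZMod.val_zero, pow_zero, pow_zero, mul_one]

theorem th_smul {w1 w2 : G} (h1 : w1 ^ p = 1) (h2 : w2 ^ p = 1) (hc : w1 * w2 = w2 * w1) (n : ℕ) (c : Fin 2 → ZMod p) :
    th w1 w2 ((n : ZMod p) • c) = th w1 w2 c ^ n := by
  induction n with
  | zero => rw [Nat.cast_zero, zero_smul, th_zero, pow_zero]
  | succ n ih => rw [Nat.cast_succ, add_smul, one_smul, th_add h1 h2 hc, ih, pow_succ]

theorem th_e1 {w1 w2 : G} : th w1 w2 (![1, 0] : Fin 2 → ZMod p) = w1 := by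
  haveI : Fact (1 < p) := ⟨hp.out.one_lt⟩
  show w1 ^ (1 : ZMod p).val * w2 ^ (0 : ZMod p).val = w1
  rw [ZMod.val_one p, ZMod.val_zero, pow_one, pow_zero, mul_one]

theorem th_e2 {w1 w2 : G} : th w1 w2 (![0, 1] : Fin 2 → ZMod p) = w2 := by
  haveI : Fact (1 < p) := ⟨hp.out.one_lt⟩
  show w1 ^ (0 : ZMod p).val * w2 ^ (1 : ZMod p).val = w2
  rw [ZMod.val_one p, ZMod.val_zero, pow_one, pow_zero, one_mul]

theorem NM.card (h : NM p W L) : Nat.card W = p ^ 2 := by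
  obtain ⟨w1, w2, e, h1, h2, hc, hinj, hr, he⟩ := h
  have e1 : (Fin 2 → ZMod p) ≃ W := Equiv.ofBijective (fun c => ⟨th w1 w2 c, (hr _).mpr ⟨c, rfl⟩⟩) (by
    constructor
    · intro c d hcd
      exact hinj (congrArg Subtype.val hcd)
    · rintro ⟨w, hw⟩
      obtain ⟨c, rfl⟩ := (hr w).mp hw
      exact ⟨c, rfl⟩)
  rw [← Nat.card_congr e1, Nat.card_fun, Nat.card_zmod, Nat.card_eq_fintype_card, Fintype.card_fin]

theorem NM.vc (h : NM p W L) : ∀ x ∈ W, ∀ y ∈ W, x * y = y * x := by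
  obtain ⟨w1, w2, e, h1, h2, hc, hinj, hr, he⟩ := h
  intro x hx y hy
  obtain ⟨c, rfl⟩ := (hr x).mp hx
  obtain ⟨d, rfl⟩ := (hr y).mp hy
  rw [← th_add h1 h2 hc, ← th_add h1 h2 hc, add_comm]

theorem NM.norm (h : NM p W L) [Finite G] : L ≤ Subgroup.normalizer (W : Set G) := by
  obtain ⟨w1, w2, e, h1, h2, hc, hinj, hr, he⟩ := h
  intro x hx
  apply CfsgLib.H7Basic.mem_normalizer_of_conj_mem
  intro w hw
  obtain ⟨c, rfl⟩ := (hr w).mp hw
  rw [he ⟨x, hx⟩ c, hr]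
  exact ⟨_, rfl⟩

theorem NM.faithful (h : NM p W L) : L ⊓ Subgroup.centralizer (W : Set G) = ⊥ := by
  obtain ⟨w1, w2, e, h1, h2, hc, hinj, hr, he⟩ := h
  rw [Subgroup.eq_bot_iff_forall]
  intro x hx
  obtain ⟨hx1, hx2⟩ := Subgroup.mem_inf.mp hx
  have h3 : e ⟨x, hx1⟩ = 1 := by
    apply Subtype.ext
    apply mulVec_inj
    intro c
    apply hinj
    rw [← he ⟨x, hx1⟩ c, Matrix.SpecialLinearGroup.coe_one, Matrix.one_mulVec]
    have h4 := Subgroup.mem_centralizer_iff.mp hx2 (th w1 w2 c) ((hr _).mpr ⟨c, rfl⟩)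
    show x * th w1 w2 c * x⁻¹ = th w1 w2 c
    rw [← h4]; group
  have h4 : (⟨x, hx1⟩ : L) = 1 := e.injective (by rw [h3, map_one])
  exact congrArg Subtype.val h4

theorem NM.fix (h : NM p W L) {w : G} (hw : w ∈ W) (hf : ∀ x ∈ L, x * w * x⁻¹ = w) : w = 1 := by
  obtain ⟨w1, w2, e, h1, h2, hc, hinj, hr, he⟩ := h
  obtain ⟨c, rfl⟩ := (hr w).mp hw
  have h3 : ∀ M : SL2 (ZMod p), (M : Matrix (Fin 2) (Fin 2) (ZMod p)).mulVec c = c := by
    intro M
    apply hinj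
    have h4 := he (e.symm M) c
    rw [MulEquiv.apply_symm_apply] at h4
    rw [← h4]
    exact hf _ (e.symm M).2
  have h4 := congrFun (h3 (mk2 (1 : ZMod p) 1 0 1 (by ring))) 0
  have h5 := congrFun (h3 (mk2 (1 : ZMod p) 0 1 1 (by ring))) 1
  have h6 : c 1 = 0 := by
    have : (((mk2 (1 : ZMod p) 1 0 1 (by ring) : SL2 (ZMod p)) : Matrix (Fin 2) (Fin 2) (ZMod p)).mulVec c) 0 = c 0 + c 1 := by
      show ((!![1, 1; 0, 1] : Matrix (Fin 2) (Fin 2) (ZMod p)).mulVec c) 0 = c 0 + c 1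
      simp [Matrix.mulVec, dotProduct, Fin.sum_univ_two]
    rw [this] at h4
    simpa using h4
  have h7 : c 0 = 0 := by
    have : (((mk2 (1 : ZMod p) 0 1 1 (by ring) : SL2 (ZMod p)) : Matrix (Fin 2) (Fin 2) (ZMod p)).mulVec c) 1 = c 0 + c 1 := by
      show ((!![1, 0; 1, 1] : Matrix (Fin 2) (Fin 2) (ZMod p)).mulVec c) 1 = c 0 + c 1
      simp [Matrix.mulVec, dotProduct, Fin.sum_univ_two]
    rw [this] at h5
    simpa using h5
  have h8 : c = 0 := by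
    funext i
    fin_cases i
    · exact h7
    · exact h6
  rw [h8, th_zero]

/-- any `p`-element normalising `W` agrees on `W` with an element of `L` -/
theorem NM.lift (h : NM p W L) {t : G} (ht : t ∈ Subgroup.normalizer (W : Set G)) (htp : t ^ p = 1) :
    ∃ s ∈ L, ∀ w ∈ W, s * w * s⁻¹ = t * w * t⁻¹ := by
  obtain ⟨w1, w2, e, h1, h2, hc, hinj, hr, he⟩ := h
  have hw : ∀ c : Fin 2 → ZMod p, ∃ d : Fin 2 → ZMod p, t * th w1 w2 c * t⁻¹ = th w1 w2 d := by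
    intro c
    exact (hr _).mp ((Subgroup.mem_normalizer_iff.mp ht _).mp ((hr _).mpr ⟨c, rfl⟩))
  obtain ⟨c1, hc1⟩ := hw ![1, 0]
  obtain ⟨c2, hc2⟩ := hw ![0, 1]
  rw [th_e1] at hc1
  rw [th_e2] at hc2
  set M : Matrix (Fin 2) (Fin 2) (ZMod p) := !![c1 0, c2 0; c1 1, c2 1] with hM
  have hMc : ∀ c : Fin 2 → ZMod p, M.mulVec c = (c 0) • c1 + (c 1) • c2 := by
    intro c
    funext i
    have e0 : M.mulVec c 0 = M 0 0 * c 0 + M 0 1 * c 1 := by simp only [Matrix.mulVec, dotProduct, Fin.sum_univ_two]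
    have e1 : M.mulVec c 1 = M 1 0 * c 0 + M 1 1 * c 1 := by simp only [Matrix.mulVec, dotProduct, Fin.sum_univ_two]
    fin_cases i
    · show M.mulVec c 0 = c 0 * c1 0 + c 1 * c2 0
      rw [e0]
      show c1 0 * c 0 + c2 0 * c 1 = c 0 * c1 0 + c 1 * c2 0
      ring
    · show M.mulVec c 1 = c 0 * c1 1 + c 1 * c2 1
      rw [e1]
      show c1 1 * c 0 + c2 1 * c 1 = c 0 * c1 1 + c 1 * c2 1
      ring
  have hact : ∀ c : Fin 2 → ZMod p, t * th w1 w2 c * t⁻¹ = th w1 w2 (M.mulVec c) := by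
    intro c
    have h3 : t * th w1 w2 c * t⁻¹ = (t * w1 * t⁻¹) ^ (c 0).val * (t * w2 * t⁻¹) ^ (c 1).val := by
      rw [conj_pow, conj_pow]
      show t * (w1 ^ (c 0).val * w2 ^ (c 1).val) * t⁻¹ = _
      group
    rw [h3, hc1, hc2, ← th_smul h1 h2 hc, ← th_smul h1 h2 hc, ← th_add h1 h2 hc, hMc, ZMod.natCast_zmod_val, ZMod.natCast_zmod_val]
  have hpow : ∀ (n : ℕ) (c : Fin 2 → ZMod p), t ^ n * th w1 w2 c * (t ^ n)⁻¹ = th w1 w2 ((M ^ n).mulVec c) := by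
    intro n
    induction n with
    | zero => intro c; rw [pow_zero, pow_zero, Matrix.one_mulVec]; group
    | succ n ih =>
      intro c
      have h3 : t ^ (n + 1) * th w1 w2 c * (t ^ (n + 1))⁻¹ = t * (t ^ n * th w1 w2 c * (t ^ n)⁻¹) * t⁻¹ := by rw [pow_succ']; group
      rw [h3, ih, hact, Matrix.mulVec_mulVec, pow_succ']
  have hMp : M ^ p = 1 := by
    apply mulVec_inj
    intro c
    apply hinj
    rw [← hpow, htp, Matrix.one_mulVec]; group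
  have hdet : M.det = 1 := by
    have h3 : M.det ^ p = 1 := by rw [← Matrix.det_pow, hMp, Matrix.det_one]
    rwa [ZMod.pow_card] at h3
  refine ⟨e.symm ⟨M, hdet⟩, (e.symm ⟨M, hdet⟩).2, ?_⟩
  intro w hw
  obtain ⟨c, rfl⟩ := (hr w).mp hw
  have h4 := he (e.symm (⟨M, hdet⟩ : SL2 (ZMod p))) c
  have h5 : e (e.symm (⟨M, hdet⟩ : SL2 (ZMod p))) = ⟨M, hdet⟩ := e.apply_symm_apply _
  rw [h5] at h4
  rw [h4, hact]

theorem elt2 : ∃ (d : SL2 (ZMod 2)) (n : ℕ), n.Coprime 2 ∧ d ^ n = 1 ∧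
    ∀ (c : Fin 2 → ZMod 2) (l : ZMod 2), (d : Matrix (Fin 2) (Fin 2) (ZMod 2)).mulVec c = l • c → c = 0 := by
  refine ⟨mk2 0 1 1 1 (by decide), 3, by norm_num, ?_, ?_⟩
  · apply Subtype.ext
    show (!![0, 1; 1, 1] : Matrix (Fin 2) (Fin 2) (ZMod 2)) ^ 3 = 1
    rw [pow_succ, pow_succ, pow_one, Matrix.one_fin_two]
    simp only [Matrix.mul_fin_two]
    congr 1
  · intro c l h
    have h1 := congrFun h 0
    have h2 := congrFun h 1
    have e1 : (((mk2 0 1 1 1 (by decide) : SL2 (ZMod 2)) : Matrix (Fin 2) (Fin 2) (ZMod 2)).mulVec c) 0 = c 1 := by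
      show ((!![0, 1; 1, 1] : Matrix (Fin 2) (Fin 2) (ZMod 2)).mulVec c) 0 = c 1
      simp [Matrix.mulVec, dotProduct, Fin.sum_univ_two]
    have e2 : (((mk2 0 1 1 1 (by decide) : SL2 (ZMod 2)) : Matrix (Fin 2) (Fin 2) (ZMod 2)).mulVec c) 1 = c 0 + c 1 := by
      show ((!![0, 1; 1, 1] : Matrix (Fin 2) (Fin 2) (ZMod 2)).mulVec c) 1 = c 0 + c 1
      simp [Matrix.mulVec, dotProduct, Fin.sum_univ_two]
    rw [e1, Pi.smul_apply, smul_eq_mul] at h1
    rw [e2, Pi.smul_apply, smul_eq_mul] at h2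
    have key : ∀ x y l : ZMod 2, y = l * x → x + y = l * y → x = 0 ∧ y = 0 := by decide
    obtain ⟨k1, k2⟩ := key _ _ _ h1 h2
    funext i
    fin_cases i
    · exact k1
    · exact k2

theorem elt3 : ∃ (d : SL2 (ZMod 3)) (n : ℕ), n.Coprime 3 ∧ d ^ n = 1 ∧
    ∀ (c : Fin 2 → ZMod 3) (l : ZMod 3), (d : Matrix (Fin 2) (Fin 2) (ZMod 3)).mulVec c = l • c → c = 0 := by
  refine ⟨mk2 0 1 (-1) 0 (by decide), 4, by norm_num, ?_, ?_⟩
  · apply Subtype.ext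
    show (!![0, 1; -1, 0] : Matrix (Fin 2) (Fin 2) (ZMod 3)) ^ 4 = 1
    rw [pow_succ, pow_succ, pow_succ, pow_one, Matrix.one_fin_two]
    simp only [Matrix.mul_fin_two]
    congr 1
  · intro c l h
    have h1 := congrFun h 0
    have h2 := congrFun h 1
    have e1 : (((mk2 0 1 (-1) 0 (by decide) : SL2 (ZMod 3)) : Matrix (Fin 2) (Fin 2) (ZMod 3)).mulVec c) 0 = c 1 := by
      show ((!![0, 1; -1, 0] : Matrix (Fin 2) (Fin 2) (ZMod 3)).mulVec c) 0 = c 1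
      simp [Matrix.mulVec, dotProduct, Fin.sum_univ_two]
    have e2 : (((mk2 0 1 (-1) 0 (by decide) : SL2 (ZMod 3)) : Matrix (Fin 2) (Fin 2) (ZMod 3)).mulVec c) 1 = - c 0 := by
      show ((!![0, 1; -1, 0] : Matrix (Fin 2) (Fin 2) (ZMod 3)).mulVec c) 1 = - c 0
      simp [Matrix.mulVec, dotProduct, Fin.sum_univ_two]
    rw [e1, Pi.smul_apply, smul_eq_mul] at h1
    rw [e2, Pi.smul_apply, smul_eq_mul] at h2
    have key : ∀ x y l : ZMod 3, y = l * x → - x = l * y → x = 0 ∧ y = 0 := by decide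
    obtain ⟨k1, k2⟩ := key _ _ _ h1 h2
    funext i
    fin_cases i
    · exact k1
    · exact k2

theorem elt (hp23 : p = 2 ∨ p = 3) : ∃ (d : SL2 (ZMod p)) (n : ℕ), n.Coprime p ∧ d ^ n = 1 ∧
    ∀ (c : Fin 2 → ZMod p) (l : ZMod p), (d : Matrix (Fin 2) (Fin 2) (ZMod p)).mulVec c = l • c → c = 0 := by
  rcases hp23 with rfl | rfl
  · exact elt2
  · exact elt3

/-- irreducibility for a subgroup containing the special element -/
theorem NM.irr (h : NM p W L) [Finite G] (hp23 : p = 2 ∨ p = 3) {K : Subgroup G} (hLK : ∀ y ∈ L, ∀ n : ℕ, n.Coprime p → y ^ n = 1 → y ∈ K)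
    {U : Subgroup G} (hU : U ≤ W) (hn : L ⊓ K ≤ Subgroup.normalizer (U : Set G)) : U = ⊥ ∨ U = W := by
  have hcard := h.card
  obtain ⟨w1, w2, e, h1, h2, hc, hinj, hr, he⟩ := h
  obtain ⟨d, n, hnp, hdn, hd⟩ := elt hp23
  have h3 : Nat.card U ∣ p ^ 2 := by rw [← hcard]; exact Subgroup.card_dvd_of_le hU
  obtain ⟨k, hk, hUk⟩ := (Nat.dvd_prime_pow hp.out).mp h3
  interval_cases k
  · left; exact Subgroup.card_eq_one.mp (by rw [hUk, pow_zero])
  · exfalso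
    rw [pow_one] at hUk
    haveI : IsCyclic U := isCyclic_of_prime_card hUk
    obtain ⟨u, hu⟩ := (Subgroup.isCyclic_iff_exists_zpowers_eq_top U).mp this
    have huU : u ∈ U := by rw [← hu]; exact Subgroup.mem_zpowers u
    obtain ⟨c, hcu⟩ := (hr u).mp (hU huU)
    have hyK : ((e.symm d : L) : G) ∈ K := by
      apply hLK _ (e.symm d).2 n hnp
      rw [← Subgroup.coe_pow, ← map_pow, hdn, map_one, Subgroup.coe_one]
    have h4 := (Subgroup.mem_normalizer_iff.mp (hn (Subgroup.mem_inf.mpr ⟨(e.symm d).2, hyK⟩)) u).mp huU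
    have h5 := he (e.symm d) c
    rw [MulEquiv.apply_symm_apply, ← hcu] at h5
    rw [h5, ← hu] at h4
    obtain ⟨j, hj⟩ := mem_powers_iff_mem_zpowers.mpr h4
    have hj' : u ^ j = th w1 w2 ((d : Matrix (Fin 2) (Fin 2) (ZMod p)).mulVec c) := hj
    rw [hcu, ← th_smul h1 h2 hc] at hj'
    have h6 := hd c _ (hinj hj').symm
    rw [h6, th_zero] at hcu
    rw [hcu, Subgroup.zpowers_one_eq_bot] at hu
    rw [← hu, Subgroup.card_bot] at hUk
    exact hp.out.one_lt.ne hUk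
  · right; exact Subgroup.eq_of_le_of_card_ge hU (by rw [hUk, hcard])

end CfsgLib.BO
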