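import Mathlib
import Cfsg.Agent.Lib.BrauerInd9

/-!
# A normal complement theorem from Brauer's characterisation
-/

set_option autoImplicit false
set_option linter.style.haveILetI false
set_option linter.unusedSectionVars false

open scoped ComplexConjugate

namespace CfsgLib.BrauerInd11

open Cfsg CfsgLib.CharBasic CfsgLib.CharInd CfsgLib.BrauerInd5 CfsgLib.BrauerInd7 CfsgLib.BrauerInd8 CfsgLib.BrauerInd9

universe u v

/-- cyclic groups are elementary for every prime -/
theorem isElementary_cyclic {p : ℕ} (hp : p.Prime) {C : Type u} [Group C] [Finite C] [IsCyclic C] : IsElementary p C := by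
  obtain ⟨g, hg⟩ := IsCyclic.exists_generator (α := C)
  have hord : orderOf g = Nat.card C := orderOf_eq_card_of_forall_mem_zpowers hg
  obtain ⟨a, m, hm, hc⟩ := Nat.exists_eq_pow_mul_and_not_dvd (orderOf_pos g).ne' p hp.ne_one
  have hpos : 0 < p ^ a := pow_pos hp.pos a
  have hordm : orderOf (g ^ p ^ a) = m := by
    rw [orderOf_pow_of_dvd hpos.ne' (by rw [hc]; exact dvd_mul_right _ _), hc, Nat.mul_div_cancel_left _ hpos]
  refine ⟨g ^ p ^ a, ?_, ?_, a, ?_⟩
  · rw [Subgroup.mem_center_iff]
    intro x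
    letI := IsCyclic.commGroup (α := C)
    exact mul_comm x _
  · rw [hordm]; exact ((Nat.Prime.coprime_iff_not_dvd hp).mpr hm).symm
  · have h1 := Subgroup.card_mul_index (Subgroup.zpowers (g ^ p ^ a))
    rw [Nat.card_zpowers, hordm, ← hord, hc, mul_comm (p ^ a) m] at h1
    have hm0 : 0 < m := Nat.pos_of_ne_zero (by rintro rfl; simp at hm)
    exact Nat.eq_of_mul_eq_mul_left hm0 h1

section

variable {G : Type u} [Group G] [Fintype G] {H : Subgroup G} {m n k : ℕ}

/-- the extension of a function of `H` to `G` along `x ↦ x ^ k` -/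
noncomputable def star (hex : ∀ x : G, ∃ y : H, IsConj (x ^ k) (y : G)) (φ : H → ℂ) : G → ℂ := fun x => φ (Classical.choose (hex x))

variable (hex : ∀ x : G, ∃ y : H, IsConj (x ^ k) (y : G)) (hfus : ∀ y y' : H, IsConj (y : G) (y' : G) → IsConj y y')

include hfus in
theorem star_eq {φ : H → ℂ} (hφ : IsClassFunction H φ) {x : G} {y : H} (h : IsConj (x ^ k) (y : G)) : star hex φ x = φ y := by
  have h1 := Classical.choose_spec (hex x)
  exact IsClassFunction.eq_of_isConj hφ (hfus _ _ (h1.symm.trans h))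

include hfus in
theorem star_class {φ : H → ℂ} (hφ : IsClassFunction H φ) : IsClassFunction G (star hex φ) := by
  intro g h
  have h1 := Classical.choose_spec (hex g)
  have h2 : IsConj ((h * g * h⁻¹) ^ k) (g ^ k) := by
    have : (h * g * h⁻¹) ^ k = h * g ^ k * h⁻¹ := conj_pow
    rw [this]
    exact (isConj_iff.mpr ⟨h, rfl⟩ : IsConj (g ^ k) (h * g ^ k * h⁻¹)).symm
  exact star_eq hex hfus hφ (h2.trans h1)

include hfus in
theorem star_gen (hcard : Nat.card G = m * n) (hcop : Nat.Coprime m n) (hn : Nat.card H = n) (hk0 : m ∣ k) (hk1 : k ≡ 1 [MOD n])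
    (helem : ∀ (E : Subgroup G) (p : ℕ), p.Prime → IsElementary p E → Nat.card E ∣ Nat.card H → ∃ g : G, E.map (MulAut.conj g).toMonoidHom ≤ H)
    {φ : H → ℂ} (hφ : IsCharacter H φ) : IsGeneralizedCharacter G (star hex φ) := by
  apply brauer_char _ (star_class hex hfus (IsCharacter.isClassFunction hφ))
  intro E p hp hE
  have hcE : Nat.card E ∣ m * n := by rw [← hcard]; exact Subgroup.card_subgroup_dvd_card E
  obtain ⟨U, V, hcomm, hUV, hU, hV⟩ := elem_decomp' hp hE hcop hcE
  have hUm : Nat.card U ∣ m := hU.dvd_of_dvd_mul_right ((Subgroup.card_subgroup_dvd_card U).trans hcE)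
  have hVn : Nat.card V ∣ n := hV.dvd_of_dvd_mul_left ((Subgroup.card_subgroup_dvd_card V).trans hcE)
  have hupow : ∀ u ∈ U, u ^ k = 1 := by
    intro u hu
    have h1 : orderOf u ∣ k := by
      have h2 : orderOf u ∣ Nat.card U := by
        have := orderOf_dvd_natCard (⟨u, hu⟩ : U)
        rwa [Subgroup.orderOf_mk] at this
      exact (h2.trans hUm).trans hk0
    exact orderOf_dvd_iff_pow_eq_one.mp h1
  have hvpow : ∀ v ∈ V, v ^ k = v := by
    intro v hv
    have h1 : orderOf v ∣ n := by
      have h2 : orderOf v ∣ Nat.card V := by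
        have := orderOf_dvd_natCard (⟨v, hv⟩ : V)
        rwa [Subgroup.orderOf_mk] at this
      exact h2.trans hVn
    have h3 := pow_eq_pow_iff_modEq.mpr (hk1.of_dvd h1)
    rwa [pow_one] at h3
  have hpow : ∀ u ∈ U, ∀ v ∈ V, (u * v) ^ k = v := by
    intro u hu v hv
    rw [(show Commute u v from hcomm u hu v hv).mul_pow, hupow u hu, hvpow v hv, one_mul]
  -- V as a subgroup of G
  have hVel : IsElementary p (V.map E.subtype) := CfsgLib.BrauerInd6.isElementary_map E V (isElementary_sub hp hE V)
  have hVc : Nat.card (V.map E.subtype) ∣ Nat.card H := by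
    rw [Nat.card_congr (V.equivMapOfInjective E.subtype E.subtype_injective).symm.toEquiv, hn]
    exact hVn
  obtain ⟨g, hg⟩ := helem _ p hp hVel hVc
  have hpowV : ∀ x : E, x ^ k ∈ V := by
    intro x
    obtain ⟨u, hu, v, hv, rfl⟩ := hUV x
    rw [hpow u hu v hv]; exact hv
  have hmem : ∀ x : E, g * (x : G) ^ k * g⁻¹ ∈ H := by
    intro x
    apply hg
    refine Subgroup.mem_map.mpr ⟨(x : G) ^ k, ?_, rfl⟩
    exact Subgroup.mem_map.mpr ⟨x ^ k, hpowV x, rfl⟩
  obtain ⟨f, hf⟩ : ∃ f : E →* H, ∀ x, ((f x : H) : G) = g * (x : G) ^ k * g⁻¹ := by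
    refine ⟨{ toFun := fun x => ⟨g * (x : G) ^ k * g⁻¹, hmem x⟩, map_one' := ?_, map_mul' := ?_ }, fun x => rfl⟩
    · apply Subtype.ext
      show g * (1 : G) ^ k * g⁻¹ = 1
      rw [one_pow]; group
    · intro x y
      apply Subtype.ext
      show g * ((x : G) * (y : G)) ^ k * g⁻¹ = (g * (x : G) ^ k * g⁻¹) * (g * (y : G) ^ k * g⁻¹)
      have h1 : (x * y) ^ k = x ^ k * y ^ k := by
        obtain ⟨u, hu, v, hv, rfl⟩ := hUV x
        obtain ⟨u', hu', v', hv', rfl⟩ := hUV y
        have h2 : u * v * (u' * v') = (u * u') * (v * v') := by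
          have := hcomm u' hu' v hv
          calc u * v * (u' * v') = u * (v * u') * v' := by group
            _ = u * (u' * v) * v' := by rw [this]
            _ = (u * u') * (v * v') := by group
        rw [h2, hpow _ (U.mul_mem hu hu') _ (V.mul_mem hv hv'), hpow u hu v hv, hpow u' hu' v' hv']
      have h2 : ((x : G) * (y : G)) ^ k = (x : G) ^ k * (y : G) ^ k := congrArg Subtype.val h1
      rw [h2]; group
  have h1 : (fun e : E => star hex φ e) = φ ∘ f := by
    funext x
    apply star_eq hex hfus (IsCharacter.isClassFunction hφ)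
    rw [hf]
    exact isConj_iff.mpr ⟨g, rfl⟩
  rw [h1]
  exact IsCharacter.isGeneralized (IsCharacter.comp hφ f)

include hex hfus in
theorem complement (hcard : Nat.card G = m * n) (hcop : Nat.Coprime m n) (hn : Nat.card H = n) (hk0 : m ∣ k) (hk1 : k ≡ 1 [MOD n])
    (helem : ∀ (E : Subgroup G) (p : ℕ), p.Prime → IsElementary p E → Nat.card E ∣ Nat.card H → ∃ g : G, E.map (MulAut.conj g).toMonoidHom ≤ H) :
    ∃ K : Subgroup G, K.Normal ∧ K ⊔ H = ⊤ ∧ K ⊓ H = ⊥ := by
  classical
  haveI : Fintype H := Fintype.ofFinite _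
  have hn0 : (n : ℂ) ≠ 0 := by
    have : n ≠ 0 := by rw [← hn]; exact Nat.card_pos.ne'
    exact_mod_cast this
  have hm0' : m ≠ 0 := by
    intro h
    have := Nat.card_pos (α := G)
    rw [hcard, h, zero_mul] at this
    omega
  have hm0 : (m : ℂ) ≠ 0 := by exact_mod_cast hm0'
  have hpowH : ∀ y : H, (y : G) ^ k = y := by
    intro y
    have h1 : orderOf (y : G) ∣ n := by
      rw [← hn, Subgroup.orderOf_coe]; exact orderOf_dvd_natCard y
    have h3 := pow_eq_pow_iff_modEq.mpr (hk1.of_dvd h1)
    rwa [pow_one] at h3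
  have hgen : ∀ φ : IrrCharacter H, IsGeneralizedCharacter G (star hex (φ : H → ℂ)) := fun φ =>
    star_gen hex hfus hcard hcop hn hk0 hk1 helem (irr_isCharacter φ)
  choose a ha using fun φ : IrrCharacter H => IsGeneralizedCharacter.inner_int (hgen φ) (isGeneralized_one (G := G))
  -- sum over G of star φ
  have hsum : ∀ φ : IrrCharacter H, ∑ x : G, star hex (φ : H → ℂ) x = (m : ℂ) * n * a φ := by
    intro φ
    have h1 := ha φ
    rw [classInner] at h1
    have h2 : ∑ g : G, star hex (φ : H → ℂ) g * conj ((1 : G → ℂ) g) = ∑ x : G, star hex (φ : H → ℂ) x := by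
      apply Finset.sum_congr rfl
      intro g _
      rw [Pi.one_apply, map_one, mul_one]
    rw [h2, hcard] at h1
    rw [← h1]; push_cast
    field_simp
  -- z h
  obtain ⟨z, hz⟩ : ∃ z : H → ℂ, ∀ h, z h = ∑ φ : IrrCharacter H, (a φ : ℂ) * conj ((φ : H → ℂ) h) := ⟨fun h => ∑ φ : IrrCharacter H, (a φ : ℂ) * conj ((φ : H → ℂ) h), fun h => rfl⟩
  have hzint : ∀ h, IsIntegral ℤ (z h) := by
    intro h
    rw [hz]
    apply IsIntegral.sum
    intro φ _
    apply IsIntegral.mul (isIntegral_intCast (a φ))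
    exact (IsCharacter.isIntegral (irr_isCharacter φ) h).map (Complex.conjAe.toAlgHom.restrictScalars ℤ)
  have hstarInd : ∀ (h : H) (x : G), star hex (classInd h) x = classInd (h : G) (x ^ k) := by
    intro h x
    obtain ⟨y, hy⟩ := hex x
    rw [star_eq hex hfus (isClassFunction_classInd h) hy]
    by_cases hc : IsConj h y
    · have h1 : IsConj (h : G) (y : G) := by
        obtain ⟨c, hc⟩ := isConj_iff.mp hc
        exact isConj_iff.mpr ⟨c, congrArg Subtype.val hc⟩
      rw [classInd_of_isConj hc, classInd_of_isConj (h1.trans hy.symm)]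
    · rw [classInd_of_not_isConj hc, classInd_of_not_isConj]
      intro h1
      exact hc (hfus _ _ (h1.trans hy))
  have hN : ∀ h : H, ∑ x : G, classInd (h : G) (x ^ k) = (m : ℂ) * (Nat.card {x : H // IsConj h x} : ℂ) * z h := by
    intro h
    rw [Finset.sum_congr rfl (fun x _ => (hstarInd h x).symm)]
    have h1 : ∀ x : G, star hex (classInd h) x = ∑ φ : IrrCharacter H, classInner (classInd h) (φ : H → ℂ) * star hex (φ : H → ℂ) x := by
      intro x
      have := congrFun (eq_sum_inner (isClassFunction_classInd h)) (Classical.choose (hex x))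
      rw [Finset.sum_apply] at this
      exact this
    rw [Finset.sum_congr rfl (fun x _ => h1 x), Finset.sum_comm]
    have h2 : ∀ φ ∈ (Finset.univ : Finset (IrrCharacter H)), ∑ x : G, classInner (classInd h) (φ : H → ℂ) * star hex (φ : H → ℂ) x =
        (m : ℂ) * (Nat.card {x : H // IsConj h x} : ℂ) * ((a φ : ℂ) * conj ((φ : H → ℂ) h)) := by
      intro φ _
      rw [← Finset.mul_sum, hsum, classInner, sum_classInd_mul (IsClassFunction.conj (irr_isClassFunction φ)) h, hn]
      field_simp
    rw [Finset.sum_congr rfl h2, ← Finset.mul_sum, ← hz]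
  -- z h is a positive integer
  have hcpos : ∀ h : H, (Nat.card {x : H // IsConj h x} : ℕ) ≠ 0 := by
    intro h
    have : 0 < Nat.card {x : H // IsConj h x} := card_isConj_pos h
    omega
  have hNnat : ∀ h : H, ∃ N : ℕ, 0 < N ∧ ∑ x : G, classInd (h : G) (x ^ k) = (N : ℂ) := by
    intro h
    refine ⟨(Finset.univ.filter (fun x : G => IsConj (h : G) (x ^ k))).card, ?_, ?_⟩
    · apply Finset.card_pos.mpr
      exact ⟨(h : G), Finset.mem_filter.mpr ⟨Finset.mem_univ _, by rw [hpowH h]⟩⟩
    · rw [← Finset.sum_boole]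
      apply Finset.sum_congr rfl
      intro x _
      by_cases hc : IsConj (h : G) (x ^ k)
      · rw [classInd_of_isConj hc, if_pos hc]
      · rw [classInd_of_not_isConj hc, if_neg hc]
  have hzpos : ∀ h : H, ∃ r : ℕ, 0 < r ∧ z h = (r : ℂ) := by
    intro h
    obtain ⟨N, hN0, hN'⟩ := hNnat h
    have h1 := hN h
    rw [hN'] at h1
    have hc0 : ((Nat.card {x : H // IsConj h x} : ℕ) : ℂ) ≠ 0 := by exact_mod_cast hcpos h
    have h2 : z h = ((N : ℚ) / ((m : ℚ) * (Nat.card {x : H // IsConj h x} : ℚ)) : ℚ) := by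
      push_cast
      rw [h1]
      field_simp
    obtain ⟨r, hr⟩ := isInt_of_isIntegral_of_rat (hzint h) h2
    have h3 : (N : ℤ) = (m : ℤ) * (Nat.card {x : H // IsConj h x} : ℤ) * r := by
      rw [hr] at h1
      exact_mod_cast h1
    have h4 : 0 < r := by
      have hNpos : (0 : ℤ) < N := by exact_mod_cast hN0
      rw [h3] at hNpos
      have h5 : (0 : ℤ) ≤ (m : ℤ) * (Nat.card {x : H // IsConj h x} : ℤ) := by positivity
      by_contra hr0
      have h6 := mul_nonpos_of_nonneg_of_nonpos h5 (not_lt.mp hr0)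
      omega
    refine ⟨r.toNat, by omega, ?_⟩
    rw [hr]
    have : ((r.toNat : ℕ) : ℤ) = r := Int.toNat_of_nonneg h4.le
    exact_mod_cast this.symm
  -- sum of z
  have hzsum : ∑ h : H, z h = n := by
    have h1 : ∀ h ∈ (Finset.univ : Finset H), z h = ∑ φ : IrrCharacter H, (a φ : ℂ) * conj ((φ : H → ℂ) h) := fun h _ => hz h
    rw [Finset.sum_congr rfl h1, Finset.sum_comm]
    have h2 : ∀ φ ∈ (Finset.univ : Finset (IrrCharacter H)), ∑ h : H, (a φ : ℂ) * conj ((φ : H → ℂ) h) = if φ = irrOne H then (n : ℂ) else 0 := by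
      intro φ _
      rw [← Finset.mul_sum]
      have h3 : classInner (irrOne H : H → ℂ) (φ : H → ℂ) = (n : ℂ)⁻¹ * ∑ h : H, conj ((φ : H → ℂ) h) := by
        rw [classInner, hn]
        congr 1
        apply Finset.sum_congr rfl
        intro h _
        rw [irrOne_apply, one_mul]
      by_cases hφ : φ = irrOne H
      · rw [if_pos hφ]
        rw [hφ, IsIrrCharacter.inner_self (irrOne H).2] at h3
        have h4 : ∑ h : H, conj ((irrOne H : H → ℂ) h) = n := by
          field_simp at h3
          exact h3.symm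
        rw [hφ, h4]
        have h5 : (a (irrOne H) : ℂ) = 1 := by
          rw [← ha (irrOne H)]
          have : star hex (irrOne H : H → ℂ) = 1 := by
            funext x
            exact irrOne_apply _
          rw [this]
          exact IsIrrCharacter.inner_self isIrr_one
        rw [h5, one_mul]
      · rw [if_neg hφ]
        rw [IsIrrCharacter.inner_eq_zero (irrOne H).2 φ.2 (fun h => hφ (Subtype.ext h.symm))] at h3
        have h4 : ∑ h : H, conj ((φ : H → ℂ) h) = 0 := by
          rcases mul_eq_zero.mp h3.symm with h | h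
          · exact absurd h (inv_ne_zero hn0)
          · exact h
        rw [h4, mul_zero]
    rw [Finset.sum_congr rfl h2, Finset.sum_ite_eq', if_pos (Finset.mem_univ _)]
  have hz1 : ∀ h, z h = 1 := by
    choose r hr0 hr using hzpos
    have h1 : ∑ h : H, r h = ∑ h : H, 1 := by
      have : ((∑ h : H, r h : ℕ) : ℂ) = ((∑ h : H, 1 : ℕ) : ℂ) := by
        push_cast
        rw [← Finset.sum_congr rfl (fun h _ => hr h), hzsum]
        simp [← hn]
      exact_mod_cast this
    have h2 := (Finset.sum_eq_sum_iff_of_le (fun h _ => hr0 h)).mp h1.symm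
    intro h
    rw [hr h, ← h2 h (Finset.mem_univ _), Nat.cast_one]
  -- sums
  have haφ : ∀ φ : IrrCharacter H, (a φ : ℂ) = if φ = irrOne H then 1 else 0 := by
    intro φ
    have h1 : classInner (φ : H → ℂ) (fun h => conj (z h)) = (a φ : ℂ) := by
      have h2 : (fun h => conj (z h)) = ∑ ψ : IrrCharacter H, (a ψ : ℂ) • (ψ : H → ℂ) := by
        funext h
        rw [hz, map_sum, Finset.sum_apply]
        apply Finset.sum_congr rfl
        intro ψ _
        rw [map_mul, Complex.conj_conj, Pi.smul_apply, smul_eq_mul]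
        congr 1
        exact Complex.conj_eq_iff_im.mpr (Complex.intCast_im _)
      rw [h2, classInner_sum_right, Finset.sum_eq_single φ]
      · rw [classInner_smul_right, IsIrrCharacter.inner_self φ.2, mul_one]
        exact Complex.conj_eq_iff_im.mpr (Complex.intCast_im _)
      · intro ψ _ hψ
        rw [classInner_smul_right, IsIrrCharacter.inner_eq_zero φ.2 ψ.2 (fun h => hψ (Subtype.ext h.symm)), mul_zero]
      · intro h; exact absurd (Finset.mem_univ _) h
    have h3 : (fun h => conj (z h)) = (irrOne H : H → ℂ) := by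
      funext h; rw [hz1, map_one, irrOne_apply]
    rw [← h1, h3]
    by_cases hφ : φ = irrOne H
    · rw [if_pos hφ, hφ, IsIrrCharacter.inner_self (irrOne H).2]
    · rw [if_neg hφ, IsIrrCharacter.inner_eq_zero φ.2 (irrOne H).2 (fun h => hφ (Subtype.ext h))]
  have hsumF : ∀ F : H → ℂ, IsClassFunction H F → ∑ x : G, star hex F x = (m : ℂ) * ∑ h : H, F h := by
    intro F hF
    have h1 : ∀ x ∈ (Finset.univ : Finset G), star hex F x = ∑ φ : IrrCharacter H, classInner F (φ : H → ℂ) * star hex (φ : H → ℂ) x := by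
      intro x _
      have := congrFun (eq_sum_inner hF) (Classical.choose (hex x))
      rw [Finset.sum_apply] at this
      exact this
    rw [Finset.sum_congr rfl h1, Finset.sum_comm]
    have h2 : ∀ φ ∈ (Finset.univ : Finset (IrrCharacter H)), ∑ x : G, classInner F (φ : H → ℂ) * star hex (φ : H → ℂ) x =
        if φ = irrOne H then (m : ℂ) * n * classInner F (irrOne H : H → ℂ) else 0 := by
      intro φ _
      rw [← Finset.mul_sum, hsum, haφ]
      by_cases hφ : φ = irrOne H
      · rw [if_pos hφ, if_pos hφ, hφ]; ring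
      · rw [if_neg hφ, if_neg hφ]; ring
    rw [Finset.sum_congr rfl h2, Finset.sum_ite_eq', if_pos (Finset.mem_univ _), classInner, hn]
    have h3 : ∑ h : H, F h * conj ((irrOne H : H → ℂ) h) = ∑ h : H, F h := by
      apply Finset.sum_congr rfl
      intro h _
      rw [irrOne_apply, map_one, mul_one]
    rw [h3]
    field_simp
  have hnorm : ∀ φ : IrrCharacter H, classInner (star hex (φ : H → ℂ)) (star hex (φ : H → ℂ)) = 1 := by
    intro φ
    rw [classInner]
    have h1 : ∀ g ∈ (Finset.univ : Finset G), star hex (φ : H → ℂ) g * conj (star hex (φ : H → ℂ) g) = star hex (fun h => (φ : H → ℂ) h * conj ((φ : H → ℂ) h)) g := fun g _ => rfl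
    rw [Finset.sum_congr rfl h1, hsumF _ (fun x y => by
      show (φ : H → ℂ) (y * x * y⁻¹) * conj ((φ : H → ℂ) (y * x * y⁻¹)) = _
      rw [irr_isClassFunction φ x y])]
    have h2 := IsIrrCharacter.inner_self φ.2
    rw [classInner, hn] at h2
    rw [hcard]
    push_cast
    rw [mul_inv, mul_assoc, mul_left_comm, ← mul_assoc (m : ℂ)⁻¹, ← mul_assoc]
    calc _ = ((m : ℂ)⁻¹ * m) * ((n : ℂ)⁻¹ * ∑ h : H, (φ : H → ℂ) h * conj ((φ : H → ℂ) h)) := by ring
      _ = 1 := by rw [h2, inv_mul_cancel₀ hm0, one_mul]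
  have hstar1 : ∀ φ : IrrCharacter H, star hex (φ : H → ℂ) 1 = (φ : H → ℂ) 1 := by
    intro φ
    apply star_eq hex hfus (irr_isClassFunction φ)
    rw [one_pow]
    exact IsConj.refl _
  have hirr : ∀ φ : IrrCharacter H, IsIrrCharacter G (star hex (φ : H → ℂ)) := by
    intro φ
    apply IsGeneralizedCharacter.irr_of_pos (hgen φ) (hnorm φ)
    rw [hstar1]
    obtain ⟨d, hd, hd'⟩ := IsIrrCharacter.exists_pos φ.2
    rw [hd', Complex.natCast_re]
    exact_mod_cast hd
  -- the kernel
  obtain ⟨K, hK⟩ : ∃ K : Subgroup G, K = ⨅ φ : IrrCharacter H, charKer (IsIrrCharacter.isCharacter (hirr φ)) := ⟨_, rfl⟩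
  have hKmem : ∀ x : G, x ∈ K ↔ x ^ k = 1 := by
    intro x
    rw [hK, Subgroup.mem_iInf]
    constructor
    · intro h
      obtain ⟨y, hy⟩ := hex x
      have h1 : IsConj y 1 := by
        rw [isConj_iff_forall_irr]
        intro φ
        have h2 := (mem_charKer _).mp (h φ)
        rw [hstar1, star_eq hex hfus (irr_isClassFunction φ) hy] at h2
        exact h2
      have h2 : y = 1 := isConj_one_left.mp h1
      rw [h2] at hy
      exact isConj_one_left.mp hy
    · intro h φ
      rw [mem_charKer, hstar1]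
      apply star_eq hex hfus (irr_isClassFunction φ)
      rw [h]
      exact IsConj.refl _
  have hKn : K.Normal := by
    constructor
    intro x hx g
    rw [hKmem] at hx ⊢
    have : (g * x * g⁻¹) ^ k = g * x ^ k * g⁻¹ := conj_pow
    rw [this, hx]; group
  have hKH : K ⊓ H = ⊥ := by
    rw [eq_bot_iff]
    intro x hx
    have h1 := (hKmem x).mp (Subgroup.mem_inf.mp hx).1
    have h2 := hpowH ⟨x, (Subgroup.mem_inf.mp hx).2⟩
    rw [Subgroup.mem_bot, ← h1]
    exact h2.symm
  have hKcard : Nat.card K = m := by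
    have h1 := hN 1
    rw [hz1, mul_one] at h1
    have h2 : Nat.card {x : H // IsConj (1 : H) x} = 1 := by
      rw [Nat.card_eq_one_iff_unique]
      refine ⟨⟨fun a b => Subtype.ext ?_⟩, ⟨⟨1, IsConj.refl 1⟩⟩⟩
      rw [isConj_one_right.mp a.2, isConj_one_right.mp b.2]
    rw [h2, Nat.cast_one, mul_one] at h1
    have h3 : ∑ x : G, classInd ((1 : H) : G) (x ^ k) = (Nat.card K : ℂ) := by
      have h4 : ∀ x ∈ (Finset.univ : Finset G), classInd ((1 : H) : G) (x ^ k) = if x ∈ K then 1 else 0 := by
        intro x _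
        by_cases hx : x ∈ K
        · rw [if_pos hx, (hKmem x).mp hx]
          exact classInd_of_isConj (IsConj.refl _)
        · rw [if_neg hx, classInd_of_not_isConj]
          intro h
          apply hx
          rw [hKmem]
          exact isConj_one_right.mp h
      rw [Finset.sum_congr rfl h4, Finset.sum_boole, Nat.card_eq_fintype_card, ← Fintype.card_coe]
      congr 1
      apply Fintype.card_congr
      exact Equiv.subtypeEquivRight (fun x => by simp)
    rw [h3] at h1
    exact_mod_cast h1
  refine ⟨K, hKn, ?_, hKH⟩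
  have h1 : Subgroup.IsComplement' K H := by
    apply Subgroup.isComplement'_of_card_mul_and_disjoint
    · rw [hKcard, hn, hcard]
    · rw [disjoint_iff]; exact hKH
  exact h1.sup_eq_top

end

end CfsgLib.BrauerInd11
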