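import Cfsg.Agent.Lib.CSt4
set_option autoImplicit false
set_option maxRecDepth 1000000
set_option linter.style.haveILetI false

/-! The torus of the Steinberg group. -/

namespace CfsgLib.Chev
open Cfsg.Lie Matrix

theorem prod_zpow_sum {G ι : Type*} [CommGroup G] (a : G) (s : Finset ι) (f : ι → ℤ) : ∏ j ∈ s, a ^ f j = a ^ ∑ j ∈ s, f j := by
  classical
  induction s using Finset.induction_on with
  | empty => simp
  | insert j s hj ih => rw [Finset.prod_insert hj, Finset.sum_insert hj, ih, _root_.zpow_add]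

namespace StG
variable {D : ChevalleyDatum} {F : Type*} [Field F] {Γ : Type*} [Group Γ] (S : StG D F Γ)

/-- relation (R3) for the fundamental roots -/
def R3 : Prop := ∀ i < D.rank, ∀ t u : F, t ≠ 0 → u ≠ 0 → S.hh i t * S.hh i u = S.hh i (t * u)

include S

theorem hh_one {i : ℕ} (hi : i < D.rank) : S.hh i 1 = 1 := by
  unfold hh
  rw [S.Nh_neg (S.N.simple_lt i hi), mul_inv_cancel]

variable {S} in
theorem hh_comm (h3 : S.R3) {i j : ℕ} (hi : i < D.rank) (hj : j < D.rank) {t u : F} (ht : t ≠ 0) (hu : u ≠ 0) :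
    S.hh i t * S.hh j u = S.hh j u * S.hh i t := by
  have H := S.hh_Hd hi (Units.mk0 t ht)
  rw [Units.val_mk0] at H
  have hj' := S.N.simple_lt j hj
  set ω : ℕ → Fˣ := fun s => Units.mk0 t ht ^ D.pairing (D.simple i) s with hω
  have h1 := S.Hd_Nh H hj' u
  have h2 := S.Hd_Nh H hj' (-1)
  have e : S.hh i t * S.hh j u * (S.hh i t)⁻¹ = S.Nh (D.simple j) ((ω (D.simple j) : F) * u) * S.Nh (D.simple j) ((ω (D.simple j) : F) * (-1)) := by
    rw [← h1, ← h2]
    have : S.hh j u = S.Nh (D.simple j) u * S.Nh (D.simple j) (-1) := rfl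
    rw [this]; group
  set c : F := (ω (D.simple j) : F) with hc
  have hc0 : c ≠ 0 := Units.ne_zero _
  have e2 : S.Nh (D.simple j) (c * u) * S.Nh (D.simple j) (c * (-1)) = S.hh j (c * u) * (S.hh j c)⁻¹ := by
    unfold hh
    have : c * (-1) = -c := by ring
    rw [this, S.Nh_neg hj', S.Nh_neg hj']; group
  have e3 : S.hh j (c * u) = S.hh j u * S.hh j c := by rw [h3 j hj u c hu hc0, mul_comm]
  rw [e2, e3, mul_assoc (S.hh j u), mul_inv_cancel, mul_one, mul_inv_eq_iff_eq_mul] at e
  exact e

/-- product of torus elements -/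
def hprd (τ : ℕ → Fˣ) : Γ := ((List.range D.rank).map fun i => S.hh i (τ i : F)).prod

variable {S} in
theorem hprd_mul (h3 : S.R3) (τ τ' : ℕ → Fˣ) : S.hprd τ * S.hprd τ' = S.hprd (τ * τ') := by
  unfold hprd
  have key : ∀ l : List ℕ, (∀ i ∈ l, i < D.rank) → (l.map fun i => S.hh i (τ i : F)).prod * (l.map fun i => S.hh i (τ' i : F)).prod =
      (l.map fun i => S.hh i (((τ * τ') i : Fˣ) : F)).prod := by
    intro l
    induction l with
    | nil => intro _; simp
    | cons i l ih =>
      intro hl
      have hi := hl i (by simp)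
      have hl' : ∀ j ∈ l, j < D.rank := fun j hj => hl j (by simp [hj])
      have hcm : ∀ l' : List ℕ, (∀ j ∈ l', j < D.rank) → (l'.map fun i => S.hh i (τ i : F)).prod * S.hh i (τ' i : F) =
          S.hh i (τ' i : F) * (l'.map fun i => S.hh i (τ i : F)).prod := by
        intro l'
        induction l' with
        | nil => intro _; simp
        | cons j l' ih' =>
          intro hl''
          rw [List.map_cons, List.prod_cons, mul_assoc, ih' fun k hk => hl'' k (by simp [hk]), ← mul_assoc,
            hh_comm h3 (hl'' j (by simp)) hi (Units.ne_zero _) (Units.ne_zero _), mul_assoc]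
      rw [List.map_cons, List.prod_cons, List.map_cons, List.prod_cons, List.map_cons, List.prod_cons, ← ih hl',
        Pi.mul_apply, Units.val_mul, ← h3 i hi _ _ (Units.ne_zero _) (Units.ne_zero _)]
      have := hcm l hl'
      calc S.hh i (τ i : F) * (l.map fun i => S.hh i (τ i : F)).prod * (S.hh i (τ' i : F) * (l.map fun i => S.hh i (τ' i : F)).prod)
          = S.hh i (τ i : F) * ((l.map fun i => S.hh i (τ i : F)).prod * S.hh i (τ' i : F)) * (l.map fun i => S.hh i (τ' i : F)).prod := by group
        _ = _ := by rw [this]; group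
  exact key _ fun i hi => List.mem_range.mp hi

theorem hprd_one : S.hprd 1 = 1 := by
  unfold hprd
  apply List.prod_eq_one
  intro x hx
  rw [List.mem_map] at hx
  obtain ⟨i, hi, rfl⟩ := hx
  exact S.hh_one (List.mem_range.mp hi)

theorem hprd_single {i : ℕ} (hi : i < D.rank) (c : Fˣ) : S.hprd (fun j => if j = i then c else 1) = S.hh i (c : F) := by
  unfold hprd
  have key : ∀ l : List ℕ, l.Nodup → (∀ j ∈ l, j < D.rank) →
      (l.map fun j => S.hh j ((if j = i then c else 1 : Fˣ) : F)).prod = if i ∈ l then S.hh i (c : F) else 1 := by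
    intro l
    induction l with
    | nil => intro _ _; simp
    | cons j l ih =>
      intro hn hl
      rw [List.nodup_cons] at hn
      rw [List.map_cons, List.prod_cons, ih hn.2 fun k hk => hl k (by simp [hk])]
      by_cases hji : j = i
      · subst hji
        rw [if_pos rfl, if_neg hn.1, if_pos (by simp), mul_one]
      · rw [if_neg hji, Units.val_one, S.hh_one (hl j (by simp)), one_mul]
        have : i ∈ j :: l ↔ i ∈ l := by
          rw [List.mem_cons]; exact ⟨fun h => h.resolve_left (fun h' => hji h'.symm), Or.inr⟩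
        simp only [this]
  rw [key _ List.nodup_range fun j hj => List.mem_range.mp hj, if_pos (List.mem_range.mpr hi)]

variable {S} in
theorem mem_Hb (h3 : S.R3) {h : Γ} (hh : h ∈ S.Hb) : ∃ τ : ℕ → Fˣ, h = S.hprd τ := by
  unfold Hb at hh
  induction hh using Subgroup.closure_induction with
  | mem h hh =>
    obtain ⟨i, t, hi, ht, rfl⟩ := hh
    exact ⟨_, (S.hprd_single hi (Units.mk0 t ht)).symm⟩
  | one => exact ⟨1, S.hprd_one.symm⟩
  | mul a b _ _ ha hb =>
    obtain ⟨τ, rfl⟩ := ha
    obtain ⟨τ', rfl⟩ := hb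
    exact ⟨τ * τ', hprd_mul h3 τ τ'⟩
  | inv a _ ha =>
    obtain ⟨τ, rfl⟩ := ha
    refine ⟨τ⁻¹, ?_⟩
    rw [inv_eq_iff_mul_eq_one, hprd_mul h3, mul_inv_cancel, S.hprd_one]

theorem θhprd (τ : ℕ → Fˣ) : S.θ (S.hprd τ) = dgg D (fun s => ∏ i ∈ Finset.range D.rank, τ i ^ D.pairing (D.simple i) s) := by
  unfold hprd
  have key : ∀ n ≤ D.rank, S.θ ((List.range n).map fun i => S.hh i (τ i : F)).prod =
      dgg D (fun s => ∏ i ∈ Finset.range n, τ i ^ D.pairing (D.simple i) s) := by
    intro n
    induction n with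
    | zero =>
      intro _
      simp only [List.range_zero, List.map_nil, List.prod_nil, map_one, Finset.range_zero, Finset.prod_empty]
      exact (map_one (dgg D)).symm
    | succ n ih =>
      intro hn
      rw [List.range_succ, List.map_append, List.prod_append, map_mul, ih (by omega), List.map_singleton, List.prod_singleton,
        (S.hh_Hd (by omega) (τ n)).2.1, ← map_mul]
      congr 1
      ext s
      rw [Pi.mul_apply, Finset.prod_range_succ]
  exact key _ le_rfl

variable {S} in
/-- elements of the kernel -/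
theorem ker_form (h3 : S.R3) {z : Γ} (hz : z ∈ S.θ.ker) : ∃ τ : ℕ → Fˣ, z = S.hprd τ ∧ ∀ s < D.nroots, ∏ i ∈ Finset.range D.rank, τ i ^ D.pairing (D.simple i) s = 1 := by
  obtain ⟨τ, rfl⟩ := mem_Hb h3 (S.ker_le_Hb hz)
  refine ⟨τ, rfl, fun s hs => ?_⟩
  rw [MonoidHom.mem_ker, S.θhprd, ← map_one (dgg D)] at hz
  exact dgg_inj D hz s hs

variable {S} in
/-- unimodular Cartan matrix -/
theorem center_bot_of_inv (h3 : S.R3) {B : ℕ → ℕ → ℤ}
    (hB : ∀ i < D.rank, ∀ k < D.rank, ∑ j ∈ Finset.range D.rank, D.cartan i (D.simple j) * B j k = if i = k then 1 else 0) :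
    Subgroup.center Γ = ⊥ := by
  rw [← S.ker_eq, eq_bot_iff]
  intro z hz
  obtain ⟨τ, rfl, hτ⟩ := ker_form h3 hz
  have h1 : ∀ k < D.rank, τ k = 1 := by
    intro k hk
    have h2 : ∏ j ∈ Finset.range D.rank, (∏ i ∈ Finset.range D.rank, τ i ^ D.pairing (D.simple i) (D.simple j)) ^ B j k = 1 := by
      apply Finset.prod_eq_one
      intro j hj
      rw [hτ _ (S.N.simple_lt j (Finset.mem_range.mp hj)), _root_.one_zpow]
    have h4 : ∏ j ∈ Finset.range D.rank, (∏ i ∈ Finset.range D.rank, τ i ^ D.pairing (D.simple i) (D.simple j)) ^ B j k =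
        ∏ i ∈ Finset.range D.rank, τ i ^ (if i = k then 1 else 0 : ℤ) := by
      have e1 : ∀ j ∈ Finset.range D.rank, (∏ i ∈ Finset.range D.rank, τ i ^ D.pairing (D.simple i) (D.simple j)) ^ B j k =
          ∏ i ∈ Finset.range D.rank, τ i ^ (D.cartan i (D.simple j) * B j k) := by
        intro j hj
        rw [← Finset.prod_zpow]
        refine Finset.prod_congr rfl fun i hi => ?_
        rw [← _root_.zpow_mul, S.pairing_simple (Finset.mem_range.mp hi) (S.N.simple_lt j (Finset.mem_range.mp hj))]
      rw [Finset.prod_congr rfl e1, Finset.prod_comm]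
      refine Finset.prod_congr rfl fun i hi => ?_
      rw [← hB i (Finset.mem_range.mp hi) k hk, prod_zpow_sum]
    rw [h4, Finset.prod_eq_single k] at h2
    · simpa using h2
    · intro i _ hik; rw [if_neg hik, zpow_zero]
    · intro hk'; exact absurd (Finset.mem_range.mpr hk) hk'
  rw [Subgroup.mem_bot]
  unfold hprd
  apply List.prod_eq_one
  intro x hx
  rw [List.mem_map] at hx
  obtain ⟨i, hi, rfl⟩ := hx
  rw [h1 i (List.mem_range.mp hi), Units.val_one, S.hh_one (List.mem_range.mp hi)]

end StG

theorem stGrp_R3 {D : ChevalleyDatum} {F : Type*} [Field F] (M : CG D F) (hok : StOK D) : (stGrp M hok).R3 := by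
  intro i hi t u ht hu
  rw [← mk_stH, ← mk_stH, ← mk_stH, ← map_mul]
  exact PresentedGroup.mk_eq_mk_of_mul_inv_mem (Or.inr ⟨D.simple i, t, u, M.N.simple_lt i hi, ht, hu, rfl⟩)

/-- check of an inverse matrix -/
def invChk (D : ChevalleyDatum) (B : List (List ℤ)) : Bool :=
  (List.range D.rank).all fun i => (List.range D.rank).all fun k =>
    decide (((List.range D.rank).map fun j => D.cartan i (D.simple j) * (B.getD j []).getD k 0).sum = if i = k then 1 else 0)

theorem center_bot_of_chk {D : ChevalleyDatum} {F : Type*} [Field F] (M : CG D F) (hok : StOK D) {B : List (List ℤ)} (h : invChk D B = true) :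
    Subgroup.center (D.SteinbergGroup F) = ⊥ := by
  refine StG.center_bot_of_inv (stGrp_R3 M hok) (B := fun j k => (B.getD j []).getD k 0) ?_
  intro i hi k hk
  unfold invChk at h
  rw [List.all_eq_true] at h
  have h1 := h i (List.mem_range.mpr hi)
  rw [List.all_eq_true] at h1
  have h2 := h1 k (List.mem_range.mpr hk)
  rw [decide_eq_true_eq] at h2
  rw [← h2]
  have key : ∀ (n : ℕ) (f : ℕ → ℤ), ∑ j ∈ Finset.range n, f j = ((List.range n).map f).sum := by
    intro n f
    induction n with
    | zero => simp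
    | succ n ih => rw [Finset.sum_range_succ, List.range_succ, List.map_append, List.sum_append, ih]; simp
  exact key _ _

end CfsgLib.Chev
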