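import Cfsg.Agent.Lib.CSt8
import Cfsg.Agent.Lib.CSt6
import Cfsg.Agent.Lib.ChevCD
import Cfsg.Agent.Lib.ChevCE6
import Cfsg.Agent.Lib.ChevCE7
import Cfsg.Agent.Lib.ChevCE8
set_option autoImplicit false
set_option maxRecDepth 1000000
set_option linter.style.haveILetI false

/-! Embeddings of simply laced Chevalley data. -/

namespace CfsgLib.Chev
open Cfsg.Lie Matrix

namespace Facts
variable {D : ChevalleyDatum} {T : Tab} (H : Facts D T)
include H

theorem commWord_sl (h : slChk D.rank D.nroots T = true) {r s : ℕ} (hr : r < D.nroots) (hs : s < D.nroots) (h1 : s ≠ r) (h2 : s ≠ D.neg r) :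
    (fld (T.row1 (D.rank + r)) (D.rank + s) ≤ 1 ∧ ∀ (F : Type*) [Field F] (t u : F), D.commWord F r s t u = []) ∨
    (2 ≤ fld (T.row1 (D.rank + r)) (D.rank + s) ∧ fld (T.row1 (D.rank + r)) (D.rank + s) / 8 - 1 - D.rank < D.nroots ∧
      ∀ (F : Type*) [Field F] (t u : F), D.commWord F r s t u =
        [(fld (T.row1 (D.rank + r)) (D.rank + s) / 8 - 1 - D.rank, (((fld (T.row1 (D.rank + r)) (D.rank + s) % 8 : ℕ) : ℤ) - 4 : ℤ) * (-t) * u)]) := by
  have key := fun r (hr : r < D.nroots) => ball_spec h r hr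
  simp only [force_eq, Bool.and_eq_true] at key
  have hlen : ∀ r s, r < D.nroots → s < D.nroots → s ≠ r → s ≠ D.neg r → (D.chainEntry r s)[1]? = none ∧ (D.chainEntry r s)[2]? = none := by
    intro r s hr hs h1 h2
    have e2 := H.br2_eq hr hs h1 h2
    have k2 := (ball_spec (key r hr).2 s hs)
    rw [Bool.and_eq_true, Bool.or_eq_true] at k2
    have k3 : fld (T.row2 (D.rank + r)) (D.rank + s) = 0 := by
      rcases k2.1 with h | h
      · have := Nat.eq_of_beq_eq_true h
        rw [H.neg_eq hr] at h2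
        exact absurd this h2
      · exact Nat.eq_of_beq_eq_true h
    have e3 : br2 T (D.rank + r) (D.rank + s) = [] := by
      change dec noh (D.rank + r) (fld (T.row2 (D.rank + r)) (D.rank + s)) = []
      rw [k3, dec_zero]
    rw [e3] at e2
    have e4 : (D.chainEntry r s)[1]? = none := by
      rcases hq : (D.chainEntry r s)[1]? with _ | q
      · rfl
      · rw [hq] at e2; simp at e2
    refine ⟨e4, ?_⟩
    rw [List.getElem?_eq_none_iff] at e4 ⊢
    omega
  have h1' : r ≠ s := fun h => h1 h.symm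
  have h2' : r ≠ D.neg s := by
    rintro rfl; exact h2 (H.neg_neg hs).symm
  obtain ⟨a1, a2⟩ := hlen r s hr hs h1 h2
  obtain ⟨b1, b2⟩ := hlen s r hs hr h1' h2'
  have e1 := H.br1_eq hr hs h1 h2
  have k2 := (ball_spec (key r hr).2 s hs)
  rw [Bool.and_eq_true] at k2
  have k3 := k2.2
  set f := fld (T.row1 (D.rank + r)) (D.rank + s) with hf
  rcases hq : (D.chainEntry r s)[0]? with _ | q
  · left
    refine ⟨?_, fun F _ t u => by
      simp [ChevalleyDatum.commWord, ChevalleyDatum.commTerms, ChevalleyDatum.chainRoot, a1, a2, b1, b2, hq]⟩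
    rw [hq] at e1
    by_contra hc
    have e1' : dec (hlD D) (D.rank + r) f = [] := e1
    rw [dec_big _ _ _ (by omega)] at e1'
    simp at e1'
  · right
    rw [hq] at e1
    have e1' : dec (hlD D) (D.rank + r) f = [(D.rank + q.1, q.2)] := e1
    have hf2 : 2 ≤ f := by
      by_contra hc
      have : f = 0 ∨ f = 1 := by omega
      rcases this with h0 | h0
      · rw [h0, dec_zero] at e1'; simp at e1'
      · have e2 := H.dec_aux hr hs h1 h2 _ 0 (H.row_facts hr).2.2.2.2.2.2.2.2.1 noh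
        rw [hq, ← hf, h0, dec_one] at e2
        simp [noh] at e2
    rw [dec_big _ _ _ hf2] at e1'
    have e5 := List.head_eq_of_cons_eq e1'
    rw [Prod.mk.injEq] at e5
    have hnb : Nat.ble f 1 = false := by
      rw [← Bool.not_eq_true, Nat.ble_eq]; omega
    rw [hnb] at k3
    change ((Nat.beq (Nat.mod f 8) 3 || Nat.beq (Nat.mod f 8) 5) && (Nat.ble D.rank (f / 8 - 1) &&
      Nat.ble (Nat.succ (f / 8 - 1)) (D.rank + D.nroots) && Nat.beq (fld (T.row1 (D.rank + r)) (f / 8 - 1)) 0 &&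
      Nat.beq (fld (T.row1 (D.rank + s)) (f / 8 - 1)) 0)) = true at k3
    simp only [Bool.and_eq_true, Bool.or_eq_true] at k3
    obtain ⟨k4, ⟨⟨k5, k6⟩, k7⟩, k8⟩ := k3
    have k6' : f / 8 - 1 < D.rank + D.nroots := Nat.le_of_ble_eq_true k6
    refine ⟨hf2, by omega, fun F _ t u => ?_⟩
    have hcw : D.commWord F r s t u = [(q.1, (q.2 : F) * (-t) * u)] := by
      simp [ChevalleyDatum.commWord, ChevalleyDatum.commTerms, ChevalleyDatum.chainRoot, ChevalleyDatum.chainM,
        a1, a2, b1, b2, hq]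
    rw [hcw, ← e5.2]
    have : f / 8 - 1 - D.rank = q.1 := by omega
    rw [this]

end Facts

/-- check of an embedding -/
noncomputable def embChk (l n : ℕ) (T : Tab) (l' n' : ℕ) (T' : Tab) (I : ℕ) : Bool :=
  ball n fun r => force (fld I r) fun r' => Nat.ble (Nat.succ r') n' && Nat.beq (fld I (n - 1 - r)) (n' - 1 - r') &&
    force (T.row1 (l + r)) fun R => force (T'.row1 (l' + r')) fun R' => ball n fun s =>
      (Nat.beq s r || Nat.beq s (n - 1 - r)) || (force (fld I s) fun s' => !(Nat.beq s' r') && !(Nat.beq s' (n' - 1 - r')) &&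
        force (fld R (l + s)) fun f => force (fld R' (l' + s')) fun f' => (Nat.ble f 1 && Nat.ble f' 1) ||
          (Nat.ble 2 f && Nat.ble 2 f' && Nat.beq (Nat.mod f 8) (Nat.mod f' 8) &&
            Nat.beq (Nat.sub (Nat.sub (Nat.div f' 8) 1) l') (fld I (Nat.sub (Nat.sub (Nat.div f 8) 1) l))))

theorem beq_iff (a b : ℕ) : Nat.beq a b = true ↔ a = b := ⟨Nat.eq_of_beq_eq_true, fun h => by rw [h]; exact Nat.beq_refl b⟩

theorem embChk_spec {D D' : ChevalleyDatum} {T T' : Tab} (H : Facts D T) (H' : Facts D' T') (h : slChk D.rank D.nroots T = true)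
    (h' : slChk D'.rank D'.nroots T' = true) {I : ℕ} (hI : embChk D.rank D.nroots T D'.rank D'.nroots T' I = true) :
    (∀ r < D.nroots, fld I r < D'.nroots) ∧ (∀ r < D.nroots, fld I (D.neg r) = D'.neg (fld I r)) ∧
    (∀ r < D.nroots, ∀ s < D.nroots, s ≠ r → s ≠ D.neg r → fld I s ≠ fld I r ∧ fld I s ≠ D'.neg (fld I r) ∧
      ∀ (F : Type*) [Field F] (t u : F), (∀ p ∈ D.commWord F r s t u, p.1 < D.nroots) ∧
        D'.commWord F (fld I r) (fld I s) t u = (D.commWord F r s t u).map fun p => (fld I p.1, p.2)) := by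
  have key := fun r (hr : r < D.nroots) => ball_spec hI r hr
  simp only [force_eq, Bool.and_eq_true, Nat.ble_eq, beq_iff] at key
  have key1 : ∀ r < D.nroots, fld I r < D'.nroots := fun r hr => (key r hr).1.1
  refine ⟨key1, fun r hr => ?_, fun r hr s hs h1 h2 => ?_⟩
  · rw [H.neg_eq hr, H'.neg_eq (key1 r hr)]; exact (key r hr).1.2
  · have k := ball_spec (key r hr).2 s hs
    simp only [Bool.or_eq_true, Bool.and_eq_true, Nat.ble_eq, beq_iff, Bool.not_eq_true', ← Bool.not_eq_true] at k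
    rcases k with (k | k) | k
    · exact absurd k h1
    · rw [H.neg_eq hr] at h2; exact absurd k h2
    · obtain ⟨⟨k1, k2⟩, k3⟩ := k
      have k2' : fld I s ≠ D'.neg (fld I r) := by rw [H'.neg_eq (key1 r hr)]; exact k2
      refine ⟨k1, k2', fun F _ t u => ?_⟩
      have a := H.commWord_sl h hr hs h1 h2
      have b := H'.commWord_sl h' (key1 r hr) (key1 s hs) k1 k2'
      rcases k3 with ⟨k3, k4⟩ | ⟨⟨⟨k3, k4⟩, k5⟩, k6⟩
      · rcases a with ⟨_, a⟩ | ⟨a, _⟩
        · rcases b with ⟨_, b⟩ | ⟨b, _⟩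
          · rw [a, b]; exact ⟨fun p hp => absurd hp (by simp), rfl⟩
          · omega
        · omega
      · rcases a with ⟨a, _⟩ | ⟨_, a0, a⟩
        · omega
        · rcases b with ⟨b, _⟩ | ⟨_, _, b⟩
          · omega
          · rw [a, b]
            have k5' : fld (T.row1 (D.rank + r)) (D.rank + s) % 8 = fld (T'.row1 (D'.rank + fld I r)) (D'.rank + fld I s) % 8 := k5
            have k6' : fld (T'.row1 (D'.rank + fld I r)) (D'.rank + fld I s) / 8 - 1 - D'.rank = fld I (fld (T.row1 (D.rank + r)) (D.rank + s) / 8 - 1 - D.rank) := k6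
            rw [k6', ← k5']
            exact ⟨fun p hp => by rw [List.mem_singleton] at hp; rw [hp]; exact a0, rfl⟩

/-- embeddings of data -/
structure Emb (D D' : ChevalleyDatum) (I : ℕ) (F : Type*) [Field F] : Prop where
  lt : ∀ r < D.nroots, fld I r < D'.nroots
  neg : ∀ r < D.nroots, fld I (D.neg r) = D'.neg (fld I r)
  com : ∀ r < D.nroots, ∀ s < D.nroots, s ≠ r → s ≠ D.neg r → fld I s ≠ fld I r ∧ fld I s ≠ D'.neg (fld I r) ∧
      ∀ t u : F, (∀ p ∈ D.commWord F r s t u, p.1 < D.nroots) ∧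
        D'.commWord F (fld I r) (fld I s) t u = (D.commWord F r s t u).map fun p => (fld I p.1, p.2)

theorem emb_of_chk {D D' : ChevalleyDatum} {T T' : Tab} (H : Facts D T) (H' : Facts D' T') (h : slChk D.rank D.nroots T = true)
    (h' : slChk D'.rank D'.nroots T' = true) {I : ℕ} (hI : embChk D.rank D.nroots T D'.rank D'.nroots T' I = true) (F : Type*) [Field F] :
    Emb D D' I F := by
  have := embChk_spec H H' h h' hI
  exact ⟨this.1, this.2.1, fun r hr s hs h1 h2 => ⟨(this.2.2 r hr s hs h1 h2).1, (this.2.2 r hr s hs h1 h2).2.1, (this.2.2 r hr s hs h1 h2).2.2 F⟩⟩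

namespace Emb
variable {D D' : ChevalleyDatum} {I : ℕ} {F : Type*} [Field F]

/-- generator map -/
noncomputable def emap (D D' : ChevalleyDatum) (I : ℕ) (F : Type*) [Field F] (p : Fin D.nroots × F) : GL D'.Idx F := xg D' (fld I p.1) p.2

theorem lift_stX (D D' : ChevalleyDatum) (I : ℕ) {r : ℕ} (hr : r < D.nroots) (t : F) :
    FreeGroup.lift (emap D D' I F) (D.stX r t) = xg D' (fld I r) t := by
  unfold ChevalleyDatum.stX
  rw [dif_pos hr, FreeGroup.lift_apply_of]; rfl

theorem lift_stWord (D D' : ChevalleyDatum) (I : ℕ) (w : List (ℕ × F)) (hw : ∀ p ∈ w, p.1 < D.nroots) :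
    FreeGroup.lift (emap D D' I F) (D.stWord w) = wg D' (w.map fun p => (fld I p.1, p.2)) := by
  induction w with
  | nil => unfold ChevalleyDatum.stWord wg; simp
  | cons p w ih =>
    have e : D.stWord (p :: w) = D.stX p.1 p.2 * D.stWord w := by unfold ChevalleyDatum.stWord; rw [List.map_cons, List.prod_cons]
    rw [e, map_mul, ih fun q hq => hw q (by simp [hq]), List.map_cons, wg_cons, lift_stX D D' I (hw p (by simp))]

theorem lift_rels (M' : CG D' F) (E : Emb D D' I F) : ∀ r ∈ D.steinbergRelsAB F, FreeGroup.lift (emap D D' I F) r = 1 := by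
  rintro g (⟨r, t₁, t₂, hr, rfl⟩ | ⟨r, s, t, u, hr, hs, h1, h2, rfl⟩)
  · rw [map_mul, map_mul, map_inv, lift_stX D D' I hr, lift_stX D D' I hr, lift_stX D D' I hr, M'.xg_add, mul_inv_cancel]
  · obtain ⟨h3, h4, h5⟩ := E.com r hr s hs h1 h2
    obtain ⟨h6, h7⟩ := h5 t u
    simp only [map_mul, map_inv]
    rw [lift_stX D D' I hr, lift_stX D D' I hs, lift_stWord D D' I _ h6, ← h7]
    have := M'.comm_xg (E.lt r hr) (E.lt s hs) h3 h4 t u
    rw [mul_inv_eq_one]
    calc (xg D' (fld I s) u)⁻¹ * (xg D' (fld I r) t)⁻¹ * xg D' (fld I s) u * xg D' (fld I r) t =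
          (xg D' (fld I r) t * xg D' (fld I s) u)⁻¹ * (xg D' (fld I s) u * xg D' (fld I r) t) := by group
      _ = _ := by rw [this]; group

/-- the homomorphism of an embedding -/
noncomputable def hom (M' : CG D' F) (E : Emb D D' I F) : D.SteinbergCover F →* GL D'.Idx F := PresentedGroup.toGroup (lift_rels M' E)

theorem hom_sc (M' : CG D' F) (E : Emb D D' I F) {r : ℕ} (hr : r < D.nroots) (t : F) : hom M' E (D.scGen F r t) = xg D' (fld I r) t := by
  have : hom M' E (D.scGen F r t) = FreeGroup.lift (emap D D' I F) (D.stX r t) := rfl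
  rw [this, lift_stX D D' I hr]

end Emb

namespace StG
variable {D D' : ChevalleyDatum} {I : ℕ} {F : Type*} [Field F] {Γ : Type*} [Group Γ] (S : StG D F Γ)

theorem emb_Nh (M' : CG D' F) (E : Emb D D' I F) {Φ : Γ →* GL D'.Idx F} (hΦ : ∀ r < D.nroots, ∀ t : F, Φ (S.X r t) = xg D' (fld I r) t)
    {r : ℕ} (hr : r < D.nroots) (t : F) : Φ (S.Nh r t) = ng D' (fld I r) t := by
  unfold Nh
  rw [map_mul, map_mul, hΦ r hr, hΦ _ (S.N.neg_lt hr), E.neg r hr, M'.ng_eq]

theorem emb_hh (M' : CG D' F) (E : Emb D D' I F) {Φ : Γ →* GL D'.Idx F} (hΦ : ∀ r < D.nroots, ∀ t : F, Φ (S.X r t) = xg D' (fld I r) t)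
    {i : ℕ} (hi : i < D.rank) (c : Fˣ) : Φ (S.hh i (c : F)) = dgg D' (fun s => c ^ D'.pairing (fld I (D.simple i)) s) := by
  have hr := S.N.simple_lt i hi
  unfold hh
  rw [map_mul, S.emb_Nh M' E hΦ hr, S.emb_Nh M' E hΦ hr, M'.ng_neg, M'.ng_mul_ng (E.lt _ hr), mul_assoc, mul_inv_cancel, mul_one]

theorem emb_hprd (M' : CG D' F) (E : Emb D D' I F) {Φ : Γ →* GL D'.Idx F} (hΦ : ∀ r < D.nroots, ∀ t : F, Φ (S.X r t) = xg D' (fld I r) t)
    (τ : ℕ → Fˣ) : Φ (S.hprd τ) = dgg D' (fun s => ∏ i ∈ Finset.range D.rank, τ i ^ D'.pairing (fld I (D.simple i)) s) := by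
  unfold hprd
  have key : ∀ n ≤ D.rank, Φ ((List.range n).map fun i => S.hh i (τ i : F)).prod =
      dgg D' (fun s => ∏ i ∈ Finset.range n, τ i ^ D'.pairing (fld I (D.simple i)) s) := by
    intro n
    induction n with
    | zero =>
      intro _
      simp only [List.range_zero, List.map_nil, List.prod_nil, map_one, Finset.range_zero, Finset.prod_empty]
      exact (map_one (dgg D')).symm
    | succ n ih =>
      intro hn
      rw [List.range_succ, List.map_append, List.prod_append, map_mul, ih (by omega), List.map_singleton, List.prod_singleton,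
        S.emb_hh M' E hΦ (by omega) (τ n), ← map_mul]
      congr 1
      ext s
      rw [Pi.mul_apply, Finset.prod_range_succ]
  exact key _ le_rfl

end StG

end CfsgLib.Chev
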