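import Cfsg.Agent.Lib.CEmb1
set_option autoImplicit false
set_option maxRecDepth 1000000

namespace CfsgLib.Chev
open Cfsg.Lie

def IE6 : ℕ := 0xee1cc3806e0da1a8340670ca190318610c017c2f05d0b41602b8550a814c2885009e1382604b0941242384608a10c2104007a0ec1d03806e0d81a0330640c41782e05a0b0150290500981282304007c0f01d0380680c81802c0540981001e03405006

theorem embE6 : embChk 6 72 TE6 7 126 TE7 IE6 = true := by decide +kernel

def IE7 : ℕ := 0x710db1ac348678cd198320628c31842fc5e8bc1742e45c0b51662c8580af15c2b0558aa15229c530a514828c5109f13a2704d0991302584a8941262444808f11c2344588a1122204388510820c410800fe1f83e07b0f21d83a0730e21c03786d0d81ac350680ce198328640c41843005f0bc1702d85a0b215c2b0550a61482804d09812c25049090118228440861042003f07a0f01d03706c0d4198320600b41602a04e08c1102003a0640a00d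

theorem embE7 : embChk 7 126 TE7 8 240 TE8 IE7 = true := by decide +kernel

end CfsgLib.Chev
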