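import Cfsg.Agent.Lib.CSch1
import Cfsg.Agent.Lib.CExt9d
import Cfsg.Agent.Lib.CExt9e
set_option autoImplicit false
set_option maxRecDepth 1000000

namespace CfsgLib.Chev
open Cfsg.Lie

universe u w

theorem lifts_allE {D : ChevalleyDatum} (hD : D ∈ [chevE6, chevE7, chevE8]) {F : Type u} [Field F] {E : Type w} [Group E] (S : CExt D F E) : Lifts S := by
  by_cases hF : ∃ v : Fˣ, v ≠ 1
  · exact lifts_E hD hF S
  · push Not at hF
    have h2 : ∀ v : F, v = 0 ∨ v = 1 := by
      intro v
      by_cases hv : v = 0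
      · exact Or.inl hv
      · right
        have := congrArg Units.val (hF (Units.mk0 v hv))
        simpa using this
    simp only [List.mem_cons, List.not_mem_nil, or_false] at hD
    rcases hD with rfl | rfl | rfl
    · exact twoE6 S h2
    · exact twoE7 S h2
    · exact twoE8 S h2

theorem mem7 {D : ChevalleyDatum} (hD : D ∈ [chevE6, chevE7, chevE8]) : D ∈ [chevG2, chevB2, chevD4, chevF4, chevE6, chevE7, chevE8] := by
  simp only [List.mem_cons, List.not_mem_nil, or_false] at hD ⊢
  tauto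

theorem ne_B2G2 {D : ChevalleyDatum} (hD : D ∈ [chevE6, chevE7, chevE8]) : D ∉ [chevB2, chevG2] := by
  have h := chev_ne
  simp only [List.mem_cons, List.not_mem_nil, or_false] at hD ⊢
  rcases hD with rfl | rfl | rfl
  · rintro (h1 | h1)
    · exact h.2.2.2.2.2.1 h1
    · exact h.2.2.2.2.1 h1
  · rintro (h1 | h1)
    · exact h.2.2.2.2.2.2.2.1 h1
    · exact h.2.2.2.2.2.2.1 h1
  · rintro (h1 | h1)
    · exact h.2.2.2.2.2.2.2.2.2 h1
    · exact h.2.2.2.2.2.2.2.2.1 h1

end CfsgLib.Chev
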