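import Cfsg.Agent.Lib.CEmb2
import Cfsg.Agent.Lib.CSch2
set_option autoImplicit false
set_option maxRecDepth 1000000
set_option linter.style.haveILetI false

/-! Centres of the universal groups of types E6 and E7. -/

namespace CfsgLib.Chev
open Cfsg.Lie Matrix

/-- check of the centre data -/
def cenChk (D : ChevalleyDatum) (n : ℕ) (B : List (List ℤ)) (b k : List ℤ) : Bool :=
  ((List.range D.rank).all fun i => (List.range D.rank).all fun c =>
    decide (((List.range D.rank).map fun j => D.cartan i (D.simple j) * (B.getD j []).getD c 0).sum =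
      (if i = c then 1 else 0) - (if i + 1 = D.rank then k.getD c 0 else 0))) &&
  ((List.range D.rank).all fun i =>
    decide (((List.range D.rank).map fun j => D.cartan i (D.simple j) * b.getD j 0).sum = if i + 1 = D.rank then (n : ℤ) else 0)) &&
  ((List.range D.nroots).all fun s => decide (((List.range D.rank).map fun i => k.getD i 0 * D.cartan i s).sum % (n : ℤ) = 0)) &&
  decide (k.getD (D.rank - 1) 0 = 1)

/-- check of the embedding -/
def extChk (D D' : ChevalleyDatum) (J : List ℕ) (s0 : ℕ) : Bool :=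
  decide (s0 < D'.nroots) && (List.range D.rank).all fun i => decide (J.getD i 0 < D'.rank) &&
    decide (D'.cartan (J.getD i 0) s0 = if i + 1 = D.rank then -1 else 0)

theorem sum_range_list' (n : ℕ) (f : ℕ → ℤ) : ∑ j ∈ Finset.range n, f j = ((List.range n).map f).sum := by
  induction n with
  | zero => simp
  | succ n ih => rw [Finset.sum_range_succ, List.range_succ, List.map_append, List.sum_append, ih]; simp

namespace StG
variable {D : ChevalleyDatum} {F : Type*} [Field F] {Γ : Type*} [Group Γ] (S : StG D F Γ)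
include S

theorem comb_eq {τ : ℕ → Fˣ} (hτ : ∀ s < D.nroots, ∏ i ∈ Finset.range D.rank, τ i ^ D.pairing (D.simple i) s = 1) (b : ℕ → ℤ) :
    ∏ i ∈ Finset.range D.rank, τ i ^ (∑ j ∈ Finset.range D.rank, D.cartan i (D.simple j) * b j) = 1 := by
  have h2 : ∏ j ∈ Finset.range D.rank, (∏ i ∈ Finset.range D.rank, τ i ^ D.pairing (D.simple i) (D.simple j)) ^ b j = 1 := by
    apply Finset.prod_eq_one
    intro j hj
    rw [hτ _ (S.N.simple_lt j (Finset.mem_range.mp hj)), _root_.one_zpow]
  rw [← h2]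
  have e1 : ∀ j ∈ Finset.range D.rank, (∏ i ∈ Finset.range D.rank, τ i ^ D.pairing (D.simple i) (D.simple j)) ^ b j =
      ∏ i ∈ Finset.range D.rank, τ i ^ (D.cartan i (D.simple j) * b j) := by
    intro j hj
    rw [← Finset.prod_zpow]
    refine Finset.prod_congr rfl fun i hi => ?_
    rw [← _root_.zpow_mul, S.pairing_simple (Finset.mem_range.mp hi) (S.N.simple_lt j (Finset.mem_range.mp hj))]
  rw [Finset.prod_congr rfl e1, Finset.prod_comm]
  refine Finset.prod_congr rfl fun i hi => ?_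
  rw [prod_zpow_sum]

theorem hprd_congr' {τ τ' : ℕ → Fˣ} (h : ∀ i < D.rank, τ i = τ' i) : S.hprd τ = S.hprd τ' := by
  unfold hprd
  congr 1
  apply List.map_congr_left
  intro i hi
  rw [h i (List.mem_range.mp hi)]

variable {S} in
theorem center_equiv (h3 : S.R3) {n : ℕ} {B : List (List ℤ)} {b k : List ℤ} (hc : cenChk D n B b k = true)
    {D' : ChevalleyDatum} {I : ℕ} (M' : CG D' F) (E : Emb D D' I F) {Φ : Γ →* GL D'.Idx F}
    (hΦ : ∀ r < D.nroots, ∀ t : F, Φ (S.X r t) = xg D' (fld I r) t) {J : List ℕ} {s0 : ℕ} (hx : extChk D D' J s0 = true)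
    (hJ : ∀ i < D.rank, fld I (D.simple i) = D'.simple (J.getD i 0)) :
    Nonempty (↥(rootsOfUnity n F) ≃* ↥(Subgroup.center Γ)) := by
  unfold cenChk at hc
  simp only [Bool.and_eq_true, List.all_eq_true, List.mem_range, decide_eq_true_eq] at hc
  obtain ⟨⟨⟨c1, c2⟩, c3⟩, c4⟩ := hc
  unfold extChk at hx
  simp only [Bool.and_eq_true, List.all_eq_true, List.mem_range, decide_eq_true_eq] at hx
  obtain ⟨x1, x2⟩ := hx
  have hl : 0 < D.rank := S.N.lpos
  -- the map
  have hker : ∀ ω : ↥(rootsOfUnity n F), S.hprd (fun i => (ω : Fˣ) ^ k.getD i 0) ∈ Subgroup.center Γ := by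
    intro ω
    rw [← S.ker_eq, MonoidHom.mem_ker, S.θhprd, ← map_one (dgg D)]
    apply dgg_congr
    intro s hs
    have hω : (ω : Fˣ) ^ n = 1 := (mem_rootsOfUnity n _).mp ω.2
    have e : ∀ i ∈ Finset.range D.rank, ((ω : Fˣ) ^ k.getD i 0) ^ D.pairing (D.simple i) s = (ω : Fˣ) ^ (k.getD i 0 * D.cartan i s) := by
      intro i hi
      rw [← _root_.zpow_mul, S.pairing_simple (Finset.mem_range.mp hi) hs]
    rw [Finset.prod_congr rfl e, prod_zpow_sum, sum_range_list']
    obtain ⟨m, hm⟩ := Int.dvd_of_emod_eq_zero (c3 s hs)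
    rw [hm, _root_.zpow_mul, zpow_natCast, hω, _root_.one_zpow]; rfl
  set ψ : ↥(rootsOfUnity n F) →* ↥(Subgroup.center Γ) :=
    { toFun := fun ω => ⟨S.hprd (fun i => (ω : Fˣ) ^ k.getD i 0), hker ω⟩
      map_one' := by
        apply Subtype.ext
        change S.hprd _ = 1
        rw [← S.hprd_one]
        congr 1
        ext i
        simp
      map_mul' := by
        intro ω ω'
        apply Subtype.ext
        change S.hprd _ = S.hprd _ * S.hprd _
        rw [hprd_mul h3]
        congr 1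
        ext i
        simp [mul_zpow] } with hψ
  refine ⟨MulEquiv.ofBijective ψ ⟨?_, ?_⟩⟩
  · rw [injective_iff_map_eq_one]
    intro ω hω
    have h1 : S.hprd (fun i => (ω : Fˣ) ^ k.getD i 0) = 1 := congrArg Subtype.val hω
    have h2 := S.emb_hprd M' E hΦ (fun i => (ω : Fˣ) ^ k.getD i 0)
    rw [h1, map_one, ← map_one (dgg D')] at h2
    have h4 := dgg_inj D' h2.symm s0 x1
    have e : ∀ i ∈ Finset.range D.rank, ((ω : Fˣ) ^ k.getD i 0) ^ D'.pairing (fld I (D.simple i)) s0 =
        (ω : Fˣ) ^ (k.getD i 0 * if i + 1 = D.rank then -1 else 0) := by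
      intro i hi
      have hi := Finset.mem_range.mp hi
      rw [← _root_.zpow_mul, hJ i hi, M'.pairing_simple (x2 i hi).1 x1, (x2 i hi).2]
    rw [Finset.prod_congr rfl e, Finset.prod_eq_single (D.rank - 1)] at h4
    · rw [c4, if_pos (by omega), one_mul, _root_.zpow_neg, _root_.zpow_one, Pi.one_apply, inv_eq_one] at h4
      exact Subtype.ext h4
    · intro i _ hi
      rw [if_neg (by omega), mul_zero, zpow_zero]
    · intro h; exact absurd (Finset.mem_range.mpr (by omega)) h
  · rintro ⟨z, hz⟩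
    rw [← S.ker_eq] at hz
    obtain ⟨τ, rfl, hτ⟩ := ker_form h3 hz
    have hn : (τ (D.rank - 1)) ^ n = 1 := by
      have := S.comb_eq hτ (fun j => b.getD j 0)
      rw [Finset.prod_eq_single (D.rank - 1)] at this
      · rw [sum_range_list', c2 _ (by omega), if_pos (by omega), zpow_natCast] at this
        exact this
      · intro i hi hi'
        rw [sum_range_list', c2 _ (Finset.mem_range.mp hi), if_neg (by omega), zpow_zero]
      · intro h; exact absurd (Finset.mem_range.mpr (by omega)) h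
    refine ⟨⟨τ (D.rank - 1), (mem_rootsOfUnity n _).mpr hn⟩, ?_⟩
    apply Subtype.ext
    change S.hprd _ = S.hprd τ
    apply S.hprd_congr'
    intro c hc
    have := S.comb_eq hτ (fun j => (B.getD j []).getD c 0)
    have e : ∀ i ∈ Finset.range D.rank, τ i ^ (∑ j ∈ Finset.range D.rank, D.cartan i (D.simple j) * (B.getD j []).getD c 0) =
        τ i ^ (if i = c then 1 else 0 : ℤ) * (τ i ^ (if i + 1 = D.rank then k.getD c 0 else 0))⁻¹ := by
      intro i hi
      rw [sum_range_list', c1 i (Finset.mem_range.mp hi) c hc, sub_eq_add_neg, _root_.zpow_add, _root_.zpow_neg]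
    rw [Finset.prod_congr rfl e, Finset.prod_mul_distrib, Finset.prod_inv_distrib, Finset.prod_eq_single c, Finset.prod_eq_single (D.rank - 1),
      if_pos rfl, _root_.zpow_one, if_pos (by omega), mul_inv_eq_one] at this
    · exact this.symm
    · intro i _ hi
      rw [if_neg (by omega), zpow_zero]
    · intro h; exact absurd (Finset.mem_range.mpr (by omega)) h
    · intro i _ hi
      rw [if_neg hi, zpow_zero]
    · intro h; exact absurd (Finset.mem_range.mpr hc) h

end StG


theorem card_roots (F : Type*) [Field F] [Finite F] (n : ℕ) : Nat.card ↥(rootsOfUnity n F) = Nat.gcd n (Nat.card F - 1) := by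
  rw [rootsOfUnity_eq_ker, IsCyclic.card_powMonoidHom_ker, Nat.card_units, Nat.gcd_comm]

theorem cen_roots {D : ChevalleyDatum} {n : ℕ} (h : (D, n) ∈ [(chevE6, 3), (chevE7, 2)]) (F : Type*) [Field F] [Finite F] :
    Nonempty (↥(rootsOfUnity n F) ≃* ↥(Subgroup.center (D.SteinbergGroup F))) := by
  obtain ⟨M6⟩ := exists_cg (D := chevE6) (by simp) F
  obtain ⟨M7⟩ := exists_cg (D := chevE7) (by simp) F
  obtain ⟨M8⟩ := exists_cg (D := chevE8) (by simp) F
  simp only [List.mem_cons, Prod.mk.injEq, List.not_mem_nil, or_false] at h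
  rcases h with ⟨rfl, rfl⟩ | ⟨rfl, rfl⟩
  · have hok := stOK_all (D := chevE6) (by simp)
    obtain ⟨e, he⟩ := exists_equiv M6 hok
    have E : Emb chevE6 chevE7 IE6 F := emb_of_chk factsE6 factsE7 slE6 slE7 embE6 F
    exact StG.center_equiv (stGrp_R3 M6 hok)
      (B := [[2, 1, 1, 2, 2, 0], [2, 2, 1, 3, 3, 0], [3, 2, 2, 4, 4, 0], [4, 3, 2, 6, 6, 0], [3, 2, 1, 4, 5, 0], [2, 1, 0, 2, 3, 0]])
      (b := [2, 3, 4, 6, 5, 4]) (k := [-1, 0, 1, 0, -1, 1]) (by decide +kernel) M7 E (Φ := (E.hom M7).comp e.symm.toMonoidHom)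
      (fun r hr t => by
        rw [← E.hom_sc M7 hr t, stGrp_X, ← he r t]
        change E.hom M7 (e.symm (e _)) = _
        rw [e.symm_apply_apply])
      (J := [0, 1, 2, 3, 4, 5]) (s0 := 63) (by decide +kernel) (by decide +kernel)
  · have hok := stOK_all (D := chevE7) (by simp)
    obtain ⟨e, he⟩ := exists_equiv M7 hok
    have E : Emb chevE7 chevE8 IE7 F := emb_of_chk factsE7 factsE8 slE7 slE8 embE7 F
    exact StG.center_equiv (stGrp_R3 M7 hok)
      (B := [[2, 1, 3, 4, 2, 2, 0], [2, 2, 4, 6, 3, 3, 0], [3, 2, 6, 8, 4, 4, 0], [4, 3, 8, 12, 6, 6, 0], [3, 2, 6, 9, 5, 5, 0], [2, 1, 4, 6, 3, 4, 0], [1, 0, 2, 3, 1, 2, 0]])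
      (b := [2, 3, 4, 6, 5, 4, 3]) (k := [0, 1, 0, 0, 1, 0, 1]) (by decide +kernel) M8 E (Φ := (E.hom M8).comp e.symm.toMonoidHom)
      (fun r hr t => by
        rw [← E.hom_sc M8 hr t, stGrp_X, ← he r t]
        change E.hom M8 (e.symm (e _)) = _
        rw [e.symm_apply_apply])
      (J := [0, 1, 2, 3, 4, 5, 6]) (s0 := 120) (by decide +kernel) (by decide +kernel)

theorem cen_card {D : ChevalleyDatum} {n : ℕ} (h : (D, n) ∈ [(chevE6, 3), (chevE7, 2)]) (F : Type*) [Field F] [Finite F] :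
    Nat.card ↥(Subgroup.center (D.SteinbergGroup F)) = Nat.gcd n (Nat.card F - 1) := by
  obtain ⟨e⟩ := cen_roots h F
  rw [← Nat.card_congr e.toEquiv, card_roots]

theorem cen_zmod {D : ChevalleyDatum} {n : ℕ} (h : (D, n) ∈ [(chevE6, 3), (chevE7, 2)]) (F : Type*) [Field F] [Finite F] :
    Nonempty (↥(Subgroup.center (D.SteinbergGroup F)) ≃* Multiplicative (ZMod (Nat.gcd n (Nat.card F - 1)))) := by
  obtain ⟨e⟩ := cen_roots h F
  have hn : NeZero n := ⟨by
    simp only [List.mem_cons, Prod.mk.injEq, List.not_mem_nil, or_false] at h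
    rcases h with ⟨_, rfl⟩ | ⟨_, rfl⟩ <;> norm_num⟩
  have hc : IsCyclic ↥(rootsOfUnity n F) := inferInstance
  rw [← card_roots F n]
  exact ⟨e.symm.trans (zmodCyclicMulEquiv hc).symm⟩

theorem hasSchur_E67 {D : ChevalleyDatum} {n : ℕ} (h : (D, n) ∈ [(chevE6, 3), (chevE7, 2)]) (F : Type*) [Field F] [Finite F] :
    Cfsg.HasCyclicSchurMultiplier ↥(D.group F) (Nat.gcd n (Nat.card F - 1)) := by
  have hE : D ∈ [chevE6, chevE7, chevE8] := by
    simp only [List.mem_cons, Prod.mk.injEq, List.not_mem_nil, or_false] at h ⊢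
    rcases h with ⟨h, _⟩ | ⟨h, _⟩ <;> simp [h]
  have hD := mem7 hE
  obtain ⟨M⟩ := exists_cg hD F
  have hok := stOK_all hD
  exact hasSchur M hok (perfG_all hD (fun h => absurd h (ne_B2G2 hE)) (stCov M hok)) (fun _ _ S _ => lifts_allE hE S) (cen_zmod h F)

end CfsgLib.Chev
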