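import Cfsg.Agent.Lib.CSt4
set_option autoImplicit false
set_option maxRecDepth 1000000
set_option linter.style.haveILetI false

/-! Central extensions of Chevalley groups: lifting the commutator relations. -/

namespace CfsgLib.Chev
open Cfsg.Lie Matrix

/-- linear weights in `H` -/
structure LW {D : ChevalleyDatum} {F : Type*} [Field F] (M : CG D F) (ω : ℕ → Fˣ) : Prop where
  wt : IsWt D M.T ω
  mem : dgg D ω ∈ D.diagonalSubgroup F
  lin : ∀ r s k, r < D.nroots → s < D.nroots → k < D.nroots → ∀ i j : ℕ, M.Cmb r s k i j → ω k = ω r ^ i * ω s ^ j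

namespace GD
variable {D : ChevalleyDatum} (M : GD D)
include M

theorem pairing_Cmb {g r s k : ℕ} (hr : r < D.nroots) (hs : s < D.nroots) (hk : k < D.nroots) {i j : ℤ} (h : M.Cmb r s k i j) :
    D.pairing g k = i * D.pairing g r + j * D.pairing g s := by
  have hc : ∀ m < D.rank, D.cartan m k = i * D.cartan m r + j * D.cartan m s := by
    intro m hm
    rw [M.hC m hm _ hk, M.hC m hm _ hr, M.hC m hm _ hs, Finset.mul_sum, Finset.mul_sum, ← Finset.sum_add_distrib]
    refine Finset.sum_congr rfl fun p hp => ?_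
    rw [h p (Finset.mem_range.mp hp)]; ring
  unfold ChevalleyDatum.pairing
  rw [sum_range_list, sum_range_list, sum_range_list, Finset.mul_sum, Finset.mul_sum, ← Finset.sum_add_distrib]
  refine Finset.sum_congr rfl fun m hm => ?_
  rw [hc m (Finset.mem_range.mp hm)]; ring

end GD

namespace LW
variable {D : ChevalleyDatum} {F : Type*} [Field F] {M : CG D F}

theorem mul {ω ω' : ℕ → Fˣ} (h : LW M ω) (h' : LW M ω') : LW M (ω * ω') where
  wt := h.wt.mul h'.wt
  mem := by rw [map_mul]; exact mul_mem h.mem h'.mem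
  lin := by
    intro r s k hr hs hk i j hc
    rw [Pi.mul_apply, Pi.mul_apply, Pi.mul_apply, h.lin r s k hr hs hk i j hc, h'.lin r s k hr hs hk i j hc, mul_pow, mul_pow]
    exact mul_mul_mul_comm _ _ _ _

theorem pair {g : ℕ} (hg : g < D.nroots) (c : Fˣ) : LW M (fun s => c ^ D.pairing g s) where
  wt := M.isWt_h hg c
  mem := M.h_mem hg c
  lin := by
    intro r s k hr hs hk i j hc
    rw [M.pairing_Cmb hr hs hk hc, _root_.zpow_add, mul_comm (i : ℤ), mul_comm (j : ℤ), _root_.zpow_mul, _root_.zpow_mul, zpow_natCast, zpow_natCast]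

end LW

/-- a central extension of the Chevalley group -/
structure CExt (D : ChevalleyDatum) (F : Type*) [Field F] (E : Type*) [Group E] extends CG D F where
  ρ : E →* GL D.Idx F
  rng : ρ.range = D.group F
  cen : ρ.ker ≤ Subgroup.center E

namespace CExt
variable {D : ChevalleyDatum} {F : Type*} [Field F] {E : Type*} [Group E] (S : CExt D F E)
include S

theorem exists_lift {g : GL D.Idx F} (hg : g ∈ D.group F) : ∃ e : E, S.ρ e = g := by
  rw [← S.rng] at hg; exact hg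

theorem cen_comm {z : E} (hz : S.ρ z = 1) (e : E) : e * z = z * e :=
  Subgroup.mem_center_iff.mp (S.cen ((MonoidHom.mem_ker).mpr hz)) e

/-- elements with the same image differ by a central element -/
theorem same {e e' : E} (h : S.ρ e = S.ρ e') : ∃ z, S.ρ z = 1 ∧ e' = z * e := by
  refine ⟨e' * e⁻¹, ?_, by group⟩
  rw [map_mul, map_inv, h, mul_inv_cancel]

theorem cen_conj {z : E} (hz : S.ρ z = 1) (e : E) : z * e * z⁻¹ = e := by
  rw [← S.cen_comm hz e, mul_assoc, mul_inv_cancel, mul_one]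

theorem cen_conj' {z : E} (hz : S.ρ z = 1) (e : E) : e * z * e⁻¹ = z := by
  rw [S.cen_comm hz e, mul_assoc, mul_inv_cancel, mul_one]

/-- commutators only depend on the images -/
theorem com_indep {e e' f f' : E} (h : S.ρ e = S.ρ e') (h' : S.ρ f = S.ρ f') :
    e * f * e⁻¹ * f⁻¹ = e' * f' * e'⁻¹ * f'⁻¹ := by
  obtain ⟨z, hz, rfl⟩ := S.same h
  obtain ⟨y, hy, rfl⟩ := S.same h'
  have e1 : z * e * (y * f) * (z * e)⁻¹ * (y * f)⁻¹ = z * (e * (y * f) * e⁻¹) * z⁻¹ * (y * f)⁻¹ := by group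
  have e2 : e * (y * f) * e⁻¹ * (y * f)⁻¹ = (e * y * e⁻¹) * (e * f * e⁻¹ * f⁻¹) * y⁻¹ := by group
  rw [e1, S.cen_conj hz, e2, S.cen_conj' hy, S.cen_conj hy]

/-- conjugation by an element only depends on its image -/
theorem conj_indep {e e' : E} (h : S.ρ e = S.ρ e') (f : E) : e * f * e⁻¹ = e' * f * e'⁻¹ := by
  obtain ⟨z, hz, rfl⟩ := S.same h
  have e1 : z * e * f * (z * e)⁻¹ = z * (e * f * e⁻¹) * z⁻¹ := by group
  rw [e1, S.cen_conj hz]

/-- a lift of `g` -/
noncomputable def lf (g : GL D.Idx F) : E := by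
  classical
  exact if h : g ∈ D.group F then (S.exists_lift h).choose else 1

theorem ρ_lf {g : GL D.Idx F} (hg : g ∈ D.group F) : S.ρ (S.lf g) = g := by
  unfold lf
  rw [dif_pos hg]
  exact (S.exists_lift hg).choose_spec

theorem ρ_mem (e : E) : S.ρ e ∈ D.group F := by rw [← S.rng]; exact ⟨e, rfl⟩

/-- commutation in `G` -/
def _root_.CfsgLib.Chev.NC (D : ChevalleyDatum) (F : Type*) [Field F] (r s : ℕ) : Prop := ∀ t u : F, xg D r t * xg D s u = xg D s u * xg D r t

/-- lifts commute -/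
def RawC (r s : ℕ) : Prop := ∀ t u : F, ∀ e f : E, S.ρ e = xg D r t → S.ρ f = xg D s u → e * f = f * e

omit S in
theorem RawC.symm {S : CExt D F E} {r s : ℕ} (h : S.RawC r s) : S.RawC s r := fun t u e f he hf => (h u t f e hf he).symm

/-- the central commutator -/
noncomputable def fc (r s : ℕ) (t u : F) : E :=
  S.lf (xg D r t) * S.lf (xg D s u) * (S.lf (xg D r t))⁻¹ * (S.lf (xg D s u))⁻¹

theorem fc_eq {r s : ℕ} {t u : F} {e f : E} (he : S.ρ e = xg D r t) (hf : S.ρ f = xg D s u) : S.fc r s t u = e * f * e⁻¹ * f⁻¹ := by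
  unfold fc
  apply S.com_indep
  · rw [S.ρ_lf (S.xg_mem_G _ _), he]
  · rw [S.ρ_lf (S.xg_mem_G _ _), hf]

theorem rawC_iff {r s : ℕ} : S.RawC r s ↔ ∀ t u : F, S.fc r s t u = 1 := by
  constructor
  · intro h t u
    have := h t u _ _ (S.ρ_lf (S.xg_mem_G _ _)) (S.ρ_lf (S.xg_mem_G _ _))
    unfold fc
    rw [this]; group
  · intro h t u e f he hf
    have := h t u
    rw [S.fc_eq he hf] at this
    have h2 : e * f = (e * f * e⁻¹ * f⁻¹) * (f * e) := by group
    rw [h2, this, one_mul]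

theorem ρ_fc {r s : ℕ} (h : NC D F r s) (t u : F) : S.ρ (S.fc r s t u) = 1 := by
  unfold fc
  rw [map_mul, map_mul, map_mul, map_inv, map_inv, S.ρ_lf (S.xg_mem_G _ _), S.ρ_lf (S.xg_mem_G _ _), h t u]; group

theorem fc_add_left {r s : ℕ} (h : NC D F r s) (t t' u : F) : S.fc r s (t + t') u = S.fc r s t u * S.fc r s t' u := by
  have h1 : S.ρ (S.lf (xg D r t) * S.lf (xg D r t')) = xg D r (t + t') := by
    rw [map_mul, S.ρ_lf (S.xg_mem_G _ _), S.ρ_lf (S.xg_mem_G _ _), S.xg_add]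
  have h2 : S.ρ (S.lf (xg D s u)) = xg D s u := S.ρ_lf (S.xg_mem_G _ _)
  have h3 : S.ρ (S.fc r s t' u) = 1 := S.ρ_fc h t' u
  rw [S.fc_eq h1 h2]
  have e : S.lf (xg D r t) * S.lf (xg D r t') * S.lf (xg D s u) * (S.lf (xg D r t) * S.lf (xg D r t'))⁻¹ * (S.lf (xg D s u))⁻¹ =
      (S.lf (xg D r t) * S.fc r s t' u * (S.lf (xg D r t))⁻¹) * S.fc r s t u := by unfold fc; group
  rw [e, S.cen_conj' h3, S.cen_comm h3]

theorem fc_symm {r s : ℕ} (t u : F) : S.fc s r u t = (S.fc r s t u)⁻¹ := by unfold fc; group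

omit S in
theorem _root_.CfsgLib.Chev.NC.symm {r s : ℕ} (h : NC D F r s) : NC D F s r := fun t u => (h u t).symm

theorem fc_add_right {r s : ℕ} (h : NC D F r s) (t u u' : F) : S.fc r s t (u + u') = S.fc r s t u * S.fc r s t u' := by
  have e : ∀ v, S.fc r s t v = (S.fc s r v t)⁻¹ := fun v => by rw [S.fc_symm t v, inv_inv]
  have h1 := S.fc_add_left (NC.symm h) u u' t
  have h3 : S.ρ (S.fc s r u t)⁻¹ = 1 := by rw [map_inv, S.ρ_fc (NC.symm h), inv_one]
  rw [e, e, e, h1, _root_.mul_inv_rev, S.cen_comm h3]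

/-- invariance -/
theorem fc_inv {r s r' s' : ℕ} {t u t' u' : F} {e : E} (h1 : S.ρ e * xg D r t * (S.ρ e)⁻¹ = xg D r' t')
    (h2 : S.ρ e * xg D s u * (S.ρ e)⁻¹ = xg D s' u') (h : NC D F r s) : S.fc r' s' t' u' = S.fc r s t u := by
  have e1 : S.ρ (e * S.lf (xg D r t) * e⁻¹) = xg D r' t' := by
    rw [map_mul, map_mul, map_inv, S.ρ_lf (S.xg_mem_G _ _), h1]
  have e2 : S.ρ (e * S.lf (xg D s u) * e⁻¹) = xg D s' u' := by
    rw [map_mul, map_mul, map_inv, S.ρ_lf (S.xg_mem_G _ _), h2]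
  rw [S.fc_eq e1 e2]
  have e3 : e * S.lf (xg D r t) * e⁻¹ * (e * S.lf (xg D s u) * e⁻¹) * (e * S.lf (xg D r t) * e⁻¹)⁻¹ * (e * S.lf (xg D s u) * e⁻¹)⁻¹ =
      e * S.fc r s t u * e⁻¹ := by unfold fc; group
  rw [e3, S.cen_conj' (S.ρ_fc h t u)]

theorem fc_wt {r s : ℕ} (hr : r < D.nroots) (hs : s < D.nroots) (h : NC D F r s) {ω : ℕ → Fˣ} (hω : LW S.toCG ω) (t u : F) :
    S.fc r s ((ω r : F) * t) ((ω s : F) * u) = S.fc r s t u := by
  obtain ⟨e, he⟩ := S.exists_lift (S.H_le_G hω.mem)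
  apply S.fc_inv (e := e) _ _ h
  · rw [he]; exact S.dgg_xg hω.wt hr t
  · rw [he]; exact S.dgg_xg hω.wt hs u

/-- sufficient torus condition -/
def _root_.CfsgLib.Chev.Good (M : CG D F) (r s : ℕ) : Prop := ∃ ω, LW M ω ∧ ω s = 1 ∧ ω r ≠ 1

theorem rawC_of_good {r s : ℕ} (hr : r < D.nroots) (hs : s < D.nroots) (h : NC D F r s) (hg : Good S.toCG r s) : S.RawC r s := by
  rw [S.rawC_iff]
  intro t u
  obtain ⟨ω, hω, h1, h2⟩ := hg
  have h3 : (ω r : F) - 1 ≠ 0 := by
    intro h0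
    exact h2 (Units.ext (by rw [Units.val_one]; linear_combination h0))
  have h4 := S.fc_wt hr hs h hω (t / ((ω r : F) - 1)) u
  rw [h1, Units.val_one, one_mul] at h4
  have e : (ω r : F) * (t / ((ω r : F) - 1)) = t + t / ((ω r : F) - 1) := by field_simp; ring
  rw [e, S.fc_add_left h] at h4
  exact mul_eq_right.mp h4

/-- lifted root elements -/
structure Fam (x : ℕ → F → E) : Prop where
  lift : ∀ r < D.nroots, ∀ t, S.ρ (x r t) = xg D r t
  add : ∀ r < D.nroots, ∀ t u, x r t * x r u = x r (t + u)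
  hEq : ∀ ω, LW S.toCG ω → ∀ e, S.ρ e = dgg D ω → ∀ r < D.nroots, ∀ t, e * x r t * e⁻¹ = x r ((ω r : F) * t)
  nEq : ∀ i < D.rank, ∀ e, S.ρ e = ni D F i → ∀ s < D.nroots, ∀ t, e * x s t * e⁻¹ = x (D.reflectRoot i s) (((eta D S.T i s : ℤ) : F) * t)

end CExt

/-- generated subgroup -/
def YE (D : ChevalleyDatum) {F : Type*} {E : Type*} [Group E] (x : ℕ → F → E) (A : Set ℕ) : Subgroup E :=
  Subgroup.closure {g | ∃ r t, r ∈ A ∧ r < D.nroots ∧ g = x r t}

/-- word in lifted root elements -/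
def wE {F : Type*} {E : Type*} [Group E] (x : ℕ → F → E) (W : List (ℕ × F)) : E := (W.map fun p => x p.1 p.2).prod

/-- relation (R2) for a pair -/
def R2E (D : ChevalleyDatum) {F : Type*} [Field F] {E : Type*} [Group E] (x : ℕ → F → E) (r s : ℕ) : Prop :=
  ∀ t u, (x s u)⁻¹ * (x r t)⁻¹ * x s u * x r t = wE x (D.commWord F r s t u)

namespace CExt
namespace Fam
variable {D : ChevalleyDatum} {F : Type*} [Field F] {E : Type*} [Group E] {S : CExt D F E} {x : ℕ → F → E} (P : S.Fam x)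
include P

theorem x0 {r : ℕ} (hr : r < D.nroots) : x r 0 = 1 := by
  have := P.add r hr 0 0
  rw [add_zero] at this
  exact mul_eq_right.mp this

theorem xneg {r : ℕ} (hr : r < D.nroots) (t : F) : x r (-t) = (x r t)⁻¹ := by
  rw [eq_inv_iff_mul_eq_one, P.add r hr, neg_add_cancel, P.x0 hr]

omit P in
theorem mem_YE {A : Set ℕ} {r : ℕ} (hr : r ∈ A) (hr' : r < D.nroots) (t : F) : x r t ∈ YE D x A :=
  Subgroup.subset_closure ⟨r, t, hr, hr', rfl⟩

omit P in
theorem YE_mono {A B : Set ℕ} (h : ∀ s ∈ A, s < D.nroots → s ∈ B) : YE D x A ≤ YE D x B := by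
  unfold YE
  apply Subgroup.closure_mono
  rintro g ⟨r, t, hr, hr', rfl⟩
  exact ⟨r, t, h r hr hr', hr', rfl⟩

theorem ρYE {A : Set ℕ} {g : E} (hg : g ∈ YE D x A) : S.ρ g ∈ XS D F A := by
  unfold YE at hg
  induction hg using Subgroup.closure_induction with
  | mem g hg => obtain ⟨r, t, hr, hr', rfl⟩ := hg; rw [P.lift r hr']; exact xg_mem_XS D hr hr' t
  | one => rw [map_one]; exact one_mem _
  | mul a b _ _ ha hb => rw [map_mul]; exact mul_mem ha hb
  | inv a _ ha => rw [map_inv]; exact inv_mem ha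

theorem ρwE {W : List (ℕ × F)} (h : ∀ p ∈ W, p.1 < D.nroots) : S.ρ (wE x W) = wg D W := by
  unfold wE wg
  rw [map_list_prod, List.map_map]
  congr 1
  apply List.map_congr_left
  intro p hp
  exact P.lift _ (h p hp) _

omit P in
theorem commWord_lt {S : CExt D F E} {r s : ℕ} (hr : r < D.nroots) (hs : s < D.nroots) (h1 : s ≠ r) (h2 : s ≠ D.neg r) {t u : F} :
    ∀ p ∈ D.commWord F r s t u, p.1 < D.nroots := by
  intro p hp
  unfold ChevalleyDatum.commWord at hp
  rw [List.mem_map] at hp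
  obtain ⟨⟨k, c, i, j⟩, hk, rfl⟩ := hp
  exact (S.terms hr hs h1 h2 hk).1

omit P in
theorem wE_mem {A : Set ℕ} {r s : ℕ} (hr : r < D.nroots) (hs : s < D.nroots) (h1 : s ≠ r) (h2 : s ≠ D.neg r)
    (h : ∀ k < D.nroots, ∀ i j : ℕ, 1 ≤ i → 1 ≤ j → S.Cmb r s k i j → k ∈ A) (t u : F) :
    wE x (D.commWord F r s t u) ∈ YE D x A := by
  apply Subgroup.list_prod_mem
  intro y hy
  rw [List.mem_map] at hy
  obtain ⟨p, hp, rfl⟩ := hy
  unfold ChevalleyDatum.commWord at hp
  rw [List.mem_map] at hp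
  obtain ⟨⟨k, c, i, j⟩, hk, rfl⟩ := hp
  obtain ⟨h3, h4, h5, h6⟩ := S.terms hr hs h1 h2 hk
  exact mem_YE (h k h3 i j h4 h5 h6) h3 _

/-- `x_r(t)` normalises `Y(A)` when the relations are known -/
theorem x_norm {r : ℕ} (hr : r < D.nroots) {A : Set ℕ} (h : S.Act r A) (hR : ∀ s ∈ A, s < D.nroots → s ≠ r → R2E D x r s) (t : F) :
    x r t ∈ Subgroup.normalizer (YE D x A : Set E) := by
  have key : ∀ t : F, ∀ s ∈ A, s < D.nroots → ∀ u : F, (x r t)⁻¹ * x s u * x r t ∈ YE D x A := by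
    intro t s hs hs' u
    by_cases h1 : s = r
    · subst h1
      rw [← P.xneg hs', P.add s hs', P.add s hs']
      exact mem_YE hs hs' _
    · obtain ⟨h2, h3⟩ := h s hs hs'
      have e := hR s hs hs' h1 t u
      have : (x r t)⁻¹ * x s u * x r t = x s u * wE x (D.commWord F r s t u) := by rw [← e]; group
      rw [this]
      exact mul_mem (mem_YE hs hs' _) (wE_mem (S := S) hr hs' h1 h2 h3 t u)
  have key2 : ∀ g : E, (∀ s ∈ A, s < D.nroots → ∀ u : F, g * x s u * g⁻¹ ∈ YE D x A) → ∀ k ∈ YE D x A, g * k * g⁻¹ ∈ YE D x A := by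
    intro g hg k hk
    unfold YE at hk
    induction hk using Subgroup.closure_induction with
    | mem k hk => obtain ⟨r, t, hr, hr', rfl⟩ := hk; exact hg r hr hr' t
    | one => simp
    | mul a b _ _ ha hb =>
      have : g * (a * b) * g⁻¹ = (g * a * g⁻¹) * (g * b * g⁻¹) := by group
      rw [this]; exact mul_mem ha hb
    | inv a _ ha =>
      have : g * a⁻¹ * g⁻¹ = (g * a * g⁻¹)⁻¹ := by group
      rw [this]; exact inv_mem ha
  have k1 : ∀ t : F, ∀ k ∈ YE D x A, x r t * k * (x r t)⁻¹ ∈ YE D x A := by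
    intro t
    apply key2
    intro s hs hs' u
    have := key (-t) s hs hs' u
    rwa [P.xneg hr, inv_inv] at this
  rw [Subgroup.mem_normalizer_iff]
  intro k
  constructor
  · exact k1 t k
  · intro hk
    have := k1 (-t) _ hk
    rw [P.xneg hr, inv_inv] at this
    have e : (x r t)⁻¹ * (x r t * k * (x r t)⁻¹) * x r t = k := by group
    rwa [e] at this

/-- injectivity on positive closed sets -/
theorem inj {A : Set ℕ} (hA : ∀ s ∈ A, s ∈ PosS D) (hc : ∀ r ∈ A, r < D.nroots → S.Act r A)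
    (hR : ∀ r ∈ A, r < D.nroots → ∀ s ∈ A, s < D.nroots → s ≠ r → R2E D x r s) (k : ℕ) :
    ∀ m, D.nroots / 2 ≤ m → m + k = D.nroots → ∀ g ∈ YE D x (A ∩ Set.Ici m), S.ρ g = 1 → g = 1 := by
  induction k with
  | zero =>
    intro m _ hmk g hg _
    have : YE D x (A ∩ Set.Ici m) = ⊥ := by
      rw [eq_bot_iff]
      unfold YE
      rw [Subgroup.closure_le]
      rintro g ⟨r, t, hr, hr', rfl⟩
      have : m ≤ r := hr.2
      omega
    rwa [this, Subgroup.mem_bot] at hg
  | succ k ih =>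
    intro m hm hmk g hg h
    have hm' : m < D.nroots := by omega
    by_cases hmA : m ∈ A
    · -- peel
      have hnorm : ∀ t, x m t ∈ Subgroup.normalizer (YE D x (A ∩ Set.Ici (m + 1)) : Set E) := by
        intro t
        refine P.x_norm hm' ?_ (fun s hs hs' hsm => hR m hmA hm' s hs.1 hs' hsm) t
        intro s hs hs'
        have a1 := hc m hmA hm' s hs.1 hs'
        have a2 := S.act_Ici hm' hm (m := m + 1) (by omega) s hs.2 hs'
        exact ⟨a1.1, fun k hk i j hi hj hcm => ⟨a1.2 k hk i j hi hj hcm, a2.2 k hk i j hi hj hcm⟩⟩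
      have hpeel : ∀ g ∈ YE D x (A ∩ Set.Ici m), ∃ t : F, ∃ g' ∈ YE D x (A ∩ Set.Ici (m + 1)), g = x m t * g' := by
        have key : ∀ r t, r ∈ A ∩ Set.Ici m → r < D.nroots → ∀ g : E, (∃ t : F, ∃ g' ∈ YE D x (A ∩ Set.Ici (m + 1)), g = x m t * g') →
            ∃ t' : F, ∃ g' ∈ YE D x (A ∩ Set.Ici (m + 1)), x r t * g = x m t' * g' := by
          rintro r t hr hr' g ⟨t', g', hg', rfl⟩
          rcases Nat.lt_or_ge m r with h | h
          · have h1 := (Subgroup.mem_normalizer_iff'' (g := x m t')).mp (hnorm t') (x r t)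
            have hmem : x r t ∈ YE D x (A ∩ Set.Ici (m + 1)) := mem_YE (A := A ∩ Set.Ici (m + 1)) ⟨hr.1, h⟩ hr' t
            refine ⟨t', (x m t')⁻¹ * x r t * x m t' * g', mul_mem (h1.mp hmem) hg', by group⟩
          · have : r = m := le_antisymm h hr.2
            subst this
            exact ⟨t + t', g', hg', by rw [← mul_assoc, P.add r hr']⟩
        intro g hg
        unfold YE at hg
        induction hg using Subgroup.closure_induction_left with
        | one => exact ⟨0, 1, one_mem _, by rw [P.x0 hm', one_mul]⟩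
        | mul_left a ha g _ ih =>
          obtain ⟨r, t, hr, hr', rfl⟩ := ha
          exact key r t hr hr' g ih
        | inv_mul_cancel a ha g _ ih =>
          obtain ⟨r, t, hr, hr', rfl⟩ := ha
          rw [← P.xneg hr']
          exact key r (-t) hr hr' g ih
      obtain ⟨t, g', hg', rfl⟩ := hpeel g hg
      rw [map_mul, P.lift m hm'] at h
      have h1 := S.peel_unique hm hm' (t := t) (t' := 0) (XS_mono D F (fun s hs _ => hs.2) (P.ρYE hg')) (one_mem _) (by rw [h, S.xg_zero, one_mul])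
      rw [h1.1, P.x0 hm', one_mul]
      exact ih (m + 1) (by omega) (by omega) g' hg' h1.2
    · have e : YE D x (A ∩ Set.Ici m) ≤ YE D x (A ∩ Set.Ici (m + 1)) := by
        apply YE_mono
        rintro s ⟨hs, hs'⟩ _
        refine ⟨hs, ?_⟩
        have h1 : m ≤ s := hs'
        have h2 : s ≠ m := fun h => hmA (h ▸ hs)
        change m + 1 ≤ s
        omega
      exact ih (m + 1) (by omega) (by omega) g (e hg) h

end Fam
end CExt

end CfsgLib.Chev
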