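import Cfsg.Agent.Lib.CExt1
set_option autoImplicit false
set_option maxRecDepth 1000000
set_option linter.style.haveILetI false

/-! Central extensions of Chevalley groups: lifting the commutator relations, main theorem. -/

namespace CfsgLib.Chev
open Cfsg.Lie Matrix

namespace GD
variable {D : ChevalleyDatum} (M : GD D)
include M

theorem exists_simple {r : ℕ} (hr : r < D.nroots) : ∃ l, Wd D l ∧ ∃ i < D.rank, rl D l r = D.simple i := by
  refine M.root_ind (P := fun r => ∃ l, Wd D l ∧ ∃ i < D.rank, rl D l r = D.simple i) ?_ ?_ r hr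
  · intro i hi
    exact ⟨[], fun _ h => by simp at h, i, hi, rfl⟩
  · rintro i hi r hr ⟨l, hl, j, hj, h⟩
    refine ⟨l ++ [i], ?_, j, hj, ?_⟩
    · intro k hk
      rw [List.mem_append] at hk
      rcases hk with hk | hk
      · exact hl k hk
      · simp at hk; rw [hk]; exact hi
    · rw [rl_append, rl_cons, rl_nil, M.N.refl_refl hi hr, h]

end GD

namespace CD
variable {D : ChevalleyDatum} (M : CD D)
include M

theorem posOfL {k : ℕ} (hk : k < D.nroots) (h : 0 < M.L k) : k ∈ PosS D := (M.L_pos hk).mp (by omega)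

end CD

namespace CG
variable {D : ChevalleyDatum} {F : Type*} [Field F] (M : CG D F)
include M

theorem refl_PosI' {i s : ℕ} (hi : i < D.rank) (hs : s < D.nroots) (h : s ∈ PosI D i) : D.reflectRoot i s ∈ PosI D i := by
  refine ⟨M.N.refl_pos hi hs h.1 h.2, fun h3 => ?_⟩
  have h4 : s = D.neg (D.simple i) := by
    rw [← M.N.refl_simple hi, ← h3, M.N.refl_refl hi hs]
  exact M.a_pos_ne_neg (M.N.simple_lt i hi) hs (M.N.simple_pos hi) h.1 h4

/-- two independent roots are simultaneously positive for some `w` -/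
theorem exists_pos_pair {r s : ℕ} (hr : r < D.nroots) (hs : s < D.nroots) (h : s ≠ D.neg r) :
    ∃ l, Wd D l ∧ rl D l r ∈ PosS D ∧ rl D l s ∈ PosS D := by
  obtain ⟨l, hl, i, hi, h1⟩ := M.exists_simple hr
  have hp := M.N.simple_lt i hi
  by_cases h2 : rl D l s ∈ PosS D
  · exact ⟨l, hl, by rw [h1]; exact M.N.simple_pos hi, h2⟩
  · obtain ⟨l0, hl0, h0⟩ := M.exists_w0'
    refine ⟨l0 ++ (i :: l), ?_, ?_, ?_⟩
    · intro k hk
      rw [List.mem_append, List.mem_cons] at hk
      rcases hk with hk | rfl | hk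
      · exact hl0 k hk
      · exact hi
      · exact hl k hk
    · rw [rl_append, rl_cons, h1, M.N.refl_simple hi, h0 _ (M.N.neg_lt hp)]
      intro h3
      exact M.a_pos_ne_neg hp (M.N.neg_lt hp) (M.N.simple_pos hi) h3 rfl
    · have hσ := M.rl_lt hl hs
      rw [rl_append, rl_cons, h0 _ (M.N.refl_lt hi hσ)]
      intro h3
      have h4 : D.neg (rl D l s) ∈ PosI D i := by
        refine ⟨M.neg_mem_PosS hσ (GD.notPos_iff.mp h2), fun h5 => ?_⟩
        apply h
        have h6 : rl D l s = rl D l (D.neg r) := by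
          rw [M.rl_neg hl hr, h1, ← h5, M.N.neg_neg hσ]
        exact M.rl_inj hl hs (M.N.neg_lt hr) h6
      have h5 := (M.refl_PosI' hi (M.N.neg_lt hσ) h4).1
      rw [M.N.refl_neg hi hσ] at h5
      exact M.a_pos_ne_neg (M.N.refl_lt hi hσ) (M.N.neg_lt (M.N.refl_lt hi hσ)) h3 h5 rfl

end CG

namespace CExt
namespace Fam
variable {D : ChevalleyDatum} {F : Type*} [Field F] {E : Type*} [Group E] {S : CExt D F E} {x : ℕ → F → E} (P : S.Fam x)
include P

theorem wE_conj {ω : ℕ → Fˣ} (hω : LW S.toCG ω) {e : E} (he : S.ρ e = dgg D ω) {r s : ℕ} (hr : r < D.nroots) (hs : s < D.nroots)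
    (h1 : s ≠ r) (h2 : s ≠ D.neg r) (t u : F) :
    e * wE x (D.commWord F r s t u) * e⁻¹ = wE x (D.commWord F r s ((ω r : F) * t) ((ω s : F) * u)) := by
  have key : ∀ L : List (ℕ × ℤ × ℕ × ℕ), (∀ w ∈ L, w ∈ D.commTerms r s) →
      e * wE x (L.map fun c => (c.1, (c.2.1 : F) * (-t) ^ c.2.2.1 * u ^ c.2.2.2)) * e⁻¹ =
      wE x (L.map fun c => (c.1, (c.2.1 : F) * (-((ω r : F) * t)) ^ c.2.2.1 * ((ω s : F) * u) ^ c.2.2.2)) := by
    intro L
    induction L with
    | nil => intro _; unfold wE; simp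
    | cons w L ih =>
      intro hL
      have h3 := ih fun w' hw' => hL w' (by simp [hw'])
      obtain ⟨k, c, i, j⟩ := w
      obtain ⟨hk, hi, hj, hc⟩ := S.terms hr hs h1 h2 (hL (k, c, i, j) (by simp))
      have h4 := P.hEq ω hω e he k hk ((c : F) * (-t) ^ i * u ^ j)
      have h5 := hω.lin r s k hr hs hk i j hc
      unfold wE at h3 ⊢
      simp only [List.map_cons, List.prod_cons]
      have e1 : ∀ a b : E, e * (a * b) * e⁻¹ = (e * a * e⁻¹) * (e * b * e⁻¹) := fun a b => by group
      rw [e1, h3, h4, h5]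
      congr 2
      rw [Units.val_mul, Units.val_pow_eq_pow_val, Units.val_pow_eq_pow_val, neg_pow, neg_pow ((ω r : F) * t), mul_pow, mul_pow]
      ring
  exact key _ fun _ h => h

/-- the relation holds modulo the kernel -/
theorem ρR2 {r s : ℕ} (hr : r < D.nroots) (hs : s < D.nroots) (h1 : s ≠ r) (h2 : s ≠ D.neg r) (t u : F) :
    S.ρ ((x s u)⁻¹ * (x r t)⁻¹ * x s u * x r t) = S.ρ (wE x (D.commWord F r s t u)) := by
  rw [P.ρwE (commWord_lt (S := S) hr hs h1 h2)]
  simp only [map_mul, map_inv]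
  rw [P.lift s hs, P.lift r hr]
  have := S.comm_xg hr hs h1 h2 t u
  calc (xg D s u)⁻¹ * (xg D r t)⁻¹ * xg D s u * xg D r t = (xg D r t * xg D s u)⁻¹ * (xg D s u * xg D r t) := by group
    _ = _ := by rw [this]; group

omit P in
/-- the commutator lies in the subgroup generated by the right root elements -/
def _root_.CfsgLib.Chev.MemC (S : CExt D F E) (x : ℕ → F → E) (r s : ℕ) : Prop :=
  ∀ t u, (x s u)⁻¹ * (x r t)⁻¹ * x s u * x r t ∈ YE D x {k | ∃ i j : ℕ, 1 ≤ i ∧ 1 ≤ j ∧ S.Cmb r s k i j}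

theorem memC_of_rawC {r s : ℕ} (hr : r < D.nroots) (hs : s < D.nroots) (h : S.RawC r s) : MemC S x r s := by
  intro t u
  have h2 := h t u _ _ (P.lift r hr t) (P.lift s hs u)
  have h3 : (x s u)⁻¹ * (x r t)⁻¹ * x s u * x r t = 1 := by rw [mul_assoc, ← h2]; group
  rw [h3]; exact one_mem _

theorem R2pos (hZ : ∀ r s, r < D.nroots → s < D.nroots → r ∈ PosS D → s ∈ PosS D → s ≠ r → Good S.toCG r s ∨ Good S.toCG s r ∨ MemC S x r s) :
    ∀ (N r s : ℕ), r < D.nroots → s < D.nroots → r ∈ PosS D → s ∈ PosS D → s ≠ r → 2 * D.nroots - (r + s) ≤ N → R2E D x r s := by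
  intro N
  induction N with
  | zero => intro r s hr hs _ _ _ h; omega
  | succ N ih =>
    have main : ∀ r s : ℕ, r < D.nroots → s < D.nroots → r ∈ PosS D → s ∈ PosS D → s ≠ r → 2 * D.nroots - (r + s) ≤ N + 1 →
        (Good S.toCG r s ∨ MemC S x r s) → R2E D x r s := by
      intro r s hr hs hrp hsp hne hN hZrs
      have hnn : s ≠ D.neg r := S.a_pos_ne_neg hr hs hrp hsp
      -- the set `A`
      set A : Set ℕ := {k | k ∈ PosS D ∧ S.L r + S.L s ≤ S.L k} with hA
      have hLr := S.L_pos' hr hrp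
      have hLs := S.L_pos' hs hsp
      have hAr : ∀ k ∈ A, k < D.nroots → r < k := fun k hk _ => S.lt_of_L hr (by have := hk.2; omega)
      have hAs : ∀ k ∈ A, k < D.nroots → s < k := fun k hk _ => S.lt_of_L hs (by have := hk.2; omega)
      have hAct : ∀ q, q < D.nroots → q ∈ PosS D → S.Act q A := by
        intro q hq hqp k hk hk'
        refine ⟨S.a_pos_ne_neg hq hk' hqp hk.1, fun m hm i j hi hj hc => ?_⟩
        have b1 := hc.L
        have b2 := S.L_pos' hq hqp
        have b3 := S.L_pos' hk' hk.1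
        have hi' : (1 : ℤ) ≤ i := by exact_mod_cast hi
        have hj' : (1 : ℤ) ≤ j := by exact_mod_cast hj
        have b4 : S.L k ≤ S.L m := by nlinarith
        exact ⟨S.posOfL hm (by omega), by have := hk.2; omega⟩
      have hinj : ∀ g ∈ YE D x A, S.ρ g = 1 → g = 1 := by
        intro g hg h1
        refine P.inj (fun k hk => hk.1) (fun k hk hk' => hAct k hk' hk.1) ?_ (D.nroots - D.nroots / 2) (D.nroots / 2) le_rfl (by omega) g ?_ h1
        · intro k hk hk' m hm hm' hmk
          have c1 := hAr k hk hk'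
          have c2 := hAs m hm hm'
          exact ih k m hk' hm' hk.1 hm.1 hmk (by omega)
        · exact YE_mono (A := A) (B := A ∩ Set.Ici (D.nroots / 2)) (fun k hk _ => ⟨hk, hk.1⟩) hg
      have hnorm : ∀ t, x r t ∈ Subgroup.normalizer (YE D x A : Set E) := by
        intro t
        refine P.x_norm hr (hAct r hr hrp) (fun k hk hk' hkr => ?_) t
        have c2 := hAs k hk hk'
        exact ih r k hr hk' hrp hk.1 hkr (by omega)
      have hwm : ∀ t u, wE x (D.commWord F r s t u) ∈ YE D x A := by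
        intro t u
        apply wE_mem (S := S) hr hs hne hnn
        intro k hk i j hi hj hc
        have b1 := hc.L
        have hi' : (1 : ℤ) ≤ i := by exact_mod_cast hi
        have hj' : (1 : ℤ) ≤ j := by exact_mod_cast hj
        exact ⟨S.posOfL hk (by nlinarith), by nlinarith⟩
      -- the central defect
      set z : F → F → E := fun t u => (x s u)⁻¹ * (x r t)⁻¹ * x s u * x r t * (wE x (D.commWord F r s t u))⁻¹ with hz
      have hz1 : ∀ t u, S.ρ (z t u) = 1 := by
        intro t u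
        rw [hz, map_mul, P.ρR2 hr hs hne hnn, map_inv, mul_inv_cancel]
      have hzc : ∀ t u, (x s u)⁻¹ * (x r t)⁻¹ * x s u * x r t = z t u * wE x (D.commWord F r s t u) := by
        intro t u; rw [hz]; group
      have hadd : ∀ t t' u, z (t + t') u = z t u * z t' u := by
        intro t t' u
        have e1 : (x s u)⁻¹ * (x r (t + t'))⁻¹ * x s u * x r (t + t') = ((x s u)⁻¹ * (x r t')⁻¹ * x s u * x r t') *
            ((x r t')⁻¹ * ((x s u)⁻¹ * (x r t)⁻¹ * x s u * x r t) * x r t') := by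
          rw [← P.add r hr]; group
        rw [hzc, hzc, hzc] at e1
        have e2 : (x r t')⁻¹ * (z t u * wE x (D.commWord F r s t u)) * x r t' = z t u * ((x r t')⁻¹ * wE x (D.commWord F r s t u) * x r t') := by
          rw [← mul_assoc (x r t')⁻¹, S.cen_comm (hz1 t u)]; group
        rw [e2] at e1
        have e3 : z t' u * wE x (D.commWord F r s t' u) * (z t u * ((x r t')⁻¹ * wE x (D.commWord F r s t u) * x r t')) =
            z t u * z t' u * (wE x (D.commWord F r s t' u) * ((x r t')⁻¹ * wE x (D.commWord F r s t u) * x r t')) := by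
          calc z t' u * wE x (D.commWord F r s t' u) * (z t u * ((x r t')⁻¹ * wE x (D.commWord F r s t u) * x r t'))
              = (z t' u * wE x (D.commWord F r s t' u) * z t u) * ((x r t')⁻¹ * wE x (D.commWord F r s t u) * x r t') := by group
            _ = _ := by rw [S.cen_comm (hz1 t u)]; group
        rw [e3] at e1
        set Q := wE x (D.commWord F r s t' u) * ((x r t')⁻¹ * wE x (D.commWord F r s t u) * x r t') with hQ
        have hQm : Q ∈ YE D x A := mul_mem (hwm t' u) (((Subgroup.mem_normalizer_iff''.mp (hnorm t')) _).mp (hwm t u))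
        have e4 : Q * (wE x (D.commWord F r s (t + t') u))⁻¹ = (z t u * z t' u)⁻¹ * z (t + t') u := by
          rw [mul_inv_eq_iff_eq_mul, mul_assoc, e1]; group
        have e5 : Q * (wE x (D.commWord F r s (t + t') u))⁻¹ = 1 := by
          apply hinj _ (mul_mem hQm (inv_mem (hwm _ _)))
          rw [e4, map_mul, map_inv, map_mul, hz1, hz1, hz1]; simp
        rw [e4, inv_mul_eq_one] at e5
        exact e5.symm
      rcases hZrs with hg | hraw
      swap
      · intro t u
        have h2 : YE D x {k | ∃ i j : ℕ, 1 ≤ i ∧ 1 ≤ j ∧ S.Cmb r s k i j} ≤ YE D x A := by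
          apply YE_mono
          rintro k ⟨i, j, hi, hj, hc⟩ hk
          have b1 := hc.L
          have hi' : (1 : ℤ) ≤ i := by exact_mod_cast hi
          have hj' : (1 : ℤ) ≤ j := by exact_mod_cast hj
          exact ⟨S.posOfL hk (by nlinarith), by nlinarith⟩
        have h3 := h2 (hraw t u)
        have h4 := P.ρR2 hr hs hne hnn t u
        have h5 : (x s u)⁻¹ * (x r t)⁻¹ * x s u * x r t * (wE x (D.commWord F r s t u))⁻¹ = 1 := by
          apply hinj _ (mul_mem h3 (inv_mem (hwm t u)))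
          rw [map_mul, h4, map_inv, mul_inv_cancel]
        rw [mul_inv_eq_one] at h5
        exact h5
      obtain ⟨ω, hω, ω1, ω2⟩ := hg
      have hinv : ∀ t u, z ((ω r : F) * t) ((ω s : F) * u) = z t u := by
        intro t u
        obtain ⟨e, he⟩ := S.exists_lift (S.H_le_G hω.mem)
        have e1 : e * z t u * e⁻¹ = z ((ω r : F) * t) ((ω s : F) * u) := by
          simp only [hz]
          rw [← P.wE_conj hω he hr hs hne hnn, ← P.hEq ω hω e he r hr, ← P.hEq ω hω e he s hs]; group
        rw [← e1, S.cen_conj' (hz1 t u)]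
      have h3 : (ω r : F) - 1 ≠ 0 := by
        intro h0
        exact ω2 (Units.ext (by rw [Units.val_one]; linear_combination h0))
      intro t u
      rw [hzc]
      have h4 := hinv (t / ((ω r : F) - 1)) u
      rw [ω1, Units.val_one, one_mul] at h4
      have e : (ω r : F) * (t / ((ω r : F) - 1)) = t + t / ((ω r : F) - 1) := by field_simp; ring
      rw [e, hadd] at h4
      rw [mul_eq_right.mp h4, one_mul]
    intro r s hr hs hrp hsp hne hN
    rcases hZ r s hr hs hrp hsp hne with h | h | h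
    · exact main r s hr hs hrp hsp hne hN (Or.inl h)
    · -- reversed pair
      have h1 := main s r hs hr hsp hrp hne.symm (by omega) (Or.inl h)
      have hnn : r ≠ D.neg s := S.a_pos_ne_neg hs hr hsp hrp
      refine main r s hr hs hrp hsp hne hN (Or.inr fun t u => ?_)
      have e : (x s u)⁻¹ * (x r t)⁻¹ * x s u * x r t = ((x r t)⁻¹ * (x s u)⁻¹ * x r t * x s u)⁻¹ := by group
      rw [e, h1 u t]
      apply inv_mem
      apply wE_mem (S := S) hs hr hne.symm hnn
      intro k hk i j hi hj hc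
      refine ⟨j, i, hj, hi, fun m hm => ?_⟩
      rw [hc m hm]; ring
    · exact main r s hr hs hrp hsp hne hN (Or.inr h)

/-- all pairs -/
theorem R2all (hZ : ∀ r s, r < D.nroots → s < D.nroots → r ∈ PosS D → s ∈ PosS D → s ≠ r → Good S.toCG r s ∨ Good S.toCG s r ∨ MemC S x r s) :
    ∀ r s : ℕ, r < D.nroots → s < D.nroots → s ≠ r → s ≠ D.neg r → R2E D x r s := by
  have hpos : ∀ r s : ℕ, r < D.nroots → s < D.nroots → r ∈ PosS D → s ∈ PosS D → s ≠ r → R2E D x r s :=
    fun r s hr hs hrp hsp hne => P.R2pos hZ _ r s hr hs hrp hsp hne le_rfl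
  have hinj : ∀ g ∈ YE D x (PosS D), S.ρ g = 1 → g = 1 := by
    intro g hg h1
    refine P.inj (A := PosS D) (fun k hk => hk) (fun k hk hk' => ?_) ?_ (D.nroots - D.nroots / 2) (D.nroots / 2) le_rfl (by omega) g ?_ h1
    · exact S.act_Ici hk' hk le_rfl
    · intro k hk hk' m hm hm' hmk
      exact hpos k m hk' hm' hk hm hmk
    · exact YE_mono (A := PosS D) (B := PosS D ∩ Set.Ici (D.nroots / 2)) (fun k hk _ => ⟨hk, hk⟩) hg
  intro r s hr hs h1 h2 t u
  obtain ⟨l, hl, hlr, hls⟩ := S.exists_pos_pair hr hs h2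
  -- lift of the word
  have hlift : ∀ l, Wd D l → ∃ e : E, ∀ k < D.nroots, ∀ t, ∃ t', e * x k t * e⁻¹ = x (rl D l k) t' := by
    intro l
    induction l with
    | nil => intro _; exact ⟨1, fun k _ t => ⟨t, by simp⟩⟩
    | cons i l ih =>
      intro hl
      have hl' : Wd D l := fun j hj => hl j (by simp [hj])
      have hi := hl i (by simp)
      obtain ⟨e, he⟩ := ih hl'
      obtain ⟨f, hf⟩ := S.exists_lift (S.N_le_G (S.ni_mem hi))
      refine ⟨f * e, fun k hk t => ?_⟩
      obtain ⟨t', ht'⟩ := he k hk t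
      refine ⟨((eta D S.T i (rl D l k) : ℤ) : F) * t', ?_⟩
      have e1 : f * e * x k t * (f * e)⁻¹ = f * (e * x k t * e⁻¹) * f⁻¹ := by group
      rw [e1, ht', P.nEq i hi f hf _ (S.rl_lt hl' hk)]
      rfl
  obtain ⟨e, he⟩ := hlift l hl
  have hk : ∀ k < D.nroots, rl D l k ∈ PosS D → ∀ t, e * x k t * e⁻¹ ∈ YE D x (PosS D) := by
    intro k hk hkp t
    obtain ⟨t', ht'⟩ := he k hk t
    rw [ht']
    exact mem_YE hkp (S.rl_lt hl hk) t'
  have hw : e * wE x (D.commWord F r s t u) * e⁻¹ ∈ YE D x (PosS D) := by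
    have key : ∀ W : List (ℕ × F), (∀ p ∈ W, p.1 < D.nroots ∧ rl D l p.1 ∈ PosS D) → e * wE x W * e⁻¹ ∈ YE D x (PosS D) := by
      intro W
      induction W with
      | nil => intro _; unfold wE; simp
      | cons p W ih =>
        intro hW
        have e1 : e * wE x (p :: W) * e⁻¹ = (e * x p.1 p.2 * e⁻¹) * (e * wE x W * e⁻¹) := by
          unfold wE; rw [List.map_cons, List.prod_cons]; group
        rw [e1]
        exact mul_mem (hk p.1 (hW p (by simp)).1 (hW p (by simp)).2 _) (ih fun q hq => hW q (by simp [hq]))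
    apply key
    intro p hp
    unfold ChevalleyDatum.commWord at hp
    rw [List.mem_map] at hp
    obtain ⟨⟨k, c, i, j⟩, hk, rfl⟩ := hp
    obtain ⟨h3, h4, h5, h6⟩ := S.terms hr hs h1 h2 hk
    refine ⟨h3, ?_⟩
    have h7 := (S.rl_linear hl hr hs h3 h6).L
    have a1 := S.L_pos' (S.rl_lt hl hr) hlr
    have a2 := S.L_pos' (S.rl_lt hl hs) hls
    have hi' : (1 : ℤ) ≤ i := by exact_mod_cast h4
    have hj' : (1 : ℤ) ≤ j := by exact_mod_cast h5
    exact S.posOfL (S.rl_lt hl h3) (by nlinarith)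
  set y := (x s u)⁻¹ * (x r t)⁻¹ * x s u * x r t * (wE x (D.commWord F r s t u))⁻¹ with hy
  have hy1 : S.ρ y = 1 := by rw [hy, map_mul, P.ρR2 hr hs h1 h2, map_inv, mul_inv_cancel]
  have hy2 : e * y * e⁻¹ ∈ YE D x (PosS D) := by
    have e1 : e * y * e⁻¹ = (e * x s u * e⁻¹)⁻¹ * (e * x r t * e⁻¹)⁻¹ * (e * x s u * e⁻¹) * (e * x r t * e⁻¹) *
        (e * wE x (D.commWord F r s t u) * e⁻¹)⁻¹ := by rw [hy]; group
    rw [e1]
    have b1 := hk s hs hls u
    have b2 := hk r hr hlr t
    exact mul_mem (mul_mem (mul_mem (mul_mem (inv_mem b1) (inv_mem b2)) b1) b2) (inv_mem hw)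
  have hy3 : e * y * e⁻¹ = 1 := hinj _ hy2 (by rw [map_mul, map_mul, hy1, map_inv]; group)
  have hy4 : y = 1 := by
    rw [mul_inv_eq_one] at hy3
    exact mul_eq_left.mp hy3
  rw [hy, mul_inv_eq_one] at hy4
  exact hy4

end Fam
end CExt

end CfsgLib.Chev
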