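import Cfsg.Agent.Lib.CExt2
set_option autoImplicit false
set_option maxRecDepth 1000000
set_option linter.style.haveILetI false

/-! Canonical lifts from the torus. -/

namespace CfsgLib.Chev
open Cfsg.Lie Matrix

theorem IsWt.congr {D : ChevalleyDatum} {T : Tab} {G : Type*} [CommGroup G] (N : ∀ r < D.nroots, D.neg r < D.nroots) {ω ω' : ℕ → G} (h : IsWt D T ω)
    (he : ∀ s < D.nroots, ω s = ω' s) : IsWt D T ω' where
  neg := by
    intro r hr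
    rw [← he _ (N r hr), ← he r hr]
    exact h.neg r hr
  add := by
    intro r s k hr hs hk h1 h2
    rw [← he k hk, ← he r hr, ← he s hs]
    exact h.add r s k hr hs hk h1 h2

namespace LW
variable {D : ChevalleyDatum} {F : Type*} [Field F] {M : CG D F}

theorem refl {ω : ℕ → Fˣ} (h : LW M ω) {i : ℕ} (hi : i < D.rank) : LW M (fun s => ω (D.reflectRoot i s)) := by
  have hm : dgg D (fun s => ω (D.reflectRoot i s)) ∈ D.diagonalSubgroup F := by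
    rw [← M.ni_dgg hi]; exact M.ni_diag hi h.mem
  refine ⟨?_, hm, ?_⟩
  · obtain ⟨ω', h1, h2⟩ := M.exists_wt hm
    exact h1.congr (fun r hr => M.N.neg_lt hr) (fun s hs => (dgg_inj D h2 s hs).symm)
  · intro r s k hr hs hk a b hc
    have hl : Wd D [i] := by intro j hj; simp at hj; rw [hj]; exact hi
    have := M.rl_linear hl hr hs hk hc
    exact h.lin _ _ _ (M.N.refl_lt hi hr) (M.N.refl_lt hi hs) (M.N.refl_lt hi hk) a b this

end LW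

theorem Good.refl {D : ChevalleyDatum} {F : Type*} [Field F] {M : CG D F} {i r s : ℕ} (hi : i < D.rank) (hr : r < D.nroots) (hs : s < D.nroots)
    (h : Good M (D.reflectRoot i r) (D.reflectRoot i s)) : Good M r s := by
  obtain ⟨ω, h1, h2, h3⟩ := h
  exact ⟨_, h1.refl hi, h2, h3⟩

theorem Good.refl' {D : ChevalleyDatum} {F : Type*} [Field F] {M : CG D F} {i r s : ℕ} (hi : i < D.rank) (hr : r < D.nroots) (hs : s < D.nroots)
    (h : Good M r s) : Good M (D.reflectRoot i r) (D.reflectRoot i s) := by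
  apply Good.refl hi (M.N.refl_lt hi hr) (M.N.refl_lt hi hs)
  rwa [M.N.refl_refl hi hr, M.N.refl_refl hi hs]

namespace CExt
variable {D : ChevalleyDatum} {F : Type*} [Field F] {E : Type*} [Group E] (S : CExt D F E)
include S

/-- canonical lift -/
noncomputable def cx (ω : ℕ → Fˣ) (r : ℕ) (t : F) : E :=
  S.lf (dgg D ω) * S.lf (xg D r (t / ((ω r : F) - 1))) * (S.lf (dgg D ω))⁻¹ * (S.lf (xg D r (t / ((ω r : F) - 1))))⁻¹

theorem ρ_lfx (r : ℕ) (t : F) : S.ρ (S.lf (xg D r t)) = xg D r t := S.ρ_lf (S.xg_mem_G _ _)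
theorem ρ_lfh {ω : ℕ → Fˣ} (h : LW S.toCG ω) : S.ρ (S.lf (dgg D ω)) = dgg D ω := S.ρ_lf (S.H_le_G h.mem)

theorem cx_eq {ω : ℕ → Fˣ} (h : LW S.toCG ω) {r : ℕ} {t : F} {e f : E} (he : S.ρ e = dgg D ω) (hf : S.ρ f = xg D r (t / ((ω r : F) - 1))) :
    S.cx ω r t = e * f * e⁻¹ * f⁻¹ := by
  unfold cx
  exact S.com_indep (by rw [S.ρ_lfh h, he]) (by rw [S.ρ_lfx, hf])

theorem sub_ne {ω : ℕ → Fˣ} {r : ℕ} (h : ω r ≠ 1) : (ω r : F) - 1 ≠ 0 := by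
  intro h0
  exact h (Units.ext (by rw [Units.val_one]; linear_combination h0))

theorem ρ_cx {ω : ℕ → Fˣ} (h : LW S.toCG ω) {r : ℕ} (hr : r < D.nroots) (h1 : ω r ≠ 1) (t : F) : S.ρ (S.cx ω r t) = xg D r t := by
  have h2 : (ω r : F) - 1 ≠ 0 := S.sub_ne h1
  unfold cx
  rw [map_mul, map_mul, map_mul, map_inv, map_inv, S.ρ_lfh h, S.ρ_lfx, S.dgg_xg h.wt hr, ← S.xg_neg, S.xg_add]
  congr 1
  field_simp
  ring

theorem cx_add {ω : ℕ → Fˣ} (h : LW S.toCG ω) {r : ℕ} (hr : r < D.nroots) (h1 : ω r ≠ 1) (hc : S.RawC r r) (t u : F) :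
    S.cx ω r t * S.cx ω r u = S.cx ω r (t + u) := by
  have e1 : S.ρ (S.lf (xg D r (t / ((ω r : F) - 1))) * S.lf (xg D r (u / ((ω r : F) - 1)))) = xg D r ((t + u) / ((ω r : F) - 1)) := by
    rw [map_mul, S.ρ_lfx, S.ρ_lfx, S.xg_add, add_div]
  rw [S.cx_eq h (S.ρ_lfh h) e1]
  have e2 := hc u (t / ((ω r : F) - 1)) _ _ (S.ρ_cx h hr h1 u) (S.ρ_lfx r (t / ((ω r : F) - 1)))
  set e := S.lf (dgg D ω)
  set f := S.lf (xg D r (t / ((ω r : F) - 1)))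
  set g := S.lf (xg D r (u / ((ω r : F) - 1)))
  have e5 : S.cx ω r u = e * g * e⁻¹ * g⁻¹ := rfl
  have e3 : e * (f * g) * e⁻¹ * (f * g)⁻¹ = (e * f * e⁻¹) * S.cx ω r u * f⁻¹ := by rw [e5]; group
  have e4 : S.cx ω r t = e * f * e⁻¹ * f⁻¹ := rfl
  rw [e3, e4]
  calc e * f * e⁻¹ * f⁻¹ * S.cx ω r u = e * f * e⁻¹ * f⁻¹ * (S.cx ω r u * f) * f⁻¹ := by group
    _ = e * f * e⁻¹ * f⁻¹ * (f * S.cx ω r u) * f⁻¹ := by rw [e2]
    _ = _ := by group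

theorem cx_h {ω ω' : ℕ → Fˣ} (h : LW S.toCG ω) (h' : LW S.toCG ω') {r : ℕ} (hr : r < D.nroots) {e : E} (he : S.ρ e = dgg D ω') (t : F) :
    e * S.cx ω r t * e⁻¹ = S.cx ω r ((ω' r : F) * t) := by
  have e1 : S.ρ (e * S.lf (dgg D ω) * e⁻¹) = dgg D ω := by
    rw [map_mul, map_mul, map_inv, he, S.ρ_lfh h, S.H_comm h'.mem h.mem, mul_assoc, mul_inv_cancel, mul_one]
  have e2 : S.ρ (e * S.lf (xg D r (t / ((ω r : F) - 1))) * e⁻¹) = xg D r ((ω' r : F) * t / ((ω r : F) - 1)) := by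
    rw [map_mul, map_mul, map_inv, he, S.ρ_lfx, S.dgg_xg h'.wt hr, mul_div_assoc]
  rw [S.cx_eq h e1 e2]
  unfold cx; group

theorem cx_indep {ω ω' : ℕ → Fˣ} (h : LW S.toCG ω) (h' : LW S.toCG ω') {r : ℕ} (hr : r < D.nroots) (h1 : ω r ≠ 1) (h1' : ω' r ≠ 1)
    (hc : S.RawC r r) (t : F) : S.cx ω' r t = S.cx ω r t := by
  have h2 : (ω' r : F) - 1 ≠ 0 := S.sub_ne h1'
  have e1 : S.ρ (S.cx ω r (t / ((ω' r : F) - 1))) = xg D r (t / ((ω' r : F) - 1)) := S.ρ_cx h hr h1 _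
  rw [S.cx_eq h' (S.ρ_lfh h') e1, S.cx_h h h' hr (S.ρ_lfh h'), mul_inv_eq_iff_eq_mul, S.cx_add h hr h1 hc]
  congr 1
  field_simp
  ring

theorem cx_n {ω : ℕ → Fˣ} (h : LW S.toCG ω) {i s : ℕ} (hi : i < D.rank) (hs : s < D.nroots) {e : E} (he : S.ρ e = ni D F i) (t : F) :
    e * S.cx ω s t * e⁻¹ = S.cx (fun k => ω (D.reflectRoot i k)) (D.reflectRoot i s) (((eta D S.T i s : ℤ) : F) * t) := by
  have e1 : S.ρ (e * S.lf (dgg D ω) * e⁻¹) = dgg D (fun k => ω (D.reflectRoot i k)) := by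
    rw [map_mul, map_mul, map_inv, he, S.ρ_lfh h, S.ni_dgg hi]
  have e2 : S.ρ (e * S.lf (xg D s (t / ((ω s : F) - 1))) * e⁻¹) =
      xg D (D.reflectRoot i s) ((((eta D S.T i s : ℤ) : F) * t) / ((ω (D.reflectRoot i (D.reflectRoot i s)) : F) - 1)) := by
    rw [map_mul, map_mul, map_inv, he, S.ρ_lfx, S.ni_xg hi hs, mul_div_assoc, S.N.refl_refl hi hs]
  rw [S.cx_eq (h.refl hi) e1 e2]
  unfold cx; group

/-- the family of canonical lifts -/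
theorem exists_fam (hΩ : ∀ r < D.nroots, ∃ ω, LW S.toCG ω ∧ ω r ≠ 1) (hc : ∀ r < D.nroots, S.RawC r r) :
    ∃ x : ℕ → F → E, S.Fam x := by
  classical
  choose! Ω h1 h2 using hΩ
  refine ⟨fun r t => S.cx (Ω r) r t, ?_, ?_, ?_, ?_⟩
  · intro r hr t; exact S.ρ_cx (h1 r hr) hr (h2 r hr) t
  · intro r hr t u; exact S.cx_add (h1 r hr) hr (h2 r hr) (hc r hr) t u
  · intro ω hω e he r hr t; exact S.cx_h (h1 r hr) hω hr he t
  · intro i hi e he s hs t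
    have hs' := S.N.refl_lt hi hs
    rw [S.cx_n (h1 s hs) hi hs he]
    refine S.cx_indep (h1 _ hs') ((h1 s hs).refl hi) hs' (h2 _ hs') ?_ (hc _ hs') _
    change Ω s (D.reflectRoot i (D.reflectRoot i s)) ≠ 1
    rw [S.N.refl_refl hi hs]; exact h2 s hs

theorem NC_refl {i r s : ℕ} (hi : i < D.rank) (hr : r < D.nroots) (hs : s < D.nroots) (h : NC D F r s) :
    NC D F (D.reflectRoot i r) (D.reflectRoot i s) := by
  intro t u
  have h2 := S.ni_xg (F := F) hi hr (((eta D S.T i r : ℤ) : F) * t)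
  rw [← mul_assoc, ← Int.cast_mul, S.N.eta_sq hi hr, Int.cast_one, one_mul] at h2
  have h3 := S.ni_xg (F := F) hi hs (((eta D S.T i s : ℤ) : F) * u)
  rw [← mul_assoc, ← Int.cast_mul, S.N.eta_sq hi hs, Int.cast_one, one_mul] at h3
  rw [← h2, ← h3]
  have := h (((eta D S.T i r : ℤ) : F) * t) (((eta D S.T i s : ℤ) : F) * u)
  set a := xg D r (((eta D S.T i r : ℤ) : F) * t)
  set b := xg D s (((eta D S.T i s : ℤ) : F) * u)
  calc ni D F i * a * (ni D F i)⁻¹ * (ni D F i * b * (ni D F i)⁻¹) = ni D F i * (a * b) * (ni D F i)⁻¹ := by group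
    _ = _ := by rw [this]; group

theorem rawC_refl {i r s : ℕ} (hi : i < D.rank) (hr : r < D.nroots) (hs : s < D.nroots) (h : S.RawC r s) :
    S.RawC (D.reflectRoot i r) (D.reflectRoot i s) := by
  intro t u e f he hf
  obtain ⟨n, hn⟩ := S.exists_lift (S.N_le_G (S.ni_mem hi))
  have h2 := S.ni_xg (F := F) hi hr (((eta D S.T i r : ℤ) : F) * t)
  rw [← mul_assoc, ← Int.cast_mul, S.N.eta_sq hi hr, Int.cast_one, one_mul] at h2
  have h3 := S.ni_xg (F := F) hi hs (((eta D S.T i s : ℤ) : F) * u)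
  rw [← mul_assoc, ← Int.cast_mul, S.N.eta_sq hi hs, Int.cast_one, one_mul] at h3
  have e1 : S.ρ (n⁻¹ * e * n) = xg D r (((eta D S.T i r : ℤ) : F) * t) := by
    rw [map_mul, map_mul, map_inv, hn, he, ← h2]; group
  have e2 : S.ρ (n⁻¹ * f * n) = xg D s (((eta D S.T i s : ℤ) : F) * u) := by
    rw [map_mul, map_mul, map_inv, hn, hf, ← h3]; group
  have e3 := h _ _ _ _ e1 e2
  calc e * f = n * ((n⁻¹ * e * n) * (n⁻¹ * f * n)) * n⁻¹ := by group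
    _ = _ := by rw [e3]; group

theorem rawC_self_of_simple (h : ∀ i < D.rank, S.RawC (D.simple i) (D.simple i)) : ∀ r < D.nroots, S.RawC r r :=
  S.root_ind (P := fun r => S.RawC r r) h fun i hi r hr h => S.rawC_refl hi hr hr h

omit S in
theorem NC_self (M : CG D F) (r : ℕ) : NC D F r r := fun t u => by rw [M.xg_add, M.xg_add, add_comm]

/-- self-commutation through a weight of exponent one -/
theorem rawC_self_of_pairing {r g : ℕ} (hr : r < D.nroots) (hg : g < D.nroots) (hp : D.pairing g r = 1)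
    {v : F} (hv : v ≠ 0) (hv1 : v + 1 ≠ 0) (hv2 : v ^ 2 + v + 1 ≠ 0) : S.RawC r r := by
  have hN := NC_self S.toCG r
  rw [S.rawC_iff]
  have key : ∀ c : F, c ≠ 0 → ∀ t u, S.fc r r (c * t) (c * u) = S.fc r r t u := by
    intro c hc t u
    have := S.fc_wt hr hr hN (LW.pair (M := S.toCG) hg (Units.mk0 c hc)) t u
    simpa only [hp, zpow_one, Units.val_mk0] using this
  have key2 : ∀ c : F, c ≠ 0 → ∀ t u, S.fc r r (c * t) u = S.fc r r t (c⁻¹ * u) := by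
    intro c hc t u
    rw [← key c hc t (c⁻¹ * u), mul_inv_cancel_left₀ hc]
  intro t u
  have h1 : ∀ t u, S.fc r r t ((v⁻¹ + 1) * u) = S.fc r r t ((v + 1)⁻¹ * u) := by
    intro t u
    rw [← key2 (v + 1) hv1, add_mul v 1 t, one_mul, S.fc_add_left hN, key2 v hv, ← S.fc_add_right hN]
    congr 1; ring
  have hκ : v⁻¹ + 1 - (v + 1)⁻¹ ≠ 0 := by
    have : v⁻¹ + 1 - (v + 1)⁻¹ = (v ^ 2 + v + 1) / (v * (v + 1)) := by field_simp; ring
    rw [this]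
    exact div_ne_zero hv2 (mul_ne_zero hv hv1)
  have h2 := h1 t (u / (v⁻¹ + 1 - (v + 1)⁻¹))
  have e : (v⁻¹ + 1) * (u / (v⁻¹ + 1 - (v + 1)⁻¹)) = u + (v + 1)⁻¹ * (u / (v⁻¹ + 1 - (v + 1)⁻¹)) := by
    rw [← sub_eq_iff_eq_add, ← sub_mul, mul_div_cancel₀ _ hκ]
  rw [e, S.fc_add_right hN] at h2
  exact mul_eq_right.mp h2

/-- conjugating lifts -/
theorem conj_central {r s : ℕ} (h : NC D F r s) {t u : F} {e f : E} (he : S.ρ e = xg D r t) (hf : S.ρ f = xg D s u) :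
    ∃ z, S.ρ z = 1 ∧ e * f * e⁻¹ = z * f := by
  refine ⟨S.fc r s t u, S.ρ_fc h t u, ?_⟩
  rw [S.fc_eq he hf]; group

/-- commutation through a commutator relation -/
theorem rawC_of_dec {q0 r s1 s2 : ℕ} (h1 : s1 < D.nroots) (h2 : s2 < D.nroots) (h3 : s2 ≠ s1) (h4 : s2 ≠ D.neg s1)
    {pre post : List (ℕ × ℤ × ℕ × ℕ)} {c : ℤ} {a b : ℕ} (hW : D.commTerms s1 s2 = pre ++ (r, c, a, b) :: post)
    (hc : (c : F) ≠ 0) (hab : (a = 1 ∧ b = 1) ∨ ((a = 1 ∨ b = 1))) (n1 : NC D F q0 s1) (n2 : NC D F q0 s2)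
    (hpre : ∀ w ∈ pre, S.RawC q0 w.1) (hpost : ∀ w ∈ post, S.RawC q0 w.1) : S.RawC q0 r := by
  intro w u y f hy hf
  have hab' : a = 1 ∨ b = 1 := by rcases hab with h | h; exact Or.inl h.1; exact h
  obtain ⟨t1, u1, htu⟩ : ∃ t1 u1 : F, (c : F) * (-t1) ^ a * u1 ^ b = u := by
    rcases hab' with h | h
    · subst h
      exact ⟨-(u / c), 1, by rw [_root_.neg_neg, pow_one, one_pow, mul_one]; field_simp⟩
    · subst h
      exact ⟨-1, u / c, by rw [_root_.neg_neg, one_pow, mul_one, pow_one]; field_simp⟩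
  set f1 := S.lf (xg D s1 t1)
  set f2 := S.lf (xg D s2 u1)
  have hf1 : S.ρ f1 = xg D s1 t1 := S.ρ_lfx _ _
  have hf2 : S.ρ f2 = xg D s2 u1 := S.ρ_lfx _ _
  obtain ⟨z1, hz1, e1⟩ := S.conj_central n1 hy hf1
  obtain ⟨z2, hz2, e2⟩ := S.conj_central n2 hy hf2
  set Lc := f2⁻¹ * f1⁻¹ * f2 * f1 with hLc
  have hyL : y * Lc * y⁻¹ = Lc := by
    have e3 : y * Lc * y⁻¹ = (y * f2 * y⁻¹)⁻¹ * (y * f1 * y⁻¹)⁻¹ * (y * f2 * y⁻¹) * (y * f1 * y⁻¹) := by rw [hLc]; group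
    rw [e3, e1, e2]
    have c1 := S.cen_comm hz1
    have c2 := S.cen_comm hz2
    have e4 : (z2 * f2)⁻¹ * (z1 * f1)⁻¹ * (z2 * f2) * (z1 * f1) = f2⁻¹ * (z2⁻¹ * (f1⁻¹ * (z1⁻¹ * z2 * f2 * z1) * f1)) := by group
    have e5 : z1⁻¹ * z2 * f2 * z1 = z2 * f2 := by rw [c1 (z1⁻¹ * z2 * f2)]; group
    have e6 : f1⁻¹ * (z2 * f2) * f1 = z2 * (f1⁻¹ * f2 * f1) := by rw [← mul_assoc f1⁻¹, c2 f1⁻¹]; group
    rw [e4, e5, e6, hLc]; group
  have hρL : S.ρ Lc = wg D (D.commWord F s1 s2 t1 u1) := by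
    rw [hLc, map_mul, map_mul, map_mul, map_inv, map_inv, hf1, hf2]
    have := S.comm_xg h1 h2 h3 h4 t1 u1
    calc (xg D s2 u1)⁻¹ * (xg D s1 t1)⁻¹ * xg D s2 u1 * xg D s1 t1 = (xg D s1 t1 * xg D s2 u1)⁻¹ * (xg D s2 u1 * xg D s1 t1) := by group
      _ = _ := by rw [this]; group
  set G : List (ℕ × ℤ × ℕ × ℕ) → List (ℕ × F) := fun L => L.map fun c => (c.1, (c.2.1 : F) * (-t1) ^ c.2.2.1 * u1 ^ c.2.2.2) with hG
  have e2' : D.commWord F s1 s2 t1 u1 = G pre ++ (r, u) :: G post := by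
    unfold ChevalleyDatum.commWord
    rw [hW, List.map_append, List.map_cons]
    simp only [htu]
    rfl
  -- lifts of words
  have hlw : ∀ L : List (ℕ × ℤ × ℕ × ℕ), (∀ w ∈ L, S.RawC q0 w.1) → ∃ p : E, S.ρ p = wg D (G L) ∧ y * p = p * y := by
    intro L
    induction L with
    | nil => intro _; exact ⟨1, by rw [map_one]; rfl, by simp⟩
    | cons q L ih =>
      intro hL
      obtain ⟨p, hp1, hp2⟩ := ih fun q' hq' => hL q' (by simp [hq'])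
      refine ⟨S.lf (xg D q.1 ((q.2.1 : F) * (-t1) ^ q.2.2.1 * u1 ^ q.2.2.2)) * p, ?_, ?_⟩
      · rw [map_mul, hp1, S.ρ_lfx]; simp only [hG, List.map_cons, wg_cons]
      · have := hL q (by simp) _ _ y _ hy (S.ρ_lfx q.1 ((q.2.1 : F) * (-t1) ^ q.2.2.1 * u1 ^ q.2.2.2))
        calc y * (S.lf (xg D q.1 ((q.2.1 : F) * (-t1) ^ q.2.2.1 * u1 ^ q.2.2.2)) * p)
            = (y * S.lf (xg D q.1 ((q.2.1 : F) * (-t1) ^ q.2.2.1 * u1 ^ q.2.2.2))) * p := by group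
          _ = S.lf (xg D q.1 ((q.2.1 : F) * (-t1) ^ q.2.2.1 * u1 ^ q.2.2.2)) * (y * p) := by rw [this]; group
          _ = _ := by rw [hp2]; group
  obtain ⟨p, hp1, hp2⟩ := hlw pre hpre
  obtain ⟨q, hq1, hq2⟩ := hlw post hpost
  have hsame : S.ρ (p * f * q) = S.ρ Lc := by
    rw [map_mul, map_mul, hp1, hq1, hf, hρL, e2']
    unfold wg
    rw [List.map_append, List.prod_append, List.map_cons, List.prod_cons, mul_assoc]
  obtain ⟨z, hz, hLz⟩ := S.same hsame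
  have e7 : f = p⁻¹ * (z⁻¹ * Lc) * q⁻¹ := by rw [hLz]; group
  have hp3 : y * p⁻¹ = p⁻¹ * y := by rw [eq_inv_mul_iff_mul_eq, ← mul_assoc, ← hp2, mul_assoc, mul_inv_cancel, mul_one]
  have hq3 : y * q⁻¹ = q⁻¹ * y := by rw [eq_inv_mul_iff_mul_eq, ← mul_assoc, ← hq2, mul_assoc, mul_inv_cancel, mul_one]
  have hL3 : y * Lc = Lc * y := by rw [← mul_inv_eq_iff_eq_mul]; exact hyL
  have hz3 : y * z⁻¹ = z⁻¹ * y := S.cen_comm (by rw [map_inv, hz, inv_one]) y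
  rw [e7]
  calc y * (p⁻¹ * (z⁻¹ * Lc) * q⁻¹) = (y * p⁻¹) * z⁻¹ * Lc * q⁻¹ := by group
    _ = p⁻¹ * (y * z⁻¹) * Lc * q⁻¹ := by rw [hp3]; group
    _ = p⁻¹ * z⁻¹ * (y * Lc) * q⁻¹ := by rw [hz3]; group
    _ = p⁻¹ * z⁻¹ * Lc * (y * q⁻¹) := by rw [hL3]; group
    _ = _ := by rw [hq3]; group

/-- self-commutation through a commutator relation -/
theorem rawC_self_of_dec {r s1 s2 : ℕ} (h1 : s1 < D.nroots) (h2 : s2 < D.nroots) (h3 : s2 ≠ s1) (h4 : s2 ≠ D.neg s1)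
    {pre post : List (ℕ × ℤ × ℕ × ℕ)} {c : ℤ} {a b : ℕ} (hW : D.commTerms s1 s2 = pre ++ (r, c, a, b) :: post)
    (hc : (c : F) ≠ 0) (hab : (a = 1 ∧ b = 1) ∨ ((a = 1 ∨ b = 1))) (n1 : NC D F r s1) (n2 : NC D F r s2)
    (hpre : ∀ w ∈ pre, S.RawC r w.1) (hpost : ∀ w ∈ post, S.RawC r w.1) : S.RawC r r :=
  S.rawC_of_dec h1 h2 h3 h4 hW hc hab n1 n2 hpre hpost

end CExt

end CfsgLib.Chev
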