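import Cfsg.Agent.Lib.CSt4
import Cfsg.Agent.Lib.ChevSimple
set_option autoImplicit false
set_option maxRecDepth 1000000
set_option linter.style.haveILetI false

/-! Groups with Steinberg's relations are perfect. -/

namespace CfsgLib.Chev
open Cfsg.Lie Matrix

namespace StG
variable {D : ChevalleyDatum} {F : Type*} [Field F] {Γ : Type*} [Group Γ] (S : StG D F Γ)
include S

/-- root subgroup in the commutator subgroup -/
def PerfG (r : ℕ) : Prop := ∀ t : F, S.X r t ∈ commutator Γ

omit S in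
theorem cm {Γ : Type*} [Group Γ] (a b : Γ) : a * b * a⁻¹ * b⁻¹ ∈ commutator Γ := by
  rw [commutator_def, ← commutatorElement_def]
  exact Subgroup.commutator_mem_commutator (Subgroup.mem_top a) (Subgroup.mem_top b)

theorem perfG_top (h : ∀ r < D.nroots, S.PerfG r) : commutator Γ = ⊤ := by
  rw [eq_top_iff, ← S.gen, Subgroup.closure_le]
  rintro g ⟨r, t, hr, rfl⟩
  exact h r hr t

theorem perfG_refl {i r : ℕ} (hi : i < D.rank) (hr : r < D.nroots) (h : S.PerfG r) : S.PerfG (D.reflectRoot i r) := by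
  intro t
  have h2 := S.nh_X hi hr (((eta D S.T i r : ℤ) : F) * t)
  rw [← mul_assoc, ← Int.cast_mul, S.N.eta_sq hi hr, Int.cast_one, one_mul] at h2
  rw [← h2]
  exact Subgroup.Normal.conj_mem inferInstance _ (h _) _

theorem perfG_step {r s1 s2 : ℕ} {c : ℤ} {rest : List (ℕ × ℤ × ℕ × ℕ)} (h1 : s1 < D.nroots) (h2 : s2 < D.nroots) (h3 : s2 ≠ s1)
    (h4 : s2 ≠ D.neg s1) (h : D.commTerms s1 s2 = (r, c, 1, 1) :: rest) (hc : (c : F) ≠ 0) (hrest : ∀ w ∈ rest, S.PerfG w.1) :
    S.PerfG r := by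
  intro v
  have h5 := S.com s1 h1 s2 h2 h3 h4 (-(v / c)) 1
  have h6 : ((D.commWord F s1 s2 (-(v / c)) 1).map fun p => S.X p.1 p.2).prod ∈ commutator Γ := by
    rw [← h5]
    have := cm (S.X s2 1)⁻¹ (S.X s1 (-(v / c)))⁻¹
    rwa [inv_inv, inv_inv] at this
  unfold ChevalleyDatum.commWord at h6
  rw [h, List.map_cons, List.map_cons, List.prod_cons] at h6
  have h9 : ((rest.map fun w => (w.1, (w.2.1 : F) * (-(-(v / c))) ^ w.2.2.1 * 1 ^ w.2.2.2)).map fun p => S.X p.1 p.2).prod ∈ commutator Γ := by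
    apply Subgroup.list_prod_mem
    intro x hx
    rw [List.mem_map] at hx
    obtain ⟨q, hq, rfl⟩ := hx
    rw [List.mem_map] at hq
    obtain ⟨w, hw, rfl⟩ := hq
    exact hrest w hw _
  have h10 := mul_mem h6 (inv_mem h9)
  rw [mul_assoc, mul_inv_cancel, mul_one] at h10
  have h11 : (c : F) * (-(-(v / c))) ^ 1 * 1 ^ 1 = v := by
    rw [_root_.neg_neg, pow_one, one_pow, mul_one]
    field_simp
  have h12 : S.X (r, (c : F) * (-(-(v / c))) ^ 1 * 1 ^ 1).1 (r, (c : F) * (-(-(v / c))) ^ 1 * 1 ^ 1).2 = S.X r v := by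
    change S.X r ((c : F) * (-(-(v / c))) ^ 1 * 1 ^ 1) = _
    rw [h11]
  exact h12 ▸ h10

theorem perfG_of_simple (h : ∀ i < D.rank, S.PerfG (D.simple i)) : ∀ r < D.nroots, S.PerfG r :=
  S.root_ind h fun i hi r hr hp => S.perfG_refl hi hr hp

theorem perfG_torus {c : F} (hc : c ≠ 0) (hc2 : c ^ 2 ≠ 1) : ∀ r < D.nroots, S.PerfG r := by
  apply S.perfG_of_simple
  intro i hi t
  have hp := S.N.simple_lt i hi
  have H := (S.hh_Hd hi (Units.mk0 c hc)).2.2 _ hp (t / (c ^ 2 - 1))
  have hpr : D.pairing (D.simple i) (D.simple i) = 2 := by rw [S.pairing_simple hi hp, S.cartan_self hi]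
  have hc3 : c ^ 2 - 1 ≠ 0 := sub_ne_zero.mpr hc2
  simp only [hpr] at H
  have h2 : S.X (D.simple i) t = S.hh i ((Units.mk0 c hc : Fˣ) : F) * S.X (D.simple i) (t / (c ^ 2 - 1)) *
      (S.hh i ((Units.mk0 c hc : Fˣ) : F))⁻¹ * (S.X (D.simple i) (t / (c ^ 2 - 1)))⁻¹ := by
    rw [H, ← S.Xneg hp, S.add _ hp]
    congr 1
    simp only [Units.val_zpow_eq_zpow_val, Units.val_mk0]
    rw [zpow_ofNat]
    field_simp
    ring
  rw [h2]
  exact cm _ _

theorem perfG_of_chk {L : List (ℕ × ℕ)} (h : perfChk D L = true) : ∀ r < D.nroots, S.PerfG r := by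
  apply S.perfG_of_simple
  intro i hi
  unfold perfChk at h
  rw [List.all_eq_true] at h
  have h1 := h i (List.mem_range.mpr hi)
  rw [Bool.and_eq_true, Bool.or_eq_true, decide_eq_true_eq, decide_eq_true_eq, decide_eq_true_eq] at h1
  obtain ⟨⟨h2, h3, h4, h5⟩, h6 | h6⟩ := h1
  · exact S.perfG_step h2 h3 h4 h5 h6 (by simp) (by simp)
  · exact S.perfG_step h2 h3 h4 h5 h6 (by simp) (by simp)

end StG

theorem perfG_B2 {F : Type*} [Field F] {Γ : Type*} [Group Γ] (M : StG chevB2 F Γ) (h : ∃ a : F, a ≠ 0 ∧ a ≠ 1) : ∀ r < chevB2.nroots, M.PerfG r := by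
  by_cases h2 : ∃ c : F, c ≠ 0 ∧ c ^ 2 ≠ 1
  · obtain ⟨c, h3, h4⟩ := h2
    exact M.perfG_torus h3 h4
  · push Not at h2
    obtain ⟨a, h0, h1⟩ := h
    have h3 := two_ne h0 h1 h2
    have p4 : M.PerfG 4 := M.perfG_step (s1 := 6) (s2 := 2) (c := 2) (rest := []) (by decide +kernel) (by decide +kernel)
      (by decide) (by decide +kernel) (by decide +kernel) (by exact_mod_cast h3) (by simp)
    have p3 : M.PerfG 3 := by
      have := M.perfG_refl (i := 1) (r := 4) (by decide +kernel) (by decide +kernel) p4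
      have e : chevB2.reflectRoot 1 4 = 3 := by decide +kernel
      rwa [e] at this
    have p5 : M.PerfG 5 := M.perfG_step (s1 := 1) (s2 := 7) (c := -1) (rest := [(3, 1, 2, 1)]) (by decide +kernel) (by decide +kernel)
      (by decide) (by decide +kernel) (by decide +kernel) (by simp) (by simpa using p3)
    apply M.perfG_of_simple
    intro i hi
    have hi' : i < 2 := hi
    interval_cases i
    · have e : chevB2.simple 0 = 5 := by decide +kernel
      rw [e]; exact p5
    · have e : chevB2.simple 1 = 4 := by decide +kernel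
      rw [e]; exact p4

theorem perfG_G2 {F : Type*} [Field F] {Γ : Type*} [Group Γ] (M : StG chevG2 F Γ) (h : ∃ a : F, a ≠ 0 ∧ a ≠ 1) : ∀ r < chevG2.nroots, M.PerfG r := by
  by_cases h2 : ∃ c : F, c ≠ 0 ∧ c ^ 2 ≠ 1
  · obtain ⟨c, h3, h4⟩ := h2
    exact M.perfG_torus h3 h4
  · push Not at h2
    obtain ⟨a, h0, h1⟩ := h
    have h3 := two_ne h0 h1 h2
    have p6 : M.PerfG 6 := M.perfG_step (s1 := 1) (s2 := 11) (c := -1) (rest := []) (by decide +kernel) (by decide +kernel)
      (by decide) (by decide +kernel) (by decide +kernel) (by simp) (by simp)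
    have p5 : M.PerfG 5 := by
      have := M.perfG_refl (i := 1) (r := 6) (by decide +kernel) (by decide +kernel) p6
      have e : chevG2.reflectRoot 1 6 = 5 := by decide +kernel
      rwa [e] at this
    have p10 : M.PerfG 10 := by
      have := M.perfG_refl (i := 0) (r := 6) (by decide +kernel) (by decide +kernel) p6
      have e : chevG2.reflectRoot 0 6 = 10 := by decide +kernel
      rwa [e] at this
    have p7 : M.PerfG 7 := M.perfG_step (s1 := 3) (s2 := 9) (c := 2) (rest := [(5, -3, 2, 1), (10, 3, 1, 2)]) (by decide +kernel) (by decide +kernel)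
      (by decide) (by decide +kernel) (by decide +kernel) (by exact_mod_cast h3) (by
        intro w hw
        simp only [List.mem_cons, List.not_mem_nil, or_false] at hw
        rcases hw with rfl | rfl
        · exact p5
        · exact p10)
    apply M.perfG_of_simple
    intro i hi
    have hi' : i < 2 := hi
    interval_cases i
    · have e : chevG2.simple 0 = 7 := by decide +kernel
      rw [e]; exact p7
    · have e : chevG2.simple 1 = 6 := by decide +kernel
      rw [e]; exact p6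

theorem perfG_all {F : Type*} [Field F] {Γ : Type*} [Group Γ] {D : ChevalleyDatum} (hD : D ∈ [chevG2, chevB2, chevD4, chevF4, chevE6, chevE7, chevE8])
    (h2 : D ∈ [chevB2, chevG2] → ∃ a : F, a ≠ 0 ∧ a ≠ 1) (M : StG D F Γ) : commutator Γ = ⊤ := by
  apply M.perfG_top
  simp only [List.mem_cons, List.not_mem_nil, or_false] at hD h2
  rcases hD with rfl | rfl | rfl | rfl | rfl | rfl | rfl
  · exact perfG_G2 M (h2 (Or.inr rfl))
  · exact perfG_B2 M (h2 (Or.inl rfl))
  · exact M.perfG_of_chk perfD4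
  · exact M.perfG_of_chk perfF4
  · exact M.perfG_of_chk perfE6
  · exact M.perfG_of_chk perfE7
  · exact M.perfG_of_chk perfE8

end CfsgLib.Chev
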