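import Cfsg.Agent.Lib.CExt3
import Cfsg.Agent.Lib.CSt5
set_option autoImplicit false
set_option maxRecDepth 1000000
set_option linter.style.haveILetI false

/-! The universal central extension, fields with more than four elements. -/

namespace CfsgLib.Chev
open Cfsg.Lie Matrix

/-- check: pairings of a simple root with the others -/
def prChk (D : ChevalleyDatum) : Bool :=
  (List.range D.rank).all fun i => (List.range D.nroots).all fun s =>
    decide (s = D.simple i ∨ s = D.neg (D.simple i) ∨
      (D.pairing (D.simple i) s = 0 ∧ D.pairing s (D.simple i) = 0) ∨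
      (1 ≤ D.pairing (D.simple i) s * D.pairing s (D.simple i) ∧ D.pairing (D.simple i) s * D.pairing s (D.simple i) ≤ 3))

theorem pr_of_chk {D : ChevalleyDatum} (h : prChk D = true) {i s : ℕ} (hi : i < D.rank) (hs : s < D.nroots) (h1 : s ≠ D.simple i)
    (h2 : s ≠ D.neg (D.simple i)) : (D.pairing (D.simple i) s = 0 ∧ D.pairing s (D.simple i) = 0) ∨
      (1 ≤ D.pairing (D.simple i) s * D.pairing s (D.simple i) ∧ D.pairing (D.simple i) s * D.pairing s (D.simple i) ≤ 3) := by
  unfold prChk at h
  rw [List.all_eq_true] at h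
  have h3 := h i (List.mem_range.mpr hi)
  rw [List.all_eq_true] at h3
  have h4 := h3 s (List.mem_range.mpr hs)
  rw [decide_eq_true_eq] at h4
  rcases h4 with h4 | h4 | h4
  · exact absurd h4 h1
  · exact absurd h4 h2
  · exact h4

theorem exists_pow_ne {F : Type*} [Field F] (hF : ∃ s : Finset F, 4 < s.card) {e : ℕ} (he : 1 ≤ e) (he' : e ≤ 3) :
    ∃ v : Fˣ, v ^ e ≠ 1 := by
  classical
  obtain ⟨s, hs⟩ := hF
  by_contra hc
  push Not at hc
  have h1 : s.erase 0 ⊆ (Polynomial.nthRoots e (1 : F)).toFinset := by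
    intro a ha
    rw [Finset.mem_erase] at ha
    rw [Multiset.mem_toFinset, Polynomial.mem_nthRoots (by omega)]
    have := hc (Units.mk0 a ha.1)
    have := congrArg Units.val this
    simpa using this
  have h2 := Finset.card_le_card h1
  have h3 : (Polynomial.nthRoots e (1 : F)).toFinset.card ≤ e := (Multiset.toFinset_card_le _).trans (Polynomial.card_nthRoots e 1)
  have h4 := Finset.pred_card_le_card_erase (s := s) (a := (0 : F))
  omega

theorem exists_vv {F : Type*} [Field F] (hF : ∃ s : Finset F, 4 < s.card) : ∃ v : F, v ≠ 0 ∧ v + 1 ≠ 0 ∧ v ^ 2 + v + 1 ≠ 0 := by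
  classical
  obtain ⟨s, hs⟩ := hF
  by_contra hc
  push Not at hc
  -- `X (X+1) (X² + X + 1)` has at most four roots
  set p : Polynomial F := Polynomial.X * ((Polynomial.X + Polynomial.C 1) * (Polynomial.X ^ 2 + Polynomial.X + Polynomial.C 1)) with hp
  have hdeg : p.natDegree ≤ 4 := by rw [hp]; compute_degree
  have hmon : p.Monic := by rw [hp]; monicity!
  have h1 : s ⊆ p.roots.toFinset := by
    intro a _
    rw [Multiset.mem_toFinset, Polynomial.mem_roots hmon.ne_zero, Polynomial.IsRoot.def, hp]
    simp only [Polynomial.eval_mul, Polynomial.eval_X, Polynomial.eval_add, Polynomial.eval_C, Polynomial.eval_pow]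
    by_cases ha : a = 0
    · rw [ha, zero_mul]
    · by_cases hb : a + 1 = 0
      · rw [hb]; ring
      · rw [hc a ha hb]; ring
  have h2 := Finset.card_le_card h1
  have h3 := (Multiset.toFinset_card_le p.roots).trans (Polynomial.card_roots' p)
  omega

section
variable {D : ChevalleyDatum} {F : Type*} [Field F] (M : CG D F)
include M

/-- torus condition for large fields -/
theorem good_large (hF : ∃ s : Finset F, 4 < s.card) (hch : prChk D = true) {r s : ℕ} (hr : r < D.nroots) (hs : s < D.nroots)
    (h1 : s ≠ r) (h2 : s ≠ D.neg r) : Good M r s := by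
  refine M.root_ind (P := fun r => ∀ s < D.nroots, s ≠ r → s ≠ D.neg r → Good M r s) ?_ ?_ r hr s hs h1 h2
  · intro i hi s hs h1 h2
    have hp := M.N.simple_lt i hi
    have hself := M.pairing_self hp
    rcases pr_of_chk hch hi hs h1 h2 with ⟨h3, h4⟩ | ⟨h3, h4⟩
    · obtain ⟨v, hv⟩ := exists_pow_ne hF (e := 2) (by norm_num) (by norm_num)
      refine ⟨_, LW.pair (M := M) hp v, ?_, ?_⟩
      · simp only [h3, zpow_zero]
      · simp only [hself]
        intro h5; apply hv; exact_mod_cast h5
    · set p := D.pairing (D.simple i) s with hpd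
      set q := D.pairing s (D.simple i) with hqd
      obtain ⟨e, he⟩ : ∃ e : ℕ, (e : ℤ) = 4 - p * q := ⟨(4 - p * q).toNat, by omega⟩
      obtain ⟨v, hv⟩ := exists_pow_ne hF (e := e) (by omega) (by omega)
      refine ⟨_, (LW.pair (M := M) hp (v ^ (2 : ℤ))).mul (LW.pair (M := M) hs (v ^ (-p))), ?_, ?_⟩
      · simp only [Pi.mul_apply, ← hpd, M.pairing_self hs]
        rw [← _root_.zpow_mul, ← _root_.zpow_mul, ← _root_.zpow_add]
        have : 2 * p + -p * 2 = 0 := by ring
        rw [this, zpow_zero]
      · simp only [Pi.mul_apply, ← hqd, hself]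
        rw [← _root_.zpow_mul, ← _root_.zpow_mul, ← _root_.zpow_add]
        have : 2 * 2 + -p * q = (e : ℤ) := by rw [he]; ring
        rw [this, zpow_natCast]
        exact hv
  · intro i hi r hr ih s hs h1 h2
    have hs' := M.N.refl_lt hi hs
    have h3 : D.reflectRoot i s ≠ r := by
      intro h; apply h1; rw [← h, M.N.refl_refl hi hs]
    have h4 : D.reflectRoot i s ≠ D.neg r := by
      intro h; apply h2; rw [← M.N.refl_neg hi hr, ← h, M.N.refl_refl hi hs]
    have h5 := ih _ hs' h3 h4
    have h6 := h5.refl' hi hr hs'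
    rwa [M.N.refl_refl hi hs] at h6

theorem good_self_large (hF : ∃ s : Finset F, 4 < s.card) {r : ℕ} (hr : r < D.nroots) : ∃ ω, LW M ω ∧ ω r ≠ 1 := by
  obtain ⟨v, hv⟩ := exists_pow_ne hF (e := 2) (by norm_num) (by norm_num)
  refine ⟨_, LW.pair (M := M) hr v, ?_⟩
  simp only [M.pairing_self hr]
  intro h5; apply hv; exact_mod_cast h5

theorem NC_of_terms {r s : ℕ} (hr : r < D.nroots) (hs : s < D.nroots) (h1 : s ≠ r) (h2 : s ≠ D.neg r) (h : D.commTerms r s = []) : NC D F r s := by
  intro t u
  have := M.comm_xg hr hs h1 h2 t u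
  unfold ChevalleyDatum.commWord at this
  rw [h, List.map_nil] at this
  have e : wg D ([] : List (ℕ × F)) = 1 := rfl
  rw [e, mul_one] at this
  exact this.symm

end

/-- check: a weight of exponent one on the simple roots -/
def p1Chk (D : ChevalleyDatum) (L : List ℕ) : Bool :=
  (List.range D.rank).all fun i => decide (L.getD i 0 < D.nroots ∧ D.pairing (L.getD i 0) (D.simple i) = 1)

theorem p1_of_chk {D : ChevalleyDatum} {L : List ℕ} (h : p1Chk D L = true) {i : ℕ} (hi : i < D.rank) :
    ∃ g < D.nroots, D.pairing g (D.simple i) = 1 := by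
  unfold p1Chk at h
  rw [List.all_eq_true] at h
  have h3 := h i (List.mem_range.mpr hi)
  rw [decide_eq_true_eq] at h3
  exact ⟨_, h3.1, h3.2⟩

end CfsgLib.Chev
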