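import Cfsg.Agent.Lib.CExt4
set_option autoImplicit false
set_option maxRecDepth 1000000

namespace CfsgLib.Chev
open Cfsg.Lie

theorem pr_all {D : ChevalleyDatum} (hD : D ∈ [chevG2, chevB2, chevD4, chevF4, chevE6, chevE7, chevE8]) : prChk D = true := by
  simp only [List.mem_cons, List.not_mem_nil, or_false] at hD
  rcases hD with rfl | rfl | rfl | rfl | rfl | rfl | rfl <;> decide +kernel

end CfsgLib.Chev
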