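import Cfsg.Agent.Lib.CExt4p
set_option autoImplicit false
set_option maxRecDepth 1000000
set_option linter.style.haveILetI false

/-! The universal property of the Steinberg group. -/

namespace CfsgLib.Chev
open Cfsg.Lie Matrix
open scoped commutatorElement

universe u v w

/-- all the relations lift -/
def Lifts {D : ChevalleyDatum} {F : Type u} [Field F] {E : Type w} [Group E] (S : CExt D F E) : Prop :=
  ∃ x : ℕ → F → E, (∀ r < D.nroots, ∀ t, S.ρ (x r t) = xg D r t) ∧ (∀ r < D.nroots, ∀ t u, x r t * x r u = x r (t + u)) ∧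
    ∀ r s : ℕ, r < D.nroots → s < D.nroots → s ≠ r → s ≠ D.neg r → R2E D x r s

theorem lifts_of_fam' {D : ChevalleyDatum} {F : Type u} [Field F] {E : Type w} [Group E] {S : CExt D F E} {x : ℕ → F → E} (P : S.Fam x)
    (hZ : ∀ r s, r < D.nroots → s < D.nroots → r ∈ PosS D → s ∈ PosS D → s ≠ r → Good S.toCG r s ∨ Good S.toCG s r ∨ MemC S x r s) :
    Lifts S := ⟨x, P.lift, P.add, P.R2all hZ⟩

theorem lifts_of_fam {D : ChevalleyDatum} {F : Type u} [Field F] {E : Type w} [Group E] {S : CExt D F E} {x : ℕ → F → E} (P : S.Fam x)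
    (hZ : ∀ r s, r < D.nroots → s < D.nroots → r ∈ PosS D → s ∈ PosS D → s ≠ r → Good S.toCG r s ∨ S.RawC r s) :
    Lifts S := by
  apply lifts_of_fam' P
  intro r s hr hs hrp hsp hne
  rcases hZ r s hr hs hrp hsp hne with h | h
  · exact Or.inl h
  · exact Or.inr (Or.inr (P.memC_of_rawC hr hs h))

theorem rawC_self_large {D : ChevalleyDatum} (hD : D ∈ [chevG2, chevB2, chevD4, chevF4, chevE6, chevE7, chevE8]) {F : Type u} [Field F]
    (hF : ∃ s : Finset F, 4 < s.card) {E : Type w} [Group E] (S : CExt D F E) : ∀ r < D.nroots, S.RawC r r := by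
  apply S.rawC_self_of_simple
  obtain ⟨v, hv, hv1, hv2⟩ := exists_vv hF
  have hgen : ∀ L : List ℕ, p1Chk D L = true → ∀ i < D.rank, S.RawC (D.simple i) (D.simple i) := by
    intro L hL i hi
    obtain ⟨g, hg, hp⟩ := p1_of_chk hL hi
    exact S.rawC_self_of_pairing (S.N.simple_lt i hi) hg hp hv hv1 hv2
  simp only [List.mem_cons, List.not_mem_nil, or_false] at hD
  rcases hD with rfl | rfl | rfl | rfl | rfl | rfl | rfl
  · exact hgen [3, 1] (by decide +kernel)
  · intro i hi
    have hi' : i < 2 := hi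
    interval_cases i
    · exact S.rawC_self_of_pairing (S.N.simple_lt 0 hi) (g := 3) (by decide +kernel) (by decide +kernel) hv hv1 hv2
    · have e : chevB2.simple 1 = 4 := by decide +kernel
      rw [e]
      have n2 : NC chevB2 F 4 2 := NC_of_terms S.toCG (by decide +kernel) (by decide +kernel) (by decide) (by decide +kernel) (by decide +kernel)
      have n7 : NC chevB2 F 4 7 := NC_of_terms S.toCG (by decide +kernel) (by decide +kernel) (by decide) (by decide +kernel) (by decide +kernel)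
      have n6 : NC chevB2 F 4 6 := NC_of_terms S.toCG (by decide +kernel) (by decide +kernel) (by decide) (by decide +kernel) (by decide +kernel)
      refine S.rawC_self_of_dec (r := 4) (s1 := 2) (s2 := 7) (pre := [(6, 1, 1, 1)]) (post := []) (c := -1) (a := 2) (b := 1)
        (by decide +kernel) (by decide +kernel) (by decide) (by decide +kernel) (by decide +kernel) (by simp) (Or.inr (Or.inr rfl)) n2 n7 ?_ (by simp)
      intro w hw
      rw [List.mem_singleton] at hw
      subst hw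
      exact S.rawC_of_good (by decide +kernel) (by decide +kernel) n6
        (good_large S.toCG hF (by decide +kernel) (by decide +kernel) (by decide +kernel) (by decide) (by decide +kernel))
  · exact hgen [6, 1, 3, 2] (by decide +kernel)
  · exact hgen [7, 4, 2, 1] (by decide +kernel)
  · exact hgen [16, 1, 5, 2, 3, 4] (by decide +kernel)
  · exact hgen [1, 7, 2, 3, 4, 5, 6] (by decide +kernel)
  · exact hgen [14, 7, 6, 5, 4, 3, 2, 1] (by decide +kernel)

theorem lifts_large {D : ChevalleyDatum} (hD : D ∈ [chevG2, chevB2, chevD4, chevF4, chevE6, chevE7, chevE8]) {F : Type u} [Field F]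
    (hF : ∃ s : Finset F, 4 < s.card) {E : Type w} [Group E] (S : CExt D F E) : Lifts S := by
  obtain ⟨x, P⟩ := S.exists_fam (fun r hr => good_self_large S.toCG hF hr) (rawC_self_large hD hF S)
  refine lifts_of_fam P fun r s hr hs hrp hsp h1 => Or.inl ?_
  exact good_large S.toCG hF (pr_all hD) hr hs h1 (S.a_pos_ne_neg hr hs hrp hsp)

/-- homomorphism from the Steinberg cover -/
theorem exists_hom_of_lifts {D : ChevalleyDatum} {F : Type u} [Field F] {E : Type w} [Group E] {S : CExt D F E} (h : Lifts S) (hok : StOK D) :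
    ∃ τ : D.SteinbergCover F →* E, S.ρ.comp τ = (stCov S.toCG hok).θ := by
  obtain ⟨x, h1, h2, h3⟩ := h
  have hX : ∀ r < D.nroots, ∀ t, FreeGroup.lift (fun p : Fin D.nroots × F => x p.1 p.2) (D.stX r t) = x r t := by
    intro r hr t
    unfold ChevalleyDatum.stX
    rw [dif_pos hr, FreeGroup.lift_apply_of]
  have hW : ∀ W : List (ℕ × F), (∀ p ∈ W, p.1 < D.nroots) → FreeGroup.lift (fun p : Fin D.nroots × F => x p.1 p.2) (D.stWord W) = wE x W := by
    intro W
    induction W with
    | nil => intro _; unfold ChevalleyDatum.stWord wE; simp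
    | cons p W ih =>
      intro hW
      have e1 : D.stWord (p :: W) = D.stX p.1 p.2 * D.stWord W := by unfold ChevalleyDatum.stWord; rw [List.map_cons, List.prod_cons]
      have e2 : wE x (p :: W) = x p.1 p.2 * wE x W := by unfold wE; rw [List.map_cons, List.prod_cons]
      rw [e1, map_mul, ih fun q hq => hW q (by simp [hq]), hX _ (hW p (by simp)), e2]
  have hrel : ∀ g ∈ D.steinbergRelsAB F, FreeGroup.lift (fun p : Fin D.nroots × F => x p.1 p.2) g = 1 := by
    rintro g (⟨r, t₁, t₂, hr, rfl⟩ | ⟨r, s, t, u, hr, hs, h4, h5, rfl⟩)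
    · rw [map_mul, map_mul, map_inv, hX r hr, hX r hr, hX r hr, h2 r hr, mul_inv_cancel]
    · have e : ∀ p ∈ D.commWord F r s t u, p.1 < D.nroots := CExt.Fam.commWord_lt (S := S) hr hs h4 h5
      simp only [map_mul, map_inv]
      rw [hX s hs, hX r hr, hW _ e, h3 r s hr hs h4 h5 t u, mul_inv_cancel]
  refine ⟨PresentedGroup.toGroup hrel, ?_⟩
  apply PresentedGroup.ext
  rintro ⟨r, t⟩
  have e1 : PresentedGroup.toGroup hrel (PresentedGroup.of (r, t)) = x r t := PresentedGroup.toGroup.of hrel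
  have e2 : (PresentedGroup.of (r, t) : D.SteinbergCover F) = (stCov S.toCG hok).X r t := by
    change _ = PresentedGroup.mk _ (D.stX r t)
    unfold ChevalleyDatum.stX
    rw [dif_pos r.2]; rfl
  rw [MonoidHom.comp_apply, e1, h1 r r.2, e2, (stCov S.toCG hok).θX r r.2]

/-- two homomorphisms from a perfect group that agree modulo a central subgroup are equal -/
theorem hom_eq_of_central {Δ : Type u} [Group Δ] (hp : commutator Δ = ⊤) {E : Type v} [Group E] {G : Type w} [Group G] {π : E →* G}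
    (hc : π.ker ≤ Subgroup.center E) {τ τ' : Δ →* E} (h : π.comp τ = π.comp τ') : τ = τ' := by
  have hz : ∀ d, τ d * (τ' d)⁻¹ ∈ π.ker := by
    intro d
    rw [MonoidHom.mem_ker, map_mul, map_inv]
    have := DFunLike.congr_fun h d
    rw [MonoidHom.comp_apply, MonoidHom.comp_apply] at this
    rw [this, mul_inv_cancel]
  have key : (⊤ : Subgroup Δ) ≤ MonoidHom.eqLocus τ τ' := by
    rw [← hp, commutator_def, Subgroup.commutator_le]
    intro a _ b _
    change τ ⁅a, b⁆ = τ' ⁅a, b⁆
    rw [map_commutatorElement, map_commutatorElement, commutatorElement_def, commutatorElement_def]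
    have ha := hz a
    have hb := hz b
    obtain ⟨z, hz1, e1⟩ : ∃ z ∈ Subgroup.center E, τ a = z * τ' a := ⟨_, hc ha, by group⟩
    obtain ⟨y, hy1, e2⟩ : ∃ z ∈ Subgroup.center E, τ b = z * τ' b := ⟨_, hc hb, by group⟩
    rw [e1, e2]
    have cz := Subgroup.mem_center_iff.mp hz1
    have cy := Subgroup.mem_center_iff.mp hy1
    have f1 : z * τ' a * (y * τ' b) * (z * τ' a)⁻¹ * (y * τ' b)⁻¹ = z * (τ' a * (y * τ' b) * (τ' a)⁻¹) * z⁻¹ * (y * τ' b)⁻¹ := by group
    have f2 : z * (τ' a * (y * τ' b) * (τ' a)⁻¹) * z⁻¹ = τ' a * (y * τ' b) * (τ' a)⁻¹ := by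
      rw [← cz, mul_assoc, mul_inv_cancel, mul_one]
    have f3 : τ' a * (y * τ' b) * (τ' a)⁻¹ * (y * τ' b)⁻¹ = (τ' a * y * (τ' a)⁻¹) * (τ' a * τ' b * (τ' a)⁻¹ * (τ' b)⁻¹) * y⁻¹ := by group
    have f4 : τ' a * y * (τ' a)⁻¹ = y := by rw [cy, mul_assoc, mul_inv_cancel, mul_one]
    rw [f1, f2, f3, f4, ← cy, mul_assoc, mul_inv_cancel, mul_one]
  ext d
  exact key (Subgroup.mem_top d)

/-- the universal property from lifting -/
theorem univ_of_lifts {D : ChevalleyDatum} {F : Type u} [Field F] (M : CG D F) (hok : StOK D) (hp : commutator (D.SteinbergCover F) = ⊤)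
    {G₁ : Type w} {E : Type v} [Group G₁] [Group E]
    (hL : ∀ (P : Type (max u v)) [Group P] (S : CExt D F P), Lifts S)
    (π : E →* G₁) (hπ : Function.Surjective π) (hc : π.ker ≤ Subgroup.center E)
    (σ : D.SteinbergCover F →* G₁) : ∃! τ : D.SteinbergCover F →* E, π.comp τ = σ := by
  set Δ := D.SteinbergCover F
  set S0 := stCov M hok
  -- the pullback
  let P : Subgroup (Δ × E) :=
    { carrier := {x | σ x.1 = π x.2}
      one_mem' := by simp
      mul_mem' := by
        intro a b ha hb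
        simp only [Set.mem_ofPred_eq] at ha hb ⊢
        rw [Prod.fst_mul, Prod.snd_mul, map_mul, map_mul, ha, hb]
      inv_mem' := by
        intro a ha
        simp only [Set.mem_ofPred_eq] at ha ⊢
        rw [Prod.fst_inv, Prod.snd_inv, map_inv, map_inv, ha] }
  let p1 : ↥P →* Δ := (MonoidHom.fst Δ E).comp P.subtype
  let p2 : ↥P →* E := (MonoidHom.snd Δ E).comp P.subtype
  have hp1 : Function.Surjective p1 := by
    intro d
    obtain ⟨e, he⟩ := hπ (σ d)
    exact ⟨⟨(d, e), he.symm⟩, rfl⟩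
  have hPrel : ∀ x : ↥P, σ (p1 x) = π (p2 x) := fun x => x.2
  have hker1 : ∀ x : ↥P, p1 x = 1 → x ∈ Subgroup.center ↥P := by
    intro x hx
    have h1 : π (p2 x) = 1 := by rw [← hPrel, hx, map_one]
    have h2 := Subgroup.mem_center_iff.mp (hc (MonoidHom.mem_ker.mpr h1))
    rw [Subgroup.mem_center_iff]
    intro y
    apply Subtype.ext
    apply Prod.ext
    · change p1 y * p1 x = p1 x * p1 y
      rw [hx, mul_one, one_mul]
    · exact h2 (p2 y)
  let P' : Subgroup ↥P := commutator ↥P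
  have hmap : P'.map p1 = ⊤ := by
    rw [show P' = ⁅(⊤ : Subgroup ↥P), ⊤⁆ from commutator_def _, Subgroup.map_commutator, ← MonoidHom.range_eq_map,
      MonoidHom.range_eq_top.mpr hp1, ← commutator_def, hp]
  let ρ : ↥P' →* GL D.Idx F := (S0.θ.comp p1).comp P'.subtype
  have hrng : ρ.range = D.group F := by
    rw [← S0.θrange]
    apply le_antisymm
    · rintro _ ⟨x, rfl⟩; exact ⟨p1 x, rfl⟩
    · rintro _ ⟨d, rfl⟩
      have : d ∈ P'.map p1 := by rw [hmap]; trivial
      obtain ⟨x, hx, rfl⟩ := this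
      exact ⟨⟨x, hx⟩, rfl⟩
  have hcen : ρ.ker ≤ Subgroup.center ↥P' := by
    intro k hk
    have hk1 : S0.θ (p1 (k : ↥P)) = 1 := hk
    have hk2 : p1 (k : ↥P) ∈ Subgroup.center Δ := S0.ker_le_center (MonoidHom.mem_ker.mpr hk1)
    have hkc : ∀ y : ↥P, (k : ↥P) * y * (k : ↥P)⁻¹ * y⁻¹ ∈ Subgroup.center ↥P := by
      intro y
      apply hker1
      rw [map_mul, map_mul, map_mul, map_inv, map_inv]
      rw [← Subgroup.mem_center_iff.mp hk2 (p1 y)]; group
    -- `y ↦ [k, y]` is a homomorphism to the centre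
    have hmul : ∀ y y' : ↥P, (k : ↥P) * (y * y') * (k : ↥P)⁻¹ * (y * y')⁻¹ =
        ((k : ↥P) * y * (k : ↥P)⁻¹ * y⁻¹) * ((k : ↥P) * y' * (k : ↥P)⁻¹ * y'⁻¹) := by
      intro y y'
      have h1 := Subgroup.mem_center_iff.mp (hkc y') y
      calc (k : ↥P) * (y * y') * (k : ↥P)⁻¹ * (y * y')⁻¹ = ((k : ↥P) * y * (k : ↥P)⁻¹) * ((k : ↥P) * y' * (k : ↥P)⁻¹ * y'⁻¹) * y⁻¹ := by group
        _ = ((k : ↥P) * y * (k : ↥P)⁻¹ * y⁻¹) * (y * ((k : ↥P) * y' * (k : ↥P)⁻¹ * y'⁻¹)) * y⁻¹ := by group
        _ = _ := by rw [h1]; group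
    let φ : ↥P →* ↥(Subgroup.center ↥P) :=
      { toFun := fun y => ⟨(k : ↥P) * y * (k : ↥P)⁻¹ * y⁻¹, hkc y⟩
        map_one' := by apply Subtype.ext; simp
        map_mul' := by intro y y'; apply Subtype.ext; exact hmul y y' }
    have hφ : P' ≤ φ.ker := by
      change commutator ↥P ≤ _
      rw [commutator_def, Subgroup.commutator_le]
      intro a _ b _
      rw [MonoidHom.mem_ker, map_commutatorElement, commutatorElement_eq_one_iff_mul_comm]
      exact Subtype.ext (Subgroup.mem_center_iff.mp (φ b).2 _)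
    rw [Subgroup.mem_center_iff]
    intro y
    apply Subtype.ext
    have h1 := hφ y.2
    rw [MonoidHom.mem_ker] at h1
    have h2 : (k : ↥P) * y * (k : ↥P)⁻¹ * (y : ↥P)⁻¹ = 1 := congrArg Subtype.val h1
    change (y : ↥P) * k = k * y
    rw [mul_inv_eq_one, mul_inv_eq_iff_eq_mul] at h2
    exact h2.symm
  obtain ⟨τ0, hτ0⟩ := exists_hom_of_lifts (hL ↥P' { M with ρ := ρ, rng := hrng, cen := hcen }) hok
  have hτ0' : ∀ d, S0.θ (p1 (τ0 d : ↥P)) = S0.θ d := fun d => DFunLike.congr_fun hτ0 d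
  have hid : (p1.comp P'.subtype).comp τ0 = MonoidHom.id Δ := by
    refine hom_eq_of_central hp (π := S0.θ) S0.ker_le_center ?_
    refine MonoidHom.ext fun d => ?_
    exact hτ0' d
  refine ⟨(p2.comp P'.subtype).comp τ0, ?_, ?_⟩
  · refine MonoidHom.ext fun d => ?_
    change π (p2 (τ0 d : ↥P)) = σ d
    rw [← hPrel]
    have := DFunLike.congr_fun hid d
    change p1 (τ0 d : ↥P) = d at this
    rw [this]
  · intro τ' hτ'
    refine hom_eq_of_central hp (π := π) hc ?_
    rw [hτ']
    refine MonoidHom.ext fun d => ?_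
    change σ d = π (p2 (τ0 d : ↥P))
    rw [← hPrel]
    have := DFunLike.congr_fun hid d
    change p1 (τ0 d : ↥P) = d at this
    rw [this]

end CfsgLib.Chev
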