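import Cfsg.Agent.Lib.CExt5
set_option autoImplicit false
set_option maxRecDepth 1000000
set_option linter.style.haveILetI false

/-! Small fields: torus weights of exponent one. -/

namespace CfsgLib.Chev
open Cfsg.Lie Matrix

/-- check: weights killing `s` and of exponent one on the simple root; `o` allows exceptional orthogonal pairs -/
def t1Chk (D : ChevalleyDatum) (o : Bool) (L : List (List ℕ)) : Bool :=
  (List.range D.rank).all fun i => (List.range D.nroots).all fun s =>
    decide (s = D.simple i) || decide (s = D.neg (D.simple i)) ||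
      (let g := (L.getD i []).getD s 0
       decide (g < D.nroots) && decide (D.pairing g s = 0) && decide (D.pairing g (D.simple i) = 1)) ||
      (o && decide (D.pairing (D.simple i) s = 0))

theorem t1_of_chk {D : ChevalleyDatum} {o : Bool} {L : List (List ℕ)} (h : t1Chk D o L = true) {i s : ℕ} (hi : i < D.rank) (hs : s < D.nroots)
    (h1 : s ≠ D.simple i) (h2 : s ≠ D.neg (D.simple i)) :
    (∃ g < D.nroots, D.pairing g s = 0 ∧ D.pairing g (D.simple i) = 1) ∨ (o = true ∧ D.pairing (D.simple i) s = 0) := by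
  unfold t1Chk at h
  rw [List.all_eq_true] at h
  have h3 := h i (List.mem_range.mpr hi)
  rw [List.all_eq_true] at h3
  have h4 := h3 s (List.mem_range.mpr hs)
  simp only [Bool.or_eq_true, Bool.and_eq_true, decide_eq_true_eq] at h4
  rcases h4 with ((h4 | h4) | h4) | h4
  · exact absurd h4 h1
  · exact absurd h4 h2
  · exact Or.inl ⟨_, h4.1.1, h4.1.2, h4.2⟩
  · exact Or.inr h4

section
variable {D : ChevalleyDatum} {F : Type*} [Field F] (M : CG D F)
include M

/-- induction from simple roots for pairs -/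
theorem pair_ind {Q : ℕ → ℕ → Prop} (hQ : ∀ i r s, i < D.rank → r < D.nroots → s < D.nroots → Q r s → Q (D.reflectRoot i r) (D.reflectRoot i s))
    (hS : ∀ i s, i < D.rank → s < D.nroots → s ≠ D.simple i → s ≠ D.neg (D.simple i) → Q (D.simple i) s)
    {r s : ℕ} (hr : r < D.nroots) (hs : s < D.nroots) (h1 : s ≠ r) (h2 : s ≠ D.neg r) : Q r s := by
  refine M.root_ind (P := fun r => ∀ s < D.nroots, s ≠ r → s ≠ D.neg r → Q r s) ?_ ?_ r hr s hs h1 h2
  · intro i hi s hs h1 h2
    exact hS i s hi hs h1 h2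
  · intro i hi r hr ih s hs h1 h2
    have hs' := M.N.refl_lt hi hs
    have h3 : D.reflectRoot i s ≠ r := by
      intro h; apply h1; rw [← h, M.N.refl_refl hi hs]
    have h4 : D.reflectRoot i s ≠ D.neg r := by
      intro h; apply h2; rw [← M.N.refl_neg hi hr, ← h, M.N.refl_refl hi hs]
    have h5 := ih _ hs' h3 h4
    have h6 := hQ i r _ hi hr hs' h5
    rwa [M.N.refl_refl hi hs] at h6

/-- torus condition of exponent one -/
theorem good_t1 {o : Bool} {L : List (List ℕ)} (hch : t1Chk D o L = true) {v : Fˣ} (hv : v ≠ 1) (ho : o = true → v ^ 2 ≠ 1)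
    {r s : ℕ} (hr : r < D.nroots) (hs : s < D.nroots) (h1 : s ≠ r) (h2 : s ≠ D.neg r) : Good M r s := by
  refine pair_ind M (Q := fun r s => Good M r s) (fun i r s hi hr hs h => h.refl' hi hr hs) ?_ hr hs h1 h2
  intro i s hi hs h1 h2
  have hp := M.N.simple_lt i hi
  rcases t1_of_chk hch hi hs h1 h2 with ⟨g, hg, h3, h4⟩ | ⟨h3, h4⟩
  · refine ⟨_, LW.pair (M := M) hg v, ?_, ?_⟩
    · simp only [h3, zpow_zero]
    · simp only [h4, zpow_one]; exact hv
  · refine ⟨_, LW.pair (M := M) hp v, ?_, ?_⟩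
    · simp only [h4, zpow_zero]
    · simp only [M.pairing_self hp]
      intro h5; exact ho h3 (by exact_mod_cast h5)

theorem good_self_t1 {L : List ℕ} (hch : p1Chk D L = true) {v : Fˣ} (hv : v ≠ 1) {r : ℕ} (hr : r < D.nroots) : ∃ ω, LW M ω ∧ ω r ≠ 1 := by
  refine M.root_ind (P := fun r => ∃ ω, LW M ω ∧ ω r ≠ 1) ?_ ?_ r hr
  · intro i hi
    obtain ⟨g, hg, h⟩ := p1_of_chk hch hi
    refine ⟨_, LW.pair (M := M) hg v, ?_⟩
    simp only [h, zpow_one]; exact hv
  · rintro i hi r hr ⟨ω, h1, h2⟩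
    refine ⟨_, h1.refl hi, ?_⟩
    change ω (D.reflectRoot i (D.reflectRoot i r)) ≠ 1
    rw [M.N.refl_refl hi hr]; exact h2

end

/-- check for self-commutation by a single commutator -/
def decChk (D : ChevalleyDatum) (L : List (ℕ × ℕ)) : Bool :=
  (List.range D.rank).all fun i =>
    let p := L.getD i (0, 0)
    let q := D.simple i
    decide (p.1 < D.nroots) && decide (p.2 < D.nroots) && decide (p.2 ≠ p.1) && decide (p.2 ≠ D.neg p.1) &&
    (decide (D.commTerms p.1 p.2 = [(q, 1, 1, 1)]) || decide (D.commTerms p.1 p.2 = [(q, -1, 1, 1)])) &&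
    decide (p.1 ≠ q) && decide (p.1 ≠ D.neg q) && decide (D.commTerms q p.1 = []) &&
    decide (p.2 ≠ q) && decide (p.2 ≠ D.neg q) && decide (D.commTerms q p.2 = [])

theorem rawC_self_of_chk {D : ChevalleyDatum} {L : List (ℕ × ℕ)} (h : decChk D L = true) {F : Type*} [Field F] {E : Type*} [Group E] (S : CExt D F E) :
    ∀ r < D.nroots, S.RawC r r := by
  apply S.rawC_self_of_simple
  intro i hi
  unfold decChk at h
  rw [List.all_eq_true] at h
  have h3 := h i (List.mem_range.mpr hi)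
  simp only [Bool.or_eq_true, Bool.and_eq_true, decide_eq_true_eq] at h3
  obtain ⟨⟨⟨⟨⟨⟨⟨⟨⟨⟨a1, a2⟩, a3⟩, a4⟩, a5⟩, b1⟩, b2⟩, b3⟩, c1⟩, c2⟩, c3⟩ := h3
  have hp := S.N.simple_lt i hi
  have n1 := NC_of_terms S.toCG hp a1 b1 b2 b3
  have n2 := NC_of_terms S.toCG hp a2 c1 c2 c3
  rcases a5 with a5 | a5
  · exact S.rawC_self_of_dec a1 a2 a3 a4 (pre := []) (post := []) a5 (by simp) (Or.inl ⟨rfl, rfl⟩) n1 n2 (by simp) (by simp)
  · exact S.rawC_self_of_dec a1 a2 a3 a4 (pre := []) (post := []) a5 (by simp) (Or.inl ⟨rfl, rfl⟩) n1 n2 (by simp) (by simp)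

end CfsgLib.Chev
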