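import Cfsg.Agent.Lib.CExt6d
import Cfsg.Agent.Lib.CExt6e
set_option autoImplicit false
set_option maxRecDepth 1000000
set_option linter.style.haveILetI false

/-! Lifting over small fields. -/

namespace CfsgLib.Chev
open Cfsg.Lie Matrix

universe u w

theorem p1E6 : p1Chk chevE6 [16, 1, 5, 2, 3, 4] = true := by decide +kernel
theorem p1E7 : p1Chk chevE7 [1, 7, 2, 3, 4, 5, 6] = true := by decide +kernel
theorem p1E8 : p1Chk chevE8 [14, 7, 6, 5, 4, 3, 2, 1] = true := by decide +kernel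
theorem p1D4 : p1Chk chevD4 [6, 1, 3, 2] = true := by decide +kernel
theorem p1F4 : p1Chk chevF4 [7, 4, 2, 1] = true := by decide +kernel

section
variable {F : Type u} [Field F] {E : Type w} [Group E]

theorem lifts_t1 {D : ChevalleyDatum} {o : Bool} {L : List (List ℕ)} {L1 : List ℕ} {L2 : List (ℕ × ℕ)} (h1 : t1Chk D o L = true)
    (h2 : p1Chk D L1 = true) (h3 : decChk D L2 = true) {v : Fˣ} (hv : v ≠ 1) (ho : o = true → v ^ 2 ≠ 1) (S : CExt D F E) : Lifts S := by
  obtain ⟨x, P⟩ := S.exists_fam (fun r hr => good_self_t1 S.toCG h2 hv hr) (rawC_self_of_chk h3 S)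
  refine lifts_of_fam P fun r s hr hs hrp hsp hne => Or.inl ?_
  exact good_t1 S.toCG h1 hv ho hr hs hne (S.a_pos_ne_neg hr hs hrp hsp)

theorem lifts_E {D : ChevalleyDatum} (hD : D ∈ [chevE6, chevE7, chevE8]) (hF : ∃ v : Fˣ, v ≠ 1) (S : CExt D F E) : Lifts S := by
  obtain ⟨v, hv⟩ := hF
  simp only [List.mem_cons, List.not_mem_nil, or_false] at hD
  rcases hD with rfl | rfl | rfl
  · exact lifts_t1 t1E6 p1E6 decE6 hv (by simp) S
  · exact lifts_t1 t1E7 p1E7 decE7 hv (by simp) S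
  · exact lifts_t1 t1E8 p1E8 decE8 hv (by simp) S

theorem lifts_DF {D : ChevalleyDatum} (hD : D ∈ [chevD4, chevF4]) (hF : ∃ v : Fˣ, v ^ 2 ≠ 1) (S : CExt D F E) : Lifts S := by
  obtain ⟨v, hv⟩ := hF
  have hv1 : v ≠ 1 := by rintro rfl; exact hv (one_pow 2)
  simp only [List.mem_cons, List.not_mem_nil, or_false] at hD
  rcases hD with rfl | rfl
  · exact lifts_t1 t1D4 p1D4 decD4 hv1 (fun _ => hv) S
  · exact lifts_t1 t1F4 p1F4 decF4 hv1 (fun _ => hv) S

end

/-- check with exceptional pairs treated by a commutator -/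
def f3Chk (D : ChevalleyDatum) (L : List (List ℕ)) (W : List (ℕ × ℕ × ℕ × ℕ)) : Bool :=
  (List.range D.rank).all fun i => (List.range D.nroots).all fun s =>
    decide (s = D.simple i) || decide (s = D.neg (D.simple i)) ||
      (let g := (L.getD i []).getD s 0
       decide (g < D.nroots) && decide (D.pairing g s = 0) && decide (D.pairing g (D.simple i) = 1)) ||
      (W.any fun w => decide (w.1 = i) && decide (w.2.1 = s) &&
        (let a := w.2.2.1
         let b := w.2.2.2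
         let q := D.simple i
         decide (a < D.nroots) && decide (b < D.nroots) && decide (b ≠ a) && decide (b ≠ D.neg a) &&
          (decide (D.commTerms a b = [(s, 2, 1, 1)]) || decide (D.commTerms a b = [(s, -2, 1, 1)])) &&
          decide (a ≠ q) && decide (a ≠ D.neg q) && decide (D.commTerms q a = []) &&
          decide (b ≠ q) && decide (b ≠ D.neg q) && decide (D.commTerms q b = [])))

theorem f3F4 : f3Chk chevF4 t1LF4 [(2,0,3,18),(2,6,3,29),(2,17,7,36),(2,30,11,40),(2,41,18,44),(2,47,29,44),(3,2,3,20),(3,4,3,27),(3,15,7,34),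
    (3,32,13,40),(3,43,20,44),(3,45,27,44)] = true := by decide +kernel

theorem lifts_f3 {F : Type u} [Field F] {E : Type w} [Group E] {D : ChevalleyDatum} {L : List (List ℕ)} {W : List (ℕ × ℕ × ℕ × ℕ)} {L1 : List ℕ} {L2 : List (ℕ × ℕ)}
    (h1 : f3Chk D L W = true) (h2 : p1Chk D L1 = true) (h3 : decChk D L2 = true) {v : Fˣ} (hv : v ≠ 1) (h2F : (2 : F) ≠ 0) (S : CExt D F E) : Lifts S := by
  obtain ⟨x, P⟩ := S.exists_fam (fun r hr => good_self_t1 S.toCG h2 hv hr) (rawC_self_of_chk h3 S)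
  refine lifts_of_fam P fun r s hr hs hrp hsp hne => ?_
  refine pair_ind S.toCG (Q := fun r s => Good S.toCG r s ∨ S.RawC r s) ?_ ?_ hr hs hne (S.a_pos_ne_neg hr hs hrp hsp)
  · rintro i r s hi hr hs (h | h)
    · exact Or.inl (h.refl' hi hr hs)
    · exact Or.inr (S.rawC_refl hi hr hs h)
  · intro i s hi hs hn1 hn2
    have hp := S.N.simple_lt i hi
    unfold f3Chk at h1
    rw [List.all_eq_true] at h1
    have h4 := h1 i (List.mem_range.mpr hi)
    rw [List.all_eq_true] at h4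
    have h5 := h4 s (List.mem_range.mpr hs)
    simp only [Bool.or_eq_true, Bool.and_eq_true, decide_eq_true_eq, List.any_eq_true] at h5
    rcases h5 with ((h5 | h5) | h5) | h5
    · exact absurd h5 hn1
    · exact absurd h5 hn2
    · left
      refine ⟨_, LW.pair (M := S.toCG) h5.1.1 v, ?_, ?_⟩
      · simp only [h5.1.2, zpow_zero]
      · simp only [h5.2, zpow_one]; exact hv
    · right
      obtain ⟨w, hw, ⟨rfl, rfl⟩, h6⟩ := h5
      obtain ⟨⟨⟨⟨⟨⟨⟨⟨⟨⟨a1, a2⟩, a3⟩, a4⟩, a5⟩, b1⟩, b2⟩, b3⟩, c1⟩, c2⟩, c3⟩ := h6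
      have n1 := NC_of_terms S.toCG hp a1 b1 b2 b3
      have n2 := NC_of_terms S.toCG hp a2 c1 c2 c3
      rcases a5 with a5 | a5
      · exact S.rawC_of_dec a1 a2 a3 a4 (pre := []) (post := []) a5 (by exact_mod_cast h2F) (Or.inl ⟨rfl, rfl⟩) n1 n2 (by simp) (by simp)
      · exact S.rawC_of_dec a1 a2 a3 a4 (pre := []) (post := []) a5 (by push_cast; exact neg_ne_zero.mpr h2F) (Or.inl ⟨rfl, rfl⟩) n1 n2 (by simp) (by simp)

/-- type `F₄` over a field with more than two elements -/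
theorem lifts_F4 {F : Type u} [Field F] {E : Type w} [Group E] (hF : ∃ v : Fˣ, v ≠ 1) (S : CExt chevF4 F E) : Lifts S := by
  by_cases h2 : ∃ v : Fˣ, v ^ 2 ≠ 1
  · exact lifts_DF (by simp) h2 S
  · push Not at h2
    obtain ⟨v, hv⟩ := hF
    have h2F : (2 : F) ≠ 0 := by
      refine two_ne v.ne_zero (fun h => hv (Units.ext h)) fun c hc => ?_
      have := h2 (Units.mk0 c hc)
      have := congrArg Units.val this
      simpa using this
    exact lifts_f3 f3F4 p1F4 decF4 hv h2F S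

end CfsgLib.Chev
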