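import Cfsg.Agent.Lib.CExt7
set_option autoImplicit false
set_option maxRecDepth 1000000
set_option linter.style.haveILetI false

/-! Lifting over the field with two elements, simply laced types of rank at least six. -/

namespace CfsgLib.Chev
open Cfsg.Lie Matrix

universe u w

/-- every root is conjugate to the simple root `0` -/
def traChk (D : ChevalleyDatum) (par : List ℕ) (ord : List ℕ) : Bool :=
  ((List.range D.rank).all fun j => decide (j = 0) || decide (j ∈ ord)) &&
  (List.range ord.length).all fun k =>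
    let j := ord.getD k 0
    let i := par.getD j 0
    decide (j < D.rank) && (decide (i = 0) || decide (i ∈ ord.take k)) && decide (i < D.rank) &&
    decide (D.reflectRoot i (D.reflectRoot j (D.simple i)) = D.simple j)

theorem root_ind0 {D : ChevalleyDatum} (M : GD D) {par ord : List ℕ} (h : traChk D par ord = true) {P : ℕ → Prop} (h0 : P (D.simple 0))
    (hs : ∀ i < D.rank, ∀ r < D.nroots, P r → P (D.reflectRoot i r)) : ∀ r < D.nroots, P r := by
  unfold traChk at h
  rw [Bool.and_eq_true, List.all_eq_true, List.all_eq_true] at h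
  obtain ⟨h1, h2⟩ := h
  have key : ∀ n, ∀ k < ord.length, k < n → P (D.simple (ord.getD k 0)) := by
    intro n
    induction n with
    | zero => intro k _ h; omega
    | succ n ih =>
      intro k hk hkn
      have h3 := h2 k (List.mem_range.mpr hk)
      simp only [Bool.or_eq_true, Bool.and_eq_true, decide_eq_true_eq] at h3
      obtain ⟨⟨⟨a1, a2⟩, a3⟩, a4⟩ := h3
      set j := ord.getD k 0
      set i := par.getD j 0
      have hi : P (D.simple i) := by
        rcases a2 with a2 | a2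
        · rw [a2]; exact h0
        · obtain ⟨m, hm, hm2⟩ := List.getElem_of_mem a2
          rw [List.length_take] at hm
          have hmk : m < k := lt_of_lt_of_le hm (min_le_left _ _)
          have hml : m < ord.length := lt_of_lt_of_le hm (min_le_right _ _)
          have h5 := ih m hml (by omega)
          have e : ord.getD m 0 = i := by
            rw [List.getD_eq_getElem?_getD, List.getElem?_eq_getElem hml, Option.getD_some, ← hm2, List.getElem_take]
          rwa [e] at h5
      rw [← a4]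
      exact hs i a3 _ (M.N.refl_lt a1 (M.N.simple_lt i a3)) (hs j a1 _ (M.N.simple_lt i a3) hi)
  refine M.root_ind (P := P) ?_ hs
  intro i hi
  have h3 := h1 i (List.mem_range.mpr hi)
  simp only [Bool.or_eq_true, decide_eq_true_eq] at h3
  rcases h3 with h3 | h3
  · rw [h3]; exact h0
  · obtain ⟨m, hm, hm2⟩ := List.getElem_of_mem h3
    have h5 := key (m + 1) m hm (by omega)
    have e : ord.getD m 0 = i := by
      rw [List.getD_eq_getElem?_getD, List.getElem?_eq_getElem hm, Option.getD_some, hm2]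
    rwa [e] at h5

theorem pair_ind0 {D : ChevalleyDatum} {F : Type u} [Field F] (M : CG D F) {par ord : List ℕ} (h : traChk D par ord = true) {Q : ℕ → ℕ → Prop}
    (hQ : ∀ i r s, i < D.rank → r < D.nroots → s < D.nroots → Q r s → Q (D.reflectRoot i r) (D.reflectRoot i s))
    (hS : ∀ s, s < D.nroots → s ≠ D.simple 0 → s ≠ D.neg (D.simple 0) → Q (D.simple 0) s)
    {r s : ℕ} (hr : r < D.nroots) (hs : s < D.nroots) (h1 : s ≠ r) (h2 : s ≠ D.neg r) : Q r s := by
  refine root_ind0 M.toGD h (P := fun r => ∀ s < D.nroots, s ≠ r → s ≠ D.neg r → Q r s) ?_ ?_ r hr s hs h1 h2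
  · intro s hs h1 h2
    exact hS s hs h1 h2
  · intro i hi r hr ih s hs h1 h2
    have hs' := M.N.refl_lt hi hs
    have h3 : D.reflectRoot i s ≠ r := by
      intro h; apply h1; rw [← h, M.N.refl_refl hi hs]
    have h4 : D.reflectRoot i s ≠ D.neg r := by
      intro h; apply h2; rw [← M.N.refl_neg hi hr, ← h, M.N.refl_refl hi hs]
    have h5 := ih _ hs' h3 h4
    have h6 := hQ i r _ hi hr hs' h5
    rwa [M.N.refl_refl hi hs] at h6

/-- single commutator `[a, b] = ±k` -/
def sgl (D : ChevalleyDatum) (a b k : ℕ) : Bool :=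
  decide (a < D.nroots) && decide (b < D.nroots) && decide (b ≠ a) && decide (b ≠ D.neg a) &&
  (decide (D.commTerms a b = [(k, 1, 1, 1)]) || decide (D.commTerms a b = [(k, -1, 1, 1)]))

/-- commuting pair -/
def cmt (D : ChevalleyDatum) (a b : ℕ) : Bool :=
  decide (a < D.nroots) && decide (b < D.nroots) && decide (b ≠ a) && decide (b ≠ D.neg a) && decide (D.commTerms a b = [])

/-- commuting pairs with the simple root `0` -/
def f2aChk (D : ChevalleyDatum) (W : List (ℕ × ℕ × ℕ)) : Bool :=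
  (List.range D.nroots).all fun s =>
    decide (s = D.simple 0) || decide (s = D.neg (D.simple 0)) ||
      (decide (D.pairing (D.simple 0) s = -1) && W.any fun w => decide (w.1 = s) && sgl D (D.simple 0) s w.2.1) ||
      (decide (D.pairing (D.simple 0) s ≠ -1) &&
        W.any fun w => decide (w.1 = s) && sgl D w.2.1 w.2.2 s && cmt D (D.simple 0) w.2.1 && cmt D (D.simple 0) w.2.2)

/-- moves between the decompositions of the simple root `0`; `r0` the base -/
def f2bChk (D : ChevalleyDatum) (r0 : ℕ) (W : List (ℕ × ℕ × ℕ)) : Bool :=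
  let k := D.simple 0
  let s0 := D.neg (D.reflectRoot 0 r0)
  decide (r0 < D.nroots) && sgl D r0 s0 k && decide (D.pairing r0 s0 = -1) &&
  (List.range D.nroots).all fun r =>
    let s := D.neg (D.reflectRoot 0 r)
    decide (r = k) || decide (r = D.neg k) || decide (D.cartan 0 r ≤ 0) ||
    (decide (D.cartan 0 r = 1) && (decide (r = r0) || decide (r = s0) ||
      W.any fun w => decide (w.1 = r) &&
        (let b' := w.2.1
         let b2 := w.2.2
         let c' := D.neg (D.reflectRoot 0 b')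
         (decide (b' = r) || decide (b' = s)) && sgl D b' b2 r0 && sgl D b2 s0 c' &&
           decide (D.pairing b' s0 ≠ -1) && decide (s0 ≠ b') && decide (s0 ≠ D.neg b') &&
           decide (D.pairing c' r0 ≠ -1) && decide (r0 ≠ c') && decide (r0 ≠ D.neg c'))))

section
variable {D : ChevalleyDatum} {F : Type u} [Field F] {E : Type w} [Group E] (S : CExt D F E)

theorem nc_of_cmt (M : CG D F) {a b : ℕ} (h : cmt D a b = true) : NC D F a b := by
  unfold cmt at h
  simp only [Bool.and_eq_true, decide_eq_true_eq] at h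
  exact NC_of_terms M h.1.1.1.1 h.1.1.1.2 h.1.1.2 h.1.2 h.2

theorem rawC_pm {par ord : List ℕ} (h : traChk D par ord = true) {W : List (ℕ × ℕ × ℕ)} (hW : f2aChk D W = true)
    {r s : ℕ} (hr : r < D.nroots) (hs : s < D.nroots) (h1 : s ≠ r) (h2 : s ≠ D.neg r) (h3 : D.pairing r s ≠ -1) : S.RawC r s := by
  refine pair_ind0 S.toCG h (Q := fun r s => D.pairing r s ≠ -1 → S.RawC r s) ?_ ?_ hr hs h1 h2 h3
  · intro i r s hi hr hs ih hp
    rw [S.pairing_refl_refl hi hr hs] at hp
    exact S.rawC_refl hi hr hs (ih hp)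
  · intro s hs h1 h2 hp
    have h0 := S.N.lpos
    unfold f2aChk at hW
    rw [List.all_eq_true] at hW
    have h4 := hW s (List.mem_range.mpr hs)
    simp only [Bool.or_eq_true, Bool.and_eq_true, decide_eq_true_eq, List.any_eq_true] at h4
    rcases h4 with ((h4 | h4) | h4) | h4
    · exact absurd h4 h1
    · exact absurd h4 h2
    · exact absurd h4.1 hp
    · obtain ⟨-, w, -, ⟨⟨rfl, h5⟩, h6⟩, h7⟩ := h4
      have n1 := nc_of_cmt S.toCG h6
      have n2 := nc_of_cmt S.toCG h7
      unfold sgl at h5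
      simp only [Bool.or_eq_true, Bool.and_eq_true, decide_eq_true_eq] at h5
      obtain ⟨⟨⟨⟨a1, a2⟩, a3⟩, a4⟩, a5⟩ := h5
      rcases a5 with a5 | a5
      · exact S.rawC_of_dec a1 a2 a3 a4 (pre := []) (post := []) a5 (by simp) (Or.inl ⟨rfl, rfl⟩) n1 n2 (by simp) (by simp)
      · exact S.rawC_of_dec a1 a2 a3 a4 (pre := []) (post := []) a5 (by simp) (Or.inl ⟨rfl, rfl⟩) n1 n2 (by simp) (by simp)

/-- a decomposition of `k` with the commutator relation -/
def Dcp (M : CG D F) (r s k : ℕ) : Prop := r < D.nroots ∧ s < D.nroots ∧ k < D.nroots ∧ M.Cmb r s k 1 1 ∧ s ≠ r ∧ s ≠ D.neg r ∧ D.pairing r s = -1 ∧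
  xg D r (1 : F) * xg D s 1 * (xg D r 1)⁻¹ * (xg D s 1)⁻¹ = xg D k 1

variable (hF : ∀ v : F, v = 0 ∨ v = 1)
include hF

theorem neg_one2 : (-1 : F) = 1 := by
  rcases hF (-1) with h | h
  · exfalso
    have : (1 : F) = 0 := by linear_combination -h
    exact one_ne_zero this
  · exact h

theorem eta1 {i s : ℕ} (M : CG D F) (hi : i < D.rank) (hs : s < D.nroots) : ((eta D M.T i s : ℤ) : F) = 1 := by
  rcases M.N.eta_pm hi hs with h | h <;> rw [h]
  · simp
  · push_cast; exact neg_one2 hF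

theorem xg_inv2 (M : CG D F) (r : ℕ) : (xg D r (1 : F))⁻¹ = xg D r 1 := by
  rw [← M.xg_neg, neg_one2 hF]

theorem Dcp.refl {M : CG D F} {i r s k : ℕ} (hi : i < D.rank) (h : Dcp M r s k) :
    Dcp M (D.reflectRoot i r) (D.reflectRoot i s) (D.reflectRoot i k) := by
  obtain ⟨h1, h2, h3, h4, h5, h6, h7, h8⟩ := h
  have hl : Wd D [i] := by intro j hj; simp at hj; rw [hj]; exact hi
  refine ⟨M.N.refl_lt hi h1, M.N.refl_lt hi h2, M.N.refl_lt hi h3, M.rl_linear hl h1 h2 h3 h4, ?_, ?_, ?_, ?_⟩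
  · intro h; apply h5; rw [← M.N.refl_refl hi h2, h, M.N.refl_refl hi h1]
  · intro h; apply h6; rw [← M.N.refl_refl hi h2, h, ← M.N.refl_neg hi h1, M.N.refl_refl hi (M.N.neg_lt h1)]
  · rw [M.pairing_refl_refl hi h1 h2, h7]
  · have e1 := M.ni_xg (F := F) hi h1 1
    have e2 := M.ni_xg (F := F) hi h2 1
    have e3 := M.ni_xg (F := F) hi h3 1
    rw [eta1 hF M hi h1, one_mul] at e1
    rw [eta1 hF M hi h2, one_mul] at e2
    rw [eta1 hF M hi h3, one_mul] at e3
    rw [← e1, ← e2, ← e3, ← h8]; group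

omit hF in
theorem Dcp.refl_iff (hF : ∀ v : F, v = 0 ∨ v = 1) {M : CG D F} {i r s k : ℕ} (hi : i < D.rank) (hr : r < D.nroots) (hs : s < D.nroots) (hk : k < D.nroots)
    (h : Dcp M r s (D.reflectRoot i k)) : Dcp M (D.reflectRoot i r) (D.reflectRoot i s) k := by
  have := Dcp.refl hF hi h
  rwa [M.N.refl_refl hi hk] at this

/-- commutator of the lifts -/
noncomputable def cc (r s : ℕ) : E := S.lf (xg D r 1) * S.lf (xg D s 1) * (S.lf (xg D r 1))⁻¹ * (S.lf (xg D s 1))⁻¹

omit hF in
theorem cc_eq {r s : ℕ} {e f : E} (he : S.ρ e = xg D r 1) (hf : S.ρ f = xg D s 1) : cc S r s = e * f * e⁻¹ * f⁻¹ := by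
  unfold cc
  apply S.com_indep
  · rw [S.ρ_lfx, he]
  · rw [S.ρ_lfx, hf]

omit hF in
theorem ρ_cc {r s k : ℕ} (h : Dcp S.toCG r s k) : S.ρ (cc S r s) = xg D k 1 := by
  unfold cc
  rw [map_mul, map_mul, map_mul, map_inv, map_inv, S.ρ_lfx, S.ρ_lfx]
  exact h.2.2.2.2.2.2.2

theorem cc_conj {i r s k : ℕ} (hi : i < D.rank) (h : Dcp S.toCG r s k) {e : E} (he : S.ρ e = ni D F i) :
    e * cc S r s * e⁻¹ = cc S (D.reflectRoot i r) (D.reflectRoot i s) := by
  have e1 : S.ρ (e * S.lf (xg D r 1) * e⁻¹) = xg D (D.reflectRoot i r) 1 := by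
    rw [map_mul, map_mul, map_inv, he, S.ρ_lfx, S.ni_xg hi h.1, eta1 hF S.toCG hi h.1, one_mul]
  have e2 : S.ρ (e * S.lf (xg D s 1) * e⁻¹) = xg D (D.reflectRoot i s) 1 := by
    rw [map_mul, map_mul, map_inv, he, S.ρ_lfx, S.ni_xg hi h.2.1, eta1 hF S.toCG hi h.2.1, one_mul]
  rw [cc_eq S e1 e2]
  unfold cc; group

/-- symmetric of decomposition -/
theorem Dcp.symm (hsym : ∀ r s, r < D.nroots → s < D.nroots → D.pairing r s = -1 → D.pairing s r = -1) {M : CG D F} {r s k : ℕ} (h : Dcp M r s k) :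
    Dcp M s r k := by
  obtain ⟨h1, h2, h3, h4, h5, h6, h7, h8⟩ := h
  refine ⟨h2, h1, h3, fun m hm => by rw [h4 m hm]; ring, h5.symm, ?_, hsym r s h1 h2 h7, ?_⟩
  · intro h; apply h6; rw [h, M.N.neg_neg h2]
  · have e : xg D s (1 : F) * xg D r 1 * (xg D s 1)⁻¹ * (xg D r 1)⁻¹ = (xg D r (1 : F) * xg D s 1 * (xg D r 1)⁻¹ * (xg D s 1)⁻¹)⁻¹ := by group
    rw [e, h8, xg_inv2 hF M]

end

end CfsgLib.Chev
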