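import Cfsg.Agent.Lib.CExt8
set_option autoImplicit false
set_option maxRecDepth 1000000
set_option linter.style.haveILetI false

/-! Lifting over the field with two elements, simply laced types of rank at least six: the proof. -/

namespace CfsgLib.Chev
open Cfsg.Lie Matrix

universe u w

/-- symmetry of the pairings -/
def smChk (D : ChevalleyDatum) : Bool :=
  (List.range D.nroots).all fun s => decide (D.pairing (D.simple 0) s = D.pairing s (D.simple 0))

section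
variable {D : ChevalleyDatum} {F : Type u} [Field F] {E : Type w} [Group E] (S : CExt D F E) (hF : ∀ v : F, v = 0 ∨ v = 1)

theorem sym_pairing (M : CG D F) {par ord : List ℕ} (h : traChk D par ord = true) (hs : smChk D = true) {r s : ℕ} (hr : r < D.nroots)
    (hs' : s < D.nroots) (h1 : s ≠ r) (h2 : s ≠ D.neg r) : D.pairing r s = D.pairing s r := by
  refine pair_ind0 M h (Q := fun r s => D.pairing r s = D.pairing s r) ?_ ?_ hr hs' h1 h2
  · intro i r s hi hr hs h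
    rw [M.pairing_refl_refl hi hr hs, M.pairing_refl_refl hi hs hr, h]
  · intro s hs1 _ _
    unfold smChk at hs
    rw [List.all_eq_true] at hs
    have := hs s (List.mem_range.mpr hs1)
    rwa [decide_eq_true_eq] at this

/-- commutator relation -/
def CR (D : ChevalleyDatum) (F : Type u) [Field F] (a b k : ℕ) : Prop := xg D a (1 : F) * xg D b 1 * (xg D a 1)⁻¹ * (xg D b 1)⁻¹ = xg D k 1

include hF

theorem of_sgl (M : CG D F) {a b k : ℕ} (h : sgl D a b k = true) : a < D.nroots ∧ b < D.nroots ∧ k < D.nroots ∧ b ≠ a ∧ b ≠ D.neg a ∧ M.Cmb a b k 1 1 ∧ CR D F a b k := by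
  unfold sgl at h
  simp only [Bool.or_eq_true, Bool.and_eq_true, decide_eq_true_eq] at h
  obtain ⟨⟨⟨⟨a1, a2⟩, a3⟩, a4⟩, a5⟩ := h
  have key : ∀ c : ℤ, (c : F) = 1 → D.commTerms a b = [(k, c, 1, 1)] → k < D.nroots ∧ M.Cmb a b k 1 1 ∧ CR D F a b k := by
    intro c hc hW
    obtain ⟨h1, -, -, h2⟩ := M.terms a1 a2 a3 a4 (k := k) (c := c) (i := 1) (j := 1) (by rw [hW]; simp)
    refine ⟨h1, by simpa using h2, ?_⟩
    have h3 := M.comm_xg a1 a2 a3 a4 (1 : F) 1
    unfold ChevalleyDatum.commWord at h3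
    rw [hW, List.map_singleton] at h3
    have e : wg D [(k, (c : F) * (-1) ^ 1 * 1 ^ 1)] = xg D k 1 := by
      rw [wg_cons]
      have : wg D ([] : List (ℕ × F)) = 1 := rfl
      rw [this, mul_one, hc, pow_one, pow_one, one_mul, mul_one, neg_one2 hF]
    simp only at h3
    rw [e] at h3
    -- `x_b x_a = x_a x_b x_k`
    have h4 : (xg D b (1 : F))⁻¹ * (xg D a 1)⁻¹ * xg D b 1 * xg D a 1 = xg D k 1 := by
      calc (xg D b (1 : F))⁻¹ * (xg D a 1)⁻¹ * xg D b 1 * xg D a 1 = (xg D a 1 * xg D b 1)⁻¹ * (xg D b 1 * xg D a 1) := by group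
        _ = _ := by rw [h3]; group
    rw [xg_inv2 hF M, xg_inv2 hF M] at h4
    have h5 := congrArg (·⁻¹) h4
    simp only [_root_.mul_inv_rev] at h5
    unfold CR
    rw [xg_inv2 hF M, xg_inv2 hF M, xg_inv2 hF M] at h5
    rw [xg_inv2 hF M, xg_inv2 hF M, ← h5]; group
  rcases a5 with a5 | a5
  · obtain ⟨b1, b2, b3⟩ := key 1 (by simp) a5
    exact ⟨a1, a2, b1, a3, a4, b2, b3⟩
  · obtain ⟨b1, b2, b3⟩ := key (-1) (by push_cast; exact neg_one2 hF) a5
    exact ⟨a1, a2, b1, a3, a4, b2, b3⟩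

/-- the move -/
theorem cc_move {b' b2 r0 s0 c' : ℕ} (h1 : CR D F b' b2 r0) (h2 : CR D F b2 s0 c') (h3 : S.RawC b' s0) (h4 : S.RawC c' r0) :
    cc S s0 r0 = cc S b' c' := by
  set a := S.lf (xg D b' 1)
  set b := S.lf (xg D b2 1)
  set c := S.lf (xg D s0 1)
  have ha : S.ρ a = xg D b' 1 := S.ρ_lfx _ _
  have hb : S.ρ b = xg D b2 1 := S.ρ_lfx _ _
  have hc : S.ρ c = xg D s0 1 := S.ρ_lfx _ _
  have h5 : a * c = c * a := h3 1 1 a c ha hc
  have e1 : S.ρ (a * b * a⁻¹ * b⁻¹) = xg D r0 1 := by simp only [map_mul, map_inv]; rw [ha, hb]; exact h1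
  have e2 : S.ρ (c * b * c⁻¹ * b⁻¹) = xg D c' 1 := by
    simp only [map_mul, map_inv]; rw [hb, hc]
    have : xg D s0 (1 : F) * xg D b2 1 * (xg D s0 1)⁻¹ * (xg D b2 1)⁻¹ = (xg D b2 (1 : F) * xg D s0 1 * (xg D b2 1)⁻¹ * (xg D s0 1)⁻¹)⁻¹ := by group
    rw [this, h2, xg_inv2 hF S.toCG]
  have h6 := h4 1 1 _ _ e2 e1
  rw [cc_eq S hc e1, cc_eq S ha e2]
  set g := a * b * a⁻¹ * b⁻¹ with hg
  set k := c * b * c⁻¹ * b⁻¹ with hk
  have h7 : c * g * c⁻¹ = a * (k * b) * a⁻¹ * (k * b)⁻¹ := by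
    have e3 : c * g * c⁻¹ = (c * a * c⁻¹) * (c * b * c⁻¹) * (c * a * c⁻¹)⁻¹ * (c * b * c⁻¹)⁻¹ := by rw [hg]; group
    have e4 : c * a * c⁻¹ = a := by rw [← h5]; group
    have e5 : c * b * c⁻¹ = k * b := by rw [hk]; group
    rw [e3, e4, e5]
  rw [h7]
  have e6 : a * (k * b) * a⁻¹ * (k * b)⁻¹ = a * k * a⁻¹ * g * k⁻¹ := by rw [hg]; group
  rw [e6]
  calc a * k * a⁻¹ * g * k⁻¹ * g⁻¹ = a * k * a⁻¹ * (g * k⁻¹ * g⁻¹) := by group
    _ = a * k * a⁻¹ * (g * k * g⁻¹)⁻¹ := by group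
    _ = _ := by rw [← h6]; group

variable (hself : ∀ r < D.nroots, S.RawC r r)
  (hraw : ∀ r s, r < D.nroots → s < D.nroots → s ≠ r → s ≠ D.neg r → D.pairing r s ≠ -1 → S.RawC r s)
  (hsym : ∀ r s, r < D.nroots → s < D.nroots → s ≠ r → s ≠ D.neg r → D.pairing r s = D.pairing s r)
include hself hraw hsym

omit hself hraw hF in
theorem dcp_pair {r s k : ℕ} (h : Dcp S.toCG r s k) : D.pairing r k = 1 ∧ k ≠ r ∧ k ≠ D.neg r ∧ D.pairing k r = 1 := by
  obtain ⟨h1, h2, h3, h4, h5, h6, h7, h8⟩ := h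
  have e1 := S.pairing_Cmb (g := r) h1 h2 h3 h4
  rw [S.pairing_self h1, h7] at e1
  have e2 : D.pairing r k = 1 := by rw [e1]; norm_num
  have e3 : k ≠ r := by rintro rfl; rw [S.pairing_self h1] at e2; norm_num at e2
  have e4 : k ≠ D.neg r := by
    rintro rfl
    rw [S.pairing_neg h1, S.pairing_self h1] at e2; norm_num at e2
  exact ⟨e2, e3, e4, by rw [← hsym r k h1 h3 e3 e4, e2]⟩

theorem cc_sq {r s k : ℕ} (h : Dcp S.toCG r s k) : cc S r s * cc S r s = 1 := by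
  obtain ⟨p1, p2, p3, p4⟩ := dcp_pair S hsym h
  have hrk : S.RawC r k := hraw r k h.1 h.2.2.1 p2 p3 (by rw [p1]; norm_num)
  have he : S.ρ (S.lf (xg D r (1 : F))) = xg D r 1 := S.ρ_lfx _ _
  have h1 := hrk 1 1 _ _ he (ρ_cc S h)
  have h2 : S.ρ (S.lf (xg D r (1 : F)) * S.lf (xg D r 1)) = 1 := by
    rw [map_mul, he, S.xg_add, ← S.xg_zero r]
    congr 1
    have := neg_one2 hF
    linear_combination -this
  have h3 := S.cen_conj h2 (S.lf (xg D s 1))
  set e := S.lf (xg D r (1 : F))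
  set f := S.lf (xg D s (1 : F))
  have h4 : cc S r s = e * f * e⁻¹ * f⁻¹ := rfl
  have h5 : e * e * f * (e * e)⁻¹ * f⁻¹ = e * cc S r s * f * e⁻¹ * f⁻¹ := by rw [h4]; group
  rw [h3, mul_inv_cancel, h1] at h5
  calc cc S r s * cc S r s = cc S r s * e * f * e⁻¹ * f⁻¹ := by
        conv_lhs => rw [h4]
        rw [h4]; group
    _ = 1 := h5.symm

theorem cc_symm {r s k : ℕ} (h : Dcp S.toCG r s k) : cc S s r = cc S r s := by
  have h1 := cc_sq S hF hself hraw hsym h
  have h2 : cc S s r = (cc S r s)⁻¹ := by unfold cc; group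
  rw [h2, inv_eq_iff_mul_eq_one, h1]

/-- all decompositions of the simple root `0` give the same element -/
theorem cc_indep0 {r0 : ℕ} {W : List (ℕ × ℕ × ℕ)} (hW : f2bChk D r0 W = true) {r s : ℕ} (h : Dcp S.toCG r s (D.simple 0)) :
    Dcp S.toCG r0 (D.neg (D.reflectRoot 0 r0)) (D.simple 0) ∧ cc S r s = cc S r0 (D.neg (D.reflectRoot 0 r0)) := by
  have h0 := S.N.lpos
  have hk := S.N.simple_lt 0 h0
  unfold f2bChk at hW
  simp only [Bool.and_eq_true, decide_eq_true_eq, List.all_eq_true, List.mem_range, Bool.or_eq_true] at hW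
  obtain ⟨⟨⟨q1, q2⟩, q3⟩, q4⟩ := hW
  set k := D.simple 0 with hkd
  set s0 := D.neg (D.reflectRoot 0 r0) with hs0
  obtain ⟨g1, g2, g3, g4, g5, g6, g7⟩ := of_sgl hF S.toCG q2
  have hD0 : Dcp S.toCG r0 s0 k := ⟨g1, g2, g3, g6, g4, g5, q3, g7⟩
  refine ⟨hD0, ?_⟩
  -- the second root of a decomposition
  have hsnd : ∀ {r s : ℕ}, Dcp S.toCG r s k → s = D.neg (D.reflectRoot 0 r) := by
    intro r s h
    obtain ⟨p1, p2, p3, p4⟩ := dcp_pair S hsym h
    have hc : D.cartan 0 r = 1 := by rw [← S.pairing_simple h0 h.1]; exact p4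
    have hr' := S.N.refl_lt h0 h.1
    apply S.a_inj h.2.1 (S.N.neg_lt hr')
    intro m hm
    have e1 := h.2.2.2.1 m hm
    rw [S.a_neg hm hr', S.a_refl h0 hm h.1, hc]
    rw [hkd, S.a_simple hm h0] at e1
    split_ifs at e1 ⊢ <;> linarith
  have hsymm : ∀ {r s : ℕ}, Dcp S.toCG r s k → Dcp S.toCG s r k := fun h =>
    Dcp.symm hF (fun r s hr hs hp => by
      by_cases h1 : s = r
      · subst h1; exact hp
      · by_cases h2 : s = D.neg r
        · subst h2
          rw [S.pairing_neg hr, S.pairing_self hr] at hp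
          norm_num at hp
        · rw [← hsym r s hr hs h1 h2, hp]) h
  obtain ⟨p1, p2, p3, p4⟩ := dcp_pair S hsym h
  have hc : D.cartan 0 r = 1 := by rw [← S.pairing_simple h0 h.1]; exact p4
  have hs := hsnd h
  rcases q4 r h.1 with ((q | q) | q) | q
  · exact absurd q.symm p2
  · exfalso; apply p3; rw [q, S.N.neg_neg hk]
  · rw [hc] at q; norm_num at q
  · rcases q.2 with (q | q) | q
    · rw [hs, q]
    · -- `r = s0`
      have e1 : r0 = D.neg (D.reflectRoot 0 s0) := hsnd (hsymm hD0)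
      rw [hs, q, ← e1]
      exact cc_symm S hF hself hraw hsym hD0
    · rw [List.any_eq_true] at q
      obtain ⟨w, -, q⟩ := q
      simp only [Bool.or_eq_true, Bool.and_eq_true, decide_eq_true_eq] at q
      obtain ⟨hw1, ⟨⟨⟨⟨⟨⟨⟨⟨m1, m2⟩, m3⟩, m4⟩, m5⟩, m6⟩, m7⟩, m8⟩, m9⟩⟩ := q
      set b' := w.2.1
      set b2 := w.2.2
      set c' := D.neg (D.reflectRoot 0 b') with hc'
      obtain ⟨-, -, -, -, -, -, k1⟩ := of_sgl hF S.toCG m2
      obtain ⟨-, -, k2, -, -, -, k3⟩ := of_sgl hF S.toCG m3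
      obtain ⟨j1, -, -, -, -, -, -⟩ := of_sgl hF S.toCG m2
      have hmv := cc_move S hF k1 k3 (hraw b' s0 j1 g2 m5 m6 m4) (hraw c' r0 k2 g1 m8 m9 m7)
      rw [← cc_symm S hF hself hraw hsym hD0, hmv]
      rcases m1 with m1 | m1
      · rw [hc', m1, ← hs]
      · rw [← hs] at m1
        rw [hc', m1, ← hsnd (hsymm h)]
        exact (cc_symm S hF hself hraw hsym h).symm

end

/-- lifting over the field with two elements -/
theorem lifts_two {D : ChevalleyDatum} {F : Type u} [Field F] {E : Type w} [Group E] (S : CExt D F E) (hF : ∀ v : F, v = 0 ∨ v = 1)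
    {par ord : List ℕ} (h1 : traChk D par ord = true) (h2 : smChk D = true) {W : List (ℕ × ℕ × ℕ)} (h3 : f2aChk D W = true)
    {r0 : ℕ} {V : List (ℕ × ℕ × ℕ)} (h4 : f2bChk D r0 V = true) {L2 : List (ℕ × ℕ)} (h5 : decChk D L2 = true) : Lifts S := by
  classical
  have hself := rawC_self_of_chk h5 S
  have hraw : ∀ r s, r < D.nroots → s < D.nroots → s ≠ r → s ≠ D.neg r → D.pairing r s ≠ -1 → S.RawC r s :=
    fun r s hr hs a b c => rawC_pm S h1 h3 hr hs a b c
  have hsym : ∀ r s, r < D.nroots → s < D.nroots → s ≠ r → s ≠ D.neg r → D.pairing r s = D.pairing s r :=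
    fun r s hr hs a b => sym_pairing S.toCG h1 h2 hr hs a b
  have h0 := S.N.lpos
  -- independence
  have hP : ∀ k < D.nroots, ∀ r s r' s', Dcp S.toCG r s k → Dcp S.toCG r' s' k → cc S r s = cc S r' s' := by
    refine root_ind0 S.toGD h1 (P := fun k => ∀ r s r' s', Dcp S.toCG r s k → Dcp S.toCG r' s' k → cc S r s = cc S r' s') ?_ ?_
    · intro r s r' s' a b
      rw [(cc_indep0 S hF hself hraw hsym h4 a).2, (cc_indep0 S hF hself hraw hsym h4 b).2]
    · intro i hi k hk ih r s r' s' a b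
      have a' := Dcp.refl_iff hF hi a.1 a.2.1 hk a
      have b' := Dcp.refl_iff hF hi b.1 b.2.1 hk b
      have h6 := ih _ _ _ _ a' b'
      obtain ⟨e, he⟩ := S.exists_lift (S.N_le_G (S.ni_mem hi))
      have c1 := cc_conj S hF hi a' he
      have c2 := cc_conj S hF hi b' he
      rw [S.N.refl_refl hi a.1, S.N.refl_refl hi a.2.1] at c1
      rw [S.N.refl_refl hi b.1, S.N.refl_refl hi b.2.1] at c2
      rw [← c1, ← c2, h6]
  -- existence
  have hEx : ∀ k < D.nroots, ∃ r s, Dcp S.toCG r s k := by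
    refine root_ind0 S.toGD h1 (P := fun k => ∃ r s, Dcp S.toCG r s k) ?_ ?_
    · unfold f2bChk at h4
      simp only [Bool.and_eq_true, decide_eq_true_eq] at h4
      obtain ⟨⟨⟨q1, q2⟩, q3⟩, q4⟩ := h4
      obtain ⟨g1, g2, g3, g4, g5, g6, g7⟩ := of_sgl hF S.toCG q2
      exact ⟨_, _, g1, g2, g3, g6, g4, g5, q3, g7⟩
    · rintro i hi k hk ⟨r, s, h⟩
      exact ⟨_, _, Dcp.refl hF hi h⟩
  choose! Ra Rb hR using hEx
  set x : ℕ → F → E := fun k t => if t = 0 then 1 else cc S (Ra k) (Rb k) with hx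
  have hx1 : ∀ k, x k 1 = cc S (Ra k) (Rb k) := fun k => by rw [hx]; simp
  have hx0 : ∀ k, x k 0 = 1 := fun k => by rw [hx]; simp
  have hu : ∀ u : Fˣ, u = 1 := fun u => Units.ext ((hF u).resolve_left u.ne_zero)
  have P : S.Fam x := by
    refine ⟨?_, ?_, ?_, ?_⟩
    · intro k hk t
      rcases hF t with rfl | rfl
      · rw [hx0, map_one, S.xg_zero]
      · rw [hx1]; exact ρ_cc S (hR k hk)
    · intro k hk t u
      rcases hF t with rfl | rfl <;> rcases hF u with rfl | rfl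
      · rw [hx0, add_zero, hx0, mul_one]
      · rw [hx0, zero_add, one_mul]
      · rw [hx0, add_zero, mul_one]
      · have : (1 : F) + 1 = 0 := by have := neg_one2 hF; linear_combination -this
        rw [this, hx0, hx1]
        exact cc_sq S hF hself hraw hsym (hR k hk)
    · intro ω hω e he k hk t
      have h6 : dgg D ω = 1 := by
        have : ω = 1 := by ext s; rw [hu (ω s)]; rfl
        rw [this, map_one]
      rw [h6] at he
      rw [S.cen_conj he, hu (ω k), Units.val_one, one_mul]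
    · intro i hi e he s hs t
      rw [eta1 hF S.toCG hi hs, one_mul]
      rcases hF t with rfl | rfl
      · rw [hx0, hx0, mul_one, mul_inv_cancel]
      · rw [hx1, hx1, cc_conj S hF hi (hR s hs) he]
        exact hP _ (S.N.refl_lt hi hs) _ _ _ _ (Dcp.refl hF hi (hR s hs)) (hR _ (S.N.refl_lt hi hs))
  refine lifts_of_fam' P fun r s hr hs hrp hsp hne => Or.inr (Or.inr ?_)
  have hnn := S.a_pos_ne_neg hr hs hrp hsp
  by_cases hp : D.pairing r s = -1
  · -- a decomposition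
    obtain ⟨k, hk⟩ : ∃ k, Dcp S.toCG r s k := by
      refine pair_ind0 S.toCG h1 (Q := fun r s => D.pairing r s = -1 → ∃ k, Dcp S.toCG r s k) ?_ ?_ hr hs hne hnn hp
      · intro i r s hi hr hs ih hp
        rw [S.pairing_refl_refl hi hr hs] at hp
        obtain ⟨k, hk⟩ := ih hp
        exact ⟨_, Dcp.refl hF hi hk⟩
      · intro s hs a b hp
        unfold f2aChk at h3
        rw [List.all_eq_true] at h3
        have h6 := h3 s (List.mem_range.mpr hs)
        simp only [Bool.or_eq_true, Bool.and_eq_true, decide_eq_true_eq, List.any_eq_true] at h6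
        rcases h6 with ((h6 | h6) | h6) | h6
        · exact absurd h6 a
        · exact absurd h6 b
        · obtain ⟨-, ⟨_, k, _⟩, -, -, h7⟩ := h6
          obtain ⟨g1, g2, g3, g4, g5, g6, g7⟩ := of_sgl hF S.toCG h7
          exact ⟨k, g1, g2, g3, g6, g4, g5, hp, g7⟩
        · exact absurd hp h6.1
    intro t u
    rcases hF t with rfl | rfl
    · rw [hx0]; simp
    rcases hF u with rfl | rfl
    · rw [hx0]; simp
    have e1 : (x s 1)⁻¹ * (x r 1)⁻¹ * x s 1 * x r 1 = cc S s r := by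
      have a1 : S.ρ (x s 1)⁻¹ = xg D s 1 := by rw [map_inv, P.lift s hs, xg_inv2 hF S.toCG]
      have a2 : S.ρ (x r 1)⁻¹ = xg D r 1 := by rw [map_inv, P.lift r hr, xg_inv2 hF S.toCG]
      rw [cc_eq S a1 a2]; group
    rw [e1, cc_symm S hF hself hraw hsym hk, hP k hk.2.2.1 _ _ _ _ hk (hR k hk.2.2.1), ← hx1]
    exact CExt.Fam.mem_YE (A := {k | ∃ i j : ℕ, 1 ≤ i ∧ 1 ≤ j ∧ S.Cmb r s k i j}) ⟨1, 1, le_rfl, le_rfl, by exact_mod_cast hk.2.2.2.1⟩ hk.2.2.1 1
  · exact P.memC_of_rawC hr hs (hraw r s hr hs hne hnn hp)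

end CfsgLib.Chev
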