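import Cfsg.Agent.Lib.CHF1
import Cfsg.Agent.Lib.ChevCD
import Cfsg.Agent.Lib.AutPSL11
set_option autoImplicit false
set_option linter.style.haveILetI false

/-! Centralizers of field automorphisms of prime order, unimodular types. -/

namespace CfsgLib.Chev
open Cfsg.Lie Matrix CfsgLib.BNP CfsgLib.PWM

theorem field_fixed {D : ChevalleyDatum} (hD : D ∈ [chevG2, chevB2, chevD4, chevF4, chevE6, chevE7, chevE8])
    {A' : Matrix (Fin D.rank) (Fin D.rank) ℤ} (hA : cmat D * A' = 1) {F : Type*} [Field F] [Fintype F]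
    (φ : MulAut ↥(D.group F)) (hφ : D.IsFieldAut φ) (r : ℕ) (hr : r.Prime) (ho : orderOf φ = r) :
    ∃ (F₀ : Type) (_ : Field F₀) (_ : Fintype F₀), Fintype.card F = Fintype.card F₀ ^ r ∧
      Nonempty (↥((MulEquiv.toMonoidHom φ).eqLocus (MonoidHom.id ↥(D.group F))) ≃* ↥(D.group F₀)) := by
  classical
  obtain ⟨M⟩ := exists_cg hD F
  obtain ⟨σ, hσ⟩ := hφ
  have hmap : ∀ {g : GL D.Idx F}, g ∈ D.group F → mapJ D (σ : F →+* F) g ∈ D.group F := by
    intro g hg
    rw [M.G_eq] at hg ⊢
    exact M.mapJ_XS _ _ hg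
  have hφ' : ∀ g : ↥(D.group F), ((φ g : ↥(D.group F)) : GL D.Idx F) = mapJ D (σ : F →+* F) g := by
    rintro ⟨g, hg⟩
    have hg' := hg
    rw [M.G_eq] at hg'
    unfold XS at hg'
    induction hg' using Subgroup.closure_induction with
    | mem g hg'' =>
      obtain ⟨s, t, _, hs, rfl⟩ := hg''
      rw [M.mapJ_xg]
      exact M.eq_xg.mp (hσ ⟨_, hg⟩ s t hs (M.coe_xg s t))
    | one =>
      have : (⟨1, hg⟩ : ↥(D.group F)) = 1 := rfl
      rw [this, map_one]
      exact (map_one (mapJ D _)).symm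
    | mul a b ha hb iha ihb =>
      have ha' : a ∈ D.group F := by rw [M.G_eq]; exact ha
      have hb' : b ∈ D.group F := by rw [M.G_eq]; exact hb
      have : (⟨a * b, hg⟩ : ↥(D.group F)) = ⟨a, ha'⟩ * ⟨b, hb'⟩ := rfl
      rw [this, map_mul, Subgroup.coe_mul, iha ha', ihb hb', ← map_mul]
      rfl
    | inv a ha iha =>
      have ha' : a ∈ D.group F := by rw [M.G_eq]; exact ha
      have : (⟨a⁻¹, hg⟩ : ↥(D.group F)) = (⟨a, ha'⟩)⁻¹ := rfl
      rw [this, map_inv, Subgroup.coe_inv, iha ha', ← map_inv]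
      rfl
  have hr0 : 0 < D.nroots := by
    have h0 : 0 < D.rank := by
      simp only [List.mem_cons, List.not_mem_nil, or_false] at hD
      rcases hD with rfl | rfl | rfl | rfl | rfl | rfl | rfl <;> decide
    exact lt_of_le_of_lt (Nat.zero_le _) (M.N.simple_lt 0 h0)
  have hpow : ∀ (n : ℕ) (g : ↥(D.group F)), (((φ ^ n) g : ↥(D.group F)) : GL D.Idx F) = mapJ D ((σ ^ n : RingAut F) : F →+* F) g := by
    intro n
    induction n with
    | zero =>
      intro g
      apply Units.ext
      rfl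
    | succ n ih =>
      intro g
      rw [pow_succ', MulAut.mul_apply, hφ', ih, pow_succ']
      rfl
  have hor : orderOf (σ : RingAut F) = r := by
    rw [← ho]
    apply orderOf_eq_orderOf_iff.2
    intro m
    constructor
    · intro hm
      apply MulEquiv.ext
      intro g
      apply Subtype.ext
      rw [hpow, hm]
      apply Units.ext
      rfl
    · intro hm
      apply RingEquiv.ext
      intro t
      have h1 := hpow m ⟨xg D 0 t, by rw [M.G_eq]; exact xg_mem_XS D (Set.mem_univ _) hr0 t⟩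
      rw [hm] at h1
      have h2 : xg D 0 t = xg D 0 ((σ ^ m : RingAut F) t) := by
        have h3 := M.mapJ_xg ((σ ^ m : RingAut F) : F →+* F) 0 t
        rw [← h1] at h3
        exact h3
      exact (M.xg_inj hr0 h2).symm
  obtain ⟨p, hp⟩ := CharP.exists F
  obtain ⟨f, hpp, hF⟩ := FiniteField.card F p
  haveI : Fact p.Prime := ⟨hpp⟩
  have hfin : Finite (RingAut F) := Finite.of_injective (fun σ : RingAut F => (σ : F → F)) DFunLike.coe_injective
  have hrf : r ∣ (f : ℕ) := by
    rw [← hor, ← CfsgLib.AutPSL.ringAut_card hF]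
    exact orderOf_dvd_natCard _
  have hm0 : (f : ℕ) / r ≠ 0 := by
    obtain ⟨k, hk⟩ := hrf
    rw [hk, Nat.mul_div_cancel_left _ hr.pos]
    rintro rfl
    exact f.ne_zero (by simpa using hk)
  haveI : Fintype (GaloisField p (f / r)) := Fintype.ofFinite _
  have hcard : Fintype.card (GaloisField p (f / r)) = p ^ ((f : ℕ) / r) := by
    rw [← Nat.card_eq_fintype_card]
    exact GaloisField.card p _ hm0
  obtain ⟨_, j, hj⟩ := CfsgLib.AutPSL.exists_emb (σ : RingAut F) hF hor (GaloisField p (f / r)) hcard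
  obtain ⟨M₀⟩ := exists_cg hD (GaloisField p (f / r))
  refine ⟨GaloisField p (f / r), inferInstance, inferInstance, ?_, ?_⟩
  · rw [hcard, hF, ← pow_mul, Nat.div_mul_cancel hrf]
  · have hjm : ∀ {g : GL D.Idx (GaloisField p (f / r))}, g ∈ D.group (GaloisField p (f / r)) → mapJ D j g ∈ D.group F := by
      intro g hg
      rw [M₀.G_eq] at hg
      rw [M.G_eq]
      exact M.mapJ_XS _ _ hg
    have hjσ : ∀ g : GL D.Idx (GaloisField p (f / r)), mapJ D (σ : F →+* F) (mapJ D j g) = mapJ D j g := by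
      intro g
      apply Units.ext
      ext a b
      exact (hj _).mpr ⟨_, rfl⟩
    let ψ : ↥(D.group (GaloisField p (f / r))) →* ↥((MulEquiv.toMonoidHom φ).eqLocus (MonoidHom.id ↥(D.group F))) :=
      { toFun := fun g => ⟨⟨mapJ D j g, hjm g.2⟩, by
          change φ _ = _
          apply Subtype.ext
          rw [hφ']
          exact hjσ g⟩
        map_one' := by
          apply Subtype.ext
          apply Subtype.ext
          exact map_one (mapJ D j)
        map_mul' := fun a b => by
          apply Subtype.ext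
          apply Subtype.ext
          exact map_mul (mapJ D j) _ _ }
    refine ⟨(MulEquiv.ofBijective ψ ⟨?_, ?_⟩).symm⟩
    · intro a b h
      have h1 := congrArg (fun x : ↥((MulEquiv.toMonoidHom φ).eqLocus (MonoidHom.id ↥(D.group F))) => ((x : ↥(D.group F)) : GL D.Idx F)) h
      exact Subtype.ext (mapJ_injective D j h1)
    · rintro ⟨g, hg⟩
      change φ g = g at hg
      have h1 : mapJ D (σ : F →+* F) (g : GL D.Idx F) = g := by rw [← hφ', hg]
      obtain ⟨g₀, h2, h3⟩ := CG.fixed_mem M₀ M hA (σ : F →+* F) j (fun x hx => (hj x).mp hx) g.2 h1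
      exact ⟨⟨g₀, h2⟩, Subtype.ext (Subtype.ext h3)⟩

end CfsgLib.Chev
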