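import Mathlib
import Cfsg.Prelude.Def_Characters
import Cfsg.Prelude.Def_OddOrderChar
import Cfsg.Prelude.Def_OddOrderLocal
import Cfsg.Agent.Lib.CohTI
import Cfsg.Agent.S1531

/-!
# Gluing two coherent sets (Sibley)
-/

set_option autoImplicit false
set_option linter.style.haveILetI false
set_option linter.unusedSectionVars false

open scoped ComplexConjugate commutatorElement

namespace CfsgLib.Sibley

open Cfsg CfsgLib.CharBasic CfsgLib.CharInd CfsgLib.CharClifford CfsgLib.CharCoh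

universe u v

section gen

variable {G : Type v} [Group G] [Fintype G]

/-- two generalized characters of norm one -/
theorem unit_inner {A B : G → ℂ} (hA : IsGeneralizedCharacter G A) (hB : IsGeneralizedCharacter G B) (h1 : classInner A A = 1) (h2 : classInner B B = 1) :
    classInner A B = 0 ∨ A = B ∨ A = -B := by
  by_cases h : classInner A B = 0
  · exact Or.inl h
  · right
    rcases IsGeneralizedCharacter.irr_or_neg hA h1 with a | a <;> rcases IsGeneralizedCharacter.irr_or_neg hB h2 with b | b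
    · left
      by_contra hne
      exact h (IsIrrCharacter.inner_eq_zero a b hne)
    · right
      by_contra hne
      apply h
      have := IsIrrCharacter.inner_eq_zero a b hne
      rw [classInner_neg_right, neg_eq_zero] at this
      exact this
    · right
      by_contra hne
      apply h
      have := IsIrrCharacter.inner_eq_zero a b (fun h' => hne (by rw [← h', neg_neg]))
      rw [classInner_neg_left, neg_eq_zero] at this
      exact this
    · left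
      by_contra hne
      apply h
      have := IsIrrCharacter.inner_eq_zero a b (fun h' => hne (neg_injective h'))
      rw [classInner_neg_right, classInner_neg_left, neg_neg] at this
      exact this

/-- decomposition along an orthonormal family of generalized characters -/
theorem decomp {ι : Type*} [DecidableEq ι] (s : Finset ι) (f : ι → G → ℂ) (hgen : ∀ i ∈ s, IsGeneralizedCharacter G (f i))
    (hf : ∀ i ∈ s, ∀ j ∈ s, classInner (f i) (f j) = if i = j then 1 else 0) {β : G → ℂ} (hβ : IsGeneralizedCharacter G β) {a : ℤ} (ha : a ≠ 0)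
    (hdiv : ∀ ψ : G → ℂ, IsIrrCharacter G ψ → (∀ i ∈ s, classInner ψ (f i) = 0) → ∃ k : ℤ, classInner β ψ = (a : ℂ) * k) :
    ∃ (x : ι → ℤ) (Γ : G → ℂ), IsGeneralizedCharacter G Γ ∧ (∀ i ∈ s, classInner β (f i) = x i) ∧ β = ∑ i ∈ s, (x i : ℂ) • f i + (a : ℂ) • Γ ∧
      (∀ i ∈ s, classInner Γ (f i) = 0) := by
  classical
  have hx : ∀ i : ι, ∃ n : ℤ, i ∈ s → classInner β (f i) = n := by
    intro i
    by_cases hi : i ∈ s
    · obtain ⟨n, hn⟩ := IsGeneralizedCharacter.inner_int hβ (hgen i hi)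
      exact ⟨n, fun _ => hn⟩
    · exact ⟨0, fun h => absurd h hi⟩
  choose x hx using hx
  obtain ⟨R, hR⟩ : ∃ R : G → ℂ, R = β - ∑ i ∈ s, (x i : ℂ) • f i := ⟨_, rfl⟩
  have hRgen : IsGeneralizedCharacter G R := by
    rw [hR]
    exact IsGeneralizedCharacter.sub hβ (IsGeneralizedCharacter.sum s fun i hi => IsGeneralizedCharacter.zsmul (hgen i hi) _)
  have hRf : ∀ j ∈ s, classInner R (f j) = 0 := by
    intro j hj
    rw [hR, classInner_sub_left, classInner_sum_left, hx j hj]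
    have e : ∀ i ∈ s, classInner ((x i : ℂ) • f i) (f j) = if i = j then (x j : ℂ) else 0 := by
      intro i hi
      rw [classInner_smul_left, hf i hi j hj]
      split_ifs with h
      · rw [h, mul_one]
      · rw [mul_zero]
    rw [Finset.sum_congr rfl e, Finset.sum_ite_eq' s j, if_pos hj, sub_self]
  have hk : ∀ ψ : IrrCharacter G, ∃ k : ℤ, classInner R (ψ : G → ℂ) = (a : ℂ) * k := by
    intro ψ
    by_cases hall : ∀ i ∈ s, classInner (ψ : G → ℂ) (f i) = 0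
    · obtain ⟨k, hk⟩ := hdiv ψ ψ.2 hall
      refine ⟨k, ?_⟩
      rw [hR, classInner_sub_left, classInner_sum_left, hk]
      have e : ∀ i ∈ s, classInner ((x i : ℂ) • f i) (ψ : G → ℂ) = 0 := by
        intro i hi
        rw [classInner_smul_left, symm_zero (hall i hi), mul_zero]
      rw [Finset.sum_congr rfl e, Finset.sum_const_zero, sub_zero]
    · push Not at hall
      obtain ⟨i, hi, hne⟩ := hall
      refine ⟨0, ?_⟩
      rw [Int.cast_zero, mul_zero]
      have hii : classInner (f i) (f i) = 1 := by rw [hf i hi i hi, if_pos rfl]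
      rcases unit_inner (IsIrrCharacter.isGeneralized ψ.2) (hgen i hi) (IsIrrCharacter.inner_self ψ.2) hii with h | h | h
      · exact absurd h hne
      · rw [h]; exact hRf i hi
      · rw [h, classInner_neg_right, hRf i hi, neg_zero]
  choose k hk using hk
  have haC : (a : ℂ) ≠ 0 := by exact_mod_cast ha
  refine ⟨x, ∑ ψ : IrrCharacter G, (k ψ : ℂ) • (ψ : G → ℂ), ?_, fun i hi => hx i hi, ?_, ?_⟩
  · exact isGeneralized_iff.mpr ⟨k, rfl⟩
  · have h1 := eq_sum_inner (IsGeneralizedCharacter.isClassFunction hRgen)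
    have h2 : R = (a : ℂ) • ∑ ψ : IrrCharacter G, (k ψ : ℂ) • (ψ : G → ℂ) := by
      rw [Finset.smul_sum]
      rw [h1]
      apply Finset.sum_congr rfl
      intro ψ _
      rw [hk ψ, smul_smul]
    rw [← h2, hR]
    abel
  · intro i hi
    have h1 := eq_sum_inner (IsGeneralizedCharacter.isClassFunction hRgen)
    have h2 : R = (a : ℂ) • ∑ ψ : IrrCharacter G, (k ψ : ℂ) • (ψ : G → ℂ) := by
      rw [Finset.smul_sum]
      rw [h1]
      apply Finset.sum_congr rfl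
      intro ψ _
      rw [hk ψ, smul_smul]
    have h3 := hRf i hi
    rw [h2, classInner_smul_left] at h3
    exact (mul_eq_zero.mp h3).resolve_left haC

end gen

section swap

variable {N : Type u} [Group N] [Fintype N] {G : Type v} [Group G] [Fintype G]

theorem swap {X : Set (N → ℂ)} {σ α : (N → ℂ) → (G → ℂ)} (hσ : IsLinearIsometryOn (zspan X) σ) (hσα : ∀ θ ∈ zspanOn X {1}ᶜ, σ θ = α θ)
    {χ₀ χ₁ : N → ℂ} (h0 : IsIrrCharacter N χ₀) (h1 : IsIrrCharacter N χ₁) (hne : χ₀ ≠ χ₁) (hX : ∀ φ, φ ∈ X ↔ φ = χ₀ ∨ φ = χ₁) (hdeg : χ₀ 1 = χ₁ 1) :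
    ∃ σ' : (N → ℂ) → (G → ℂ), IsLinearIsometryOn (zspan X) σ' ∧ (∀ θ ∈ zspanOn X {1}ᶜ, σ' θ = α θ) ∧ σ' χ₀ = -σ χ₁ := by
  classical
  obtain ⟨S, hS⟩ : ∃ S : Finset (N → ℂ), S = {χ₀, χ₁} := ⟨_, rfl⟩
  have hmem : ∀ φ, φ ∈ S ↔ φ = χ₀ ∨ φ = χ₁ := fun φ => by rw [hS]; simp
  have hSX : (S : Set (N → ℂ)) = X := by
    ext φ
    rw [Finset.mem_coe, hmem, hX]
  have hirr : ∀ φ ∈ S, IsIrrCharacter N φ := by
    intro φ hφ
    rcases (hmem φ).mp hφ with rfl | rfl
    · exact h0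
    · exact h1
  have horth : ∀ φ ∈ S, ∀ ψ ∈ S, φ ≠ ψ → classInner φ ψ = 0 := fun φ hφ ψ hψ h => IsIrrCharacter.inner_eq_zero (hirr φ hφ) (hirr ψ hψ) h
  have hself : ∀ φ ∈ S, classInner φ φ ≠ 0 := fun φ hφ => by rw [IsIrrCharacter.inner_self (hirr φ hφ)]; exact one_ne_zero
  have m0 : χ₀ ∈ S := (hmem _).mpr (Or.inl rfl)
  have m1 : χ₁ ∈ S := (hmem _).mpr (Or.inr rfl)
  rw [← hSX] at hσ hσα ⊢
  have z0 : χ₀ ∈ zspan (S : Set (N → ℂ)) := mem_zspan_of_mem (Finset.mem_coe.mpr m0)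
  have z1 : χ₁ ∈ zspan (S : Set (N → ℂ)) := mem_zspan_of_mem (Finset.mem_coe.mpr m1)
  obtain ⟨T, hT⟩ : ∃ T : (N → ℂ) → (G → ℂ), T = fun φ => if φ = χ₀ then -σ χ₁ else -σ χ₀ := ⟨_, rfl⟩
  have T0 : T χ₀ = -σ χ₁ := by rw [hT]; simp
  have T1 : T χ₁ = -σ χ₀ := by rw [hT]; simp [hne.symm]
  obtain ⟨D, hD, hD'⟩ := IsIrrCharacter.exists_pos h0
  have hgen : ∀ φ ∈ S, IsGeneralizedCharacter G (T φ) := by
    intro φ hφ
    rcases (hmem φ).mp hφ with rfl | rfl
    · rw [T0]; exact IsGeneralizedCharacter.neg (hσ.2.2.2 _ z1)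
    · rw [T1]; exact IsGeneralizedCharacter.neg (hσ.2.2.2 _ z0)
  have hgram : ∀ φ ∈ S, ∀ ψ ∈ S, classInner (T φ) (T ψ) = classInner φ ψ := by
    intro φ hφ ψ hψ
    rcases (hmem φ).mp hφ with rfl | rfl <;> rcases (hmem ψ).mp hψ with rfl | rfl
    · rw [T0, classInner_neg_left, classInner_neg_right, neg_neg, hσ.2.2.1 _ z1 _ z1, IsIrrCharacter.inner_self h0, IsIrrCharacter.inner_self h1]
    · rw [T0, T1, classInner_neg_left, classInner_neg_right, neg_neg, hσ.2.2.1 _ z1 _ z0, IsIrrCharacter.inner_eq_zero h0 h1 hne,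
        IsIrrCharacter.inner_eq_zero h1 h0 hne.symm]
    · rw [T0, T1, classInner_neg_left, classInner_neg_right, neg_neg, hσ.2.2.1 _ z0 _ z1, IsIrrCharacter.inner_eq_zero h0 h1 hne,
        IsIrrCharacter.inner_eq_zero h1 h0 hne.symm]
    · rw [T1, classInner_neg_left, classInner_neg_right, neg_neg, hσ.2.2.1 _ z0 _ z0, IsIrrCharacter.inner_self h0, IsIrrCharacter.inner_self h1]
  refine ⟨lin S T, lin_isometry horth hself hgen hgram, ?_, ?_⟩
  · intro θ hθ
    rw [← hσα θ hθ]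
    refine agree_of_base horth hself (iso_mono hσ fun α h => h.1) (fun _ => (D : ℤ)) ?_ (χ₁ := χ₀) m0 (by simpa using hD.ne') ?_ hθ
    · intro φ hφ
      rcases (hmem φ).mp hφ with rfl | rfl
      · rw [hD']; simp
      · rw [← hdeg, hD']; simp
    · intro φ hφ
      have e : σ (((D : ℤ) : ℂ) • φ - ((D : ℤ) : ℂ) • χ₀) = ((D : ℤ) : ℂ) • σ φ - ((D : ℤ) : ℂ) • σ χ₀ := by
        have zφ : φ ∈ zspan (S : Set (N → ℂ)) := mem_zspan_of_mem (Finset.mem_coe.mpr hφ)
        rw [iso_sub (isZClosed_zspan _) hσ (by rw [← zsmul_eq]; exact zspan_zsmul _ zφ) (by rw [← zsmul_eq]; exact zspan_zsmul _ z0),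
          iso_smul hσ zφ, iso_smul hσ z0]
      rw [e]
      rcases (hmem φ).mp hφ with rfl | rfl
      · rw [T0]; simp
      · rw [T0, T1, smul_neg, smul_neg]; abel
  · rw [lin_mem horth hself m0, T0]

end swap

section glue

variable {G : Type u} [Group G] [Fintype G] {N : Subgroup G} [Fintype N]

theorem glue (S X Y : Set (N → ℂ)) (hirr : ∀ ξ ∈ S, IsIrrCharacter N ξ) (hXS : X ⊆ S) (hYS : Y ⊆ S) (hXY : Disjoint X Y)
    (hX2 : ∃ a ∈ X, ∃ b ∈ X, a ≠ b) (hY2 : ∃ a ∈ Y, ∃ b ∈ Y, a ≠ b) (α : (N → ℂ) → (G → ℂ)) (hα : IsLinearIsometryOn (zspanOn S {1}ᶜ) α)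
    (hα1 : ∀ θ ∈ zspanOn S {1}ᶜ, α θ 1 = 0) (σ τ : (N → ℂ) → (G → ℂ)) (hσ : IsLinearIsometryOn (zspan X) σ) (hσα : ∀ θ ∈ zspanOn X {1}ᶜ, σ θ = α θ)
    (hτ : IsLinearIsometryOn (zspan Y) τ) (hτα : ∀ θ ∈ zspanOn Y {1}ᶜ, τ θ = α θ)
    {χ₀ η₀ : N → ℂ} (hχ₀ : χ₀ ∈ X) (hη₀ : η₀ ∈ Y) {e a : ℕ} (ha : 2 ≤ a) (he : 0 < e) (h1 : χ₀ 1 = ((a * e : ℕ) : ℂ)) (h2 : ∀ η ∈ Y, η 1 = (e : ℂ))
    (hdiv : ∀ ψ : G → ℂ, IsIrrCharacter G ψ → (∀ χ ∈ X, classInner ψ (σ χ) = 0) → ∃ k : ℤ, classInner (α (χ₀ - (a : ℂ) • η₀)) ψ = ((a : ℤ) : ℂ) * k) :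
    IsCoherent (X ∪ Y) {1}ᶜ α := by
  classical
  have hself : ∀ φ ∈ S, classInner φ φ = 1 := fun φ hφ => IsIrrCharacter.inner_self (hirr φ hφ)
  have horth : ∀ φ ∈ S, ∀ ψ ∈ S, φ ≠ ψ → classInner φ ψ = 0 := fun φ hφ ψ hψ h => IsIrrCharacter.inner_eq_zero (hirr φ hφ) (hirr ψ hψ) h
  have hfinX : X.Finite := finite_of_orthogonal (fun φ hφ => IsIrrCharacter.isCharacter (hirr φ (hXS hφ)))
    (fun φ hφ h => IsIrrCharacter.one_ne_zero (hirr φ (hXS hφ)) (by rw [h]; rfl)) (fun φ hφ ψ hψ => horth φ (hXS hφ) ψ (hXS hψ))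
  obtain ⟨F, hF⟩ := hfinX.exists_finset_coe
  have hFX : ∀ φ, φ ∈ F ↔ φ ∈ X := fun φ => by rw [← hF, Finset.mem_coe]
  have horthST := (Cfsg.Agent.S1531.result N S X Y hirr hXS hYS hXY hX2 hY2 α hα hα1 σ τ hσ hσα hτ hτα).1
  have hneXY : ∀ φ ∈ X, ∀ ψ ∈ Y, φ ≠ ψ := fun φ hφ ψ hψ h => Set.disjoint_left.mp hXY hφ (h ▸ hψ)
  have hgX : ∀ χ ∈ X, IsGeneralizedCharacter G (σ χ) := fun χ hχ => hσ.2.2.2 _ (mem_zspan_of_mem hχ)
  have hgY : ∀ χ ∈ Y, IsGeneralizedCharacter G (τ χ) := fun χ hχ => hτ.2.2.2 _ (mem_zspan_of_mem hχ)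
  have hsσ : ∀ χ ∈ X, ∀ χ' ∈ X, classInner (σ χ) (σ χ') = if χ = χ' then 1 else 0 := by
    intro χ hχ χ' hχ'
    rw [hσ.2.2.1 _ (mem_zspan_of_mem hχ) _ (mem_zspan_of_mem hχ')]
    split_ifs with h
    · rw [← h]; exact hself _ (hXS hχ)
    · exact horth _ (hXS hχ) _ (hXS hχ') h
  have hsτ : ∀ χ ∈ Y, ∀ χ' ∈ Y, classInner (τ χ) (τ χ') = if χ = χ' then 1 else 0 := by
    intro χ hχ χ' hχ'
    rw [hτ.2.2.1 _ (mem_zspan_of_mem hχ) _ (mem_zspan_of_mem hχ')]
    split_ifs with h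
    · rw [← h]; exact hself _ (hYS hχ)
    · exact horth _ (hYS hχ) _ (hYS hχ') h
  -- the function of degree zero
  have hA : (a : ℂ) ≠ 0 := by
    have : a ≠ 0 := by omega
    exact_mod_cast this
  obtain ⟨δ, hδ⟩ : ∃ δ : N → ℂ, δ = χ₀ - (a : ℂ) • η₀ := ⟨_, rfl⟩
  have hδm : δ ∈ zspanOn S {1}ᶜ := by
    rw [mem_zspanOn_one]
    constructor
    · rw [hδ]
      have i1 : (a : ℂ) • η₀ = ((a : ℕ) : ℤ) • η₀ := by rw [zsmul_eq]; simp
      rw [i1]
      exact zspan_sub (mem_zspan_of_mem (hXS hχ₀)) (zspan_zsmul _ (mem_zspan_of_mem (hYS hη₀)))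
    · rw [hδ, Pi.sub_apply, Pi.smul_apply, h1, h2 η₀ hη₀, smul_eq_mul]
      push_cast
      ring
  have hβgen : IsGeneralizedCharacter G (α δ) := hα.2.2.2 _ hδm
  rw [← hδ] at hdiv
  obtain ⟨x, Γ, hΓ, hx, hβ, hΓσ⟩ := decomp F σ (fun i hi => hgX i ((hFX i).mp hi)) (fun i hi j hj => hsσ i ((hFX i).mp hi) j ((hFX j).mp hj)) hβgen
    (a := (a : ℤ)) (by omega) (fun ψ hψ h => hdiv ψ hψ (fun χ hχ => h χ ((hFX χ).mpr hχ)))
  rw [Int.cast_natCast] at hβ
  -- degrees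
  have hex : ∀ φ : N → ℂ, ∃ d : ℕ, φ ∈ X → (0 < d ∧ φ 1 = d) := by
    intro φ
    by_cases h : φ ∈ X
    · obtain ⟨d, hd⟩ := IsIrrCharacter.exists_pos (hirr φ (hXS h))
      exact ⟨d, fun _ => hd⟩
    · exact ⟨0, fun h' => absurd h' h⟩
  choose d hd' using hex
  have hd : ∀ φ ∈ X, φ 1 = (d φ : ℂ) := fun φ hφ => (hd' φ hφ).2
  have hdpos : ∀ φ ∈ X, 0 < d φ := fun φ hφ => (hd' φ hφ).1
  -- inner products of β with sigma
  have hrel : ∀ χ ∈ X, χ ≠ χ₀ → (d χ₀ : ℤ) * x χ = d χ * (x χ₀ - 1) := by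
    intro χ hχ hne
    have hm := sub_smul_mem d hd hχ hχ₀
    have k1 := hα.2.2.1 _ hδm _ (zspanOn_mono hXS hm)
    rw [← hσα _ hm] at k1
    have i1 : (d χ₀ : ℂ) • χ = (((d χ₀ : ℕ) : ℤ) : ℂ) • χ := by simp
    have i2 : (d χ : ℂ) • χ₀ = (((d χ : ℕ) : ℤ) : ℂ) • χ₀ := by simp
    rw [i1, i2, iso_sub (isZClosed_zspan _) hσ (by rw [← zsmul_eq]; exact zspan_zsmul _ (mem_zspan_of_mem hχ)) (by rw [← zsmul_eq]; exact zspan_zsmul _ (mem_zspan_of_mem hχ₀)),
      iso_smul hσ (mem_zspan_of_mem hχ), iso_smul hσ (mem_zspan_of_mem hχ₀), classInner_sub_right, classInner_smul_right, classInner_smul_right,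
      hx χ ((hFX χ).mpr hχ), hx χ₀ ((hFX χ₀).mpr hχ₀), classInner_sub_right, classInner_smul_right, classInner_smul_right, hδ, classInner_sub_left,
      classInner_sub_left, classInner_smul_left, classInner_smul_left, horth _ (hXS hχ₀) _ (hXS hχ) hne.symm, hself _ (hXS hχ₀),
      horth _ (hYS hη₀) _ (hXS hχ) (hneXY χ hχ η₀ hη₀).symm, horth _ (hYS hη₀) _ (hXS hχ₀) (hneXY χ₀ hχ₀ η₀ hη₀).symm] at k1
    simp only [map_intCast] at k1
    have k2 : (((d χ₀ : ℤ) * x χ - d χ * x χ₀ : ℤ) : ℂ) = ((-(d χ : ℤ) : ℤ) : ℂ) := by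
      push_cast at k1 ⊢
      linear_combination k1
    have k3 := Int.cast_injective k2
    linarith
  -- inner products with tau
  have hβτ : ∀ η ∈ Y, classInner (α δ) (τ η) = (a : ℂ) * classInner Γ (τ η) := by
    intro η hη
    rw [hβ, classInner_add_left, classInner_sum_left, classInner_smul_left]
    have e0 : ∀ i ∈ F, classInner ((x i : ℂ) • σ i) (τ η) = 0 := by
      intro i hi
      rw [classInner_smul_left, horthST i ((hFX i).mp hi) η hη, mul_zero]
    rw [Finset.sum_congr rfl e0, Finset.sum_const_zero, zero_add]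
  have hΓτ : ∀ η ∈ Y, η ≠ η₀ → classInner Γ (τ η) = classInner Γ (τ η₀) + 1 := by
    intro η hη hne
    have hm : η₀ - η ∈ zspanOn Y {1}ᶜ := by
      rw [mem_zspanOn_one]
      exact ⟨zspan_sub (mem_zspan_of_mem hη₀) (mem_zspan_of_mem hη), by rw [Pi.sub_apply, h2 _ hη₀, h2 _ hη, sub_self]⟩
    have k1 := hα.2.2.1 _ hδm _ (zspanOn_mono hYS hm)
    rw [← hτα _ hm, iso_sub (isZClosed_zspan _) hτ (mem_zspan_of_mem hη₀) (mem_zspan_of_mem hη), classInner_sub_right, hβτ _ hη₀, hβτ _ hη, hδ, classInner_sub_right,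
      classInner_sub_left, classInner_sub_left, classInner_smul_left, classInner_smul_left, horth _ (hXS hχ₀) _ (hYS hη₀) (hneXY _ hχ₀ _ hη₀),
      horth _ (hXS hχ₀) _ (hYS hη) (hneXY _ hχ₀ _ hη), hself _ (hYS hη₀), horth _ (hYS hη₀) _ (hYS hη) hne.symm] at k1
    have k2 : (a : ℂ) * (classInner Γ (τ η) - (classInner Γ (τ η₀) + 1)) = 0 := by linear_combination -k1
    have k3 := (mul_eq_zero.mp k2).resolve_left hA
    linear_combination k3
  -- the norm
  obtain ⟨g, hg⟩ := IsGeneralizedCharacter.inner_int hΓ hΓ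
  have hnorm : (1 : ℤ) + (a : ℤ) ^ 2 = ∑ i ∈ F, x i ^ 2 + (a : ℤ) ^ 2 * g := by
    have k1 := hα.2.2.1 _ hδm _ hδm
    have k2 : classInner δ δ = 1 + (a : ℂ) ^ 2 := by
      rw [hδ, classInner_sub_left, classInner_sub_right, classInner_sub_right, classInner_smul_left, classInner_smul_right, classInner_smul_left, classInner_smul_right,
        hself _ (hXS hχ₀), hself _ (hYS hη₀), horth _ (hXS hχ₀) _ (hYS hη₀) (hneXY _ hχ₀ _ hη₀), horth _ (hYS hη₀) _ (hXS hχ₀) (hneXY _ hχ₀ _ hη₀).symm]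
      simp only [map_natCast]
      ring
    have k3 : classInner (α δ) (α δ) = ((∑ i ∈ F, x i ^ 2 + (a : ℤ) ^ 2 * g : ℤ) : ℂ) := by
      rw [hβ, classInner_add_left, classInner_add_right, classInner_add_right]
      have e1 : classInner (∑ i ∈ F, (x i : ℂ) • σ i) ((a : ℂ) • Γ) = 0 := by
        rw [classInner_sum_left]
        apply Finset.sum_eq_zero
        intro i hi
        rw [classInner_smul_left, classInner_smul_right, symm_zero (hΓσ i hi), mul_zero, mul_zero]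
      have e2 : classInner ((a : ℂ) • Γ) (∑ i ∈ F, (x i : ℂ) • σ i) = 0 := symm_zero e1
      have e3 : classInner (∑ i ∈ F, (x i : ℂ) • σ i) (∑ i ∈ F, (x i : ℂ) • σ i) = ((∑ i ∈ F, x i ^ 2 : ℤ) : ℂ) := by
        rw [inner_comb]
        push_cast
        apply Finset.sum_congr rfl
        intro i hi
        have e4 : ∀ j ∈ F, (x i : ℂ) * conj (x j : ℂ) * classInner (σ i) (σ j) = if i = j then (x i : ℂ) ^ 2 else 0 := by
          intro j hj
          rw [hsσ i ((hFX i).mp hi) j ((hFX j).mp hj), map_intCast]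
          split_ifs with h
          · rw [h]; ring
          · rw [mul_zero]
        rw [Finset.sum_congr rfl e4, Finset.sum_ite_eq F i, if_pos hi]
      rw [e1, e2, e3, classInner_smul_left, classInner_smul_right, hg]
      simp only [map_natCast]
      push_cast
      ring
    rw [k2, k3] at k1
    have k4 : ((∑ i ∈ F, x i ^ 2 + (a : ℤ) ^ 2 * g : ℤ) : ℂ) = ((1 + (a : ℤ) ^ 2 : ℤ) : ℂ) := by
      rw [k1]; push_cast; ring
    exact (Int.cast_injective k4).symm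
  have hg0 : 0 ≤ g := by
    have := classInner_self_re_nonneg Γ
    rw [hg] at this
    simp only [Complex.intCast_re] at this
    exact_mod_cast this
  have hsq0 : 0 ≤ ∑ i ∈ F, x i ^ 2 := Finset.sum_nonneg fun i _ => sq_nonneg _
  obtain ⟨η₁, hη₁, hη₁0⟩ : ∃ η' ∈ Y, η' ≠ η₀ := by
    obtain ⟨a, ha, b, hb, hab⟩ := hY2
    by_cases h : a = η₀
    · exact ⟨b, hb, fun h' => hab (by rw [h, h'])⟩
    · exact ⟨a, ha, h⟩
  have hg1 : g = 1 := by
    have hne : g ≠ 0 := by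
      intro h0
      rw [h0, Int.cast_zero] at hg
      have h3 := classInner_self_eq_zero.mp hg
      have h4 := hΓτ η₁ hη₁ hη₁0
      rw [h3, classInner_zero_left, classInner_zero_left] at h4
      norm_num at h4
    have ha' : (2 : ℤ) ≤ a := by exact_mod_cast ha
    by_contra hne1
    have h3 : 2 ≤ g := by omega
    nlinarith
  have hsq : ∑ i ∈ F, x i ^ 2 = 1 := by rw [hg1] at hnorm; linarith
  have hΓ1 : classInner Γ Γ = 1 := by rw [hg, hg1]; simp
  -- the part in sigma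
  have hXpart : ∃ σ' : (N → ℂ) → (G → ℂ), IsLinearIsometryOn (zspan X) σ' ∧ (∀ θ ∈ zspanOn X {1}ᶜ, σ' θ = α θ) ∧ ∑ i ∈ F, (x i : ℂ) • σ i = σ' χ₀ := by
    have hex1 : ∃ i ∈ F, x i ≠ 0 := by
      by_contra h
      push Not at h
      rw [Finset.sum_eq_zero (fun i hi => by rw [h i hi]; norm_num)] at hsq
      norm_num at hsq
    obtain ⟨i, hi, hxi⟩ := hex1
    have h3 : x i ^ 2 + ∑ j ∈ F.erase i, x j ^ 2 = 1 := by rw [Finset.add_sum_erase F (fun j => x j ^ 2) hi, hsq]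
    have h4 : 0 < x i ^ 2 := by positivity
    have h5 : 0 ≤ ∑ j ∈ F.erase i, x j ^ 2 := Finset.sum_nonneg fun i _ => sq_nonneg _
    have h6 : ∑ j ∈ F.erase i, x j ^ 2 = 0 := by omega
    have h7 : x i ^ 2 = 1 := by omega
    have h8 : ∀ j ∈ F, j ≠ i → x j = 0 := by
      intro j hj hji
      have := (Finset.sum_eq_zero_iff_of_nonneg (fun i _ => sq_nonneg (x i))).mp h6 j (Finset.mem_erase.mpr ⟨hji, hj⟩)
      exact pow_eq_zero_iff (two_ne_zero) |>.mp this
    have hsum : ∑ j ∈ F, (x j : ℂ) • σ j = (x i : ℂ) • σ i := by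
      apply Finset.sum_eq_single_of_mem i hi
      intro j hj hji
      rw [h8 j hj hji]; simp
    by_cases hi0 : i = χ₀
    · obtain ⟨χ', hχ', hne'⟩ : ∃ χ' ∈ X, χ' ≠ χ₀ := by
        obtain ⟨a, ha, b, hb, hab⟩ := hX2
        by_cases h : a = χ₀
        · exact ⟨b, hb, fun h' => hab (by rw [h, h'])⟩
        · exact ⟨a, ha, h⟩
      have h9 := hrel χ' hχ' hne'
      rw [h8 χ' ((hFX _).mpr hχ') (by rw [hi0]; exact hne'), mul_zero] at h9
      have h10 : x χ₀ = 1 := by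
        rcases mul_eq_zero.mp h9.symm with h | h
        · have := hdpos χ' hχ'; omega
        · omega
      refine ⟨σ, hσ, hσα, ?_⟩
      rw [hsum, hi0, h10]; simp
    · have h9 : x χ₀ = 0 := h8 χ₀ ((hFX _).mpr hχ₀) (fun h => hi0 h.symm)
      have h10 := hrel i ((hFX i).mp hi) hi0
      rw [h9] at h10
      have p1 := hdpos i ((hFX i).mp hi)
      have p0 := hdpos χ₀ hχ₀
      have h11 : x i = -1 := by
        have : x i = 1 ∨ x i = -1 := by
          have : (x i - 1) * (x i + 1) = 0 := by linarith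
          rcases mul_eq_zero.mp this with h | h
          · left; omega
          · right; omega
        rcases this with h | h
        · rw [h] at h10
          have : (0 : ℤ) < d χ₀ := by exact_mod_cast p0
          have : (0 : ℤ) < d i := by exact_mod_cast p1
          linarith
        · exact h
      have h12 : d χ₀ = d i := by
        rw [h11] at h10
        have : (d χ₀ : ℤ) = d i := by linarith
        exact_mod_cast this
      have h13 : ∀ φ, φ ∈ X ↔ φ = χ₀ ∨ φ = i := by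
        intro φ
        constructor
        · intro hφ
          by_contra hno
          push Not at hno
          have h14 := hrel φ hφ hno.1
          rw [h8 φ ((hFX _).mpr hφ) hno.2, h9] at h14
          have := hdpos φ hφ
          have : (0 : ℤ) < d φ := by exact_mod_cast this
          linarith
        · rintro (h | h)
          · rw [h]; exact hχ₀
          · rw [h]; exact (hFX i).mp hi
      obtain ⟨σ', s1, s2, s3⟩ := swap hσ hσα (hirr _ (hXS hχ₀)) (hirr _ (hXS ((hFX i).mp hi))) (fun h => hi0 h.symm) h13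
        (by rw [hd _ hχ₀, hd _ ((hFX i).mp hi), h12])
      refine ⟨σ', s1, s2, ?_⟩
      rw [hsum, h11, s3]; simp
  -- the part in tau
  have hYpart : ∃ τ' : (N → ℂ) → (G → ℂ), IsLinearIsometryOn (zspan Y) τ' ∧ (∀ θ ∈ zspanOn Y {1}ᶜ, τ' θ = α θ) ∧ Γ = -τ' η₀ := by
    have hτself : ∀ η ∈ Y, classInner (τ η) (τ η) = 1 := fun η hη => by rw [hsτ η hη η hη, if_pos rfl]
    rcases unit_inner hΓ (hgY _ hη₀) hΓ1 (hτself _ hη₀) with h | h | h
    · -- inner zero
      have h3 : ∀ η ∈ Y, η ≠ η₀ → Γ = τ η := by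
        intro η hη hne
        have h4 := hΓτ η hη hne
        rw [h, zero_add] at h4
        rcases unit_inner hΓ (hgY _ hη) hΓ1 (hτself _ hη) with h5 | h5 | h5
        · rw [h5] at h4; norm_num at h4
        · exact h5
        · rw [h5, classInner_neg_left, hτself _ hη] at h4; norm_num at h4
      have h4 : ∀ φ, φ ∈ Y ↔ φ = η₀ ∨ φ = η₁ := by
        intro φ
        constructor
        · intro hφ
          by_contra hno
          push Not at hno
          have h5 := h3 φ hφ hno.1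
          have h6 := h3 η₁ hη₁ hη₁0
          have h7 := hsτ φ hφ η₁ hη₁
          rw [if_neg hno.2, ← h5, ← h6, hΓ1] at h7
          norm_num at h7
        · rintro (h | h)
          · rw [h]; exact hη₀
          · rw [h]; exact hη₁
      obtain ⟨τ', s1, s2, s3⟩ := swap hτ hτα (hirr _ (hYS hη₀)) (hirr _ (hYS hη₁)) hη₁0.symm h4 (by rw [h2 _ hη₀, h2 _ hη₁])
      refine ⟨τ', s1, s2, ?_⟩
      rw [s3, neg_neg]
      exact h3 η₁ hη₁ hη₁0
    · have h4 := hΓτ η₁ hη₁ hη₁0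
      rw [h, hsτ _ hη₀ _ hη₁, hτself _ hη₀, if_neg hη₁0.symm] at h4
      norm_num at h4
    · exact ⟨τ, hτ, hτα, h⟩
  obtain ⟨σ', hσ1, hσ2, hσ3⟩ := hXpart
  obtain ⟨τ', hτ1, hτ2, hτ3⟩ := hYpart
  refine (Cfsg.Agent.S1531.result N S X Y hirr hXS hYS hXY hX2 hY2 α hα hα1 σ' τ' hσ1 hσ2 hτ1 hτ2).2 ⟨χ₀, hχ₀, η₀, hη₀, ?_⟩
  have hfin : χ₀ 1 • η₀ - η₀ 1 • χ₀ = ((-(e : ℤ) : ℤ) : ℂ) • δ := by
    rw [h1, h2 _ hη₀, hδ, smul_sub, smul_smul]
    push_cast
    funext y
    simp only [Pi.sub_apply, Pi.smul_apply, smul_eq_mul]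
    ring
  rw [hfin, iso_smul hα hδm, hβ, hσ3, hτ3, h1, h2 _ hη₀]
  push_cast
  funext y
  simp only [Pi.sub_apply, Pi.add_apply, Pi.smul_apply, Pi.neg_apply, smul_eq_mul]
  ring

end glue

end CfsgLib.Sibley
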