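import Mathlib
import Cfsg.Prelude.Def_Characters
import Cfsg.Prelude.Def_OddOrderChar
import Cfsg.Prelude.Def_OddOrderLocal
import Cfsg.Agent.Lib.CohTI
import Cfsg.Agent.Lib.CharFS
import Cfsg.Agent.Lib.Sibley

/-!
# Tools for the nonexistence theorem for groups of odd order partitioned by TI Frobenius kernels
-/

set_option autoImplicit false
set_option linter.style.haveILetI false
set_option linter.unusedSectionVars false

open scoped ComplexConjugate

namespace CfsgLib.CNOdd

open Cfsg CfsgLib.CharBasic CfsgLib.CharInd CfsgLib.CharClifford CfsgLib.CharCoh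

universe u v

section parity

theorem even_sum_involution {ι : Type*} [Fintype ι] [DecidableEq ι] (σ : ι → ι) (hσ : ∀ i, σ (σ i) = i) (i₀ : ι) (hfix : ∀ i, σ i = i → i = i₀) (h0 : σ i₀ = i₀)
    (f : ι → ℤ) (hf : ∀ i, f (σ i) = f i) : Even (∑ i, f i - f i₀) := by
  rw [← Finset.add_sum_erase Finset.univ f (Finset.mem_univ i₀), add_sub_cancel_left, even_iff_two_dvd]
  refine (ZMod.intCast_zmod_eq_zero_iff_dvd _ 2).mp ?_
  push_cast
  apply Finset.sum_involution (fun i _ => σ i)
  · intro i _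
    rw [hf]
    exact CharTwo.add_self_eq_zero _
  · intro i hi _ h
    exact (Finset.mem_erase.mp hi).1 (hfix i h)
  · intro i hi
    refine Finset.mem_erase.mpr ⟨fun h => (Finset.mem_erase.mp hi).1 ?_, Finset.mem_univ _⟩
    rw [← hσ i, h, h0]
  · intro i _
    exact hσ i

variable {G : Type v} [Group G] [Fintype G]

theorem real_parity (hodd : Odd (Nat.card G)) {A B : G → ℂ} (hA : IsGeneralizedCharacter G A) (hB : IsGeneralizedCharacter G B) (hrA : conjFun A = A)
    (hrB : conjFun B = B) {m n k : ℤ} (hm : classInner A (1 : G → ℂ) = m) (hn : classInner B (1 : G → ℂ) = n) (hk : classInner A B = k) : Even (k - m * n) := by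
  classical
  obtain ⟨a, ha⟩ := isGeneralized_iff.mp hA
  obtain ⟨b, hb⟩ := isGeneralized_iff.mp hB
  have ha' : ∀ ψ : IrrCharacter G, classInner A ψ = a ψ := by
    intro ψ; rw [ha]; exact classInner_sum_smul_left (fun χ => (a χ : ℂ)) ψ
  have hb' : ∀ ψ : IrrCharacter G, classInner B ψ = b ψ := by
    intro ψ; rw [hb]; exact classInner_sum_smul_left (fun χ => (b χ : ℂ)) ψ
  have hc : ∀ ψ : IrrCharacter G, ((irrConj ψ : IrrCharacter G) : G → ℂ) = conjFun (ψ : G → ℂ) := by
    intro ψ; funext g; exact irrConj_apply ψ g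
  have hinvol : ∀ ψ : IrrCharacter G, irrConj (irrConj ψ) = ψ := by
    intro ψ
    apply Subtype.ext
    rw [hc, hc, conjFun_conjFun]
  have key : ∀ (C : G → ℂ) (c : IrrCharacter G → ℤ), conjFun C = C → (∀ ψ : IrrCharacter G, classInner C ψ = c ψ) → ∀ ψ, c (irrConj ψ) = c ψ := by
    intro C c hC hcc ψ
    have h1 := inner_conjFun C (ψ : G → ℂ)
    rw [hC, ← hc, hcc, hcc, map_intCast] at h1
    exact_mod_cast h1
  have h1 : classInner A B = ((∑ ψ : IrrCharacter G, a ψ * b ψ : ℤ) : ℂ) := by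
    rw [ha, hb, classInner_sum_smul_sum_smul]
    push_cast
    apply Finset.sum_congr rfl
    intro ψ _
    rw [map_intCast]
  have h2 : m = a (irrOne G) := by
    have h3 := ha' (irrOne G)
    have h4 : ((irrOne G : IrrCharacter G) : G → ℂ) = 1 := by funext g; exact irrOne_apply g
    rw [h4, hm] at h3
    exact_mod_cast h3
  have h3 : n = b (irrOne G) := by
    have h3 := hb' (irrOne G)
    have h4 : ((irrOne G : IrrCharacter G) : G → ℂ) = 1 := by funext g; exact irrOne_apply g
    rw [h4, hn] at h3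
    exact_mod_cast h3
  have h4 : k = ∑ ψ : IrrCharacter G, a ψ * b ψ := by
    rw [hk] at h1
    exact_mod_cast h1
  rw [h4, h2, h3]
  apply even_sum_involution (fun ψ => irrConj ψ) hinvol (irrOne G) (f := fun ψ => a ψ * b ψ)
  · intro ψ hψ
    apply Subtype.ext
    have h5 : (ψ : G → ℂ) = fun _ => 1 := by
      apply CharFS.real_odd hodd ψ.2
      intro g
      have h6 : conjFun (ψ : G → ℂ) = ψ := by
        rw [← hc]
        exact congrArg Subtype.val hψ
      exact Complex.conj_eq_iff_im.mp (congrFun h6 g)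
    rw [h5]
    funext g
    exact (irrOne_apply g).symm
  · apply Subtype.ext
    rw [hc]
    funext g
    show conj (((irrOne G : IrrCharacter G) : G → ℂ) g) = _
    rw [irrOne_apply, map_one]
  · intro ψ
    show a (irrConj ψ) * b (irrConj ψ) = a ψ * b ψ
    rw [key A a hrA ha' ψ, key B b hrB hb' ψ]

end parity

section conjsec

variable {N : Type u} [Group N] [Fintype N] {G : Type v} [Group G] [Fintype G]

/-- a coherent extension commutes with complex conjugation -/
theorem coh_conj {X : Set (N → ℂ)} (hirr : ∀ χ ∈ X, IsIrrCharacter N χ) {σ τ : (N → ℂ) → (G → ℂ)} (hσ : IsLinearIsometryOn (zspan X) σ)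
    (hστ : ∀ θ ∈ zspanOn X {1}ᶜ, σ θ = τ θ) (hτ : ∀ θ : N → ℂ, τ (conjFun θ) = conjFun (τ θ)) {χ : N → ℂ} (hχ : χ ∈ X) (hχ' : conjFun χ ∈ X) (hne : conjFun χ ≠ χ) :
    σ (conjFun χ) = conjFun (σ χ) := by
  have z1 := mem_zspan_of_mem hχ
  have z2 := mem_zspan_of_mem hχ'
  have hm : χ - conjFun χ ∈ zspanOn X {1}ᶜ := by
    rw [mem_zspanOn_one]
    exact ⟨zspan_sub z1 z2, by rw [Pi.sub_apply, conjFun_one (IsIrrCharacter.isCharacter (hirr χ hχ)), sub_self]⟩
  have hm' : conjFun χ - χ ∈ zspanOn X {1}ᶜ := by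
    rw [mem_zspanOn_one]
    exact ⟨zspan_sub z2 z1, by rw [Pi.sub_apply, conjFun_one (IsIrrCharacter.isCharacter (hirr χ hχ)), sub_self]⟩
  have e1 : σ χ - σ (conjFun χ) = τ (χ - conjFun χ) := by rw [← hστ _ hm, iso_sub (isZClosed_zspan _) hσ z1 z2]
  have e2 : σ (conjFun χ) - σ χ = τ (conjFun χ - χ) := by rw [← hστ _ hm', iso_sub (isZClosed_zspan _) hσ z2 z1]
  have e3 : conjFun (χ - conjFun χ) = conjFun χ - χ := by
    funext x
    simp [conjFun]
  have e4 : conjFun (σ χ) - conjFun (σ (conjFun χ)) = σ (conjFun χ) - σ χ := by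
    rw [e2, ← e3, hτ, ← e1]
    funext x
    simp [conjFun]
  obtain ⟨A, hA⟩ : ∃ A, A = σ χ := ⟨_, rfl⟩
  obtain ⟨B, hB⟩ : ∃ B, B = σ (conjFun χ) := ⟨_, rfl⟩
  rw [← hA, ← hB] at e4 ⊢
  have gA : IsGeneralizedCharacter G A := by rw [hA]; exact hσ.2.2.2 _ z1
  have gB : IsGeneralizedCharacter G B := by rw [hB]; exact hσ.2.2.2 _ z2
  have gA' : IsGeneralizedCharacter G (conjFun A) := IsGeneralizedCharacter.conj gA
  have nA : classInner A A = 1 := by rw [hA, hσ.2.2.1 _ z1 _ z1, IsIrrCharacter.inner_self (hirr χ hχ)]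
  have nB : classInner B B = 1 := by rw [hB, hσ.2.2.1 _ z2 _ z2, IsIrrCharacter.inner_self (hirr _ hχ')]
  have nAB : classInner A B = 0 := by rw [hA, hB, hσ.2.2.1 _ z1 _ z2, IsIrrCharacter.inner_eq_zero (hirr χ hχ) (hirr _ hχ') hne.symm]
  have nA' : classInner (conjFun A) (conjFun A) = 1 := by rw [inner_conjFun, nA, map_one]
  have nB' : classInner (conjFun B) (conjFun B) = 1 := by rw [inner_conjFun, nB, map_one]
  have nAB' : classInner (conjFun A) (conjFun B) = 0 := by rw [inner_conjFun, nAB, map_zero]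
  have gB' : IsGeneralizedCharacter G (conjFun B) := IsGeneralizedCharacter.conj gB
  -- pair with conj A
  have h1 : classInner (conjFun A) (B - A) = 1 := by
    rw [← e4, classInner_sub_right, nA', nAB', sub_zero]
  rw [classInner_sub_right] at h1
  -- impossible: conj A = -A
  have hnoA : conjFun A ≠ -A := by
    intro h
    have h2 : conj (A 1) = -A 1 := congrFun h 1
    obtain ⟨n, hn⟩ := IsGeneralizedCharacter.exists_int gA
    have hA1 : A 1 ≠ 0 := by
      rcases IsGeneralizedCharacter.irr_or_neg gA nA with h3 | h3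
      · exact IsIrrCharacter.one_ne_zero h3
      · have := IsIrrCharacter.one_ne_zero h3
        intro h4
        apply this
        rw [Pi.neg_apply, h4, neg_zero]
    rw [hn, map_intCast] at h2
    rw [hn] at hA1
    apply hA1
    linear_combination (1/2 : ℂ) * h2
  rcases Sibley.unit_inner gA' gB nA' nB with h2 | h2 | h2
  · rcases Sibley.unit_inner gA' gA nA' nA with h3 | h3 | h3
    · rw [h2, h3] at h1; norm_num at h1
    · rw [h2, h3, nA] at h1; norm_num at h1
    · exact absurd h3 hnoA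
  · exact h2.symm
  · rcases Sibley.unit_inner gA' gA nA' nA with h3 | h3 | h3
    · rw [h3, h2, classInner_neg_left, nB] at h1; norm_num at h1
    · rw [h3, nAB, nA] at h1; norm_num at h1
    · exact absurd h3 hnoA

end conjsec

section cover

variable {G : Type u} [Group G] [Fintype G]

theorem sum_ind {L : Subgroup G} [Fintype L] (φ : L → ℂ) : ∑ g : G, indFun L φ g = (L.index : ℂ) * ∑ x : L, φ x := by
  have h1 := frobenius L φ (χ := fun _ : G => (1 : ℂ)) (fun _ _ => rfl)
  simp only [classInner, map_one, mul_one] at h1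
  have hG : (Nat.card G : ℂ) ≠ 0 := card_ne_zero
  have hL : (Nat.card L : ℂ) ≠ 0 := card_ne_zero
  have hGL : (Nat.card G : ℂ) = Nat.card L * L.index := by
    rw [← Subgroup.card_mul_index L]; push_cast; ring
  have h2 : ∑ g : G, indFun L φ g = (Nat.card G : ℂ) * ((Nat.card L : ℂ)⁻¹ * ∑ x : L, φ x) := by
    rw [← h1, ← mul_assoc, mul_inv_cancel₀ hG, one_mul]
  rw [h2, hGL]
  field_simp

/-- sum of a class function over a group covered by conjugates of TI-subgroups of coprime orders -/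
theorem sum_cover {ι : Type v} [Fintype ι] (H L : ι → Subgroup G) [∀ i, Fintype (L i)] (hn : ∀ i, ∀ x ∈ L i, ∀ h ∈ H i, x * h * x⁻¹ ∈ H i) (hHL : ∀ i, H i ≤ L i)
    (hTI : ∀ i, ∀ g : G, g ∉ L i → ∀ k ∈ H i, g * k * g⁻¹ ∈ H i → k = 1) (hcop : ∀ i j, i ≠ j → Nat.Coprime (Nat.card (H i)) (Nat.card (H j)))
    (hcover : ∀ g : G, g ≠ 1 → ∃ i, ∃ x : G, x * g * x⁻¹ ∈ H i) {f : G → ℂ} (hf : IsClassFunction G f) (φ : ∀ i, L i → ℂ)
    (hφ1 : ∀ i, ∀ x : L i, (x : G) ∈ H i → x ≠ 1 → φ i x = f x) (hφ0 : ∀ i, ∀ x : L i, ¬ ((x : G) ∈ H i ∧ x ≠ 1) → φ i x = 0) :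
    ∑ g, f g = f 1 + ∑ i, ((L i).index : ℂ) * ∑ x : L i, φ i x := by
  classical
  have hφc : ∀ i, IsClassFunction (L i) (φ i) := by
    intro i x g
    have h1 : ((g * x * g⁻¹ : L i) : G) ∈ H i ↔ (x : G) ∈ H i := by
      constructor
      · intro h
        have := hn i (g⁻¹ : L i) (g⁻¹ : L i).2 _ h
        have e : ((g⁻¹ : L i) : G) * ((g * x * g⁻¹ : L i) : G) * ((g⁻¹ : L i) : G)⁻¹ = x := by
          push_cast; group
        rwa [e] at this
      · intro h
        have := hn i g g.2 _ h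
        exact this
    have h2 : (g * x * g⁻¹ ≠ 1) ↔ x ≠ 1 := by rw [Ne, Ne, conj_eq_one_iff]
    have h3 : f ((g * x * g⁻¹ : L i) : G) = f x := by
      push_cast
      exact hf x g
    by_cases hc : (x : G) ∈ H i ∧ x ≠ 1
    · rw [hφ1 i x hc.1 hc.2, hφ1 i _ (h1.mpr hc.1) (h2.mpr hc.2), h3]
    · rw [hφ0 i x hc, hφ0 i _ (fun h => hc ⟨h1.mp h.1, h2.mp h.2⟩)]
  have hφK : ∀ i, ∀ x : L i, (x : G) ∉ H i → φ i x = 0 := by
    intro i x hx
    exact hφ0 i x (fun h => hx h.1)
  have hval : ∀ i, ∀ g : G, ∀ y : G, y * g * y⁻¹ ∈ H i → g ≠ 1 → indFun (L i) (φ i) g = f g := by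
    intro i g y hy hg
    have h1 : indFun (L i) (φ i) (y * g * y⁻¹) = indFun (L i) (φ i) g := isClassFunction_indFun _ _ g y
    have h2 : y * g * y⁻¹ ≠ 1 := fun h => hg (conj_eq_one_iff.mp h)
    have h3 := CohTI.ti_apply (N := L i) (K := H i) (hTI i) (hφc i) (hφK i) (t := ⟨y * g * y⁻¹, hHL i hy⟩) hy (fun h => h2 (congrArg Subtype.val h))
    simp only at h3
    rw [h1] at h3
    rw [h3, hφ1 i _ hy (fun h => h2 (congrArg Subtype.val h))]
    exact hf g y
  have hzero : ∀ i, ∀ g : G, (∀ y : G, y * g * y⁻¹ ∉ H i) → indFun (L i) (φ i) g = 0 := by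
    intro i g hg
    apply indFun_eq_zero'
    intro x hx
    apply hφK
    have := hg x⁻¹
    rwa [inv_inv] at this
  have hpt : ∀ g : G, f g = (if g = 1 then f 1 else 0) + ∑ i, indFun (L i) (φ i) g := by
    intro g
    by_cases hg : g = 1
    · rw [if_pos hg, hg]
      have : ∑ i, indFun (L i) (φ i) 1 = 0 := by
        apply Finset.sum_eq_zero
        intro i _
        rw [indFun_one, hφ0 i 1 (fun h => h.2 rfl), mul_zero]
      rw [this, add_zero]
    · rw [if_neg hg, zero_add]
      obtain ⟨i, y, hy⟩ := hcover g hg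
      rw [Finset.sum_eq_single i]
      · exact (hval i g y hy hg).symm
      · intro j _ hji
        apply hzero
        intro z hz
        apply hg
        have h1 : orderOf g ∣ Nat.card (H i) := by
          have := orderOf_dvd_natCard (⟨_, hy⟩ : H i)
          rw [Subgroup.orderOf_mk] at this
          rwa [← MulAut.conj_apply, MulEquiv.orderOf_eq] at this
        have h2 : orderOf g ∣ Nat.card (H j) := by
          have := orderOf_dvd_natCard (⟨_, hz⟩ : H j)
          rw [Subgroup.orderOf_mk] at this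
          rwa [← MulAut.conj_apply, MulEquiv.orderOf_eq] at this
        have h3 := Nat.dvd_gcd h1 h2
        rw [hcop i j hji.symm] at h3
        exact orderOf_eq_one_iff.mp (Nat.dvd_one.mp h3)
      · intro h; exact absurd (Finset.mem_univ _) h
  rw [Finset.sum_congr rfl (fun g _ => hpt g), Finset.sum_add_distrib, Finset.sum_ite_eq' Finset.univ (1 : G) (fun _ => f 1), if_pos (Finset.mem_univ _),
    Finset.sum_comm]
  congr 1
  apply Finset.sum_congr rfl
  intro i _
  rw [sum_ind]

end cover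

end CfsgLib.CNOdd
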