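import Mathlib
import Cfsg.Agent.Lib.CNOdd2

/-!
# Exceptional characters attached to one TI Frobenius subgroup
-/

set_option autoImplicit false
set_option linter.style.haveILetI false
set_option linter.unusedSectionVars false

open scoped ComplexConjugate commutatorElement

namespace CfsgLib.CNOdd3

open Cfsg CfsgLib.CharBasic CfsgLib.CharInd CfsgLib.CharClifford CfsgLib.CharCoh CfsgLib.FrobQuot CfsgLib.FrobCoh CfsgLib.CNOdd

universe u v

section local_part

variable {N : Type u} [Group N] [Fintype N] {K : Subgroup N} [hKn : K.Normal]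

theorem ind_one_of_mem {x : N} (hx : x ∈ K) : indFun K (fun _ => 1) x = (K.index : ℂ) := by
  rw [indFun_apply]
  have h1 : ∀ y ∈ (Finset.univ : Finset N), extendByZero K (fun _ => (1 : ℂ)) (y⁻¹ * x * y) = 1 := by
    intro y _
    have h2 : y⁻¹ * x * y ∈ K := by
      have := hKn.conj_mem x hx y⁻¹
      rwa [inv_inv] at this
    rw [ext_of_mem h2]
  rw [Finset.sum_congr rfl h1, Finset.sum_const, Finset.card_univ, nsmul_eq_mul, mul_one, ← Nat.card_eq_fintype_card, ← Subgroup.card_mul_index K]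
  push_cast
  rw [← mul_assoc, inv_mul_cancel₀ (card_sub_ne_zero K), one_mul]

theorem ind_one_above {χ : N → ℂ} (hχ : χ ∈ inducedIrrAbove K (⊥ : Subgroup N)) : classInner (indFun K (fun _ => 1)) χ = 0 := by
  haveI : Fintype K := Fintype.ofFinite K
  obtain ⟨θ, h1, h2, -, rfl⟩ := hχ
  rw [frobenius' K θ (isClassFunction_indFun _ _)]
  have e : (fun h : K => indFun K (fun _ => (1 : ℂ)) (h : N)) = (K.index : ℂ) • (fun _ : K => (1 : ℂ)) := by
    funext h
    rw [ind_one_of_mem h.2, Pi.smul_apply, smul_eq_mul, mul_one]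
  rw [e, classInner_smul_left, IsIrrCharacter.inner_eq_zero isIrr_one' h1 h2.symm, mul_zero]

theorem ind_one_self : classInner (indFun K (fun _ => 1)) (indFun K (fun _ => 1)) = (K.index : ℂ) := by
  haveI : Fintype K := Fintype.ofFinite K
  rw [frobenius' K _ (isClassFunction_indFun _ _)]
  have e : (fun h : K => indFun K (fun _ => (1 : ℂ)) (h : N)) = (K.index : ℂ) • (fun _ : K => (1 : ℂ)) := by
    funext h
    rw [ind_one_of_mem h.2, Pi.smul_apply, smul_eq_mul, mul_one]
  rw [e, classInner_smul_left, IsIrrCharacter.inner_self isIrr_one', mul_one]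

theorem ind_one_one : classInner (indFun K (fun _ => 1)) (1 : N → ℂ) = 1 := by
  haveI : Fintype K := Fintype.ofFinite K
  rw [frobenius K _ (fun _ _ => rfl)]
  exact IsIrrCharacter.inner_self isIrr_one'

variable (hC : ∀ h ∈ K, h ≠ 1 → Subgroup.centralizer ({h} : Set N) ≤ K)

include hC

theorem above_one {χ : N → ℂ} (hχ : χ ∈ inducedIrrAbove K (⊥ : Subgroup N)) : classInner χ (1 : N → ℂ) = 0 := by
  apply IsIrrCharacter.inner_eq_zero (frob_isIrr hC hχ) isIrr_one
  rintro rfl
  rw [frob_set hC] at hχ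
  obtain ⟨-, h, -, hne⟩ := hχ
  exact hne rfl

variable {ζ : N → ℂ} (hζ : ζ ∈ inducedIrrAbove K (⊥ : Subgroup N)) (hζ1 : ζ 1 = (K.index : ℂ))

include hζ

theorem alpha_gen : IsGeneralizedCharacter N (indFun K (fun _ => 1) - ζ) := by
  apply IsGeneralizedCharacter.sub
  · exact IsCharacter.isGeneralized (isCharacter_indFun K (IsIrrCharacter.isCharacter isIrr_one'))
  · exact IsCharacter.isGeneralized (above_char hζ)

theorem alpha_off {x : N} (hx : x ∉ K) : (indFun K (fun _ => 1) - ζ) x = 0 := by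
  obtain ⟨θ, h1, h2, -, rfl⟩ := hζ
  rw [Pi.sub_apply, indFun_of_not_mem hx, indFun_of_not_mem hx, sub_zero]

include hζ1 in
theorem alpha_one_eq : (indFun K (fun _ => 1) - ζ) 1 = 0 := by
  rw [Pi.sub_apply, indFun_one, hζ1, mul_one, sub_self]

theorem alpha_inner_one : classInner (indFun K (fun _ => 1) - ζ) (1 : N → ℂ) = 1 := by
  rw [classInner_sub_left, ind_one_one, above_one hC hζ, sub_zero]

theorem alpha_inner_self_zeta : classInner (indFun K (fun _ => 1) - ζ) ζ = -1 := by
  rw [classInner_sub_left, ind_one_above hζ, IsIrrCharacter.inner_self (frob_isIrr hC hζ), zero_sub]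

theorem alpha_inner_ne {χ : N → ℂ} (hχ : χ ∈ inducedIrrAbove K (⊥ : Subgroup N)) (hne : χ ≠ ζ) : classInner (indFun K (fun _ => 1) - ζ) χ = 0 := by
  rw [classInner_sub_left, ind_one_above hχ, IsIrrCharacter.inner_eq_zero (frob_isIrr hC hζ) (frob_isIrr hC hχ) hne.symm, sub_zero]

theorem alpha_norm : classInner (indFun K (fun _ => 1) - ζ) (indFun K (fun _ => 1) - ζ) = (K.index : ℂ) + 1 := by
  rw [classInner_sub_right, alpha_inner_self_zeta hC hζ, classInner_sub_left, ind_one_self, symm_zero (ind_one_above hζ)]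
  ring

include hζ1 in
/-- constancy on the kernel -/
theorem const_on {f : N → ℂ} (hf : IsClassFunction N f) {c : ℂ} (h : ∀ χ ∈ inducedIrrAbove K (⊥ : Subgroup N), classInner f χ = c * χ 1) {x : N} (hx : x ∈ K) (hx1 : x ≠ 1) :
    f x = classInner f (indFun K (fun _ => 1) - ζ) := by
  classical
  have key : ∀ y ∈ K, y ≠ 1 → f y = f x := by
    intro y hy hy1
    have h1 := eq_sum_inner hf
    have h2 := congrFun h1 x
    have h3 := congrFun h1 y
    rw [Finset.sum_apply] at h2 h3
    simp only [Pi.smul_apply, smul_eq_mul] at h2 h3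
    have h4 : ∀ φ ∈ (Finset.univ : Finset (IrrCharacter N)), classInner f φ * (φ : N → ℂ) y =
        classInner f φ * (φ : N → ℂ) x + (c * ((φ : N → ℂ) 1 * (φ : N → ℂ) y) - c * ((φ : N → ℂ) 1 * (φ : N → ℂ) x)) := by
      intro φ _
      by_cases hφ : (φ : N → ℂ) ∈ inducedIrrAbove K (⊥ : Subgroup N)
      · rw [h _ hφ]; ring
      · have h5 : ∀ z ∈ K, (φ : N → ℂ) z = (φ : N → ℂ) 1 := by
          intro z hz
          by_contra hne
          apply hφ
          rw [frob_set hC]
          exact ⟨φ.2, z, hz, hne⟩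
        rw [h5 x hx, h5 y hy]; ring
    rw [h2, h3, Finset.sum_congr rfl h4, Finset.sum_add_distrib, Finset.sum_sub_distrib, ← Finset.mul_sum, ← Finset.mul_sum, sum_irr_one_mul, sum_irr_one_mul,
      if_neg hx1, if_neg hy1]
    ring
  have h1 : classInner f (indFun K (fun _ => 1) - ζ) = classInner (f x • (1 : N → ℂ)) (indFun K (fun _ => 1) - ζ) := by
    simp only [classInner]
    congr 1
    apply Finset.sum_congr rfl
    intro y _
    by_cases hy : y ∈ K
    · by_cases hy1 : y = 1
      · rw [hy1, alpha_one_eq hC hζ hζ1, map_zero, mul_zero, mul_zero]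
      · rw [key y hy hy1, Pi.smul_apply, Pi.one_apply, smul_eq_mul, mul_one]
    · rw [alpha_off hC hζ hy, map_zero, mul_zero, mul_zero]
  rw [h1, classInner_smul_left, ← classInner_conj_symm, alpha_inner_one hC hζ, map_one, mul_one]

/-- sum of the values of `ζ` over the kernel -/
theorem sum_zeta [DecidablePred (· ∈ K)] : ∑ x ∈ Finset.univ.filter (fun x : N => x ∈ K), ζ x = 0 := by
  have h1 := ind_one_above hζ
  have h2 : classInner (indFun K (fun _ => 1)) ζ = (Nat.card N : ℂ)⁻¹ * ((K.index : ℂ) * conj (∑ x ∈ Finset.univ.filter (fun x : N => x ∈ K), ζ x)) := by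
    have e : ∑ x : N, indFun K (fun _ => 1) x * conj (ζ x) = (K.index : ℂ) * conj (∑ x ∈ Finset.univ.filter (fun x : N => x ∈ K), ζ x) := by
      rw [map_sum, Finset.sum_filter, Finset.mul_sum]
      apply Finset.sum_congr rfl
      intro x _
      split_ifs with hx
      · rw [ind_one_of_mem hx]
      · rw [indFun_of_not_mem hx, zero_mul, mul_zero]
    simp only [classInner]
    rw [e]
  rw [h2] at h1
  have h3 : (Nat.card N : ℂ)⁻¹ ≠ 0 := inv_ne_zero card_ne_zero
  have h4 : (K.index : ℂ) ≠ 0 := by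
    have : K.index ≠ 0 := Subgroup.index_ne_zero_of_finite
    exact_mod_cast this
  have h5 := (mul_eq_zero.mp ((mul_eq_zero.mp h1).resolve_left h3)).resolve_left h4
  have h6 := congrArg conj h5
  rwa [Complex.conj_conj, map_zero] at h6

include hζ1 in
/-- the sum over the nonidentity elements of the kernel of `|ζ + a|²` -/
theorem sum_norm [DecidablePred (fun x : N => x ∈ K ∧ x ≠ 1)] (a : ℤ) : ∑ x ∈ Finset.univ.filter (fun x : N => x ∈ K ∧ x ≠ 1), (ζ x + a) * conj (ζ x + a) =
    (Nat.card N : ℂ) - (K.index : ℂ) ^ 2 - 2 * a * K.index + (a : ℂ) ^ 2 * ((Nat.card K : ℂ) - 1) := by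
  classical
  have h0 := IsIrrCharacter.inner_self (frob_isIrr hC hζ)
  have h1 : ∑ x ∈ Finset.univ.filter (fun x : N => x ∈ K), ζ x * conj (ζ x) = (Nat.card N : ℂ) := by
    simp only [classInner] at h0
    have h3 : (Nat.card N : ℂ) ≠ 0 := card_ne_zero
    have h4 : ∑ x, ζ x * conj (ζ x) = (Nat.card N : ℂ) := by
      field_simp at h0
      rw [h0]
    rw [Finset.sum_filter, ← h4]
    apply Finset.sum_congr rfl
    intro x _
    split_ifs with hx
    · rfl
    · obtain ⟨θ, -, -, -, rfl⟩ := hζ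
      rw [indFun_of_not_mem hx, zero_mul]
  have h2 := sum_zeta hC hζ
  have h3 : ∑ x ∈ Finset.univ.filter (fun x : N => x ∈ K), (1 : ℂ) = (Nat.card K : ℂ) := by
    rw [Finset.sum_const, nsmul_eq_mul, mul_one, Nat.card_eq_fintype_card, Fintype.card_subtype]
  have hsplit : ∀ g : N → ℂ, ∑ x ∈ Finset.univ.filter (fun x : N => x ∈ K), g x = g 1 + ∑ x ∈ Finset.univ.filter (fun x : N => x ∈ K ∧ x ≠ 1), g x := by
    intro g
    have h4 : (Finset.univ.filter (fun x : N => x ∈ K ∧ x ≠ 1)) = (Finset.univ.filter (fun x : N => x ∈ K)).erase 1 := by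
      ext x
      simp only [Finset.mem_filter, Finset.mem_univ, true_and, Finset.mem_erase]
      tauto
    rw [h4, Finset.add_sum_erase]
    simp [K.one_mem]
  have h4 := hsplit (fun x => (ζ x + a) * conj (ζ x + a))
  have h5 : ∑ x ∈ Finset.univ.filter (fun x : N => x ∈ K), (ζ x + a) * conj (ζ x + a) = (Nat.card N : ℂ) + (a : ℂ) ^ 2 * (Nat.card K : ℂ) := by
    have e : ∀ x ∈ Finset.univ.filter (fun x : N => x ∈ K), (ζ x + a) * conj (ζ x + a) = ζ x * conj (ζ x) + a * ζ x + a * conj (ζ x) + (a : ℂ) ^ 2 * 1 := by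
      intro x _
      rw [map_add, map_intCast]; ring
    rw [Finset.sum_congr rfl e, Finset.sum_add_distrib, Finset.sum_add_distrib, Finset.sum_add_distrib, ← Finset.mul_sum, ← Finset.mul_sum, ← Finset.mul_sum, ← map_sum, h1, h2, h3, map_zero]
    ring
  rw [h5] at h4
  rw [hζ1, map_add, map_natCast, map_intCast] at h4
  linear_combination -h4

end local_part

end CfsgLib.CNOdd3
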