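import Mathlib
import Cfsg.Agent.Lib.CNOdd3

/-!
# The virtual character `β` attached to a TI Frobenius subgroup
-/

set_option autoImplicit false
set_option linter.style.haveILetI false
set_option linter.unusedSectionVars false

open scoped ComplexConjugate commutatorElement

namespace CfsgLib.CNOdd4

open Cfsg CfsgLib.CharBasic CfsgLib.CharInd CfsgLib.CharClifford CfsgLib.CharCoh CfsgLib.FrobQuot CfsgLib.FrobCoh CfsgLib.CNOdd CfsgLib.CNOdd3

universe u v

variable {G : Type u} [Group G] [Fintype G] {L H : Subgroup G} [Fintype L] [hn : (H.subgroupOf L).Normal]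

/-- the virtual character `β` -/
noncomputable def beta (H : Subgroup G) {L : Subgroup G} [Fintype L] (ζ : L → ℂ) : G → ℂ := indFun L (indFun (H.subgroupOf L) (fun _ => 1) - ζ)

variable (hTI : ∀ g : G, g ∉ L → ∀ k ∈ H, g * k * g⁻¹ ∈ H → k = 1)
  (hC : ∀ h ∈ H.subgroupOf L, h ≠ 1 → Subgroup.centralizer ({h} : Set L) ≤ H.subgroupOf L)
  {ζ : L → ℂ} (hζ : ζ ∈ inducedIrrAbove (H.subgroupOf L) (⊥ : Subgroup L)) (hζ1 : ζ 1 = ((H.subgroupOf L).index : ℂ))

include hC hζ

theorem beta_gen : IsGeneralizedCharacter G (beta H ζ) := isGeneralized_indFun L (alpha_gen hC hζ)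

theorem beta_inner_one : classInner (beta H ζ) (1 : G → ℂ) = 1 := by
  rw [beta, frobenius L _ (fun _ _ => rfl)]
  exact alpha_inner_one hC hζ

theorem alpha_vanish (x : L) (hx : (x : G) ∉ H) : (indFun (H.subgroupOf L) (fun _ => 1) - ζ) x = 0 :=
  alpha_off hC hζ (fun h => hx (Subgroup.mem_subgroupOf.mp h))

theorem alpha_class : IsClassFunction L (indFun (H.subgroupOf L) (fun _ => 1) - ζ) := IsGeneralizedCharacter.isClassFunction (alpha_gen hC hζ)

include hTI hζ1

theorem beta_norm : classInner (beta H ζ) (beta H ζ) = ((H.subgroupOf L).index : ℂ) + 1 := by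
  rw [beta, CohTI.ti_inner hTI (alpha_class hC hζ) (alpha_vanish hC hζ) (alpha_vanish hC hζ) (alpha_one_eq hC hζ hζ1)]
  exact alpha_norm hC hζ

theorem beta_ind {θ : L → ℂ} (hθ : ∀ x : L, (x : G) ∉ H → θ x = 0) : classInner (beta H ζ) (indFun L θ) = classInner (indFun (H.subgroupOf L) (fun _ => 1) - ζ) θ := by
  rw [beta, CohTI.ti_inner hTI (alpha_class hC hζ) (alpha_vanish hC hζ) hθ (alpha_one_eq hC hζ hζ1)]

omit hTI in
theorem inner_beta {ψ : G → ℂ} (hψ : IsClassFunction G ψ) : classInner ψ (beta H ζ) = classInner (fun x : L => ψ x) (indFun (H.subgroupOf L) (fun _ => 1) - ζ) := by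
  rw [beta, frobenius' L _ hψ]

variable {m : (L → ℂ) → ℕ} (hm : ∀ χ ∈ inducedIrrAbove (H.subgroupOf L) (⊥ : Subgroup L), χ 1 = ((H.subgroupOf L).index : ℂ) * m χ)

include hm

omit hC hTI in
theorem sub_mem {χ : L → ℂ} (hχ : χ ∈ inducedIrrAbove (H.subgroupOf L) (⊥ : Subgroup L)) :
    χ - (m χ : ℂ) • ζ ∈ zspanOn (inducedIrrAbove (H.subgroupOf L) (⊥ : Subgroup L)) {1}ᶜ := by
  rw [mem_zspanOn_one]
  constructor
  · have i1 : (m χ : ℂ) • ζ = ((m χ : ℕ) : ℤ) • ζ := by rw [zsmul_eq]; simp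
    rw [i1]
    exact zspan_sub (mem_zspan_of_mem hχ) (zspan_zsmul _ (mem_zspan_of_mem hζ))
  · rw [Pi.sub_apply, Pi.smul_apply, hζ1, hm χ hχ, smul_eq_mul]; ring

omit hTI in
/-- class functions orthogonal to the differences are constant on the kernel -/
theorem const_of_orth {ψ : G → ℂ} (hψ : IsClassFunction G ψ)
    (h : ∀ χ ∈ inducedIrrAbove (H.subgroupOf L) (⊥ : Subgroup L), classInner ψ (indFun L (χ - (m χ : ℂ) • ζ)) = 0) {x : L} (hx : (x : G) ∈ H) (hx1 : x ≠ 1) :
    ψ x = classInner ψ (beta H ζ) := by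
  rw [inner_beta hC hζ hζ1 hψ]
  have hI : ((H.subgroupOf L).index : ℂ) ≠ 0 := by
    have : (H.subgroupOf L).index ≠ 0 := Subgroup.index_ne_zero_of_finite
    exact_mod_cast this
  have hcl : IsClassFunction L (fun x : L => ψ x) := fun a b => hψ a b
  refine const_on hC hζ hζ1 (f := fun x : L => ψ x) hcl (c := classInner (fun x : L => ψ x) ζ / ((H.subgroupOf L).index : ℂ)) ?_ (Subgroup.mem_subgroupOf.mpr hx) hx1
  intro χ hχ
  have h1 := h χ hχ
  rw [frobenius' L _ hψ, classInner_sub_right, classInner_smul_right, map_natCast] at h1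
  rw [hm χ hχ, div_mul_eq_mul_div, eq_div_iff hI]
  linear_combination ((H.subgroupOf L).index : ℂ) * h1

section sigma

variable {σ : (L → ℂ) → (G → ℂ)} (hσ : IsLinearIsometryOn (zspan (inducedIrrAbove (H.subgroupOf L) (⊥ : Subgroup L))) σ)
  (hσα : ∀ θ ∈ zspanOn (inducedIrrAbove (H.subgroupOf L) (⊥ : Subgroup L)) {1}ᶜ, σ θ = indFun L θ)

include hσ hσα

omit hTI hC in
theorem ind_sub {χ : L → ℂ} (hχ : χ ∈ inducedIrrAbove (H.subgroupOf L) (⊥ : Subgroup L)) : indFun L (χ - (m χ : ℂ) • ζ) = σ χ - (m χ : ℂ) • σ ζ := by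
  rw [← hσα _ (sub_mem hζ hζ1 hm hχ)]
  have i1 : (m χ : ℂ) • ζ = (((m χ : ℕ) : ℤ) : ℂ) • ζ := by simp
  rw [i1, iso_sub (isZClosed_zspan _) hσ (mem_zspan_of_mem hχ) (by rw [← zsmul_eq]; exact zspan_zsmul _ (mem_zspan_of_mem hζ)), iso_smul hσ (mem_zspan_of_mem hζ)]
  simp

omit [hn : (H.subgroupOf L).Normal] hC hζ hTI hζ1 hm hσα in
theorem sigma_gen {χ : L → ℂ} (hχ : χ ∈ inducedIrrAbove (H.subgroupOf L) (⊥ : Subgroup L)) : IsGeneralizedCharacter G (σ χ) := hσ.2.2.2 _ (mem_zspan_of_mem hχ)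

omit hζ hTI hζ1 hm hσα in
theorem sigma_inner {χ χ' : L → ℂ} (hχ : χ ∈ inducedIrrAbove (H.subgroupOf L) (⊥ : Subgroup L)) (hχ' : χ' ∈ inducedIrrAbove (H.subgroupOf L) (⊥ : Subgroup L))
    (hne : χ ≠ χ') : classInner (σ χ) (σ χ') = 0 := by
  rw [hσ.2.2.1 _ (mem_zspan_of_mem hχ) _ (mem_zspan_of_mem hχ'), IsIrrCharacter.inner_eq_zero (frob_isIrr hC hχ) (frob_isIrr hC hχ') hne]

omit hζ hTI hζ1 hm hσα in
theorem sigma_self {χ : L → ℂ} (hχ : χ ∈ inducedIrrAbove (H.subgroupOf L) (⊥ : Subgroup L)) : classInner (σ χ) (σ χ) = 1 := by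
  rw [hσ.2.2.1 _ (mem_zspan_of_mem hχ) _ (mem_zspan_of_mem hχ), IsIrrCharacter.inner_self (frob_isIrr hC hχ)]

/-- inner products with a class function orthogonal to the differences -/
theorem inner_sigma_of_orth {ψ : G → ℂ} (h : ∀ χ ∈ inducedIrrAbove (H.subgroupOf L) (⊥ : Subgroup L), classInner ψ (indFun L (χ - (m χ : ℂ) • ζ)) = 0)
    {χ : L → ℂ} (hχ : χ ∈ inducedIrrAbove (H.subgroupOf L) (⊥ : Subgroup L)) : classInner ψ (σ χ) = m χ * classInner ψ (σ ζ) := by
  have h1 := h χ hχ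
  rw [ind_sub hζ hζ1 hm hσ hσα hχ, classInner_sub_right, classInner_smul_right, map_natCast] at h1
  linear_combination h1

theorem beta_sigma {a : ℤ} (ha : classInner (beta H ζ) (σ ζ) = (a : ℂ) - 1) {χ : L → ℂ} (hχ : χ ∈ inducedIrrAbove (H.subgroupOf L) (⊥ : Subgroup L)) (hne : χ ≠ ζ) :
    classInner (beta H ζ) (σ χ) = a * m χ := by
  have h1 : classInner (beta H ζ) (indFun L (χ - (m χ : ℂ) • ζ)) = m χ := by
    rw [beta_ind hTI hC hζ hζ1 (CohTI.span_vanish (sub_mem hζ hζ1 hm hχ).1), classInner_sub_right, classInner_smul_right, map_natCast,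
      alpha_inner_self_zeta hC hζ, alpha_inner_ne hC hζ hχ hne]
    ring
  rw [ind_sub hζ hζ1 hm hσ hσα hχ, classInner_sub_right, classInner_smul_right, map_natCast, ha] at h1
  linear_combination h1

/-- values of `σ ζ` on the kernel -/
theorem sigma_zeta_apply {a : ℤ} (ha : classInner (beta H ζ) (σ ζ) = (a : ℂ) - 1) {x : L} (hx : (x : G) ∈ H) (hx1 : x ≠ 1) : σ ζ (x : G) = ζ x + a := by
  have hI : ((H.subgroupOf L).index : ℂ) ≠ 0 := by
    have : (H.subgroupOf L).index ≠ 0 := Subgroup.index_ne_zero_of_finite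
    exact_mod_cast this
  have hcl : IsClassFunction G (σ ζ) := IsGeneralizedCharacter.isClassFunction (sigma_gen hσ hζ)
  obtain ⟨f, hf⟩ : ∃ f : L → ℂ, f = (fun x : L => σ ζ (x : G)) - ζ := ⟨_, rfl⟩
  have hcl' : IsClassFunction L (fun x : L => σ ζ (x : G)) := fun a b => hcl a b
  have hfc : IsClassFunction L f := by
    rw [hf]
    intro a b
    have e1 : σ ζ ((b * a * b⁻¹ : L) : G) = σ ζ (a : G) := hcl' a b
    rw [Pi.sub_apply, Pi.sub_apply]
    show σ ζ ((b * a * b⁻¹ : L) : G) - ζ (b * a * b⁻¹) = σ ζ (a : G) - ζ a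
    rw [e1, IsCharacter.isClassFunction (above_char hζ) a b]
  have hfrob : ∀ θ : L → ℂ, classInner (fun x : L => σ ζ (x : G)) θ = classInner (σ ζ) (indFun L θ) := fun θ => (frobenius' L θ hcl).symm
  have h1 : f x = classInner f (indFun (H.subgroupOf L) (fun _ => 1) - ζ) := by
    refine const_on hC hζ hζ1 (f := f) hfc (c := classInner f ζ / ((H.subgroupOf L).index : ℂ)) ?_ (Subgroup.mem_subgroupOf.mpr hx) hx1
    intro χ hχ
    have h2 : classInner f (χ - (m χ : ℂ) • ζ) = 0 := by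
      rw [hf, classInner_sub_left, hfrob, ind_sub hζ hζ1 hm hσ hσα hχ]
      by_cases hne : χ = ζ
      · have hmζ : (m ζ : ℂ) = 1 := by
          have := hm ζ hζ
          rw [hζ1] at this
          have h3 : ((H.subgroupOf L).index : ℂ) * ((m ζ : ℂ) - 1) = 0 := by linear_combination -this
          exact sub_eq_zero.mp ((mul_eq_zero.mp h3).resolve_left hI)
        rw [hne, hmζ, one_smul, sub_self, one_smul, sub_self, classInner_zero_right, classInner_zero_right, sub_zero]
      · rw [classInner_sub_right, classInner_sub_right, classInner_smul_right, classInner_smul_right, sigma_inner hC hσ hζ hχ (fun h => hne h.symm), sigma_self hC hσ hζ,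
          IsIrrCharacter.inner_eq_zero (frob_isIrr hC hζ) (frob_isIrr hC hχ) (fun h => hne h.symm), IsIrrCharacter.inner_self (frob_isIrr hC hζ)]
        ring
    rw [classInner_sub_right, classInner_smul_right, map_natCast] at h2
    rw [hm χ hχ, div_mul_eq_mul_div, eq_div_iff hI]
    linear_combination ((H.subgroupOf L).index : ℂ) * h2
  have h3 : classInner f (indFun (H.subgroupOf L) (fun _ => 1) - ζ) = a := by
    rw [hf, classInner_sub_left, hfrob]
    have h4 : classInner (σ ζ) (indFun L (indFun (H.subgroupOf L) (fun _ => 1) - ζ)) = (a : ℂ) - 1 := by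
      have := gen_inner_comm (sigma_gen hσ hζ) (beta_gen hC hζ)
      rw [ha] at this
      exact this
    have h5 : classInner ζ (indFun (H.subgroupOf L) (fun _ => 1) - ζ) = -1 := by
      rw [gen_inner_comm (IsCharacter.isGeneralized (above_char hζ)) (alpha_gen hC hζ)]
      exact alpha_inner_self_zeta hC hζ
    rw [h4, h5]; ring
  rw [h3, hf, Pi.sub_apply] at h1
  linear_combination h1

/-- `β + σ ζ` is real -/
theorem real_beta (hne : conjFun ζ ≠ ζ) : conjFun (beta H ζ + σ ζ) = beta H ζ + σ ζ := by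
  have hind : ∀ θ : L → ℂ, indFun L (conjFun θ) = conjFun (indFun L θ) := by
    intro θ
    funext g
    exact indFun_conj L θ g
  have hind2 : conjFun (indFun (H.subgroupOf L) (fun _ => 1)) = indFun (H.subgroupOf L) (fun _ => 1) := by
    funext g
    show conj (indFun (H.subgroupOf L) (fun _ => 1) g) = _
    rw [← indFun_conj]
    simp only [map_one]
  have h1 := coh_conj (fun χ hχ => frob_isIrr hC hχ) hσ hσα hind hζ (above_conj hζ) hne
  have h2 : conjFun (beta H ζ + σ ζ) = conjFun (beta H ζ) + conjFun (σ ζ) := by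
    funext x; simp [conjFun]
  have h3 : conjFun (indFun (H.subgroupOf L) (fun _ => 1) - ζ) = indFun (H.subgroupOf L) (fun _ => 1) - conjFun ζ := by
    conv_rhs => rw [← hind2]
    funext x
    simp [conjFun]
  have hmζ : (m ζ : ℂ) = 1 := by
    have hI : ((H.subgroupOf L).index : ℂ) ≠ 0 := by
      have : (H.subgroupOf L).index ≠ 0 := Subgroup.index_ne_zero_of_finite
      exact_mod_cast this
    have := hm ζ hζ
    rw [hζ1] at this
    have h3 : ((H.subgroupOf L).index : ℂ) * ((m ζ : ℂ) - 1) = 0 := by linear_combination -this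
    exact sub_eq_zero.mp ((mul_eq_zero.mp h3).resolve_left hI)
  have hmζ' : (m (conjFun ζ) : ℂ) = 1 := by
    have hI : ((H.subgroupOf L).index : ℂ) ≠ 0 := by
      have : (H.subgroupOf L).index ≠ 0 := Subgroup.index_ne_zero_of_finite
      exact_mod_cast this
    have := hm _ (above_conj hζ)
    rw [conjFun_one (above_char hζ), hζ1] at this
    have h3 : ((H.subgroupOf L).index : ℂ) * ((m (conjFun ζ) : ℂ) - 1) = 0 := by linear_combination -this
    exact sub_eq_zero.mp ((mul_eq_zero.mp h3).resolve_left hI)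
  have h4 := ind_sub hζ hζ1 hm hσ hσα (above_conj hζ)
  rw [hmζ', one_smul, one_smul, h1, indFun_sub] at h4
  rw [h2, beta, ← hind, h3, indFun_sub, indFun_sub]
  have h5 : conjFun (σ ζ) = indFun L (conjFun ζ) - indFun L ζ + σ ζ := by rw [h4]; abel
  rw [h5]
  abel

/-- `σ ζ` is orthogonal to the principal character -/
theorem sigma_zeta_one (hne : conjFun ζ ≠ ζ) : classInner (σ ζ) (1 : G → ℂ) = 0 := by
  have h1 : ∀ χ ∈ inducedIrrAbove (H.subgroupOf L) (⊥ : Subgroup L), classInner (1 : G → ℂ) (indFun L (χ - (m χ : ℂ) • ζ)) = 0 := by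
    intro χ hχ
    rw [frobenius' L _ (fun _ _ => rfl)]
    show classInner (1 : L → ℂ) _ = 0
    rw [classInner_sub_right, classInner_smul_right, symm_zero (above_one hC hχ), symm_zero (above_one hC hζ), mul_zero, sub_zero]
  have h2 := inner_sigma_of_orth hTI hC hζ hζ1 hm hσ hσα h1 (above_conj hζ)
  have g1 : IsGeneralizedCharacter G (1 : G → ℂ) := isGeneralized_one
  have n1 : classInner (1 : G → ℂ) 1 = 1 := IsIrrCharacter.inner_self isIrr_one
  have hmζ' : (m (conjFun ζ) : ℂ) = 1 := by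
    have hI : ((H.subgroupOf L).index : ℂ) ≠ 0 := by
      have : (H.subgroupOf L).index ≠ 0 := Subgroup.index_ne_zero_of_finite
      exact_mod_cast this
    have := hm _ (above_conj hζ)
    rw [conjFun_one (above_char hζ), hζ1] at this
    have h3 : ((H.subgroupOf L).index : ℂ) * ((m (conjFun ζ) : ℂ) - 1) = 0 := by linear_combination -this
    exact sub_eq_zero.mp ((mul_eq_zero.mp h3).resolve_left hI)
  rw [hmζ', one_mul] at h2
  have h3 := sigma_inner hC hσ hζ (above_conj hζ) (fun h => hne h.symm)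
  rcases Sibley.unit_inner g1 (sigma_gen hσ hζ) n1 (sigma_self hC hσ hζ) with h4 | h4 | h4
  · exact symm_zero h4
  · exfalso
    rw [← h4, n1, h4, h3] at h2
    exact zero_ne_one h2
  · exfalso
    rw [h4, classInner_neg_left, classInner_neg_left, h3, sigma_self hC hσ hζ] at h2
    norm_num at h2

end sigma

end CfsgLib.CNOdd4
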