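import Mathlib
import Cfsg.Agent.Lib.CNOdd4

/-!
# Several TI Frobenius subgroups
-/

set_option autoImplicit false
set_option linter.style.haveILetI false
set_option linter.unusedSectionVars false

open scoped ComplexConjugate commutatorElement

namespace CfsgLib.CNOdd5

open Cfsg CfsgLib.CharBasic CfsgLib.CharInd CfsgLib.CharClifford CfsgLib.CharCoh CfsgLib.FrobQuot CfsgLib.FrobCoh CfsgLib.CNOdd CfsgLib.CNOdd3 CfsgLib.CNOdd4

universe u v

variable {G : Type u} [Group G] [Fintype G]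

/-- the data attached to one TI Frobenius subgroup -/
structure FData (L H : Subgroup G) [Fintype L] where
  normal : (H.subgroupOf L).Normal
  TI : ∀ g : G, g ∉ L → ∀ k ∈ H, g * k * g⁻¹ ∈ H → k = 1
  hC : ∀ h ∈ H.subgroupOf L, h ≠ 1 → Subgroup.centralizer ({h} : Set L) ≤ H.subgroupOf L
  hHL : H ≤ L
  σ : (L → ℂ) → (G → ℂ)
  ζ : L → ℂ
  m : (L → ℂ) → ℕ
  a : ℤ
  F : Finset (L → ℂ)
  t : ℕ
  hF : ∀ φ, φ ∈ F ↔ φ ∈ inducedIrrAbove (H.subgroupOf L) (⊥ : Subgroup L)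
  hσ : IsLinearIsometryOn (zspan (inducedIrrAbove (H.subgroupOf L) (⊥ : Subgroup L))) σ
  hσα : ∀ θ ∈ zspanOn (inducedIrrAbove (H.subgroupOf L) (⊥ : Subgroup L)) {1}ᶜ, σ θ = indFun L θ
  hζ : ζ ∈ inducedIrrAbove (H.subgroupOf L) (⊥ : Subgroup L)
  hζ1 : ζ 1 = ((H.subgroupOf L).index : ℂ)
  hm : ∀ χ ∈ inducedIrrAbove (H.subgroupOf L) (⊥ : Subgroup L), χ 1 = ((H.subgroupOf L).index : ℂ) * m χ
  hreal : ∀ χ ∈ inducedIrrAbove (H.subgroupOf L) (⊥ : Subgroup L), conjFun χ ≠ χ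
  ha : classInner (beta H ζ) (σ ζ) = (a : ℂ) - 1
  hsum : ∑ χ ∈ F, m χ ^ 2 = t
  ht : (H.subgroupOf L).index * t + 1 = Nat.card H
  he2 : 2 ≤ (H.subgroupOf L).index
  ht2 : 2 ≤ t

theorem exists_fdata (H L : Subgroup G) [Fintype L] (hodd : Odd (Nat.card G)) (hlt : H < L) (hH1 : H ≠ ⊥) (hHn : ∀ x ∈ L, ∀ h ∈ H, x * h * x⁻¹ ∈ H)
    (hfrob : ∀ h ∈ H, h ≠ 1 → L ⊓ Subgroup.centralizer ({h} : Set G) ≤ H) (hTI : IsTISubset (H : Set G)) (hN : Subgroup.normalizer (H : Set G) = L) :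
    Nonempty (FData L H) := by
  classical
  have hHL : H ≤ L := hlt.le
  have hoddL : Odd (Nat.card L) := hodd.of_dvd_nat (Subgroup.card_subgroup_dvd_card L)
  haveI hnorm : (H.subgroupOf L).Normal := by
    refine ⟨fun h hh x => ?_⟩
    rw [Subgroup.mem_subgroupOf] at hh ⊢
    exact hHn x x.2 _ hh
  have hC : ∀ k ∈ H, k ≠ 1 → Subgroup.centralizer ({k} : Set G) ≤ H := by
    intro k hk hk1 x hx
    have h1 := Subgroup.mem_centralizer_iff.mp hx k rfl
    have hxL : x ∈ L := by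
      rw [← hN]
      by_contra h
      apply hk1
      apply hTI x h k hk
      rw [← h1, mul_inv_cancel_right]
      exact hk
    exact hfrob k hk hk1 (Subgroup.mem_inf.mpr ⟨hxL, hx⟩)
  have hCK : ∀ h ∈ H.subgroupOf L, h ≠ 1 → Subgroup.centralizer ({h} : Set L) ≤ H.subgroupOf L := CohTI.hC_sub hC
  have hTI' : ∀ g : G, g ∉ L → ∀ k ∈ H, g * k * g⁻¹ ∈ H → k = 1 := by
    intro g hg k hk hgk
    rw [← hN] at hg
    exact hTI g hg k hk hgk
  obtain ⟨-, σ, hσ, hσα⟩ := CNOdd2.coherent_odd H L hoddL hlt hH1 hHn hfrob hTI hN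
  have hKtop : H.subgroupOf L ≠ ⊤ := by
    intro h
    rw [Subgroup.subgroupOf_eq_top] at h
    exact hlt.not_ge h
  have hKbot : H.subgroupOf L ≠ ⊥ := by
    intro h
    apply hH1
    rw [Subgroup.eq_bot_iff_forall]
    intro w hw
    have h1 : (⟨w, hHL hw⟩ : L) ∈ H.subgroupOf L := by rw [Subgroup.mem_subgroupOf]; exact hw
    rw [h, Subgroup.mem_bot] at h1
    exact congrArg (Subtype.val : L → G) h1
  have hnilK : Group.IsNilpotent (H.subgroupOf L) := FrobNil.frob_nilpotent hKtop hCK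
  have hsolv : Group.IsSolvable (H.subgroupOf L) := by haveI := hnilK; infer_instance
  have hcardK : Nat.card (H.subgroupOf L) = Nat.card H := Nat.card_congr (Subgroup.subgroupOfEquivOfLe hHL).toEquiv
  -- the character ζ
  obtain ⟨lam, l1, l2, l3, l4⟩ := exists_linear_above (K := H.subgroupOf L) (A := (⊥ : Subgroup L)) hsolv (fun h => hKbot (le_bot_iff.mp h))
  have hζ : indFun (H.subgroupOf L) lam ∈ inducedIrrAbove (H.subgroupOf L) (⊥ : Subgroup L) := ⟨lam, l1, l2, l3, rfl⟩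
  have hζ1 : indFun (H.subgroupOf L) lam 1 = ((H.subgroupOf L).index : ℂ) := by rw [indFun_one, l4, mul_one]
  have hfin : (inducedIrrAbove (H.subgroupOf L) (⊥ : Subgroup L)).Finite := above_finite _ ⊥
  obtain ⟨F, hF⟩ := hfin.exists_finset_coe
  have hFm : ∀ φ, φ ∈ F ↔ φ ∈ inducedIrrAbove (H.subgroupOf L) (⊥ : Subgroup L) := fun φ => by rw [← hF, Finset.mem_coe]
  have hex : ∀ χ : L → ℂ, ∃ m : ℕ, χ ∈ inducedIrrAbove (H.subgroupOf L) (⊥ : Subgroup L) → χ 1 = ((H.subgroupOf L).index : ℂ) * m := by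
    intro χ
    by_cases h : χ ∈ inducedIrrAbove (H.subgroupOf L) (⊥ : Subgroup L)
    · obtain ⟨θ, h1, -, -, rfl⟩ := h
      obtain ⟨m, -, hm⟩ := IsIrrCharacter.exists_pos h1
      exact ⟨m, fun _ => by rw [indFun_one, hm]⟩
    · exact ⟨0, fun h' => absurd h' h⟩
  choose m hm using hex
  have hreal : ∀ χ ∈ inducedIrrAbove (H.subgroupOf L) (⊥ : Subgroup L), conjFun χ ≠ χ := by
    intro χ hχ heq
    have h1 := frob_isIrr hCK hχ
    have h2 : χ = fun _ => 1 := by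
      apply CharFS.real_odd hoddL h1
      intro g
      have h3 := congrFun heq g
      exact Complex.conj_eq_iff_im.mp h3
    rw [frob_set hCK] at hχ
    obtain ⟨-, h, -, hne⟩ := hχ
    exact hne (by rw [h2])
  obtain ⟨c, hc⟩ := IsGeneralizedCharacter.inner_int (beta_gen hCK hζ) (sigma_gen hσ hζ)
  have hI : (H.subgroupOf L).index ≠ 0 := Subgroup.index_ne_zero_of_finite
  have hI1 : (H.subgroupOf L).index ≠ 1 := fun h => hKtop (Subgroup.index_eq_one.mp h)
  have hsum : ∑ φ ∈ F, ((H.subgroupOf L).index * m φ) ^ 2 = (H.subgroupOf L).index * ((⊥ : Subgroup L).relIndex (H.subgroupOf L) - 1) :=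
    frob_sum hCK F hFm (fun φ => (H.subgroupOf L).index * m φ) (fun φ hφ => by rw [hm φ ((hFm φ).mp hφ)]; push_cast; ring)
  rw [Subgroup.relIndex_bot_left, hcardK] at hsum
  have hsum2 : (H.subgroupOf L).index * ∑ φ ∈ F, m φ ^ 2 = Nat.card H - 1 := by
    have h1 : ∑ φ ∈ F, ((H.subgroupOf L).index * m φ) ^ 2 = (H.subgroupOf L).index * ((H.subgroupOf L).index * ∑ φ ∈ F, m φ ^ 2) := by
      rw [Finset.mul_sum, Finset.mul_sum]
      apply Finset.sum_congr rfl
      intro φ _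
      ring
    rw [h1] at hsum
    exact Nat.eq_of_mul_eq_mul_left (Nat.pos_of_ne_zero hI) hsum
  have hcH : Nat.card H ≠ 1 := fun h => hH1 (Subgroup.card_eq_one.mp h)
  have hcH0 : 0 < Nat.card H := Nat.card_pos
  have ht0 : ∑ φ ∈ F, m φ ^ 2 ≠ 0 := by
    intro h
    rw [h, mul_zero] at hsum2
    omega
  have hoddH : Odd (Nat.card H) := hodd.of_dvd_nat (Subgroup.card_subgroup_dvd_card H)
  have hoddI : Odd (H.subgroupOf L).index := hoddL.of_dvd_nat (Subgroup.index_dvd_card _)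
  have ht2 : 2 ≤ ∑ φ ∈ F, m φ ^ 2 := by
    by_contra hlt2
    have h1 : ∑ φ ∈ F, m φ ^ 2 = 1 := by omega
    rw [h1, mul_one] at hsum2
    have h2 : Nat.card H = (H.subgroupOf L).index + 1 := by omega
    rw [h2] at hoddH
    exact (Nat.not_even_iff_odd.mpr hoddH) (hoddI.add_odd odd_one)
  exact ⟨{ normal := hnorm, TI := hTI', hC := hCK, hHL := hHL, σ := σ, ζ := indFun (H.subgroupOf L) lam, m := m, a := c + 1, F := F, t := ∑ φ ∈ F, m φ ^ 2,
           hF := hFm, hσ := hσ, hσα := hσα, hζ := hζ, hζ1 := hζ1, hm := fun χ hχ => hm χ hχ, hreal := hreal, ha := by rw [hc]; push_cast; ring,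
           hsum := rfl, ht := by rw [hsum2]; omega, he2 := by omega, ht2 := ht2 }⟩

variable {L H : Subgroup G} [Fintype L] {L' H' : Subgroup G} [Fintype L']

/-- functions with disjoint supports -/
theorem ind_orth (hcop : Nat.Coprime (Nat.card H) (Nat.card H')) {f : L → ℂ} {g : L' → ℂ} (hf : ∀ x : L, (x : G) ∉ H → f x = 0) (hf1 : f 1 = 0)
    (hg : ∀ x : L', (x : G) ∉ H' → g x = 0) : classInner (indFun L f) (indFun L' g) = 0 := by
  have h0 : ∀ x ∈ (Finset.univ : Finset G), indFun L f x * conj (indFun L' g x) = 0 := by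
    intro x _
    by_contra hne
    have h1 : indFun L f x ≠ 0 := left_ne_zero_of_mul hne
    have h2 : indFun L' g x ≠ 0 := fun h => (right_ne_zero_of_mul hne) (by rw [h, map_zero])
    have h3 : ∃ y : G, ∃ hy : y⁻¹ * x * y ∈ L, f ⟨_, hy⟩ ≠ 0 := by
      by_contra hno
      push Not at hno
      exact h1 (indFun_eq_zero' hno)
    have h4 : ∃ y : G, ∃ hy : y⁻¹ * x * y ∈ L', g ⟨_, hy⟩ ≠ 0 := by
      by_contra hno
      push Not at hno
      exact h2 (indFun_eq_zero' hno)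
    obtain ⟨y, hy, hy1⟩ := h3
    obtain ⟨z, hz, hz1⟩ := h4
    have hyH : y⁻¹ * x * y ∈ H := by
      by_contra h; exact hy1 (hf _ h)
    have hzH : z⁻¹ * x * z ∈ H' := by
      by_contra h; exact hz1 (hg _ h)
    have key : ∀ (A : Subgroup G) (w : G), w⁻¹ * x * w ∈ A → orderOf x ∣ Nat.card A := by
      intro A w hw
      have h5 : orderOf (w⁻¹ * x * w) ∣ Nat.card A := by
        have := orderOf_dvd_natCard (⟨_, hw⟩ : A)
        rwa [Subgroup.orderOf_mk] at this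
      have h6 : w⁻¹ * x * w = MulAut.conj w⁻¹ x := by rw [MulAut.conj_apply, inv_inv]
      rwa [h6, MulEquiv.orderOf_eq] at h5
    have h5 := Nat.dvd_gcd (key H y hyH) (key H' z hzH)
    rw [hcop] at h5
    have h6 : x = 1 := orderOf_eq_one_iff.mp (Nat.dvd_one.mp h5)
    apply h1
    rw [h6, indFun_one, hf1, mul_zero]
  simp only [classInner]
  rw [Finset.sum_eq_zero h0, mul_zero]

variable (D : FData L H) (D' : FData L' H') (hcop : Nat.Coprime (Nat.card H) (Nat.card H'))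

include hcop

/-- the exceptional characters of different subgroups are orthogonal -/
theorem sigma_orth {χ : L → ℂ} (hχ : χ ∈ inducedIrrAbove (H.subgroupOf L) (⊥ : Subgroup L)) {ξ : L' → ℂ} (hξ : ξ ∈ inducedIrrAbove (H'.subgroupOf L') (⊥ : Subgroup L')) :
    classInner (D.σ χ) (D'.σ ξ) = 0 := by
  haveI := D.normal
  haveI := D'.normal
  have hind : ∀ (M : Subgroup G) (θ : M → ℂ), indFun M (conjFun θ) = conjFun (indFun M θ) := by
    intro M θ
    funext g
    exact indFun_conj M θ g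
  have c1 := coh_conj (fun χ hχ => frob_isIrr D.hC hχ) D.hσ D.hσα (hind L) hχ (above_conj hχ) (D.hreal χ hχ)
  have c2 := coh_conj (fun χ hχ => frob_isIrr D'.hC hχ) D'.hσ D'.hσα (hind L') hξ (above_conj hξ) (D'.hreal ξ hξ)
  have m1 : χ - conjFun χ ∈ zspanOn (inducedIrrAbove (H.subgroupOf L) (⊥ : Subgroup L)) {1}ᶜ := by
    rw [mem_zspanOn_one]
    exact ⟨zspan_sub (mem_zspan_of_mem hχ) (mem_zspan_of_mem (above_conj hχ)), by rw [Pi.sub_apply, conjFun_one (above_char hχ), sub_self]⟩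
  have m2 : ξ - conjFun ξ ∈ zspanOn (inducedIrrAbove (H'.subgroupOf L') (⊥ : Subgroup L')) {1}ᶜ := by
    rw [mem_zspanOn_one]
    exact ⟨zspan_sub (mem_zspan_of_mem hξ) (mem_zspan_of_mem (above_conj hξ)), by rw [Pi.sub_apply, conjFun_one (above_char hξ), sub_self]⟩
  have h1 := ind_orth (L := L) (L' := L') hcop (CohTI.span_vanish m1.1) ((mem_zspanOn_one.mp m1).2) (CohTI.span_vanish m2.1)
  rw [← D.hσα _ m1, ← D'.hσα _ m2, iso_sub (isZClosed_zspan _) D.hσ (mem_zspan_of_mem hχ) (mem_zspan_of_mem (above_conj hχ)),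
    iso_sub (isZClosed_zspan _) D'.hσ (mem_zspan_of_mem hξ) (mem_zspan_of_mem (above_conj hξ)), c1, c2] at h1
  have gA := sigma_gen D.hσ hχ
  have gB := sigma_gen D'.hσ hξ
  have nA := sigma_self D.hC D.hσ hχ
  have nB := sigma_self D'.hC D'.hσ hξ
  have nBB : classInner (D'.σ ξ) (conjFun (D'.σ ξ)) = 0 := by
    rw [← c2]
    exact sigma_inner D'.hC D'.hσ hξ (above_conj hξ) (fun h => D'.hreal ξ hξ h.symm)
  generalize D.σ χ = A at *
  generalize D'.σ ξ = B at *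
  obtain ⟨n, hn⟩ := IsGeneralizedCharacter.inner_int gA gB
  have gB' : IsGeneralizedCharacter G (conjFun B) := IsGeneralizedCharacter.conj gB
  obtain ⟨k, hk⟩ := IsGeneralizedCharacter.inner_int gA gB'
  have e1 : classInner (conjFun A) (conjFun B) = n := by rw [inner_conjFun, hn, map_intCast]
  have e2 : classInner (conjFun A) B = k := by
    have := inner_conjFun A (conjFun B)
    rw [conjFun_conjFun, hk, map_intCast] at this
    exact this
  rw [classInner_sub_left, classInner_sub_right, classInner_sub_right, e1, e2, hn, hk] at h1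
  have h2 : (n : ℂ) = k := by linear_combination (1/2 : ℂ) * h1
  have nB' : classInner (conjFun B) (conjFun B) = 1 := by rw [inner_conjFun, nB, map_one]
  by_contra hne
  rcases Sibley.unit_inner gA gB nA nB with h3 | h3 | h3
  · exact hne h3
  · rw [h3, nBB, ← h2, ← hn, h3, nB] at hk
    norm_num at hk
  · rw [h3, classInner_neg_left, nBB, neg_zero, ← h2, ← hn, h3, classInner_neg_left, nB] at hk
    norm_num at hk

theorem beta_beta : classInner (beta H D.ζ) (beta H' D'.ζ) = 0 := by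
  haveI := D.normal
  haveI := D'.normal
  exact ind_orth hcop (alpha_vanish D.hC D.hζ) (alpha_one_eq D.hC D.hζ D.hζ1) (alpha_vanish D'.hC D'.hζ)

theorem beta_orth_sub : ∀ χ ∈ inducedIrrAbove (H'.subgroupOf L') (⊥ : Subgroup L'), classInner (beta H D.ζ) (indFun L' (χ - (D'.m χ : ℂ) • D'.ζ)) = 0 := by
  haveI := D.normal
  haveI := D'.normal
  intro χ hχ
  exact ind_orth hcop (alpha_vanish D.hC D.hζ) (alpha_one_eq D.hC D.hζ D.hζ1) (CohTI.span_vanish (sub_mem D'.hζ D'.hζ1 D'.hm hχ).1)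

theorem beta_sigma' {χ : L' → ℂ} (hχ : χ ∈ inducedIrrAbove (H'.subgroupOf L') (⊥ : Subgroup L')) :
    classInner (beta H D.ζ) (D'.σ χ) = D'.m χ * classInner (beta H D.ζ) (D'.σ D'.ζ) := by
  haveI := D'.normal
  exact inner_sigma_of_orth D'.TI D'.hC D'.hζ D'.hζ1 D'.hm D'.hσ D'.hσα (beta_orth_sub D D' hcop) hχ

/-- values of `σ ζ` on the other kernel -/
theorem sigma_const {x : L'} (hx : (x : G) ∈ H') (hx1 : x ≠ 1) : D.σ D.ζ x = classInner (D.σ D.ζ) (beta H' D'.ζ) := by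
  haveI := D'.normal
  haveI := D.normal
  refine const_of_orth D'.hC D'.hζ D'.hζ1 D'.hm (IsGeneralizedCharacter.isClassFunction (sigma_gen D.hσ D.hζ)) ?_ hx hx1
  intro χ hχ
  rw [ind_sub D'.hζ D'.hζ1 D'.hm D'.hσ D'.hσα hχ, classInner_sub_right, classInner_smul_right, sigma_orth D D' hcop D.hζ hχ, sigma_orth D D' hcop D.hζ D'.hζ,
    mul_zero, sub_zero]

theorem parity (hodd : Odd (Nat.card G)) {c c' : ℤ} (hc : classInner (beta H D.ζ) (D'.σ D'.ζ) = c) (hc' : classInner (beta H' D'.ζ) (D.σ D.ζ) = c') : Odd (c + c') := by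
  haveI := D'.normal
  haveI := D.normal
  have r1 := real_beta D.TI D.hC D.hζ D.hζ1 D.hm D.hσ D.hσα (D.hreal _ D.hζ)
  have r2 := real_beta D'.TI D'.hC D'.hζ D'.hζ1 D'.hm D'.hσ D'.hσα (D'.hreal _ D'.hζ)
  have g1 := IsGeneralizedCharacter.add (beta_gen D.hC D.hζ) (sigma_gen D.hσ D.hζ)
  have g2 := IsGeneralizedCharacter.add (beta_gen D'.hC D'.hζ) (sigma_gen D'.hσ D'.hζ)
  have o1 : classInner (beta H D.ζ + D.σ D.ζ) (1 : G → ℂ) = ((1 : ℤ) : ℂ) := by
    rw [classInner_add_left, beta_inner_one D.hC D.hζ, sigma_zeta_one D.TI D.hC D.hζ D.hζ1 D.hm D.hσ D.hσα (D.hreal _ D.hζ)]; simp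
  have o2 : classInner (beta H' D'.ζ + D'.σ D'.ζ) (1 : G → ℂ) = ((1 : ℤ) : ℂ) := by
    rw [classInner_add_left, beta_inner_one D'.hC D'.hζ, sigma_zeta_one D'.TI D'.hC D'.hζ D'.hζ1 D'.hm D'.hσ D'.hσα (D'.hreal _ D'.hζ)]; simp
  have o3 : classInner (beta H D.ζ + D.σ D.ζ) (beta H' D'.ζ + D'.σ D'.ζ) = ((c + c' : ℤ) : ℂ) := by
    rw [classInner_add_left, classInner_add_right, classInner_add_right, beta_beta D D' hcop, hc, sigma_orth D D' hcop D.hζ D'.hζ,
      gen_inner_comm (sigma_gen D.hσ D.hζ) (beta_gen D'.hC D'.hζ), hc']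
    push_cast
    ring
  have h := real_parity hodd g1 g2 r1 r2 o1 o2 o3
  rw [mul_one] at h
  obtain ⟨r, hr⟩ := h
  exact ⟨r, by omega⟩

end CfsgLib.CNOdd5
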