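import Mathlib
import Cfsg.Agent.Lib.CNOdd5

/-!
# The final contradiction
-/

set_option autoImplicit false
set_option linter.style.haveILetI false
set_option linter.unusedSectionVars false

open scoped ComplexConjugate commutatorElement

namespace CfsgLib.CNOdd6

open Cfsg CfsgLib.CharBasic CfsgLib.CharInd CfsgLib.CharClifford CfsgLib.CharCoh CfsgLib.FrobQuot CfsgLib.FrobCoh CfsgLib.CNOdd CfsgLib.CNOdd3 CfsgLib.CNOdd4
  CfsgLib.CNOdd5

universe u v

theorem final_arith {ι : Type v} [Fintype ι] [DecidableEq ι] (i : ι) (T Hh : ι → ℝ) (E : ℝ) (c c' : ι → ℤ) (a : ℤ) (g z2 : ℝ) (hg : 0 < g) (hz : 1 ≤ z2)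
    (hT : ∀ j, 2 ≤ T j) (hE : 2 ≤ E) (hH : ∀ j, 0 < Hh j) (hHi : Hh i = E * T i + 1) (hmin : ∀ j, j ≠ i → Hh i < Hh j) (hc : ∀ j, j ≠ i → c j ≠ 0 ∨ c' j ≠ 0)
    (A : z2 + g * ∑ j ∈ Finset.univ.erase i, (c' j : ℝ) ^ 2 * (T j / Hh j) = g / Hh i * (E + 2 * a - a ^ 2 * T i))
    (B : g = 1 + g * ∑ j, T j / Hh j) (C : ∑ j ∈ Finset.univ.erase i, (c j : ℝ) ^ 2 * T j ≤ E - 1 + 2 * a - a ^ 2 * T i) : False := by
  obtain ⟨P, hP⟩ : ∃ P, P = ∑ j ∈ Finset.univ.erase i, (c j : ℝ) ^ 2 * (T j / Hh j) := ⟨_, rfl⟩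
  obtain ⟨Q, hQ⟩ : ∃ Q, Q = ∑ j ∈ Finset.univ.erase i, (c' j : ℝ) ^ 2 * (T j / Hh j) := ⟨_, rfl⟩
  obtain ⟨S, hS⟩ : ∃ S, S = ∑ j ∈ Finset.univ.erase i, (T j / Hh j) := ⟨_, rfl⟩
  obtain ⟨R, hR⟩ : ∃ R, R = ∑ j ∈ Finset.univ.erase i, (c j : ℝ) ^ 2 * T j := ⟨_, rfl⟩
  rw [← hQ] at A
  rw [← hR] at C
  rw [← Finset.add_sum_erase Finset.univ _ (Finset.mem_univ i), ← hS] at B
  have hu : (2 * a - a ^ 2 * T i : ℝ) ≤ 0 := by
    have h1 : (2 : ℝ) ≤ T i := hT i
    have h2 : (a : ℝ) ≤ (a : ℝ) ^ 2 := by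
      have : a ≤ a ^ 2 := Int.le_self_sq a
      exact_mod_cast this
    nlinarith [sq_nonneg (a : ℝ)]
  have hSPQ : S ≤ P + Q := by
    rw [hS, hP, hQ, ← Finset.sum_add_distrib]
    apply Finset.sum_le_sum
    intro j hj
    have hji : j ≠ i := (Finset.mem_erase.mp hj).1
    have h1 : 0 ≤ T j / Hh j := div_nonneg (by linarith [hT j]) (hH j).le
    have h2 : (1 : ℝ) ≤ (c j : ℝ) ^ 2 + (c' j : ℝ) ^ 2 := by
      have h3 : 1 ≤ c j ^ 2 + c' j ^ 2 := by
        rcases hc j hji with h | h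
        · have : 0 < c j ^ 2 := by positivity
          have : 0 ≤ c' j ^ 2 := sq_nonneg _
          omega
        · have : 0 < c' j ^ 2 := by positivity
          have : 0 ≤ c j ^ 2 := sq_nonneg _
          omega
      exact_mod_cast h3
    nlinarith
  have hHi0 := hH i
  have hTi := hT i
  -- main inequality
  have h1 : Hh i ≤ T i + Hh i * P + E := by
    have hA' : Q = 1 / Hh i * (E + 2 * a - a ^ 2 * T i) - z2 / g := by
      field_simp
      field_simp at A
      linarith
    have hB' : 1 - 1 / g = T i / Hh i + S := by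
      field_simp
      field_simp at B
      linarith
    have h2 : 1 - 1 / g ≤ T i / Hh i + P + (1 / Hh i * (E + 2 * a - a ^ 2 * T i) - z2 / g) := by
      rw [hB', ← hA']; linarith
    have h3 : 1 / g ≤ z2 / g := div_le_div_of_nonneg_right hz hg.le
    have h4 : 1 ≤ T i / Hh i + P + 1 / Hh i * (E + 2 * a - a ^ 2 * T i) := by linarith
    have h5 : Hh i * 1 ≤ Hh i * (T i / Hh i + P + 1 / Hh i * (E + 2 * a - a ^ 2 * T i)) := mul_le_mul_of_nonneg_left h4 hHi0.le
    have h6 : Hh i * (T i / Hh i + P + 1 / Hh i * (E + 2 * a - a ^ 2 * T i)) = T i + Hh i * P + (E + 2 * a - a ^ 2 * T i) := by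
      field_simp
    rw [h6] at h5
    linarith
  by_cases hall : ∀ j ∈ Finset.univ.erase i, c j = 0
  · have hP0 : P = 0 := by
      rw [hP]
      apply Finset.sum_eq_zero
      intro j hj
      rw [hall j hj]; simp
    rw [hP0, hHi] at h1
    nlinarith
  · push Not at hall
    obtain ⟨j, hj, hcj⟩ := hall
    have h2 : Hh i * P < R := by
      rw [hP, hR, Finset.mul_sum]
      apply Finset.sum_lt_sum
      · intro k hk
        have hki : k ≠ i := (Finset.mem_erase.mp hk).1
        have h3 : Hh i * (T k / Hh k) ≤ T k := by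
          rw [mul_div_assoc', div_le_iff₀ (hH k), mul_comm]
          exact mul_le_mul_of_nonneg_left (hmin k hki).le (by linarith [hT k])
        have h4 : 0 ≤ (c k : ℝ) ^ 2 := sq_nonneg _
        calc Hh i * ((c k : ℝ) ^ 2 * (T k / Hh k)) = (c k : ℝ) ^ 2 * (Hh i * (T k / Hh k)) := by ring
          _ ≤ (c k : ℝ) ^ 2 * T k := mul_le_mul_of_nonneg_left h3 h4
      · refine ⟨j, hj, ?_⟩
        have hji : j ≠ i := (Finset.mem_erase.mp hj).1
        have h3 : Hh i * (T j / Hh j) < T j := by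
          rw [mul_div_assoc', div_lt_iff₀ (hH j), mul_comm]
          exact mul_lt_mul_of_pos_left (hmin j hji) (by linarith [hT j])
        have h4 : 0 < (c j : ℝ) ^ 2 := by
          have : (c j : ℝ) ≠ 0 := by exact_mod_cast hcj
          positivity
        calc Hh i * ((c j : ℝ) ^ 2 * (T j / Hh j)) = (c j : ℝ) ^ 2 * (Hh i * (T j / Hh j)) := by ring
          _ < (c j : ℝ) ^ 2 * T j := mul_lt_mul_of_pos_left h3 h4
    rw [hHi] at h1
    rw [hHi] at h2
    nlinarith

variable {G : Type u} [Group G] [Fintype G]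

section vecs

variable {L H : Subgroup G} [Fintype L] {L' H' : Subgroup G} [Fintype L'] (D : FData L H) (D' : FData L' H')

/-- the vector `Σ m σ` -/
noncomputable def vec : G → ℂ := ∑ ξ ∈ D.F, (D.m ξ : ℂ) • D.σ ξ

theorem m_zeta : D.m D.ζ = 1 := by
  have hI : ((H.subgroupOf L).index : ℂ) ≠ 0 := by
    have : (H.subgroupOf L).index ≠ 0 := Subgroup.index_ne_zero_of_finite
    exact_mod_cast this
  have := D.hm D.ζ D.hζ
  rw [D.hζ1] at this
  have h3 : ((H.subgroupOf L).index : ℂ) * ((D.m D.ζ : ℂ) - 1) = 0 := by linear_combination -this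
  have h4 := sub_eq_zero.mp ((mul_eq_zero.mp h3).resolve_left hI)
  exact_mod_cast h4

theorem vec_sigma {χ : L → ℂ} (hχ : χ ∈ D.F) : classInner (vec D) (D.σ χ) = D.m χ := by
  classical
  haveI := D.normal
  rw [vec, classInner_sum_left, Finset.sum_eq_single χ]
  · rw [classInner_smul_left, sigma_self D.hC D.hσ ((D.hF χ).mp hχ), mul_one]
  · intro ξ hξ hne
    rw [classInner_smul_left, sigma_inner D.hC D.hσ ((D.hF ξ).mp hξ) ((D.hF χ).mp hχ) hne, mul_zero]
  · intro h; exact absurd hχ h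

theorem vec_vec : classInner (vec D) (vec D) = D.t := by
  nth_rewrite 1 [vec]
  rw [classInner_sum_left]
  have e : ∀ χ ∈ D.F, classInner ((D.m χ : ℂ) • D.σ χ) (vec D) = (((D.m χ) ^ 2 : ℕ) : ℂ) := by
    intro χ hχ
    rw [classInner_smul_left, ← classInner_conj_symm, vec_sigma D hχ, map_natCast]
    push_cast
    ring
  rw [Finset.sum_congr rfl e, ← Nat.cast_sum, D.hsum]

theorem vec_one : classInner (vec D) (1 : G → ℂ) = 0 := by
  haveI := D.normal
  have h1 : ∀ χ ∈ inducedIrrAbove (H.subgroupOf L) (⊥ : Subgroup L), classInner (1 : G → ℂ) (indFun L (χ - (D.m χ : ℂ) • D.ζ)) = 0 := by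
    intro χ hχ
    rw [frobenius' L _ (fun _ _ => rfl)]
    show classInner (1 : L → ℂ) _ = 0
    rw [classInner_sub_right, classInner_smul_right, symm_zero (above_one D.hC hχ), symm_zero (above_one D.hC D.hζ), mul_zero, sub_zero]
  have h2 := symm_zero (sigma_zeta_one D.TI D.hC D.hζ D.hζ1 D.hm D.hσ D.hσα (D.hreal _ D.hζ))
  rw [vec, classInner_sum_left]
  apply Finset.sum_eq_zero
  intro χ hχ
  have h3 := inner_sigma_of_orth D.TI D.hC D.hζ D.hζ1 D.hm D.hσ D.hσα h1 ((D.hF χ).mp hχ)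
  rw [h2, mul_zero] at h3
  rw [classInner_smul_left, symm_zero h3, mul_zero]

theorem beta_vec : classInner (beta H D.ζ) (vec D) = D.a * D.t - 1 := by
  classical
  haveI := D.normal
  have hζF : D.ζ ∈ D.F := (D.hF _).mpr D.hζ
  rw [vec, classInner_sum_right]
  have e : ∀ χ ∈ D.F, classInner (beta H D.ζ) ((D.m χ : ℂ) • D.σ χ) = D.a * (((D.m χ) ^ 2 : ℕ) : ℂ) - (if χ = D.ζ then 1 else 0) := by
    intro χ hχ
    rw [classInner_smul_right, map_natCast]
    split_ifs with h
    · rw [h, D.ha, m_zeta]; push_cast; ring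
    · rw [beta_sigma D.TI D.hC D.hζ D.hζ1 D.hm D.hσ D.hσα D.ha ((D.hF χ).mp hχ) h]; push_cast; ring
  rw [Finset.sum_congr rfl e, Finset.sum_sub_distrib, ← Finset.mul_sum, ← Nat.cast_sum, D.hsum, Finset.sum_ite_eq' D.F D.ζ, if_pos hζF]

variable (hcop : Nat.Coprime (Nat.card H) (Nat.card H'))

include hcop

theorem sigma_vec' {χ : L → ℂ} (hχ : χ ∈ D.F) : classInner (D.σ χ) (vec D') = 0 := by
  rw [vec, classInner_sum_right]
  apply Finset.sum_eq_zero
  intro ξ hξ
  rw [classInner_smul_right, sigma_orth D D' hcop ((D.hF χ).mp hχ) ((D'.hF ξ).mp hξ), mul_zero]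

theorem vec_vec' : classInner (vec D) (vec D') = 0 := by
  conv_lhs => rw [vec]
  rw [classInner_sum_left]
  apply Finset.sum_eq_zero
  intro χ hχ
  rw [classInner_smul_left, sigma_vec' D D' hcop hχ, mul_zero]

theorem beta_vec' {c : ℤ} (hc : classInner (beta H D.ζ) (D'.σ D'.ζ) = c) : classInner (beta H D.ζ) (vec D') = c * D'.t := by
  rw [vec, classInner_sum_right]
  have e : ∀ χ ∈ D'.F, classInner (beta H D.ζ) ((D'.m χ : ℂ) • D'.σ χ) = c * (((D'.m χ) ^ 2 : ℕ) : ℂ) := by
    intro χ hχ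
    rw [classInner_smul_right, map_natCast, beta_sigma' D D' hcop ((D'.hF χ).mp hχ), hc]
    push_cast
    ring
  rw [Finset.sum_congr rfl e, ← Finset.mul_sum, ← Nat.cast_sum, D'.hsum]

end vecs

section final

variable {ι : Type v} [Fintype ι] [DecidableEq ι] {L H : ι → Subgroup G} [∀ i, Fintype (L i)] (D : ∀ i, FData (L i) (H i))
  (hcop : ∀ i j, i ≠ j → Nat.Coprime (Nat.card (H i)) (Nat.card (H j))) (c : ι → ι → ℤ)
  (hc : ∀ i j, i ≠ j → classInner (beta (H i) (D i).ζ) ((D j).σ (D j).ζ) = c i j)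

include hcop hc

theorem norm_bound (i : ι) : ∑ j ∈ Finset.univ.erase i, (c i j : ℝ) ^ 2 * ((D j).t : ℝ) ≤
    (((H i).subgroupOf (L i)).index : ℝ) - 1 + 2 * (D i).a - ((D i).a : ℝ) ^ 2 * ((D i).t : ℝ) := by
  classical
  haveI := (D i).normal
  obtain ⟨f, hf⟩ : ∃ f : Option (Option ι) → G → ℂ, f = fun o => match o with
    | none => 1
    | some none => (D i).σ (D i).ζ
    | some (some j) => if j = i then vec (D i) - (D i).σ (D i).ζ else vec (D j) := ⟨_, rfl⟩
  obtain ⟨n, hn⟩ : ∃ n : Option (Option ι) → ℝ, n = fun o => match o with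
    | none => 1
    | some none => 1
    | some (some j) => if j = i then ((D i).t : ℝ) - 1 else ((D j).t : ℝ) := ⟨_, rfl⟩
  obtain ⟨x, hx⟩ : ∃ x : Option (Option ι) → ℝ, x = fun o => match o with
    | none => 1
    | some none => ((D i).a : ℝ) - 1
    | some (some j) => if j = i then ((D i).a : ℝ) * (((D i).t : ℝ) - 1) else (c i j : ℝ) * ((D j).t : ℝ) := ⟨_, rfl⟩
  have hζF : (D i).ζ ∈ (D i).F := ((D i).hF _).mpr (D i).hζ
  have ht2 : ∀ j, (2 : ℝ) ≤ (D j).t := fun j => by exact_mod_cast (D j).ht2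
  have s1 : classInner ((D i).σ (D i).ζ) (1 : G → ℂ) = 0 := sigma_zeta_one (D i).TI (D i).hC (D i).hζ (D i).hζ1 (D i).hm (D i).hσ (D i).hσα ((D i).hreal _ (D i).hζ)
  have s2 : classInner ((D i).σ (D i).ζ) ((D i).σ (D i).ζ) = 1 := sigma_self (D i).hC (D i).hσ (D i).hζ
  have s3 : classInner (vec (D i)) ((D i).σ (D i).ζ) = 1 := by rw [vec_sigma (D i) hζF, m_zeta]; simp
  have s3' : classInner ((D i).σ (D i).ζ) (vec (D i)) = 1 := by rw [← classInner_conj_symm, s3, map_one]
  have s4 : classInner (vec (D i) - (D i).σ (D i).ζ) (1 : G → ℂ) = 0 := by rw [classInner_sub_left, vec_one, s1, sub_zero]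
  have s5 : classInner (vec (D i) - (D i).σ (D i).ζ) ((D i).σ (D i).ζ) = 0 := by rw [classInner_sub_left, s3, s2, sub_self]
  have s6 : classInner (vec (D i) - (D i).σ (D i).ζ) (vec (D i) - (D i).σ (D i).ζ) = (((D i).t : ℝ) - 1 : ℝ) := by
    rw [classInner_sub_right, s5, classInner_sub_left, vec_vec, s3']; push_cast; ring
  have s7 : ∀ j, j ≠ i → classInner (vec (D i) - (D i).σ (D i).ζ) (vec (D j)) = 0 := by
    intro j hj
    rw [classInner_sub_left, vec_vec' (D i) (D j) (hcop i j hj.symm), sigma_vec' (D i) (D j) (hcop i j hj.symm) hζF, sub_zero]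
  have s8 : ∀ j, j ≠ i → classInner ((D i).σ (D i).ζ) (vec (D j)) = 0 := fun j hj => sigma_vec' (D i) (D j) (hcop i j hj.symm) hζF
  have s0 : classInner (1 : G → ℂ) 1 = 1 := IsIrrCharacter.inner_self isIrr_one
  have hpair : ∀ j, classInner (f (some (some j))) 1 = 0 := by
    intro j
    rw [hf]
    by_cases h : j = i
    · simp only [h, if_true]; exact s4
    · simp only [h, if_false]; exact vec_one (D j)
  have hpair2 : ∀ j, classInner (f (some (some j))) ((D i).σ (D i).ζ) = 0 := by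
    intro j
    rw [hf]
    by_cases h : j = i
    · simp only [h, if_true]; exact s5
    · simp only [h, if_false]; exact symm_zero (s8 j h)
  have key := bessel (Finset.univ : Finset (Option (Option ι))) f n ?_ ?_ (beta (H i) (D i).ζ) x ?_
  · have h1 := key.1
    rw [beta_norm (D i).TI (D i).hC (D i).hζ (D i).hζ1] at h1
    simp only [Fintype.sum_option] at h1
    rw [hx, hn] at h1
    simp only at h1
    rw [← Finset.add_sum_erase Finset.univ _ (Finset.mem_univ i)] at h1
    simp only [if_true] at h1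
    have h2 : ∀ j ∈ Finset.univ.erase i, (if j = i then ((D i).a : ℝ) * (((D i).t : ℝ) - 1) else (c i j : ℝ) * ((D j).t : ℝ)) ^ 2 /
        (if j = i then ((D i).t : ℝ) - 1 else ((D j).t : ℝ)) = (c i j : ℝ) ^ 2 * ((D j).t : ℝ) := by
      intro j hj
      have hji := (Finset.mem_erase.mp hj).1
      rw [if_neg hji, if_neg hji]
      have : ((D j).t : ℝ) ≠ 0 := by linarith [ht2 j]
      field_simp
    rw [Finset.sum_congr rfl h2] at h1
    have h3 : ((D i).a * (((D i).t : ℝ) - 1)) ^ 2 / (((D i).t : ℝ) - 1) = ((D i).a : ℝ) ^ 2 * (((D i).t : ℝ) - 1) := by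
      have : ((D i).t : ℝ) - 1 ≠ 0 := by linarith [ht2 i]
      field_simp
    rw [h3] at h1
    simp only [Complex.add_re, Complex.natCast_re, Complex.one_re] at h1
    nlinarith
  · intro o _
    rw [hn]
    rcases o with _ | _ | j
    · norm_num
    · norm_num
    · by_cases h : j = i
      · simp only [h, if_true]; linarith [ht2 i]
      · simp only [h, if_false]; linarith [ht2 j]
  · intro o _ o' _
    rcases o with _ | _ | j <;> rcases o' with _ | _ | k
    · rw [if_pos rfl, hf, hn]; simp only []; rw [s0]; simp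
    · rw [if_neg (by simp), hf]; exact symm_zero s1
    · rw [if_neg (by simp)]
      have := symm_zero (hpair k)
      rw [hf] at this ⊢
      exact this
    · rw [if_neg (by simp), hf]; exact s1
    · rw [if_pos rfl, hf, hn]; simp only []; rw [s2]; simp
    · rw [if_neg (by simp)]
      have := symm_zero (hpair2 k)
      rw [hf] at this ⊢
      exact this
    · rw [if_neg (by simp)]
      have := hpair j
      rw [hf] at this ⊢
      exact this
    · rw [if_neg (by simp)]
      have := hpair2 j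
      rw [hf] at this ⊢
      exact this
    · by_cases hjk : j = k
      · rw [← hjk, if_pos rfl, hf, hn]
        by_cases h : j = i
        · simp only [h, if_true]; exact s6
        · simp only [h, if_false]; rw [vec_vec]; simp
      · rw [if_neg (by simpa using hjk), hf]
        by_cases h : j = i
        · have hk : k ≠ i := fun h' => hjk (h.trans h'.symm)
          simp only [h, hk, if_true, if_false]; exact s7 k hk
        · by_cases hk : k = i
          · simp only [h, hk, if_true, if_false]; exact symm_zero (s7 j h)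
          · simp only [h, hk, if_false]; exact vec_vec' (D j) (D k) (hcop j k hjk)
  · intro o _
    rcases o with _ | _ | j
    · rw [hf, hx]; simp only []; rw [beta_inner_one (D i).hC (D i).hζ]; simp
    · rw [hf, hx]; simp only []; rw [(D i).ha]; push_cast; rfl
    · rw [hf, hx]
      by_cases h : j = i
      · simp only [h, if_true]
        rw [classInner_sub_right, beta_vec, (D i).ha]; push_cast; ring
      · simp only [h, if_false]
        rw [beta_vec' (D i) (D j) (hcop i j (fun h' => h h'.symm)) (hc i j (fun h' => h h'.symm))]; push_cast; ring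

omit [Fintype ι] [DecidableEq ι] hcop hc in
include D in
theorem index_rel (j : ι) : ((L j).index : ℝ) * (((H j).subgroupOf (L j)).index : ℝ) * (Nat.card (H j) : ℝ) = Nat.card G := by
  have h1 := Subgroup.card_mul_index (L j)
  have h2 := Subgroup.card_mul_index ((H j).subgroupOf (L j))
  have h3 : Nat.card ((H j).subgroupOf (L j)) = Nat.card (H j) := Nat.card_congr (Subgroup.subgroupOfEquivOfLe (D j).hHL).toEquiv
  rw [← h1, ← h2, h3]
  push_cast
  ring

omit [Fintype ι] [DecidableEq ι] hcop hc in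
theorem t_rel (j : ι) : (Nat.card (H j) : ℝ) = (((H j).subgroupOf (L j)).index : ℝ) * ((D j).t : ℝ) + 1 := by
  have := (D j).ht
  rw [← this]
  push_cast
  ring

omit [Fintype ι] [DecidableEq ι] hcop hc in
theorem sum_filter_eq (j : ι) [∀ x : L j, Decidable ((x : G) ∈ H j ∧ x ≠ 1)] [DecidablePred (fun x : L j => x ∈ (H j).subgroupOf (L j) ∧ x ≠ 1)] (φ : L j → ℂ) :
    ∑ x : L j, (if (x : G) ∈ H j ∧ x ≠ 1 then φ x else 0) = ∑ x ∈ Finset.univ.filter (fun x : L j => x ∈ (H j).subgroupOf (L j) ∧ x ≠ 1), φ x := by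
  rw [Finset.sum_filter]
  apply Finset.sum_congr rfl
  intro x _
  by_cases h : (x : G) ∈ H j ∧ x ≠ 1
  · rw [if_pos h, if_pos ⟨Subgroup.mem_subgroupOf.mpr h.1, h.2⟩]
  · rw [if_neg h, if_neg (fun h' => h ⟨Subgroup.mem_subgroupOf.mp h'.1, h'.2⟩)]

omit [Fintype ι] [DecidableEq ι] hcop hc in
theorem card_filter_eq (j : ι) (hHL : H j ≤ L j) [DecidablePred (fun x : L j => x ∈ (H j).subgroupOf (L j) ∧ x ≠ 1)] (r : ℂ) :
    ∑ x ∈ Finset.univ.filter (fun x : L j => x ∈ (H j).subgroupOf (L j) ∧ x ≠ 1), r = ((Nat.card (H j) : ℂ) - 1) * r := by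
  classical
  rw [Finset.sum_const, nsmul_eq_mul]
  congr 1
  have h3 : (Finset.univ.filter (fun x : L j => x ∈ (H j).subgroupOf (L j) ∧ x ≠ 1)) = (Finset.univ.filter (fun x : L j => x ∈ (H j).subgroupOf (L j))).erase 1 := by
    ext x
    simp only [Finset.mem_filter, Finset.mem_univ, true_and, Finset.mem_erase]
    tauto
  rw [h3, Finset.card_erase_of_mem (by simp), Nat.cast_sub]
  · congr 1
    · rw [← Fintype.card_subtype, ← Nat.card_eq_fintype_card]
      congr 1
      exact Nat.card_congr (Subgroup.subgroupOfEquivOfLe hHL).toEquiv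
    · simp
  · apply Finset.card_pos.mpr
    exact ⟨1, by simp⟩

variable (hcover : ∀ g : G, g ≠ 1 → ∃ i, ∃ x : G, x * g * x⁻¹ ∈ H i)

omit [Fintype ι] [DecidableEq ι] hcop hc in
include D in
theorem normal_conj (i : ι) : ∀ x ∈ L i, ∀ h ∈ H i, x * h * x⁻¹ ∈ H i := by
  intro x hx h hh
  have := (D i).normal.conj_mem ⟨h, (D i).hHL hh⟩ (Subgroup.mem_subgroupOf.mpr hh) ⟨x, hx⟩
  exact Subgroup.mem_subgroupOf.mp this

include hcover

omit hc in
theorem cover_one : (Nat.card G : ℝ) = 1 + Nat.card G * ∑ j, ((D j).t : ℝ) / (Nat.card (H j) : ℝ) := by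
  classical
  have h1 := sum_cover H L (normal_conj D) (fun i => (D i).hHL) (fun i => (D i).TI) hcop hcover (f := fun _ => (1 : ℂ)) (fun _ _ => rfl)
    (fun i x => if (x : G) ∈ H i ∧ x ≠ 1 then 1 else 0) (fun i x h1 h2 => if_pos ⟨h1, h2⟩) (fun i x h => if_neg h)
  have h2 : ∀ i ∈ (Finset.univ : Finset ι), ((L i).index : ℂ) * ∑ x : L i, (if (x : G) ∈ H i ∧ x ≠ 1 then (1 : ℂ) else 0) =
      (((Nat.card G : ℝ) * (((D i).t : ℝ) / (Nat.card (H i) : ℝ)) : ℝ) : ℂ) := by
    intro i _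
    rw [sum_filter_eq i, card_filter_eq i (D i).hHL]
    have h3 := index_rel D i
    have h4 := t_rel D i
    have hH0 : (Nat.card (H i) : ℝ) ≠ 0 := by
      have : Nat.card (H i) ≠ 0 := Nat.card_pos.ne'
      exact_mod_cast this
    have h5 : ((L i).index : ℝ) * ((Nat.card (H i) : ℝ) - 1) = (Nat.card G : ℝ) * (((D i).t : ℝ) / (Nat.card (H i) : ℝ)) := by
      rw [← h3]
      field_simp
      rw [h4]
      ring
    rw [mul_one, ← h5]
    push_cast
    ring
  rw [Finset.sum_congr rfl h2, Finset.sum_const, Finset.card_univ, nsmul_eq_mul, mul_one, ← Nat.card_eq_fintype_card] at h1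
  rw [Finset.mul_sum]
  exact_mod_cast h1

theorem cover_sigma (i : ι) : ∃ z2 : ℝ, 1 ≤ z2 ∧ z2 + Nat.card G * ∑ j ∈ Finset.univ.erase i, (c j i : ℝ) ^ 2 * (((D j).t : ℝ) / (Nat.card (H j) : ℝ)) =
    (Nat.card G : ℝ) / (Nat.card (H i) : ℝ) * ((((H i).subgroupOf (L i)).index : ℝ) + 2 * (D i).a - ((D i).a : ℝ) ^ 2 * ((D i).t : ℝ)) := by
  classical
  haveI := (D i).normal
  obtain ⟨s, hs⟩ : ∃ s : G → ℂ, s = (D i).σ (D i).ζ := ⟨_, rfl⟩
  have hsg : IsGeneralizedCharacter G s := by rw [hs]; exact sigma_gen (D i).hσ (D i).hζ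
  have hscl := IsGeneralizedCharacter.isClassFunction hsg
  have hsn : classInner s s = 1 := by rw [hs]; exact sigma_self (D i).hC (D i).hσ (D i).hζ
  obtain ⟨z, hz⟩ := IsGeneralizedCharacter.exists_int hsg
  have hz0 : z ≠ 0 := by
    rintro rfl
    rw [Int.cast_zero] at hz
    rcases IsGeneralizedCharacter.irr_or_neg hsg hsn with h | h
    · exact IsIrrCharacter.one_ne_zero h hz
    · exact IsIrrCharacter.one_ne_zero h (by rw [Pi.neg_apply, hz, neg_zero])
  have hsum : ∑ g, s g * conj (s g) = (Nat.card G : ℂ) := by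
    simp only [classInner] at hsn
    have h3 : (Nat.card G : ℂ) ≠ 0 := card_ne_zero
    field_simp at hsn
    exact hsn
  have h1 := sum_cover H L (normal_conj D) (fun i => (D i).hHL) (fun i => (D i).TI) hcop hcover (f := fun g => s g * conj (s g))
    (fun a b => by
      show s (b * a * b⁻¹) * conj (s (b * a * b⁻¹)) = s a * conj (s a)
      rw [hscl a b])
    (fun i x => if (x : G) ∈ H i ∧ x ≠ 1 then s x * conj (s x) else 0) (fun i x h1 h2 => if_pos ⟨h1, h2⟩) (fun i x h => if_neg h)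
  rw [hsum, ← Finset.add_sum_erase Finset.univ _ (Finset.mem_univ i)] at h1
  have hH0 : ∀ j, (Nat.card (H j) : ℝ) ≠ 0 := by
    intro j
    have : Nat.card (H j) ≠ 0 := Nat.card_pos.ne'
    exact_mod_cast this
  -- the terms different from i
  have h2 : ∀ j ∈ Finset.univ.erase i, ((L j).index : ℂ) * ∑ x : L j, (if (x : G) ∈ H j ∧ x ≠ 1 then s x * conj (s x) else 0) =
      (((Nat.card G : ℝ) * ((c j i : ℝ) ^ 2 * (((D j).t : ℝ) / (Nat.card (H j) : ℝ))) : ℝ) : ℂ) := by
    intro j hj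
    have hji : j ≠ i := (Finset.mem_erase.mp hj).1
    haveI := (D j).normal
    rw [sum_filter_eq j]
    have e : ∀ x ∈ Finset.univ.filter (fun x : L j => x ∈ (H j).subgroupOf (L j) ∧ x ≠ 1), s x * conj (s x) = (c j i : ℂ) ^ 2 := by
      intro x hx
      have hx' := (Finset.mem_filter.mp hx).2
      have h3 := sigma_const (D i) (D j) (hcop i j hji.symm) (x := x) (Subgroup.mem_subgroupOf.mp hx'.1) hx'.2
      rw [gen_inner_comm (sigma_gen (D i).hσ (D i).hζ) (beta_gen (D j).hC (D j).hζ), hc j i hji] at h3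
      rw [hs, h3, map_intCast]
      ring
    rw [Finset.sum_congr rfl e, card_filter_eq j (D j).hHL]
    have h3 := index_rel D j
    have h4 := t_rel D j
    have h5 : ((L j).index : ℝ) * (((Nat.card (H j) : ℝ) - 1) * (c j i : ℝ) ^ 2) = (Nat.card G : ℝ) * ((c j i : ℝ) ^ 2 * (((D j).t : ℝ) / (Nat.card (H j) : ℝ))) := by
      rw [← h3]
      have := hH0 j
      field_simp
      rw [h4]
      ring
    rw [← h5]
    push_cast
    ring
  rw [Finset.sum_congr rfl h2] at h1
  -- the term i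
  have h3 : ((L i).index : ℂ) * ∑ x : L i, (if (x : G) ∈ H i ∧ x ≠ 1 then s x * conj (s x) else 0) =
      (((Nat.card G : ℝ) - (Nat.card G : ℝ) / (Nat.card (H i) : ℝ) * ((((H i).subgroupOf (L i)).index : ℝ) + 2 * (D i).a - ((D i).a : ℝ) ^ 2 * ((D i).t : ℝ)) : ℝ) : ℂ) := by
    rw [sum_filter_eq i]
    have e : ∀ x ∈ Finset.univ.filter (fun x : L i => x ∈ (H i).subgroupOf (L i) ∧ x ≠ 1), s x * conj (s x) =
        ((D i).ζ x + (D i).a) * conj ((D i).ζ x + (D i).a) := by
      intro x hx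
      have hx' := (Finset.mem_filter.mp hx).2
      rw [hs, sigma_zeta_apply (D i).TI (D i).hC (D i).hζ (D i).hζ1 (D i).hm (D i).hσ (D i).hσα (D i).ha (Subgroup.mem_subgroupOf.mp hx'.1) hx'.2]
    rw [Finset.sum_congr rfl e, sum_norm (D i).hC (D i).hζ (D i).hζ1 (D i).a]
    have h3 := index_rel D i
    have h4 := t_rel D i
    have h5 : (Nat.card (L i) : ℝ) = (((H i).subgroupOf (L i)).index : ℝ) * (Nat.card (H i) : ℝ) := by
      have h2 := Subgroup.card_mul_index ((H i).subgroupOf (L i))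
      have h3 : Nat.card ((H i).subgroupOf (L i)) = Nat.card (H i) := Nat.card_congr (Subgroup.subgroupOfEquivOfLe (D i).hHL).toEquiv
      rw [← h2, h3]; push_cast; ring
    have h6 : (Nat.card ((H i).subgroupOf (L i)) : ℝ) = Nat.card (H i) := by
      have h3 : Nat.card ((H i).subgroupOf (L i)) = Nat.card (H i) := Nat.card_congr (Subgroup.subgroupOfEquivOfLe (D i).hHL).toEquiv
      rw [h3]
    have h7 : ((L i).index : ℝ) * ((Nat.card (L i) : ℝ) - (((H i).subgroupOf (L i)).index : ℝ) ^ 2 - 2 * (D i).a * (((H i).subgroupOf (L i)).index : ℝ) +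
        ((D i).a : ℝ) ^ 2 * ((Nat.card ((H i).subgroupOf (L i)) : ℝ) - 1)) = (Nat.card G : ℝ) - (Nat.card G : ℝ) / (Nat.card (H i) : ℝ) *
          ((((H i).subgroupOf (L i)).index : ℝ) + 2 * (D i).a - ((D i).a : ℝ) ^ 2 * ((D i).t : ℝ)) := by
      rw [h5, h6, ← h3]
      have := hH0 i
      field_simp
      have h8 : (Nat.card (H i) : ℝ) - 1 = (((H i).subgroupOf (L i)).index : ℝ) * ((D i).t : ℝ) := by rw [h4]; ring
      rw [h8]
      ring
    rw [← h7]
    push_cast
    ring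
  rw [h3] at h1
  refine ⟨(z : ℝ) ^ 2, ?_, ?_⟩
  · have : 1 ≤ z ^ 2 := by
      have : 0 < z ^ 2 := by positivity
      omega
    exact_mod_cast this
  · have h4 : s 1 * conj (s 1) = (((z : ℝ) ^ 2 : ℝ) : ℂ) := by
      rw [hz, map_intCast]; push_cast; ring
    rw [h4] at h1
    have h5 : (Nat.card G : ℝ) = (z : ℝ) ^ 2 + (((Nat.card G : ℝ) - (Nat.card G : ℝ) / (Nat.card (H i) : ℝ) * ((((H i).subgroupOf (L i)).index : ℝ) + 2 * (D i).a - ((D i).a : ℝ) ^ 2 * ((D i).t : ℝ))) +
        ∑ j ∈ Finset.univ.erase i, ((Nat.card G : ℝ) * ((c j i : ℝ) ^ 2 * (((D j).t : ℝ) / (Nat.card (H j) : ℝ))))) := by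
      exact_mod_cast h1
    rw [Finset.mul_sum]
    linarith

/-- the contradiction -/
theorem contra (hodd : Odd (Nat.card G)) (i : ι) (hmin : ∀ j, j ≠ i → Nat.card (H i) < Nat.card (H j)) : False := by
  obtain ⟨z2, hz, hA⟩ := cover_sigma D hcop c hc hcover i
  have hB := cover_one D hcop hcover
  have hCn := norm_bound D hcop c hc i
  refine final_arith i (fun j => ((D j).t : ℝ)) (fun j => (Nat.card (H j) : ℝ)) (((H i).subgroupOf (L i)).index : ℝ) (c i) (fun j => c j i) (D i).a (Nat.card G : ℝ) z2 ?_ hz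
    (fun j => by exact_mod_cast (D j).ht2) (by exact_mod_cast (D i).he2) (fun j => by exact_mod_cast Nat.card_pos) (t_rel D i) (fun j hj => by exact_mod_cast hmin j hj) ?_ hA hB hCn
  · exact_mod_cast Nat.card_pos
  · intro j hj
    have h1 := parity (D i) (D j) (hcop i j hj.symm) hodd (hc i j hj.symm) (hc j i hj)
    by_contra hno
    push Not at hno
    rw [hno.1, hno.2] at h1
    exact absurd h1 (by decide)

end final

end CfsgLib.CNOdd6
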