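import Mathlib
set_option autoImplicit false
set_option linter.style.haveILetI false

/-! Steinberg symbols over finite fields are trivial. -/

namespace CfsgLib.StSym

variable {Γ F : Type*} [Group Γ] [Field F]

/-- `w(a) = x(a) y(-a⁻¹) x(a)` -/
def w (x y : F → Γ) (a : F) : Γ := x a * y (-a⁻¹) * x a

/-- `h(a) = w(a) w(-1)` -/
def h (x y : F → Γ) (a : F) : Γ := w x y a * w x y (-1)

structure WRel (x y : F → Γ) : Prop where
  xadd : ∀ a b, x a * x b = x (a + b)
  yadd : ∀ a b, y a * y b = y (a + b)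
  wx : ∀ a, a ≠ 0 → ∀ b, w x y a * x b * (w x y a)⁻¹ = y (-(b / a ^ 2))
  wy : ∀ a, a ≠ 0 → ∀ b, w x y a * y b * (w x y a)⁻¹ = x (-(a ^ 2 * b))

namespace WRel
variable {x y : F → Γ} (R : WRel x y)
include R

theorem x0 : x 0 = 1 := by
  have := R.xadd 0 0
  rw [add_zero] at this
  exact mul_eq_right.mp this

theorem y0 : y 0 = 1 := by
  have := R.yadd 0 0
  rw [add_zero] at this
  exact mul_eq_right.mp this

theorem xneg (t : F) : x (-t) = (x t)⁻¹ := by
  rw [eq_inv_iff_mul_eq_one, R.xadd, neg_add_cancel, R.x0]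

theorem yneg (t : F) : y (-t) = (y t)⁻¹ := by
  rw [eq_inv_iff_mul_eq_one, R.yadd, neg_add_cancel, R.y0]

theorem wneg (a : F) : w x y (-a) = (w x y a)⁻¹ := by
  unfold w
  have : y (-(-a)⁻¹) = (y (-a⁻¹))⁻¹ := by rw [← R.yneg]; congr 1; rw [inv_neg]
  rw [this, R.xneg]; group

/-- conjugation in `w` -/
theorem ww {a b : F} (ha : a ≠ 0) (_hb : b ≠ 0) :
    w x y a * w x y b * (w x y a)⁻¹ = y (-(b / a ^ 2)) * x (a ^ 2 * b⁻¹) * y (-(b / a ^ 2)) := by
  have h1 := R.wx a ha b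
  have h2 := R.wy a ha (-b⁻¹)
  have e : w x y a * w x y b * (w x y a)⁻¹ = (w x y a * x b * (w x y a)⁻¹) * (w x y a * y (-b⁻¹) * (w x y a)⁻¹) * (w x y a * x b * (w x y a)⁻¹) := by
    conv_lhs => rw [show w x y b = x b * y (-b⁻¹) * x b from rfl]
    group
  rw [e, h1, h2]
  congr 3
  ring

theorem w_y {c : F} (hc : c ≠ 0) : w x y c = y (-c⁻¹) * x c * y (-c⁻¹) := by
  have h1 := R.ww hc hc
  have e : w x y c * w x y c * (w x y c)⁻¹ = w x y c := by group
  rw [e] at h1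
  rw [h1]
  have e1 : c / c ^ 2 = c⁻¹ := by field_simp
  have e2 : c ^ 2 * c⁻¹ = c := by field_simp
  rw [e1, e2]

theorem ww' {a b : F} (ha : a ≠ 0) (hb : b ≠ 0) : w x y a * w x y b * (w x y a)⁻¹ = w x y (a ^ 2 * b⁻¹) := by
  rw [R.ww ha hb, R.w_y (mul_ne_zero (pow_ne_zero 2 ha) (inv_ne_zero hb))]
  have : (a ^ 2 * b⁻¹)⁻¹ = b / a ^ 2 := by rw [mul_inv, inv_inv, div_eq_mul_inv, mul_comm]
  rw [this]

theorem hw {a b : F} (ha : a ≠ 0) (hb : b ≠ 0) : h x y a * w x y b * (h x y a)⁻¹ = w x y (a ^ 2 * b) := by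
  have e : h x y a * w x y b * (h x y a)⁻¹ = w x y a * (w x y (-1) * w x y b * (w x y (-1))⁻¹) * (w x y a)⁻¹ := by unfold h; group
  rw [e, R.ww' (neg_ne_zero.mpr one_ne_zero) hb, R.ww' ha (by simpa using hb)]
  congr 1
  simp

theorem hh {a t : F} (ha : a ≠ 0) (ht : t ≠ 0) : h x y a * h x y t * (h x y a)⁻¹ = h x y (a ^ 2 * t) * (h x y (a ^ 2))⁻¹ := by
  have e : h x y a * h x y t * (h x y a)⁻¹ = (h x y a * w x y t * (h x y a)⁻¹) * (h x y a * w x y (-1) * (h x y a)⁻¹) := by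
    conv_lhs => rw [show h x y t = w x y t * w x y (-1) from rfl]
    group
  rw [e, R.hw ha ht, R.hw ha (neg_ne_zero.mpr one_ne_zero)]
  have e2 : h x y (a ^ 2) = w x y (a ^ 2) * w x y (-1) := rfl
  have e3 : h x y (a ^ 2 * t) = w x y (a ^ 2 * t) * w x y (-1) := rfl
  have e4 : a ^ 2 * (-1) = -(a ^ 2) := by ring
  rw [e2, e3, e4, R.wneg, R.wneg]; group

/-- `t + u = 1` -/
theorem h_add_one {t u : F} (ht : t ≠ 0) (hu : u ≠ 0) (htu : t + u = 1) : h x y t * h x y u = h x y (t * u) := by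
  -- `w(t) w(-1) w(u) = w(tu)`
  have key : w x y t * w x y (-1) * w x y u = w x y (t * u) := by
    have hy : -(t * u)⁻¹ = -t⁻¹ + -u⁻¹ := by
      have : (t * u)⁻¹ = t⁻¹ + u⁻¹ := by
        field_simp
        linear_combination -htu
      rw [this]; ring
    -- conjugates
    have c1 : y t⁻¹ * x (t ^ 2) * y (-t⁻¹) = x t * y (-1) * x (-t) := by
      have h1 := R.wx (-t) (neg_ne_zero.mpr ht) (t ^ 2)
      have h2 : y t⁻¹ = x t * w x y (-t) * x t := by
        unfold w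
        have : -(-t)⁻¹ = t⁻¹ := by rw [inv_neg, neg_neg]
        rw [this, R.xneg]; group
      have h3 : y (-t⁻¹) = (x t)⁻¹ * (w x y (-t))⁻¹ * (x t)⁻¹ := by rw [R.yneg, h2]; group
      have h4 : -(t ^ 2 / (-t) ^ 2) = -1 := by
        have : (-t) ^ 2 = t ^ 2 := by ring
        rw [this, div_self (pow_ne_zero 2 ht)]
      rw [h4] at h1
      rw [h2, h3, ← h1, R.xneg]
      have h5 : x t * x (t ^ 2) * (x t)⁻¹ = x (t ^ 2) := by
        rw [← R.xneg, R.xadd, R.xadd]; congr 1; ring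
      calc x t * w x y (-t) * x t * x (t ^ 2) * ((x t)⁻¹ * (w x y (-t))⁻¹ * (x t)⁻¹)
          = x t * w x y (-t) * (x t * x (t ^ 2) * (x t)⁻¹) * (w x y (-t))⁻¹ * (x t)⁻¹ := by group
        _ = _ := by rw [h5]; group
    have c2 : y (-u⁻¹) * x (u ^ 2) * y u⁻¹ = x (-u) * y (-1) * x u := by
      have h1 := R.wx u hu (u ^ 2)
      have h2 : y (-u⁻¹) = x (-u) * w x y u * x (-u) := by
        unfold w
        rw [R.xneg]; group
      have h3 : y u⁻¹ = (x (-u))⁻¹ * (w x y u)⁻¹ * (x (-u))⁻¹ := by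
        have : y u⁻¹ = (y (-u⁻¹))⁻¹ := by rw [R.yneg, inv_inv]
        rw [this, h2]; group
      have h4 : -(u ^ 2 / u ^ 2) = -1 := by rw [div_self (pow_ne_zero 2 hu)]
      rw [h4] at h1
      rw [h2, h3, ← h1]
      have h5 : x (-u) * x (u ^ 2) * (x (-u))⁻¹ = x (u ^ 2) := by
        rw [← R.xneg, R.xadd, R.xadd]; congr 1; ring
      calc x (-u) * w x y u * x (-u) * x (u ^ 2) * ((x (-u))⁻¹ * (w x y u)⁻¹ * (x (-u))⁻¹)
          = x (-u) * w x y u * (x (-u) * x (u ^ 2) * (x (-u))⁻¹) * (w x y u)⁻¹ * (x (-u))⁻¹ := by group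
        _ = x (-u) * w x y u * x (u ^ 2) * (w x y u)⁻¹ * (x (-u))⁻¹ := by rw [h5]
        _ = _ := by
          have : (x (-u))⁻¹ = x u := by rw [R.xneg, inv_inv]
          rw [this]; group
    -- assembling
    have e1 : w x y t = x t * y (-t⁻¹) * x t := rfl
    have e2 : w x y u = x u * y (-u⁻¹) * x u := rfl
    have e3 : w x y (t * u) = x (t * u) * (y (-t⁻¹) * y (-u⁻¹)) * x (t * u) := by
      unfold w; rw [hy, R.yadd]
    have e4 : w x y (-1) = x (-1) * y 1 * x (-1) := by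
      unfold w; simp
    -- final identity
    have e5 : x (t ^ 2) * y (-t⁻¹) * x (-u) * y 1 * x (-t) * y (-u⁻¹) * x (u ^ 2) = y (-t⁻¹) * y (-u⁻¹) := by
      have f1 : x (t ^ 2) * y (-t⁻¹) = y (-t⁻¹) * (x t * y (-1) * x (-t)) := by
        rw [← c1, R.yneg]; group
      have f2 : y (-u⁻¹) * x (u ^ 2) = (x (-u) * y (-1) * x u) * y (-u⁻¹) := by
        rw [← c2, mul_assoc, R.yadd, add_neg_cancel, R.y0, mul_one]
      have f3 : x (t ^ 2) * y (-t⁻¹) * x (-u) * y 1 * x (-t) * y (-u⁻¹) * x (u ^ 2) =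
          y (-t⁻¹) * (x t * y (-1) * (x (-t) * x (-u)) * y 1 * (x (-t) * x (-u)) * y (-1) * x u) * y (-u⁻¹) := by
        calc x (t ^ 2) * y (-t⁻¹) * x (-u) * y 1 * x (-t) * y (-u⁻¹) * x (u ^ 2)
            = (x (t ^ 2) * y (-t⁻¹)) * x (-u) * y 1 * x (-t) * (y (-u⁻¹) * x (u ^ 2)) := by group
          _ = _ := by rw [f1, f2]; group
      have f4 : x (-t) * x (-u) = x (-1) := by rw [R.xadd]; congr 1; linear_combination -htu
      have f5 : x t * y (-1) * x (-1) * y 1 * x (-1) * y (-1) * x u = 1 := by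
        -- `y(-1) w(-1) y(-1) = x(-1)`
        have g1 : y (-1) * w x y (-1) * y (-1) = x (-1) := by
          have g2 := R.w_y (c := (-1 : F)) (neg_ne_zero.mpr one_ne_zero)
          have : -(-1 : F)⁻¹ = 1 := by simp
          rw [this] at g2
          rw [g2, R.yneg]; group
        calc x t * y (-1) * x (-1) * y 1 * x (-1) * y (-1) * x u = x t * (y (-1) * (x (-1) * y 1 * x (-1)) * y (-1)) * x u := by group
          _ = x t * x (-1) * x u := by rw [← e4, g1]
          _ = 1 := by rw [R.xadd, R.xadd, ← R.x0]; congr 1; linear_combination htu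
      rw [f3, f4, f5, mul_one]
    have e6 : x t = x (t * u) * x (t ^ 2) := by rw [R.xadd]; congr 1; linear_combination -t * htu
    have e7 : x u = x (u ^ 2) * x (t * u) := by rw [R.xadd]; congr 1; linear_combination -u * htu
    have e8 : x t * x (-1) = x (-u) := by rw [R.xadd]; congr 1; linear_combination htu
    have e9 : x (-1) * x u = x (-t) := by rw [R.xadd]; congr 1; linear_combination htu
    calc w x y t * w x y (-1) * w x y u = x t * y (-t⁻¹) * (x t * x (-1)) * y 1 * (x (-1) * x u) * y (-u⁻¹) * x u := by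
          rw [e1, e2, e4]; group
      _ = x (t * u) * (x (t ^ 2) * y (-t⁻¹) * x (-u) * y 1 * x (-t) * y (-u⁻¹) * x (u ^ 2)) * x (t * u) := by
          rw [e8, e9]
          conv_lhs => rw [e6, e7]
          group
      _ = _ := by rw [e5, e3]
  unfold h
  rw [← key]; group

variable (hz : ∀ t u : F, t ≠ 0 → u ≠ 0 → h x y t * h x y u * (h x y (t * u))⁻¹ ∈ Subgroup.center Γ)
include hz

theorem h_pow {v : F} (hv : v ≠ 0) (n : ℕ) : ∃ z ∈ Subgroup.center Γ, h x y (v ^ n) = z * h x y v ^ n := by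
  induction n with
  | zero => exact ⟨1, one_mem _, by rw [pow_zero, pow_zero, mul_one]; unfold h; rw [R.wneg]; group⟩
  | succ n ih =>
    obtain ⟨z, hz', e⟩ := ih
    have h1 := hz (v ^ n) v (pow_ne_zero n hv) hv
    refine ⟨(h x y (v ^ n) * h x y v * (h x y (v ^ n * v))⁻¹)⁻¹ * z, mul_mem (inv_mem h1) hz', ?_⟩
    have h2 := Subgroup.mem_center_iff.mp h1
    rw [pow_succ v n]
    set c := h x y (v ^ n) * h x y v * (h x y (v ^ n * v))⁻¹ with hc
    have h3 : h x y (v ^ n * v) = c⁻¹ * (h x y (v ^ n) * h x y v) := by rw [hc]; group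
    rw [h3, e, pow_succ]; group

theorem h_comm [Finite F] {t u : F} (ht : t ≠ 0) (hu : u ≠ 0) : h x y t * h x y u = h x y u * h x y t := by
  classical
  obtain ⟨v, hv⟩ := IsCyclic.exists_generator (α := Fˣ)
  have hp : ∀ t : F, t ≠ 0 → ∃ n : ℕ, t = (v : F) ^ n := by
    intro t ht
    have h1 := hv (Units.mk0 t ht)
    rw [mem_zpowers_iff_mem_range_orderOf] at h1
    rw [Finset.mem_image] at h1
    obtain ⟨n, _, h1⟩ := h1
    refine ⟨n, ?_⟩
    have := congrArg Units.val h1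
    rw [Units.val_mk0] at this
    rw [← this]; simp
  obtain ⟨n, rfl⟩ := hp t ht
  obtain ⟨m, rfl⟩ := hp u hu
  obtain ⟨z, hz1, e1⟩ := R.h_pow hz (Units.ne_zero v) n
  obtain ⟨z', hz2, e2⟩ := R.h_pow hz (Units.ne_zero v) m
  rw [e1, e2]
  have c1 := Subgroup.mem_center_iff.mp hz1
  have c2 := Subgroup.mem_center_iff.mp hz2
  calc z * h x y v ^ n * (z' * h x y v ^ m) = z * (h x y v ^ n * z') * h x y v ^ m := by group
    _ = z * z' * (h x y v ^ (n + m)) := by rw [c2, pow_add]; group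
    _ = z' * z * (h x y v ^ (m + n)) := by rw [c1 z', add_comm]
    _ = z' * (z * h x y v ^ m) * h x y v ^ n := by rw [pow_add]; group
    _ = _ := by rw [← c1]; group

theorem h_sq [Finite F] {t u : F} (ht : t ≠ 0) (hu : u ≠ 0) : h x y t * h x y (u ^ 2) = h x y (t * u ^ 2) := by
  have h1 := R.hh hu ht
  have h2 := R.h_comm hz hu ht
  have e : h x y u * h x y t * (h x y u)⁻¹ = h x y t := by rw [h2]; group
  rw [e] at h1
  rw [mul_comm t, h1]; group

theorem h_mul [Finite F] {t u : F} (ht : t ≠ 0) (hu : u ≠ 0) : h x y t * h x y u = h x y (t * u) := by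
  haveI : Fintype F := Fintype.ofFinite F
  have sqcase : ∀ t u : F, t ≠ 0 → u ≠ 0 → IsSquare u → h x y t * h x y u = h x y (t * u) := by
    rintro t u ht hu ⟨v, rfl⟩
    have hv : v ≠ 0 := by rintro rfl; simp at hu
    have := R.h_sq hz ht hv
    rwa [pow_two] at this
  by_cases hsu : IsSquare u
  · exact sqcase t u ht hu hsu
  by_cases hst : IsSquare t
  · rw [R.h_comm hz ht hu, mul_comm t u]; exact sqcase u t hu ht hst
  -- both non-squares
  have hchar : ringChar F ≠ 2 := by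
    intro h2
    exact hsu (FiniteField.isSquare_of_char_two h2 u)
  classical
  have hprod : ∀ a b : F, a ≠ 0 → b ≠ 0 → ¬ IsSquare a → ¬ IsSquare b → ∃ c : F, c ≠ 0 ∧ a = b * c ^ 2 := by
    intro a b ha hb hna hnb
    have h1 : IsSquare (a * b) := by
      rw [← quadraticChar_one_iff_isSquare (mul_ne_zero ha hb), map_mul,
        (quadraticChar_neg_one_iff_not_isSquare (F := F)).mpr hna, (quadraticChar_neg_one_iff_not_isSquare (F := F)).mpr hnb]
      norm_num
    obtain ⟨d, hd⟩ := h1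
    have hd0 : d ≠ 0 := by rintro rfl; simp at hd; exact hd.elim ha hb
    refine ⟨d / b, div_ne_zero hd0 hb, ?_⟩
    field_simp
    linear_combination hd
  obtain ⟨c, hc⟩ := FiniteField.exists_nonsquare hchar
  have hc0 : c ≠ 0 := by rintro rfl; exact hc (IsSquare.zero)
  -- `c a² + c b² = 1`
  obtain ⟨a, b, hab⟩ : ∃ a b : F, c * a ^ 2 + c * b ^ 2 = 1 := by
    have h2 := FiniteField.exists_root_sum_quadratic (R := F) (f := Polynomial.C c * Polynomial.X ^ 2) (g := Polynomial.C c * Polynomial.X ^ 2 - Polynomial.C 1)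
      (by rw [Polynomial.degree_C_mul_X_pow 2 hc0]; rfl)
      (by
        rw [Polynomial.degree_sub_C]
        · rw [Polynomial.degree_C_mul_X_pow 2 hc0]; rfl
        · rw [Polynomial.degree_C_mul_X_pow 2 hc0]; exact (by norm_num))
      (FiniteField.odd_card_of_char_ne_two hchar)
    obtain ⟨a, b, h3⟩ := h2
    refine ⟨a, b, ?_⟩
    simp only [Polynomial.eval_mul, Polynomial.eval_C, Polynomial.eval_pow, Polynomial.eval_X, Polynomial.eval_sub] at h3
    linear_combination h3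
  have hc1 : ∀ e : F, c * e ^ 2 ≠ 1 := by
    intro e he
    apply hc
    have he0 : e ≠ 0 := by rintro rfl; simp at he
    refine ⟨e⁻¹, ?_⟩
    field_simp
    linear_combination he
  have ha0 : a ≠ 0 := by
    rintro rfl
    exact hc1 b (by linear_combination hab)
  have hb0 : b ≠ 0 := by
    rintro rfl
    exact hc1 a (by linear_combination hab)
  have hns : ∀ e : F, e ≠ 0 → ¬ IsSquare (c * e ^ 2) := by
    rintro e he ⟨d, hd⟩
    apply hc
    refine ⟨d / e, ?_⟩
    field_simp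
    linear_combination hd
  have hr0 : c * a ^ 2 ≠ 0 := mul_ne_zero hc0 (pow_ne_zero 2 ha0)
  have hs0 : c * b ^ 2 ≠ 0 := mul_ne_zero hc0 (pow_ne_zero 2 hb0)
  obtain ⟨a', ha', e1⟩ := hprod t _ ht hr0 hst (hns a ha0)
  obtain ⟨b', hb', e2⟩ := hprod u _ hu hs0 hsu (hns b hb0)
  have k1 := R.h_add_one hr0 hs0 hab
  have k2 := R.h_sq hz hr0 ha'
  have k3 := R.h_sq hz hs0 hb'
  set r := c * a ^ 2
  set s := c * b ^ 2
  rw [e1, e2, ← k2, ← k3]
  have k4 : h x y (a' ^ 2) * h x y s = h x y s * h x y (a' ^ 2) := R.h_comm hz (pow_ne_zero 2 ha') hs0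
  have k5 : h x y (a' ^ 2) * h x y (b' ^ 2) = h x y ((a' * b') ^ 2) := by
    rw [R.h_sq hz (pow_ne_zero 2 ha') hb', mul_pow]
  calc h x y r * h x y (a' ^ 2) * (h x y s * h x y (b' ^ 2)) = h x y r * (h x y (a' ^ 2) * h x y s) * h x y (b' ^ 2) := by group
    _ = (h x y r * h x y s) * (h x y (a' ^ 2) * h x y (b' ^ 2)) := by rw [k4]; group
    _ = h x y (r * s) * h x y ((a' * b') ^ 2) := by rw [k1, k5]
    _ = h x y (r * s * (a' * b') ^ 2) := R.h_sq hz (mul_ne_zero hr0 hs0) (mul_ne_zero ha' hb')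
    _ = _ := by congr 1; ring

end WRel

end CfsgLib.StSym
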