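import Cfsg.Agent.Lib.CSt4
import Cfsg.Agent.Lib.CSt7
set_option autoImplicit false
set_option maxRecDepth 1000000
set_option linter.style.haveILetI false

/-! (R3) follows from (R1), (R2) over finite fields. -/

namespace CfsgLib.Chev
open Cfsg.Lie Matrix

namespace StG
variable {D : ChevalleyDatum} {F : Type*} [Field F] {Γ : Type*} [Group Γ] (S : StG D F Γ)
include S

/-- rank one relations -/
def RelG (r : ℕ) : Prop := (∀ a : F, a ≠ 0 → ∀ b, S.Nh r a * S.X r b * (S.Nh r a)⁻¹ = S.X (D.neg r) (-(b / a ^ 2))) ∧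
  (∀ a : F, a ≠ 0 → ∀ b, S.Nh r a * S.X (D.neg r) b * (S.Nh r a)⁻¹ = S.X r (-(a ^ 2 * b)))

theorem ng_xgθ {i s : ℕ} (hi : i < D.rank) (hs : s < D.nroots) {a : F} (ha : a ≠ 0) (b : F) :
    ng D (D.simple i) a * xg D s b * (ng D (D.simple i) a)⁻¹ =
      xg D (D.reflectRoot i s) ((((Units.mk0 a ha) ^ D.pairing (D.simple i) (D.reflectRoot i s) : Fˣ) : F) * ((eta D S.T i s : ℤ) : F) * b) := by
  have hp := S.N.simple_lt i hi
  have h1 := S.ng_mul_ng (F := F) hp (Units.mk0 a ha)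
  rw [Units.val_mk0] at h1
  have e : ng D (D.simple i) a * xg D s b * (ng D (D.simple i) a)⁻¹ =
      dgg D (fun s => (Units.mk0 a ha) ^ D.pairing (D.simple i) s) * (ni D F i * xg D s b * (ni D F i)⁻¹) *
      (dgg D (fun s => (Units.mk0 a ha) ^ D.pairing (D.simple i) s))⁻¹ := by
    rw [h1]; unfold ni; group
  rw [e, S.ni_xg hi hs, S.dgg_xg (S.isWt_h hp _) (S.N.refl_lt hi hs), mul_assoc]

theorem relG_simple {i : ℕ} (hi : i < D.rank) : S.RelG (D.simple i) := by
  have hp := S.N.simple_lt i hi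
  have hn := S.N.neg_lt hp
  have hpp : D.pairing (D.simple i) (D.simple i) = 2 := by rw [S.pairing_simple hi hp, S.cartan_self hi]
  have hpn : D.pairing (D.simple i) (D.neg (D.simple i)) = -2 := by
    rw [S.pairing_simple hi hn, S.N.cartan_neg hp hi, S.cartan_self hi]
  constructor
  · intro a ha b
    have h1 := S.Nh_conj hi hp ha
    rw [S.N.refl_simple hi] at h1
    refine S.Cj_scalar hp hn h1 (c := -(1 / a ^ 2)) (fun u => ?_) b |>.trans ?_
    · rw [S.θN hp, S.ng_xgθ hi hp ha, S.N.refl_simple hi, hpn, S.N.eta_simple hi]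
      congr 1
      have e : (((Units.mk0 a ha) ^ (-2 : ℤ) : Fˣ) : F) = 1 / a ^ 2 := by
        rw [_root_.zpow_neg, Units.val_inv_eq_inv_val, Units.val_zpow_eq_zpow_val, Units.val_mk0, one_div]; norm_cast
      rw [e]; push_cast; ring
    · congr 1; ring
  · intro a ha b
    have h1 := S.Nh_conj hi hn ha
    rw [S.N.refl_neg hi hp, S.N.refl_simple hi, S.N.neg_neg hp] at h1
    refine S.Cj_scalar hn hp h1 (c := -(a ^ 2)) (fun u => ?_) b |>.trans ?_
    · rw [S.θN hp, S.ng_xgθ hi hn ha, S.N.refl_neg hi hp, S.N.refl_simple hi, S.N.neg_neg hp, hpp, S.N.eta_neg hi hp, S.N.eta_simple hi]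
      congr 1
      have e : (((Units.mk0 a ha) ^ (2 : ℤ) : Fˣ) : F) = a ^ 2 := by
        rw [Units.val_zpow_eq_zpow_val, Units.val_mk0]; norm_cast
      rw [e]; push_cast; ring
    · congr 1; ring

theorem relG_refl {i r : ℕ} (hi : i < D.rank) (hr : r < D.nroots) (h : S.RelG r) : S.RelG (D.reflectRoot i r) := by
  have hn := S.N.neg_lt hr
  set η : F := ((eta D S.T i r : ℤ) : F) with hη
  have hη2 : η * η = 1 := by rw [hη, ← Int.cast_mul, S.N.eta_sq hi hr, Int.cast_one]
  have hη0 : η ≠ 0 := by intro h0; rw [h0, zero_mul] at hη2; exact zero_ne_one hη2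
  have e1 : ∀ b, S.X (D.reflectRoot i r) b = S.nh i * S.X r (η * b) * (S.nh i)⁻¹ := by
    intro b; rw [S.nh_X hi hr, ← mul_assoc, hη2, one_mul]
  have e2 : ∀ b, S.X (D.neg (D.reflectRoot i r)) b = S.nh i * S.X (D.neg r) (η * b) * (S.nh i)⁻¹ := by
    intro b
    have hη' : ((eta D S.T i (D.neg r) : ℤ) : F) = η := by rw [S.N.eta_neg hi hr]
    rw [S.nh_X hi hn, hη', ← mul_assoc, hη2, one_mul, S.N.refl_neg hi hr]
  have e3 : ∀ a, S.Nh (D.reflectRoot i r) a = S.nh i * S.Nh r (η * a) * (S.nh i)⁻¹ := by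
    intro a; rw [S.nh_Nh hi hr, ← mul_assoc, hη2, one_mul]
  constructor
  · intro a ha b
    have h1 := h.1 (η * a) (mul_ne_zero hη0 ha) (η * b)
    rw [e3, e1, e2]
    calc S.nh i * S.Nh r (η * a) * (S.nh i)⁻¹ * (S.nh i * S.X r (η * b) * (S.nh i)⁻¹) * (S.nh i * S.Nh r (η * a) * (S.nh i)⁻¹)⁻¹
        = S.nh i * (S.Nh r (η * a) * S.X r (η * b) * (S.Nh r (η * a))⁻¹) * (S.nh i)⁻¹ := by group
      _ = _ := by
        rw [h1]
        congr 3
        rw [mul_pow, pow_two η, hη2, one_mul]; ring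
  · intro a ha b
    have h1 := h.2 (η * a) (mul_ne_zero hη0 ha) (η * b)
    rw [e3, e1, e2]
    calc S.nh i * S.Nh r (η * a) * (S.nh i)⁻¹ * (S.nh i * S.X (D.neg r) (η * b) * (S.nh i)⁻¹) * (S.nh i * S.Nh r (η * a) * (S.nh i)⁻¹)⁻¹
        = S.nh i * (S.Nh r (η * a) * S.X (D.neg r) (η * b) * (S.Nh r (η * a))⁻¹) * (S.nh i)⁻¹ := by group
      _ = _ := by
        rw [h1]
        congr 3
        rw [mul_pow, pow_two η, hη2, one_mul]; ring

theorem relG {r : ℕ} (hr : r < D.nroots) : S.RelG r :=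
  S.root_ind (P := fun r => S.RelG r) (fun _ hi => S.relG_simple hi) (fun _ hi _ hr h => S.relG_refl hi hr h) r hr

theorem wrel {r : ℕ} (hr : r < D.nroots) : CfsgLib.StSym.WRel (S.X r) (S.X (D.neg r)) where
  xadd := S.add r hr
  yadd := S.add _ (S.N.neg_lt hr)
  wx := (S.relG hr).1
  wy := (S.relG hr).2

/-- `ĥ_r(t)` for any root -/
def hr (r : ℕ) (t : F) : Γ := S.Nh r t * S.Nh r (-1)

theorem hr_central {r : ℕ} (hr : r < D.nroots) {t u : F} (ht : t ≠ 0) (hu : u ≠ 0) :
    S.hr r t * S.hr r u * (S.hr r (t * u))⁻¹ ∈ Subgroup.center Γ := by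
  apply S.ker_le_center
  rw [MonoidHom.mem_ker]
  have e : ∀ c : Fˣ, S.θ (S.hr r (c : F)) = dgg D (fun s => c ^ D.pairing r s) := by
    intro c
    unfold CfsgLib.Chev.StG.hr
    rw [map_mul, S.θN hr, S.θN hr, S.ng_neg, S.ng_mul_ng hr c, mul_assoc, mul_inv_cancel, mul_one]
  have e1 := e (Units.mk0 t ht)
  have e2 := e (Units.mk0 u hu)
  have e3 := e (Units.mk0 t ht * Units.mk0 u hu)
  rw [Units.val_mul, Units.val_mk0, Units.val_mk0] at e3
  rw [Units.val_mk0] at e1 e2
  rw [map_mul, map_mul, map_inv, e1, e2, e3, ← map_mul, mul_inv_eq_one]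
  congr 1
  ext s
  simp only [Pi.mul_apply, mul_zpow]

theorem hr_mul [Finite F] {r : ℕ} (hr : r < D.nroots) {t u : F} (ht : t ≠ 0) (hu : u ≠ 0) :
    S.hr r t * S.hr r u = S.hr r (t * u) :=
  (S.wrel hr).h_mul (fun _ _ ht hu => S.hr_central hr ht hu) ht hu

end StG

theorem cov_R3 {D : ChevalleyDatum} {F : Type*} [Field F] [Finite F] (M : CG D F) (hok : StOK D) {r : ℕ} (hr : r < D.nroots) {t u : F}
    (ht : t ≠ 0) (hu : u ≠ 0) :
    PresentedGroup.mk (D.steinbergRelsAB F) (D.stH r t * D.stH r u * (D.stH r (t * u))⁻¹) = 1 := by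
  have h := (stCov M hok).hr_mul hr ht hu
  have e : ∀ t : F, PresentedGroup.mk (D.steinbergRelsAB F) (D.stH r t) = (stCov M hok).hr r t := by
    intro t
    unfold ChevalleyDatum.stH ChevalleyDatum.stWord ChevalleyDatum.hWord ChevalleyDatum.nWord StG.hr StG.Nh
    simp only [List.cons_append, List.nil_append, List.map_cons, List.map_nil, List.prod_cons, List.prod_nil, mul_one, map_mul]
    simp only [stCov_X, ChevalleyDatum.scGen]
    group
  rw [map_mul, map_mul, map_inv, e, e, e, h, mul_inv_cancel]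

/-- isomorphism over a finite field -/
theorem exists_equiv {D : ChevalleyDatum} {F : Type*} [Field F] [Finite F] (M : CG D F) (hok : StOK D) :
    ∃ e : D.SteinbergCover F ≃* D.SteinbergGroup F, ∀ (r : ℕ) (t : F), e (D.scGen F r t) = D.stGen F r t := by
  have h1 : ∀ g ∈ D.steinbergRelsAB F, FreeGroup.lift (fun p => (PresentedGroup.of p : D.SteinbergGroup F)) g = 1 := by
    intro g hg
    have : FreeGroup.lift (fun p => (PresentedGroup.of p : D.SteinbergGroup F)) g = PresentedGroup.mk (D.steinbergRels F) g := by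
      congr 1
      ext p
      simp [PresentedGroup.of]
    rw [this]
    exact PresentedGroup.one_of_mem (relsAB_le D hg)
  have h2 : ∀ g ∈ D.steinbergRels F, FreeGroup.lift (fun p => (PresentedGroup.of p : D.SteinbergCover F)) g = 1 := by
    intro g hg
    have : FreeGroup.lift (fun p => (PresentedGroup.of p : D.SteinbergCover F)) g = PresentedGroup.mk (D.steinbergRelsAB F) g := by
      congr 1
      ext p
      simp [PresentedGroup.of]
    rw [this]
    rcases hg with hg | ⟨r, t, u, hr, ht, hu, rfl⟩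
    · exact PresentedGroup.one_of_mem hg
    · exact cov_R3 M hok hr ht hu
  refine ⟨MonoidHom.toMulEquiv (PresentedGroup.toGroup h1) (PresentedGroup.toGroup h2) ?_ ?_, ?_⟩
  · apply PresentedGroup.ext; intro x; simp
  · apply PresentedGroup.ext; intro x; simp
  · intro r t
    change PresentedGroup.toGroup h1 (PresentedGroup.mk _ (D.stX r t)) = PresentedGroup.mk _ (D.stX r t)
    unfold ChevalleyDatum.stX
    split_ifs with h
    · exact PresentedGroup.toGroup.of h1
    · rw [map_one, map_one, map_one]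

end CfsgLib.Chev
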