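import Cfsg.Agent.Lib.CExt7
import Cfsg.Agent.Lib.CSt6
import Cfsg.Agent.Lib.CSt8
import Cfsg.Prelude.Def_KGroupFacts
set_option autoImplicit false
set_option maxRecDepth 1000000
set_option linter.style.haveILetI false

/-! Schur multipliers of the Chevalley groups. -/

namespace CfsgLib.Chev
open Cfsg.Lie Matrix
open scoped commutatorElement

universe u w

namespace StG
variable {D : ChevalleyDatum} {F : Type*} [Field F] {Γ : Type*} [Group Γ] (S : StG D F Γ)

theorem hprd_congr {τ τ' : ℕ → Fˣ} (h : ∀ i < D.rank, τ i = τ' i) : S.hprd τ = S.hprd τ' := by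
  unfold hprd
  congr 1
  apply List.map_congr_left
  intro i hi
  rw [h i (List.mem_range.mp hi)]

variable {S} in
theorem finite_ker [Finite F] (h3 : S.R3) : Finite S.θ.ker := by
  classical
  let f : (Fin D.rank → Fˣ) → Γ := fun g => S.hprd (fun i => if h : i < D.rank then g ⟨i, h⟩ else 1)
  have h : (S.θ.ker : Set Γ) ⊆ Set.range f := by
    intro z hz
    obtain ⟨τ, rfl, -⟩ := ker_form h3 hz
    refine ⟨fun i => τ i, ?_⟩
    apply S.hprd_congr
    intro i hi
    rw [dif_pos hi]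
  exact (Set.finite_range f).subset h

variable {S} in
theorem finite_of_R3 [Finite F] (h3 : S.R3) : Finite Γ := by
  haveI := finite_ker h3
  haveI : Finite (GL D.Idx F) := inferInstance
  haveI : Finite (Γ ⧸ S.θ.ker) := Finite.of_equiv _ (QuotientGroup.quotientKerEquivRange S.θ).symm.toEquiv
  exact Finite.of_subgroup_quotient S.θ.ker

end StG

/-- if `Γ = A Z` with `Z` central then `[Γ,Γ] ≤ A` -/
theorem comm_le_of_central {Γ : Type*} [Group Γ] {A : Subgroup Γ} (h : ∀ g : Γ, ∃ a ∈ A, ∃ z ∈ Subgroup.center Γ, g = a * z) : commutator Γ ≤ A := by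
  rw [commutator_def, Subgroup.commutator_le]
  intro g _ k _
  obtain ⟨a, ha, z, hz, rfl⟩ := h g
  obtain ⟨b, hb, y, hy, rfl⟩ := h k
  have cz := Subgroup.mem_center_iff.mp hz
  have cy := Subgroup.mem_center_iff.mp hy
  have e : ⁅a * z, b * y⁆ = a * b * a⁻¹ * b⁻¹ := by
    rw [commutatorElement_def]
    have e1 : a * z * (b * y) * (a * z)⁻¹ * (b * y)⁻¹ = a * (z * (b * y) * z⁻¹) * a⁻¹ * (b * y)⁻¹ := by group
    have e2 : z * (b * y) * z⁻¹ = b * y := by rw [← cz, mul_assoc, mul_inv_cancel, mul_one]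
    have e3 : a * (b * y) * a⁻¹ * (b * y)⁻¹ = a * b * (y * a⁻¹ * y⁻¹) * b⁻¹ := by group
    have e4 : y * a⁻¹ * y⁻¹ = a⁻¹ := by rw [← cy, mul_assoc, mul_inv_cancel, mul_one]
    rw [e1, e2, e3, e4]
  rw [e]
  exact mul_mem (mul_mem (mul_mem ha hb) (inv_mem ha)) (inv_mem hb)

/-- kernels of stem extensions are quotients of the centre of the Steinberg group -/
theorem stem_ker {D : ChevalleyDatum} {F : Type u} [Field F] [Finite F] (M : CG D F) (hok : StOK D)
    {Γ : Type u} [Group Γ] (hL : ∀ (S : CExt D F Γ), S.toCG = M → Lifts S) (σ : Γ →* ↥(D.group F)) (hσ : Cfsg.IsStemExtension σ) :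
    ∃ φ : ↥(Subgroup.center (D.SteinbergGroup F)) →* ↥σ.ker, Function.Surjective φ := by
  obtain ⟨hs, hc, hcm⟩ := hσ
  have hker : ((D.group F).subtype.comp σ).ker = σ.ker := by
    ext x
    simp only [MonoidHom.mem_ker, MonoidHom.comp_apply, Subgroup.coe_subtype, OneMemClass.coe_eq_one]
  have hrng : ((D.group F).subtype.comp σ).range = D.group F := by
    apply le_antisymm
    · rintro _ ⟨x, rfl⟩; exact (σ x).2
    · intro g hg
      obtain ⟨x, hx⟩ := hs ⟨g, hg⟩
      exact ⟨x, congrArg Subtype.val hx⟩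
  let S : CExt D F Γ := { M with ρ := (D.group F).subtype.comp σ, rng := hrng, cen := by rw [hker]; exact hc }
  obtain ⟨τ, hτ⟩ := exists_hom_of_lifts (hL S rfl) hok
  obtain ⟨e, he⟩ := exists_equiv M hok
  -- `τ' : Ḡ → Γ`
  let τ' : D.SteinbergGroup F →* Γ := τ.comp e.symm.toMonoidHom
  have hτ' : ∀ g, ((σ (τ' g) : ↥(D.group F)) : GL D.Idx F) = (stGrp M hok).θ g := by
    intro g
    have h1 : ((σ (τ' g) : ↥(D.group F)) : GL D.Idx F) = (stCov M hok).θ (e.symm g) := DFunLike.congr_fun hτ (e.symm g)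
    rw [h1]
    have h2 : (stCov M hok).θ = (stGrp M hok).θ.comp e.toMonoidHom := by
      have h3 : (stCov M hok).θG = (stGrp M hok).θG.comp e.toMonoidHom := by
        symm
        apply (stCov M hok).θ_unique
        intro r t hr
        change (((stGrp M hok).θG (e (D.scGen F r t)) : GL D.Idx F) : Matrix D.Idx D.Idx F) = _
        rw [he]
        exact (stGrp M hok).θG_X hr t
      ext1 x
      have := congrArg Subtype.val (DFunLike.congr_fun h3 (PresentedGroup.of x))
      exact this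
    rw [h2]
    change (stGrp M hok).θ (e (e.symm g)) = _
    rw [e.apply_symm_apply]
  have hcomm : commutator Γ ≤ τ'.range := by
    apply comm_le_of_central
    intro g
    obtain ⟨y, hy⟩ := (stGrp M hok).θG_surj (σ g)
    refine ⟨τ' y, ⟨y, rfl⟩, (τ' y)⁻¹ * g, ?_, by group⟩
    apply hc
    rw [MonoidHom.mem_ker, map_mul, map_inv]
    have : σ (τ' y) = σ g := by
      apply Subtype.ext
      rw [hτ', ← hy]; rfl
    rw [this, inv_mul_cancel]
  have hcen : ∀ z ∈ Subgroup.center (D.SteinbergGroup F), τ' z ∈ σ.ker := by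
    intro z hz
    rw [← (stGrp M hok).ker_eq, MonoidHom.mem_ker] at hz
    rw [MonoidHom.mem_ker]
    apply Subtype.ext
    rw [hτ', hz]; rfl
  refine ⟨(τ'.comp (Subgroup.center (D.SteinbergGroup F)).subtype).codRestrict σ.ker (fun z => hcen z z.2), ?_⟩
  rintro ⟨k, hk⟩
  obtain ⟨z, hz⟩ := hcomm (hcm hk)
  have hz1 : z ∈ Subgroup.center (D.SteinbergGroup F) := by
    rw [← (stGrp M hok).ker_eq, MonoidHom.mem_ker, ← hτ', hz, MonoidHom.mem_ker.mp hk]; rfl
  exact ⟨⟨z, hz1⟩, Subtype.ext hz⟩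

/-- the Steinberg group is perfect when the cover is -/
theorem stGrp_perfect {D : ChevalleyDatum} {F : Type u} [Field F] [Finite F] (M : CG D F) (hok : StOK D)
    (hp : commutator (D.SteinbergCover F) = ⊤) : commutator (D.SteinbergGroup F) = ⊤ := by
  obtain ⟨e, -⟩ := exists_equiv M hok
  have h1 : (commutator (D.SteinbergCover F)).map e.toMonoidHom = commutator (D.SteinbergGroup F) := by
    rw [commutator_def, commutator_def, Subgroup.map_commutator, ← MonoidHom.range_eq_map, MonoidHom.range_eq_top.mpr e.surjective]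
  rw [← h1, hp, ← MonoidHom.range_eq_map, MonoidHom.range_eq_top.mpr e.surjective]

theorem hasSchur {D : ChevalleyDatum} {F : Type u} [Field F] [Finite F] (M : CG D F) (hok : StOK D)
    (hp : commutator (D.SteinbergCover F) = ⊤)
    (hL : ∀ (P : Type u) [Group P] (S : CExt D F P), S.toCG = M → Lifts S) {n : ℕ}
    (hn : Nonempty (↥(Subgroup.center (D.SteinbergGroup F)) ≃* Multiplicative (ZMod n))) : Cfsg.HasCyclicSchurMultiplier ↥(D.group F) n := by
  obtain ⟨f⟩ := hn
  refine ⟨⟨D.SteinbergGroup F, inferInstance, StG.finite_of_R3 (stGrp_R3 M hok), (stGrp M hok).θG, ⟨?_, ?_, ?_⟩, ?_⟩, ?_⟩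
  · exact (stGrp M hok).θG_surj
  · rw [(stGrp M hok).θG_ker]; exact (stGrp M hok).ker_le_center
  · rw [stGrp_perfect M hok hp]; exact le_top
  · rw [(stGrp M hok).θG_ker, (stGrp M hok).ker_eq]; exact ⟨f⟩
  · intro Γ _ _ σ hσ
    obtain ⟨φ, hφ⟩ := stem_ker M hok (hL Γ) σ hσ
    exact ⟨φ.comp f.symm.toMonoidHom, hφ.comp f.symm.surjective⟩

theorem hasSchur_one {D : ChevalleyDatum} {F : Type u} [Field F] [Finite F] (M : CG D F) (hok : StOK D)
    (hp : commutator (D.SteinbergCover F) = ⊤)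
    (hL : ∀ (P : Type u) [Group P] (S : CExt D F P), S.toCG = M → Lifts S)
    (hc : Subgroup.center (D.SteinbergGroup F) = ⊥) : Cfsg.HasCyclicSchurMultiplier ↥(D.group F) 1 := by
  apply hasSchur M hok hp hL
  rw [hc]
  haveI : Unique ↥(⊥ : Subgroup (D.SteinbergGroup F)) := inferInstance
  haveI : Unique (Multiplicative (ZMod 1)) := ⟨⟨1⟩, fun a => Subsingleton.elim (α := ZMod 1) _ _⟩
  exact ⟨MulEquiv.ofUnique⟩

end CfsgLib.Chev
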