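import Cfsg.Agent.Lib.CGrp12
set_option autoImplicit false
set_option linter.style.haveILetI false

/-! Groups with Steinberg's relations (R1), (R2) over a Chevalley group. -/

namespace CfsgLib.Chev
open Cfsg.Lie Matrix

/-- every simple root is a term of a commutator relation of other roots with positive terms -/
def StOK (D : ChevalleyDatum) : Prop := ∀ i < D.rank, ∃ s1 s2 : ℕ, s1 < D.nroots ∧ s2 < D.nroots ∧ s2 ≠ s1 ∧ s2 ≠ D.neg s1 ∧
  s1 ≠ D.simple i ∧ s1 ≠ D.neg (D.simple i) ∧ s2 ≠ D.simple i ∧ s2 ≠ D.neg (D.simple i) ∧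
  ∃ (pre post : List (ℕ × ℤ × ℕ × ℕ)) (c : ℤ) (a b : ℕ), D.commTerms s1 s2 = pre ++ (D.simple i, c, a, b) :: post ∧ (c = 1 ∨ c = -1) ∧
    (a = 1 ∨ b = 1) ∧ (∀ w ∈ pre, D.nroots / 2 ≤ w.1 ∧ w.1 ≠ D.simple i) ∧ (∀ w ∈ post, D.nroots / 2 ≤ w.1 ∧ w.1 ≠ D.simple i) ∧
    (∀ w ∈ D.commTerms (D.reflectRoot i s1) (D.reflectRoot i s2), w.1 = D.neg (D.simple i) ∨ (D.nroots / 2 ≤ w.1 ∧ w.1 ≠ D.simple i))

/-- computable check: data `(s1, s2, k)` with `k` the position -/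
def stChk (D : ChevalleyDatum) (L : List (ℕ × ℕ × ℕ)) : Bool :=
  (List.range D.rank).all fun i =>
    let p := L.getD i (0, 0, 0)
    let W := D.commTerms p.1 p.2.1
    let x := W.getD p.2.2 (0, 0, 0, 0)
    decide (p.1 < D.nroots ∧ p.2.1 < D.nroots ∧ p.2.1 ≠ p.1 ∧ p.2.1 ≠ D.neg p.1 ∧ p.1 ≠ D.simple i ∧ p.1 ≠ D.neg (D.simple i) ∧
      p.2.1 ≠ D.simple i ∧ p.2.1 ≠ D.neg (D.simple i)) &&
    decide (p.2.2 < W.length ∧ x.1 = D.simple i ∧ (x.2.1 = 1 ∨ x.2.1 = -1) ∧ (x.2.2.1 = 1 ∨ x.2.2.2 = 1)) &&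
    ((W.take p.2.2).all fun w => decide (D.nroots / 2 ≤ w.1 ∧ w.1 ≠ D.simple i)) &&
    ((W.drop (p.2.2 + 1)).all fun w => decide (D.nroots / 2 ≤ w.1 ∧ w.1 ≠ D.simple i)) &&
    ((D.commTerms (D.reflectRoot i p.1) (D.reflectRoot i p.2.1)).all fun w =>
      decide (w.1 = D.neg (D.simple i) ∨ (D.nroots / 2 ≤ w.1 ∧ w.1 ≠ D.simple i)))

theorem stOK_of_chk {D : ChevalleyDatum} {L : List (ℕ × ℕ × ℕ)} (h : stChk D L = true) : StOK D := by
  intro i hi
  unfold stChk at h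
  rw [List.all_eq_true] at h
  have h1 := h i (List.mem_range.mpr hi)
  simp only [Bool.and_eq_true, decide_eq_true_eq, List.all_eq_true] at h1
  obtain ⟨⟨⟨⟨⟨a1, a2, a3, a4, a5, a6, a7, a8⟩, b1, b2, b3, b4⟩, c1⟩, c2⟩, c3⟩ := h1
  set p := L.getD i (0, 0, 0)
  set W := D.commTerms p.1 p.2.1
  refine ⟨p.1, p.2.1, a1, a2, a3, a4, a5, a6, a7, a8, W.take p.2.2, W.drop (p.2.2 + 1), (W.getD p.2.2 (0, 0, 0, 0)).2.1,
    (W.getD p.2.2 (0, 0, 0, 0)).2.2.1, (W.getD p.2.2 (0, 0, 0, 0)).2.2.2, ?_, b3, b4, c1, c2, c3⟩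
  have e : W.getD p.2.2 (0, 0, 0, 0) = W[p.2.2] := by
    rw [List.getD_eq_getElem?_getD, List.getElem?_eq_getElem b1, Option.getD_some]
  have e2 : (D.simple i, (W.getD p.2.2 (0, 0, 0, 0)).2.1, (W.getD p.2.2 (0, 0, 0, 0)).2.2.1, (W.getD p.2.2 (0, 0, 0, 0)).2.2.2) = W[p.2.2] := by
    rw [← b2, ← e]
  rw [e2]
  have e3 := List.drop_eq_getElem_cons b1
  rw [← e3, List.take_append_drop]

/-- a group with (R1), (R2) over the Chevalley group -/
structure StG (D : ChevalleyDatum) (F : Type*) [Field F] (Γ : Type*) [Group Γ] extends CG D F where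
  X : ℕ → F → Γ
  θ : Γ →* GL D.Idx F
  add : ∀ r < D.nroots, ∀ t u, X r t * X r u = X r (t + u)
  com : ∀ r < D.nroots, ∀ s < D.nroots, s ≠ r → s ≠ D.neg r → ∀ t u,
    (X s u)⁻¹ * (X r t)⁻¹ * X s u * X r t = ((D.commWord F r s t u).map fun p => X p.1 p.2).prod
  θX : ∀ r < D.nroots, ∀ t, θ (X r t) = xg D r t
  gen : Subgroup.closure {g | ∃ r t, r < D.nroots ∧ g = X r t} = ⊤
  ok : StOK D

namespace StG
variable {D : ChevalleyDatum} {F : Type*} [Field F] {Γ : Type*} [Group Γ] (S : StG D F Γ)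
include S

/-- generated subgroup -/
def Y (A : Set ℕ) : Subgroup Γ := Subgroup.closure {g | ∃ r t, r ∈ A ∧ r < D.nroots ∧ g = S.X r t}

theorem X_mem {A : Set ℕ} {r : ℕ} (hr : r ∈ A) (hr' : r < D.nroots) (t : F) : S.X r t ∈ S.Y A :=
  Subgroup.subset_closure ⟨r, t, hr, hr', rfl⟩

theorem Y_mono {A B : Set ℕ} (h : ∀ s ∈ A, s < D.nroots → s ∈ B) : S.Y A ≤ S.Y B := by
  unfold Y
  apply Subgroup.closure_mono
  rintro g ⟨r, t, hr, hr', rfl⟩
  exact ⟨r, t, h r hr hr', hr', rfl⟩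

theorem X0 {r : ℕ} (hr : r < D.nroots) : S.X r 0 = 1 := by
  have := S.add r hr 0 0
  rw [add_zero] at this
  exact mul_eq_right.mp this

theorem Xneg {r : ℕ} (hr : r < D.nroots) (t : F) : S.X r (-t) = (S.X r t)⁻¹ := by
  rw [eq_inv_iff_mul_eq_one, S.add r hr, neg_add_cancel, S.X0 hr]

theorem θY {A : Set ℕ} {g : Γ} (hg : g ∈ S.Y A) : S.θ g ∈ XS D F A := by
  unfold Y at hg
  induction hg using Subgroup.closure_induction with
  | mem g hg => obtain ⟨r, t, hr, hr', rfl⟩ := hg; rw [S.θX r hr']; exact xg_mem_XS D hr hr' t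
  | one => rw [map_one]; exact one_mem _
  | mul a b _ _ ha hb => rw [map_mul]; exact mul_mem ha hb
  | inv a _ ha => rw [map_inv]; exact inv_mem ha

theorem Y_inv_conj {A : Set ℕ} {g : Γ} (h : ∀ s ∈ A, s < D.nroots → ∀ u : F, g * S.X s u * g⁻¹ ∈ S.Y A)
    (h' : ∀ s ∈ A, s < D.nroots → ∀ u : F, g⁻¹ * S.X s u * g ∈ S.Y A) : g ∈ Subgroup.normalizer (S.Y A : Set Γ) := by
  rw [Subgroup.mem_normalizer_iff]
  have key : ∀ g : Γ, (∀ s ∈ A, s < D.nroots → ∀ u : F, g * S.X s u * g⁻¹ ∈ S.Y A) → ∀ k ∈ S.Y A, g * k * g⁻¹ ∈ S.Y A := by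
    intro g hg k hk
    unfold Y at hk
    induction hk using Subgroup.closure_induction with
    | mem k hk => obtain ⟨r, t, hr, hr', rfl⟩ := hk; exact hg r hr hr' t
    | one => simp
    | mul a b _ _ ha hb =>
      have : g * (a * b) * g⁻¹ = (g * a * g⁻¹) * (g * b * g⁻¹) := by group
      rw [this]; exact mul_mem ha hb
    | inv a _ ha =>
      have : g * a⁻¹ * g⁻¹ = (g * a * g⁻¹)⁻¹ := by group
      rw [this]; exact inv_mem ha
  intro k
  constructor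
  · exact key g h k
  · intro hk
    have := key g⁻¹ (fun s hs hs' u => by rw [inv_inv]; exact h' s hs hs' u) _ hk
    have e : g⁻¹ * (g * k * g⁻¹) * g⁻¹⁻¹ = k := by group
    rwa [e] at this

theorem word_mem {A : Set ℕ} {r s : ℕ} (hr : r < D.nroots) (hs : s < D.nroots) (h1 : s ≠ r) (h2 : s ≠ D.neg r)
    (h : ∀ k < D.nroots, ∀ i j : ℕ, 1 ≤ i → 1 ≤ j → S.Cmb r s k i j → k ∈ A) (t u : F) :
    ((D.commWord F r s t u).map fun p => S.X p.1 p.2).prod ∈ S.Y A := by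
  apply Subgroup.list_prod_mem
  intro x hx
  rw [List.mem_map] at hx
  obtain ⟨p, hp, rfl⟩ := hx
  unfold ChevalleyDatum.commWord at hp
  rw [List.mem_map] at hp
  obtain ⟨⟨k, c, i, j⟩, hk, rfl⟩ := hp
  obtain ⟨h3, h4, h5, h6⟩ := S.terms hr hs h1 h2 hk
  exact S.X_mem (h k h3 i j h4 h5 h6) h3 _

theorem X_norm {r : ℕ} (hr : r < D.nroots) {A : Set ℕ} (h : S.Act r A) (t : F) : S.X r t ∈ Subgroup.normalizer (S.Y A : Set Γ) := by
  have key : ∀ t : F, ∀ s ∈ A, s < D.nroots → ∀ u : F, (S.X r t)⁻¹ * S.X s u * S.X r t ∈ S.Y A := by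
    intro t s hs hs' u
    by_cases h1 : s = r
    · subst h1
      rw [← S.Xneg hs', S.add s hs', S.add s hs']
      exact S.X_mem hs hs' _
    · obtain ⟨h2, h3⟩ := h s hs hs'
      have e := S.com r hr s hs' h1 h2 t u
      have : (S.X r t)⁻¹ * S.X s u * S.X r t = S.X s u * ((D.commWord F r s t u).map fun p => S.X p.1 p.2).prod := by
        rw [← e]; group
      rw [this]
      exact mul_mem (S.X_mem hs hs' _) (S.word_mem hr hs' h1 h2 h3 t u)
  apply S.Y_inv_conj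
  · intro s hs hs' u
    have := key (-t) s hs hs' u
    rwa [S.Xneg hr, inv_inv] at this
  · exact key t

/-! ### θ is injective on `Y PosS` -/

theorem Y_norm_Ici {m : ℕ} (hm : D.nroots / 2 ≤ m) : S.Y (PosS D) ≤ Subgroup.normalizer (S.Y (Set.Ici m) : Set Γ) := by
  conv_lhs => unfold Y
  rw [Subgroup.closure_le]
  rintro g ⟨r, t, hr, hr', rfl⟩
  exact S.X_norm hr' (S.act_Ici hr' hr hm) t

theorem peel {m : ℕ} (hm : D.nroots / 2 ≤ m) (hm' : m < D.nroots) {g : Γ} (hg : g ∈ S.Y (Set.Ici m)) :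
    ∃ t : F, ∃ g' ∈ S.Y (Set.Ici (m + 1)), g = S.X m t * g' := by
  have key : ∀ r t, r ∈ Set.Ici m → r < D.nroots → ∀ g : Γ, (∃ t : F, ∃ g' ∈ S.Y (Set.Ici (m + 1)), g = S.X m t * g') →
      ∃ t' : F, ∃ g' ∈ S.Y (Set.Ici (m + 1)), S.X r t * g = S.X m t' * g' := by
    rintro r t hr hr' g ⟨t', g', hg', rfl⟩
    rcases Nat.lt_or_ge m r with h | h
    · have h1 := (Subgroup.mem_normalizer_iff'' (g := S.X m t')).mp (S.Y_norm_Ici (m := m + 1) (by omega)
        (S.X_mem hm hm' t')) (S.X r t)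
      refine ⟨t', (S.X m t')⁻¹ * S.X r t * S.X m t' * g', mul_mem (h1.mp (S.X_mem (by simpa using h) hr' t)) hg', by group⟩
    · have : r = m := le_antisymm h hr
      subst this
      exact ⟨t + t', g', hg', by rw [← mul_assoc, S.add r hr']⟩
  unfold Y at hg
  induction hg using Subgroup.closure_induction_left with
  | one => exact ⟨0, 1, one_mem _, by rw [S.X0 hm', one_mul]⟩
  | mul_left a ha g _ ih =>
    obtain ⟨r, t, hr, hr', rfl⟩ := ha
    exact key r t hr hr' g ih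
  | inv_mul_cancel a ha g _ ih =>
    obtain ⟨r, t, hr, hr', rfl⟩ := ha
    rw [← S.Xneg hr']
    exact key r (-t) hr hr' g ih

theorem inj_Ici (k : ℕ) : ∀ m, D.nroots / 2 ≤ m → m + k = D.nroots → ∀ g ∈ S.Y (Set.Ici m), S.θ g = 1 → g = 1 := by
  induction k with
  | zero =>
    intro m _ hmk g hg _
    have : S.Y (Set.Ici m) = ⊥ := by
      rw [eq_bot_iff]
      unfold Y
      rw [Subgroup.closure_le]
      rintro g ⟨r, t, hr, hr', rfl⟩
      have : m ≤ r := hr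
      omega
    rwa [this, Subgroup.mem_bot] at hg
  | succ k ih =>
    intro m hm hmk g hg h
    have hm' : m < D.nroots := by omega
    obtain ⟨t, g', hg', rfl⟩ := S.peel hm hm' hg
    rw [map_mul, S.θX m hm'] at h
    have h1 := S.peel_unique hm hm' (t := t) (t' := 0) (S.θY hg') (one_mem _) (by rw [h, S.xg_zero, one_mul])
    rw [h1.1, S.X0 hm', one_mul]
    exact ih (m + 1) (by omega) (by omega) g' hg' h1.2

theorem inj_U {g : Γ} (hg : g ∈ S.Y (PosS D)) (h : S.θ g = 1) : g = 1 :=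
  S.inj_Ici (D.nroots - D.nroots / 2) (D.nroots / 2) le_rfl (by omega) g hg h

theorem inj_U' {g g' : Γ} (hg : g ∈ S.Y (PosS D)) (hg' : g' ∈ S.Y (PosS D)) (h : S.θ g = S.θ g') : g = g' := by
  have := S.inj_U (mul_mem hg (inv_mem hg')) (by rw [map_mul, map_inv, h, mul_inv_cancel])
  exact mul_inv_eq_one.mp this

end StG

/-! ### the negative side in the Chevalley group -/

namespace CG
variable {D : ChevalleyDatum} {F : Type*} [Field F] (M : CG D F)
include M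

theorem a_neg_ne_neg {r s : ℕ} (hr : r < D.nroots) (hs : s < D.nroots) (h1 : r ∈ NegS D) (h2 : s ∈ NegS D) : s ≠ D.neg r := by
  rintro rfl
  have h3 : D.neg r < D.nroots / 2 := h2
  have h4 : r < D.nroots / 2 := h1
  have := M.N.even
  rw [M.N.neg_eq hr] at h3
  omega

theorem act_Iio {r m : ℕ} (hr : r < D.nroots) (hr' : r ∈ NegS D) (hm : m ≤ D.nroots / 2) : M.Act r (Set.Iio m) := by
  intro s hs hs'
  have hs2 : s ∈ NegS D := lt_of_lt_of_le hs hm
  refine ⟨M.a_neg_ne_neg hr hs' hr' hs2, fun k hk i j hi hj hc => ?_⟩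
  have h1 := hc.L
  have h2 := M.L_neg' hr hr'
  have h3 := M.L_neg' hs' hs2
  have hi' : (1 : ℤ) ≤ i := by exact_mod_cast hi
  have hj' : (1 : ℤ) ≤ j := by exact_mod_cast hj
  have h4 : M.L k < M.L s := by nlinarith
  have := M.lt_of_L hk h4
  exact this.trans hs

theorem Iio_inter {m : ℕ} (hm : m < D.nroots / 2) {t : F} (h : xg D m t ∈ XS D F (Set.Iio m)) : t = 0 := by
  have hm' : m < D.nroots := by omega
  have hL : M.L m ≤ -1 := M.L_neg' hm' hm
  have h1 : XS D F (Set.Iio m) ≤ UTS F (fun x => - M.lw x) (-M.L m + 1) (by omega) := by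
    apply M.XS_le_LTS
    intro s hs hs'
    have := M.L_lt hm' hs
    omega
  have h2 := (h1 h).1.2
  obtain ⟨i, hi, h3⟩ := M.coroot_prim F hm'
  have h4 := M.N.x_entry_h hm' t ⟨i, hi⟩
  by_contra ht
  have h5 := h2 (Sum.inl ⟨i, hi⟩) (Sum.inr ⟨D.neg m, M.N.neg_lt hm'⟩) (by simp) (by
    rw [M.coe_xg, h4]; exact mul_ne_zero h3 ht)
  simp only [GD.lw_inl, GD.lw_inr] at h5
  rw [M.L_neg hm'] at h5
  omega

theorem peel_unique' {m : ℕ} (hm : m < D.nroots / 2) {t t' : F} {g g' : GL D.Idx F}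
    (hg : g ∈ XS D F (Set.Iio m)) (hg' : g' ∈ XS D F (Set.Iio m)) (h : xg D m t * g = xg D m t' * g') :
    t = t' ∧ g = g' := by
  have h1 : xg D m (-t' + t) = g' * g⁻¹ := by
    rw [← M.xg_add, M.xg_neg, eq_mul_inv_iff_mul_eq, mul_assoc, h]; group
  have h2 := M.Iio_inter hm (t := -t' + t) (by rw [h1]; exact mul_mem hg' (inv_mem hg))
  have h3 : t = t' := by linear_combination h2
  refine ⟨h3, ?_⟩
  rw [h3] at h
  exact mul_left_cancel h

end CG

namespace StG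
variable {D : ChevalleyDatum} {F : Type*} [Field F] {Γ : Type*} [Group Γ] (S : StG D F Γ)
include S

theorem Y_norm_Iio {m : ℕ} (hm : m ≤ D.nroots / 2) : S.Y (NegS D) ≤ Subgroup.normalizer (S.Y (Set.Iio m) : Set Γ) := by
  conv_lhs => unfold Y
  rw [Subgroup.closure_le]
  rintro g ⟨r, t, hr, hr', rfl⟩
  exact S.X_norm hr' (S.act_Iio hr' hr hm) t

theorem peel' {m : ℕ} (hm : m < D.nroots / 2) {g : Γ} (hg : g ∈ S.Y (Set.Iio (m + 1))) :
    ∃ t : F, ∃ g' ∈ S.Y (Set.Iio m), g = S.X m t * g' := by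
  have hm' : m < D.nroots := by omega
  have key : ∀ r t, r ∈ Set.Iio (m + 1) → r < D.nroots → ∀ g : Γ, (∃ t : F, ∃ g' ∈ S.Y (Set.Iio m), g = S.X m t * g') →
      ∃ t' : F, ∃ g' ∈ S.Y (Set.Iio m), S.X r t * g = S.X m t' * g' := by
    rintro r t hr hr' g ⟨t', g', hg', rfl⟩
    rcases Nat.lt_or_ge r m with h | h
    · have h1 := (Subgroup.mem_normalizer_iff'' (g := S.X m t')).mp (S.Y_norm_Iio (m := m) (by omega)
        (S.X_mem (A := NegS D) hm hm' t')) (S.X r t)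
      refine ⟨t', (S.X m t')⁻¹ * S.X r t * S.X m t' * g', mul_mem (h1.mp (S.X_mem (by simpa using h) hr' t)) hg', by group⟩
    · have : r = m := le_antisymm (Nat.lt_succ_iff.mp hr) h
      subst this
      exact ⟨t + t', g', hg', by rw [← mul_assoc, S.add r hr']⟩
  unfold Y at hg
  induction hg using Subgroup.closure_induction_left with
  | one => exact ⟨0, 1, one_mem _, by rw [S.X0 hm', one_mul]⟩
  | mul_left a ha g _ ih =>
    obtain ⟨r, t, hr, hr', rfl⟩ := ha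
    exact key r t hr hr' g ih
  | inv_mul_cancel a ha g _ ih =>
    obtain ⟨r, t, hr, hr', rfl⟩ := ha
    rw [← S.Xneg hr']
    exact key r (-t) hr hr' g ih

theorem inj_Iio : ∀ m, m ≤ D.nroots / 2 → ∀ g ∈ S.Y (Set.Iio m), S.θ g = 1 → g = 1 := by
  intro m
  induction m with
  | zero =>
    intro _ g hg _
    have : S.Y (Set.Iio 0) = ⊥ := by
      rw [eq_bot_iff]
      unfold Y
      rw [Subgroup.closure_le]
      rintro g ⟨r, t, hr, hr', rfl⟩
      exact absurd hr (by simp)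
    rwa [this, Subgroup.mem_bot] at hg
  | succ m ih =>
    intro hm g hg h
    have hm' : m < D.nroots := by omega
    obtain ⟨t, g', hg', rfl⟩ := S.peel' (by omega) hg
    rw [map_mul, S.θX m hm'] at h
    have h1 := S.peel_unique' (by omega) (t := t) (t' := 0) (S.θY hg') (one_mem _) (by rw [h, S.xg_zero, one_mul])
    rw [h1.1, S.X0 hm', one_mul]
    exact ih (by omega) g' hg' h1.2

theorem inj_V {g : Γ} (hg : g ∈ S.Y (NegS D)) (h : S.θ g = 1) : g = 1 := S.inj_Iio (D.nroots / 2) le_rfl g hg h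

theorem inj_V' {g g' : Γ} (hg : g ∈ S.Y (NegS D)) (hg' : g' ∈ S.Y (NegS D)) (h : S.θ g = S.θ g') : g = g' := by
  have := S.inj_V (mul_mem hg (inv_mem hg')) (by rw [map_mul, map_inv, h, mul_inv_cancel])
  exact mul_inv_eq_one.mp this

end StG

end CfsgLib.Chev
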