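import Cfsg.Agent.Lib.CSt1
set_option autoImplicit false
set_option linter.style.haveILetI false

/-! Groups with Steinberg's relations: the kernel is central. -/

namespace CfsgLib.Chev
open Cfsg.Lie Matrix

namespace GD
variable {D : ChevalleyDatum} (M : GD D) {F : Type*} [Field F]
include M

/-- root vectors are primitive -/
theorem a_prim (F : Type*) [Field F] {r : ℕ} (hr : r < D.nroots) : ∃ i < D.rank, ((M.a i r : ℤ) : F) ≠ 0 := by
  refine M.root_ind (P := fun r => ∃ i < D.rank, ((M.a i r : ℤ) : F) ≠ 0) ?_ ?_ r hr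
  · intro i hi
    exact ⟨i, hi, by rw [M.a_simple hi hi, if_pos rfl]; simp⟩
  · intro i hi r hr ⟨j, hj, h⟩
    by_contra hc
    push Not at hc
    have h1 : ∀ k < D.rank, k ≠ i → ((M.a k r : ℤ) : F) = 0 := by
      intro k hk hki
      have := hc k hk
      rwa [M.a_refl hi hk hr, if_neg hki, sub_zero] at this
    have h2 := hc i hi
    rw [M.a_refl hi hi hr, if_pos rfl] at h2
    have h3 : ((D.cartan i r : ℤ) : F) = 2 * ((M.a i r : ℤ) : F) := by
      rw [M.hC i hi r hr, Int.cast_sum, Finset.sum_eq_single i]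
      · rw [M.cartan_self hi]; push_cast; ring
      · intro k hk hki
        rw [Int.cast_mul, h1 k (Finset.mem_range.mp hk) hki, mul_zero]
      · intro h'; exact absurd (Finset.mem_range.mpr hi) h'
    rw [Int.cast_sub, h3] at h2
    have h4 : ((M.a i r : ℤ) : F) = 0 := by linear_combination -h2
    by_cases hji : j = i
    · subst hji; exact h h4
    · exact h (h1 j hj hji)

theorem only_simple {i s : ℕ} (hi : i < D.rank) (hs : s < D.nroots) (h : ∀ m < D.rank, m ≠ i → M.a m s = 0) :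
    s = D.simple i ∨ s = D.neg (D.simple i) := by
  have hp := M.N.simple_lt i hi
  obtain ⟨⟨c, hc⟩, -⟩ := M.prop hs hp (p := 1) (q := M.a i s) (fun m hm => by
    rw [M.a_simple hm hi]
    by_cases hmi : m = i
    · subst hmi; simp
    · rw [h m hm hmi, if_neg hmi]; simp)
  have h2 : ¬ (2 : ℤ) ∣ M.a i s := by
    intro hd
    obtain ⟨m, hm, h3⟩ := M.a_prim (ZMod 2) hs
    by_cases hmi : m = i
    · subst hmi
      exact h3 ((ZMod.intCast_zmod_eq_zero_iff_dvd _ 2).mpr (by exact_mod_cast hd))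
    · rw [h m hm hmi] at h3; simp at h3
  have h3 : M.a i s ∣ 2 := ⟨c, by omega⟩
  have h4 : M.a i s = 1 ∨ M.a i s = -1 := by
    have h5 : (M.a i s).natAbs ∣ 2 := by
      have := Int.natAbs_dvd_natAbs.mpr h3
      simpa using this
    have h6 := (Nat.dvd_prime Nat.prime_two).mp h5
    rcases h6 with h6 | h6
    · omega
    · exfalso; apply h2; omega
  rcases h4 with h4 | h4
  · left
    apply M.a_inj hs hp
    intro m hm
    rw [M.a_simple hm hi]
    by_cases hmi : m = i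
    · subst hmi; rw [h4, if_pos rfl]
    · rw [h m hm hmi, if_neg hmi]
  · right
    apply M.a_inj hs (M.N.neg_lt hp)
    intro m hm
    rw [M.a_neg hm hp, M.a_simple hm hi]
    by_cases hmi : m = i
    · subst hmi; rw [h4, if_pos rfl]
    · rw [h m hm hmi, if_neg hmi]; simp

theorem pos_of_a {m k : ℕ} (hm : m < D.rank) (hk : k < D.nroots) (h : 0 < M.a m k) : k ∈ PosS D := by
  by_contra hneg
  have h7 := M.neg_mem_PosS hk (notPos_iff.mp hneg)
  have h8 := M.nonneg _ (M.N.neg_lt hk) h7 m hm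
  rw [M.a_neg hm hk] at h8
  omega

theorem neg_of_a {m k : ℕ} (hm : m < D.rank) (hk : k < D.nroots) (h : M.a m k < 0) : k ∈ NegS D := by
  by_contra hneg
  have h7 : k ∈ PosS D := Nat.le_of_not_lt hneg
  have h8 := M.nonneg _ hk h7 m hm
  omega

theorem exists_a_pos {i s : ℕ} (hi : i < D.rank) (hs : s < D.nroots) (h : s ∈ PosI D i) : ∃ m < D.rank, m ≠ i ∧ 0 < M.a m s := by
  by_contra hc
  push Not at hc
  have h1 : ∀ m < D.rank, m ≠ i → M.a m s = 0 := fun m hm hmi =>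
    le_antisymm (hc m hm hmi) (M.nonneg s hs h.1 m hm)
  rcases M.only_simple hi hs h1 with h2 | h2
  · exact h.2 h2
  · exact M.a_pos_ne_neg (M.N.simple_lt i hi) hs (M.N.simple_pos hi) h.1 h2

/-- negative roots other than `-p_i` -/
def _root_.CfsgLib.Chev.NegI (D : ChevalleyDatum) (i : ℕ) : Set ℕ := {r | r < D.nroots / 2 ∧ r ≠ D.neg (D.simple i)}

theorem neg_mem_PosI {i s : ℕ} (_hi : i < D.rank) (hs : s < D.nroots) (h : s ∈ NegI D i) : D.neg s ∈ PosI D i :=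
  ⟨M.neg_mem_PosS hs h.1, fun h' => h.2 (by rw [← h', M.N.neg_neg hs])⟩

theorem exists_a_neg {i s : ℕ} (hi : i < D.rank) (hs : s < D.nroots) (h : s ∈ NegI D i) : ∃ m < D.rank, m ≠ i ∧ M.a m s < 0 := by
  obtain ⟨m, hm, hmi, h1⟩ := M.exists_a_pos hi (M.N.neg_lt hs) (M.neg_mem_PosI hi hs h)
  rw [M.a_neg hm hs] at h1
  exact ⟨m, hm, hmi, by omega⟩

/-- conjugation of root elements by `n_i(t)` -/
theorem ng_conj {i s : ℕ} (hi : i < D.rank) (hs : s < D.nroots) {t : F} (ht : t ≠ 0) :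
    ∃ c : F, c ≠ 0 ∧ ∀ u, ng D (D.simple i) t * xg D s u * (ng D (D.simple i) t)⁻¹ = xg D (D.reflectRoot i s) (c * u) := by
  have hp := M.N.simple_lt i hi
  have h1 := M.ng_mul_ng (F := F) hp (Units.mk0 t ht)
  rw [Units.val_mk0] at h1
  refine ⟨((Units.mk0 t ht) ^ D.pairing (D.simple i) (D.reflectRoot i s) : Fˣ) * ((eta D M.T i s : ℤ) : F), ?_, fun u => ?_⟩
  · refine mul_ne_zero (Units.ne_zero _) ?_
    rcases M.N.eta_pm hi hs with h | h <;> rw [h] <;> simp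
  · have e : ng D (D.simple i) t * xg D s u * (ng D (D.simple i) t)⁻¹ =
        dgg D (fun s => (Units.mk0 t ht) ^ D.pairing (D.simple i) s) * (ni D F i * xg D s u * (ni D F i)⁻¹) *
        (dgg D (fun s => (Units.mk0 t ht) ^ D.pairing (D.simple i) s))⁻¹ := by
      rw [h1]; unfold ni; group
    rw [e, M.ni_xg hi hs, M.dgg_xg (M.isWt_h hp _) (M.N.refl_lt hi hs), mul_assoc]

end GD

namespace CG
variable {D : ChevalleyDatum} {F : Type*} [Field F] (M : CG D F)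
include M

theorem act_pm {i e : ℕ} (hi : i < D.rank) (he : e < D.nroots) (h0 : ∀ m < D.rank, m ≠ i → M.a m e = 0) : M.Act e (PosI D i) := by
  intro s hs hs'
  obtain ⟨m, hm, hmi, h1⟩ := M.exists_a_pos hi hs' hs
  constructor
  · rintro rfl
    rw [M.a_neg hm he, h0 m hm hmi] at h1
    omega
  · intro k hk a b ha hb hc
    have h2 := hc m hm
    rw [h0 m hm hmi, mul_zero, zero_add] at h2
    have hb' : (1 : ℤ) ≤ b := by exact_mod_cast hb
    have h3 : 0 < M.a m k := by rw [h2]; nlinarith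
    refine ⟨M.pos_of_a hm hk h3, ?_⟩
    rintro rfl
    rw [M.a_simple hm hi, if_neg hmi] at h3
    omega

theorem act_pm' {i e : ℕ} (hi : i < D.rank) (he : e < D.nroots) (h0 : ∀ m < D.rank, m ≠ i → M.a m e = 0) : M.Act e (NegI D i) := by
  intro s hs hs'
  obtain ⟨m, hm, hmi, h1⟩ := M.exists_a_neg hi hs' hs
  constructor
  · rintro rfl
    rw [M.a_neg hm he, h0 m hm hmi] at h1
    omega
  · intro k hk a b ha hb hc
    have h2 := hc m hm
    rw [h0 m hm hmi, mul_zero, zero_add] at h2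
    have hb' : (1 : ℤ) ≤ b := by exact_mod_cast hb
    have h3 : M.a m k < 0 := by rw [h2]; nlinarith
    refine ⟨M.neg_of_a hm hk h3, ?_⟩
    rintro rfl
    rw [M.a_neg hm (M.N.simple_lt i hi), M.a_simple hm hi, if_neg hmi] at h3
    omega

end CG

namespace StG
variable {D : ChevalleyDatum} {F : Type*} [Field F] {Γ : Type*} [Group Γ] (S : StG D F Γ)
include S

/-- `n̂_r(t)` -/
def Nh (r : ℕ) (t : F) : Γ := S.X r t * S.X (D.neg r) (-t⁻¹) * S.X r t

theorem θN {r : ℕ} (hr : r < D.nroots) (t : F) : S.θ (S.Nh r t) = ng D r t := by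
  unfold Nh
  rw [map_mul, map_mul, S.θX r hr, S.θX _ (S.N.neg_lt hr), S.ng_eq]

theorem Nh_neg {r : ℕ} (hr : r < D.nroots) (t : F) : S.Nh r (-t) = (S.Nh r t)⁻¹ := by
  unfold Nh
  have : S.X (D.neg r) (-(-t)⁻¹) = (S.X (D.neg r) (-t⁻¹))⁻¹ := by rw [← S.Xneg (S.N.neg_lt hr)]; congr 1; rw [inv_neg]
  rw [this, S.Xneg hr]; group

/-- conjugation relation -/
def Cj (g : Γ) (s s' : ℕ) : Prop := ∃ c : F, c ≠ 0 ∧ ∀ u, g * S.X s u * g⁻¹ = S.X s' (c * u)

theorem Cj_one (s : ℕ) : S.Cj 1 s s := ⟨1, one_ne_zero, fun u => by simp⟩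

theorem Cj_mul {g h : Γ} {s s' s'' : ℕ} (h1 : S.Cj g s' s'') (h2 : S.Cj h s s') : S.Cj (g * h) s s'' := by
  obtain ⟨c, hc, h1⟩ := h1
  obtain ⟨d, hd, h2⟩ := h2
  refine ⟨c * d, mul_ne_zero hc hd, fun u => ?_⟩
  have e : g * h * S.X s u * (g * h)⁻¹ = g * (h * S.X s u * h⁻¹) * g⁻¹ := by group
  rw [e, h2, h1, mul_assoc]

theorem Cj_inv {g : Γ} {s s' : ℕ} (h1 : S.Cj g s s') : S.Cj g⁻¹ s' s := by
  obtain ⟨c, hc, h1⟩ := h1
  refine ⟨c⁻¹, inv_ne_zero hc, fun u => ?_⟩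
  have := h1 (c⁻¹ * u)
  rw [mul_inv_cancel_left₀ hc] at this
  rw [← this]; group

/-- transfer of a conjugation formula from the Chevalley group -/
theorem conj_of {g : Γ} {s s' : ℕ} (hs : s < D.nroots) (hs' : s' < D.nroots)
    (hθ : ∃ c : F, c ≠ 0 ∧ ∀ u, S.θ g * xg D s u * (S.θ g)⁻¹ = xg D s' (c * u))
    {K : Subgroup Γ} (hinj : ∀ x ∈ K, ∀ y ∈ K, S.θ x = S.θ y → x = y) (h1 : ∀ u, g * S.X s u * g⁻¹ ∈ K) (h2 : ∀ u, S.X s' u ∈ K) :
    S.Cj g s s' := by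
  obtain ⟨c, hc, h⟩ := hθ
  refine ⟨c, hc, fun u => hinj _ (h1 u) _ (h2 _) ?_⟩
  rw [map_mul, map_mul, map_inv, S.θX s hs, h u, S.θX s' hs']

theorem a_simple0 {i : ℕ} (hi : i < D.rank) : ∀ m < D.rank, m ≠ i → S.a m (D.simple i) = 0 := by
  intro m hm hmi
  rw [S.a_simple hm hi, if_neg hmi]

theorem a_simple0' {i : ℕ} (hi : i < D.rank) : ∀ m < D.rank, m ≠ i → S.a m (D.neg (D.simple i)) = 0 := by
  intro m hm hmi
  rw [S.a_neg hm (S.N.simple_lt i hi), S.a_simple hm hi, if_neg hmi, neg_zero]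

theorem Nh_norm_Ui {i : ℕ} (hi : i < D.rank) (t : F) : S.Nh (D.simple i) t ∈ Subgroup.normalizer (S.Y (PosI D i) : Set Γ) := by
  have hp := S.N.simple_lt i hi
  have h1 := fun t => S.X_norm hp (S.act_pm hi hp (S.a_simple0 hi)) t
  have h2 := fun t => S.X_norm (S.N.neg_lt hp) (S.act_pm hi (S.N.neg_lt hp) (S.a_simple0' hi)) t
  exact mul_mem (mul_mem (h1 t) (h2 _)) (h1 t)

theorem Nh_norm_Vi {i : ℕ} (hi : i < D.rank) (t : F) : S.Nh (D.simple i) t ∈ Subgroup.normalizer (S.Y (NegI D i) : Set Γ) := by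
  have hp := S.N.simple_lt i hi
  have h1 := fun t => S.X_norm hp (S.act_pm' hi hp (S.a_simple0 hi)) t
  have h2 := fun t => S.X_norm (S.N.neg_lt hp) (S.act_pm' hi (S.N.neg_lt hp) (S.a_simple0' hi)) t
  exact mul_mem (mul_mem (h1 t) (h2 _)) (h1 t)

theorem Ui_le : ∀ i, S.Y (PosI D i) ≤ S.Y (PosS D) := fun _ => S.Y_mono fun _ hs _ => hs.1
theorem Vi_le : ∀ i, S.Y (NegI D i) ≤ S.Y (NegS D) := fun _ => S.Y_mono fun _ hs _ => hs.1

theorem refl_PosI {i s : ℕ} (hi : i < D.rank) (hs : s < D.nroots) (h : s ∈ PosI D i) : D.reflectRoot i s ∈ PosI D i := by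
  refine ⟨S.N.refl_pos hi hs h.1 h.2, fun h3 => ?_⟩
  have h4 : s = D.neg (D.simple i) := by
    rw [← S.N.refl_simple hi, ← h3, S.N.refl_refl hi hs]
  exact S.a_pos_ne_neg (S.N.simple_lt i hi) hs (S.N.simple_pos hi) h.1 h4

theorem refl_NegI {i s : ℕ} (hi : i < D.rank) (hs : s < D.nroots) (h : s ∈ NegI D i) : D.reflectRoot i s ∈ NegI D i := by
  have h1 := S.refl_PosI hi (S.N.neg_lt hs) (S.neg_mem_PosI hi hs h)
  rw [S.N.refl_neg hi hs] at h1
  have hr := S.N.refl_lt hi hs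
  refine ⟨?_, ?_⟩
  · have := S.neg_mem_NegS (S.N.neg_lt hr) h1.1
    rwa [S.N.neg_neg hr] at this
  · intro h2
    apply h1.2
    rw [h2, S.N.neg_neg (S.N.simple_lt i hi)]

/-- conjugation by `n̂_i(t)`, other roots -/
theorem Nh_conj1 {i s : ℕ} (hi : i < D.rank) (hs : s < D.nroots) (h1 : s ≠ D.simple i) (h2 : s ≠ D.neg (D.simple i)) {t : F} (ht : t ≠ 0) :
    S.Cj (S.Nh (D.simple i) t) s (D.reflectRoot i s) := by
  have hθ : ∃ c : F, c ≠ 0 ∧ ∀ u, S.θ (S.Nh (D.simple i) t) * xg D s u * (S.θ (S.Nh (D.simple i) t))⁻¹ = xg D (D.reflectRoot i s) (c * u) := by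
    rw [S.θN (S.N.simple_lt i hi)]; exact S.ng_conj hi hs ht
  by_cases hp : s ∈ PosS D
  · have hs1 : s ∈ PosI D i := ⟨hp, h1⟩
    refine S.conj_of hs (S.N.refl_lt hi hs) hθ (K := S.Y (PosS D)) (fun x hx y hy h => S.inj_U' hx hy h) ?_ ?_
    · intro u
      exact S.Ui_le i (((Subgroup.mem_normalizer_iff.mp (S.Nh_norm_Ui hi t)) _).mp (S.X_mem hs1 hs u))
    · intro u
      exact S.X_mem (S.refl_PosI hi hs hs1).1 (S.N.refl_lt hi hs) u
  · have hs1 : s ∈ NegI D i := ⟨Nat.lt_of_not_le hp, h2⟩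
    refine S.conj_of hs (S.N.refl_lt hi hs) hθ (K := S.Y (NegS D)) (fun x hx y hy h => S.inj_V' hx hy h) ?_ ?_
    · intro u
      exact S.Vi_le i (((Subgroup.mem_normalizer_iff.mp (S.Nh_norm_Vi hi t)) _).mp (S.X_mem hs1 hs u))
    · intro u
      exact S.X_mem (A := NegS D) (S.refl_NegI hi hs hs1).1 (S.N.refl_lt hi hs) u

/-- `{-p_i} ∪ (Φ⁺ \ {p_i})` -/
def _root_.CfsgLib.Chev.WI (D : ChevalleyDatum) (i : ℕ) : Set ℕ := {r | r = D.neg (D.simple i) ∨ r ∈ PosI D i}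

theorem WI_form {i : ℕ} (hi : i < D.rank) {g : Γ} (hg : g ∈ S.Y (WI D i)) : ∃ t : F, ∃ g' ∈ S.Y (PosI D i), g = S.X (D.neg (D.simple i)) t * g' := by
  have hp := S.N.simple_lt i hi
  have hn := S.N.neg_lt hp
  have key : ∀ r t, r ∈ WI D i → r < D.nroots → ∀ g : Γ, (∃ t : F, ∃ g' ∈ S.Y (PosI D i), g = S.X (D.neg (D.simple i)) t * g') →
      ∃ t' : F, ∃ g' ∈ S.Y (PosI D i), S.X r t * g = S.X (D.neg (D.simple i)) t' * g' := by
    rintro r t hr hr' g ⟨t', g', hg', rfl⟩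
    rcases hr with hr | hr
    · subst hr
      exact ⟨t + t', g', hg', by rw [← mul_assoc, S.add _ hr']⟩
    · have h1 := (Subgroup.mem_normalizer_iff'' (g := S.X (D.neg (D.simple i)) t')).mp
        (S.X_norm hn (S.act_pm hi hn (S.a_simple0' hi)) t') (S.X r t)
      refine ⟨t', (S.X (D.neg (D.simple i)) t')⁻¹ * S.X r t * S.X (D.neg (D.simple i)) t' * g', mul_mem (h1.mp (S.X_mem hr hr' t)) hg', by group⟩
  unfold Y at hg
  induction hg using Subgroup.closure_induction_left with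
  | one => exact ⟨0, 1, one_mem _, by rw [S.X0 hn, one_mul]⟩
  | mul_left a ha g _ ih =>
    obtain ⟨r, t, hr, hr', rfl⟩ := ha
    exact key r t hr hr' g ih
  | inv_mul_cancel a ha g _ ih =>
    obtain ⟨r, t, hr, hr', rfl⟩ := ha
    rw [← S.Xneg hr']
    exact key r (-t) hr hr' g ih

theorem inj_WI {i : ℕ} (hi : i < D.rank) {x : Γ} (hx : x ∈ S.Y (WI D i)) {y : Γ} (hy : y ∈ S.Y (WI D i)) (h : S.θ x = S.θ y) : x = y := by
  have hp := S.N.simple_lt i hi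
  have hn := S.N.neg_lt hp
  obtain ⟨t, u, hu, rfl⟩ := S.WI_form hi hx
  obtain ⟨t', u', hu', rfl⟩ := S.WI_form hi hy
  rw [map_mul, map_mul, S.θX _ hn, S.θX _ hn] at h
  have h1 : xg D (D.neg (D.simple i)) (-t' + t) = S.θ u' * (S.θ u)⁻¹ := by
    rw [← S.xg_add, S.xg_neg, eq_mul_inv_iff_mul_eq, mul_assoc, h]; group
  have h2 : xg D (D.neg (D.simple i)) (-t' + t) ∈ D.borelSubgroup F := by
    rw [h1]
    apply GD.U_le_B
    rw [S.U_eq]
    exact mul_mem (S.θY (S.Ui_le i hu')) (inv_mem (S.θY (S.Ui_le i hu)))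
  have h3 := S.xneg_notMem_B hn (S.neg_mem_NegS hp (S.N.simple_pos hi)) h2
  have h4 : t = t' := by linear_combination h3
  subst h4
  congr 1
  exact S.inj_U' (S.Ui_le i hu) (S.Ui_le i hu') (mul_left_cancel h)

/-- conjugation by `n̂_i(t)`, the root `p_i` -/
theorem Nh_conj2 {i : ℕ} (hi : i < D.rank) {t : F} (ht : t ≠ 0) :
    S.Cj (S.Nh (D.simple i) t) (D.simple i) (D.neg (D.simple i)) := by
  have hp := S.N.simple_lt i hi
  have hn := S.N.neg_lt hp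
  have hθ : ∃ c : F, c ≠ 0 ∧ ∀ u, S.θ (S.Nh (D.simple i) t) * xg D (D.simple i) u * (S.θ (S.Nh (D.simple i) t))⁻¹ = xg D (D.neg (D.simple i)) (c * u) := by
    rw [S.θN (S.N.simple_lt i hi), ← S.N.refl_simple hi]; exact S.ng_conj hi hp ht
  refine S.conj_of hp hn hθ (K := S.Y (WI D i)) (fun x hx y hy h => S.inj_WI hi hx hy h) ?_ (fun u => S.X_mem (A := WI D i) (Or.inl rfl) hn u)
  intro u
  obtain ⟨s1, s2, a1, a2, a3, a4, a5, a6, a7, a8, pre, post, c, a, b, hW, hc, hab, hpre, hpost, hall⟩ := S.ok i hi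
  -- parameters
  obtain ⟨t1, u1, htu⟩ : ∃ t1 u1 : F, (c : F) * (-t1) ^ a * u1 ^ b = u := by
    have hc2 : (c : F) * (c : F) = 1 := by rcases hc with h | h <;> rw [h] <;> simp
    rcases hab with h | h
    · subst h
      exact ⟨-(c * u), 1, by rw [_root_.neg_neg, pow_one, one_pow, mul_one, ← mul_assoc, hc2, one_mul]⟩
    · subst h
      exact ⟨-1, c * u, by rw [_root_.neg_neg, one_pow, mul_one, pow_one, ← mul_assoc, hc2, one_mul]⟩
  have e1 := S.com s1 a1 s2 a2 a3 a4 t1 u1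
  have e2 : (D.commWord F s1 s2 t1 u1) = (pre.map fun c => (c.1, (c.2.1 : F) * (-t1) ^ c.2.2.1 * u1 ^ c.2.2.2)) ++
      (D.simple i, u) :: (post.map fun c => (c.1, (c.2.1 : F) * (-t1) ^ c.2.2.1 * u1 ^ c.2.2.2)) := by
    unfold ChevalleyDatum.commWord
    rw [hW, List.map_append, List.map_cons]
    simp only [htu]
  rw [e2, List.map_append, List.prod_append, List.map_cons, List.prod_cons] at e1
  set n := S.Nh (D.simple i) t with hndef
  set P := ((pre.map fun c => (c.1, (c.2.1 : F) * (-t1) ^ c.2.2.1 * u1 ^ c.2.2.2)).map fun p => S.X p.1 p.2).prod with hP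
  set Q := ((post.map fun c => (c.1, (c.2.1 : F) * (-t1) ^ c.2.2.1 * u1 ^ c.2.2.2)).map fun p => S.X p.1 p.2).prod with hQ
  have hprod : ∀ L : List (ℕ × ℤ × ℕ × ℕ), (∀ w ∈ L, w.1 < D.nroots) → (∀ w ∈ L, D.nroots / 2 ≤ w.1 ∧ w.1 ≠ D.simple i) →
      ((L.map fun c => (c.1, (c.2.1 : F) * (-t1) ^ c.2.2.1 * u1 ^ c.2.2.2)).map fun p => S.X p.1 p.2).prod ∈ S.Y (PosI D i) := by
    intro L hL hL'
    apply Subgroup.list_prod_mem
    intro x hx
    rw [List.mem_map] at hx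
    obtain ⟨q, hq, rfl⟩ := hx
    rw [List.mem_map] at hq
    obtain ⟨w, hw, rfl⟩ := hq
    exact S.X_mem (A := PosI D i) (hL' w hw) (hL w hw) _
  have hlt : ∀ w ∈ D.commTerms s1 s2, w.1 < D.nroots := by
    rintro ⟨k, c', i', j'⟩ hw
    exact (S.terms a1 a2 a3 a4 hw).1
  have hPm : P ∈ S.Y (PosI D i) := hprod pre (fun w hw => hlt w (by rw [hW]; simp [hw])) hpre
  have hQm : Q ∈ S.Y (PosI D i) := hprod post (fun w hw => hlt w (by rw [hW]; simp [hw])) hpost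
  have hUW : S.Y (PosI D i) ≤ S.Y (WI D i) := S.Y_mono fun s hs _ => Or.inr hs
  have hnN := S.Nh_norm_Ui hi t
  have hP' : n * P * n⁻¹ ∈ S.Y (WI D i) := hUW (((Subgroup.mem_normalizer_iff.mp hnN) P).mp hPm)
  have hQ' : n * Q * n⁻¹ ∈ S.Y (WI D i) := hUW (((Subgroup.mem_normalizer_iff.mp hnN) Q).mp hQm)
  -- conjugate of the commutator
  obtain ⟨c1, hc1, f1⟩ := S.Nh_conj1 hi a1 a5 a6 ht
  obtain ⟨c2, hc2, f2⟩ := S.Nh_conj1 hi a2 a7 a8 ht
  have hr1 := S.N.refl_lt hi a1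
  have hr2 := S.N.refl_lt hi a2
  have hne : D.reflectRoot i s2 ≠ D.reflectRoot i s1 := by
    intro h; apply a3; rw [← S.N.refl_refl hi a2, h, S.N.refl_refl hi a1]
  have hne' : D.reflectRoot i s2 ≠ D.neg (D.reflectRoot i s1) := by
    intro h; apply a4; rw [← S.N.refl_refl hi a2, h, ← S.N.refl_neg hi a1, S.N.refl_refl hi (S.N.neg_lt a1)]
  have e3 := S.com _ hr1 _ hr2 hne hne' (c1 * t1) (c2 * u1)
  have hC : n * ((S.X s2 u1)⁻¹ * (S.X s1 t1)⁻¹ * S.X s2 u1 * S.X s1 t1) * n⁻¹ ∈ S.Y (WI D i) := by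
    have e4 : n * ((S.X s2 u1)⁻¹ * (S.X s1 t1)⁻¹ * S.X s2 u1 * S.X s1 t1) * n⁻¹ =
        (n * S.X s2 u1 * n⁻¹)⁻¹ * (n * S.X s1 t1 * n⁻¹)⁻¹ * (n * S.X s2 u1 * n⁻¹) * (n * S.X s1 t1 * n⁻¹) := by group
    rw [e4, f1, f2, e3]
    apply Subgroup.list_prod_mem
    intro x hx
    rw [List.mem_map] at hx
    obtain ⟨q, hq, rfl⟩ := hx
    unfold ChevalleyDatum.commWord at hq
    rw [List.mem_map] at hq
    obtain ⟨w, hw, rfl⟩ := hq
    have hw' := hall w hw
    refine S.X_mem (A := WI D i) ?_ ?_ _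
    · rcases hw' with h | h
      · exact Or.inl h
      · exact Or.inr h
    · obtain ⟨k, c', i', j'⟩ := w
      exact (S.terms hr1 hr2 hne hne' hw).1
  rw [e1] at hC
  have e5 : n * S.X (D.simple i) u * n⁻¹ = (n * P * n⁻¹)⁻¹ * (n * (P * (S.X (D.simple i) u * Q)) * n⁻¹) * (n * Q * n⁻¹)⁻¹ := by group
  rw [e5]
  exact mul_mem (mul_mem (inv_mem hP') hC) (inv_mem hQ')

theorem Nh_conj3 {i : ℕ} (hi : i < D.rank) {t : F} (ht : t ≠ 0) :
    S.Cj (S.Nh (D.simple i) t) (D.neg (D.simple i)) (D.simple i) := by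
  have h := S.Cj_inv (S.Nh_conj2 hi (t := -t) (neg_ne_zero.mpr ht))
  rwa [S.Nh_neg (S.N.simple_lt i hi), inv_inv] at h

theorem Nh_conj {i s : ℕ} (hi : i < D.rank) (hs : s < D.nroots) {t : F} (ht : t ≠ 0) :
    S.Cj (S.Nh (D.simple i) t) s (D.reflectRoot i s) := by
  by_cases h1 : s = D.simple i
  · subst h1; rw [S.N.refl_simple hi]; exact S.Nh_conj2 hi ht
  · by_cases h2 : s = D.neg (D.simple i)
    · subst h2
      rw [S.N.refl_neg hi (S.N.simple_lt i hi), S.N.refl_simple hi, S.N.neg_neg (S.N.simple_lt i hi)]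
      exact S.Nh_conj3 hi ht
    · exact S.Nh_conj1 hi hs h1 h2 ht

end StG

end CfsgLib.Chev
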