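import Cfsg.Agent.Lib.CSt2
set_option autoImplicit false
set_option linter.style.haveILetI false

/-! Groups with Steinberg's relations: the torus, Bruhat decomposition and the centre. -/

namespace CfsgLib.Chev
open Cfsg.Lie Matrix

namespace StG
variable {D : ChevalleyDatum} {F : Type*} [Field F] {Γ : Type*} [Group Γ] (S : StG D F Γ)
include S

/-- acts diagonally through a weight -/
def Hd (h : Γ) (ω : ℕ → Fˣ) : Prop := IsWt D S.T ω ∧ S.θ h = dgg D ω ∧ ∀ s < D.nroots, ∀ u, h * S.X s u * h⁻¹ = S.X s ((ω s : F) * u)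

theorem Cj_scalar {g : Γ} {s s' : ℕ} (hs : s < D.nroots) (hs' : s' < D.nroots) (h : S.Cj g s s') {c : F}
    (hc : ∀ u, S.θ g * xg D s u * (S.θ g)⁻¹ = xg D s' (c * u)) : ∀ u, g * S.X s u * g⁻¹ = S.X s' (c * u) := by
  obtain ⟨d, hd, h⟩ := h
  have h1 := hc 1
  have h2 := congrArg S.θ (h 1)
  rw [map_mul, map_mul, map_inv, S.θX s hs, S.θX s' hs', h1] at h2
  have h3 := S.xg_inj hs' h2
  rw [mul_one, mul_one] at h3
  rw [h3]
  exact h

theorem Hd_of {h : Γ} {ω : ℕ → Fˣ} (hw : IsWt D S.T ω) (hθ : S.θ h = dgg D ω) (hc : ∀ s < D.nroots, S.Cj h s s) : S.Hd h ω := by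
  refine ⟨hw, hθ, fun s hs => S.Cj_scalar hs hs (hc s hs) fun u => ?_⟩
  rw [hθ]
  exact S.dgg_xg hw hs u

theorem Hd_one : S.Hd 1 1 := ⟨IsWt.one, by rw [map_one, map_one], fun s hs u => by simp⟩

theorem Hd_mul {h h' : Γ} {ω ω' : ℕ → Fˣ} (H : S.Hd h ω) (H' : S.Hd h' ω') : S.Hd (h * h') (ω * ω') := by
  refine ⟨H.1.mul H'.1, by rw [map_mul, H.2.1, H'.2.1, map_mul], fun s hs u => ?_⟩
  have e : h * h' * S.X s u * (h * h')⁻¹ = h * (h' * S.X s u * h'⁻¹) * h⁻¹ := by group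
  rw [e, H'.2.2 s hs, H.2.2 s hs, ← mul_assoc, Pi.mul_apply, Units.val_mul]

theorem Hd_inv {h : Γ} {ω : ℕ → Fˣ} (H : S.Hd h ω) : S.Hd h⁻¹ ω⁻¹ := by
  refine ⟨H.1.inv, by rw [map_inv, H.2.1, map_inv], fun s hs u => ?_⟩
  have := H.2.2 s hs (((ω⁻¹ s : Fˣ) : F) * u)
  rw [Pi.inv_apply, Units.mul_inv_cancel_left] at this
  rw [Pi.inv_apply, ← this]; group

/-- `ĥ_i(t)` -/
def hh (i : ℕ) (t : F) : Γ := S.Nh (D.simple i) t * S.Nh (D.simple i) (-1)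

theorem hh_Hd {i : ℕ} (hi : i < D.rank) (c : Fˣ) : S.Hd (S.hh i (c : F)) (fun s => c ^ D.pairing (D.simple i) s) := by
  have hp := S.N.simple_lt i hi
  refine S.Hd_of (S.isWt_h hp c) ?_ ?_
  · unfold hh
    rw [map_mul, S.θN hp, S.θN hp, S.ng_neg, S.ng_mul_ng hp c, mul_assoc, mul_inv_cancel, mul_one]
  · intro s hs
    unfold hh
    have h1 := S.Nh_conj hi (S.N.refl_lt hi hs) (t := (c : F)) (Units.ne_zero c)
    rw [S.N.refl_refl hi hs] at h1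
    exact S.Cj_mul h1 (S.Nh_conj hi hs (neg_ne_zero.mpr one_ne_zero))

/-- the torus -/
def Hb : Subgroup Γ := Subgroup.closure {h | ∃ (i : ℕ) (t : F), i < D.rank ∧ t ≠ 0 ∧ h = S.hh i t}

theorem hh_mem {i : ℕ} (hi : i < D.rank) {t : F} (ht : t ≠ 0) : S.hh i t ∈ S.Hb := Subgroup.subset_closure ⟨i, t, hi, ht, rfl⟩

theorem Hb_Hd {h : Γ} (hh : h ∈ S.Hb) : ∃ ω, S.Hd h ω := by
  unfold Hb at hh
  induction hh using Subgroup.closure_induction with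
  | mem h hh =>
    obtain ⟨i, t, hi, ht, rfl⟩ := hh
    exact ⟨_, S.hh_Hd hi (Units.mk0 t ht)⟩
  | one => exact ⟨_, S.Hd_one⟩
  | mul a b _ _ ha hb => obtain ⟨ω, ha⟩ := ha; obtain ⟨ω', hb⟩ := hb; exact ⟨_, S.Hd_mul ha hb⟩
  | inv a _ ha => obtain ⟨ω, ha⟩ := ha; exact ⟨_, S.Hd_inv ha⟩

theorem Hd_Nh {h : Γ} {ω : ℕ → Fˣ} (H : S.Hd h ω) {s : ℕ} (hs : s < D.nroots) (t : F) :
    h * S.Nh s t * h⁻¹ = S.Nh s ((ω s : F) * t) := by
  unfold Nh
  have e : h * (S.X s t * S.X (D.neg s) (-t⁻¹) * S.X s t) * h⁻¹ = (h * S.X s t * h⁻¹) * (h * S.X (D.neg s) (-t⁻¹) * h⁻¹) * (h * S.X s t * h⁻¹) := by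
    group
  rw [e, H.2.2 s hs, H.2.2 _ (S.N.neg_lt hs), H.1.neg s hs]
  congr 2
  congr 1
  rw [Units.val_inv_eq_inv_val, mul_inv]; ring

/-- `n̂_i` -/
def nh (i : ℕ) : Γ := S.Nh (D.simple i) 1

theorem θnh {i : ℕ} (hi : i < D.rank) : S.θ (S.nh i) = ni D F i := S.θN (S.N.simple_lt i hi) 1

theorem nh_sq {i : ℕ} (hi : i < D.rank) : S.nh i * S.nh i ∈ S.Hb := by
  have h := inv_mem (S.hh_mem hi (t := -1) (neg_ne_zero.mpr one_ne_zero))
  unfold hh at h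
  rw [S.Nh_neg (S.N.simple_lt i hi)] at h
  have e : ((S.Nh (D.simple i) 1)⁻¹ * (S.Nh (D.simple i) 1)⁻¹)⁻¹ = S.nh i * S.nh i := by unfold nh; rw [_root_.mul_inv_rev, inv_inv]
  rwa [e] at h

theorem Nh_mem {i : ℕ} (hi : i < D.rank) {t : F} (ht : t ≠ 0) : ∃ h ∈ S.Hb, S.Nh (D.simple i) t = h * S.nh i := by
  refine ⟨_, S.hh_mem hi ht, ?_⟩
  unfold hh nh
  rw [S.Nh_neg (S.N.simple_lt i hi)]; group

theorem nh_Hb {i : ℕ} (hi : i < D.rank) {h : Γ} (hh : h ∈ S.Hb) : S.nh i * h * (S.nh i)⁻¹ ∈ S.Hb := by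
  obtain ⟨ω, H⟩ := S.Hb_Hd hh
  have hp := S.N.simple_lt i hi
  have h1 := S.Hd_Nh H hp 1
  have h2 : S.hh i ((ω (D.simple i) : F) * 1) = S.Nh (D.simple i) ((ω (D.simple i) : F) * 1) * (S.nh i)⁻¹ := by
    unfold CfsgLib.Chev.StG.hh nh; rw [S.Nh_neg hp]
  have e : S.nh i * h * (S.nh i)⁻¹ = (S.hh i ((ω (D.simple i) : F) * 1))⁻¹ * h := by
    rw [h2, ← h1]; unfold nh; group
  rw [e]
  exact mul_mem (inv_mem (S.hh_mem hi (mul_ne_zero (Units.ne_zero _) one_ne_zero))) hh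

theorem nh_inv_Hb {i : ℕ} (hi : i < D.rank) {h : Γ} (hh : h ∈ S.Hb) : (S.nh i)⁻¹ * h * S.nh i ∈ S.Hb := by
  have h1 := S.nh_sq hi
  have h2 := S.nh_Hb hi (mul_mem (mul_mem (inv_mem h1) hh) h1)
  have e : S.nh i * ((S.nh i * S.nh i)⁻¹ * h * (S.nh i * S.nh i)) * (S.nh i)⁻¹ = (S.nh i)⁻¹ * h * S.nh i := by group
  rwa [e] at h2

theorem nh_X {i s : ℕ} (hi : i < D.rank) (hs : s < D.nroots) (u : F) :
    S.nh i * S.X s u * (S.nh i)⁻¹ = S.X (D.reflectRoot i s) (((eta D S.T i s : ℤ) : F) * u) := by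
  refine S.Cj_scalar hs (S.N.refl_lt hi hs) (S.Nh_conj hi hs one_ne_zero) (fun u => ?_) u
  have := S.ni_xg (F := F) hi hs u
  rwa [← S.θnh hi] at this

theorem nh_Nh {i s : ℕ} (hi : i < D.rank) (hs : s < D.nroots) (t : F) :
    S.nh i * S.Nh s t * (S.nh i)⁻¹ = S.Nh (D.reflectRoot i s) (((eta D S.T i s : ℤ) : F) * t) := by
  unfold Nh
  have e : S.nh i * (S.X s t * S.X (D.neg s) (-t⁻¹) * S.X s t) * (S.nh i)⁻¹ =
      (S.nh i * S.X s t * (S.nh i)⁻¹) * (S.nh i * S.X (D.neg s) (-t⁻¹) * (S.nh i)⁻¹) * (S.nh i * S.X s t * (S.nh i)⁻¹) := by group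
  rw [e, S.nh_X hi hs, S.nh_X hi (S.N.neg_lt hs), S.N.eta_neg hi hs, S.N.refl_neg hi hs]
  congr 2
  congr 1
  rcases S.N.eta_pm hi hs with h | h <;> rw [h] <;> simp

/-- words -/
def nlh (l : List ℕ) : Γ := (l.map S.nh).prod

theorem nlh_nil : S.nlh [] = 1 := rfl
theorem nlh_cons (i : ℕ) (l : List ℕ) : S.nlh (i :: l) = S.nh i * S.nlh l := by
  unfold nlh; rw [List.map_cons, List.prod_cons]
theorem nlh_append (l l' : List ℕ) : S.nlh (l ++ l') = S.nlh l * S.nlh l' := by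
  unfold nlh; rw [List.map_append, List.prod_append]

theorem θnlh {l : List ℕ} (hl : Wd D l) : S.θ (S.nlh l) = nl D F l := by
  induction l with
  | nil => rw [nlh_nil, nl_nil, map_one]
  | cons i l ih =>
    rw [nlh_cons, nl_cons, map_mul, S.θnh (hl i (by simp)), ih fun j hj => hl j (by simp [hj])]

theorem nlh_Cj {l : List ℕ} (hl : Wd D l) {s : ℕ} (hs : s < D.nroots) : S.Cj (S.nlh l) s (rl D l s) := by
  induction l with
  | nil => exact S.Cj_one s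
  | cons i l ih =>
    have hl' : Wd D l := fun j hj => hl j (by simp [hj])
    rw [nlh_cons, rl_cons]
    exact S.Cj_mul (S.Nh_conj (hl i (by simp)) (S.rl_lt hl' hs) one_ne_zero) (ih hl')

theorem nlh_Hb {l : List ℕ} (hl : Wd D l) {h : Γ} (hh : h ∈ S.Hb) : S.nlh l * h * (S.nlh l)⁻¹ ∈ S.Hb := by
  induction l with
  | nil => rw [nlh_nil]; simpa using hh
  | cons i l ih =>
    have e : S.nlh (i :: l) * h * (S.nlh (i :: l))⁻¹ = S.nh i * (S.nlh l * h * (S.nlh l)⁻¹) * (S.nh i)⁻¹ := by rw [nlh_cons]; group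
    rw [e]
    exact S.nh_Hb (hl i (by simp)) (ih fun j hj => hl j (by simp [hj]))

theorem nlh_inv_Hb {l : List ℕ} (hl : Wd D l) {h : Γ} (hh : h ∈ S.Hb) : (S.nlh l)⁻¹ * h * S.nlh l ∈ S.Hb := by
  induction l generalizing h with
  | nil => rw [nlh_nil]; simpa using hh
  | cons i l ih =>
    have e : (S.nlh (i :: l))⁻¹ * h * S.nlh (i :: l) = (S.nlh l)⁻¹ * ((S.nh i)⁻¹ * h * S.nh i) * S.nlh l := by rw [nlh_cons]; group
    rw [e]
    exact ih (fun j hj => hl j (by simp [hj])) (S.nh_inv_Hb (hl i (by simp)) hh)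

theorem nlh_Nh (l : List ℕ) (hl : Wd D l) {s : ℕ} (hs : s < D.nroots) :
    S.nlh l * S.Nh s 1 * (S.nlh l)⁻¹ = S.Nh (rl D l s) 1 ∨ S.nlh l * S.Nh s 1 * (S.nlh l)⁻¹ = (S.Nh (rl D l s) 1)⁻¹ := by
  induction l with
  | nil => left; rw [nlh_nil]; simp
  | cons i l ih =>
    have hl' : Wd D l := fun j hj => hl j (by simp [hj])
    have hi := hl i (by simp)
    have e : S.nlh (i :: l) * S.Nh s 1 * (S.nlh (i :: l))⁻¹ = S.nh i * (S.nlh l * S.Nh s 1 * (S.nlh l)⁻¹) * (S.nh i)⁻¹ := by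
      rw [nlh_cons]; group
    have h1 := S.nh_Nh hi (S.rl_lt hl' hs) 1
    have h3 := S.Nh_neg (S.N.refl_lt hi (S.rl_lt hl' hs)) 1
    rcases ih hl' with h | h
    · rw [e, h, h1]
      rcases S.N.eta_pm hi (S.rl_lt hl' hs) with h2 | h2
      · left; rw [h2]; simp
      · right; rw [h2]; simp [h3]
    · have e2 : S.nh i * (S.Nh (rl D l s) 1)⁻¹ * (S.nh i)⁻¹ = (S.nh i * (S.Nh (rl D l s) 1) * (S.nh i)⁻¹)⁻¹ := by group
      rw [e, h, e2, h1]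
      rcases S.N.eta_pm hi (S.rl_lt hl' hs) with h2 | h2
      · right; rw [h2]; simp
      · left; rw [h2]; simp [h3]

/-- deletion -/
theorem exchh (l : List ℕ) (hl : Wd D l) {j : ℕ} (hj : j < D.rank) (h : rl D l (D.simple j) ∉ PosS D) :
    ∃ l', Wd D l' ∧ l'.length + 1 = l.length ∧ (∀ s < D.nroots, rl D (l ++ [j]) s = rl D l' s) ∧
      ∃ h ∈ S.Hb, S.nlh (l ++ [j]) = h * S.nlh l' := by
  obtain ⟨A, i, C, rfl, h1⟩ := S.sign_change l hl (S.N.simple_lt j hj) (S.N.simple_pos hj) h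
  have hA : Wd D A := fun k hk => hl k (by simp [hk])
  have hC : Wd D C := fun k hk => hl k (by simp [hk])
  have hi : i < D.rank := hl i (by simp)
  refine ⟨A ++ C, fun k hk => ?_, by simp; omega, ?_, ?_⟩
  · rw [List.mem_append] at hk
    rcases hk with hk | hk
    · exact hA k hk
    · exact hC k hk
  · intro s hs
    simp only [rl_append, rl_cons, rl_nil]
    rw [S.rl_conj hC hi hj h1 hs]
  · have e : S.nlh (A ++ i :: C ++ [j]) = S.nlh A * (S.nh i * (S.nlh C * S.Nh (D.simple j) 1 * (S.nlh C)⁻¹)) * S.nlh C := by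
      rw [List.append_assoc, nlh_append, List.cons_append, nlh_cons, nlh_append, nlh_cons, nlh_nil]
      unfold nh
      group
    have key : ∃ h ∈ S.Hb, S.nh i * (S.nlh C * S.Nh (D.simple j) 1 * (S.nlh C)⁻¹) = h := by
      rcases S.nlh_Nh C hC (S.N.simple_lt j hj) with h2 | h2
      · rw [h2, h1]; exact ⟨_, S.nh_sq hi, rfl⟩
      · rw [h2, h1]
        refine ⟨1, one_mem _, ?_⟩
        exact mul_inv_cancel _
    obtain ⟨h', hh', e2⟩ := key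
    refine ⟨S.nlh A * h' * (S.nlh A)⁻¹, S.nlh_Hb hA hh', ?_⟩
    rw [e, e2, nlh_append]; group

theorem nlh_mem_Hb : ∀ (k : ℕ) (l : List ℕ), l.length ≤ k → Wd D l → (∀ s < D.nroots, s ∈ PosS D → rl D l s ∈ PosS D) →
    S.nlh l ∈ S.Hb := by
  intro k
  induction k with
  | zero =>
    intro l hk _ _
    rw [Nat.le_zero, List.length_eq_zero_iff] at hk
    subst hk
    rw [nlh_nil]; exact one_mem _
  | succ k ih =>
    intro l hk hl hp
    rcases List.eq_nil_or_concat l with rfl | ⟨l', j, rfl⟩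
    · rw [nlh_nil]; exact one_mem _
    · rw [List.concat_eq_append] at *
      have hj : j < D.rank := hl j (by simp)
      have hl' : Wd D l' := fun i hi => hl i (by simp [hi])
      have hjs := S.N.simple_lt j hj
      have h1 := hp _ hjs (S.N.simple_pos hj)
      rw [rl_append, rl_cons, rl_nil, S.N.refl_simple hj, S.rl_neg hl' hjs] at h1
      have h2 : rl D l' (D.simple j) ∉ PosS D := by
        intro h3
        exact S.a_pos_ne_neg (S.rl_lt hl' hjs) (S.N.neg_lt (S.rl_lt hl' hjs)) h3 h1 rfl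
      obtain ⟨l'', hl'', hlen, hr, h, hh, hn⟩ := S.exchh l' hl' hj h2
      have h3 := ih l'' (by rw [List.length_append, List.length_singleton] at hk; omega) hl'' (fun s hs hs' => by
        rw [← hr s hs]; exact hp s hs hs')
      rw [hn]; exact mul_mem hh h3

/-! ### Bruhat decomposition -/

/-- the Borel subgroup -/
def Bb : Subgroup Γ := S.Y (PosS D) ⊔ S.Hb

theorem Hb_norm_Y {A : Set ℕ} : S.Hb ≤ Subgroup.normalizer (S.Y A : Set Γ) := by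
  intro h hh
  obtain ⟨ω, H⟩ := S.Hb_Hd hh
  apply S.Y_inv_conj
  · intro s hs hs' u
    rw [H.2.2 s hs']; exact S.X_mem hs hs' _
  · intro s hs hs' u
    have := (S.Hd_inv H).2.2 s hs' u
    rw [inv_inv] at this
    rw [this]; exact S.X_mem hs hs' _

theorem mem_Bb {g : Γ} : g ∈ S.Bb ↔ ∃ u ∈ S.Y (PosS D), ∃ h ∈ S.Hb, g = u * h := by
  unfold Bb
  rw [← SetLike.mem_coe, Subgroup.coe_mul_of_right_le_normalizer_left _ _ S.Hb_norm_Y, Set.mem_mul]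
  constructor
  · rintro ⟨u, hu, h, hh, rfl⟩; exact ⟨u, hu, h, hh, rfl⟩
  · rintro ⟨u, hu, h, hh, rfl⟩; exact ⟨u, hu, h, hh, rfl⟩

theorem Y_le_Bb : S.Y (PosS D) ≤ S.Bb := le_sup_left
theorem Hb_le_Bb : S.Hb ≤ S.Bb := le_sup_right

theorem θHb {h : Γ} (hh : h ∈ S.Hb) : S.θ h ∈ D.diagonalSubgroup F := by
  unfold Hb at hh
  induction hh using Subgroup.closure_induction with
  | mem h hh =>
    obtain ⟨i, t, hi, ht, rfl⟩ := hh
    have h1 := (S.hh_Hd hi (Units.mk0 t ht)).2.1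
    rw [Units.val_mk0] at h1
    rw [h1]; exact S.h_mem (S.N.simple_lt i hi) _
  | one => rw [map_one]; exact one_mem _
  | mul a b _ _ ha hb => rw [map_mul]; exact mul_mem ha hb
  | inv a _ ha => rw [map_inv]; exact inv_mem ha

theorem θU {u : Γ} (hu : u ∈ S.Y (PosS D)) : S.θ u ∈ D.posUnipotent F := by rw [S.U_eq]; exact S.θY hu

theorem θBb {g : Γ} (hg : g ∈ S.Bb) : S.θ g ∈ D.borelSubgroup F := by
  obtain ⟨u, hu, h, hh, rfl⟩ := S.mem_Bb.mp hg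
  rw [map_mul]
  exact mul_mem (GD.U_le_B (S.θU hu)) (GD.H_le_B (S.θHb hh))

theorem mem_Yi {i : ℕ} (hi : i < D.rank) {g : Γ} (hg : g ∈ S.Y (PosS D)) :
    ∃ u ∈ S.Y (PosI D i), ∃ t : F, g = u * S.X (D.simple i) t := by
  have hp := S.N.simple_lt i hi
  have key : ∀ r t', r ∈ PosS D → r < D.nroots → ∀ g : Γ, (∃ u ∈ S.Y (PosI D i), ∃ t : F, g = u * S.X (D.simple i) t) →
      ∃ u ∈ S.Y (PosI D i), ∃ t : F, S.X r t' * g = u * S.X (D.simple i) t := by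
    rintro r t' hr hr' g ⟨u, hu, t, rfl⟩
    by_cases h : r = D.simple i
    · subst h
      refine ⟨S.X (D.simple i) t' * u * (S.X (D.simple i) t')⁻¹,
        ((Subgroup.mem_normalizer_iff.mp (S.X_norm hp (S.act_pm hi hp (S.a_simple0 hi)) t')) u).mp hu, t' + t, ?_⟩
      rw [← S.add _ hp]; group
    · exact ⟨S.X r t' * u, mul_mem (S.X_mem (A := PosI D i) ⟨hr, h⟩ hr' _) hu, t, by rw [mul_assoc]⟩
  unfold Y at hg
  induction hg using Subgroup.closure_induction_left with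
  | one => exact ⟨1, one_mem _, 0, by rw [S.X0 hp, one_mul]⟩
  | mul_left a ha g _ ih =>
    obtain ⟨r, t, hr, hr', rfl⟩ := ha
    exact key r t hr hr' g ih
  | inv_mul_cancel a ha g _ ih =>
    obtain ⟨r, t, hr, hr', rfl⟩ := ha
    rw [← S.Xneg hr']
    exact key r (-t) hr hr' g ih

theorem mem_Bb' {i : ℕ} (hi : i < D.rank) {g : Γ} (hg : g ∈ S.Bb) :
    ∃ u ∈ S.Y (PosI D i), ∃ t : F, ∃ h ∈ S.Hb, g = u * S.X (D.simple i) t * h := by
  obtain ⟨u, hu, h, hh, rfl⟩ := S.mem_Bb.mp hg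
  obtain ⟨u', hu', t, rfl⟩ := S.mem_Yi hi hu
  exact ⟨u', hu', t, h, hh, rfl⟩

theorem Xneg_eq {i : ℕ} (hi : i < D.rank) {s : F} (hs : s ≠ 0) :
    ∃ h ∈ S.Hb, S.X (D.neg (D.simple i)) s = S.X (D.simple i) s⁻¹ * h * S.nh i * S.X (D.simple i) s⁻¹ := by
  have hp := S.N.simple_lt i hi
  have hs' : -s⁻¹ ≠ 0 := by simpa using hs
  obtain ⟨h, hh, h2⟩ := S.Nh_mem hi hs'
  refine ⟨h, hh, ?_⟩
  have h3 : -(-s⁻¹)⁻¹ = s := by rw [inv_neg, inv_inv, _root_.neg_neg]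
  have h1 : S.Nh (D.simple i) (-s⁻¹) = S.X (D.simple i) (-s⁻¹) * S.X (D.neg (D.simple i)) s * S.X (D.simple i) (-s⁻¹) := by
    unfold Nh; rw [h3]
  have h4 : S.X (D.neg (D.simple i)) s = (S.X (D.simple i) (-s⁻¹))⁻¹ * S.Nh (D.simple i) (-s⁻¹) * (S.X (D.simple i) (-s⁻¹))⁻¹ := by
    rw [h1]; group
  have h5 : (S.X (D.simple i) (-s⁻¹))⁻¹ = S.X (D.simple i) s⁻¹ := by rw [S.Xneg hp, inv_inv]
  rw [h4, h5, h2]
  group

/-- rank one step -/
theorem bn_stepΓ {i : ℕ} (hi : i < D.rank) {l : List ℕ} (hl : Wd D l) {b : Γ} (hb : b ∈ S.Bb) :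
    (∃ b₁ ∈ S.Bb, ∃ b₂ ∈ S.Bb, S.nh i * b * S.nlh l = b₁ * (S.nh i * S.nlh l) * b₂) ∨
    (∃ b₁ ∈ S.Bb, ∃ b₂ ∈ S.Bb, S.nh i * b * S.nlh l = b₁ * S.nlh l * b₂) := by
  have hp := S.N.simple_lt i hi
  obtain ⟨u, hu, t, h, hh, rfl⟩ := S.mem_Bb' hi hb
  set n := S.nlh l with hndef
  have hnH : ∀ k ∈ S.Hb, n⁻¹ * k * n ∈ S.Hb := fun k hk => S.nlh_inv_Hb hl hk
  have hu1 : S.nh i * u * (S.nh i)⁻¹ ∈ S.Bb :=
    S.Y_le_Bb (S.Ui_le i (((Subgroup.mem_normalizer_iff.mp (S.Nh_norm_Ui hi 1)) u).mp hu))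
  have hlr : Wd D l.reverse := fun j hj => hl j (by simpa using hj)
  have hconj : ∀ r < D.nroots, ∀ t : F, ∃ t', n⁻¹ * S.X r t * n = S.X (rl D l.reverse r) t' := by
    intro r hr t
    have hs : rl D l.reverse r < D.nroots := S.rl_lt hlr hr
    have hrr : rl D l (rl D l.reverse r) = r := by
      have := S.rl_reverse hlr hr
      rwa [List.reverse_reverse] at this
    have h1 := S.Cj_inv (S.nlh_Cj hl hs)
    rw [hrr] at h1
    obtain ⟨c, hc, h1⟩ := h1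
    refine ⟨c * t, ?_⟩
    have := h1 t
    rwa [inv_inv] at this
  by_cases hpos : rl D l.reverse (D.simple i) ∈ PosS D
  · left
    obtain ⟨t', ht'⟩ := hconj _ hp t
    refine ⟨S.nh i * u * (S.nh i)⁻¹, hu1, (n⁻¹ * S.X (D.simple i) t * n) * (n⁻¹ * h * n), ?_, by group⟩
    rw [ht']
    exact mul_mem (S.Y_le_Bb (S.X_mem hpos (S.rl_lt hlr hp) _)) (S.Hb_le_Bb (hnH h hh))
  · have hneg : rl D l.reverse (D.neg (D.simple i)) ∈ PosS D := by
      rw [S.rl_neg hlr hp]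
      have h1 := S.rl_lt hlr hp
      change ¬ (D.nroots / 2 ≤ _) at hpos
      have he := S.N.even
      change D.nroots / 2 ≤ _
      rw [S.N.neg_eq h1]; omega
    by_cases ht : t = 0
    · left
      subst ht
      rw [S.X0 hp, mul_one]
      exact ⟨S.nh i * u * (S.nh i)⁻¹, hu1, n⁻¹ * h * n, S.Hb_le_Bb (hnH h hh), by group⟩
    · right
      have e1 := S.nh_X hi hp t
      rw [S.N.refl_simple hi, S.N.eta_simple hi] at e1
      simp only [Int.cast_neg, Int.cast_one, neg_mul, one_mul] at e1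
      obtain ⟨k, hk, e2⟩ := S.Xneg_eq hi (s := -t) (neg_ne_zero.mpr ht)
      have e3 := S.nh_X hi hp (-t)⁻¹
      rw [S.N.refl_simple hi, S.N.eta_simple hi] at e3
      simp only [Int.cast_neg, Int.cast_one, neg_mul, one_mul] at e3
      obtain ⟨t', ht'⟩ := hconj _ (S.N.neg_lt hp) (-(-t)⁻¹)
      refine ⟨S.nh i * u * (S.nh i)⁻¹ * (S.X (D.simple i) (-t)⁻¹ * k), ?_,
        (n⁻¹ * S.X (D.neg (D.simple i)) (-(-t)⁻¹) * n) * (n⁻¹ * (S.nh i * S.nh i * h) * n), ?_, ?_⟩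
      · exact mul_mem hu1 (mul_mem (S.Y_le_Bb (S.X_mem (S.N.simple_pos hi) hp _)) (S.Hb_le_Bb hk))
      · rw [ht']
        exact mul_mem (S.Y_le_Bb (S.X_mem hneg (S.rl_lt hlr (S.N.neg_lt hp)) _))
          (S.Hb_le_Bb (hnH _ (mul_mem (S.nh_sq hi) hh)))
      · have e4 : S.nh i * (u * S.X (D.simple i) t * h) * n =
            (S.nh i * u * (S.nh i)⁻¹) * (S.nh i * S.X (D.simple i) t * (S.nh i)⁻¹) * (S.nh i * h * n) := by group
        rw [e4, e1, e2, ← e3]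
        group

theorem bruhat (g : Γ) : ∃ b₁ ∈ S.Bb, ∃ l, Wd D l ∧ ∃ b₂ ∈ S.Bb, g = b₁ * S.nlh l * b₂ := by
  set T : Set Γ := {g | ∃ b₁ ∈ S.Bb, ∃ l, Wd D l ∧ ∃ b₂ ∈ S.Bb, g = b₁ * S.nlh l * b₂} with hT
  have hB : ∀ b ∈ S.Bb, ∀ g ∈ T, b * g ∈ T := by
    rintro b hb g ⟨b₁, hb₁, l, hl, b₂, hb₂, rfl⟩
    exact ⟨b * b₁, mul_mem hb hb₁, l, hl, b₂, hb₂, by group⟩
  have hn : ∀ i < D.rank, ∀ g ∈ T, S.nh i * g ∈ T := by
    rintro i hi g ⟨b₁, hb₁, l, hl, b₂, hb₂, rfl⟩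
    rcases S.bn_stepΓ hi hl hb₁ with ⟨c₁, hc₁, c₂, hc₂, e⟩ | ⟨c₁, hc₁, c₂, hc₂, e⟩
    · refine ⟨c₁, hc₁, i :: l, ?_, c₂ * b₂, mul_mem hc₂ hb₂, ?_⟩
      · intro j hj
        rcases List.mem_cons.mp hj with rfl | hj
        · exact hi
        · exact hl j hj
      · rw [nlh_cons]
        calc S.nh i * (b₁ * S.nlh l * b₂) = (S.nh i * b₁ * S.nlh l) * b₂ := by group
          _ = _ := by rw [e]; group
    · refine ⟨c₁, hc₁, l, hl, c₂ * b₂, mul_mem hc₂ hb₂, ?_⟩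
      calc S.nh i * (b₁ * S.nlh l * b₂) = (S.nh i * b₁ * S.nlh l) * b₂ := by group
        _ = _ := by rw [e]; group
  have hn' : ∀ i < D.rank, ∀ g ∈ T, (S.nh i)⁻¹ * g ∈ T := by
    intro i hi g hg
    have h1 := hn i hi _ (hB _ (S.Hb_le_Bb (inv_mem (S.nh_sq hi))) g hg)
    have e : S.nh i * ((S.nh i * S.nh i)⁻¹ * g) = (S.nh i)⁻¹ * g := by group
    rwa [e] at h1
  -- the stabiliser
  let K : Subgroup Γ :=
    { carrier := {k | (∀ g ∈ T, k * g ∈ T) ∧ (∀ g ∈ T, k⁻¹ * g ∈ T)}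
      one_mem' := ⟨fun g hg => by rwa [one_mul], fun g hg => by rwa [inv_one, one_mul]⟩
      mul_mem' := by
        rintro a b ⟨ha, ha'⟩ ⟨hb, hb'⟩
        exact ⟨fun g hg => by rw [mul_assoc]; exact ha _ (hb _ hg), fun g hg => by rw [_root_.mul_inv_rev, mul_assoc]; exact hb' _ (ha' _ hg)⟩
      inv_mem' := by
        rintro a ⟨ha, ha'⟩
        exact ⟨ha', fun g hg => by rw [inv_inv]; exact ha g hg⟩ }
  have hnK : ∀ i < D.rank, S.nh i ∈ K := fun i hi => ⟨hn i hi, hn' i hi⟩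
  have hX : ∀ r < D.nroots, ∀ t, S.X r t ∈ K := by
    refine S.root_ind (P := fun r => ∀ t, S.X r t ∈ K) ?_ ?_
    · intro i hi t
      have h1 : S.X (D.simple i) t ∈ S.Bb := S.Y_le_Bb (S.X_mem (S.N.simple_pos hi) (S.N.simple_lt i hi) t)
      exact ⟨hB _ h1, hB _ (inv_mem h1)⟩
    · intro i hi r hr h t
      have h2 := S.nh_X hi hr (((eta D S.T i r : ℤ) : F) * t)
      rw [← mul_assoc, ← Int.cast_mul, S.N.eta_sq hi hr, Int.cast_one, one_mul] at h2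
      rw [← h2]
      exact mul_mem (mul_mem (hnK i hi) (h _)) (inv_mem (hnK i hi))
  have hK : K = ⊤ := by
    rw [eq_top_iff, ← S.gen, Subgroup.closure_le]
    rintro g ⟨r, t, hr, rfl⟩
    exact hX r hr t
  have h1 : g ∈ K := by rw [hK]; trivial
  have h2 := h1.1 1 ⟨1, one_mem _, [], fun i hi => by simp at hi, 1, one_mem _, by rw [nlh_nil]; simp⟩
  rwa [mul_one] at h2

theorem mem_center_of {h : Γ} (hc : ∀ s < D.nroots, ∀ u, h * S.X s u * h⁻¹ = S.X s u) : h ∈ Subgroup.center Γ := by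
  have h1 : Subgroup.closure {g | ∃ r t, r < D.nroots ∧ g = S.X r t} ≤ Subgroup.centralizer {h} := by
    rw [Subgroup.closure_le]
    rintro g ⟨r, t, hr, rfl⟩
    rw [SetLike.mem_coe, Subgroup.mem_centralizer_singleton_iff]
    have := hc r hr t
    rw [mul_inv_eq_iff_eq_mul] at this
    exact this.symm
  rw [S.gen] at h1
  rw [Subgroup.mem_center_iff]
  intro g
  exact (Subgroup.mem_centralizer_singleton_iff.mp (h1 (Subgroup.mem_top g)))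

theorem ker_le_Hb : S.θ.ker ≤ S.Hb := by
  intro g hg
  rw [MonoidHom.mem_ker] at hg
  obtain ⟨b₁, hb₁, l, hl, b₂, hb₂, rfl⟩ := S.bruhat g
  have h1 : nl D F l ∈ D.borelSubgroup F := by
    rw [map_mul, map_mul, S.θnlh hl] at hg
    have : nl D F l = (S.θ b₁)⁻¹ * (S.θ b₂)⁻¹ := by
      rw [eq_inv_mul_iff_mul_eq, eq_inv_iff_mul_eq_one]; exact hg
    rw [this]
    exact mul_mem (inv_mem (S.θBb hb₁)) (inv_mem (S.θBb hb₂))
  have h2 := (S.nl_mem_B hl h1).2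
  have h3 : S.nlh l ∈ S.Hb := S.nlh_mem_Hb l.length l le_rfl hl (fun s hs hs' => by rw [h2 s hs]; exact hs')
  have h4 : b₁ * S.nlh l * b₂ ∈ S.Bb := mul_mem (mul_mem hb₁ (S.Hb_le_Bb h3)) hb₂
  obtain ⟨u, hu, h, hh, e⟩ := S.mem_Bb.mp h4
  rw [e] at hg ⊢
  rw [map_mul] at hg
  have h5 : S.θ u ∈ D.posUnipotent F ⊓ D.diagonalSubgroup F := by
    refine ⟨S.θU hu, ?_⟩
    have h6 : S.θ u = (S.θ h)⁻¹ := eq_inv_of_mul_eq_one_left hg
    have h7 : (S.θ h)⁻¹ ∈ D.diagonalSubgroup F := inv_mem (S.θHb hh)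
    rw [← h6] at h7
    exact h7
  rw [S.U_inf_H, Subgroup.mem_bot] at h5
  rw [S.inj_U hu h5, one_mul]
  exact hh

theorem ker_le_center : S.θ.ker ≤ Subgroup.center Γ := by
  intro g hg
  obtain ⟨ω, H⟩ := S.Hb_Hd (S.ker_le_Hb hg)
  rw [MonoidHom.mem_ker] at hg
  have h1 : dgg D ω = dgg D 1 := by rw [← H.2.1, hg, map_one]
  have h2 := dgg_inj D h1
  refine S.mem_center_of fun s hs u => ?_
  rw [H.2.2 s hs, h2 s hs]; simp

theorem θrange : S.θ.range = D.group F := by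
  rw [S.G_eq, MonoidHom.range_eq_map, ← S.gen, MonoidHom.map_closure]
  unfold XS
  congr 1
  ext g
  constructor
  · rintro ⟨x, ⟨r, t, hr, rfl⟩, rfl⟩
    exact ⟨r, t, Set.mem_univ _, hr, S.θX r hr t⟩
  · rintro ⟨r, t, _, hr, rfl⟩
    exact ⟨_, ⟨r, t, hr, rfl⟩, S.θX r hr t⟩

theorem center_le_ker : Subgroup.center Γ ≤ S.θ.ker := by
  intro z hz
  have hz' : ∀ g, g * z = z * g := Subgroup.mem_center_iff.mp hz
  obtain ⟨b₁, hb₁, l, hl, b₂, hb₂, e⟩ := S.bruhat z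
  have hpos : ∀ s < D.nroots, s ∈ PosS D → rl D l s ∈ PosS D := by
    intro s hs hs'
    by_contra hc
    have h1 : S.nlh l * S.X s 1 * (S.nlh l)⁻¹ ∈ S.Bb := by
      have h2 : S.nlh l = b₁⁻¹ * z * b₂⁻¹ := by rw [e]; group
      have h3 : S.nlh l * S.X s 1 * (S.nlh l)⁻¹ = b₁⁻¹ * (b₂⁻¹ * S.X s 1 * b₂) * b₁ := by
        have h4 : z * (b₂⁻¹ * S.X s 1 * b₂) * z⁻¹ = b₂⁻¹ * S.X s 1 * b₂ := by rw [← hz', mul_assoc, mul_inv_cancel, mul_one]
        calc S.nlh l * S.X s 1 * (S.nlh l)⁻¹ = b₁⁻¹ * (z * (b₂⁻¹ * S.X s 1 * b₂) * z⁻¹) * b₁ := by rw [h2]; group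
          _ = _ := by rw [h4]
      rw [h3]
      exact mul_mem (mul_mem (inv_mem hb₁) (mul_mem (mul_mem (inv_mem hb₂) (S.Y_le_Bb (S.X_mem hs' hs 1))) hb₂)) hb₁
    obtain ⟨c, hc0, h5⟩ := S.nlh_Cj hl hs
    rw [h5 1] at h1
    have h6 := S.θBb h1
    rw [S.θX _ (S.rl_lt hl hs)] at h6
    have h7 := S.xneg_notMem_B (S.rl_lt hl hs) (GD.notPos_iff.mp hc) h6
    rw [mul_one] at h7
    exact hc0 h7
  have h3 : S.nlh l ∈ S.Hb := S.nlh_mem_Hb l.length l le_rfl hl hpos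
  have h4 : z ∈ S.Bb := by rw [e]; exact mul_mem (mul_mem hb₁ (S.Hb_le_Bb h3)) hb₂
  have h5 : (Subgroup.center Γ ⊓ S.Bb).map S.θ = ⊥ := by
    apply S.core_B
    · rintro _ ⟨x, hx, rfl⟩
      exact S.θBb hx.2
    · rintro g hg _ ⟨x, hx, rfl⟩
      rw [← S.θrange] at hg
      obtain ⟨y, rfl⟩ := hg
      refine ⟨x, hx, ?_⟩
      have hx' := Subgroup.mem_center_iff.mp hx.1 y
      rw [← map_mul, ← map_inv, ← map_mul, hx']
      congr 1
      group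
  rw [MonoidHom.mem_ker, ← Subgroup.mem_bot, ← h5]
  exact ⟨z, ⟨hz, h4⟩, rfl⟩

theorem ker_eq : S.θ.ker = Subgroup.center Γ := le_antisymm S.ker_le_center S.center_le_ker

end StG

end CfsgLib.Chev
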