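import Cfsg.Agent.Lib.CSt3
import Cfsg.Agent.Lib.ChevCD
import Cfsg.Prelude.Def_SteinbergCover
set_option autoImplicit false
set_option maxRecDepth 1000000
set_option linter.style.haveILetI false

/-! The Steinberg groups as instances. -/

namespace CfsgLib.Chev
open Cfsg.Lie Matrix

theorem stOK_all {D : ChevalleyDatum} (hD : D ∈ [chevG2, chevB2, chevD4, chevF4, chevE6, chevE7, chevE8]) : StOK D := by
  simp only [List.mem_cons, List.not_mem_nil, or_false] at hD
  rcases hD with rfl | rfl | rfl | rfl | rfl | rfl | rfl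
  · exact stOK_of_chk (L := [(5,8,0),(1,11,0)]) (by decide +kernel)
  · exact stOK_of_chk (L := [(3,6,0),(2,7,1)]) (by decide +kernel)
  · exact stOK_of_chk (L := [(6,22,0),(1,23,0),(3,22,0),(2,22,0)]) (by decide +kernel)
  · exact stOK_of_chk (L := [(7,44,0),(8,40,0),(2,46,0),(1,47,0)]) (by decide +kernel)
  · exact stOK_of_chk (L := [(16,66,0),(1,71,0),(5,69,0),(2,70,0),(3,69,0),(4,68,0)]) (by decide +kernel)
  · exact stOK_of_chk (L := [(1,125,0),(7,122,0),(2,124,0),(3,123,0),(4,122,0),(5,121,0),(6,120,0)]) (by decide +kernel)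
  · exact stOK_of_chk (L := [(14,233,0),(7,234,0),(6,234,0),(5,235,0),(4,236,0),(3,237,0),(2,238,0),(1,239,0)]) (by decide +kernel)

section
variable (D : ChevalleyDatum) (F : Type*) [Field F]

/-- images of the generators -/
noncomputable def genMap (p : Fin D.nroots × F) : GL D.Idx F := xg D p.1 p.2

variable {F}

theorem lift_stX {r : ℕ} (hr : r < D.nroots) (t : F) : FreeGroup.lift (genMap D F) (D.stX r t) = xg D r t := by
  unfold ChevalleyDatum.stX
  rw [dif_pos hr, FreeGroup.lift_apply_of]; rfl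

variable {D} in
theorem lift_stX' (M : CG D F) (r : ℕ) (t : F) : FreeGroup.lift (genMap D F) (D.stX r t) = xg D r t := by
  by_cases hr : r < D.nroots
  · exact lift_stX D hr t
  · unfold ChevalleyDatum.stX
    rw [dif_neg hr, map_one, M.xg_out hr]

variable {D} in
theorem lift_stWord (M : CG D F) (w : List (ℕ × F)) : FreeGroup.lift (genMap D F) (D.stWord w) = wg D w := by
  induction w with
  | nil => unfold ChevalleyDatum.stWord wg; simp
  | cons p w ih =>
    have e : D.stWord (p :: w) = D.stX p.1 p.2 * D.stWord w := by unfold ChevalleyDatum.stWord; rw [List.map_cons, List.prod_cons]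
    rw [e, map_mul, ih, wg_cons, lift_stX' M]

variable {D} in
theorem lift_stH (M : CG D F) {r : ℕ} (hr : r < D.nroots) (c : Fˣ) :
    FreeGroup.lift (genMap D F) (D.stH r (c : F)) = dgg D (fun s => c ^ D.pairing r s) := by
  unfold ChevalleyDatum.stH
  rw [lift_stWord M]
  have e : wg D (D.hWord r (c : F)) = ng D r (c : F) * ng D r (-1) := by
    rw [M.ng_eq, M.ng_eq]
    unfold ChevalleyDatum.hWord ChevalleyDatum.nWord wg
    simp only [List.cons_append, List.nil_append, List.map_cons, List.map_nil, List.prod_cons, List.prod_nil, mul_one]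
    group
  rw [e, M.ng_neg, M.ng_mul_ng hr, mul_assoc, mul_inv_cancel, mul_one]

variable {D} in
theorem lift_relsAB (M : CG D F) : ∀ r ∈ D.steinbergRelsAB F, FreeGroup.lift (genMap D F) r = 1 := by
  rintro g (⟨r, t₁, t₂, hr, rfl⟩ | ⟨r, s, t, u, hr, hs, h1, h2, rfl⟩)
  · rw [map_mul, map_mul, map_inv, lift_stX' M, lift_stX' M, lift_stX' M, M.xg_add, mul_inv_cancel]
  · simp only [map_mul, map_inv, lift_stX' M, lift_stWord M]
    have := M.comm_xg hr hs h1 h2 t u
    rw [mul_inv_eq_one]
    calc (xg D s u)⁻¹ * (xg D r t)⁻¹ * xg D s u * xg D r t = (xg D r t * xg D s u)⁻¹ * (xg D s u * xg D r t) := by group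
      _ = _ := by rw [this]; group

variable {D} in
theorem lift_rels (M : CG D F) : ∀ r ∈ D.steinbergRels F, FreeGroup.lift (genMap D F) r = 1 := by
  rintro g (hg | ⟨r, t₁, t₂, hr, h1, h2, rfl⟩)
  · exact lift_relsAB M g hg
  · have e1 := lift_stH M hr (Units.mk0 t₁ h1)
    have e2 := lift_stH M hr (Units.mk0 t₂ h2)
    have e3 := lift_stH M hr (Units.mk0 t₁ h1 * Units.mk0 t₂ h2)
    rw [Units.val_mul, Units.val_mk0, Units.val_mk0] at e3
    rw [Units.val_mk0] at e1 e2
    rw [map_mul, map_mul, map_inv, e1, e2, e3, ← map_mul, mul_inv_eq_one]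
    congr 1
    ext s
    simp only [Pi.mul_apply, mul_zpow]

theorem relsAB_le : D.steinbergRelsAB F ⊆ D.steinbergRels F := Set.subset_union_left

end

/-- general presented group over the Chevalley group -/
noncomputable def stOf {D : ChevalleyDatum} {F : Type*} [Field F] (M : CG D F) (hok : StOK D) (rels : Set (FreeGroup (Fin D.nroots × F)))
    (hle : D.steinbergRelsAB F ⊆ rels) (hlift : ∀ r ∈ rels, FreeGroup.lift (genMap D F) r = 1) : StG D F (PresentedGroup rels) :=
  { M with
    X := fun r t => PresentedGroup.mk rels (D.stX r t)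
    θ := PresentedGroup.toGroup hlift
    add := by
      intro r hr t u
      rw [← map_mul]
      exact PresentedGroup.mk_eq_mk_of_mul_inv_mem (hle (Or.inl ⟨r, t, u, hr, rfl⟩))
    com := by
      intro r hr s hs h1 h2 t u
      have e1 : ((D.commWord F r s t u).map fun p => PresentedGroup.mk rels (D.stX p.1 p.2)).prod =
          PresentedGroup.mk rels (D.stWord (D.commWord F r s t u)) := by
        unfold ChevalleyDatum.stWord
        rw [map_list_prod, List.map_map]; rfl
      rw [e1, ← map_inv, ← map_inv, ← map_mul, ← map_mul, ← map_mul]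
      exact PresentedGroup.mk_eq_mk_of_mul_inv_mem (hle (Or.inr ⟨r, s, t, u, hr, hs, h1, h2, rfl⟩))
    θX := by
      intro r hr t
      have : PresentedGroup.toGroup hlift (PresentedGroup.mk rels (D.stX r t)) = FreeGroup.lift (genMap D F) (D.stX r t) := rfl
      rw [this, lift_stX D hr]
    gen := by
      rw [eq_top_iff, ← PresentedGroup.closure_range_of, Subgroup.closure_le]
      rintro _ ⟨⟨r, t⟩, rfl⟩
      refine Subgroup.subset_closure ⟨r, t, r.2, ?_⟩
      unfold ChevalleyDatum.stX
      rw [dif_pos r.2]; rfl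
    ok := hok }

/-- the Steinberg group -/
noncomputable def stGrp {D : ChevalleyDatum} {F : Type*} [Field F] (M : CG D F) (hok : StOK D) : StG D F (D.SteinbergGroup F) :=
  stOf M hok _ (relsAB_le D) (lift_rels M)

/-- the Steinberg cover -/
noncomputable def stCov {D : ChevalleyDatum} {F : Type*} [Field F] (M : CG D F) (hok : StOK D) : StG D F (D.SteinbergCover F) :=
  stOf M hok _ subset_rfl (lift_relsAB M)

theorem stGrp_X {D : ChevalleyDatum} {F : Type*} [Field F] (M : CG D F) (hok : StOK D) (r : ℕ) (t : F) : (stGrp M hok).X r t = D.stGen F r t := rfl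
theorem stCov_X {D : ChevalleyDatum} {F : Type*} [Field F] (M : CG D F) (hok : StOK D) (r : ℕ) (t : F) : (stCov M hok).X r t = D.scGen F r t := rfl

namespace StG
variable {D : ChevalleyDatum} {F : Type*} [Field F] {Γ : Type*} [Group Γ] (S : StG D F Γ)

/-- `θ` with values in the Chevalley group -/
def θG : Γ →* ↥(D.group F) := S.θ.codRestrict (D.group F) fun g => by rw [← S.θrange]; exact ⟨g, rfl⟩

theorem θG_coe (g : Γ) : ((S.θG g : ↥(D.group F)) : GL D.Idx F) = S.θ g := rfl

theorem θG_ker : S.θG.ker = S.θ.ker := by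
  ext g
  rw [MonoidHom.mem_ker, MonoidHom.mem_ker]
  constructor
  · intro h; rw [← θG_coe, h]; rfl
  · intro h; exact Subtype.ext h

theorem θG_surj : Function.Surjective S.θG := by
  intro g
  have : (g : GL D.Idx F) ∈ S.θ.range := by rw [S.θrange]; exact g.2
  obtain ⟨x, hx⟩ := this
  exact ⟨x, Subtype.ext hx⟩

theorem θG_X {r : ℕ} (hr : r < D.nroots) (t : F) : ((S.θG (S.X r t) : GL D.Idx F) : Matrix D.Idx D.Idx F) = D.x F r t := by
  rw [θG_coe, S.θX r hr, S.coe_xg]

theorem θ_unique {θ' : Γ →* ↥(D.group F)} (h : ∀ (r : ℕ) (t : F), r < D.nroots → ((θ' (S.X r t) : GL D.Idx F) : Matrix D.Idx D.Idx F) = D.x F r t) :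
    θ' = S.θG := by
  have h1 : (⊤ : Subgroup Γ) ≤ MonoidHom.eqLocus θ' S.θG := by
    rw [← S.gen, Subgroup.closure_le]
    rintro g ⟨r, t, hr, rfl⟩
    change θ' (S.X r t) = S.θG (S.X r t)
    apply Subtype.ext
    apply Units.ext
    rw [h r t hr, S.θG_X hr]
  ext g
  rw [h1 (Subgroup.mem_top g)]

end StG

theorem mk_stH {D : ChevalleyDatum} {F : Type*} [Field F] (M : CG D F) (hok : StOK D) (i : ℕ) (t : F) :
    PresentedGroup.mk (D.steinbergRels F) (D.stH (D.simple i) t) = (stGrp M hok).hh i t := by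
  unfold ChevalleyDatum.stH ChevalleyDatum.stWord ChevalleyDatum.hWord ChevalleyDatum.nWord StG.hh StG.Nh
  simp only [List.cons_append, List.nil_append, List.map_cons, List.map_nil, List.prod_cons, List.prod_nil, mul_one, map_mul]
  simp only [stGrp_X, ChevalleyDatum.stGen]
  group

end CfsgLib.Chev
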