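import Mathlib
import Cfsg.Prelude.Def_Characters
import Cfsg.Prelude.Def_OddOrderChar
import Cfsg.Agent.Lib.CharBasic
import Cfsg.Agent.Lib.CharBasic2
import Cfsg.Agent.Lib.CharInd
import Cfsg.Agent.Lib.CharClifford
import Cfsg.Agent.Lib.CharCoh
import Cfsg.Agent.Lib.CharCoh2
import Cfsg.Agent.Lib.CharCoh3
import Cfsg.Agent.Lib.CharCoh5
import Cfsg.Agent.Lib.CharCoh8
import Cfsg.Agent.Lib.CharCoh9

/-!
# Coherence of the irreducible characters nontrivial on a central subgroup of a normal p-subgroup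
-/

set_option autoImplicit false
set_option linter.style.haveILetI false

open scoped ComplexConjugate

namespace CfsgLib.CharCoh

open Cfsg CfsgLib.CharBasic CfsgLib.CharInd CfsgLib.CharClifford

universe u v

section irr

variable {L : Type u} [Group L] [Fintype L] {G : Type v} [Group G] [Fintype G]

/-- data for induced irreducible characters nontrivial on `Z` -/
theorem central_data {K Z : Subgroup L} [K.Normal] {p m : ℕ} (hp : p.Prime) (hK : Nat.card K = p ^ m) (hZK : Z ≤ K)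
    (hZc : ∀ z ∈ Z, ∀ k ∈ K, z * k = k * z) {χ : L → ℂ} {θ : K → ℂ} (hθ : IsIrrCharacter K θ) (hχ : χ = indFun K θ) :
    ∃ k : ℕ, χ 1 = ((K.index * p ^ k : ℕ) : ℂ) ∧ (p ^ k) ^ 2 ∣ Z.relIndex K := by
  obtain ⟨n, hn, hn'⟩ := IsIrrCharacter.exists_pos hθ
  have h1 := IsIrrCharacter.degree_dvd hθ hn'
  rw [hK] at h1
  obtain ⟨k, -, hk⟩ := (Nat.dvd_prime_pow hp).mp h1
  refine ⟨k, ?_, ?_⟩
  · rw [hχ, indFun_one, hn', hk]; push_cast; ring
  · have h2 := IsIrrCharacter.sq_degree_le_index hθ hn' (Z.subgroupOf K) (fun a ha => IsIrrCharacter.norm_of_mem_center hθ (by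
      rw [Subgroup.mem_center_iff]
      intro g
      apply Subtype.ext
      exact (hZc a (Subgroup.mem_subgroupOf.mp ha) g g.2).symm))
    have h3 : (Z.subgroupOf K).index ∣ p ^ m := by rw [← hK]; exact Subgroup.index_dvd_card _
    obtain ⟨c, -, hc⟩ := (Nat.dvd_prime_pow hp).mp h3
    rw [Subgroup.relIndex, hc]
    rw [hk, hc, ← pow_mul] at h2
    rw [← pow_mul]
    exact pow_dvd_pow p ((Nat.pow_le_pow_iff_right hp.one_lt).mp h2)

theorem sum_card_index {Z : Subgroup L} [Z.Normal] (F : Finset (L → ℂ)) (hF : ∀ φ, φ ∈ F ↔ (IsIrrCharacter L φ ∧ ∃ z ∈ Z, φ z ≠ φ 1)) (d : (L → ℂ) → ℕ)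
    (hd : ∀ φ ∈ F, φ 1 = (d φ : ℂ)) : ∑ φ ∈ F, d φ ^ 2 + Z.index = Nat.card L := by
  classical
  have h1 := sum_irr_not_quot Z
  have h2 : ∑ φ ∈ F, φ 1 ^ 2 = ∑ χ ∈ Finset.univ.filter (fun χ : IrrCharacter L => ∃ n ∈ Z, (χ : L → ℂ) n ≠ (χ : L → ℂ) 1), (χ : L → ℂ) 1 ^ 2 := by
    symm
    refine Finset.sum_bij (fun χ _ => (χ : L → ℂ)) ?_ ?_ ?_ ?_
    · intro χ hχ
      rw [hF]
      exact ⟨χ.2, (Finset.mem_filter.mp hχ).2⟩
    · intro χ _ ψ _ h; exact Subtype.ext h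
    · intro φ hφ
      obtain ⟨h1, h2⟩ := (hF φ).mp hφ
      exact ⟨⟨φ, h1⟩, Finset.mem_filter.mpr ⟨Finset.mem_univ _, h2⟩, rfl⟩
    · intro χ _; rfl
  have h3 : ((∑ φ ∈ F, d φ ^ 2 + Z.index : ℕ) : ℂ) = (Nat.card L : ℂ) := by
    push_cast
    have h4 : ∑ φ ∈ F, (d φ : ℂ) ^ 2 = ∑ φ ∈ F, φ 1 ^ 2 := Finset.sum_congr rfl fun φ hφ => by rw [hd φ hφ]
    rw [h4, h2, h1]
    ring
  exact_mod_cast h3

/-- characters nontrivial on a central subgroup of a normal `p`-subgroup, all induced -/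
theorem irr_central {K Z : Subgroup L} [K.Normal] [Z.Normal] {p m : ℕ} (hp : p.Prime) (hp2 : p ≠ 2) (hK : Nat.card K = p ^ m) (hcop : Nat.Coprime p K.index)
    (hZK : Z ≤ K) (hZc : ∀ z ∈ Z, ∀ k ∈ K, z * k = k * z)
    (hind : ∀ χ : L → ℂ, IsIrrCharacter L χ → (∃ z ∈ Z, χ z ≠ χ 1) → ∃ θ : K → ℂ, IsIrrCharacter K θ ∧ χ = indFun K θ)
    (F : Finset (L → ℂ)) (hF : ∀ φ, φ ∈ F ↔ (IsIrrCharacter L φ ∧ ∃ z ∈ Z, φ z ≠ φ 1)) (htwo : 2 ≤ F.card) (τ : (L → ℂ) → (G → ℂ))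
    (hτ : IsLinearIsometryOn (zspanOn (↑F : Set (L → ℂ)) {1}ᶜ) τ) (hτ1 : ∀ α ∈ zspanOn (↑F : Set (L → ℂ)) {1}ᶜ, τ α 1 = 0) :
    IsCoherent (↑F : Set (L → ℂ)) {1}ᶜ τ := by
  classical
  have hirr : ∀ φ ∈ F, IsIrrCharacter L φ := fun φ hφ => ((hF φ).mp hφ).1
  have hex : ∀ φ : L → ℂ, ∃ k : ℕ, φ ∈ F → φ 1 = ((K.index * p ^ k : ℕ) : ℂ) ∧ (p ^ k) ^ 2 ∣ Z.relIndex K := by
    intro φ
    by_cases h : φ ∈ F
    · obtain ⟨h1, h2⟩ := (hF φ).mp h
      obtain ⟨θ, h3, h4⟩ := hind φ h1 h2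
      obtain ⟨k, hk⟩ := central_data hp hK hZK hZc h3 h4
      exact ⟨k, fun _ => hk⟩
    · exact ⟨0, fun h' => absurd h' h⟩
  choose k hk using hex
  obtain ⟨d, hdef⟩ : ∃ d : (L → ℂ) → ℕ, d = fun φ => K.index * p ^ k φ := ⟨_, rfl⟩
  have hdk : ∀ φ, d φ = K.index * p ^ k φ := fun φ => by rw [hdef]
  have hd : ∀ φ ∈ F, φ 1 = (d φ : ℂ) := fun φ hφ => by rw [hdk]; exact (hk φ hφ).1
  have hFne : F.Nonempty := Finset.card_pos.mp (by omega)
  obtain ⟨χ₁, hχ₁, hmin⟩ := Finset.exists_min_image F k hFne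
  have hidx : 0 < K.index := Nat.pos_of_ne_zero Subgroup.index_ne_zero_of_finite
  refine irr_levels F hirr d hd τ hτ hτ1 htwo χ₁ hχ₁ ?_ ?_ ?_
  · intro φ hφ
    rw [hdk, hdk]
    exact Nat.mul_le_mul_left _ (Nat.pow_le_pow_right hp.pos (hmin φ hφ))
  · intro φ hφ
    rw [hdk, hdk]
    exact Nat.mul_dvd_mul_left _ (pow_dvd_pow p (hmin φ hφ))
  · intro χ hχ hlt
    have hltk : k χ₁ < k χ := by
      rw [hdk, hdk] at hlt
      have := lt_of_mul_lt_mul_left hlt (Nat.zero_le _)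
      exact (Nat.pow_lt_pow_iff_right hp.one_lt).mp this
    -- the total sum
    have hsum := sum_card_index (Z := Z) F hF d hd
    have hcard1 := Subgroup.card_mul_index Z
    have hrel := Subgroup.relIndex_mul_index hZK
    have hZpos : 1 ≤ Nat.card Z := Nat.card_pos
    have htot : K.index * ∑ φ ∈ F, (p ^ k φ) ^ 2 = Z.relIndex K * (Nat.card Z - 1) := by
      have h1 : ∑ φ ∈ F, d φ ^ 2 = K.index * (K.index * ∑ φ ∈ F, (p ^ k φ) ^ 2) := by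
        rw [Finset.mul_sum, Finset.mul_sum]
        exact Finset.sum_congr rfl fun φ _ => by rw [hdk]; ring
      have h2 : K.index * (K.index * ∑ φ ∈ F, (p ^ k φ) ^ 2) = K.index * (Z.relIndex K * (Nat.card Z - 1)) := by
        rw [← h1]
        have h3 : Z.index * (Nat.card Z - 1) + Z.index = Nat.card L := by
          rw [← hcard1, Nat.mul_sub, mul_one, mul_comm (Nat.card Z)]
          exact Nat.sub_add_cancel (Nat.le_mul_of_pos_right _ hZpos)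
        have h4 : K.index * (Z.relIndex K * (Nat.card Z - 1)) = Z.index * (Nat.card Z - 1) := by rw [← hrel]; ring
        omega
      exact Nat.eq_of_mul_eq_mul_left hidx h2
    obtain ⟨q, hq⟩ : ∃ q : ℕ, q = (p ^ k χ) ^ 2 := ⟨_, rfl⟩
    have hq1 : q ∣ K.index * ∑ φ ∈ F, (p ^ k φ) ^ 2 := by
      rw [htot, hq]; exact Dvd.dvd.mul_right (hk χ hχ).2 _
    have hqcop : Nat.Coprime q K.index := by rw [hq, ← pow_mul]; exact Nat.Coprime.pow_left _ hcop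
    have hq2 : q ∣ ∑ φ ∈ F, (p ^ k φ) ^ 2 := hqcop.dvd_of_dvd_mul_left hq1
    rw [← Finset.sum_filter_add_sum_filter_not F (fun φ => d φ < d χ)] at hq2
    have hq3 : q ∣ ∑ φ ∈ F.filter (fun φ => ¬ d φ < d χ), (p ^ k φ) ^ 2 := by
      apply Finset.dvd_sum
      intro φ hφ
      obtain ⟨h1, h2⟩ := Finset.mem_filter.mp hφ
      rw [hdk, hdk, not_lt] at h2
      have h3 : k χ ≤ k φ := (Nat.pow_le_pow_iff_right hp.one_lt).mp (Nat.le_of_mul_le_mul_left h2 hidx)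
      rw [hq]
      exact pow_dvd_pow_of_dvd (pow_dvd_pow p h3) 2
    have hq4 : q ∣ ∑ φ ∈ F.filter (fun φ => d φ < d χ), (p ^ k φ) ^ 2 := (Nat.dvd_add_left hq3).mp hq2
    have hpos : 0 < ∑ φ ∈ F.filter (fun φ => d φ < d χ), (p ^ k φ) ^ 2 := by
      have h1 : χ₁ ∈ F.filter (fun φ => d φ < d χ) := Finset.mem_filter.mpr ⟨hχ₁, hlt⟩
      have h2 := Finset.single_le_sum (f := fun φ => (p ^ k φ) ^ 2) (fun _ _ => Nat.zero_le _) h1
      have h3 : 0 < (p ^ k χ₁) ^ 2 := by have := hp.pos; positivity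
      exact lt_of_lt_of_le h3 h2
    have hq5 := Nat.le_of_dvd hpos hq4
    have h1 : ∑ φ ∈ F.filter (fun φ => d φ < d χ), d φ ^ 2 = K.index ^ 2 * ∑ φ ∈ F.filter (fun φ => d φ < d χ), (p ^ k φ) ^ 2 := by
      rw [Finset.mul_sum]
      exact Finset.sum_congr rfl fun φ _ => by rw [hdk]; ring
    have hp3 : 3 ≤ p := by
      have := hp.two_le
      omega
    have hpk : 0 < p ^ k χ₁ := pow_pos hp.pos _
    have h2 : p ^ k χ₁ * 3 ≤ p ^ k χ := by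
      calc p ^ k χ₁ * 3 ≤ p ^ k χ₁ * p := Nat.mul_le_mul_left _ hp3
        _ = p ^ (k χ₁ + 1) := (pow_succ _ _).symm
        _ ≤ p ^ k χ := Nat.pow_le_pow_right hp.pos hltk
    have hpk2 : 0 < p ^ k χ := pow_pos hp.pos _
    have hA : 2 * (p ^ k χ₁ * p ^ k χ) < q := by
      rw [hq, sq]
      have := Nat.mul_le_mul_right (p ^ k χ) h2
      nlinarith
    calc 2 * d χ₁ * d χ = K.index ^ 2 * (2 * (p ^ k χ₁ * p ^ k χ)) := by rw [hdk χ₁, hdk χ]; ring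
      _ < K.index ^ 2 * q := Nat.mul_lt_mul_of_pos_left hA (by positivity)
      _ ≤ K.index ^ 2 * ∑ φ ∈ F.filter (fun φ => d φ < d χ), (p ^ k φ) ^ 2 := Nat.mul_le_mul_left _ hq5
      _ = _ := h1.symm

end irr

end CfsgLib.CharCoh
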