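import Cfsg.Agent.Lib.ChevAut9
set_option autoImplicit false
set_option linter.style.haveILetI false
set_option linter.unusedSectionVars false

/-! Automorphisms of Chevalley groups, X: the action on all root subgroups. -/

namespace CfsgLib.Chev
open Cfsg.Lie Matrix

/-- a permutation of the roots inducing a given permutation of the fundamental roots -/
structure RP (D : ChevalleyDatum) (π : Equiv.Perm (Fin D.rank)) (ρ : ℕ → ℕ) : Prop where
  lt : ∀ r < D.nroots, ρ r < D.nroots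
  simp : ∀ i : Fin D.rank, ρ (D.simple i) = D.simple (π i)
  refl : ∀ (i : Fin D.rank) (r : ℕ), r < D.nroots → ρ (D.reflectRoot i r) = D.reflectRoot (π i) (ρ r)
  pos : ∀ r < D.nroots, (r ∈ PosS D ↔ ρ r ∈ PosS D)

namespace CG
variable {D : ChevalleyDatum} {F : Type*} [Field F] (M : CG D F)
include M

theorem xs_ne {i j : Fin D.rank} {t u : F} (ht0 : t ≠ 0) (h : M.xG (D.simple i) t = M.xG (D.simple j) u) : i = j := by
  by_contra hne
  have h5 : xg D (D.simple i) t = xg D (D.simple j) u := congrArg Subtype.val h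
  have hval : (i : ℕ) ≠ j := fun h => hne (Fin.ext h)
  have h6 := M.ni_xg (F := F) i.2 (M.N.simple_lt i i.2) t
  rw [h5, M.ni_xg i.2 (M.N.simple_lt j j.2), M.N.refl_simple i.2] at h6
  have h7 : D.reflectRoot i (D.simple j) ∈ PosS D := M.simple_mem_of_ne i.2 j.2 hval
  have h8 := M.UV_disj (by rw [← h6, M.U_eq]; exact xg_mem_XS D h7 (M.N.refl_lt i.2 (M.N.simple_lt j j.2)) _) (M.xn_V i.2 (((eta D M.T i (D.simple i) : ℤ) : F) * t))
  rw [← M.xg_zero (D.neg (D.simple i))] at h8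
  have h9 := M.xg_inj (M.N.neg_lt (M.N.simple_lt i i.2)) h8
  rw [M.N.eta_simple i.2] at h9
  apply ht0
  push_cast at h9
  linear_combination -h9

theorem conj_ni {i r : ℕ} (hi : i < D.rank) (hr : r < D.nroots) (t : F) :
    M.wG (D.simple i) 1 * M.xG r t * (M.wG (D.simple i) 1)⁻¹ = M.xG (D.reflectRoot i r) (((eta D M.T i r : ℤ) : F) * t) := by
  apply Subtype.ext
  have := M.ni_xg (F := F) hi hr t
  unfold ni at this
  exact this

theorem eta_sqF {i r : ℕ} (hi : i < D.rank) (hr : r < D.nroots) : ((eta D M.T i r : ℤ) : F) * ((eta D M.T i r : ℤ) : F) = 1 := by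
  rw [← Int.cast_mul, M.N.eta_sq hi hr, Int.cast_one]

theorem conj_w {i r : ℕ} (hi : i < D.rank) (hr : r < D.nroots) {c : F} (hc : c ≠ 0) (t : F) :
    ∃ u, M.wG (D.simple i) c * M.xG r t * (M.wG (D.simple i) c)⁻¹ = M.xG (D.reflectRoot i r) u := by
  have e : M.wG (D.simple i) c = M.hG (D.simple i) (Units.mk0 c hc) * M.wG (D.simple i) 1 := by
    unfold hG
    rw [Units.val_mk0, inv_mul_cancel_right]
  have h1 := M.conj_ni hi hr t
  have h2 := IsFrame.hG_conj (M := M) (M.N.simple_lt i hi) (M.N.refl_lt hi hr) (Units.mk0 c hc) (((eta D M.T i r : ℤ) : F) * t)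
  refine ⟨(((Units.mk0 c hc ^ D.pairing (D.simple i) (D.reflectRoot i r) : Fˣ) : F) * (((eta D M.T i r : ℤ) : F) * t)), ?_⟩
  rw [← h2, ← h1, e]
  group

namespace IsFrame
variable {M} {θ : ↥(D.group F) ≃* ↥(D.group F)} {π : Equiv.Perm (Fin D.rank)} {f g : Fin D.rank → F → F}

theorem unique {π' : Equiv.Perm (Fin D.rank)} {f' g' : Fin D.rank → F → F} (h : M.IsFrame θ π f g) (h' : M.IsFrame θ π' f' g') : π = π' := by
  ext1 i
  have h1 := h.hf i 1
  rw [h'.hf] at h1
  exact (M.xs_ne (h'.f_ne one_ne_zero) h1).symm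

theorem mul {θ' : ↥(D.group F) ≃* ↥(D.group F)} {π' : Equiv.Perm (Fin D.rank)} {f' g' : Fin D.rank → F → F} (h : M.IsFrame θ π f g)
    (h' : M.IsFrame θ' π' f' g') :
    M.IsFrame (θ'.trans θ) (π * π') (fun i t => f (π' i) (f' i t)) (fun i t => g (π' i) (g' i t)) := by
  refine ⟨fun i t => ?_, fun i t => ?_, fun i => (h.bij _).comp (h'.bij i)⟩
  · change θ (θ' _) = _
    rw [h'.hf, h.hf]; rfl
  · change θ (θ' _) = _
    rw [h'.hg, h.hg]; rfl

/-- images of all root subgroups -/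
theorem map_x (h : M.IsFrame θ π f g) {ρ : ℕ → ℕ} (hρ : RP D π ρ) {r : ℕ} (hr : r < D.nroots) (t : F) :
    ∃ u, θ (M.xG r t) = M.xG (ρ r) u := by
  refine M.root_ind (P := fun r => ∀ t : F, ∃ u, θ (M.xG r t) = M.xG (ρ r) u) ?_ ?_ r hr t
  · intro i hi t
    have e := hρ.simp ⟨i, hi⟩
    simp only at e
    rw [e]
    exact ⟨_, h.hf ⟨i, hi⟩ t⟩
  · intro i hi r hr ih t
    have e : M.xG (D.reflectRoot i r) t = M.wG (D.simple i) 1 * M.xG r (((eta D M.T i r : ℤ) : F) * t) * (M.wG (D.simple i) 1)⁻¹ := by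
      rw [M.conj_ni hi hr, ← mul_assoc, M.eta_sqF hi hr, one_mul]
    obtain ⟨u, hu⟩ := ih (((eta D M.T i r : ℤ) : F) * t)
    have h1 := h.map_w (i := ⟨i, hi⟩) one_ne_zero
    simp only at h1
    rw [e, map_mul, map_mul, map_inv, hu, h1, hρ.refl ⟨i, hi⟩ r hr]
    exact M.conj_w (π ⟨i, hi⟩).2 (hρ.lt r hr) (h.f_ne one_ne_zero) u

/-- the sign form, when all coordinates are trivial -/
theorem map_x_sign (h : M.IsFrame θ π (fun _ t => t) (fun _ t => t)) {ρ : ℕ → ℕ} (hρ : RP D π ρ) {r : ℕ} (hr : r < D.nroots) :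
    ∃ ε : F, (ε = 1 ∨ ε = -1) ∧ ∀ t : F, θ (M.xG r t) = M.xG (ρ r) (ε * t) := by
  refine M.root_ind (P := fun r => ∃ ε : F, (ε = 1 ∨ ε = -1) ∧ ∀ t : F, θ (M.xG r t) = M.xG (ρ r) (ε * t)) ?_ ?_ r hr
  · intro i hi
    have e := hρ.simp ⟨i, hi⟩
    simp only at e
    rw [e]
    refine ⟨1, Or.inl rfl, fun t => ?_⟩
    rw [one_mul]
    exact h.hf ⟨i, hi⟩ t
  · rintro i hi r hr ⟨ε, hε, ih⟩
    have hπ := hρ.lt r hr
    refine ⟨((eta D M.T (π ⟨i, hi⟩) (ρ r) : ℤ) : F) * (ε * ((eta D M.T i r : ℤ) : F)), ?_, fun t => ?_⟩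
    · rcases M.N.eta_pm (i := (π ⟨i, hi⟩ : ℕ)) (π ⟨i, hi⟩).2 hπ with h1 | h1 <;> rcases M.N.eta_pm hi hr with h2 | h2 <;>
        rcases hε with h3 | h3 <;> rw [h1, h2, h3] <;> simp
    · have e : M.xG (D.reflectRoot i r) t = M.wG (D.simple i) 1 * M.xG r (((eta D M.T i r : ℤ) : F) * t) * (M.wG (D.simple i) 1)⁻¹ := by
        rw [M.conj_ni hi hr, ← mul_assoc, M.eta_sqF hi hr, one_mul]
      have h1 := h.map_w (i := ⟨i, hi⟩) one_ne_zero
      simp only at h1
      rw [e, map_mul, map_mul, map_inv, ih, h1, hρ.refl ⟨i, hi⟩ r hr, M.conj_ni (π ⟨i, hi⟩).2 hπ]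
      congr 1
      ring

/-- a frame automorphism with a root permutation stabilises `⟨X_r | r ∈ S⟩` -/
theorem pre_S [Finite F] (h : M.IsFrame θ π f g) {ρ : ℕ → ℕ} (hρ : RP D π ρ) {S : Set ℕ} (hS : ∀ r < D.nroots, r ∈ S → ρ r ∈ S)
    {L : Subgroup (GL D.Idx F)} (hL : L = XS D F S) : Pre θ L L := by
  have hfin : Finite ↥(D.group F) := inferInstance
  set K : Subgroup ↥(D.group F) := L.subgroupOf (D.group F) with hK
  have h1 : K.map θ.toMonoidHom ≤ K := by
    rw [Subgroup.map_le_iff_le_comap]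
    intro y hy
    have hy' : (y : GL D.Idx F) ∈ L := hy
    rw [hL] at hy'
    have key : (y : GL D.Idx F) ∈ (K.comap θ.toMonoidHom).map (D.group F).subtype := by
      refine (Subgroup.closure_le _).mpr ?_ hy'
      rintro _ ⟨r, t, hp, hr, rfl⟩
      obtain ⟨u, hu⟩ := h.map_x hρ hr t
      refine ⟨M.xG r t, ?_, rfl⟩
      change (θ (M.xG r t) : GL D.Idx F) ∈ L
      rw [hu, hL]
      exact xg_mem_XS D (hS r hr hp) (hρ.lt r hr) _
    obtain ⟨k, hk, he⟩ := key
    have : k = y := Subtype.ext he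
    rw [← this]; exact hk
  have h2 : K.map θ.toMonoidHom = K := by
    apply Subgroup.eq_of_le_of_card_ge h1
    rw [Subgroup.card_map_of_injective θ.injective]
  intro y
  change y ∈ K ↔ θ y ∈ K
  constructor
  · intro hy; rw [← h2]; exact ⟨y, hy, rfl⟩
  · intro hy
    rw [← h2] at hy
    obtain ⟨z, hz, he⟩ := hy
    rw [θ.injective he] at hz
    exact hz

theorem pre_U [Finite F] (h : M.IsFrame θ π f g) {ρ : ℕ → ℕ} (hρ : RP D π ρ) : Pre θ (D.posUnipotent F) (D.posUnipotent F) :=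
  h.pre_S hρ (fun r hr hp => (hρ.pos r hr).mp hp) M.U_eq

theorem pre_V [Finite F] (h : M.IsFrame θ π f g) {ρ : ℕ → ℕ} (hρ : RP D π ρ) : Pre θ (D.negUnipotent F) (D.negUnipotent F) :=
  h.pre_S hρ (fun r hr hp => GD.notPos_iff.mp fun h' => GD.notPos_iff.mpr hp ((hρ.pos r hr).mpr h')) M.V_eq

end IsFrame
end CG

/-! ### finite checks -/

/-- the permutation of the roots, one root length -/
def permRootL (D : ChevalleyDatum) (l : List ℕ) (r : ℕ) : ℕ :=
  ((List.range D.nroots).find? fun s => (List.range D.rank).all fun i =>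
      (D.coroot.getD s #[]).getD (l.getD i 0) 0 == (D.coroot.getD r #[]).getD i 0).getD r

theorem permRoot_eq {D : ChevalleyDatum} (π : Equiv.Perm (Fin D.rank)) (r : ℕ) :
    D.permRoot π r = permRootL D ((List.range D.rank).map (pn π)) r := by
  unfold ChevalleyDatum.permRoot permRootL
  congr 2
  ext1 s
  rw [Bool.eq_iff_iff, List.all_eq_true, List.all_eq_true]
  constructor
  · intro h i hi
    have hi' := List.mem_range.mp hi
    have := h ⟨i, hi'⟩ (List.mem_finRange _)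
    rw [CG.IsFrame.getD_pn (D := D) ⟨i, hi'⟩]
    exact this
  · intro h i _
    have := h i (List.mem_range.mpr i.2)
    rw [CG.IsFrame.getD_pn (D := D) i] at this
    exact this

/-- the finite check for a root permutation -/
def rpB (D : ChevalleyDatum) (l : List ℕ) (ρ : ℕ → ℕ) : Bool :=
  ((List.range D.nroots).all fun r => decide (ρ r < D.nroots)) &&
  ((List.range D.rank).all fun i => decide (ρ (D.simple i) = D.simple (l.getD i 0))) &&
  ((List.range D.rank).all fun i => (List.range D.nroots).all fun r =>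
    decide (ρ (D.reflectRoot i r) = D.reflectRoot (l.getD i 0) (ρ r))) &&
  ((List.range D.nroots).all fun r => decide (D.nroots / 2 ≤ r) == decide (D.nroots / 2 ≤ ρ r))

theorem rp_of {D : ChevalleyDatum} {l : List ℕ} {ρ : ℕ → ℕ} (hb : rpB D l ρ = true) {π : Equiv.Perm (Fin D.rank)}
    (hl : (List.range D.rank).map (pn π) = l) : RP D π ρ := by
  subst hl
  unfold rpB at hb
  rw [Bool.and_eq_true, Bool.and_eq_true, Bool.and_eq_true] at hb
  obtain ⟨⟨⟨h1, h2⟩, h3⟩, h4⟩ := hb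
  rw [List.all_eq_true] at h1 h2 h3 h4
  refine ⟨fun r hr => ?_, fun i => ?_, fun i r hr => ?_, fun r hr => ?_⟩
  · exact of_decide_eq_true (h1 r (List.mem_range.mpr hr))
  · have := of_decide_eq_true (h2 i (List.mem_range.mpr i.2))
    rwa [CG.IsFrame.getD_pn (D := D) i] at this
  · have := h3 i (List.mem_range.mpr i.2)
    rw [List.all_eq_true] at this
    have := of_decide_eq_true (this r (List.mem_range.mpr hr))
    rwa [CG.IsFrame.getD_pn (D := D) i] at this
  · have := h4 r (List.mem_range.mpr hr)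
    rw [beq_iff_eq, decide_eq_decide] at this
    exact this

theorem rp_one (D : ChevalleyDatum) : RP D 1 id := ⟨fun _ h => h, fun _ => rfl, fun _ _ _ => rfl, fun _ _ => Iff.rfl⟩

end CfsgLib.Chev
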