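import Cfsg.Agent.Lib.ChevAut10
set_option autoImplicit false
set_option linter.style.haveILetI false
set_option linter.unusedSectionVars false

/-! Automorphisms of Chevalley groups, XI: root permutations of the diagram symmetries. -/

namespace CfsgLib.Chev
open Cfsg.Lie Matrix

def rhoG2 : List ℕ := [2, 3, 0, 1, 5, 4, 7, 6, 10, 11, 8, 9]
def rhoB2 : List ℕ := [1, 0, 3, 2, 5, 4, 7, 6]
def rhoF4 : List ℕ := [3, 7, 8, 0, 9, 11, 18, 1, 2, 4, 15, 5, 16, 21, 23, 10, 12, 19, 6, 17, 22, 13, 20, 14, 33, 27, 34, 25, 30, 41, 28, 35,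
  37, 24, 26, 31, 42, 32, 43, 45, 46, 29, 36, 38, 47, 39, 40, 44]

theorem rpG2 : rpB chevG2 [1, 0] (fun r => rhoG2.getD r 0) = true := by decide +kernel
theorem rpB2 : rpB chevB2 [1, 0] (fun r => rhoB2.getD r 0) = true := by decide +kernel
theorem rpF4 : rpB chevF4 [3, 2, 1, 0] (fun r => rhoF4.getD r 0) = true := by decide +kernel
theorem rpD4 : ([[0, 1, 2, 3], [0, 1, 3, 2], [2, 1, 0, 3], [2, 1, 3, 0], [3, 1, 0, 2], [3, 1, 2, 0]].all fun l => rpB chevD4 l (permRootL chevD4 l)) = true := by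
  decide +kernel
theorem rpE6 : ([[0, 1, 2, 3, 4, 5], [5, 1, 4, 3, 2, 0]].all fun l => rpB chevE6 l (permRootL chevE6 l)) = true := by decide +kernel

/-- the list of a permutation determines it -/
theorem perm_of_list {n : ℕ} {π : Equiv.Perm (Fin n)} {l : List ℕ} (h : (List.range n).map (pn π) = l) (i : Fin n) : (π i : ℕ) = l.getD i 0 := by
  rw [← h, List.getD_eq_getElem?_getD, List.getElem?_map, List.getElem?_range i.2]
  exact (pn_eq π i).symm

theorem perm_one {n : ℕ} {π : Equiv.Perm (Fin n)} (h : (List.range n).map (pn π) = List.range n) : π = 1 := by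
  ext i
  rw [perm_of_list h i, List.getD_eq_getElem?_getD, List.getElem?_range i.2]
  rfl

theorem liG2 : chkA chevG2 (fun l => decide (l = List.range chevG2.rank) || decide (l = [1, 0])) chevG2.rank [] = true := by decide +kernel
theorem liB2 : chkA chevB2 (fun l => decide (l = List.range chevB2.rank) || decide (l = [1, 0])) chevB2.rank [] = true := by decide +kernel
theorem liD4 : chkA chevD4 (fun l => decide (l ∈ [[0, 1, 2, 3], [0, 1, 3, 2], [2, 1, 0, 3], [2, 1, 3, 0], [3, 1, 0, 2], [3, 1, 2, 0]])) chevD4.rank [] = true := by decide +kernel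
theorem liF4 : chkA chevF4 (fun l => decide (l = List.range chevF4.rank) || decide (l = [3, 2, 1, 0])) chevF4.rank [] = true := by decide +kernel
theorem liE6 : chkA chevE6 (fun l => decide (l = List.range chevE6.rank) || decide (l = [5, 1, 4, 3, 2, 0])) chevE6.rank [] = true := by decide +kernel
theorem liE7 : chkA chevE7 (fun l => decide (l = List.range chevE7.rank)) chevE7.rank [] = true := by decide +kernel
theorem liE8 : chkA chevE8 (fun l => decide (l = List.range chevE8.rank)) chevE8.rank [] = true := by decide +kernel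

theorem rp_D4 {F : Type*} [Field F] {M : CG chevD4 F} {θ : ↥(chevD4.group F) ≃* ↥(chevD4.group F)} {π : Equiv.Perm (Fin chevD4.rank)}
    {f g : Fin chevD4.rank → F → F} (h : M.IsFrame θ π f g) : RP chevD4 π (chevD4.permRoot π) := by
  have h1 := of_decide_eq_true (h.chk liD4)
  have h2 := List.all_eq_true.mp rpD4 _ h1
  have h3 := rp_of h2 rfl
  rwa [show (chevD4.permRoot π) = permRootL chevD4 ((List.range chevD4.rank).map (pn π)) from funext fun r => permRoot_eq π r]

theorem rp_E6 {F : Type*} [Field F] {M : CG chevE6 F} {θ : ↥(chevE6.group F) ≃* ↥(chevE6.group F)} {π : Equiv.Perm (Fin chevE6.rank)}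
    {f g : Fin chevE6.rank → F → F} (h : M.IsFrame θ π f g) : RP chevE6 π (chevE6.permRoot π) := by
  have h1 := h.chk liE6
  rw [Bool.or_eq_true, decide_eq_true_eq, decide_eq_true_eq] at h1
  have h0 : (List.range chevE6.rank).map (pn π) ∈ [[0, 1, 2, 3, 4, 5], [5, 1, 4, 3, 2, 0]] := by
    rcases h1 with h1 | h1 <;> rw [h1] <;> decide
  have h2 := List.all_eq_true.mp rpE6 _ h0
  have h3 := rp_of h2 rfl
  rwa [show (chevE6.permRoot π) = permRootL chevE6 ((List.range chevE6.rank).map (pn π)) from funext fun r => permRoot_eq π r]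

theorem rp_all {D : ChevalleyDatum} (hD : D ∈ [chevG2, chevB2, chevD4, chevF4, chevE6, chevE7, chevE8]) {F : Type*} [Field F] {M : CG D F}
    {θ : ↥(D.group F) ≃* ↥(D.group F)} {π : Equiv.Perm (Fin D.rank)} {f g : Fin D.rank → F → F} (h : M.IsFrame θ π f g) : ∃ ρ, RP D π ρ := by
  simp only [List.mem_cons, List.not_mem_nil, or_false] at hD
  rcases hD with rfl | rfl | rfl | rfl | rfl | rfl | rfl
  · have h1 := h.chk liG2
    rw [Bool.or_eq_true, decide_eq_true_eq, decide_eq_true_eq] at h1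
    rcases h1 with h1 | h1
    · rw [perm_one h1]; exact ⟨_, rp_one _⟩
    · exact ⟨_, rp_of rpG2 h1⟩
  · have h1 := h.chk liB2
    rw [Bool.or_eq_true, decide_eq_true_eq, decide_eq_true_eq] at h1
    rcases h1 with h1 | h1
    · rw [perm_one h1]; exact ⟨_, rp_one _⟩
    · exact ⟨_, rp_of rpB2 h1⟩
  · exact ⟨_, rp_D4 h⟩
  · have h1 := h.chk liF4
    rw [Bool.or_eq_true, decide_eq_true_eq, decide_eq_true_eq] at h1
    rcases h1 with h1 | h1
    · rw [perm_one h1]; exact ⟨_, rp_one _⟩
    · exact ⟨_, rp_of rpF4 h1⟩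
  · exact ⟨_, rp_E6 h⟩
  · have h1 := h.chk liE7
    rw [decide_eq_true_eq] at h1
    rw [perm_one h1]; exact ⟨_, rp_one _⟩
  · have h1 := h.chk liE8
    rw [decide_eq_true_eq] at h1
    rw [perm_one h1]; exact ⟨_, rp_one _⟩

end CfsgLib.Chev
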