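import Cfsg.Agent.Lib.ChevAut11
set_option autoImplicit false
set_option linter.style.haveILetI false
set_option linter.unusedSectionVars false

/-! Automorphisms of Chevalley groups, XII: the homomorphism to permutations of the diagram. -/

namespace CfsgLib.Chev
open Cfsg.Lie Matrix

namespace CG
variable {D : ChevalleyDatum} {F : Type*} [Field F] (M : CG D F)
include M

/-- an element normalising `U` and `V` is diagonal -/
theorem mem_H_of_pre {z : ↥(D.group F)} (hU : Pre (MulAut.conj z) (D.posUnipotent F) (D.posUnipotent F))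
    (hV : Pre (MulAut.conj z) (D.negUnipotent F) (D.negUnipotent F)) : (z : GL D.Idx F) ∈ D.diagonalSubgroup F := by
  have hGN : ∀ x : GL D.Idx F, x ∉ D.group F → ((z : GL D.Idx F) * x * (z : GL D.Idx F)⁻¹) ∉ D.group F := by
    intro x hx h
    apply hx
    have := mul_mem (mul_mem (inv_mem z.2) h) z.2
    convert this using 1; group
  have h1 : ∀ u, u ∈ D.posUnipotent F ↔ (z : GL D.Idx F) * u * (z : GL D.Idx F)⁻¹ ∈ D.posUnipotent F := by
    intro u
    by_cases hu : u ∈ D.group F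
    · exact hU ⟨u, hu⟩
    · exact ⟨fun h => absurd (M.U_le_G h) hu, fun h => absurd (M.U_le_G h) (hGN u hu)⟩
  have h2 : ∀ u, u ∈ D.negUnipotent F ↔ (z : GL D.Idx F) * u * (z : GL D.Idx F)⁻¹ ∈ D.negUnipotent F := by
    intro u
    by_cases hu : u ∈ D.group F
    · exact hV ⟨u, hu⟩
    · exact ⟨fun h => absurd (M.V_le_G h) hu, fun h => absurd (M.V_le_G h) (hGN u hu)⟩
  rw [← M.B_inf_VH]
  exact ⟨M.norm_U z.2 h1, M.norm_V z.2 h2⟩

/-- conjugation by a diagonal element -/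
theorem frame_H {z : ↥(D.group F)} (hz : (z : GL D.Idx F) ∈ D.diagonalSubgroup F) :
    ∃ c : Fin D.rank → Fˣ, M.IsFrame (MulAut.conj z) 1 (fun i t => (c i : F) * t) (fun i t => ((c i)⁻¹ : Fˣ) * t) := by
  obtain ⟨ω, hω, he⟩ := M.exists_wt hz
  refine ⟨fun i => ω (D.simple i), fun i t => ?_, fun i t => ?_, fun i => ?_⟩
  · apply Subtype.ext
    change (z : GL D.Idx F) * xg D (D.simple i) t * (z : GL D.Idx F)⁻¹ = _
    rw [he, M.dgg_xg hω (M.N.simple_lt _ i.2)]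
    rfl
  · apply Subtype.ext
    change (z : GL D.Idx F) * xg D (D.neg (D.simple i)) t * (z : GL D.Idx F)⁻¹ = _
    rw [he, M.dgg_xg hω (M.N.neg_lt (M.N.simple_lt _ i.2)), hω.neg _ (M.N.simple_lt _ i.2)]
    rfl
  · exact (Units.mulLeft_bijective (ω (D.simple i)))

/-- `θ` preserves `U` and `V` -/
def PreUV (D : ChevalleyDatum) (F : Type*) [Field F] (θ : ↥(D.group F) ≃* ↥(D.group F)) : Prop :=
  Pre θ (D.posUnipotent F) (D.posUnipotent F) ∧ Pre θ (D.negUnipotent F) (D.negUnipotent F)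

omit M in
theorem PreUV.comp {θ θ' : MulAut ↥(D.group F)} (h : PreUV D F θ) (h' : PreUV D F θ') : PreUV D F (θ * θ' : MulAut _) :=
  ⟨fun y => (h'.1 y).trans (h.1 _), fun y => (h'.2 y).trans (h.2 _)⟩

omit M in
theorem PreUV.inv {θ : MulAut ↥(D.group F)} (h : PreUV D F θ) : PreUV D F (θ⁻¹ : MulAut _) := by
  refine ⟨fun y => ?_, fun y => ?_⟩
  · have := h.1 (θ⁻¹ y)
    rw [MulAut.apply_inv_self] at this
    exact this.symm
  · have := h.2 (θ⁻¹ y)
    rw [MulAut.apply_inv_self] at this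
    exact this.symm

/-- the diagram permutation of an automorphism -/
def Rl (θ : MulAut ↥(D.group F)) (π : Equiv.Perm (Fin D.rank)) : Prop :=
  ∃ (x : ↥(D.group F)) (θ' : MulAut ↥(D.group F)), θ = MulAut.conj x * θ' ∧ PreUV D F θ' ∧ ∃ f g, M.IsFrame θ' π f g

theorem Rl_exists [Finite F] (θ : MulAut ↥(D.group F)) : ∃ π, M.Rl θ π := by
  obtain ⟨x, θ', h1, h2, h3⟩ := M.frame θ
  obtain ⟨π, f, g, h4⟩ := M.isFrame h2 h3
  refine ⟨π, x, θ', ?_, ⟨h2, h3⟩, f, g, h4⟩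
  ext1 y
  exact h1 y

theorem Rl_unique {θ : MulAut ↥(D.group F)} {π π' : Equiv.Perm (Fin D.rank)} (h : M.Rl θ π) (h' : M.Rl θ π') : π = π' := by
  obtain ⟨x, θ₁, h1, h2, f, g, h3⟩ := h
  obtain ⟨x', θ₂, h1', h2', f', g', h3'⟩ := h'
  have e : MulAut.conj (x⁻¹ * x') = θ₁ * θ₂⁻¹ := by
    rw [h1] at h1'
    rw [map_mul, map_inv, eq_mul_inv_iff_mul_eq, mul_assoc, ← h1', inv_mul_cancel_left]
  have hz : PreUV D F (MulAut.conj (x⁻¹ * x')) := by
    rw [e]; exact h2.comp h2'.inv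
  obtain ⟨c, hc⟩ := M.frame_H (M.mem_H_of_pre hz.1 hz.2)
  have e2 : θ₁ = MulAut.conj (x⁻¹ * x') * θ₂ := by rw [e, inv_mul_cancel_right]
  have h5 := hc.mul h3'
  have h6 : M.IsFrame θ₁ (1 * π') (fun i t => ↑(c (π' i)) * f' i t) (fun i t => ↑(c (π' i))⁻¹ * g' i t) := by rw [e2]; exact h5
  have := h3.unique h6
  rw [this, one_mul]

theorem Rl_mul {θ₁ θ₂ : MulAut ↥(D.group F)} {π₁ π₂ : Equiv.Perm (Fin D.rank)} (h : M.Rl θ₁ π₁) (h' : M.Rl θ₂ π₂) :
    M.Rl (θ₁ * θ₂) (π₁ * π₂) := by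
  obtain ⟨x, α, h1, h2, f, g, h3⟩ := h
  obtain ⟨x', β, h1', h2', f', g', h3'⟩ := h'
  refine ⟨x * α x', α * β, ?_, h2.comp h2', _, _, h3.mul h3'⟩
  rw [h1, h1']
  ext1 y
  change x * α (x' * β y * x'⁻¹) * x⁻¹ = (x * α x') * (α (β y)) * (x * α x')⁻¹
  rw [map_mul, map_mul, map_inv]
  group

/-- the homomorphism to permutations of the diagram -/
noncomputable def toPerm [Finite F] : MulAut ↥(D.group F) →* Equiv.Perm (Fin D.rank) :=
  MonoidHom.mk' (fun θ => (M.Rl_exists θ).choose) fun a b =>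
    M.Rl_unique (M.Rl_exists (a * b)).choose_spec (M.Rl_mul (M.Rl_exists a).choose_spec (M.Rl_exists b).choose_spec)

theorem toPerm_rl [Finite F] (θ : MulAut ↥(D.group F)) : M.Rl θ (M.toPerm θ) := (M.Rl_exists θ).choose_spec

theorem toPerm_iff [Finite F] {θ : MulAut ↥(D.group F)} {π : Equiv.Perm (Fin D.rank)} : M.toPerm θ = π ↔ M.Rl θ π :=
  ⟨fun h => h ▸ M.toPerm_rl θ, fun h => M.Rl_unique (M.toPerm_rl θ) h⟩

theorem toPerm_conj [Finite F] (x : ↥(D.group F)) : M.toPerm (MulAut.conj x) = 1 := by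
  rw [toPerm_iff]
  exact ⟨x, 1, by rw [mul_one], ⟨fun _ => Iff.rfl, fun _ => Iff.rfl⟩, fun _ t => t, fun _ t => t, fun i t => rfl, fun i t => rfl, fun i => Function.bijective_id⟩

omit M in
/-- a frame automorphism preserves `U` and `V` -/
theorem _root_.CfsgLib.Chev.CG.IsFrame.preUV [Finite F] {M : CG D F} (hD : D ∈ [chevG2, chevB2, chevD4, chevF4, chevE6, chevE7, chevE8])
    {θ : MulAut ↥(D.group F)} {π : Equiv.Perm (Fin D.rank)} {f g : Fin D.rank → F → F} (h : M.IsFrame θ π f g) : PreUV D F θ := by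
  obtain ⟨ρ, hρ⟩ := rp_all hD h
  exact ⟨h.pre_U hρ, h.pre_V hρ⟩

theorem toPerm_frame [Finite F] (hD : D ∈ [chevG2, chevB2, chevD4, chevF4, chevE6, chevE7, chevE8])
    {θ : MulAut ↥(D.group F)} {π : Equiv.Perm (Fin D.rank)} {f g : Fin D.rank → F → F} (h : M.IsFrame θ π f g) : M.toPerm θ = π := by
  rw [toPerm_iff]
  exact ⟨1, θ, by rw [map_one, one_mul], h.preUV hD, f, g, h⟩

end CG
end CfsgLib.Chev
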