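import Cfsg.Agent.Lib.ChevAut12
import Cfsg.Prelude.Def_KGroupFacts
set_option autoImplicit false
set_option linter.style.haveILetI false
set_option linter.unusedSectionVars false

/-! Automorphisms of Chevalley groups, XIII: the kernel of the homomorphism to permutations; counting. -/

namespace CfsgLib.Chev
open Cfsg.Lie Matrix

/-- field automorphisms of a finite field -/
theorem ringAut_algEquiv {F : Type*} [Field F] (p : ℕ) [Fact p.Prime] [CharP F p] :
    letI := ZMod.algebra F p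
    Nonempty ((F ≃+* F) ≃* (F ≃ₐ[ZMod p] F)) := by
  letI := ZMod.algebra F p
  refine ⟨{ toFun := fun σ => AlgEquiv.ofRingEquiv (f := σ) fun x => ?_, invFun := fun τ => τ.toRingEquiv, left_inv := fun σ => rfl, right_inv := fun τ => rfl, map_mul' := fun _ _ => rfl }⟩
  have h : (σ.toRingHom.comp (algebraMap (ZMod p) F)) = algebraMap (ZMod p) F := Subsingleton.elim _ _
  exact congrArg (fun φ : ZMod p →+* F => φ x) h

theorem card_ringAut {F : Type*} [Field F] [Fintype F] {p f : ℕ} [Fact p.Prime] [CharP F p] (hF : Fintype.card F = p ^ f) :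
    Nat.card (F ≃+* F) = f := by
  letI := ZMod.algebra F p
  obtain ⟨e⟩ := ringAut_algEquiv (F := F) p
  have h1 : Nat.card (F ≃ₐ[ZMod p] F) = Module.finrank (ZMod p) F := IsGalois.card_aut_eq_finrank (ZMod p) F
  rw [Nat.card_congr e.toEquiv, h1]
  have h2 : Fintype.card F = p ^ Module.finrank (ZMod p) F := by
    rw [Module.card_eq_pow_finrank (K := ZMod p) (V := F), ZMod.card]
  rw [hF] at h2
  exact (Nat.pow_right_injective (Fact.out : p.Prime).two_le h2).symm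

theorem cyclic_ringAut {F : Type*} [Field F] [Finite F] : IsCyclic (F ≃+* F) := by
  obtain ⟨p, hp⟩ := CharP.exists F
  haveI : Fact p.Prime := ⟨CharP.char_is_prime F p⟩
  letI := ZMod.algebra F p
  obtain ⟨e⟩ := ringAut_algEquiv (F := F) p
  exact isCyclic_of_surjective e.symm e.symm.surjective

namespace CG
variable {D : ChevalleyDatum} {F : Type*} [Field F] (M : CG D F)
include M

omit M in
theorem rootChar_mul {χ χ' : ℕ → Fˣ} (h : D.IsRootCharacter χ) (h' : D.IsRootCharacter χ') : D.IsRootCharacter (χ * χ') := by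
  refine ⟨fun r hr => ?_, fun r s k hr hs hk => ?_⟩
  · change χ (D.neg r) * χ' (D.neg r) = (χ r * χ' r)⁻¹
    rw [h.1 r hr, h'.1 r hr, mul_inv]
  · change χ k * χ' k = χ r * χ' r * (χ s * χ' s)
    rw [h.2 r s k hr hs hk, h'.2 r s k hr hs hk]
    exact mul_mul_mul_comm _ _ _ _

omit M in
theorem rootChar_inv {χ : ℕ → Fˣ} (h : D.IsRootCharacter χ) : D.IsRootCharacter (χ⁻¹) := by
  refine ⟨fun r hr => ?_, fun r s k hr hs hk => ?_⟩
  · change (χ (D.neg r))⁻¹ = ((χ r)⁻¹)⁻¹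
    rw [h.1 r hr]
  · change (χ k)⁻¹ = (χ r)⁻¹ * (χ s)⁻¹
    rw [h.2 r s k hr hs hk, mul_inv]

omit M in
theorem rootChar_one : D.IsRootCharacter (1 : ℕ → Fˣ) :=
  ⟨fun _ _ => by simp, fun _ _ _ _ _ _ => by simp⟩

theorem diagAut_mul {χ χ' : ℕ → Fˣ} (h : D.IsRootCharacter χ) (h' : D.IsRootCharacter χ') :
    (M.diagAut χ h : MulAut ↥(D.group F)) * M.diagAut χ' h' = M.diagAut (χ * χ') (rootChar_mul h h') := by
  ext1 y
  apply Subtype.ext
  change dgg D χ * (dgg D χ' * (y : GL D.Idx F) * (dgg D χ')⁻¹) * (dgg D χ)⁻¹ = dgg D (χ * χ') * (y : GL D.Idx F) * (dgg D (χ * χ'))⁻¹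
  rw [map_mul]; group

theorem diagAut_one : (M.diagAut (1 : ℕ → Fˣ) rootChar_one : MulAut ↥(D.group F)) = 1 := by
  ext1 y
  apply Subtype.ext
  change dgg D (1 : ℕ → Fˣ) * (y : GL D.Idx F) * (dgg D (1 : ℕ → Fˣ))⁻¹ = y
  rw [map_one]; group

/-- the group of diagonal automorphisms -/
noncomputable def Dg : Subgroup (MulAut ↥(D.group F)) where
  carrier := {θ | ∃ (χ : ℕ → Fˣ) (h : D.IsRootCharacter χ), θ = M.diagAut χ h}
  mul_mem' := by
    rintro _ _ ⟨χ, h, rfl⟩ ⟨χ', h', rfl⟩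
    exact ⟨_, _, M.diagAut_mul h h'⟩
  one_mem' := ⟨_, _, M.diagAut_one.symm⟩
  inv_mem' := by
    rintro _ ⟨χ, h, rfl⟩
    refine ⟨χ⁻¹, rootChar_inv h, ?_⟩
    rw [inv_eq_iff_mul_eq_one, M.diagAut_mul, ← M.diagAut_one]
    congr 1
    exact mul_inv_cancel χ

theorem mem_Dg_iff {θ : MulAut ↥(D.group F)} : θ ∈ M.Dg ↔ D.IsDiagonalAut θ := by
  constructor
  · rintro ⟨χ, h, rfl⟩
    exact M.diagAut_isDiagonal χ h
  · rintro ⟨χ, h, h1⟩
    refine ⟨χ, h, ?_⟩
    ext1 y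
    apply Subtype.ext
    apply Units.ext
    obtain ⟨χ', h', h2⟩ := M.diagAut_isDiagonal χ h
    rw [h1]
    change _ = ((dgg D χ * (y : GL D.Idx F) * (dgg D χ)⁻¹ : GL D.Idx F) : Matrix D.Idx D.Idx F)
    rw [Units.val_mul, Units.val_mul, coe_dgg, charDiag_eq, charDiag_eq, ← map_inv, coe_dgg]
    rfl

theorem diagAut_chr {χ : ℕ → Fˣ} (h : D.IsRootCharacter χ) :
    M.diagAut χ h = M.diagAut (M.chr fun i => χ (D.simple i)) (M.chr_isRootCharacter _) := by
  apply M.ext_simple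
  · intro i hi t
    rw [M.diagAut_x _ _ (M.N.simple_lt i hi), M.diagAut_x _ _ (M.N.simple_lt i hi), M.chr_simple _ hi]
  · intro i hi t
    rw [M.diagAut_x _ _ (M.N.neg_lt (M.N.simple_lt i hi)), M.diagAut_x _ _ (M.N.neg_lt (M.N.simple_lt i hi)), M.chr_neg _ (M.N.simple_lt i hi),
      M.chr_simple _ hi, h.1 _ (M.N.simple_lt i hi)]

/-- field automorphisms -/
noncomputable def fdHom : (F ≃+* F) →* MulAut ↥(D.group F) where
  toFun σ := M.fieldEquiv σ
  map_one' := by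
    apply M.ext_simple
    · intro i hi t; rw [M.field_x]; rfl
    · intro i hi t; rw [M.field_x]; rfl
  map_mul' σ τ := by
    apply M.ext_simple
    · intro i hi t
      rw [M.field_x]
      change _ = M.fieldEquiv σ (M.fieldEquiv τ _)
      rw [M.field_x, M.field_x]; rfl
    · intro i hi t
      rw [M.field_x]
      change _ = M.fieldEquiv σ (M.fieldEquiv τ _)
      rw [M.field_x, M.field_x]; rfl

theorem fdHom_apply (σ : F ≃+* F) : M.fdHom σ = M.fieldEquiv σ := rfl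

theorem mem_Fd_iff {θ : MulAut ↥(D.group F)} : θ ∈ M.fdHom.range ↔ D.IsFieldAut θ := by
  constructor
  · rintro ⟨σ, rfl⟩
    exact M.field_isField σ
  · rintro ⟨σ, h⟩
    refine ⟨σ, ?_⟩
    have h1 : ∀ r < D.nroots, ∀ t : F, θ (M.xG r t) = M.xG r (σ t) := by
      intro r hr t
      apply Subtype.ext
      apply M.eq_xg.mp
      exact h _ r t hr (M.coe_xg r t)
    apply M.ext_simple
    · intro i hi t; rw [M.fdHom_apply, M.field_x, h1 _ (M.N.simple_lt i hi)]
    · intro i hi t; rw [M.fdHom_apply, M.field_x, h1 _ (M.N.neg_lt (M.N.simple_lt i hi))]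

/-- the diagonal automorphism with given values on the fundamental roots -/
noncomputable def dA (c : ℕ → Fˣ) : MulAut ↥(D.group F) := M.diagAut (M.chr c) (M.chr_isRootCharacter c)

theorem dA_s (c : ℕ → Fˣ) {i : ℕ} (hi : i < D.rank) (t : F) : M.dA c (M.xG (D.simple i) t) = M.xG (D.simple i) ((c i : F) * t) := by
  unfold dA
  rw [M.diagAut_x _ _ (M.N.simple_lt _ hi), M.chr_simple c hi]

theorem dA_n (c : ℕ → Fˣ) {i : ℕ} (hi : i < D.rank) (t : F) :
    M.dA c (M.xG (D.neg (D.simple i)) t) = M.xG (D.neg (D.simple i)) (((c i)⁻¹ : Fˣ) * t) := by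
  unfold dA
  rw [M.diagAut_x _ _ (M.N.neg_lt (M.N.simple_lt _ hi)), M.chr_neg c (M.N.simple_lt _ hi), M.chr_simple c hi]

theorem fd_s (σ : F ≃+* F) (r : ℕ) (t : F) : M.fdHom σ (M.xG r t) = M.xG r (σ t) := M.field_x σ r t

theorem frame_d (c : ℕ → Fˣ) : M.IsFrame (M.dA c) 1 (fun i t => (c i : F) * t) (fun i t => ((c i)⁻¹ : Fˣ) * t) :=
  ⟨fun i t => M.dA_s c i.2 t, fun i t => M.dA_n c i.2 t, fun i => Units.mulLeft_bijective (c i)⟩

theorem frame_f (σ : F ≃+* F) : M.IsFrame (M.fdHom σ) 1 (fun _ t => σ t) (fun _ t => σ t) :=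
  ⟨fun _ t => M.fd_s σ _ t, fun _ t => M.fd_s σ _ t, fun _ => σ.bijective⟩

theorem ext_auts {φ ψ : MulAut ↥(D.group F)} (h1 : ∀ (i : Fin D.rank) (t : F), φ (M.xG (D.simple i) t) = ψ (M.xG (D.simple i) t))
    (h2 : ∀ (i : Fin D.rank) (t : F), φ (M.xG (D.neg (D.simple i)) t) = ψ (M.xG (D.neg (D.simple i)) t)) : φ = ψ :=
  M.ext_simple (fun i hi t => h1 ⟨i, hi⟩ t) (fun i hi t => h2 ⟨i, hi⟩ t)

namespace IsFrame
variable {M} {θ : MulAut ↥(D.group F)} {π : Equiv.Perm (Fin D.rank)} {f g : Fin D.rank → F → F}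
  (h : M.IsFrame θ π f g)
include h

theorem g_zero (i : Fin D.rank) : g i 0 = 0 := by
  apply M.xG_inj (M.N.neg_lt (M.N.simple_lt _ (π i).2))
  rw [← h.hg, M.xG_zero, map_one, M.xG_zero]

/-- passing a diagonal automorphism through -/
theorem dA_comm {c c' : ℕ → Fˣ} (hc : ∀ (i : Fin D.rank) (t : F), f i ((c i : F) * t) = (c' (π i) : F) * f i t) :
    θ * M.dA c = M.dA c' * θ := by
  apply M.ext_auts
  · intro i t
    rw [MulAut.mul_apply, MulAut.mul_apply, M.dA_s c i.2, h.hf, h.hf, M.dA_s c' (π i).2, hc]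
  · intro i t
    rw [MulAut.mul_apply, MulAut.mul_apply, M.dA_n c i.2, h.hg, h.hg, M.dA_n c' (π i).2]
    congr 1
    by_cases ht : t = 0
    · rw [ht, mul_zero, h.g_zero, mul_zero]
    · rw [h.g_eq (mul_ne_zero (Units.ne_zero _) ht), h.g_eq ht, Units.val_inv_eq_inv_val, Units.val_inv_eq_inv_val, mul_inv, inv_inv, hc, mul_inv]

/-- passing a field automorphism through -/
theorem fd_comm {σ τ : F ≃+* F} {c' : ℕ → Fˣ} (hc : ∀ (i : Fin D.rank) (t : F), f i (σ t) = (c' (π i) : F) * τ (f i t)) :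
    θ * M.fdHom σ = M.dA c' * M.fdHom τ * θ := by
  apply M.ext_auts
  · intro i t
    rw [MulAut.mul_apply, MulAut.mul_apply, MulAut.mul_apply, M.fd_s, h.hf, h.hf, M.fd_s, M.dA_s c' (π i).2, hc]
  · intro i t
    rw [MulAut.mul_apply, MulAut.mul_apply, MulAut.mul_apply, M.fd_s, h.hg, h.hg, M.fd_s, M.dA_n c' (π i).2]
    congr 1
    by_cases ht : t = 0
    · rw [ht, map_zero, h.g_zero, map_zero, mul_zero]
    · rw [h.g_eq ((map_ne_zero σ).mpr ht), h.g_eq ht, Units.val_inv_eq_inv_val, ← map_inv₀ σ, hc, mul_inv, map_inv₀]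

end IsFrame

/-- the group of products of diagonal and field automorphisms -/
noncomputable def DF : Subgroup (MulAut ↥(D.group F)) := M.Dg ⊔ M.fdHom.range

theorem mem_Dg' {θ : MulAut ↥(D.group F)} : θ ∈ M.Dg ↔ ∃ c, θ = M.dA c := by
  constructor
  · rintro ⟨χ, h, rfl⟩
    exact ⟨_, M.diagAut_chr h⟩
  · rintro ⟨c, rfl⟩
    exact ⟨_, _, rfl⟩

theorem Fd_le_norm : M.fdHom.range ≤ Subgroup.normalizer M.Dg := by
  rintro _ ⟨σ, rfl⟩
  have key : ∀ (σ : F ≃+* F) (θ : MulAut ↥(D.group F)), θ ∈ M.Dg → M.fdHom σ * θ * (M.fdHom σ)⁻¹ ∈ M.Dg := by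
    intro σ θ hθ
    obtain ⟨c, rfl⟩ := M.mem_Dg'.mp hθ
    have := (M.frame_f σ).dA_comm (c := c) (c' := fun i => Units.map (σ : F →* F) (c i)) (fun i t => by
      rw [map_mul]; rfl)
    rw [this, mul_inv_cancel_right]
    exact M.mem_Dg'.mpr ⟨_, rfl⟩
  rw [Subgroup.mem_normalizer_iff]
  intro θ
  refine ⟨key σ θ, fun h => ?_⟩
  have := key σ⁻¹ _ h
  rw [map_inv] at this
  convert this using 1
  group

theorem mem_DF {θ : MulAut ↥(D.group F)} : θ ∈ M.DF ↔ ∃ c σ, θ = M.dA c * M.fdHom σ := by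
  unfold DF
  rw [← SetLike.mem_coe, Subgroup.coe_mul_of_right_le_normalizer_left _ _ M.Fd_le_norm, Set.mem_mul]
  constructor
  · rintro ⟨a, ha, _, ⟨σ, rfl⟩, rfl⟩
    obtain ⟨c, rfl⟩ := M.mem_Dg'.mp ha
    exact ⟨c, σ, rfl⟩
  · rintro ⟨c, σ, rfl⟩
    exact ⟨_, M.mem_Dg'.mpr ⟨c, rfl⟩, _, ⟨σ, rfl⟩, rfl⟩

theorem frame_df (c : ℕ → Fˣ) (σ : F ≃+* F) : M.IsFrame (M.dA c * M.fdHom σ : MulAut _) 1
    (fun i t => (c i : F) * σ t) (fun i t => ((c i)⁻¹ : Fˣ) * σ t) := by
  have := (M.frame_d c).mul (M.frame_f σ)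
  rw [one_mul] at this
  exact this

/-- number of products -/
theorem card_DF [Finite F] (hr : 0 < D.rank) : Nat.card ↥M.DF = (Nat.card F - 1) ^ D.rank * Nat.card (F ≃+* F) := by
  have e : Nat.card ↥M.DF = Nat.card ((Fin D.rank → Fˣ) × (F ≃+* F)) := by
    symm
    refine Nat.card_congr (Equiv.ofBijective (fun x => ⟨M.dA (fun i => if h : i < D.rank then x.1 ⟨i, h⟩ else 1) * M.fdHom x.2, M.mem_DF.mpr ⟨_, _, rfl⟩⟩) ⟨?_, ?_⟩)
    · rintro ⟨c, σ⟩ ⟨c', σ'⟩ h
      have h1 := congrArg Subtype.val h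
      simp only at h1
      have f1 := M.frame_df (fun i => if h : i < D.rank then c ⟨i, h⟩ else 1) σ
      have f2 := M.frame_df (fun i => if h : i < D.rank then c' ⟨i, h⟩ else 1) σ'
      rw [h1] at f1
      have h2 : ∀ (i : Fin D.rank) (t : F), (c i : F) * σ t = c' i * σ' t := by
        intro i t
        have e1 := f1.hf i t
        rw [f2.hf] at e1
        simp only [Equiv.Perm.one_apply, dif_pos i.2, Fin.eta] at e1
        exact (M.xG_inj (M.N.simple_lt _ i.2) e1).symm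
      have h3 : ∀ i, c i = c' i := by
        intro i
        apply Units.ext
        have := h2 i 1
        rwa [map_one, map_one, mul_one, mul_one] at this
      have h4 : c = c' := funext h3
      have h5 : σ = σ' := by
        ext t
        have := h2 ⟨0, hr⟩ t
        rw [h3] at this
        exact mul_left_cancel₀ (Units.ne_zero _) this
      rw [h4, h5]
    · rintro ⟨θ, hθ⟩
      obtain ⟨c, σ, rfl⟩ := M.mem_DF.mp hθ
      refine ⟨(fun i => c i, σ), Subtype.ext ?_⟩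
      change M.dA (fun i => if h : i < D.rank then c i else 1) * M.fdHom σ = M.dA c * M.fdHom σ
      congr 1
      apply M.ext_auts
      · intro i t
        rw [M.dA_s _ i.2, M.dA_s _ i.2, dif_pos i.2]
      · intro i t
        rw [M.dA_n _ i.2, M.dA_n _ i.2, dif_pos i.2]
  rw [e, Nat.card_prod, Nat.card_fun, Nat.card_units, Nat.card_fin]

/-- the kernel of the diagram homomorphism -/
theorem mem_ker [Finite F] (hD : D ∈ [chevG2, chevB2, chevD4, chevF4, chevE6, chevE7, chevE8]) {θ : MulAut ↥(D.group F)} :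
    M.toPerm θ = 1 ↔ ∃ x, ∃ δ ∈ M.DF, θ = MulAut.conj x * δ := by
  constructor
  · intro h
    rw [M.toPerm_iff] at h
    obtain ⟨x, θ', h1, h2, f, g, h3⟩ := h
    obtain ⟨c, σ, γ, hs, h4, h5, h6⟩ := M.decomp hD h3
    have hexp : ∀ i : Fin D.rank, D.graphExp (ringChar F) i ((1 : Equiv.Perm (Fin D.rank)) i) = 1 := by
      intro i
      unfold ChevalleyDatum.graphExp
      rw [Equiv.Perm.one_apply]
      cases D.isLong (D.simple i) <;> simp
    have hγ : γ = MulEquiv.refl _ := by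
      apply M.ext_auts
      · intro i t
        rw [h4, hexp, pow_one]; rfl
      · intro i t
        rw [h5, hexp, pow_one]; rfl
    refine ⟨x, θ', M.mem_DF.mpr ⟨c, σ, ?_⟩, h1⟩
    ext1 y
    rw [h6, hγ]; rfl
  · rintro ⟨x, δ, hδ, rfl⟩
    obtain ⟨c, σ, rfl⟩ := M.mem_DF.mp hδ
    rw [map_mul, M.toPerm_conj, one_mul]
    exact M.toPerm_frame hD (M.frame_df c σ)

theorem ker_eq [Finite F] (hD : D ∈ [chevG2, chevB2, chevD4, chevF4, chevE6, chevE7, chevE8]) :
    M.toPerm.ker = M.DF ⊔ Cfsg.Inn ↥(D.group F) := by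
  ext θ
  rw [MonoidHom.mem_ker, M.mem_ker hD, ← SetLike.mem_coe (p := M.DF ⊔ _), Subgroup.mul_normal, Set.mem_mul]
  constructor
  · rintro ⟨x, δ, hδ, rfl⟩
    refine ⟨δ, hδ, δ⁻¹ * MulAut.conj x * δ, ?_, by group⟩
    have := (inferInstance : (Cfsg.Inn ↥(D.group F)).Normal).conj_mem (MulAut.conj x) ⟨x, rfl⟩ δ⁻¹
    rwa [inv_inv] at this
  · rintro ⟨δ, hδ, _, ⟨x, rfl⟩, rfl⟩
    refine ⟨δ x, δ, hδ, ?_⟩
    ext1 y
    change δ (x * y * x⁻¹) = δ x * δ y * (δ x)⁻¹
    rw [map_mul, map_mul, map_inv]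

/-- inner automorphisms that are products of diagonal and field automorphisms -/
theorem conj_mem_DF [Finite F] (hD : D ∈ [chevG2, chevB2, chevD4, chevF4, chevE6, chevE7, chevE8]) (x : ↥(D.group F)) :
    MulAut.conj x ∈ M.DF ↔ (x : GL D.Idx F) ∈ D.diagonalSubgroup F := by
  constructor
  · intro h
    obtain ⟨c, σ, h1⟩ := M.mem_DF.mp h
    have h2 : PreUV D F (MulAut.conj x) := by
      rw [h1]; exact (M.frame_df c σ).preUV hD
    exact M.mem_H_of_pre h2.1 h2.2
  · intro h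
    obtain ⟨ω, hω, he⟩ := M.exists_wt h
    rw [M.mem_DF]
    refine ⟨fun i => ω (D.simple i), 1, ?_⟩
    rw [map_one, mul_one]
    apply M.ext_auts
    · intro i t
      rw [M.dA_s _ i.2]
      apply Subtype.ext
      change (x : GL D.Idx F) * xg D (D.simple i) t * (x : GL D.Idx F)⁻¹ = _
      rw [he, M.dgg_xg hω (M.N.simple_lt _ i.2)]
      rfl
    · intro i t
      rw [M.dA_n _ i.2]
      apply Subtype.ext
      change (x : GL D.Idx F) * xg D (D.neg (D.simple i)) t * (x : GL D.Idx F)⁻¹ = _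
      rw [he, M.dgg_xg hω (M.N.neg_lt (M.N.simple_lt _ i.2)), hω.neg _ (M.N.simple_lt _ i.2)]
      rfl

/-- the order of the outer automorphism group -/
theorem card_out [Finite F] (hD : D ∈ [chevG2, chevB2, chevD4, chevF4, chevE6, chevE7, chevE8])
    (hs : IsSimpleGroup ↥(D.group F) ∧ ¬ IsMulCommutative ↥(D.group F)) (hr : 0 < D.rank) :
    Nat.card (Cfsg.Out ↥(D.group F)) * Nat.card (D.diagonalSubgroup F) =
      Nat.card M.toPerm.range * ((Nat.card F - 1) ^ D.rank * Nat.card (F ≃+* F)) := by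
  haveI := hs.1
  set I := Cfsg.Inn ↥(D.group F) with hI
  have hcent : Function.Injective (MulAut.conj : ↥(D.group F) →* MulAut ↥(D.group F)) := by
    rw [← MonoidHom.ker_eq_bot_iff]
    rcases (inferInstance : (MulAut.conj : ↥(D.group F) →* MulAut ↥(D.group F)).ker.Normal).eq_bot_or_eq_top with h | h
    · exact h
    · exfalso
      apply hs.2
      refine ⟨⟨fun a b => ?_⟩⟩
      have h1 : a ∈ (MulAut.conj : ↥(D.group F) →* MulAut ↥(D.group F)).ker := by rw [h]; trivial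
      have h2 := congrArg (fun φ : MulAut ↥(D.group F) => φ b) (MonoidHom.mem_ker.mp h1)
      change a * b * a⁻¹ = b at h2
      rw [mul_inv_eq_iff_eq_mul] at h2
      exact h2
  have h1 : Nat.card (Cfsg.Out ↥(D.group F)) = I.index := rfl
  have hle : I ≤ M.toPerm.ker := by rw [M.ker_eq hD]; exact le_sup_right
  have h2 : I.index = I.relIndex M.toPerm.ker * M.toPerm.ker.index := (Subgroup.relIndex_mul_index hle).symm
  have h3 : M.toPerm.ker.index = Nat.card M.toPerm.range := Subgroup.index_ker _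
  have h4 : I.relIndex M.toPerm.ker = I.relIndex M.DF := by
    rw [M.ker_eq hD, Subgroup.relIndex_sup_right]
  have h5 : Nat.card ↥(I ⊓ M.DF) = Nat.card (D.diagonalSubgroup F) := by
    symm
    refine Nat.card_congr (Equiv.ofBijective (fun z => ⟨MulAut.conj (⟨z.1, M.H_le_G z.2⟩ : ↥(D.group F)), ⟨_, rfl⟩, (M.conj_mem_DF hD _).mpr z.2⟩) ⟨?_, ?_⟩)
    · intro z z' h
      have := hcent (congrArg Subtype.val h)
      exact Subtype.ext (congrArg (fun w : ↥(D.group F) => (w : GL D.Idx F)) this)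
    · rintro ⟨_, ⟨x, rfl⟩, hx⟩
      exact ⟨⟨x, (M.conj_mem_DF hD x).mp hx⟩, rfl⟩
  have h6 : Nat.card ↥(I ⊓ M.DF) * I.relIndex M.DF = Nat.card ↥M.DF := by
    have := Subgroup.relIndex_mul_relIndex (⊥ : Subgroup (MulAut ↥(D.group F))) (I ⊓ M.DF) M.DF bot_le inf_le_right
    rwa [Subgroup.relIndex_bot_left, Subgroup.relIndex_bot_left, Subgroup.inf_relIndex_right] at this
  rw [h1, h2, h3, h4, ← M.card_DF hr, ← h6, h5]
  ring

end CG
end CfsgLib.Chev
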