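import Cfsg.Agent.Lib.ChevAut13
import Cfsg.Agent.Lib.ChevSimple
set_option autoImplicit false
set_option linter.style.haveILetI false
set_option linter.unusedSectionVars false

/-! Automorphisms of Chevalley groups, XIV: the order of the outer automorphism group. -/

namespace CfsgLib.Chev
open Cfsg.Lie Matrix

theorem list_inj {n : ℕ} {π π' : Equiv.Perm (Fin n)} (h : (List.range n).map (pn π) = (List.range n).map (pn π')) : π = π' := by
  ext i
  rw [perm_of_list h i, perm_of_list rfl i]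

theorem card_two {n : ℕ} {K : Subgroup (Equiv.Perm (Fin n))} {l : List ℕ}
    (h1 : ∀ π ∈ K, (List.range n).map (pn π) = List.range n ∨ (List.range n).map (pn π) = l) {π₀ : Equiv.Perm (Fin n)} (h2 : π₀ ∈ K) (h3 : π₀ ≠ 1) :
    Nat.card K = 2 := by
  have h4 : (List.range n).map (pn π₀) = l := (h1 π₀ h2).resolve_left fun h => h3 (perm_one h)
  rw [Nat.card_eq_two_iff]
  refine ⟨1, ⟨π₀, h2⟩, fun h => h3 (congrArg Subtype.val h).symm, ?_⟩
  rw [Set.eq_univ_iff_forall]
  rintro ⟨π, hπ⟩
  rcases h1 π hπ with h | h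
  · left; exact Subtype.ext (perm_one h)
  · right; exact Subtype.ext (list_inj (h.trans h4.symm))

theorem card_le_two {n : ℕ} {K : Subgroup (Equiv.Perm (Fin n))} {l : List ℕ}
    (h1 : ∀ π ∈ K, (List.range n).map (pn π) = List.range n ∨ (List.range n).map (pn π) = l) : Nat.card K = 1 ∨ Nat.card K = 2 := by
  by_cases h : K = ⊥
  · left; rw [h]; exact Subgroup.card_bot
  · right
    obtain ⟨a, ha⟩ := Subgroup.ne_bot_iff_exists_ne_one.mp h
    exact card_two h1 a.2 (fun h' => ha (Subtype.ext h'))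

namespace CG
variable {D : ChevalleyDatum} {F : Type*} [Field F] (M : CG D F)
include M

theorem range_frame [Finite F] {π : Equiv.Perm (Fin D.rank)} (h : π ∈ M.toPerm.range) : ∃ θ f g, M.IsFrame θ π f g := by
  obtain ⟨θ, rfl⟩ := h
  obtain ⟨x, θ', h1, h2, h3⟩ := M.toPerm_rl θ
  exact ⟨θ', h3⟩

theorem card_out' [Fintype F] (hD : D ∈ [chevG2, chevB2, chevD4, chevF4, chevE6, chevE7, chevE8])
    (hs : IsSimpleGroup ↥(D.group F) ∧ ¬ IsMulCommutative ↥(D.group F)) (hr : 0 < D.rank) {p f g0 q : ℕ} [Fact p.Prime] [CharP F p] (hF : Fintype.card F = p ^ f)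
    (hq : Fintype.card F = q) (hH : g0 * Nat.card (D.diagonalSubgroup F) = (q - 1) ^ D.rank) :
    Nat.card (Cfsg.Out ↥(D.group F)) = Nat.card M.toPerm.range * g0 * f := by
  have h := M.card_out hD hs hr
  rw [card_ringAut hF, Nat.card_eq_fintype_card (α := F), hq, ← hH] at h
  have hpos : 0 < Nat.card (D.diagonalSubgroup F) := Nat.card_pos
  apply Nat.eq_of_mul_eq_mul_right hpos
  rw [h]
  ring

end CG

theorem range_E7 {F : Type*} [Field F] [Finite F] (M : CG chevE7 F) : Nat.card M.toPerm.range = 1 := by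
  have : M.toPerm.range = ⊥ := by
    rw [eq_bot_iff]
    intro π hπ
    obtain ⟨θ, f, g, h⟩ := M.range_frame hπ
    exact perm_one (of_decide_eq_true (h.chk liE7))
  rw [this]; exact Subgroup.card_bot

theorem range_E8 {F : Type*} [Field F] [Finite F] (M : CG chevE8 F) : Nat.card M.toPerm.range = 1 := by
  have : M.toPerm.range = ⊥ := by
    rw [eq_bot_iff]
    intro π hπ
    obtain ⟨θ, f, g, h⟩ := M.range_frame hπ
    exact perm_one (of_decide_eq_true (h.chk liE8))
  rw [this]; exact Subgroup.card_bot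

theorem range_E6 {F : Type*} [Field F] [Finite F] (M : CG chevE6 F) : ∀ π ∈ M.toPerm.range,
    (List.range chevE6.rank).map (pn π) = List.range chevE6.rank ∨ (List.range chevE6.rank).map (pn π) = [5, 1, 4, 3, 2, 0] := by
  intro π hπ
  obtain ⟨θ, f, g, h⟩ := M.range_frame hπ
  have := h.chk liE6
  rwa [Bool.or_eq_true, decide_eq_true_eq, decide_eq_true_eq] at this

theorem range_F4 {F : Type*} [Field F] [Finite F] (M : CG chevF4 F) : ∀ π ∈ M.toPerm.range,
    (List.range chevF4.rank).map (pn π) = List.range chevF4.rank ∨ (List.range chevF4.rank).map (pn π) = [3, 2, 1, 0] := by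
  intro π hπ
  obtain ⟨θ, f, g, h⟩ := M.range_frame hπ
  have := h.chk liF4
  rwa [Bool.or_eq_true, decide_eq_true_eq, decide_eq_true_eq] at this

theorem range_G2 {F : Type*} [Field F] [Finite F] (M : CG chevG2 F) : ∀ π ∈ M.toPerm.range,
    (List.range chevG2.rank).map (pn π) = List.range chevG2.rank ∨ (List.range chevG2.rank).map (pn π) = [1, 0] := by
  intro π hπ
  obtain ⟨θ, f, g, h⟩ := M.range_frame hπ
  have := h.chk liG2
  rwa [Bool.or_eq_true, decide_eq_true_eq, decide_eq_true_eq] at this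

theorem range_B2 {F : Type*} [Field F] [Finite F] (M : CG chevB2 F) : ∀ π ∈ M.toPerm.range,
    (List.range chevB2.rank).map (pn π) = List.range chevB2.rank ∨ (List.range chevB2.rank).map (pn π) = [1, 0] := by
  intro π hπ
  obtain ⟨θ, f, g, h⟩ := M.range_frame hπ
  have := h.chk liB2
  rwa [Bool.or_eq_true, decide_eq_true_eq, decide_eq_true_eq] at this

theorem range_D4 {F : Type*} [Field F] [Finite F] (M : CG chevD4 F) : ∀ π ∈ M.toPerm.range,
    (List.range chevD4.rank).map (pn π) ∈ [[0, 1, 2, 3], [0, 1, 3, 2], [2, 1, 0, 3], [2, 1, 3, 0], [3, 1, 0, 2], [3, 1, 2, 0]] := by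
  intro π hπ
  obtain ⟨θ, f, g, h⟩ := M.range_frame hπ
  exact of_decide_eq_true (h.chk liD4)

end CfsgLib.Chev
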