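import Cfsg.Agent.Lib.ChevAut14
set_option autoImplicit false
set_option linter.style.haveILetI false
set_option linter.unusedSectionVars false

/-! Automorphisms of Chevalley groups, XV: the structure of the outer automorphism group. -/

namespace CfsgLib.Chev
open Cfsg.Lie Matrix

namespace CG
variable {D : ChevalleyDatum} {F : Type*} [Field F] (M : CG D F)
include M

/-- a function on numbers from a function on `Fin` along a permutation -/
theorem exists_c' (π : Equiv.Perm (Fin D.rank)) (v : Fin D.rank → Fˣ) : ∃ c' : ℕ → Fˣ, ∀ i : Fin D.rank, c' (π i) = v i := by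
  refine ⟨fun m => if hm : m < D.rank then v (π.symm ⟨m, hm⟩) else 1, fun i => ?_⟩
  simp only [dif_pos (π i).2, Fin.eta, Equiv.symm_apply_apply]

theorem norm_Dg [Finite F] (hD : D ∈ [chevG2, chevB2, chevD4, chevF4, chevE6, chevE7, chevE8]) {θ : MulAut ↥(D.group F)}
    {π : Equiv.Perm (Fin D.rank)} {f g : Fin D.rank → F → F} (h : M.IsFrame θ π f g) {δ : MulAut ↥(D.group F)} (hδ : δ ∈ M.Dg) :
    θ * δ * θ⁻¹ ∈ M.Dg := by
  obtain ⟨c, rfl⟩ := M.mem_Dg'.mp hδ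
  obtain ⟨-, σ, hσ⟩ := shape hD h
  obtain ⟨c', hc'⟩ := M.exists_c' π (fun i => (Units.map (σ : F →* F) (c i)) ^ (D.graphExp (ringChar F) i (π i)))
  have := h.dA_comm (c := c) (c' := c') (fun i t => by
    rw [hσ i (_ * t), hσ i t, hc', map_mul, mul_pow, Units.val_pow_eq_pow_val]
    change _ = (σ (c i)) ^ _ * _
    ring)
  rw [this, mul_inv_cancel_right]
  exact M.mem_Dg'.mpr ⟨_, rfl⟩

theorem norm_DF [Finite F] (hD : D ∈ [chevG2, chevB2, chevD4, chevF4, chevE6, chevE7, chevE8]) {θ : MulAut ↥(D.group F)}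
    {π : Equiv.Perm (Fin D.rank)} {f g : Fin D.rank → F → F} (h : M.IsFrame θ π f g) {δ : MulAut ↥(D.group F)} (hδ : δ ∈ M.DF) :
    θ * δ * θ⁻¹ ∈ M.DF := by
  obtain ⟨c, τ, rfl⟩ := M.mem_DF.mp hδ
  have h1 := M.norm_Dg hD h (M.mem_Dg'.mpr ⟨c, rfl⟩)
  obtain ⟨c1, hc1⟩ := M.mem_Dg'.mp h1
  obtain ⟨-, σ, hσ⟩ := shape hD h
  set τ' : F ≃+* F := σ * τ * σ⁻¹ with hτ'
  obtain ⟨c', hc'⟩ := M.exists_c' π (fun i => Units.mk0 (f i 1) (h.f_ne one_ne_zero) * (Units.map (τ' : F →* F) (Units.mk0 (f i 1) (h.f_ne one_ne_zero)))⁻¹)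
  have h2 : ∀ t, τ' (σ t) = σ (τ t) := by
    intro t
    change σ (τ (σ.symm (σ t))) = _
    rw [RingEquiv.symm_apply_apply]
  have h3 := h.fd_comm (σ := τ) (τ := τ') (c' := c') (fun i t => by
    rw [hσ i (τ t), hσ i t, hc', map_mul, map_pow, h2, Units.val_mul, Units.val_mk0, Units.val_inv_eq_inv_val]
    have h4 : τ' (f i 1) ≠ 0 := (map_ne_zero τ').mpr (h.f_ne one_ne_zero)
    change _ = f i 1 * (τ' (f i 1))⁻¹ * _
    field_simp)
  have e : θ * (M.dA c * M.fdHom τ) * θ⁻¹ = (θ * M.dA c * θ⁻¹) * (θ * M.fdHom τ * θ⁻¹) := by group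
  rw [e, h3, mul_inv_cancel_right]
  exact mul_mem (Subgroup.mem_sup_left (h1)) (mul_mem (Subgroup.mem_sup_left (M.mem_Dg'.mpr ⟨_, rfl⟩)) (Subgroup.mem_sup_right ⟨_, rfl⟩))

/-- a subgroup normalised by frame automorphisms has a normal image in the outer automorphism group -/
theorem normal_map [Finite F] {K : Subgroup (MulAut ↥(D.group F))}
    (hK : ∀ (θ : MulAut ↥(D.group F)) π f g, M.IsFrame θ π f g → ∀ δ ∈ K, θ * δ * θ⁻¹ ∈ K) :
    (K.map (QuotientGroup.mk' (Cfsg.Inn ↥(D.group F)))).Normal := by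
  constructor
  rintro _ ⟨δ, hδ, rfl⟩ y
  obtain ⟨θ, rfl⟩ := QuotientGroup.mk'_surjective _ y
  obtain ⟨x, θ', h1, -, f, g, h2⟩ := M.toPerm_rl θ
  have h3 : QuotientGroup.mk' (Cfsg.Inn ↥(D.group F)) θ = QuotientGroup.mk' (Cfsg.Inn ↥(D.group F)) θ' := by
    rw [h1, map_mul]
    have : QuotientGroup.mk' (Cfsg.Inn ↥(D.group F)) (MulAut.conj x) = 1 := (QuotientGroup.eq_one_iff _).mpr ⟨x, rfl⟩
    rw [this, one_mul]
  rw [h3, ← map_mul, ← map_inv, ← map_mul]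
  exact ⟨_, hK θ' _ f g h2 δ hδ, rfl⟩

theorem closure_diag : Subgroup.closure {φ : MulAut ↥(D.group F) | D.IsDiagonalAut φ} = M.Dg := by
  have : {φ : MulAut ↥(D.group F) | D.IsDiagonalAut φ} = (M.Dg : Set (MulAut ↥(D.group F))) := by
    ext θ
    exact M.mem_Dg_iff.symm
  rw [this, Subgroup.closure_eq]

theorem closure_field : Subgroup.closure {φ : MulAut ↥(D.group F) | D.IsFieldAut φ} = M.fdHom.range := by
  have : {φ : MulAut ↥(D.group F) | D.IsFieldAut φ} = (M.fdHom.range : Set (MulAut ↥(D.group F))) := by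
    ext θ
    exact M.mem_Fd_iff.symm
  rw [this, Subgroup.closure_eq]

theorem Dg_comm {a b : MulAut ↥(D.group F)} (ha : a ∈ M.Dg) (hb : b ∈ M.Dg) : a * b = b * a := by
  obtain ⟨χ, h, rfl⟩ := ha
  obtain ⟨χ', h', rfl⟩ := hb
  rw [M.diagAut_mul, M.diagAut_mul]
  congr 1
  exact mul_comm _ _

/-- the structure of the outer automorphism group -/
theorem out_struct [Finite F] (hD : D ∈ [chevG2, chevB2, chevD4, chevF4, chevE6, chevE7, chevE8])
    (Dbar Fbar : Subgroup (Cfsg.Out ↥(D.group F)))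
    (hDbar : Dbar = (Subgroup.closure {φ : MulAut ↥(D.group F) | D.IsDiagonalAut φ}).map (QuotientGroup.mk' (Cfsg.Inn ↥(D.group F))))
    (hFbar : Fbar = (Subgroup.closure {φ : MulAut ↥(D.group F) | D.IsFieldAut φ}).map (QuotientGroup.mk' (Cfsg.Inn ↥(D.group F)))) :
    Dbar.Normal ∧ IsMulCommutative ↥Dbar ∧ IsCyclic ↥Fbar ∧ (Dbar ⊔ Fbar).Normal ∧
      (Dbar ⊔ Fbar).index = Nat.card M.toPerm.range ∧
      ∀ θ : MulAut ↥(D.group F), QuotientGroup.mk' (Cfsg.Inn ↥(D.group F)) θ ∈ Dbar ⊔ Fbar → M.toPerm θ = 1 := by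
  rw [M.closure_diag] at hDbar
  rw [M.closure_field] at hFbar
  have hsup : Dbar ⊔ Fbar = M.DF.map (QuotientGroup.mk' (Cfsg.Inn ↥(D.group F))) := by
    rw [hDbar, hFbar, ← Subgroup.map_sup]; rfl
  refine ⟨?_, ?_, ?_, ?_, ?_, ?_⟩
  · rw [hDbar]
    exact M.normal_map fun θ π f g h δ hδ => M.norm_Dg hD h hδ
  · refine ⟨⟨?_⟩⟩
    rintro ⟨a, ha⟩ ⟨b, hb⟩
    rw [hDbar] at ha hb
    obtain ⟨α, hα, rfl⟩ := ha
    obtain ⟨β, hβ, rfl⟩ := hb
    apply Subtype.ext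
    change QuotientGroup.mk' _ α * QuotientGroup.mk' _ β = QuotientGroup.mk' _ β * QuotientGroup.mk' _ α
    rw [← map_mul, ← map_mul, M.Dg_comm hα hβ]
  · haveI := cyclic_ringAut (F := F)
    rw [hFbar, ← MonoidHom.range_comp]
    exact isCyclic_of_surjective _ (MonoidHom.rangeRestrict_surjective ((QuotientGroup.mk' (Cfsg.Inn ↥(D.group F))).comp M.fdHom))
  · rw [hsup]
    exact M.normal_map fun θ π f g h δ hδ => M.norm_DF hD h hδ
  · rw [hsup, Subgroup.index_map, QuotientGroup.ker_mk', ← M.ker_eq hD, Subgroup.index_ker]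
    rw [MonoidHom.range_eq_top.mpr (QuotientGroup.mk'_surjective _), Subgroup.index_top, mul_one]
  · intro θ h
    rw [hsup] at h
    obtain ⟨δ, hδ, he⟩ := h
    have h1 : θ ∈ M.toPerm.ker := by
      rw [M.ker_eq hD]
      have h2 := QuotientGroup.eq.mp he
      have : θ = δ * (δ⁻¹ * θ) := by group
      rw [this]
      exact mul_mem (Subgroup.mem_sup_left hδ) (Subgroup.mem_sup_right h2)
    exact h1

end CG

end CfsgLib.Chev
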