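import Cfsg.Agent.Lib.ChevAut15
import Cfsg.Agent.Lib.ChevGr2
set_option autoImplicit false
set_option linter.style.haveILetI false
set_option linter.unusedSectionVars false

/-! Automorphisms of Chevalley groups, XVI: existence of diagram permutations. -/

namespace CfsgLib.Chev
open Cfsg.Lie Matrix

/-- a permutation from lists -/
def permL (n : ℕ) (l l' : List ℕ) (h : ∀ i < n, l.getD i 0 < n ∧ l'.getD i 0 < n ∧ l'.getD (l.getD i 0) 0 = i ∧ l.getD (l'.getD i 0) 0 = i) :
    Equiv.Perm (Fin n) where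
  toFun i := ⟨l.getD i 0, (h i i.2).1⟩
  invFun i := ⟨l'.getD i 0, (h i i.2).2.1⟩
  left_inv i := Fin.ext (h i i.2).2.2.1
  right_inv i := Fin.ext (h i i.2).2.2.2

theorem permL_coe (n : ℕ) (l l' : List ℕ) (h) (i : Fin n) : ((permL n l l' h i : Fin n) : ℕ) = l.getD i 0 := rfl

theorem permL_ne {n : ℕ} {l l' : List ℕ} {h} (h0 : 0 < n) (hl : l.getD 0 0 ≠ 0) : permL n l l' h ≠ 1 := by
  intro he
  have := congrArg (fun π : Equiv.Perm (Fin n) => ((π ⟨0, h0⟩ : Fin n) : ℕ)) he
  exact hl this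

namespace CG
variable {D : ChevalleyDatum} {F : Type*} [Field F] (M : CG D F)
include M

theorem frame_of [Finite F] {α : ↥(D.group F) ≃* ↥(D.group F)} {π : Equiv.Perm (Fin D.rank)} {f g : Fin D.rank → F → F}
    (hf : ∀ (i : Fin D.rank) (t : F), α (M.xG (D.simple i) t) = M.xG (D.simple (π i)) (f i t))
    (hg : ∀ (i : Fin D.rank) (t : F), α (M.xG (D.neg (D.simple i)) t) = M.xG (D.neg (D.simple (π i))) (g i t)) : M.IsFrame α π f g := by
  refine ⟨hf, hg, fun i => Finite.injective_iff_bijective.mp fun t u h => ?_⟩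
  have : α (M.xG (D.simple i) t) = α (M.xG (D.simple i) u) := by rw [hf, hf, h]
  exact M.xG_inj (M.N.simple_lt i i.2) (α.injective this)

/-- membership of a list permutation in the range -/
theorem range_of [Finite F] (hD : D ∈ [chevG2, chevB2, chevD4, chevF4, chevE6, chevE7, chevE8]) {l l' : List ℕ} {h}
    {α : ↥(D.group F) ≃* ↥(D.group F)} {f g : ℕ → F → F}
    (hf : ∀ i < D.rank, ∀ t : F, α (M.xG (D.simple i) t) = M.xG (D.simple (l.getD i 0)) (f i t) ∧
      α (M.xG (D.neg (D.simple i)) t) = M.xG (D.neg (D.simple (l.getD i 0))) (g i t)) : permL D.rank l l' h ∈ M.toPerm.range :=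
  ⟨α, M.toPerm_frame hD (M.frame_of (f := fun i => f i) (g := fun i => g i) (fun i t => (hf i i.2 t).1) (fun i t => (hf i i.2 t).2))⟩

end CG

theorem chev_mem_E6 : chevE6 ∈ [chevG2, chevB2, chevD4, chevF4, chevE6, chevE7, chevE8] := by simp
theorem chev_mem_D4 : chevD4 ∈ [chevG2, chevB2, chevD4, chevF4, chevE6, chevE7, chevE8] := by simp
theorem chev_mem_F4 : chevF4 ∈ [chevG2, chevB2, chevD4, chevF4, chevE6, chevE7, chevE8] := by simp
theorem chev_mem_G2 : chevG2 ∈ [chevG2, chevB2, chevD4, chevF4, chevE6, chevE7, chevE8] := by simp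

theorem card_range_E6 {F : Type*} [Field F] [Finite F] (M : CG chevE6 F) : Nat.card M.toPerm.range = 2 := by
  obtain ⟨α, hα⟩ := graph_aut (F := F) (chevE6, [5, 1, 4, 3, 2, 0]) M (by simp)
  have h := M.range_of chev_mem_E6 (l := [5, 1, 4, 3, 2, 0]) (l' := [5, 1, 4, 3, 2, 0]) (h := by decide) (f := fun _ t => t) (g := fun _ t => t) hα
  exact card_two (range_E6 M) h (permL_ne (by decide) (by decide))

/-- the three elements of the range for `D₄` -/
theorem card_range_D4 {F : Type*} [Field F] [Finite F] (M : CG chevD4 F) :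
    Nat.card M.toPerm.range = 6 ∧ ∃ a ∈ M.toPerm.range, ∃ b ∈ M.toPerm.range, a * b ≠ b * a := by
  obtain ⟨α, hα⟩ := graph_aut (F := F) (chevD4, [2, 1, 3, 0]) M (by simp)
  obtain ⟨β, hβ⟩ := graph_aut (F := F) (chevD4, [2, 1, 0, 3]) M (by simp)
  have ha := M.range_of chev_mem_D4 (l := [2, 1, 3, 0]) (l' := [3, 1, 0, 2]) (h := by decide) (f := fun _ t => t) (g := fun _ t => t) hα
  have hb := M.range_of chev_mem_D4 (l := [2, 1, 0, 3]) (l' := [2, 1, 0, 3]) (h := by decide) (f := fun _ t => t) (g := fun _ t => t) hβ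
  set a : Equiv.Perm (Fin chevD4.rank) := permL chevD4.rank [2, 1, 3, 0] [3, 1, 0, 2] (by decide) with hadef
  set b : Equiv.Perm (Fin chevD4.rank) := permL chevD4.rank [2, 1, 0, 3] [2, 1, 0, 3] (by decide) with hbdef
  have hab : a * b ≠ b * a := by
    intro h
    have := congrArg (fun π : Equiv.Perm (Fin chevD4.rank) => ((π ⟨0, by decide⟩ : Fin chevD4.rank) : ℕ)) h
    revert this
    decide
  refine ⟨?_, a, ha, b, hb, hab⟩
  have ha3 : orderOf a = 3 := by
    haveI : Fact (Nat.Prime 3) := ⟨Nat.prime_three⟩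
    apply orderOf_eq_prime
    · apply Equiv.ext; decide
    · exact permL_ne (by decide) (by decide)
  have hb2 : orderOf b = 2 := by
    haveI : Fact (Nat.Prime 2) := ⟨Nat.prime_two⟩
    apply orderOf_eq_prime
    · apply Equiv.ext; decide
    · exact permL_ne (by decide) (by decide)
  have h3 : 3 ∣ Nat.card M.toPerm.range := by
    rw [← ha3, ← Subgroup.orderOf_mk a ha]
    exact orderOf_dvd_natCard _
  have h2 : 2 ∣ Nat.card M.toPerm.range := by
    rw [← hb2, ← Subgroup.orderOf_mk b hb]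
    exact orderOf_dvd_natCard _
  have h6 : 6 ∣ Nat.card M.toPerm.range := Nat.Coprime.mul_dvd_of_dvd_of_dvd (by norm_num) h2 h3
  have hle : Nat.card M.toPerm.range ≤ 6 := by
    let L : List (List ℕ) := [[0, 1, 2, 3], [0, 1, 3, 2], [2, 1, 0, 3], [2, 1, 3, 0], [3, 1, 0, 2], [3, 1, 2, 0]]
    have hinj : Function.Injective (fun x : M.toPerm.range => (⟨(List.range chevD4.rank).map (pn (x : Equiv.Perm (Fin chevD4.rank))), List.mem_toFinset.mpr (range_D4 M x x.2)⟩ : L.toFinset)) := by
      intro x y h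
      exact Subtype.ext (list_inj (congrArg Subtype.val h))
    have := Nat.card_le_card_of_injective _ hinj
    refine this.trans ?_
    rw [Nat.card_eq_fintype_card, Fintype.card_coe]
    decide
  have hpos : 0 < Nat.card M.toPerm.range := Nat.card_pos
  exact le_antisymm hle (Nat.le_of_dvd hpos h6)

end CfsgLib.Chev
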