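import Cfsg.Agent.Lib.TWD2
set_option autoImplicit false
set_option linter.style.haveILetI false
set_option maxRecDepth 1000000

/-! The Weyl group, perfectness and the order of `³D₄(q)`. -/

namespace CfsgLib.Chev.TwD4
open Cfsg.Lie Matrix CfsgLib.BNP CfsgLib.PWM CfsgLib.Chev.GA CfsgLib.Chev
open scoped commutatorElement

def A12 : Matrix (Fin 2) (Fin 2) ℤ := !![2, -3; -1, 2]

theorem fold : Fold O A12 := by
  have h : ∀ J J' : Fin 2, ∀ k : Fin chevD4.rank, (((w J).map (rf (cmat chevD4))).prod (eJ O J')) k = (eJ O J' - A12 J J' • eJ O J) k := by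
    decide +kernel
  intro J J'
  funext k
  exact h J J' k

variable {K : Type*} [Field K] (φ : K →+* K) {q : ℕ} (hφ : ∀ x, φ x = x ^ q) (h3 : ∀ x, φ (φ (φ x)) = x)

theorem tyb : ∀ i j : Fin 2, (decide (i = j) ||
    decide (CType (A12 i j) (A12 j i) ((CoxeterMatrix.G₂) i j))) = true := by
  decide +kernel

theorem ty : ∀ i j : Fin 2, i ≠ j → CType (A12 i j) (A12 j i) ((CoxeterMatrix.G₂) i j) := by
  intro i j hij
  simpa [hij] using tyb i j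

theorem dg2 : ∀ J : Fin 2, A12 J J = 2 := by decide +kernel

/-- the generators of the Weyl group -/
noncomputable def sg2 : Fin 2 → Weyl ((R φ).bnp1 (cgD4 K)) := (R φ).sW1 (cgD4 K)

noncomputable def cx : Cox (sg2 φ) A12 := (R φ).cox1 (cgD4 K) fold dg2
  (fun i j => (CoxeterMatrix.G₂) i j) ty

/-- the quotient `N¹/H¹` -/
theorem NH : ∃ ψ : ↥(chevD4.monomialSubgroup K ⊓ (ta φ).Gs (cgD4 K)) →* (CoxeterMatrix.G₂).Group, Function.Surjective ψ ∧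
      ψ.ker = (chevD4.diagonalSubgroup K ⊓ (ta φ).Gs (cgD4 K)).subgroupOf (chevD4.monomialSubgroup K ⊓ (ta φ).Gs (cgD4 K)) := by
  obtain ⟨θ, _⟩ := exists_equiv_group (cx φ) (CoxeterMatrix.G₂) (fun i j _ => rfl)
  refine ⟨θ.symm.toMonoidHom.comp ((R φ).homN1 (cgD4 K)), ?_, ?_⟩
  · exact θ.symm.surjective.comp ((R φ).homN1_surj (cgD4 K))
  · rw [← (R φ).homN1_ker (cgD4 K)]
    ext n
    rw [MonoidHom.mem_ker, MonoidHom.mem_ker]
    exact θ.symm.map_eq_one_iff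

def d0 : List (List (List ℤ × ℕ)) := [[([-1, 3], 1)], [([2, -3], 4)], [([-2, 3], 5)], [([1, -3], 8)], [([-1, 0], 9)]]

theorem s0 (q : ℕ) : 1 + sumL d0 q = q ^ 0 + q ^ 1 + q ^ 4 + q ^ 5 + q ^ 8 + q ^ 9 := by
  simp only [sumL, d0, List.flatten_cons, List.flatten_nil, List.cons_append, List.nil_append, List.map_cons, List.map_nil, List.sum_cons, List.sum_nil]
  ring

def d1 : List (List (List ℤ × ℕ)) := [[([1, -1], 3)]]

theorem s1 (q : ℕ) : 1 + sumL d1 q = q ^ 0 + q ^ 3 := by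
  simp only [sumL, d1, List.flatten_cons, List.flatten_nil, List.cons_append, List.nil_append, List.map_cons, List.map_nil, List.sum_cons, List.sum_nil]
  ring

def dat : List (Fin 2 × List (List (List ℤ × ℕ))) := [(0, d0), (1, d1)]

def rows2 : List (List ℤ) := [[2, -3], [-1, 2]]

theorem chkd : chkAllW 2 rows2 [1, 3] (List.finRange 2) dat = true := by decide +kernel

theorem rows_eq : ∀ i j : Fin 2, A12 i j = (rows2.getD i []).getD j 0 := by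
  intro i j
  fin_cases i <;> fin_cases j <;> rfl
theorem rows_len : ∀ i : Fin 2, (rows2.getD i []).length = 2 := by decide +kernel

/-- the generators -/
noncomputable def e2 : Fin 2 ≃ ((R φ).bnp1 (cgD4 K)).S := (R φ).eS1 (cgD4 K)

include hφ h3 in
theorem order [Fintype K] (hq2 : 2 ≤ q) (hK : Fintype.card K = q ^ 3) :
    Nat.card ↥((ta φ).Gs (cgD4 K)) = q ^ 12 * (q ^ 2 - 1) * (q ^ 6 - 1) * (q ^ 8 + q ^ 4 + 1) := by
  haveI : Finite ↥((ta φ).Gs (cgD4 K)) := inferInstance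
  have h1 := order_of_cox (P := (R φ).bnp1 (cgD4 K)) (e2 φ) (A := A12) (cx φ) rows_eq rows_len dat chkd hq2 (by
    intro i
    have h3' := (R φ).card_C1_gen (cgD4 K) i
    refine h3'.trans ?_
    congr 1
    exact card_Um φ hφ h3 hq2 hK i)
  have h2 := (R φ).card_B1 (cgD4 K)
  have h4 := card_U φ hφ h3 hq2 hK
  have h5 := card_H φ hφ h3 hq2 hK
  rw [h1, h2, h4, h5]
  simp only [dat, List.map_cons, List.map_nil, List.prod_cons, List.prod_nil, s0, s1, mul_one]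
  have a1 : 1 ≤ q := by omega
  have a2 : 1 ≤ q ^ 2 := Nat.one_le_pow _ _ (by omega)
  have a3 : 1 ≤ q ^ 3 := Nat.one_le_pow _ _ (by omega)
  have a6 : 1 ≤ q ^ 6 := Nat.one_le_pow _ _ (by omega)
  zify [a1, a2, a3, a6]
  ring

/-! ### Perfectness -/

include hφ h3

theorem hF_mem {c : Fin chevD4.rank → Kˣ} (hc : (ta φ).st c = c) : hF chevD4 K c ∈ twistedD4 K q := by
  apply H_le φ hφ h3
  refine Subgroup.mem_inf.mpr ⟨?_, ?_⟩
  · rw [← (cgD4 K).hF_range]; exact ⟨c, rfl⟩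
  · rw [TA.mem_Gs]
    exact ⟨(cgD4 K).hF_mem_G c, by rw [(ta φ).s_hF (cgD4 K), hc]⟩

/-- triples are commutators -/
theorem triple_comm {a b d : ℕ} (hr : (a, b, d) ∈ [(18, 13, 12), (5, 10, 11)]) (ha : a < chevD4.nroots) (hb : b < chevD4.nroots)
    (hd : d < chevD4.nroots) (hab : cmB chevD4 a b = true) (had : cmB chevD4 a d = true) (hbd : cmB chevD4 b d = true)
    {c : Fin chevD4.rank → Kˣ} (hcc : (ta φ).st c = c) {χ : K} (k1 : ((∏ i : Fin chevD4.rank, c i ^ chevD4.cartan i a : Kˣ) : K) = χ)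
    (k2 : ((∏ i : Fin chevD4.rank, c i ^ chevD4.cartan i b : Kˣ) : K) = φ χ)
    (k3 : ((∏ i : Fin chevD4.rank, c i ^ chevD4.cartan i d : Kˣ) : K) = φ (φ χ)) (hχ : χ ≠ 1) (t : K) :
    xg chevD4 a t * (xg chevD4 b (φ t) * xg chevD4 d (φ (φ t))) ∈ ⁅twistedD4 K q, twistedD4 K q⁆ := by
  have hχ' : χ - 1 ≠ 0 := sub_ne_zero.mpr hχ
  let t' := t / (χ - 1)
  have ht : t = χ * t' + -t' := by
    have : (χ - 1) * t' = t := by
      change (χ - 1) * (t / (χ - 1)) = t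
      rw [mul_div_cancel₀ _ hχ']
    rw [← this]; ring
  have h5 := Subgroup.commutator_mem_commutator (hF_mem φ hφ h3 hcc) (triple_mem φ hφ hr t')
  rw [commutatorElement_def] at h5
  have M := cgD4 K
  have e1 := (cgD4 K).hF_xg c ha t'
  have e2 := (cgD4 K).hF_xg c hb (φ t')
  have e3 := (cgD4 K).hF_xg c hd (φ (φ t'))
  rw [k1] at e1
  rw [k2, ← map_mul] at e2
  rw [k3, ← map_mul, ← map_mul] at e3
  have f1 : xg chevD4 a t = xg chevD4 a (χ * t') * (xg chevD4 a t')⁻¹ := by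
    rw [← M.xg_neg, M.xg_add, ← ht]
  have f2 : xg chevD4 b (φ t) = xg chevD4 b (φ (χ * t')) * (xg chevD4 b (φ t'))⁻¹ := by
    rw [← M.xg_neg, M.xg_add, ← map_neg, ← map_add, ← ht]
  have f3 : xg chevD4 d (φ (φ t)) = xg chevD4 d (φ (φ (χ * t'))) * (xg chevD4 d (φ (φ t')))⁻¹ := by
    rw [← M.xg_neg, M.xg_add, ← map_neg, ← map_neg, ← map_add, ← map_add, ← ht]
  have g1 := (M.xg_cm hab t' (φ (χ * t'))).inv_right.eq
  have g2 := (M.xg_cm had t' (φ (φ (χ * t')))).inv_right.eq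
  have g3 := (M.xg_cm hbd (φ t') (φ (φ (χ * t')))).inv_right.eq
  have g4 := (M.xg_cm hab t' (φ t')).inv_inv.eq
  have g5 := (M.xg_cm had t' (φ (φ t'))).inv_inv.eq
  have g6 := (M.xg_cm hbd (φ t') (φ (φ t'))).inv_inv.eq
  have h6 : hF chevD4 K c * (xg chevD4 a t' * (xg chevD4 b (φ t') * xg chevD4 d (φ (φ t')))) * (hF chevD4 K c)⁻¹ *
      (xg chevD4 a t' * (xg chevD4 b (φ t') * xg chevD4 d (φ (φ t'))))⁻¹ =
      xg chevD4 a t * (xg chevD4 b (φ t) * xg chevD4 d (φ (φ t))) := by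
    have e4 : hF chevD4 K c * (xg chevD4 a t' * (xg chevD4 b (φ t') * xg chevD4 d (φ (φ t')))) * (hF chevD4 K c)⁻¹ *
      (xg chevD4 a t' * (xg chevD4 b (φ t') * xg chevD4 d (φ (φ t'))))⁻¹ =
      (hF chevD4 K c * xg chevD4 a t' * (hF chevD4 K c)⁻¹) * (hF chevD4 K c * xg chevD4 b (φ t') * (hF chevD4 K c)⁻¹) *
      (hF chevD4 K c * xg chevD4 d (φ (φ t')) * (hF chevD4 K c)⁻¹) *
        ((xg chevD4 d (φ (φ t')))⁻¹ * (xg chevD4 b (φ t'))⁻¹ * (xg chevD4 a t')⁻¹) := by group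
    rw [e4, e1, e2, e3, f1, f2, f3]
    generalize xg chevD4 a (χ * t') = X at *
    generalize xg chevD4 b (φ (χ * t')) = Y at *
    generalize xg chevD4 d (φ (φ (χ * t'))) = Z at *
    generalize (xg chevD4 a t')⁻¹ = x at *
    generalize (xg chevD4 b (φ t'))⁻¹ = y at *
    generalize (xg chevD4 d (φ (φ t')))⁻¹ = z at *
    calc X * Y * Z * (z * y * x) = X * Y * Z * ((z * y) * x) := by group
      _ = X * Y * Z * ((y * z) * x) := by rw [g6]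
      _ = X * Y * (Z * y) * (z * x) := by group
      _ = X * Y * (y * Z) * (x * z) := by rw [g3, g5]
      _ = X * Y * y * (Z * x) * z := by group
      _ = X * Y * y * (x * Z) * z := by rw [g2]
      _ = X * Y * (y * x) * Z * z := by group
      _ = X * Y * (x * y) * Z * z := by rw [g4]
      _ = X * (Y * x) * y * Z * z := by group
      _ = X * (x * Y) * y * Z * z := by rw [g1]
      _ = X * x * (Y * y * (Z * z)) := by group
  rwa [h6] at h5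

omit hφ in
theorem exists_c {a : K} (ha : a ≠ 0) :
    ∃ c : Fin chevD4.rank → Kˣ, (ta φ).st c = c ∧ (c (I 0) : K) = a ∧ (c (I 2) : K) = φ a ∧ (c (I 3) : K) = φ (φ a) ∧ c (I 1) = 1 := by
  let u := Units.mk0 a ha
  let v := Units.map (φ : K →* K) u
  let w := Units.map (φ : K →* K) v
  refine ⟨(![u, 1, v, w] : Fin 4 → Kˣ), (st_eq_iff φ h3 _).mpr ⟨?_, rfl, rfl⟩, rfl, rfl, rfl, rfl⟩
  change φ ((1 : Kˣ) : K) = ((1 : Kˣ) : K)
  rw [Units.val_one, map_one]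

omit hφ h3 in
theorem prod_c {c : Fin chevD4.rank → Kˣ} (h : c (I 1) = 1) (r : ℕ) :
    ∏ k : Fin chevD4.rank, c k ^ chevD4.cartan k r = c (I 0) ^ chevD4.cartan 0 r * c (I 2) ^ chevD4.cartan 2 r * c (I 3) ^ chevD4.cartan 3 r := by
  have h1 : ∏ k : Fin chevD4.rank, c k ^ chevD4.cartan k r = ∏ k : Fin 4, c (I k) ^ chevD4.cartan (I k) r := rfl
  rw [h1, Fin.prod_univ_four, h, _root_.one_zpow, mul_one]
  rfl

omit hφ h3 in
theorem cart : chevD4.cartan 0 18 = 2 ∧ chevD4.cartan 2 18 = 0 ∧ chevD4.cartan 3 18 = 0 ∧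
    chevD4.cartan 0 13 = 0 ∧ chevD4.cartan 2 13 = 2 ∧ chevD4.cartan 3 13 = 0 ∧
    chevD4.cartan 0 12 = 0 ∧ chevD4.cartan 2 12 = 0 ∧ chevD4.cartan 3 12 = 2 ∧
    chevD4.cartan 0 5 = -2 ∧ chevD4.cartan 2 5 = 0 ∧ chevD4.cartan 3 5 = 0 ∧
    chevD4.cartan 0 10 = 0 ∧ chevD4.cartan 2 10 = -2 ∧ chevD4.cartan 3 10 = 0 ∧
    chevD4.cartan 0 11 = 0 ∧ chevD4.cartan 2 11 = 0 ∧ chevD4.cartan 3 11 = -2 := by decide +kernel

theorem triple_comm' [Fintype K] (hK4 : 4 ≤ Fintype.card K) {a b d : ℕ} (hr : (a, b, d) ∈ [(18, 13, 12), (5, 10, 11)]) (t : K) :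
    xg chevD4 a t * (xg chevD4 b (φ t) * xg chevD4 d (φ (φ t))) ∈ ⁅twistedD4 K q, twistedD4 K q⁆ := by
  obtain ⟨a0, ha0, ha2⟩ := exists_ne3 hK4
  obtain ⟨c1, hc1, d0, d2, d3, d1⟩ := exists_c φ h3 ha0
  obtain ⟨k1, k2, k3, k4, k5, k6, k7, k8, k9, k10, k11, k12, k13, k14, k15, k16, k17, k18⟩ := cart
  have lt : 18 < chevD4.nroots ∧ 13 < chevD4.nroots ∧ 12 < chevD4.nroots ∧ 5 < chevD4.nroots ∧ 10 < chevD4.nroots ∧ 11 < chevD4.nroots := by
    decide +kernel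
  obtain ⟨l1, l2, l3, l4, l5, l6⟩ := lt
  have cc : cmB chevD4 18 13 = true ∧ cmB chevD4 18 12 = true ∧ cmB chevD4 13 12 = true ∧ cmB chevD4 5 10 = true ∧
    cmB chevD4 5 11 = true ∧ cmB chevD4 10 11 = true := by decide +kernel
  obtain ⟨cc1, cc2, cc3, cc4, cc5, cc6⟩ := cc
  have hinv : (a0⁻¹) ^ 2 ≠ 1 := by
    rw [inv_pow]
    intro h
    exact ha2 (inv_eq_one.mp h)
  have hr' := hr
  simp only [List.mem_cons, Prod.mk.injEq, List.not_mem_nil, or_false] at hr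
  rcases hr with ⟨rfl, rfl, rfl⟩ | ⟨rfl, rfl, rfl⟩
  · refine triple_comm φ hφ h3 hr' l1 l2 l3 cc1 cc2 cc3 hc1 (χ := a0 ^ 2) ?_ ?_ ?_ ha2 t
    · rw [prod_c d1, k1, k2, k3]; simp [d0]
    · rw [prod_c d1, k4, k5, k6]; simp [d2]
    · rw [prod_c d1, k7, k8, k9]; simp [d3]
  · refine triple_comm φ hφ h3 hr' l4 l5 l6 cc4 cc5 cc6 hc1 (χ := a0⁻¹ ^ 2) ?_ ?_ ?_ hinv t
    · rw [prod_c d1, k10, k11, k12, _root_.zpow_neg]; simp [d0]
    · rw [prod_c d1, k13, k14, k15, _root_.zpow_neg]; simp [d2]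
    · rw [prod_c d1, k16, k17, k18, _root_.zpow_neg]; simp [d3]

omit hφ h3 in
theorem cmt : chevD4.commTerms 14 22 = [(23, (chevD4.chainM 14 22 1), 1, 1)] ∧ (chevD4.chainM 14 22 1) ^ 2 = 1 ∧
    chevD4.reflectRoot 1 23 = 22 ∧ rl chevD4 (wv (w 1)) 22 = 14 ∧ rl chevD4 (wv (w 1)) 14 = 22 ∧ chevD4.reflectRoot 1 14 = 9 ∧
    22 ≠ chevD4.neg 14 := by decide +kernel

omit h3 in
theorem single_comm {r : ℕ} (hr : r ∈ [14, 9]) {t : K} (ht : φ t = t) :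
    xg chevD4 r t ∈ ⁅twistedD4 K q, twistedD4 K q⁆ := by
  obtain ⟨m1, m2, m3, m4, m5, m6, m7⟩ := cmt
  have lt : 14 < chevD4.nroots ∧ 22 < chevD4.nroots ∧ 23 < chevD4.nroots := by decide +kernel
  obtain ⟨l1, l2, l3⟩ := lt
  have hn0 := n_mem φ hφ (0 : Fin 2)
  have hn1 := n_mem φ hφ (1 : Fin 2)
  change nl chevD4 K (wv (w 0)) ∈ _ at hn0
  change nl chevD4 K (wv (w 1)) ∈ _ at hn1
  have M := cgD4 K
  -- transport by the Weyl group
  have stepG : ∀ (G' : Subgroup (GL chevD4.Idx K)) (l : List (Fin chevD4.rank)) (r s : ℕ), s < chevD4.nroots →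
      rl chevD4 (wv l) s = r → (∀ x ∈ G', nl chevD4 K (wv l) * x * (nl chevD4 K (wv l))⁻¹ ∈ G') →
      (∀ t : K, φ t = t → xg chevD4 s t ∈ G') → ∀ t : K, φ t = t → xg chevD4 r t ∈ G' := by
    intro G' l r s hs hrs hn hst t ht
    rcases M.nl_xg (F := K) (wv l) (Wd_wv _ l) hs with h | h
    · have := hn _ (hst t ht)
      rwa [h, hrs] at this
    · have := hn _ (hst (-t) (by rw [map_neg, ht]))
      rwa [h, hrs, neg_neg] at this
  have h22 : ∀ t : K, φ t = t → xg chevD4 22 t ∈ twistedD4 K q :=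
    stepG _ (w 1) 22 14 l1 m5 (fun x hx => mul_mem (mul_mem hn1 hx) (inv_mem hn1))
      (fun t ht => single_mem φ hφ (by simp) ht)
  have h23 : ∀ t : K, φ t = t → xg chevD4 23 t ∈ ⁅twistedD4 K q, twistedD4 K q⁆ := by
    intro t ht
    have hu : φ (((chevD4.chainM 14 22 1 : ℤ) : K) * t) = ((chevD4.chainM 14 22 1 : ℤ) : K) * t := by
      rw [map_mul, map_intCast, ht]
    have h5 := Subgroup.commutator_mem_commutator (inv_mem (single_mem φ hφ (r := 14) (by simp) (map_one φ)))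
      (inv_mem (h22 _ hu))
    rw [commutatorElement_def, inv_inv, inv_inv, (M.comm_single l1 l2 (by decide) m7 m1 1 _).2] at h5
    have h6 : (((chevD4.chainM 14 22 1 : ℤ) : K)) * 1 * (((chevD4.chainM 14 22 1 : ℤ) : K) * t) = t := by
      have h7 : (((chevD4.chainM 14 22 1 : ℤ) : K)) ^ 2 = 1 := by exact_mod_cast congrArg (fun z : ℤ => (z : K)) m2
      linear_combination t * h7
    rwa [h6] at h5
  have c22 := stepG _ (w 0) 22 23 l3 m3 (fun x hx => comm_conj_mem hn0 hx) h23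
  have c14 := stepG _ (w 1) 14 22 l2 m4 (fun x hx => comm_conj_mem hn1 hx) c22
  have c9 := stepG _ (w 0) 9 14 l1 m6 (fun x hx => comm_conj_mem hn0 hx) c14
  simp only [List.mem_cons, List.not_mem_nil, or_false] at hr
  rcases hr with rfl | rfl
  · exact c14 t ht
  · exact c9 t ht

theorem perfect [Fintype K] (hK4 : 4 ≤ Fintype.card K) : commutator ↥(twistedD4 K q) = ⊤ := by
  apply perfect_of_le
  apply (cgD4 K).genSub_le
  intro w hw
  rcases words.mp hw with ⟨t, ht, r, hr, rfl⟩ | ⟨t, rs, hrs, rfl⟩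
  · have ht' : φ t = t := by rw [hφ, ht]
    rw [wg_cons, wg_nil, mul_one]
    exact single_comm φ hφ hr ht'
  · rw [wg_cons, wg_cons, wg_cons, wg_nil, mul_one, pow_two, pow_mul, ← hφ, ← hφ]
    exact triple_comm' φ hφ h3 hK4 hrs t

omit hφ h3

theorem adj : ∀ k : ℕ, ∀ (h : k + 1 < O.m), ∃ s < chevD4.nroots,
    rl chevD4 (wv (O.fl [⟨k, by omega⟩, ⟨k + 1, h⟩, ⟨k, by omega⟩, ⟨k + 1, h⟩])) s ≠ s := by
  have key : ∀ k : Fin 1, ∃ s < chevD4.nroots,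
    rl chevD4 (wv (O.fl [(⟨k, by omega⟩ : Fin 2), (⟨k + 1, by omega⟩ : Fin 2), (⟨k, by omega⟩ : Fin 2), (⟨k + 1, by omega⟩ : Fin 2)])) s ≠ s := by
    decide +kernel
  intro k h
  have h' : k + 1 < 2 := h
  exact key ⟨k, by omega⟩

theorem adj' : ∀ k : ℕ, ∀ (h : k + 1 < O.m), ∃ s < chevD4.nroots,
    rl chevD4 (wv (O.fl [⟨k + 1, h⟩, ⟨k, by omega⟩, ⟨k + 1, h⟩, ⟨k, by omega⟩])) s ≠ s := by
  have key : ∀ k : Fin 1, ∃ s < chevD4.nroots,
    rl chevD4 (wv (O.fl [(⟨k + 1, by omega⟩ : Fin 2), (⟨k, by omega⟩ : Fin 2), (⟨k + 1, by omega⟩ : Fin 2), (⟨k, by omega⟩ : Fin 2)])) s ≠ s := by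
    decide +kernel
  intro k h
  have h' : k + 1 < 2 := h
  exact key ⟨k, by omega⟩

theorem nontriv : Nontrivial ↥((ta φ).Gs (cgD4 K)) := by
  obtain ⟨x, hx1, hx2, hx3, hx4⟩ := (R φ).x (0 : Fin 2)
  refine ⟨⟨⟨x, ((ta φ).mem_Gs (cgD4 K)).mpr ⟨(cgD4 K).U_le_G hx1, hx3⟩⟩, 1, fun h => hx2 ?_⟩⟩
  exact congrArg Subtype.val h

include hφ h3 in
theorem simple [Fintype K] (hK4 : 4 ≤ Fintype.card K) : IsSimpleGroup ↥((ta φ).Gs (cgD4 K)) := by
  haveI := nontriv φ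
  have hp := perfect φ hφ h3 hK4
  rw [eq_Gs φ hφ h3] at hp
  exact isSimpleGroup (P := (R φ).bnp1 (cgD4 K)) ((R φ).irred1 (cgD4 K) adj adj') ((R φ).solvable_B1 (cgD4 K)) hp (core φ)

end CfsgLib.Chev.TwD4
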