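import Cfsg.Agent.Lib.ChevEm1
import Cfsg.Agent.Lib.TWD3
import Cfsg.Agent.Lib.CHO6
set_option autoImplicit false
set_option linter.style.haveILetI false
set_option maxRecDepth 1000000

/-! `G₂` as the group of fixed points of the triality graph automorphism of `D₄`. -/

namespace CfsgLib.Chev.EmG2
open Cfsg.Lie Matrix CfsgLib.BNP CfsgLib.PWM CfsgLib.Chev.GA CfsgLib.Chev CfsgLib.Chev.Em CfsgLib.Chev.TwD4

def It : List SV := [[(0, 1), (2, 1), (3, 1)], [(1, 1)], [(4, -1)], [(5, -1)], [(6, -1), (7, -1), (10, 1)], [(8, 1), (11, -1), (12, -1)], [(9, 1), (14, 1), (15, 1)], [(13, 1)], [(18, 1)], [(16, 1), (17, 1), (22, 1)], [(19, -1), (20, -1), (23, 1)], [(21, 1), (24, -1), (25, -1)], [(26, -1)], [(27, -1)]]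
def Ig (c : ℕ) : SV := It.getD c []
def piv (c : ℕ) : ℕ := ([0, 1, 4, 5, 6, 8, 9, 13, 18, 16, 19, 21, 26, 27] : List ℕ).getD c 0
def sgn (c : ℕ) : ℤ := ([1, 1, -1, -1, -1, 1, 1, 1, 1, 1, -1, 1, -1, -1] : List ℤ).getD c 1

theorem keyc : keyI chevD4 chevG2 Ig = true := by decide +kernel
theorem pivc : pivI chevD4 chevG2 Ig piv sgn = true := by decide +kernel
theorem g1 : chkG chevD4 chevG2 Ig TD4 TG2 0 [18, 13, 12] 7 = true := by decide +kernel
theorem g2 : chkG chevD4 chevG2 Ig TD4 TG2 0 [5, 10, 11] 4 = true := by decide +kernel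
theorem g3 : chkG chevD4 chevG2 Ig TD4 TG2 0 [14] 6 = true := by decide +kernel
theorem g4 : chkG chevD4 chevG2 Ig TD4 TG2 0 [9] 5 = true := by decide +kernel

section ord
variable {K : Type*} [Field K] [Fintype K]

local notation "φ₁" => RingHom.id K

theorem h3₁ : ∀ x : K, (RingHom.id K) ((RingHom.id K) ((RingHom.id K) x)) = x := fun _ => rfl

theorem card_Um0 : Nat.card (TN.Um (ta (RingHom.id K)) (cgD4 K) ((R (RingHom.id K)).n (0 : Fin 2))) = Fintype.card K := by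
  have hr : 14 < chevD4.nroots := by decide +kernel
  rw [← Nat.card_eq_fintype_card]
  refine (Nat.card_congr (Equiv.ofBijective (fun t : K =>
    (⟨xg chevD4 14 t, (mem_Um0 (RingHom.id K)).mpr ⟨t, rfl, rfl⟩⟩ :
      TN.Um (ta (RingHom.id K)) (cgD4 K) ((R (RingHom.id K)).n (0 : Fin 2)))) ⟨?_, ?_⟩)).symm
  · rintro t u h
    exact (cgD4 K).xg_inj hr (congrArg Subtype.val h)
  · rintro ⟨x, hx⟩
    obtain ⟨t, ht, rfl⟩ := (mem_Um0 (RingHom.id K)).mp hx
    exact ⟨t, rfl⟩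

theorem card_Um1 : Nat.card (TN.Um (ta (RingHom.id K)) (cgD4 K) ((R (RingHom.id K)).n (1 : Fin 2))) = Fintype.card K := by
  rw [← Nat.card_eq_fintype_card]
  refine (Nat.card_congr (Equiv.ofBijective (fun t : K =>
    (⟨_, (mem_Um1 (RingHom.id K) h3₁).mpr ⟨t, rfl⟩⟩ :
      TN.Um (ta (RingHom.id K)) (cgD4 K) ((R (RingHom.id K)).n (1 : Fin 2)))) ⟨?_, ?_⟩)).symm
  · intro t u h
    have h1 : xg chevD4 12 t * (xg chevD4 13 t * xg chevD4 18 t) =
      xg chevD4 12 u * (xg chevD4 13 u * xg chevD4 18 u) := congrArg Subtype.val h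
    have h3' : wg chevD4 ((Sl 1).map fun x => (x, (fun _ => t) x)) =
        wg chevD4 ((Sl 1).map fun x => (x, (fun _ => u) x)) := by
      change xg chevD4 12 t * (xg chevD4 13 t * (xg chevD4 18 t * 1)) =
        xg chevD4 12 u * (xg chevD4 13 u * (xg chevD4 18 u * 1))
      rw [mul_one, mul_one]
      exact h1
    exact (cgD4 K).form_unique' _ (of_decide_eq_true (srt 1)) _ _ h3' 18 (by decide)
  · rintro ⟨x, hx⟩
    obtain ⟨t, rfl⟩ := (mem_Um1 (RingHom.id K) h3₁).mp hx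
    exact ⟨t, rfl⟩

theorem card_Um (J : Fin 2) :
    Nat.card (TN.Um (ta (RingHom.id K)) (cgD4 K) ((R (RingHom.id K)).n J)) = Fintype.card K ^ ([1, 1].getD J.val 0) := by
  fin_cases J
  · exact card_Um0.trans (pow_one _).symm
  · exact card_Um1.trans (pow_one _).symm

theorem card_U : Nat.card ↥(chevD4.posUnipotent K ⊓ (ta (RingHom.id K)).Gs (cgD4 K)) = Fintype.card K ^ 6 := by
  rw [(R (RingHom.id K)).card_U (cgD4 K) chn tp]
  have h' : (L0.map fun J => Nat.card (TN.Um (ta (RingHom.id K)) (cgD4 K) ((R (RingHom.id K)).n J))).prod = Fintype.card K ^ 6 := by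
    have h : (L0.map fun J => Nat.card (TN.Um (ta (RingHom.id K)) (cgD4 K) ((R (RingHom.id K)).n J))) =
        L0.map fun J : Fin 2 => Fintype.card K ^ ([1, 1].getD J.val 0) :=
      List.map_congr_left (fun J _ => card_Um J)
    rw [h]
    generalize Fintype.card K = q
    change q ^ 1 * (q ^ 1 * (q ^ 1 * (q ^ 1 * (q ^ 1 * (q ^ 1 * 1))))) = _
    ring
  exact h'

theorem card_TT : Nat.card (TT (RingHom.id K)) = (Fintype.card K - 1) ^ 2 := by
  have h2 : Nat.card Kˣ = Fintype.card K - 1 := by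
    rw [Nat.card_units, Nat.card_eq_fintype_card]
  let f : TT (RingHom.id K) → Kˣ × Kˣ := fun c => (c.1 (I 1), c.1 (I 0))
  have hf : Function.Bijective f := by
    constructor
    · rintro ⟨c, hc⟩ ⟨d, hd⟩ h
      have hc' := (st_eq_iff (RingHom.id K) h3₁ c).mp hc
      have hd' := (st_eq_iff (RingHom.id K) h3₁ d).mp hd
      simp only [f, Prod.mk.injEq] at h
      obtain ⟨e1, e0⟩ := h
      apply Subtype.ext
      funext i
      change Fin 4 at i
      fin_cases i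
      · exact e0
      · exact e1
      · apply Units.ext
        change (c (I 2) : K) = d (I 2)
        rw [hc'.2.1, hd'.2.1, e0]
      · apply Units.ext
        change (c (I 3) : K) = d (I 3)
        rw [hc'.2.2, hd'.2.2, e0]
    · rintro ⟨u1, u0⟩
      let c : Fin chevD4.rank → Kˣ := (![u0, u1, u0, u0] : Fin 4 → Kˣ)
      exact ⟨⟨c, (st_eq_iff (RingHom.id K) h3₁ c).mpr ⟨rfl, rfl, rfl⟩⟩, rfl⟩
  rw [Nat.card_congr (Equiv.ofBijective f hf), Nat.card_prod, h2, pow_two]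

theorem card_H : Nat.card ↥(chevD4.diagonalSubgroup K ⊓ (ta (RingHom.id K)).Gs (cgD4 K)) = (Fintype.card K - 1) ^ 2 := by
  rw [← card_TT]
  refine (Nat.card_congr (Equiv.ofBijective (fun c : TT (RingHom.id K) =>
    (⟨hF chevD4 K c.1, ?_⟩ : ↥(chevD4.diagonalSubgroup K ⊓ (ta (RingHom.id K)).Gs (cgD4 K)))) ⟨?_, ?_⟩)).symm
  · refine Subgroup.mem_inf.mpr ⟨?_, ?_⟩
    · rw [← (cgD4 K).hF_range]; exact ⟨c.1, rfl⟩
    · rw [TA.mem_Gs]
      refine ⟨(cgD4 K).hF_mem_G c.1, ?_⟩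
      rw [(ta (RingHom.id K)).s_hF (cgD4 K), show (ta (RingHom.id K)).st c.1 = c.1 from c.2]
  · intro c d h
    have h1 : hF chevD4 K c.1 = hF chevD4 K d.1 := congrArg Subtype.val h
    have h2 : hF chevD4 K (c.1 * d.1⁻¹) = 1 := by rw [map_mul, map_inv, h1, mul_inv_cancel]
    have h4 := ker_triv (RingHom.id K) h3₁ (mul_mem c.2 (inv_mem d.2)) h2
    exact Subtype.ext (mul_inv_eq_one.mp h4)
  · rintro ⟨h, hh⟩
    obtain ⟨c, hc, he⟩ := torus (RingHom.id K) h3₁ hh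
    exact ⟨⟨c, hc⟩, Subtype.ext he⟩

def e0 : List (List (List ℤ × ℕ)) := [[([-1, 3], 1)], [([2, -3], 2)], [([-2, 3], 3)], [([1, -3], 4)], [([-1, 0], 5)]]

theorem t0 (q : ℕ) : 1 + sumL e0 q = q ^ 0 + q ^ 1 + q ^ 2 + q ^ 3 + q ^ 4 + q ^ 5 := by
  simp only [sumL, e0, List.flatten_cons, List.flatten_nil, List.cons_append, List.nil_append, List.map_cons, List.map_nil, List.sum_cons, List.sum_nil]
  ring

def e1 : List (List (List ℤ × ℕ)) := [[([1, -1], 1)]]

theorem t1 (q : ℕ) : 1 + sumL e1 q = q ^ 0 + q ^ 1 := by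
  simp only [sumL, e1, List.flatten_cons, List.flatten_nil, List.cons_append, List.nil_append, List.map_cons, List.map_nil, List.sum_cons, List.sum_nil]
  ring

def dt : List (Fin 2 × List (List (List ℤ × ℕ))) := [(0, e0), (1, e1)]

theorem chkd' : chkAllW 2 rows2 [1, 1] (List.finRange 2) dt = true := by decide +kernel

theorem order : Nat.card ↥((ta (RingHom.id K)).Gs (cgD4 K)) = Nat.card (chevG2.group K) := by
  have hq2 : 2 ≤ Fintype.card K := Fintype.one_lt_card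
  haveI : Finite ↥((ta (RingHom.id K)).Gs (cgD4 K)) := inferInstance
  have h1 := order_of_cox (P := (R (RingHom.id K)).bnp1 (cgD4 K)) (e2 (RingHom.id K)) (A := A12) (cx (RingHom.id K))
    rows_eq rows_len dt chkd' hq2 (by
    intro i
    have h3' := (R (RingHom.id K)).card_C1_gen (cgD4 K) i
    refine h3'.trans ?_
    congr 1
    exact card_Um i)
  have h2 := (R (RingHom.id K)).card_B1 (cgD4 K)
  have h4 := card_U (K := K)
  have h5 := card_H (K := K)
  have h6 := CfsgLib.Chev.Ord.ordG2 (F := K) rfl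
  rw [one_mul] at h6
  rw [h1, h2, h4, h5, h6]
  simp only [dt, List.map_cons, List.map_nil, List.prod_cons, List.prod_nil, t0, t1, mul_one]
  generalize Fintype.card K = q at *
  have a1 : 1 ≤ q := by omega
  have a2 : 1 ≤ q ^ 2 := Nat.one_le_pow _ _ (by omega)
  have a6 : 1 ≤ q ^ 6 := Nat.one_le_pow _ _ (by omega)
  zify [a1, a2, a6]
  ring

theorem mtriple {a b c : ℕ} (h1 : (a, b, 1, (1 : ℤ)) ∈ LD4) (h2 : (b, c, 1, (1 : ℤ)) ∈ LD4) (h4 : (c, a, 1, (1 : ℤ)) ∈ LD4)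
    (c1 : cmB chevD4 b a = true) (c2 : cmB chevD4 c a = true) (t : K) :
    wxp chevD4 [a, b, c] t ∈ (ta (RingHom.id K)).Gs (cgD4 K) := by
  have h := s_triple (RingHom.id K) h3₁ h1 h2 h4 c1 c2 t
  have e : wxp chevD4 [a, b, c] t = xg chevD4 a t * (xg chevD4 b t * xg chevD4 c t) := by
    unfold wxp
    simp
  rw [e]
  exact h

theorem msingle {a : ℕ} (h1 : (a, a, 1, (1 : ℤ)) ∈ LD4) (t : K) : wxp chevD4 [a] t ∈ (ta (RingHom.id K)).Gs (cgD4 K) := by
  have e : wxp chevD4 [a] t = xg chevD4 a t := by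
    unfold wxp
    simp
  rw [e, TA.mem_Gs]
  exact ⟨(cgD4 K).xg_mem_G _ _, s_x (RingHom.id K) h1 t⟩

theorem smpG : chevG2.simple 0 = 7 ∧ chevG2.simple 1 = 6 ∧ chevG2.neg 7 = 4 ∧ chevG2.neg 6 = 5 := by decide +kernel

theorem z0 : ((0 : ℕ) : K) = 0 := Nat.cast_zero

theorem iso : Nonempty (↥((ta (RingHom.id K)).Gs (cgD4 K)) ≃* chevG2.group K) := by
  obtain ⟨a1, a2, b1, b2, b3, b4, b5, b6⟩ := mem1
  obtain ⟨c1, c2, c3, c4, c5, c6, _⟩ := cm1
  obtain ⟨s0, s1, s2, s3⟩ := smpG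
  haveI : Finite ↥((ta (RingHom.id K)).Gs (cgD4 K)) := inferInstance
  refine iso_of (D := chevD4) (D' := chevG2) (I := Ig) (cgG2 K) pivc _ order.le ?_ ?_
  · intro i t
    change Fin 2 at i
    fin_cases i
    · refine ⟨wxp chevD4 [18, 13, 12] t, mtriple b1 b2 b3 c3 c2 t, ?_⟩
      change RI _ (xg chevG2 (chevG2.simple 0) t)
      rw [s0]
      exact RI.gen (cgD4 K) (cgG2 K) keyc z0 g1 t
    · refine ⟨wxp chevD4 [14] t, msingle a1 t, ?_⟩
      change RI _ (xg chevG2 (chevG2.simple 1) t)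
      rw [s1]
      exact RI.gen (cgD4 K) (cgG2 K) keyc z0 g3 t
  · intro i t
    change Fin 2 at i
    fin_cases i
    · refine ⟨wxp chevD4 [5, 10, 11] t, mtriple b4 b5 b6 c6 c5 t, ?_⟩
      change RI _ (xg chevG2 (chevG2.neg (chevG2.simple 0)) t)
      rw [s0, s2]
      exact RI.gen (cgD4 K) (cgG2 K) keyc z0 g2 t
    · refine ⟨wxp chevD4 [9] t, msingle a2 t, ?_⟩
      change RI _ (xg chevG2 (chevG2.neg (chevG2.simple 1)) t)
      rw [s1, s3]
      exact RI.gen (cgD4 K) (cgG2 K) keyc z0 g4 t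

end ord

end CfsgLib.Chev.EmG2
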