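import Cfsg.Agent.Lib.ChevAut13
set_option autoImplicit false
set_option linter.style.haveILetI false
set_option linter.unusedSectionVars false

/-! Graph automorphisms from signed permutations of the Chevalley basis. -/

namespace CfsgLib.Chev
open Cfsg.Lie Matrix

/-- columns of a signed permutation -/
noncomputable def vS (l : ℕ) (π ρ : List ℕ) (ε : List ℤ) (c : ℕ) : SV :=
  if c < l then [(π.getD c 0, 1)] else [(l + ρ.getD (c - l) 0, ε.getD (c - l) 0)]

/-- commutation with the element `ad e_r` -/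
noncomputable def spRow (l m : ℕ) (D : ChevalleyDatum) (T : Tab) (π ρ : List ℕ) (ε : List ℤ) (r : ℕ) : Bool :=
  force (l + r) fun g => force (l + ρ.getD r 0) fun g' => force (T.row1 g) fun R => force (T.row1 g') fun R' =>
    ball m fun c => zero (appApp (vS l π ρ ε) 1 (dec (hlD D) g (fld R c)) (appApp (fun x => dec (hlD D) g' (fld R' x)) (-1) (vS l π ρ ε c) []))

noncomputable def spChk (l n : ℕ) (D : ChevalleyDatum) (T : Tab) (π ρ : List ℕ) (ε : List ℤ) (π' ρ' : List ℕ) (ε' : List ℤ) : Bool :=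
  (ball (l + n) fun c => keysLt (l + n) (vS l π ρ ε c)) && (ball (l + n) fun c => keysLt (l + n) (vS l π' ρ' ε' c)) &&
  (ball (l + n) fun c => zero (appApp (vS l π ρ ε) 1 (vS l π' ρ' ε' c) [(c, -1)])) &&
  (ball l fun i => spRow l (l + n) D T π ρ ε (D.simple i) && spRow l (l + n) D T π ρ ε (D.neg (D.simple i)) &&
    Nat.beq (ρ.getD (D.simple i) 0) (D.simple (π.getD i 0)) && Nat.beq (ρ.getD (D.neg (D.simple i)) 0) (D.neg (D.simple (π.getD i 0))) &&
    Nat.blt (π.getD i 0) l && Nat.blt (π'.getD i 0) l && Nat.beq (π.getD (π'.getD i 0) 0) i)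

section
variable {D : ChevalleyDatum} {T : Tab} (N : NFacts D T) {π ρ : List ℕ} {ε : List ℤ} {π' ρ' : List ℕ} {ε' : List ℤ}
include N

theorem spRow_spec {r : ℕ} (hr : r < D.nroots) (hk : ∀ c < dim D, ∀ p ∈ vS D.rank π ρ ε c, p.1 < dim D)
    (hρ : ρ.getD r 0 < D.nroots)
    (h : spRow D.rank (D.rank + D.nroots) D T π ρ ε r = true) :
    matOf D (vS D.rank π ρ ε) * AM D T r = AM D T (ρ.getD r 0) * matOf D (vS D.rank π ρ ε) := by
  unfold AM
  rw [matOf_mul' D _ _ (N.keys1' (Facts.rlt hr)), matOf_mul' D _ _ hk]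
  ext i j
  rw [matOf_apply, matOf_apply]
  unfold spRow at h
  simp only [force_eq] at h
  have := zero_spec (ball_spec h (code D j) (code_lt D j)) (code D i)
  rw [coef_appApp, coef_appApp, coef_nil] at this
  rw [coef_appApp, coef_appApp, coef_nil]
  change 1 * (List.map (fun p => p.2 * coef (code D i) (vS D.rank π ρ ε p.1)) (br1 D T (D.rank + r) (code D j))).sum +
    (-1 * (List.map (fun p => p.2 * coef (code D i) (br1 D T (D.rank + ρ.getD r 0) p.1)) (vS D.rank π ρ ε (code D j))).sum + 0) = 0 at this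
  linear_combination this

theorem sp_B {P : Matrix D.Idx D.Idx ℤ} {r r' : ℕ} (hr : r < D.nroots) (hr' : r' < D.nroots) (h : P * AM D T r = AM D T r' * P) :
    P * BM D T r = BM D T r' * P := by
  apply smul_cancel (c := 2) (by norm_num)
  rw [← mul_smul_comm, ← (N.pow1 hr).1, ← mul_assoc, h, mul_assoc, h, ← mul_assoc, (N.pow1 hr').1, smul_mul_assoc]

theorem sp_C {P : Matrix D.Idx D.Idx ℤ} {r r' : ℕ} (hr : r < D.nroots) (hr' : r' < D.nroots) (h : P * AM D T r = AM D T r' * P) :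
    P * CM D T r = CM D T r' * P := by
  apply smul_cancel (c := 3) (by norm_num)
  rw [← mul_smul_comm, ← (N.pow1 hr).2.1, ← mul_assoc, h, mul_assoc, sp_B N hr hr' h, ← mul_assoc, (N.pow1 hr').2.1, smul_mul_assoc]

theorem sp_X {P : Matrix D.Idx D.Idx ℤ} {r r' : ℕ} (hr : r < D.nroots) (hr' : r' < D.nroots) (h : P * AM D T r = AM D T r' * P)
    {R : Type*} [CommRing R] (t : R) : φ D R P * XR D T R r t = XR D T R r' t * φ D R P := by
  rw [XR_eq, XR_eq]
  have m := fun {X Y : Matrix D.Idx D.Idx ℤ} (h : X = Y) => congrArg (φ D R) h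
  have h1 := m h
  have h2 := m (sp_B N hr hr' h)
  have h3 := m (sp_C N hr hr' h)
  rw [map_mul, map_mul] at h1 h2 h3
  simp only [mul_add, add_mul, mul_smul_comm, smul_mul_assoc, h1, h2, h3, mul_one, one_mul]

/-- the matrix facts from the check -/
theorem sp_spec (h : spChk D.rank D.nroots D T π ρ ε π' ρ' ε' = true) :
    ∃ P P' : Matrix D.Idx D.Idx ℤ, P * P' = 1 ∧
      (∀ i < D.rank, P * AM D T (D.simple i) = AM D T (D.simple (π.getD i 0)) * P ∧
        P * AM D T (D.neg (D.simple i)) = AM D T (D.neg (D.simple (π.getD i 0))) * P) ∧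
      (∀ i < D.rank, π.getD i 0 < D.rank ∧ π'.getD i 0 < D.rank ∧ π.getD (π'.getD i 0) 0 = i) := by
  unfold spChk at h
  rw [Bool.and_eq_true, Bool.and_eq_true, Bool.and_eq_true] at h
  obtain ⟨⟨⟨h1, h2⟩, h3⟩, h4⟩ := h
  have k1 : ∀ c < dim D, ∀ p ∈ vS D.rank π ρ ε c, p.1 < dim D := fun c hc => keysLt_spec (ball_spec h1 c hc)
  have k2 : ∀ c < dim D, ∀ p ∈ vS D.rank π' ρ' ε' c, p.1 < dim D := fun c hc => keysLt_spec (ball_spec h2 c hc)
  have h5 : ∀ i < D.rank, _ := fun i hi => ball_spec h4 i hi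
  simp only [Bool.and_eq_true] at h5
  refine ⟨matOf D (vS D.rank π ρ ε), matOf D (vS D.rank π' ρ' ε'), ?_, ?_, ?_⟩
  · rw [matOf_mul' D _ _ k2]
    ext i j
    rw [matOf_apply]
    have := zero_spec (ball_spec h3 (code D j) (code_lt D j)) (code D i)
    rw [coef_appApp, coef_cons, coef_nil] at this
    rw [coef_appApp, coef_nil, Matrix.one_apply]
    by_cases hij : i = j
    · rw [if_pos hij]
      rw [hij] at this ⊢
      simp only [if_true] at this
      linear_combination this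
    · rw [if_neg hij]
      have hne : code D j ≠ code D i := fun h' => hij (code_inj D h').symm
      simp only [hne, if_false] at this
      linear_combination this
  · intro i hi
    obtain ⟨⟨⟨⟨⟨⟨a1, a2⟩, a3⟩, a4⟩, a5⟩, -⟩, -⟩ := h5 i hi
    have e3 := Nat.eq_of_beq_eq_true a3
    have e4 := Nat.eq_of_beq_eq_true a4
    have hπ : π.getD i 0 < D.rank := Nat.blt_eq.mp a5
    have s1 := N.simple_lt i hi
    have s2 := N.simple_lt _ hπ
    refine ⟨?_, ?_⟩
    · rw [← e3]
      exact spRow_spec N s1 k1 (by rw [e3]; exact s2) a1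
    · rw [← e4]
      exact spRow_spec N (N.neg_lt s1) k1 (by rw [e4]; exact N.neg_lt s2) a2
  · intro i hi
    obtain ⟨⟨⟨-, a5⟩, a6⟩, a7⟩ := h5 i hi
    exact ⟨Nat.blt_eq.mp a5, Nat.blt_eq.mp a6, Nat.eq_of_beq_eq_true a7⟩

end

/-- graph automorphism from a signed permutation -/
theorem sp_aut {D : ChevalleyDatum} {F : Type*} [Field F] (M : CG D F) {T : Tab} (N : NFacts D T) {π ρ : List ℕ} {ε : List ℤ} {π' ρ' : List ℕ} {ε' : List ℤ}
    (h : spChk D.rank D.nroots D T π ρ ε π' ρ' ε' = true) :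
    ∃ α : ↥(D.group F) ≃* ↥(D.group F), ∀ i < D.rank, ∀ t : F,
      α (M.xG (D.simple i) t) = M.xG (D.simple (π.getD i 0)) t ∧
      α (M.xG (D.neg (D.simple i)) t) = M.xG (D.neg (D.simple (π.getD i 0))) t := by
  obtain ⟨P, P', h1, h2, h3⟩ := sp_spec N h
  have h1' : φ D F P * φ D F P' = 1 := by rw [← map_mul, h1, map_one]
  have h1'' : φ D F P' * φ D F P = 1 := mul_eq_one_comm.mp h1'
  let u : GL D.Idx F := ⟨φ D F P, φ D F P', h1', h1''⟩
  have hu : (u : Matrix D.Idx D.Idx F) = φ D F P := rfl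
  have k1 : ∀ i < D.rank, ∀ t : F, u * xg D (D.simple i) t * u⁻¹ = xg D (D.simple (π.getD i 0)) t := by
    intro i hi t
    have s1 := N.simple_lt i hi
    have s2 := N.simple_lt _ (h3 i hi).1
    rw [mul_inv_eq_iff_eq_mul]
    apply Units.ext
    rw [Units.val_mul, Units.val_mul, M.coe_xg, M.coe_xg, N.toFacts.x_eq s1, N.toFacts.x_eq s2, hu]
    exact sp_X N s1 s2 (h2 i hi).1 t
  have k2 : ∀ i < D.rank, ∀ t : F, u * xg D (D.neg (D.simple i)) t * u⁻¹ = xg D (D.neg (D.simple (π.getD i 0))) t := by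
    intro i hi t
    have s1 := N.neg_lt (N.simple_lt i hi)
    have s2 := N.neg_lt (N.simple_lt _ (h3 i hi).1)
    rw [mul_inv_eq_iff_eq_mul]
    apply Units.ext
    rw [Units.val_mul, Units.val_mul, M.coe_xg, M.coe_xg, N.toFacts.x_eq s1, N.toFacts.x_eq s2, hu]
    exact sp_X N s1 s2 (h2 i hi).2 t
  have g1 : ∀ g ∈ D.group F, u * g * u⁻¹ ∈ D.group F := by
    have := M.gen_simple ((D.group F).comap ((MulAut.conj u).toMonoidHom.comp (D.group F).subtype)) (fun i hi t => by
      change u * xg D (D.simple i) t * u⁻¹ ∈ D.group F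
      rw [k1 i hi]
      exact (M.xG _ _).2) (fun i hi t => by
      change u * xg D (D.neg (D.simple i)) t * u⁻¹ ∈ D.group F
      rw [k2 i hi]
      exact (M.xG _ _).2)
    intro g hg
    have h' : (⟨g, hg⟩ : ↥(D.group F)) ∈ ((D.group F).comap ((MulAut.conj u).toMonoidHom.comp (D.group F).subtype)) := by rw [this]; trivial
    exact h'
  have g2 : ∀ g ∈ D.group F, u⁻¹ * g * u ∈ D.group F := by
    have := M.gen_simple ((D.group F).comap ((MulAut.conj u⁻¹).toMonoidHom.comp (D.group F).subtype)) (fun i hi t => by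
      change u⁻¹ * xg D (D.simple i) t * (u⁻¹)⁻¹ ∈ D.group F
      have h4 := k1 _ (h3 i hi).2.1 t
      rw [(h3 i hi).2.2] at h4
      rw [← h4]
      have : u⁻¹ * (u * xg D (D.simple (π'.getD i 0)) t * u⁻¹) * (u⁻¹)⁻¹ = xg D (D.simple (π'.getD i 0)) t := by group
      rw [this]
      exact (M.xG _ _).2) (fun i hi t => by
      change u⁻¹ * xg D (D.neg (D.simple i)) t * (u⁻¹)⁻¹ ∈ D.group F
      have h4 := k2 _ (h3 i hi).2.1 t
      rw [(h3 i hi).2.2] at h4
      rw [← h4]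
      have : u⁻¹ * (u * xg D (D.neg (D.simple (π'.getD i 0))) t * u⁻¹) * (u⁻¹)⁻¹ = xg D (D.neg (D.simple (π'.getD i 0))) t := by group
      rw [this]
      exact (M.xG _ _).2)
    intro g hg
    have h' : (⟨g, hg⟩ : ↥(D.group F)) ∈ ((D.group F).comap ((MulAut.conj u⁻¹).toMonoidHom.comp (D.group F).subtype)) := by rw [this]; trivial
    have h'' : u⁻¹ * g * (u⁻¹)⁻¹ ∈ D.group F := h'
    rwa [inv_inv] at h''
  refine ⟨{ toFun := fun g => ⟨u * g * u⁻¹, g1 g g.2⟩, invFun := fun g => ⟨u⁻¹ * g * u, g2 g g.2⟩, left_inv := fun g => Subtype.ext (by group), right_inv := fun g => Subtype.ext (by group), map_mul' := fun g g' => Subtype.ext (by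
    change u * ((g : GL D.Idx F) * g') * u⁻¹ = (u * g * u⁻¹) * (u * g' * u⁻¹)
    group) }, fun i hi t => ⟨Subtype.ext (k1 i hi t), Subtype.ext (k2 i hi t)⟩⟩

end CfsgLib.Chev
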