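import Cfsg.Agent.Lib.ChevEm1
set_option autoImplicit false
set_option linter.style.haveILetI false

/-! Matrix representations of Chevalley groups lifting the adjoint group: the relation `g L(X) = L(g' X) g`. -/

namespace CfsgLib.Chev.Rep
open Cfsg.Lie Matrix CfsgLib.Chev CfsgLib.Chev.GA CfsgLib.Chev.Em

theorem dm {n x y i j : ℕ} (hy : y < n) (hj : j < n) : x * n + y = i * n + j ↔ x = i ∧ y = j := by
  constructor
  · intro h
    have hn : 0 < n := by omega
    have h1 : (x * n + y) / n = (i * n + j) / n := by rw [h]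
    have h2 : (x * n + y) % n = (i * n + j) % n := by rw [h]
    rw [mul_comm x, mul_comm i, Nat.mul_add_div hn, Nat.mul_add_div hn, Nat.div_eq_of_lt hy, Nat.div_eq_of_lt hj] at h1
    rw [mul_comm x, mul_comm i, Nat.mul_add_mod, Nat.mul_add_mod, Nat.mod_eq_of_lt hy, Nat.mod_eq_of_lt hj] at h2
    exact ⟨by omega, h2⟩
  · rintro ⟨rfl, rfl⟩; rfl

theorem dm' {n q i j : ℕ} (hj : j < n) : q = i * n + j ↔ q / n = i ∧ q % n = j := by
  have hn : 0 < n := by omega
  have h1 : q = (q / n) * n + q % n := (Nat.div_add_mod' q n).symm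
  conv_lhs => rw [h1]
  exact dm (Nat.mod_lt _ hn) hj

/-- the part of a product coming from one entry -/
def rm (n k : ℕ) (b : SV) : SV :=
  b.filterMap fun q => if k % n = q.1 / n then some ((k / n) * n + q.1 % n, q.2) else none

theorem coef_rm {n : ℕ} (k : ℕ) (b : SV) {i j : ℕ} (hj : j < n) :
    coef (i * n + j) (rm n k b) = if k / n = i then coef ((k % n) * n + j) b else 0 := by
  have hn : 0 < n := by omega
  induction b with
  | nil => simp [rm]
  | cons q b ih =>
    by_cases h : k % n = q.1 / n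
    · have e : rm n k (q :: b) = ((k / n) * n + q.1 % n, q.2) :: rm n k b := by
        unfold rm; rw [List.filterMap_cons, if_pos h]
      rw [e, coef_cons, coef_cons, ih]
      by_cases h1 : k / n = i
      · simp only [if_pos h1]
        congr 1
        by_cases h2 : q.1 % n = j
        · rw [if_pos ((dm (Nat.mod_lt _ hn) hj).mpr ⟨h1, h2⟩), if_pos ((dm' hj).mpr ⟨h.symm, h2⟩)]
        · rw [if_neg (fun h3 => h2 ((dm (Nat.mod_lt _ hn) hj).mp h3).2), if_neg (fun h3 => h2 ((dm' hj).mp h3).2)]
      · rw [if_neg (fun h3 => h1 ((dm (Nat.mod_lt _ hn) hj).mp h3).1), if_neg h1, if_neg h1, zero_add]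
    · have e : rm n k (q :: b) = rm n k b := by
        unfold rm; rw [List.filterMap_cons, if_neg h]
      rw [e, ih, coef_cons, if_neg (fun h3 => h ((dm' hj).mp h3).1.symm), zero_add]

theorem pair_rm {n : ℕ} (hn : 0 < n) (a : SV) (i : ℕ) (c : ℕ → ℤ) :
    pair a (fun k => if k / n = i then c (k % n) else 0) = ∑ l ∈ Finset.range n, coef (i * n + l) a * c l := by
  induction a with
  | nil => simp [pair_nil]
  | cons p a ih =>
    rw [pair_cons, ih]
    simp only [coef_cons, add_mul, Finset.sum_add_distrib]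
    congr 1
    by_cases h : p.1 / n = i
    · rw [if_pos h, Finset.sum_eq_single (p.1 % n)]
      · rw [if_pos ((dm' (Nat.mod_lt _ hn)).mpr ⟨h, rfl⟩)]
      · intro b hb hb'
        rw [if_neg (fun h3 => hb' ((dm' (Finset.mem_range.mp hb)).mp h3).2.symm), zero_mul]
      · intro h'
        exact absurd (Finset.mem_range.mpr (Nat.mod_lt _ hn)) h'
    · rw [if_neg h, mul_zero]
      symm
      apply Finset.sum_eq_zero
      intro b hb
      rw [if_neg (fun h3 => h ((dm' (Finset.mem_range.mp hb)).mp h3).1), zero_mul]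

/-- product of sparse matrices -/
noncomputable def mulS (n : ℕ) (a b : SV) : SV := lin (fun k => rm n k b) a

theorem coef_mulS {n : ℕ} (a b : SV) {i j : ℕ} (hj : j < n) :
    coef (i * n + j) (mulS n a b) = ∑ l ∈ Finset.range n, coef (i * n + l) a * coef (l * n + j) b := by
  unfold mulS
  rw [coef_lin, ← pair_rm (by omega) a i (fun l => coef (l * n + j) b)]
  congr 1
  funext k
  exact coef_rm k b hj

noncomputable def mulP (n : ℕ) : List SV → List SV → List SV
  | [], _ => []
  | v :: P, Q => addP (Q.map (mulS n v)) ([] :: mulP n P Q)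

section mat
variable {F : Type*} [Field F] {κ : Type} [Fintype κ] [DecidableEq κ] {n : ℕ} (e : κ ≃ Fin n)

/-- the matrix of a sparse table -/
noncomputable def toM (F : Type*) [Field F] (v : SV) : Matrix κ κ F :=
  Matrix.of fun i j => ((coef ((e i : ℕ) * n + (e j : ℕ)) v : ℤ) : F)

theorem toM_mulS (a b : SV) : toM e F (mulS n a b) = toM e F a * toM e F b := by
  ext i j
  rw [Matrix.mul_apply]
  simp only [toM, Matrix.of_apply]
  rw [coef_mulS a b (e j).2, Finset.sum_range, ← Equiv.sum_comp e]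
  push_cast
  rfl

theorem toM_append (a b : SV) : toM e F (a ++ b) = toM e F a + toM e F b := by
  ext i j
  simp only [toM, Matrix.of_apply, Matrix.add_apply, coef_append]
  push_cast
  rfl

theorem toM_nil : toM e F [] = 0 := by
  ext i j
  simp [toM]

/-- value of a polynomial matrix -/
noncomputable def evM (t : F) : List SV → Matrix κ κ F
  | [] => 0
  | v :: P => toM e F v + t • evM t P

theorem evM_apply (t : F) (P : List SV) (i j : κ) : evM e t P i j = ev t P ((e i : ℕ) * n + (e j : ℕ)) := by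
  induction P with
  | nil => rfl
  | cons v P ih =>
    simp only [evM, ev, Matrix.add_apply, Matrix.smul_apply, smul_eq_mul, ih]
    rfl

theorem evM_addP (t : F) (P Q : List SV) : evM e t (addP P Q) = evM e t P + evM e t Q := by
  ext i j
  rw [Matrix.add_apply, evM_apply, evM_apply, evM_apply, ev_addP]

theorem evM_negP (t : F) (P : List SV) : evM e t (negP P) = - evM e t P := by
  ext i j
  rw [Matrix.neg_apply, evM_apply, evM_apply, ev_negP]

theorem evM_map (t : F) (v : SV) (Q : List SV) : evM e t (Q.map (mulS n v)) = toM e F v * evM e t Q := by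
  induction Q with
  | nil => simp [evM]
  | cons w Q ih =>
    rw [List.map_cons]
    simp only [evM]
    rw [ih, toM_mulS, Matrix.mul_add, Matrix.mul_smul]

theorem evM_mulP (t : F) (P Q : List SV) : evM e t (mulP n P Q) = evM e t P * evM e t Q := by
  induction P with
  | nil => simp [mulP, evM]
  | cons v P ih =>
    rw [mulP, evM_addP, evM_map]
    simp only [evM]
    rw [ih, toM_nil, zero_add, Matrix.add_mul, Matrix.smul_mul]

theorem evM_zero {p : ℕ} (hp : (p : F) = 0) (t : F) (P : List SV) (h : P.all (modzB p) = true) :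
    evM e t P = 0 := by
  ext i j
  rw [evM_apply, ev_zero hp t P h, Matrix.zero_apply]

end mat

/-! ### The relation -/

section rel
variable (D : ChevalleyDatum) (I : ℕ → SV)

/-- the check for a generator: `P` is the polynomial matrix of the generator -/
noncomputable def chkR (T : Tab) (n p : ℕ) (P : List SV) (r : ℕ) : Bool :=
  decide (r < D.nroots) && (List.range (dim D)).all fun y =>
    (addP (mulP n P [I y]) (negP (mulP n [I y, lin I (br1 D T (D.rank + r) y), lin I (br2 T (D.rank + r) y),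
      lin I (br3 T (D.rank + r) y)] P))).all (modzB p)

variable {F : Type*} [Field F] {κ : Type} [Fintype κ] [DecidableEq κ] {n : ℕ} (e : κ ≃ Fin n)

/-- the linear map -/
noncomputable def Lm : (D.Idx → F) →ₗ[F] Matrix κ κ F where
  toFun X := ∑ y : D.Idx, X y • toM e F (I (code D y))
  map_add' X Y := by
    simp only [Pi.add_apply, add_smul, Finset.sum_add_distrib]
  map_smul' c X := by
    simp only [Pi.smul_apply, smul_eq_mul, mul_smul, Finset.smul_sum, RingHom.id_apply]

theorem Lm_apply (X : D.Idx → F) : Lm D I e X = ∑ y : D.Idx, X y • toM e F (I (code D y)) := rfl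

theorem Lm_single (y : D.Idx) : Lm D I e (Pi.single y (1 : F)) = toM e F (I (code D y)) := by
  rw [Lm_apply, Finset.sum_eq_single y]
  · rw [Pi.single_eq_same, one_smul]
  · intro z _ hz
    rw [Pi.single_eq_of_ne hz, zero_smul]
  · intro h; exact absurd (Finset.mem_univ _) h

/-- the relation -/
def Rr (g : GL κ F) (g' : GL D.Idx F) : Prop :=
  ∀ X : D.Idx → F, (g : Matrix κ κ F) * Lm D I e X = Lm D I e ((g' : Matrix D.Idx D.Idx F) *ᵥ X) * (g : Matrix κ κ F)

variable {D I e}

theorem Rr.one : Rr D I e (1 : GL κ F) 1 := by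
  intro X
  rw [Units.val_one, Units.val_one, Matrix.one_mulVec, Matrix.mul_one, Matrix.one_mul]

theorem Rr.mul {g h : GL κ F} {g' h' : GL D.Idx F} (H : Rr D I e g g') (H' : Rr D I e h h') :
    Rr D I e (g * h) (g' * h') := by
  intro X
  rw [Units.val_mul, Units.val_mul, ← Matrix.mulVec_mulVec, ← Matrix.mul_assoc, ← H, Matrix.mul_assoc, H', ← Matrix.mul_assoc]

theorem Rr.inv {g : GL κ F} {g' : GL D.Idx F} (H : Rr D I e g g') : Rr D I e g⁻¹ g'⁻¹ := by
  intro X
  have h1 := H (((g'⁻¹ : GL D.Idx F) : Matrix D.Idx D.Idx F) *ᵥ X)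
  have h2 : (g' : Matrix D.Idx D.Idx F) * ((g'⁻¹ : GL D.Idx F) : Matrix D.Idx D.Idx F) = 1 := by
    rw [← Units.val_mul, mul_inv_cancel, Units.val_one]
  have h3 : ((g⁻¹ : GL κ F) : Matrix κ κ F) * (g : Matrix κ κ F) = 1 := by
    rw [← Units.val_mul, inv_mul_cancel, Units.val_one]
  have h4 : (g : Matrix κ κ F) * ((g⁻¹ : GL κ F) : Matrix κ κ F) = 1 := by
    rw [← Units.val_mul, mul_inv_cancel, Units.val_one]
  rw [Matrix.mulVec_mulVec, h2, Matrix.one_mulVec] at h1
  calc ((g⁻¹ : GL κ F) : Matrix κ κ F) * Lm D I e X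
      = ((g⁻¹ : GL κ F) : Matrix κ κ F) * (Lm D I e X * (g : Matrix κ κ F)) * ((g⁻¹ : GL κ F) : Matrix κ κ F) := by
        rw [Matrix.mul_assoc, Matrix.mul_assoc, h4, Matrix.mul_one]
    _ = _ := by rw [← h1, ← Matrix.mul_assoc, h3, Matrix.one_mul]

theorem sum_col (M : CG D F) {r : ℕ} (hr : r < D.nroots) (t : F) (y : D.Idx) (c : ℕ) :
    ∑ z : D.Idx, (xg D r t : Matrix D.Idx D.Idx F) z y * ((coef c (I (code D z)) : ℤ) : F) =
      ev t [I (code D y), lin I (br1 D M.T (D.rank + r) (code D y)), lin I (br2 M.T (D.rank + r) (code D y)),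
        lin I (br3 M.T (D.rank + r) (code D y))] c := by
  rw [M.coe_xg, M.N.x_eq hr]
  have g1 := sum_lin (F := F) (M.N.keys1' (Facts.rlt hr) _ (code_lt D y)) I c
  have g2 := sum_lin (F := F) (M.N.keys2' (Facts.rlt hr) _ (code_lt D y)) I c
  have g3 := sum_lin (F := F) (M.N.keys3' (Facts.rlt hr) _ (code_lt D y)) I c
  have g0 : ∑ z : D.Idx, (if z = y then (1 : F) else 0) * ((coef c (I (code D z)) : ℤ) : F) =
      ((coef c (I (code D y)) : ℤ) : F) := by
    simp
  simp only [ev]
  rw [← g1, ← g2, ← g3, ← g0, mul_zero, add_zero]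
  simp only [XR_apply]
  simp only [Finset.mul_sum, mul_add, ← Finset.sum_add_distrib]
  refine Finset.sum_congr rfl fun z _ => ?_
  ring

theorem Rr.gen (M : CG D F) {p : ℕ} (hp : (p : F) = 0) {P : List SV} {r : ℕ}
    (h : chkR D I M.T n p P r = true) (t : F) {g : GL κ F} (hg : (g : Matrix κ κ F) = evM e t P) :
    Rr D I e g (xg D r t) := by
  unfold chkR at h
  rw [Bool.and_eq_true, List.all_eq_true, decide_eq_true_eq] at h
  obtain ⟨hr, h⟩ := h
  have key : ∀ y : D.Idx, (g : Matrix κ κ F) * Lm D I e (Pi.single y 1) =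
      Lm D I e ((xg D r t : Matrix D.Idx D.Idx F) *ᵥ Pi.single y 1) * (g : Matrix κ κ F) := by
    intro y
    have h1 := evM_zero e hp t _ (h (code D y) (List.mem_range.mpr (code_lt D y)))
    rw [evM_addP, evM_negP, evM_mulP, evM_mulP] at h1
    have e1 : evM e t [I (code D y)] = toM e F (I (code D y)) := by
      simp [evM]
    have e2 : Lm D I e ((xg D r t : Matrix D.Idx D.Idx F) *ᵥ Pi.single y 1) =
        evM e t [I (code D y), lin I (br1 D M.T (D.rank + r) (code D y)), lin I (br2 M.T (D.rank + r) (code D y)),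
        lin I (br3 M.T (D.rank + r) (code D y))] := by
      ext i j
      rw [evM_apply, ← sum_col M hr t y, Matrix.mulVec_single_one, Lm_apply, Matrix.sum_apply]
      refine Finset.sum_congr rfl fun z _ => ?_
      rw [Matrix.smul_apply, smul_eq_mul]
      rfl
    rw [Lm_single, e2, hg, ← e1]
    exact (add_neg_eq_zero.mp h1)
  intro X
  let f1 : (D.Idx → F) →ₗ[F] Matrix κ κ F :=
    { toFun := fun X => (g : Matrix κ κ F) * Lm D I e X
      map_add' := fun X Y => by rw [map_add, Matrix.mul_add]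
      map_smul' := fun c X => by rw [map_smul, Matrix.mul_smul, RingHom.id_apply] }
  let f2 : (D.Idx → F) →ₗ[F] Matrix κ κ F :=
    { toFun := fun X => Lm D I e ((xg D r t : Matrix D.Idx D.Idx F) *ᵥ X) * (g : Matrix κ κ F)
      map_add' := fun X Y => by rw [Matrix.mulVec_add, map_add, Matrix.add_mul]
      map_smul' := fun c X => by rw [Matrix.mulVec_smul, map_smul, Matrix.smul_mul, RingHom.id_apply] }
  have h2 : f1 = f2 := by
    apply (Pi.basisFun F D.Idx).ext
    intro y
    rw [Pi.basisFun_apply]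
    exact key y
  exact LinearMap.congr_fun h2 X

end rel

/-! ### The isomorphism -/

section final
variable {D : ChevalleyDatum} {I : ℕ → SV} {F : Type*} [Field F] {κ : Type} [Fintype κ] [DecidableEq κ] {n : ℕ}
  {e : κ ≃ Fin n}

theorem iso_rep (M : CG D F) (hZ : Subgroup.center ↥(D.group F) = ⊥)
    (huniq : ∀ g' ∈ D.group F, Rr D I e (1 : GL κ F) g' → g' = 1) (G1 : Subgroup (GL κ F))
    (S : Set (GL κ F)) (hS : G1 = Subgroup.closure S)
    (hrel : ∀ g ∈ S, ∃ g' ∈ D.group F, Rr D I e g g')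
    (hcomm : ∀ g ∈ G1, Rr D I e g 1 → ∀ s ∈ S, g * s = s * g)
    (h1 : ∀ (i : Fin D.rank) (t : F), ∃ g ∈ S, Rr D I e g (xg D (D.simple i) t))
    (h2 : ∀ (i : Fin D.rank) (t : F), ∃ g ∈ S, Rr D I e g (xg D (D.neg (D.simple i)) t)) :
    Nonempty (G1 ⧸ Subgroup.center G1 ≃* ↥(D.group F)) := by
  classical
  have hG0 : ∀ g ∈ Subgroup.closure S, ∃ g' : ↥(D.group F), Rr D I e g (g' : GL D.Idx F) := by
    intro g hg
    induction hg using Subgroup.closure_induction with
    | mem x hx =>
      obtain ⟨g', hg', h⟩ := hrel x hx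
      exact ⟨⟨g', hg'⟩, h⟩
    | one => exact ⟨1, Rr.one⟩
    | mul x y _ _ hx hy =>
      obtain ⟨x', hx'⟩ := hx
      obtain ⟨y', hy'⟩ := hy
      exact ⟨x' * y', hx'.mul hy'⟩
    | inv x _ hx =>
      obtain ⟨x', hx'⟩ := hx
      exact ⟨x'⁻¹, hx'.inv⟩
  have hG : ∀ g : G1, ∃ g' : ↥(D.group F), Rr D I e (g : GL κ F) (g' : GL D.Idx F) := by
    rintro ⟨g, hg⟩
    rw [hS] at hg
    exact hG0 g hg
  have huniq' : ∀ (g : GL κ F) (a b : ↥(D.group F)), Rr D I e g (a : GL D.Idx F) → Rr D I e g (b : GL D.Idx F) → a = b := by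
    intro g a b ha hb
    have h3 := ha.inv.mul hb
    rw [inv_mul_cancel] at h3
    have h4 := huniq _ (mul_mem (inv_mem a.2) b.2) h3
    exact Subtype.ext (inv_mul_eq_one.mp h4)
  choose f hf using hG
  let π : G1 →* ↥(D.group F) := MonoidHom.mk' f (fun a b => huniq' _ _ _ (hf (a * b)) ((hf a).mul (hf b)))
  have hsurj : Function.Surjective π := by
    have h3 : D.group F ≤ π.range.map (D.group F).subtype := by
      have key : ∀ {x : GL D.Idx F} (hx : x ∈ D.group F), (∃ g ∈ S, Rr D I e g x) → x ∈ π.range.map (D.group F).subtype := by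
        rintro x hx ⟨g, hg, hR⟩
        have hgG : g ∈ G1 := by rw [hS]; exact Subgroup.subset_closure hg
        have h4 : f ⟨g, hgG⟩ = ⟨x, hx⟩ := huniq' g _ _ (hf ⟨g, hgG⟩) hR
        exact ⟨⟨x, hx⟩, ⟨⟨g, hgG⟩, h4⟩, rfl⟩
      exact group_le_of_simple M (fun i t => key (M.xg_mem_G _ _) (h1 i t)) (fun i t => key (M.xg_mem_G _ _) (h2 i t))
    rintro ⟨x, hx⟩
    obtain ⟨y, ⟨g, hg⟩, hyx⟩ := h3 hx
    exact ⟨g, hg.trans (Subtype.ext hyx)⟩
  have hker : π.ker = Subgroup.center G1 := by
    ext g
    rw [MonoidHom.mem_ker]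
    constructor
    · intro h
      have h3 := hf g
      have h3' : f g = 1 := h
      rw [h3'] at h3
      have h4 := hcomm g g.2 h3
      rw [Subgroup.mem_center_iff]
      rintro ⟨x, hx⟩
      apply Subtype.ext
      change x * (g : GL κ F) = g * x
      have h5 : G1 ≤ Subgroup.centralizer {(g : GL κ F)} := by
        conv_lhs => rw [hS]
        rw [Subgroup.closure_le]
        intro s hs
        rw [SetLike.mem_coe, Subgroup.mem_centralizer_singleton_iff]
        exact (h4 s hs).symm
      have := h5 hx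
      rw [Subgroup.mem_centralizer_singleton_iff] at this
      exact this
    · intro h
      rw [Subgroup.mem_center_iff] at h
      have h3 : π g ∈ Subgroup.center ↥(D.group F) := by
        rw [Subgroup.mem_center_iff]
        intro x
        obtain ⟨y, rfl⟩ := hsurj x
        rw [← map_mul, ← map_mul, h y]
      rw [hZ] at h3
      exact Subgroup.mem_bot.mp h3
  exact ⟨(QuotientGroup.quotientMulEquivOfEq hker.symm).trans (QuotientGroup.quotientKerEquivOfSurjective π hsurj)⟩

end final

end CfsgLib.Chev.Rep
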