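import Cfsg.Agent.Lib.Quad14
set_option autoImplicit false
set_option linter.style.haveILetI false

/-! Generation of the group of Eichler transformations of the plus form by the root elements. -/

namespace CfsgLib.Chev.Rep
open CfsgLib.Quad Module Cfsg
open scoped commutatorElement

variable {F : Type*} [Field F] {m : ℕ}

/-- partner of a basis index -/
def pt (m : ℕ) : Fin m ⊕ Fin m → Fin m ⊕ Fin m := Sum.elim Sum.inr Sum.inl

theorem pt_pt (i : Fin m ⊕ Fin m) : pt m (pt m i) = i := by rcases i with i | i <;> rfl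
theorem pt_ne (i : Fin m ⊕ Fin m) : pt m i ≠ i := by rcases i with i | i <;> simp [pt]
theorem pt_eq_iff {i j : Fin m ⊕ Fin m} : pt m i = j ↔ i = pt m j := by
  constructor
  · rintro rfl; exact (pt_pt i).symm
  · rintro rfl; exact pt_pt j

/-- basis vector -/
def bv (F : Type*) [Field F] (m : ℕ) (i : Fin m ⊕ Fin m) : Fin m ⊕ Fin m → F := Pi.single i 1

theorem QP_bv (i : Fin m ⊕ Fin m) : QP m F (bv F m i) = 0 := by
  rw [QP_apply]
  unfold quadFormPlus bv
  apply Finset.sum_eq_zero
  intro j _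
  rcases i with i | i
  · rw [Pi.single_eq_of_ne (i := Sum.inl i) (i' := Sum.inr j) (by simp), mul_zero]
  · rw [Pi.single_eq_of_ne (i := Sum.inr i) (i' := Sum.inl j) (by simp), zero_mul]

theorem polar_bv (i : Fin m ⊕ Fin m) (x : Fin m ⊕ Fin m → F) :
    QuadraticMap.polarBilin (QP m F) (bv F m i) x = x (pt m i) := by
  change QuadraticMap.polar (QP m F) (bv F m i) x = _
  unfold QuadraticMap.polar
  rw [QP_bv, sub_zero, QP_apply, QP_apply]
  unfold quadFormPlus
  rw [← Finset.sum_sub_distrib]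
  rcases i with i | i
  · rw [Finset.sum_eq_single i]
    · simp [bv, pt]; ring
    · intro j _ hj
      have h1 : (bv F m (Sum.inl i)) (Sum.inl j) = 0 := by
        unfold bv; rw [Pi.single_eq_of_ne]; simpa using hj
      have h2 : (bv F m (Sum.inl i)) (Sum.inr j) = 0 := by
        unfold bv; rw [Pi.single_eq_of_ne]; simp
      rw [Pi.add_apply, Pi.add_apply, h1, h2]; ring
    · intro h; exact absurd (Finset.mem_univ _) h
  · rw [Finset.sum_eq_single i]
    · simp [bv, pt]; ring
    · intro j _ hj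
      have h1 : (bv F m (Sum.inr i)) (Sum.inr j) = 0 := by
        unfold bv; rw [Pi.single_eq_of_ne]; simpa using hj
      have h2 : (bv F m (Sum.inr i)) (Sum.inl j) = 0 := by
        unfold bv; rw [Pi.single_eq_of_ne]; simp
      rw [Pi.add_apply, Pi.add_apply, h1, h2]; ring
    · intro h; exact absurd (Finset.mem_univ _) h

theorem polar_bv_smul {i j : Fin m ⊕ Fin m} (h : j ≠ pt m i) (c : F) :
    QuadraticMap.polarBilin (QP m F) (bv F m i) (c • bv F m j) = 0 := by
  rw [polar_bv]
  unfold bv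
  rw [Pi.smul_apply, Pi.single_eq_of_ne (Ne.symm h), smul_zero]

/-- the group of Eichler transformations is generated by those of basis vectors -/
theorem eichG_le_of_basis (H : Subgroup (O (QP m F)))
    (hH : ∀ (i j : Fin m ⊕ Fin m) (h : j ≠ pt m i), j ≠ i → ∀ c : F, eichO (QP_bv (F := F) i) (polar_bv_smul h c) ∈ H) :
    eichG (QP m F) ≤ H := by
  classical
  -- all transformations with centre a basis vector
  have h1 : ∀ (i : Fin m ⊕ Fin m) (s : Finset (Fin m ⊕ Fin m)) (y : Fin m ⊕ Fin m → F), pt m i ∉ s → (∀ j, j ∉ s → y j = 0) →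
      ∀ hy : QuadraticMap.polarBilin (QP m F) (bv F m i) y = 0, eichO (QP_bv i) hy ∈ H := by
    intro i s
    induction s using Finset.induction_on with
    | empty =>
      intro y _ h0 hy
      have h3 : eichO (QP_bv i) hy = 1 := by
        have hz : y = (0 : F) • bv F m i := by
          funext j; rw [h0 j (by simp), zero_smul]; rfl
        subst hz
        exact eichO_eq_one _ _ _
      rw [h3]; exact one_mem _
    | insert j s hj ih =>
      intro y hi h0 hy
      have hi1 : pt m i ≠ j := fun h => hi (by rw [h]; exact Finset.mem_insert_self _ _)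
      have hi2 : pt m i ∉ s := fun h => hi (Finset.mem_insert_of_mem h)
      let y' : Fin m ⊕ Fin m → F := y - (y j) • bv F m j
      have hsum : (y j) • bv F m j + y' = y := by
        change (y j) • bv F m j + (y - (y j) • bv F m j) = y
        abel
      have hp1 := polar_bv_smul (F := F) (i := i) (j := j) (Ne.symm hi1) (y j)
      have hp2 : QuadraticMap.polarBilin (QP m F) (bv F m i) y' = 0 := by
        rw [_root_.map_sub, hy, hp1, sub_zero]
      have e1 := eichO_mul (QP_bv i) hp1 hp2 (by rw [hsum]; exact hy)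
      have e2 : eichO (QP_bv i) hy = eichO (QP_bv i) hp1 * eichO (QP_bv i) hp2 := by
        rw [e1]
        apply eichO_congr
        · rfl
        · exact hsum.symm
      rw [e2]
      apply mul_mem
      · by_cases hji : j = i
        · subst hji
          rw [eichO_eq_one]
          exact one_mem _
        · exact hH i j (Ne.symm hi1) hji _
      · apply ih y' hi2
        intro k hk
        change y k - ((y j) • bv F m j) k = 0
        by_cases hkj : k = j
        · subst hkj
          unfold bv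
          rw [Pi.smul_apply, Pi.single_eq_same, smul_eq_mul, mul_one, sub_self]
        · have : (bv F m j) k = 0 := by unfold bv; rw [Pi.single_eq_of_ne hkj]
          rw [Pi.smul_apply, this, smul_zero, sub_zero]
          exact h0 k (by rw [Finset.mem_insert]; push Not; exact ⟨hkj, hk⟩)
  have h2 : ∀ (i : Fin m ⊕ Fin m) (y : Fin m ⊕ Fin m → F) (hy : QuadraticMap.polarBilin (QP m F) (bv F m i) y = 0),
      eichO (QP_bv i) hy ∈ H := by
    intro i y hy
    apply h1 i (Finset.univ.erase (pt m i)) y (by simp)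
    intro j hj
    have : j = pt m i := by
      by_contra h
      exact hj (Finset.mem_erase.mpr ⟨h, Finset.mem_univ _⟩)
    rw [this, ← polar_bv i y, hy]
  -- every singular vector is moved to a multiple of a basis vector
  have h3 : ∀ u : Fin m ⊕ Fin m → F, u ≠ 0 → QP m F u = 0 → ∃ g ∈ H, ∃ (k : Fin m ⊕ Fin m) (a : F), a ≠ 0 ∧ g.1 u = a • bv F m k := by
    intro u hu hQ
    obtain ⟨k, hk⟩ : ∃ k, u k ≠ 0 := by
      by_contra h
      push Not at h
      exact hu (funext h)
    let i := pt m k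
    have hik : i ≠ k := pt_ne k
    have hpi : pt m i = k := pt_pt k
    let w : Fin m ⊕ Fin m → F := u - u k • bv F m k - u i • bv F m i
    have hwk : w k = 0 := by
      change u k - (u k • bv F m k) k - (u i • bv F m i) k = 0
      unfold bv
      rw [Pi.smul_apply, Pi.smul_apply, Pi.single_eq_same, Pi.single_eq_of_ne (Ne.symm hik)]
      simp
    let y : Fin m ⊕ Fin m → F := (-(u k)⁻¹) • w
    have hy : QuadraticMap.polarBilin (QP m F) (bv F m i) y = 0 := by
      rw [polar_bv, hpi]
      change (-(u k)⁻¹) • w k = 0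
      rw [hwk, smul_zero]
    refine ⟨eichO (QP_bv i) hy, h2 i y hy, k, u k, hk, ?_⟩
    have hi : QuadraticMap.polarBilin (QP m F) (bv F m i) u = u k := by rw [polar_bv, hpi]
    have e1 := eichO_apply (QP_bv (F := F) i) hy u
    rw [hi] at e1
    have e2 : u + u k • y = u k • bv F m k + u i • bv F m i := by
      change u + u k • ((-(u k)⁻¹) • (u - u k • bv F m k - u i • bv F m i)) = _
      rw [smul_smul, mul_neg, mul_inv_cancel₀ hk]
      module
    have e3 : ∃ c : F, (eichO (QP_bv (F := F) i) hy).1 u = u k • bv F m k + c • bv F m i := by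
      refine ⟨u i + (-QuadraticMap.polarBilin (QP m F) y u - QP m F y * u k), ?_⟩
      rw [e1, add_smul, ← add_assoc, ← e2]
    obtain ⟨c, hc⟩ := e3
    have e4 : QP m F ((eichO (QP_bv (F := F) i) hy).1 u) = 0 := by
      rw [map_coe, hQ]
    rw [hc, CfsgLib.Quad.map_add, CfsgLib.Quad.map_smul, CfsgLib.Quad.map_smul, QP_bv, QP_bv, mul_zero, mul_zero, zero_add,
      zero_add] at e4
    have e5 : QuadraticMap.polarBilin (QP m F) (u k • bv F m k) (c • bv F m i) = u k * c := by
      rw [_root_.map_smul, _root_.map_smul, LinearMap.smul_apply, polar_bv]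
      change c • (u k • (bv F m i) i) = u k * c
      unfold bv
      rw [Pi.single_eq_same, smul_eq_mul, smul_eq_mul, mul_one, mul_comm]
    rw [e5] at e4
    have hc0 : c = 0 := (mul_eq_zero.mp e4).resolve_left hk
    rw [hc, hc0, zero_smul, add_zero]
  -- conclusion
  unfold eichG
  rw [Subgroup.closure_le]
  rintro g ⟨u, y, hu, huy, rfl⟩
  by_cases h0 : u = 0
  · subst h0
    have : eichO hu huy = 1 := by
      apply O_ext
      intro x
      rw [eichO_apply]
      simp
    rw [this]
    exact one_mem _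
  · obtain ⟨g, hg, k, a, ha, hgu⟩ := h3 u h0 hu
    have e1 := eichO_conj g hu huy
    have e2 : g * eichO hu huy * g⁻¹ ∈ H := by
      rw [e1]
      have hq1 : QP m F (a • bv F m k) = 0 := by rw [← hgu, map_coe, hu]
      have hq2 : QuadraticMap.polarBilin (QP m F) (a • bv F m k) (g.1 y) = 0 := by
        rw [← hgu]; exact (polar_coe _ g u y).trans huy
      have hq4 : QuadraticMap.polarBilin (QP m F) (bv F m k) (g.1 y) = 0 := by
        rw [_root_.map_smul, LinearMap.smul_apply, smul_eq_mul] at hq2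
        exact (mul_eq_zero.mp hq2).resolve_left ha
      have hq3 : QuadraticMap.polarBilin (QP m F) (bv F m k) (a • g.1 y) = 0 := by
        rw [_root_.map_smul, hq4, smul_zero]
      have e3 := eichO_smul (QP_bv (F := F) k) hq4 a hq1 hq2 hq3
      have e4 := eichO_congr (u' := a • bv F m k) (y' := g.1 y) (by rw [map_coe, hu]) (by rw [polar_coe]; exact huy) hq1 hq2 hgu rfl
      rw [e4, e3]
      exact h2 k _ _
    have e5 : eichO hu huy = g⁻¹ * (g * eichO hu huy * g⁻¹) * g := by group
    rw [SetLike.mem_coe, e5]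
    exact mul_mem (mul_mem (inv_mem hg) e2) hg

/-! ### The commutator subgroup of the orthogonal group of plus type over any field -/

theorem bv_same (i : Fin m ⊕ Fin m) : bv F m i i = 1 := by unfold bv; rw [Pi.single_eq_same]
theorem bv_ne {i j : Fin m ⊕ Fin m} (h : j ≠ i) : bv F m i j = 0 := by unfold bv; rw [Pi.single_eq_of_ne h]

theorem Q_ab (k : Fin m ⊕ Fin m) (a c : F) : QP m F (a • bv F m k + c • bv F m (pt m k)) = a * c := by
  rw [CfsgLib.Quad.map_add, CfsgLib.Quad.map_smul, CfsgLib.Quad.map_smul, QP_bv, QP_bv, mul_zero, mul_zero, zero_add, zero_add,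
    _root_.map_smul, _root_.map_smul, LinearMap.smul_apply, polar_bv, bv_same]
  simp only [smul_eq_mul]
  ring

/-- first elimination -/
theorem T1 (u : Fin m ⊕ Fin m → F) {k : Fin m ⊕ Fin m} (hk : u k ≠ 0) :
    ∃ g ∈ eichG (QP m F), ∃ d : F, g.1 u = u k • bv F m k + d • bv F m (pt m k) := by
  have hik : pt m k ≠ k := pt_ne k
  have hpi : pt m (pt m k) = k := pt_pt k
  let w : Fin m ⊕ Fin m → F := u - u k • bv F m k - u (pt m k) • bv F m (pt m k)
  have hwk : w k = 0 := by
    change u k - (u k • bv F m k) k - (u (pt m k) • bv F m (pt m k)) k = 0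
    rw [Pi.smul_apply, Pi.smul_apply, bv_same, bv_ne (Ne.symm hik)]
    simp
  let y : Fin m ⊕ Fin m → F := (-(u k)⁻¹) • w
  have hy : QuadraticMap.polarBilin (QP m F) (bv F m (pt m k)) y = 0 := by
    rw [polar_bv, hpi]
    change (-(u k)⁻¹) • w k = 0
    rw [hwk, smul_zero]
  refine ⟨eichO (QP_bv (pt m k)) hy, eichO_mem _ _, ?_⟩
  have hi : QuadraticMap.polarBilin (QP m F) (bv F m (pt m k)) u = u k := by rw [polar_bv, hpi]
  have e1 := eichO_apply (QP_bv (F := F) (pt m k)) hy u
  rw [hi] at e1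
  have e2 : u + u k • y = u k • bv F m k + u (pt m k) • bv F m (pt m k) := by
    change u + u k • ((-(u k)⁻¹) • (u - u k • bv F m k - u (pt m k) • bv F m (pt m k))) = _
    rw [smul_smul, mul_neg, mul_inv_cancel₀ hk]
    module
  refine ⟨u (pt m k) + (-QuadraticMap.polarBilin (QP m F) y u - QP m F y * u k), ?_⟩
  rw [e1, add_smul, ← add_assoc, ← e2]

/-- second elimination -/
theorem T2 {k l : Fin m ⊕ Fin m} (h1 : l ≠ k) (h2 : l ≠ pt m k) {a d : F} (ha : a ≠ 0) :
    ∃ g ∈ eichG (QP m F), g.1 (a • bv F m k + d • bv F m (pt m k)) = bv F m l + (a * d) • bv F m (pt m l) := by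
  have hpi : pt m (pt m k) = k := pt_pt k
  set u := a • bv F m k + d • bv F m (pt m k) with hu
  have hy : QuadraticMap.polarBilin (QP m F) (bv F m (pt m k)) (a⁻¹ • bv F m l) = 0 := by
    apply polar_bv_smul
    rw [hpi]; exact h1
  have e1 := eichO_apply (QP_bv (F := F) (pt m k)) hy u
  have hi : QuadraticMap.polarBilin (QP m F) (bv F m (pt m k)) u = a := by
    rw [polar_bv, hpi, hu, Pi.add_apply, Pi.smul_apply, Pi.smul_apply, bv_same, bv_ne (Ne.symm (pt_ne k))]
    simp
  rw [hi] at e1
  have hl : ((eichO (QP_bv (F := F) (pt m k)) hy).1 u) l = 1 := by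
    rw [e1, Pi.add_apply, Pi.add_apply, Pi.smul_apply, Pi.smul_apply, Pi.smul_apply, bv_same, bv_ne h2, hu, Pi.add_apply,
      Pi.smul_apply, Pi.smul_apply, bv_ne h1, bv_ne h2]
    simp only [smul_eq_mul, mul_zero, mul_one, add_zero, zero_add]
    exact mul_inv_cancel₀ ha
  obtain ⟨g, hg, d', hgd⟩ := T1 ((eichO (QP_bv (F := F) (pt m k)) hy).1 u) (k := l) (by rw [hl]; exact one_ne_zero)
  refine ⟨g * eichO (QP_bv (F := F) (pt m k)) hy, mul_mem hg (eichO_mem _ _), ?_⟩
  have e2 : (g * eichO (QP_bv (F := F) (pt m k)) hy).1 u = g.1 ((eichO (QP_bv (F := F) (pt m k)) hy).1 u) := rfl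
  rw [e2, hgd, hl]
  have h3 : QP m F (g.1 ((eichO (QP_bv (F := F) (pt m k)) hy).1 u)) = QP m F u := by
    rw [map_coe, map_coe]
  rw [hgd, hl, Q_ab, hu, Q_ab, one_mul] at h3
  rw [h3, one_smul]

theorem exists_other (hm : 2 ≤ m) (k : Fin m ⊕ Fin m) : ∃ l : Fin m ⊕ Fin m, l ≠ k ∧ l ≠ pt m k := by
  haveI : Nontrivial (Fin m) := Fin.nontrivial_iff_two_le.mpr hm
  rcases k with i | i
  · obtain ⟨j, hj⟩ := exists_ne i
    exact ⟨Sum.inl j, by simpa using hj, by simp [pt]⟩
  · obtain ⟨j, hj⟩ := exists_ne i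
    exact ⟨Sum.inl j, by simp, by simpa [pt] using hj⟩

/-- transitivity on the vectors of given non-zero norm -/
theorem T3 (hm : 2 ≤ m) {w : Fin m ⊕ Fin m → F} (hw : QP m F w ≠ 0) (l : Fin m ⊕ Fin m) :
    ∃ g ∈ eichG (QP m F), g.1 w = bv F m l + (QP m F w) • bv F m (pt m l) := by
  obtain ⟨k, hk⟩ : ∃ k, w k ≠ 0 := by
    by_contra h
    push Not at h
    apply hw
    have : w = 0 := funext h
    rw [this, QuadraticMap.map_zero]
  obtain ⟨g, hg, d, hgd⟩ := T1 w hk
  have hQ : w k * d = QP m F w := by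
    rw [← Q_ab, ← hgd, map_coe]
  by_cases hc : l ≠ k ∧ l ≠ pt m k
  · obtain ⟨g', hg', h'⟩ := T2 hc.1 hc.2 hk (d := d)
    refine ⟨g' * g, mul_mem hg' hg, ?_⟩
    have e2 : (g' * g).1 w = g'.1 (g.1 w) := rfl
    rw [e2, hgd, h', hQ]
  · obtain ⟨l2, h1, h2⟩ := exists_other hm k
    obtain ⟨g', hg', h'⟩ := T2 h1 h2 hk (d := d)
    rw [hQ] at h'
    have h3 : l ≠ l2 ∧ l ≠ pt m l2 := by
      constructor
      · rintro rfl; exact hc ⟨h1, h2⟩
      · rintro rfl
        apply hc
        refine ⟨?_, ?_⟩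
        · intro h; exact h2 (by rw [← h, pt_pt])
        · intro h; exact h1 (by rw [← pt_pt l2, h, pt_pt])
    obtain ⟨g'', hg'', h''⟩ := T2 h3.1 h3.2 (one_ne_zero : (1 : F) ≠ 0) (d := QP m F w)
    rw [one_smul, one_mul] at h''
    refine ⟨g'' * (g' * g), mul_mem hg'' (mul_mem hg' hg), ?_⟩
    have e2 : (g'' * (g' * g)).1 w = g''.1 (g'.1 (g.1 w)) := rfl
    rw [e2, hgd, h', h'']

theorem commutator_le_eich (hm : 2 ≤ m) : commutator (O (QP m F)) ≤ eichG (QP m F) := by
  have hN := eichG_normal (QP m F)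
  have hQn := QP_nondegenerate (F := F) m
  have hcl : ∀ {w w' : Fin m ⊕ Fin m → F} (hw : QP m F w ≠ 0) (hw' : QP m F w' ≠ 0) {g : O (QP m F)}, g ∈ eichG (QP m F) →
      g.1 w = w' → QuotientGroup.mk' (eichG (QP m F)) (reflO hw) = QuotientGroup.mk' (eichG (QP m F)) (reflO hw') := by
    intro w w' hw hw' g hg hgw
    have h3 := reflO_conj g hw
    have h4 : g * reflO hw * g⁻¹ = reflO hw' := by
      rw [h3]
      congr 1
    rw [← h4, _root_.map_mul, _root_.map_mul]
    have h5 : QuotientGroup.mk' (eichG (QP m F)) g = 1 := (QuotientGroup.eq_one_iff g).mpr hg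
    rw [_root_.map_inv, h5, one_mul, inv_one, mul_one]
  have h1 : ∀ (v w : Fin m ⊕ Fin m → F) (hv : QP m F v ≠ 0) (hw : QP m F w ≠ 0),
      QuotientGroup.mk' (eichG (QP m F)) (reflO hv) * QuotientGroup.mk' (eichG (QP m F)) (reflO hw) =
      QuotientGroup.mk' (eichG (QP m F)) (reflO hw) * QuotientGroup.mk' (eichG (QP m F)) (reflO hv) := by
    intro v w hv hw
    let l : Fin m ⊕ Fin m := Sum.inl ⟨0, by omega⟩
    obtain ⟨k, hk1, hk2⟩ := exists_other hm l
    obtain ⟨g1, hg1, e1⟩ := T3 hm hv l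
    obtain ⟨g2, hg2, e2⟩ := T3 hm hw k
    have hv' : QP m F (bv F m l + (QP m F v) • bv F m (pt m l)) ≠ 0 := by rw [← e1, map_coe]; exact hv
    have hw' : QP m F (bv F m k + (QP m F w) • bv F m (pt m k)) ≠ 0 := by rw [← e2, map_coe]; exact hw
    rw [hcl hv hv' hg1 e1, hcl hw hw' hg2 e2, ← _root_.map_mul, ← _root_.map_mul]
    congr 1
    have hort : QuadraticMap.polarBilin (QP m F) (bv F m l + (QP m F v) • bv F m (pt m l))
        (bv F m k + (QP m F w) • bv F m (pt m k)) = 0 := by
      have a1 : pt m l ≠ k := fun h => hk2 h.symm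
      have a2 : l ≠ k := fun h => hk1 h.symm
      have a3 : pt m l ≠ pt m k := fun h => a2 (by rw [← pt_pt l, h, pt_pt])
      have a4 : l ≠ pt m k := fun h => a1 (by rw [h, pt_pt])
      rw [LinearMap.map_add₂, LinearMap.map_smul₂, polar_bv, polar_bv, pt_pt,
        Pi.add_apply, Pi.add_apply, Pi.smul_apply, Pi.smul_apply, bv_ne a1, bv_ne a2, bv_ne a3, bv_ne a4]
      simp
    have h6 := reflO_conj (reflO hv') hw'
    have h7 : reflO hv' * reflO hw' * (reflO hv')⁻¹ = reflO hw' := by
      rw [h6]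
      congr 1
      exact reflO_of_orthogonal hv' hort
    exact mul_inv_eq_iff_eq_mul.mp h7
  have h2 : ∀ (v : Fin m ⊕ Fin m → F) (hv : QP m F v ≠ 0) (g : O (QP m F)),
      QuotientGroup.mk' (eichG (QP m F)) (reflO hv) * QuotientGroup.mk' (eichG (QP m F)) g =
      QuotientGroup.mk' (eichG (QP m F)) g * QuotientGroup.mk' (eichG (QP m F)) (reflO hv) := by
    intro v hv
    have h3 : (Subgroup.centralizer {QuotientGroup.mk' (eichG (QP m F)) (reflO hv)}).comap
        (QuotientGroup.mk' (eichG (QP m F))) = ⊤ := by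
      apply eq_top_of_reflO_eichO hQn
      · intro w hw
        rw [Subgroup.mem_comap, Subgroup.mem_centralizer_singleton_iff]
        exact (h1 v w hv hw).symm
      · intro u y hu huy
        rw [Subgroup.mem_comap, show QuotientGroup.mk' (eichG (QP m F)) (eichO hu huy) = 1 from
          (QuotientGroup.eq_one_iff _).mpr (eichO_mem hu huy)]
        exact one_mem _
    intro g
    have h4 : g ∈ (Subgroup.centralizer {QuotientGroup.mk' (eichG (QP m F)) (reflO hv)}).comap
        (QuotientGroup.mk' (eichG (QP m F))) := by rw [h3]; trivial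
    rw [Subgroup.mem_comap, Subgroup.mem_centralizer_singleton_iff] at h4
    exact h4.symm
  have h3 : (Subgroup.center (O (QP m F) ⧸ eichG (QP m F))).comap (QuotientGroup.mk' (eichG (QP m F))) = ⊤ := by
    apply eq_top_of_reflO_eichO hQn
    · intro w hw
      rw [Subgroup.mem_comap, Subgroup.mem_center_iff]
      intro x
      obtain ⟨g, rfl⟩ := QuotientGroup.mk'_surjective _ x
      exact (h2 w hw g).symm
    · intro u y hu huy
      rw [Subgroup.mem_comap, show QuotientGroup.mk' (eichG (QP m F)) (eichO hu huy) = 1 from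
        (QuotientGroup.eq_one_iff _).mpr (eichO_mem hu huy)]
      exact one_mem _
  rw [commutator_eq_closure, Subgroup.closure_le]
  rintro _ ⟨a, b, rfl⟩
  have ha : a ∈ (Subgroup.center (O (QP m F) ⧸ eichG (QP m F))).comap (QuotientGroup.mk' (eichG (QP m F))) := by
    rw [h3]; trivial
  rw [Subgroup.mem_comap, Subgroup.mem_center_iff] at ha
  change ⁅a, b⁆ ∈ eichG (QP m F)
  rw [← QuotientGroup.eq_one_iff]
  change QuotientGroup.mk' (eichG (QP m F)) ⁅a, b⁆ = 1
  rw [map_commutatorElement, commutatorElement_eq_one_iff_mul_comm]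
  exact (ha _).symm

theorem exists_other2 (hm : 3 ≤ m) (i j : Fin m ⊕ Fin m) : ∃ k : Fin m ⊕ Fin m, k ≠ i ∧ k ≠ pt m i ∧ k ≠ j ∧ k ≠ pt m j := by
  let p : Fin m ⊕ Fin m → Fin m := Sum.elim id id
  have h : ∃ x : Fin m, x ≠ p i ∧ x ≠ p j := by
    by_contra hc
    push Not at hc
    have h1 : (Finset.univ : Finset (Fin m)) ⊆ {p i, p j} := by
      intro x _
      rw [Finset.mem_insert, Finset.mem_singleton]
      by_cases hx : x = p i
      · exact Or.inl hx
      · exact Or.inr (hc x hx)
    have h2 := Finset.card_le_card h1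
    rw [Finset.card_univ, Fintype.card_fin] at h2
    have h3 := Finset.card_le_two (a := p i) (b := p j)
    omega
  obtain ⟨x, h1, h2⟩ := h
  refine ⟨Sum.inl x, ?_, ?_, ?_, ?_⟩
  · rintro rfl; exact h1 rfl
  · rcases i with i | i
    · simp [pt]
    · intro h; exact h1 (Sum.inl_injective h)
  · rintro rfl; exact h2 rfl
  · rcases j with j | j
    · simp [pt]
    · intro h; exact h2 (Sum.inl_injective h)


theorem commutator_eq_eich (hm : 3 ≤ m) : commutator (O (QP m F)) = eichG (QP m F) := by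
  apply le_antisymm (commutator_le_eich (by omega))
  apply eichG_le_of_basis
  intro i j hij hne c
  obtain ⟨k, h1, h2, h3, h4⟩ := exists_other2 hm i j
  have hpk : k ≠ pt m k := Ne.symm (pt_ne k)
  have p1 : QuadraticMap.polarBilin (QP m F) (bv F m i) (bv F m k) = 0 := by
    rw [polar_bv, bv_ne (Ne.symm h2)]
  have h1' : pt m i ≠ pt m k := fun h => h1 (by rw [← pt_pt k, ← h, pt_pt])
  have p2 : QuadraticMap.polarBilin (QP m F) (bv F m i) (bv F m (pt m k)) = 0 := by
    rw [polar_bv, bv_ne h1']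
  have hQ4 : QP m F ((-c) • bv F m j) = 0 := by rw [CfsgLib.Quad.map_smul, QP_bv, mul_zero]
  have p3 : QuadraticMap.polarBilin (QP m F) (bv F m i) ((-c) • bv F m j) = 0 := polar_bv_smul hij _
  have p4 : QuadraticMap.polarBilin (QP m F) (bv F m k) (bv F m (pt m k)) = 1 := by rw [polar_bv, bv_same]
  have h4' : j ≠ pt m k := fun h => h4 (by rw [h, pt_pt])
  have p5 : QuadraticMap.polarBilin (QP m F) (bv F m k) ((-c) • bv F m j) = 0 := polar_bv_smul h4' _
  have p6 : QuadraticMap.polarBilin (QP m F) (bv F m (pt m k)) ((-c) • bv F m j) = 0 :=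
    polar_bv_smul (by rw [pt_pt]; exact Ne.symm h3) _
  have e : -((-c) • bv F m j) = c • bv F m j := by module
  have p7 : QuadraticMap.polarBilin (QP m F) (bv F m i) (-((-c) • bv F m j)) = 0 := by
    rw [e]; exact polar_bv_smul hij c
  have h5 := eichO_commutator (QP_bv (F := F) i) (QP_bv k) (QP_bv (pt m k)) hQ4 p1 p2 p3 p4 p5 p6 p7
  have h6 := eichO_congr (QP_bv (F := F) i) (polar_bv_smul hij c) (QP_bv i) p7 rfl e.symm
  rw [h6, ← h5]
  exact Subgroup.commutator_mem_commutator (Subgroup.mem_top _) (Subgroup.mem_top _)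

end CfsgLib.Chev.Rep
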