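import Cfsg.Agent.Lib.ChevRep3
import Cfsg.Agent.Lib.AutPSp1
set_option autoImplicit false
set_option linter.style.haveILetI false
set_option maxRecDepth 1000000

/-! `B₂(F) ≅ PSp₄(F)` over every field. -/

namespace CfsgLib.Chev.Rep
open Cfsg.Lie Matrix CfsgLib.Chev CfsgLib.Chev.GA CfsgLib.Chev.Em

section gen
variable {D : ChevalleyDatum} {I : ℕ → SV} {F : Type*} [Field F] {κ : Type} [Fintype κ] [DecidableEq κ] {n : ℕ}
  {e : κ ≃ Fin n}

/-- integral left inverse of the linear map -/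
noncomputable def chkInv (D : ChevalleyDatum) (I : ℕ → SV) (n : ℕ) (pinv : ℕ → SV) : Bool :=
  (List.range (dim D)).all fun y => ((pinv y).all fun q => decide (q.1 < n * n)) &&
    (List.range (dim D)).all fun z => decide (pair (pinv y) (fun c => coef c (I z)) = if y = z then 1 else 0)

theorem uniq_of_inv {pinv : ℕ → SV} (hp : chkInv D I n pinv = true) (g' : GL D.Idx F)
    (H : Rr D I e (1 : GL κ F) g') : g' = 1 := by
  unfold chkInv at hp
  rw [List.all_eq_true] at hp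
  have hk : ∀ y < dim D, ∀ q ∈ pinv y, q.1 < n * n := by
    intro y hy q hq
    have h := hp y (List.mem_range.mpr hy)
    rw [Bool.and_eq_true, List.all_eq_true] at h
    exact of_decide_eq_true (h.1 q hq)
  have hd : ∀ y < dim D, ∀ z < dim D, pair (pinv y) (fun c => coef c (I z)) = if y = z then 1 else 0 := by
    intro y hy z hz
    have h := hp y (List.mem_range.mpr hy)
    rw [Bool.and_eq_true, List.all_eq_true] at h
    rw [List.all_eq_true] at h
    exact of_decide_eq_true (h.2 z (List.mem_range.mpr hz))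
  -- entries
  have h1 : ∀ (z : D.Idx) (c : ℕ), c < n * n → ((coef c (I (code D z)) : ℤ) : F) =
      ∑ y : D.Idx, (g' : Matrix D.Idx D.Idx F) y z * ((coef c (I (code D y)) : ℤ) : F) := by
    intro z c hc
    have hn : 0 < n := by
      rcases Nat.eq_zero_or_pos n with h | h
      · subst h; omega
      · exact h
    have h2 := H (Pi.single z 1)
    rw [Units.val_one, Matrix.one_mul, Matrix.mul_one, Lm_single, Matrix.mulVec_single_one, Lm_apply] at h2
    let i : κ := e.symm ⟨c / n, Nat.div_lt_of_lt_mul hc⟩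
    let j : κ := e.symm ⟨c % n, Nat.mod_lt _ hn⟩
    have hi : (e i : ℕ) = c / n := by rw [Equiv.apply_symm_apply]
    have hj : (e j : ℕ) = c % n := by rw [Equiv.apply_symm_apply]
    have hc' : (e i : ℕ) * n + (e j : ℕ) = c := by rw [hi, hj]; exact Nat.div_add_mod' c n
    have h3 := congrFun (congrFun h2 i) j
    rw [Matrix.sum_apply] at h3
    have h4 : ∀ y : D.Idx, (((g' : Matrix D.Idx D.Idx F).col z y) • toM e F (I (code D y))) i j =
        (g' : Matrix D.Idx D.Idx F) y z * ((coef c (I (code D y)) : ℤ) : F) := by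
      intro y
      rw [Matrix.smul_apply, smul_eq_mul]
      change _ * ((coef ((e i : ℕ) * n + (e j : ℕ)) (I (code D y)) : ℤ) : F) = _
      rw [hc']
      rfl
    simp only [h4] at h3
    change ((coef ((e i : ℕ) * n + (e j : ℕ)) (I (code D z)) : ℤ) : F) = _ at h3
    rw [hc'] at h3
    exact h3
  have h2 : ∀ (z : D.Idx) (v : SV), (∀ q ∈ v, q.1 < n * n) → ((pair v (fun c => coef c (I (code D z))) : ℤ) : F) =
      ∑ y : D.Idx, (g' : Matrix D.Idx D.Idx F) y z * ((pair v (fun c => coef c (I (code D y))) : ℤ) : F) := by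
    intro z v
    induction v with
    | nil => intro _; simp [pair_nil]
    | cons q v ih =>
      intro hv
      have h3 := ih (fun q hq => hv q (by simp [hq]))
      have h4 := h1 z q.1 (hv q (by simp))
      simp only [pair_cons]
      push_cast
      rw [h3, h4, Finset.mul_sum, ← Finset.sum_add_distrib]
      refine Finset.sum_congr rfl fun y _ => ?_
      ring
  apply Units.ext
  ext x z
  have h3 := h2 z (pinv (code D x)) (hk _ (code_lt D x))
  rw [hd _ (code_lt D x) _ (code_lt D z)] at h3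
  have h4 : ∀ y : D.Idx, (g' : Matrix D.Idx D.Idx F) y z * ((pair (pinv (code D x)) (fun c => coef c (I (code D y))) : ℤ) : F) =
      if y = x then (g' : Matrix D.Idx D.Idx F) x z else 0 := by
    intro y
    rw [hd _ (code_lt D x) _ (code_lt D y)]
    by_cases h : y = x
    · subst h; simp
    · rw [if_neg h, if_neg (fun h' => h (code_inj D h'.symm))]; simp
  simp only [h4] at h3
  rw [Finset.sum_ite_eq' Finset.univ x, if_pos (Finset.mem_univ _)] at h3
  rw [← h3, Units.val_one, Matrix.one_apply]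
  by_cases h : x = z
  · subst h; simp
  · rw [if_neg h, if_neg (fun h' => h (code_inj D h'))]; simp

end gen

namespace C2

def It : List SV := [[(0, 1), (5, -1), (10, -1), (15, 1)], [(5, 1), (15, -1)], [(8, -1)], [(9, -1), (12, -1)], [(4, 1), (11, -1)], [(13, 1)], [(7, 1)], [(1, 1), (14, -1)], [(3, -1), (6, -1)], [(2, -1)]]
def I (c : ℕ) : SV := It.getD c []
def pinv (c : ℕ) : SV := ([[(0, 1)], [(5, 1), (0, 1)], [(8, -1)], [(9, -1)], [(4, 1)], [(13, 1)], [(7, 1)], [(1, 1)], [(3, -1)], [(2, -1)]] : List SV).getD c []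
def id4 : SV := [(0, 1), (5, 1), (10, 1), (15, 1)]
def rt (i j : ℕ) : ℕ := (([[7, 6, 0, 5], [6, 4, 2, 0], [0, 2, 0, 1], [5, 0, 1, 3]] : List (List ℕ)).getD i []).getD j 0
def sg (i j : ℕ) : ℤ := (([[-1, -1, 1, -1], [-1, 1, -1, 1], [1, -1, 1, 1], [-1, 1, 1, -1]] : List (List ℤ)).getD i []).getD j 0
def ec : Fin 2 ⊕ Fin 2 ≃ Fin 4 := finSumFinEquiv
def si (i : Fin 2 ⊕ Fin 2) : ℤ := Sum.elim (fun _ => 1) (fun _ => -1) i

theorem chk : ∀ r : Fin 8, chkR chevB2 I TB2 4 0 [id4, I (chevB2.rank + r)] r = true := by decide +kernel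
theorem chkI : chkInv chevB2 I 4 pinv = true := by decide +kernel

theorem tabl : ∀ i j : Fin 2 ⊕ Fin 2, j ≠ pt 2 i → rt (ec i) (ec j) < 8 ∧ sg (ec i) (ec j) * sg (ec i) (ec j) = 1 ∧
    ∀ a b : Fin 2 ⊕ Fin 2, sg (ec i) (ec j) * coef ((ec a : ℕ) * 4 + (ec b : ℕ)) (I (chevB2.rank + rt (ec i) (ec j))) =
      if i = j then (if a = i ∧ b = pt 2 i then si i else 0) else
      (if a = j ∧ b = pt 2 i then si i else 0) + (if a = i ∧ b = pt 2 j then si j else 0) := by
  decide +kernel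

theorem idt : ∀ a b : Fin 2 ⊕ Fin 2, coef ((ec a : ℕ) * 4 + (ec b : ℕ)) id4 = if a = b then 1 else 0 := by decide +kernel

section main
open CfsgLib.AutPSp CfsgLib.Symp Cfsg
variable {F : Type*} [Field F]

local notation "Gp" => Matrix.symplecticGroup (Fin 2) F

/-- basis vector -/
def bs (F : Type*) [Field F] (i : Fin 2 ⊕ Fin 2) : Fin 2 ⊕ Fin 2 → F := Pi.single i 1

theorem bs_same (i : Fin 2 ⊕ Fin 2) : bs F i i = 1 := by unfold bs; rw [Pi.single_eq_same]
theorem bs_ne {i j : Fin 2 ⊕ Fin 2} (h : j ≠ i) : bs F i j = 0 := by unfold bs; rw [Pi.single_eq_of_ne h]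

theorem B_bs (x : Fin 2 ⊕ Fin 2 → F) (i : Fin 2 ⊕ Fin 2) : sympB 2 F x (bs F i) = (si i : F) * x (pt 2 i) := by
  rw [sympB_apply, sympForm_eq, Fin.sum_univ_two]
  unfold bs si pt
  rcases i with i | i <;> fin_cases i <;> simp

/-- root elements -/
noncomputable def rg (i j : Fin 2 ⊕ Fin 2) (c : F) : Gp :=
  if i = j then tr (bs F i) c else tr (bs F i + bs F j) c * tr (bs F i) (-c) * tr (bs F j) (-c)

theorem rg_mulVec {i j : Fin 2 ⊕ Fin 2} (h : j ≠ pt 2 i) (c : F) (x : Fin 2 ⊕ Fin 2 → F) :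
    (rg i j c).1 *ᵥ x = if i = j then x + (c * ((si i : F) * x (pt 2 i))) • bs F i else
      x + (c * ((si i : F) * x (pt 2 i))) • bs F j + (c * ((si j : F) * x (pt 2 j))) • bs F i := by
  unfold rg
  have hp : pt 2 i ≠ j := fun h' => h h'.symm
  have hp' : pt 2 j ≠ i := fun h' => h (by rw [← h', pt_pt])
  split_ifs with hij
  · rw [tr_mulVec, B_bs]
  · rw [mul_mulVec, mul_mulVec, tr_mulVec, tr_mulVec, tr_mulVec]
    have b1 : sympB 2 F (bs F i) (bs F j) = 0 := by rw [B_bs, bs_ne hp', mul_zero]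
    have b2 : sympB 2 F (bs F j) (bs F i) = 0 := by rw [B_bs, bs_ne hp, mul_zero]
    simp only [_root_.map_add, _root_.map_smul, LinearMap.add_apply, LinearMap.smul_apply, B_self, b1, b2, smul_eq_mul,
      mul_zero, add_zero]
    rw [B_bs, B_bs]
    module

theorem ev_entry {i j : Fin 2 ⊕ Fin 2} (h : j ≠ pt 2 i) (c : F) (a b : Fin 2 ⊕ Fin 2) :
    evM ec (((sg (ec i) (ec j) : ℤ) : F) * c) [id4, I (chevB2.rank + rt (ec i) (ec j))] a b =
      (if a = b then 1 else 0) + c * (if i = j then (if a = i ∧ b = pt 2 i then (si i : F) else 0) else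
      (if a = j ∧ b = pt 2 i then (si i : F) else 0) + (if a = i ∧ b = pt 2 j then (si j : F) else 0)) := by
  obtain ⟨_, _, h3⟩ := tabl i j h
  have h4 := h3 a b
  rw [evM_apply]
  simp only [ev]
  rw [idt, mul_zero, add_zero]
  have h5 : (((sg (ec i) (ec j) : ℤ) : F)) * ((coef ((ec a : ℕ) * 4 + (ec b : ℕ)) (I (chevB2.rank + rt (ec i) (ec j))) : ℤ) : F) =
      (if i = j then (if a = i ∧ b = pt 2 i then (si i : F) else 0) else
      (if a = j ∧ b = pt 2 i then (si i : F) else 0) + (if a = i ∧ b = pt 2 j then (si j : F) else 0)) := by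
    rw [← Int.cast_mul, h4]
    push_cast
    rfl
  push_cast
  linear_combination c * h5

/-- the embedding in the general linear group -/
noncomputable def toG (F : Type*) [Field F] : Matrix.symplecticGroup (Fin 2) F →* GL (Fin 2 ⊕ Fin 2) F :=
  MonoidHom.toHomUnits (Matrix.symplecticGroup (Fin 2) F).subtype

theorem toG_coe (g : Gp) : ((toG F g : GL (Fin 2 ⊕ Fin 2) F) : Matrix (Fin 2 ⊕ Fin 2) (Fin 2 ⊕ Fin 2) F) = g.1 := rfl

theorem toG_inj : Function.Injective (toG F) := by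
  intro a b h
  exact Subtype.ext (congrArg Units.val h)

theorem rg_coe {i j : Fin 2 ⊕ Fin 2} (h : j ≠ pt 2 i) (c : F) :
    ((toG F (rg i j c) : GL (Fin 2 ⊕ Fin 2) F) : Matrix (Fin 2 ⊕ Fin 2) (Fin 2 ⊕ Fin 2) F) =
      evM ec (((sg (ec i) (ec j) : ℤ) : F) * c) [id4, I (chevB2.rank + rt (ec i) (ec j))] := by
  rw [toG_coe]
  apply mulVec_injective_matrix
  intro x
  rw [rg_mulVec h]
  funext a
  rw [Matrix.mulVec, dotProduct]
  simp only [ev_entry h]
  by_cases hij : i = j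
  · subst hij
    simp only [if_true, ite_and, add_mul, Finset.sum_add_distrib]
    rw [Pi.add_apply, Pi.smul_apply]
    unfold bs
    rw [Pi.single_apply]
    congr 1
    · simp
    · by_cases ha : a = i
      · simp [ha, mul_assoc]
      · simp [ha]
  · simp only [if_neg hij, ite_and, add_mul, mul_add, Finset.sum_add_distrib]
    rw [Pi.add_apply, Pi.add_apply, Pi.smul_apply, Pi.smul_apply]
    unfold bs
    rw [Pi.single_apply, Pi.single_apply, add_assoc]
    congr 1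
    · simp
    · congr 1
      · by_cases ha : a = j
        · simp [ha, mul_assoc]
        · simp [ha]
      · by_cases ha : a = i
        · simp [ha, mul_assoc]
        · simp [ha]

/-- the set of root elements -/
def SS (F : Type*) [Field F] : Set (GL (Fin 2 ⊕ Fin 2) F) :=
  {g | ∃ (i j : Fin 2 ⊕ Fin 2) (_ : j ≠ pt 2 i) (c : F), g = toG F (rg i j c)}

noncomputable def G1 (F : Type*) [Field F] : Subgroup (GL (Fin 2 ⊕ Fin 2) F) := (toG F).range

theorem cover : ∀ k : Fin 2 ⊕ Fin 2, ∃ l : Fin 2 ⊕ Fin 2, l ≠ k ∧ l ≠ pt 2 k ∧ pt 2 l ≠ k ∧ pt 2 l ≠ pt 2 k ∧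
    ∀ a : Fin 2 ⊕ Fin 2, a = k ∨ a = pt 2 k ∨ a = l ∨ a = pt 2 l := by
  decide

theorem si_ne (i : Fin 2 ⊕ Fin 2) : (si i : F) ≠ 0 := by
  unfold si
  rcases i with i | i <;> simp

theorem move {v : Fin 2 ⊕ Fin 2 → F} (hv : v ≠ 0) (H : Subgroup Gp)
    (hH : ∀ (i j : Fin 2 ⊕ Fin 2), j ≠ pt 2 i → ∀ c : F, rg i j c ∈ H) :
    ∃ g ∈ H, ∃ (k : Fin 2 ⊕ Fin 2) (a : F), g.1 *ᵥ v = a • bs F k := by
  obtain ⟨k, hk⟩ : ∃ k, v k ≠ 0 := by
    by_contra h
    push Not at h
    exact hv (funext h)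
  obtain ⟨l, h1, h2, h3, h4, hc⟩ := cover k
  have hpk : pt 2 (pt 2 k) = k := pt_pt k
  have hpl : pt 2 (pt 2 l) = l := pt_pt l
  have hs := si_ne (F := F) (pt 2 k)
  -- kill the coordinate `l`
  have n1 : l ≠ pt 2 (pt 2 k) := by rw [hpk]; exact h1
  have n2 : pt 2 l ≠ pt 2 (pt 2 k) := by rw [hpk]; exact h3
  let c1 : F := -(v l) * ((si (pt 2 k) : F) * v k)⁻¹
  let v1 := (rg (pt 2 k) l c1).1 *ᵥ v
  have hsk : (si (pt 2 k) : F) * v k ≠ 0 := mul_ne_zero hs hk
  have e1 : ∀ a, v1 a = v a + c1 * ((si (pt 2 k) : F) * v k) * bs F l a + c1 * ((si l : F) * v (pt 2 l)) * bs F (pt 2 k) a := by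
    intro a
    change ((rg (pt 2 k) l c1).1 *ᵥ v) a = _
    rw [rg_mulVec n1, if_neg (Ne.symm h2), hpk]
    rfl
  have v1k : v1 k = v k := by rw [e1, bs_ne (Ne.symm h1), bs_ne (Ne.symm (pt_ne k))]; ring
  have v1l : v1 l = 0 := by
    rw [e1, bs_same, bs_ne h2]
    change v l + -(v l) * ((si (pt 2 k) : F) * v k)⁻¹ * ((si (pt 2 k) : F) * v k) * 1 + _ * 0 = 0
    rw [mul_assoc (-(v l)), inv_mul_cancel₀ hsk]; ring
  -- kill the coordinate `pt l`
  let c2 : F := -(v1 (pt 2 l)) * ((si (pt 2 k) : F) * v k)⁻¹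
  let v2 := (rg (pt 2 k) (pt 2 l) c2).1 *ᵥ v1
  have e2 : ∀ a, v2 a = v1 a + c2 * ((si (pt 2 k) : F) * v k) * bs F (pt 2 l) a +
      c2 * ((si (pt 2 l) : F) * v1 l) * bs F (pt 2 k) a := by
    intro a
    change ((rg (pt 2 k) (pt 2 l) c2).1 *ᵥ v1) a = _
    rw [rg_mulVec n2, if_neg (Ne.symm h4), hpk, v1k, hpl]
    rfl
  have v2k : v2 k = v k := by rw [e2, bs_ne (Ne.symm h3), bs_ne (Ne.symm (pt_ne k)), v1k]; ring
  have v2l : v2 l = 0 := by
    rw [e2, v1l, bs_ne (Ne.symm (pt_ne l))]; ring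
  have v2l' : v2 (pt 2 l) = 0 := by
    rw [e2, bs_same, v1l]
    change v1 (pt 2 l) + -(v1 (pt 2 l)) * ((si (pt 2 k) : F) * v k)⁻¹ * ((si (pt 2 k) : F) * v k) * 1 + _ * (_ * 0) * _ = 0
    rw [mul_assoc (-(v1 (pt 2 l))), inv_mul_cancel₀ hsk]; ring
  -- kill the coordinate `pt k`
  let c3 : F := -(v2 (pt 2 k)) * ((si (pt 2 k) : F) * v k)⁻¹
  let v3 := (rg (pt 2 k) (pt 2 k) c3).1 *ᵥ v2
  have n3 : pt 2 k ≠ pt 2 (pt 2 k) := by rw [hpk]; exact pt_ne k
  have e3 : ∀ a, v3 a = v2 a + c3 * ((si (pt 2 k) : F) * v k) * bs F (pt 2 k) a := by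
    intro a
    change ((rg (pt 2 k) (pt 2 k) c3).1 *ᵥ v2) a = _
    rw [rg_mulVec n3, if_pos rfl, hpk, v2k]
    rfl
  refine ⟨rg (pt 2 k) (pt 2 k) c3 * (rg (pt 2 k) (pt 2 l) c2 * rg (pt 2 k) l c1),
    mul_mem (hH _ _ n3 _) (mul_mem (hH _ _ n2 _) (hH _ _ n1 _)), k, v k, ?_⟩
  rw [mul_mulVec, mul_mulVec]
  change v3 = _
  funext a
  rw [Pi.smul_apply, smul_eq_mul]
  rcases hc a with rfl | rfl | rfl | rfl
  · rw [e3, v2k, bs_ne (Ne.symm (pt_ne a)), bs_same]; ring
  · rw [e3, bs_same, bs_ne (pt_ne k)]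
    change v2 (pt 2 k) + -(v2 (pt 2 k)) * ((si (pt 2 k) : F) * v k)⁻¹ * ((si (pt 2 k) : F) * v k) * 1 = _
    rw [mul_assoc (-(v2 (pt 2 k))), inv_mul_cancel₀ hsk]; ring
  · rw [e3, v2l, bs_ne h2, bs_ne h1]; ring
  · rw [e3, v2l', bs_ne h4, bs_ne h3]; ring

theorem eq_top_of_rg (H : Subgroup Gp) (hH : ∀ (i j : Fin 2 ⊕ Fin 2), j ≠ pt 2 i → ∀ c : F, rg i j c ∈ H) : H = ⊤ := by
  rw [eq_top_iff, ← closure_sympTransvection, Subgroup.closure_le]
  rintro g ⟨w, c, hg⟩
  have hg' : g = tr w c := Subtype.ext hg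
  rw [SetLike.mem_coe, hg']
  by_cases hw : w = 0
  · subst hw
    have : tr (0 : Fin 2 ⊕ Fin 2 → F) c = 1 := by
      apply G_ext
      intro x
      rw [tr_mulVec, smul_zero, add_zero, one_mulVec']
    rw [this]
    exact one_mem _
  · obtain ⟨h, hh, k, a, e⟩ := move hw H hH
    have h1 := conj_tr h w c
    have h2 : tr (a • bs F k) c = rg k k (c * a ^ 2) := by
      apply G_ext
      intro x
      rw [tr_mulVec, rg_mulVec (Ne.symm (pt_ne k)), if_pos rfl, _root_.map_smul, B_bs, smul_smul, smul_eq_mul]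
      congr 2
      ring
    rw [e, h2] at h1
    have h3 : tr w c = h⁻¹ * (h * tr w c * h⁻¹) * h := by group
    rw [h3, h1]
    exact mul_mem (mul_mem (inv_mem hh) (hH _ _ (Ne.symm (pt_ne k)) _)) hh

theorem G1_eq : G1 F = Subgroup.closure (SS F) := by
  apply le_antisymm
  · have h : (Subgroup.closure (SS F)).comap (toG F) = ⊤ := by
      apply eq_top_of_rg
      intro i j hij c
      exact Subgroup.subset_closure ⟨i, j, hij, c, rfl⟩
    rintro _ ⟨x, rfl⟩
    have : x ∈ (Subgroup.closure (SS F)).comap (toG F) := by rw [h]; exact Subgroup.mem_top _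
    exact this
  · rw [Subgroup.closure_le]
    rintro _ ⟨i, j, _, c, rfl⟩
    exact ⟨_, rfl⟩

theorem z0 : ((0 : ℕ) : F) = 0 := Nat.cast_zero

theorem rel {i j : Fin 2 ⊕ Fin 2} (h : j ≠ pt 2 i) (c : F) :
    Rr chevB2 I ec (toG F (rg i j c)) (xg chevB2 (rt (ec i) (ec j)) (((sg (ec i) (ec j) : ℤ) : F) * c)) :=
  Rr.gen (cgB2 F) z0 (chk ⟨rt (ec i) (ec j), (tabl i j h).1⟩) _ (rg_coe h c)

theorem rel' {i j : Fin 2 ⊕ Fin 2} (h : j ≠ pt 2 i) {r : ℕ} (hr : rt (ec i) (ec j) = r)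
    {s : ℤ} (hs : sg (ec i) (ec j) = s) (hs2 : s * s = 1) (t : F) :
    ∃ g ∈ SS F, Rr chevB2 I ec g (xg chevB2 r t) := by
  refine ⟨_, ⟨i, j, h, (s : F) * t, rfl⟩, ?_⟩
  have := rel h ((s : F) * t)
  rw [hr, hs, ← mul_assoc, ← Int.cast_mul, hs2, Int.cast_one, one_mul] at this
  exact this

theorem relS (i : Fin chevB2.rank) (t : F) : ∃ g ∈ SS F, Rr chevB2 I ec g (xg chevB2 (chevB2.simple i) t) := by
  change Fin 2 at i
  fin_cases i
  · exact rel' (i := Sum.inl 0) (j := Sum.inr 1) (s := -1) (by decide) (by decide +kernel) (by decide +kernel) (by norm_num) t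
  · exact rel' (i := Sum.inl 1) (j := Sum.inl 1) (s := 1) (by decide) (by decide +kernel) (by decide +kernel) (by norm_num) t

theorem relN (i : Fin chevB2.rank) (t : F) : ∃ g ∈ SS F, Rr chevB2 I ec g (xg chevB2 (chevB2.neg (chevB2.simple i)) t) := by
  change Fin 2 at i
  fin_cases i
  · exact rel' (i := Sum.inl 1) (j := Sum.inr 0) (s := -1) (by decide) (by decide +kernel) (by decide +kernel) (by norm_num) t
  · exact rel' (i := Sum.inr 1) (j := Sum.inr 1) (s := -1) (by decide) (by decide +kernel) (by decide +kernel) (by norm_num) t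

theorem e1 (t : F) (r : ℕ) : evM ec t [id4, I r] = 1 + t • toM ec F (I r) := by
  have e2 : toM ec F id4 = 1 := by
    ext a b
    change ((coef ((ec a : ℕ) * 4 + (ec b : ℕ)) id4 : ℤ) : F) = _
    rw [idt, Matrix.one_apply]
    push_cast
    rfl
  simp [evM, e2]

theorem iso0 : Nonempty (G1 F ⧸ Subgroup.center (G1 F) ≃* ↥(chevB2.group F)) := by
  refine iso_rep (e := ec) (I := I) (cgB2 F) (center_bot (cgB2 F)) (fun g' _ h => uniq_of_inv chkI g' h) (G1 F) (SS F) G1_eq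
    ?_ ?_ relS relN
  · rintro _ ⟨i, j, h, c, rfl⟩
    exact ⟨_, (cgB2 F).xg_mem_G _ _, rel h c⟩
  · rintro g hg hR _ ⟨i, j, h, c, rfl⟩
    apply Units.ext
    rw [Units.val_mul, Units.val_mul, rg_coe h]
    have h1 := comm_I hR (tabl i j h).1
    rw [e1, Matrix.mul_add, Matrix.add_mul, Matrix.mul_smul, Matrix.smul_mul, h1, Matrix.one_mul, Matrix.mul_one]

end main

end C2

theorem quot_center {A B : Type*} [Group A] [Group B] (e : A ≃* B) :
    Nonempty (A ⧸ Subgroup.center A ≃* B ⧸ Subgroup.center B) := by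
  have h : (Subgroup.center A).map e.toMonoidHom = Subgroup.center B := by
    ext x
    constructor
    · rintro ⟨y, hy, rfl⟩
      rw [SetLike.mem_coe, Subgroup.mem_center_iff] at hy
      rw [Subgroup.mem_center_iff]
      intro z
      obtain ⟨w, rfl⟩ := e.surjective z
      change e w * e y = e y * e w
      rw [← map_mul, ← map_mul, hy w]
    · intro hx
      rw [Subgroup.mem_center_iff] at hx
      refine ⟨e.symm x, ?_, e.apply_symm_apply x⟩
      rw [SetLike.mem_coe, Subgroup.mem_center_iff]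
      intro z
      apply e.injective
      rw [map_mul, map_mul, e.apply_symm_apply]
      exact hx _
  exact ⟨QuotientGroup.congr _ _ e h⟩

/-- `PSp₄(F)` is the Chevalley group of type `B₂` -/
theorem PSp_iso (F : Type*) [Field F] : Nonempty (Cfsg.PSp 2 F ≃* ↥(chevB2.group F)) := by
  obtain ⟨e1⟩ := C2.iso0 (F := F)
  have e2 : Matrix.symplecticGroup (Fin 2) F ≃* ↥(C2.G1 F) := MonoidHom.ofInjective C2.toG_inj
  obtain ⟨e3⟩ := quot_center e2
  exact ⟨e3.trans e1⟩

end CfsgLib.Chev.Rep
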