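import Cfsg.Agent.Lib.ChevRep2
set_option autoImplicit false
set_option linter.style.haveILetI false

/-! The orthogonal group of the odd-dimensional form over any field: generation, commutator subgroup (dimension `5`). -/

namespace CfsgLib.Chev.Rep.Od
open CfsgLib.Quad Module Cfsg CfsgLib.Chev.Rep
open scoped commutatorElement

variable {F : Type*} [Field F] {m : ℕ}

/-- the odd form -/
noncomputable def QO (m : ℕ) (F : Type*) [Field F] : QuadraticForm F (Unit ⊕ (Fin m ⊕ Fin m) → F) :=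
  (hypSum m (sqQ F)).comp (eOdd m F).toLinearMap

theorem QO_apply (v : Unit ⊕ (Fin m ⊕ Fin m) → F) : QO m F v = quadFormOdd m F v := by
  rw [QO, QuadraticMap.comp_apply]
  exact eOdd_apply m v

theorem QO_split (v : Unit ⊕ (Fin m ⊕ Fin m) → F) :
    QO m F v = v (Sum.inl ()) ^ 2 + QP m F (fun k => v (Sum.inr k)) := by
  rw [QO_apply, QP_apply]; rfl

theorem polar_split (u v : Unit ⊕ (Fin m ⊕ Fin m) → F) : QuadraticMap.polarBilin (QO m F) u v =
    2 * (u (Sum.inl ()) * v (Sum.inl ())) + QuadraticMap.polarBilin (QP m F) (fun k => u (Sum.inr k)) (fun k => v (Sum.inr k)) := by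
  change QuadraticMap.polar (QO m F) u v = _ + QuadraticMap.polar (QP m F) _ _
  unfold QuadraticMap.polar
  rw [QO_split, QO_split, QO_split]
  have e : (fun k => (u + v) (Sum.inr k)) = (fun k => u (Sum.inr k)) + (fun k => v (Sum.inr k)) := rfl
  rw [e, Pi.add_apply]
  ring

/-- basis vector -/
def ba (F : Type*) [Field F] (m : ℕ) (a : Unit ⊕ (Fin m ⊕ Fin m)) : Unit ⊕ (Fin m ⊕ Fin m) → F := Pi.single a 1

theorem ba_same (a : Unit ⊕ (Fin m ⊕ Fin m)) : ba F m a a = 1 := by unfold ba; rw [Pi.single_eq_same]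
theorem ba_ne {a b : Unit ⊕ (Fin m ⊕ Fin m)} (h : b ≠ a) : ba F m a b = 0 := by unfold ba; rw [Pi.single_eq_of_ne h]


theorem QO_bi (i : Fin m ⊕ Fin m) : QO m F (ba F m (Sum.inr i)) = 0 := by
  rw [QO_split, ba_ne (by simp)]
  have e : (fun k => ba F m (Sum.inr i) (Sum.inr k)) = bv F m i := by
    funext k
    by_cases h : k = i
    · subst h; rw [bv_same]; exact ba_same _
    · rw [bv_ne h]; exact ba_ne (by simpa using h)
  rw [e, QP_bv]
  ring

theorem QO_v0 : QO m F (ba F m (Sum.inl ())) = 1 := by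
  rw [QO_split, ba_same]
  have e : (fun k => ba F m (Sum.inl ()) (Sum.inr k)) = 0 := by
    funext k
    exact ba_ne (by simp)
  rw [e, QuadraticMap.map_zero]
  ring

theorem polar_bi (i : Fin m ⊕ Fin m) (x : Unit ⊕ (Fin m ⊕ Fin m) → F) :
    QuadraticMap.polarBilin (QO m F) (ba F m (Sum.inr i)) x = x (Sum.inr (pt m i)) := by
  rw [polar_split, ba_ne (by simp)]
  have e : (fun k => ba F m (Sum.inr i) (Sum.inr k)) = bv F m i := by
    funext k
    by_cases h : k = i
    · subst h; rw [bv_same]; exact ba_same _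
    · rw [bv_ne h]; exact ba_ne (by simpa using h)
  rw [e, polar_bv]
  ring

theorem polar_v0 (x : Unit ⊕ (Fin m ⊕ Fin m) → F) :
    QuadraticMap.polarBilin (QO m F) (ba F m (Sum.inl ())) x = 2 * x (Sum.inl ()) := by
  rw [polar_split, ba_same]
  have e : (fun k => ba F m (Sum.inl ()) (Sum.inr k)) = 0 := by
    funext k
    exact ba_ne (by simp)
  rw [e, _root_.map_zero, LinearMap.zero_apply]
  ring

theorem polar_smul {i : Fin m ⊕ Fin m} {a : Unit ⊕ (Fin m ⊕ Fin m)} (h : a ≠ Sum.inr (pt m i)) (c : F) :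
    QuadraticMap.polarBilin (QO m F) (ba F m (Sum.inr i)) (c • ba F m a) = 0 := by
  rw [polar_bi, Pi.smul_apply, ba_ne (Ne.symm h), smul_zero]

/-- first elimination -/
theorem T1 (H : Subgroup (O (QO m F))) (u : Unit ⊕ (Fin m ⊕ Fin m) → F) {k : Fin m ⊕ Fin m} (hk : u (Sum.inr k) ≠ 0)
    (hH : ∀ (y : Unit ⊕ (Fin m ⊕ Fin m) → F) (hy : QuadraticMap.polarBilin (QO m F) (ba F m (Sum.inr (pt m k))) y = 0),
      eichO (QO_bi (pt m k)) hy ∈ H) :
    ∃ g ∈ H, ∃ d : F, g.1 u = u (Sum.inr k) • ba F m (Sum.inr k) + d • ba F m (Sum.inr (pt m k)) ∧ g.1 (ba F m (Sum.inr (pt m k))) = ba F m (Sum.inr (pt m k)) ∧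
      ∀ l : Fin m ⊕ Fin m, l ≠ k → l ≠ pt m k → u (Sum.inr (pt m l)) = 0 → g.1 (ba F m (Sum.inr l)) = ba F m (Sum.inr l) := by
  have hik : (Sum.inr (pt m k) : Unit ⊕ (Fin m ⊕ Fin m)) ≠ Sum.inr k := fun h => pt_ne k (Sum.inr_injective h)
  have hpi : pt m (pt m k) = k := pt_pt k
  let w : Unit ⊕ (Fin m ⊕ Fin m) → F := u - u (Sum.inr k) • ba F m (Sum.inr k) - u (Sum.inr (pt m k)) • ba F m (Sum.inr (pt m k))
  have hwk : w (Sum.inr k) = 0 := by
    change u (Sum.inr k) - (u (Sum.inr k) • ba F m (Sum.inr k)) (Sum.inr k) - (u (Sum.inr (pt m k)) • ba F m (Sum.inr (pt m k))) (Sum.inr k) = 0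
    rw [Pi.smul_apply, Pi.smul_apply, ba_same, ba_ne (Ne.symm hik)]
    simp
  let y : Unit ⊕ (Fin m ⊕ Fin m) → F := (-(u (Sum.inr k))⁻¹) • w
  have hy : QuadraticMap.polarBilin (QO m F) (ba F m (Sum.inr (pt m k))) y = 0 := by
    rw [polar_bi, hpi]
    change (-(u (Sum.inr k))⁻¹) • w (Sum.inr k) = 0
    rw [hwk, smul_zero]
  have hi : QuadraticMap.polarBilin (QO m F) (ba F m (Sum.inr (pt m k))) u = u (Sum.inr k) := by rw [polar_bi, hpi]
  refine ⟨eichO (QO_bi (pt m k)) hy, hH y hy,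
    u (Sum.inr (pt m k)) + (-QuadraticMap.polarBilin (QO m F) y u - QO m F y * u (Sum.inr k)), ?_, ?_, ?_⟩
  · have e1 := eichO_apply (QO_bi (F := F) (pt m k)) hy u
    rw [hi] at e1
    have e2 : u + u (Sum.inr k) • y = u (Sum.inr k) • ba F m (Sum.inr k) + u (Sum.inr (pt m k)) • ba F m (Sum.inr (pt m k)) := by
      change u + u (Sum.inr k) • ((-(u (Sum.inr k))⁻¹) • (u - u (Sum.inr k) • ba F m (Sum.inr k) - u (Sum.inr (pt m k)) • ba F m (Sum.inr (pt m k)))) = _
      rw [smul_smul, mul_neg, mul_inv_cancel₀ hk]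
      module
    rw [e1, add_smul, ← add_assoc, ← e2]
  · rw [eichO_apply, polar_bi, ba_ne (by rw [hpi]; exact Ne.symm hik)]
    have h2 : QuadraticMap.polarBilin (QO m F) y (ba F m (Sum.inr (pt m k))) = 0 := by
      rw [polar_comm]; exact hy
    rw [h2]
    simp
  · intro l h1 h2 h3
    have h4 : (Sum.inr k : Unit ⊕ (Fin m ⊕ Fin m)) ≠ Sum.inr l := fun h => h1 (Sum.inr_injective h).symm
    rw [eichO_apply, polar_bi, hpi, ba_ne h4]
    have h5 : QuadraticMap.polarBilin (QO m F) y (ba F m (Sum.inr l)) = 0 := by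
      rw [polar_comm, polar_bi]
      change (-(u (Sum.inr k))⁻¹) * (u (Sum.inr (pt m l)) - u (Sum.inr k) * (ba F m (Sum.inr k)) (Sum.inr (pt m l)) -
        u (Sum.inr (pt m k)) * (ba F m (Sum.inr (pt m k))) (Sum.inr (pt m l))) = 0
      have h6 : (Sum.inr (pt m l) : Unit ⊕ (Fin m ⊕ Fin m)) ≠ Sum.inr k := by
        intro h
        apply h2
        rw [← Sum.inr_injective h, pt_pt]
      have h7 : (Sum.inr (pt m l) : Unit ⊕ (Fin m ⊕ Fin m)) ≠ Sum.inr (pt m k) := by
        intro h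
        apply h1
        rw [← pt_pt l, Sum.inr_injective h, pt_pt]
      rw [h3, ba_ne h6, ba_ne h7]
      ring
    rw [h5]
    simp

theorem exists_coord {u : Unit ⊕ (Fin m ⊕ Fin m) → F} (hu : u ≠ 0) (hQ : QO m F u = 0) : ∃ k : Fin m ⊕ Fin m, u (Sum.inr k) ≠ 0 := by
  by_contra h
  push Not at h
  apply hu
  rw [QO_split] at hQ
  have e : (fun k => u (Sum.inr k)) = 0 := funext h
  rw [e, QuadraticMap.map_zero, add_zero] at hQ
  funext a
  rcases a with ⟨⟩ | a
  · exact pow_eq_zero_iff (two_ne_zero) |>.mp hQ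
  · exact h a

theorem Q_ab (k : Fin m ⊕ Fin m) (a c : F) : QO m F (a • ba F m (Sum.inr k) + c • ba F m (Sum.inr (pt m k))) = a * c := by
  rw [CfsgLib.Quad.map_add, CfsgLib.Quad.map_smul, CfsgLib.Quad.map_smul, QO_bi, QO_bi, mul_zero, mul_zero, zero_add, zero_add,
    _root_.map_smul, _root_.map_smul, LinearMap.smul_apply, polar_bi, ba_same]
  simp only [smul_eq_mul]
  ring

/-- the group of Eichler transformations is generated by those of basis vectors -/
theorem eichG_le_of_basis (H : Subgroup (O (QO m F)))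
    (hH : ∀ (i : Fin m ⊕ Fin m) (a : Unit ⊕ (Fin m ⊕ Fin m)) (h : a ≠ Sum.inr (pt m i)), a ≠ Sum.inr i → ∀ c : F,
      eichO (QO_bi (F := F) i) (polar_smul h c) ∈ H) :
    eichG (QO m F) ≤ H := by
  classical
  have h1 : ∀ (i : Fin m ⊕ Fin m) (s : Finset (Unit ⊕ (Fin m ⊕ Fin m))) (y : Unit ⊕ (Fin m ⊕ Fin m) → F), Sum.inr (pt m i) ∉ s →
      (∀ j, j ∉ s → y j = 0) →
      ∀ hy : QuadraticMap.polarBilin (QO m F) (ba F m (Sum.inr i)) y = 0, eichO (QO_bi i) hy ∈ H := by
    intro i s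
    induction s using Finset.induction_on with
    | empty =>
      intro y _ h0 hy
      have h3 : eichO (QO_bi i) hy = 1 := by
        have hz : y = (0 : F) • ba F m (Sum.inr i) := by
          funext j; rw [h0 j (by simp), zero_smul]; rfl
        subst hz
        exact eichO_eq_one _ _ _
      rw [h3]; exact one_mem _
    | insert j s hj ih =>
      intro y hi h0 hy
      have hi1 : Sum.inr (pt m i) ≠ j := fun h => hi (by rw [h]; exact Finset.mem_insert_self _ _)
      have hi2 : Sum.inr (pt m i) ∉ s := fun h => hi (Finset.mem_insert_of_mem h)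
      let y' : Unit ⊕ (Fin m ⊕ Fin m) → F := y - (y j) • ba F m j
      have hsum : (y j) • ba F m j + y' = y := by
        change (y j) • ba F m j + (y - (y j) • ba F m j) = y
        abel
      have hp1 := polar_smul (F := F) (i := i) (a := j) (Ne.symm hi1) (y j)
      have hp2 : QuadraticMap.polarBilin (QO m F) (ba F m (Sum.inr i)) y' = 0 := by
        rw [_root_.map_sub, hy, hp1, sub_zero]
      have e1 := eichO_mul (QO_bi i) hp1 hp2 (by rw [hsum]; exact hy)
      have e2 : eichO (QO_bi i) hy = eichO (QO_bi i) hp1 * eichO (QO_bi i) hp2 := by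
        rw [e1]
        apply eichO_congr
        · rfl
        · exact hsum.symm
      rw [e2]
      apply mul_mem
      · by_cases hji : j = Sum.inr i
        · subst hji
          rw [eichO_eq_one]
          exact one_mem _
        · exact hH i j (Ne.symm hi1) hji _
      · apply ih y' hi2
        intro k hk
        change y k - ((y j) • ba F m j) k = 0
        by_cases hkj : k = j
        · subst hkj
          rw [Pi.smul_apply, ba_same, smul_eq_mul, mul_one, sub_self]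
        · rw [Pi.smul_apply, ba_ne hkj, smul_zero, sub_zero]
          exact h0 k (by rw [Finset.mem_insert]; push Not; exact ⟨hkj, hk⟩)
  have h2 : ∀ (i : Fin m ⊕ Fin m) (y : Unit ⊕ (Fin m ⊕ Fin m) → F) (hy : QuadraticMap.polarBilin (QO m F) (ba F m (Sum.inr i)) y = 0),
      eichO (QO_bi i) hy ∈ H := by
    intro i y hy
    apply h1 i (Finset.univ.erase (Sum.inr (pt m i))) y (by simp)
    intro j hj
    have : j = Sum.inr (pt m i) := by
      by_contra h
      exact hj (Finset.mem_erase.mpr ⟨h, Finset.mem_univ _⟩)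
    rw [this, ← polar_bi i y, hy]
  have h3 : ∀ u : Unit ⊕ (Fin m ⊕ Fin m) → F, u ≠ 0 → QO m F u = 0 → ∃ g ∈ H, ∃ (k : Fin m ⊕ Fin m) (a : F), a ≠ 0 ∧ g.1 u = a • ba F m (Sum.inr k) := by
    intro u hu hQ
    obtain ⟨k, hk⟩ := exists_coord hu hQ
    obtain ⟨g, hg, d, hgd, -, -⟩ := T1 H u hk (fun y hy => h2 _ y hy)
    refine ⟨g, hg, k, u (Sum.inr k), hk, ?_⟩
    have e4 : QO m F (g.1 u) = 0 := by rw [map_coe, hQ]
    rw [hgd, Q_ab] at e4
    rw [hgd, (mul_eq_zero.mp e4).resolve_left hk, zero_smul, add_zero]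
  unfold eichG
  rw [Subgroup.closure_le]
  rintro g ⟨u, y, hu, huy, rfl⟩
  by_cases h0 : u = 0
  · subst h0
    have : eichO hu huy = 1 := by
      apply O_ext
      intro x
      rw [eichO_apply]
      simp
    rw [this]
    exact one_mem _
  · obtain ⟨g, hg, k, a, ha, hgu⟩ := h3 u h0 hu
    have e1 := eichO_conj g hu huy
    have e2 : g * eichO hu huy * g⁻¹ ∈ H := by
      rw [e1]
      have hq1 : QO m F (a • ba F m (Sum.inr k)) = 0 := by rw [← hgu, map_coe, hu]
      have hq2 : QuadraticMap.polarBilin (QO m F) (a • ba F m (Sum.inr k)) (g.1 y) = 0 := by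
        rw [← hgu]; exact (polar_coe _ g u y).trans huy
      have hq4 : QuadraticMap.polarBilin (QO m F) (ba F m (Sum.inr k)) (g.1 y) = 0 := by
        rw [_root_.map_smul, LinearMap.smul_apply, smul_eq_mul] at hq2
        exact (mul_eq_zero.mp hq2).resolve_left ha
      have hq3 : QuadraticMap.polarBilin (QO m F) (ba F m (Sum.inr k)) (a • g.1 y) = 0 := by
        rw [_root_.map_smul, hq4, smul_zero]
      have e3 := eichO_smul (QO_bi (F := F) k) hq4 a hq1 hq2 hq3
      have e4 := eichO_congr (u' := a • ba F m (Sum.inr k)) (y' := g.1 y) (by rw [map_coe, hu]) (by rw [polar_coe]; exact huy) hq1 hq2 hgu rfl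
      rw [e4, e3]
      exact h2 k _ _
    have e5 : eichO hu huy = g⁻¹ * (g * eichO hu huy * g⁻¹) * g := by group
    rw [SetLike.mem_coe, e5]
    exact mul_mem (mul_mem (inv_mem hg) e2) hg

theorem T2 {k l : Fin m ⊕ Fin m} (h1 : l ≠ k) (h2 : l ≠ pt m k) {a : F} (ha : a ≠ 0) :
    ∃ g ∈ eichG (QO m F), g.1 (a • ba F m (Sum.inr k)) = ba F m (Sum.inr l) := by
  have hpi : pt m (pt m k) = k := pt_pt k
  have n1 : (Sum.inr l : Unit ⊕ (Fin m ⊕ Fin m)) ≠ Sum.inr k := fun h => h1 (Sum.inr_injective h)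
  have n2 : (Sum.inr l : Unit ⊕ (Fin m ⊕ Fin m)) ≠ Sum.inr (pt m k) := fun h => h2 (Sum.inr_injective h)
  have hy : QuadraticMap.polarBilin (QO m F) (ba F m (Sum.inr (pt m k))) (a⁻¹ • ba F m (Sum.inr l)) = 0 := by
    apply polar_smul
    rw [hpi]; exact n1
  have e1 := eichO_apply (QO_bi (F := F) (pt m k)) hy (a • ba F m (Sum.inr k))
  have hi : QuadraticMap.polarBilin (QO m F) (ba F m (Sum.inr (pt m k))) (a • ba F m (Sum.inr k)) = a := by
    rw [polar_bi, hpi, Pi.smul_apply, ba_same, smul_eq_mul, mul_one]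
  rw [hi] at e1
  have hl : ((eichO (QO_bi (F := F) (pt m k)) hy).1 (a • ba F m (Sum.inr k))) (Sum.inr l) = 1 := by
    rw [e1, Pi.add_apply, Pi.add_apply, Pi.smul_apply, Pi.smul_apply, Pi.smul_apply, Pi.smul_apply, ba_same, ba_ne n1, ba_ne n2]
    simp only [smul_eq_mul, mul_zero, mul_one, add_zero, zero_add]
    exact mul_inv_cancel₀ ha
  obtain ⟨g, hg, d', hgd, -, -⟩ := T1 (eichG (QO m F)) ((eichO (QO_bi (F := F) (pt m k)) hy).1 (a • ba F m (Sum.inr k))) (k := l)
    (by rw [hl]; exact one_ne_zero) (fun y hy => eichO_mem _ _)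
  refine ⟨g * eichO (QO_bi (F := F) (pt m k)) hy, mul_mem hg (eichO_mem _ _), ?_⟩
  have e2 : (g * eichO (QO_bi (F := F) (pt m k)) hy).1 (a • ba F m (Sum.inr k)) = g.1 ((eichO (QO_bi (F := F) (pt m k)) hy).1 (a • ba F m (Sum.inr k))) := rfl
  rw [e2, hgd, hl]
  have h3 : QO m F (g.1 ((eichO (QO_bi (F := F) (pt m k)) hy).1 (a • ba F m (Sum.inr k)))) = 0 := by
    rw [map_coe, map_coe, CfsgLib.Quad.map_smul, QO_bi, mul_zero]
  rw [hgd, hl, Q_ab, one_mul] at h3
  rw [h3, one_smul, zero_smul, add_zero]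

/-- transitivity on singular vectors -/
theorem T4 (hm : 2 ≤ m) {u : Unit ⊕ (Fin m ⊕ Fin m) → F} (hu : u ≠ 0) (hQ : QO m F u = 0) (l : Fin m ⊕ Fin m) :
    ∃ g ∈ eichG (QO m F), g.1 u = ba F m (Sum.inr l) := by
  obtain ⟨k, hk⟩ := exists_coord hu hQ
  obtain ⟨g, hg, d, hgd, -, -⟩ := T1 (eichG (QO m F)) u hk (fun y hy => eichO_mem _ _)
  have e4 : QO m F (g.1 u) = 0 := by rw [map_coe, hQ]
  rw [hgd, Q_ab] at e4
  rw [(mul_eq_zero.mp e4).resolve_left hk, zero_smul, add_zero] at hgd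
  by_cases hc : l ≠ k ∧ l ≠ pt m k
  · obtain ⟨g', hg', h'⟩ := T2 hc.1 hc.2 hk
    refine ⟨g' * g, mul_mem hg' hg, ?_⟩
    have e2 : (g' * g).1 u = g'.1 (g.1 u) := rfl
    rw [e2, hgd, h']
  · obtain ⟨l2, h1, h2⟩ := exists_other hm k
    obtain ⟨g', hg', h'⟩ := T2 h1 h2 hk
    have h3 : l ≠ l2 ∧ l ≠ pt m l2 := by
      constructor
      · rintro rfl; exact hc ⟨h1, h2⟩
      · rintro rfl
        apply hc
        refine ⟨?_, ?_⟩
        · intro h; exact h2 (by rw [← h, pt_pt])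
        · intro h; exact h1 (by rw [← pt_pt l2, h, pt_pt])
    obtain ⟨g'', hg'', h''⟩ := T2 h3.1 h3.2 (one_ne_zero : (1 : F) ≠ 0)
    rw [one_smul] at h''
    refine ⟨g'' * (g' * g), mul_mem hg'' (mul_mem hg' hg), ?_⟩
    have e2 : (g'' * (g' * g)).1 u = g''.1 (g'.1 (g.1 u)) := rfl
    rw [e2, hgd, h', h'']

end CfsgLib.Chev.Rep.Od
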