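import Cfsg.Agent.Lib.ChevRep5
set_option autoImplicit false
set_option linter.style.haveILetI false

/-! The commutator subgroup of the orthogonal group of the odd form in dimension `5`, over any field. -/

namespace CfsgLib.Chev.Rep.Od
open CfsgLib.Quad Module Cfsg CfsgLib.Chev.Rep
open scoped commutatorElement

variable {F : Type*} [Field F] {m : ℕ}

theorem eq_smul_v0 (z : Unit ⊕ (Fin m ⊕ Fin m) → F) (h : ∀ k, z (Sum.inr k) = 0) : z = z (Sum.inl ()) • ba F m (Sum.inl ()) := by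
  funext a
  rcases a with ⟨⟩ | a
  · rw [Pi.smul_apply, ba_same, smul_eq_mul, mul_one]
  · rw [h, Pi.smul_apply, ba_ne (by simp), smul_zero]

theorem coord_eq (g : O (QO m F)) {i : Fin m ⊕ Fin m} {c : F} (h : g.1 (ba F m (Sum.inr i)) = c • ba F m (Sum.inr i))
    (x : Unit ⊕ (Fin m ⊕ Fin m) → F) : c * (g.1 x) (Sum.inr (pt m i)) = x (Sum.inr (pt m i)) := by
  have h1 := polar_coe (QO m F) g (ba F m (Sum.inr i)) x
  rw [h, LinearMap.map_smul₂, polar_bi, polar_bi, smul_eq_mul] at h1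
  exact h1

/-- modulo Eichler transformations every isometry is diagonal -/
theorem diag (g : O (QO 2 F)) : ∃ h ∈ eichG (QO 2 F), ∀ a, ∃ c : F, (h * g).1 (ba F 2 a) = c • ba F 2 a := by
  have hE : ∀ (k : Fin 2 ⊕ Fin 2) (y : Unit ⊕ (Fin 2 ⊕ Fin 2) → F) (hy : QuadraticMap.polarBilin (QO 2 F) (ba F 2 (Sum.inr (pt 2 k))) y = 0),
      eichO (QO_bi (pt 2 k)) hy ∈ eichG (QO 2 F) := fun k y hy => eichO_mem _ _
  have hinj : ∀ (h : O (QO 2 F)) (a), h.1 (ba F 2 a) ≠ 0 := by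
    intro h a h0
    have h1 : ba F 2 a = 0 := h.1.injective (by rw [h0, _root_.map_zero])
    have := congrFun h1 a
    rw [ba_same] at this
    exact one_ne_zero this
  -- e₀
  obtain ⟨h1, hh1, e1⟩ := T4 (m := 2) le_rfl (hinj g (Sum.inr (Sum.inl 0))) (by rw [map_coe, QO_bi]) (Sum.inl 0)
  have a1 : (h1 * g).1 (ba F 2 (Sum.inr (Sum.inl 0))) = (1 : F) • ba F 2 (Sum.inr (Sum.inl 0)) := by
    rw [one_smul]; exact e1
  -- f₀
  have w1 := coord_eq (h1 * g) a1 (ba F 2 (Sum.inr (Sum.inr 0)))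
  rw [one_mul] at w1
  have w1' : ((h1 * g).1 (ba F 2 (Sum.inr (Sum.inr 0)))) (Sum.inr (Sum.inr 0)) = 1 := w1.trans (ba_same _)
  obtain ⟨h2, hh2, d2, e2, e2', -⟩ := T1 (eichG (QO 2 F)) ((h1 * g).1 (ba F 2 (Sum.inr (Sum.inr 0)))) (k := Sum.inr 0)
    (by rw [w1']; exact one_ne_zero) (hE _)
  have q2 : QO 2 F (h2.1 ((h1 * g).1 (ba F 2 (Sum.inr (Sum.inr 0))))) = 0 := by rw [map_coe, map_coe, QO_bi]
  rw [e2, Q_ab, w1', one_mul] at q2
  rw [q2, zero_smul, add_zero, w1', one_smul] at e2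
  set g2 := h2 * (h1 * g) with hg2
  have b1 : g2.1 (ba F 2 (Sum.inr (Sum.inl 0))) = ba F 2 (Sum.inr (Sum.inl 0)) := by
    change h2.1 ((h1 * g).1 _) = _
    rw [a1, one_smul]
    exact e2'
  have b2 : g2.1 (ba F 2 (Sum.inr (Sum.inr 0))) = ba F 2 (Sum.inr (Sum.inr 0)) := e2
  -- e₁
  have c1 : ∃ h ∈ eichG (QO 2 F), (h * g2).1 (ba F 2 (Sum.inr (Sum.inl 0))) = ba F 2 (Sum.inr (Sum.inl 0)) ∧
      (h * g2).1 (ba F 2 (Sum.inr (Sum.inr 0))) = ba F 2 (Sum.inr (Sum.inr 0)) ∧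
      ((h * g2).1 (ba F 2 (Sum.inr (Sum.inl 1)))) (Sum.inr (Sum.inl 1)) ≠ 0 := by
    by_cases hc : (g2.1 (ba F 2 (Sum.inr (Sum.inl 1)))) (Sum.inr (Sum.inl 1)) = 0
    · have n1 : (ba F 2 (Sum.inr (Sum.inl 1))) (Sum.inr (Sum.inr 0)) = 0 := ba_ne (by simp)
      have n2 : (ba F 2 (Sum.inr (Sum.inl 1))) (Sum.inr (Sum.inl 0)) = 0 := ba_ne (by simp)
      set u := g2.1 (ba F 2 (Sum.inr (Sum.inl 1))) with hu
      have u0 : u ≠ 0 := hinj _ _
      have hQu : QO 2 F u = 0 := by rw [hu, map_coe, QO_bi]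
      have z1 : u (Sum.inr (Sum.inr 0)) = 0 := by
        have := coord_eq g2 (by rw [b1, one_smul]) (ba F 2 (Sum.inr (Sum.inl 1)))
        rw [one_mul] at this
        exact this.trans n1
      have z2 : u (Sum.inr (Sum.inl 0)) = 0 := by
        have := coord_eq g2 (by rw [b2, one_smul]) (ba F 2 (Sum.inr (Sum.inl 1)))
        rw [one_mul] at this
        exact this.trans n2
      have z3 : u (Sum.inl ()) = 0 := by
        have : u (Sum.inl ()) ^ 2 = 0 := by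
          rw [← hQu, QO_apply]
          unfold quadFormOdd
          rw [Fin.sum_univ_two, z1, z2, hc]
          ring
        exact pow_eq_zero_iff two_ne_zero |>.mp this
      have z4 : u (Sum.inr (Sum.inr 1)) ≠ 0 := by
        intro h
        apply u0
        funext a
        rcases a with ⟨⟩ | (a | a)
        · exact z3
        · fin_cases a
          · exact z2
          · exact hc
        · fin_cases a
          · exact z1
          · exact h
      have hy : QuadraticMap.polarBilin (QO 2 F) (ba F 2 (Sum.inr (Sum.inl 1))) (ba F 2 (Sum.inl ())) = 0 := by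
        rw [polar_bi, ba_ne (by simp)]
      refine ⟨eichO (QO_bi (Sum.inl 1)) hy, eichO_mem _ _, ?_, ?_, ?_⟩
      · change (eichO (QO_bi (Sum.inl 1)) hy).1 (g2.1 _) = _
        rw [b1, eichO_apply, polar_bi, polar_v0, ba_ne (by simp [pt]), ba_ne (by simp)]
        simp
      · change (eichO (QO_bi (Sum.inl 1)) hy).1 (g2.1 _) = _
        rw [b2, eichO_apply, polar_bi, polar_v0, ba_ne (by simp [pt]), ba_ne (by simp)]
        simp
      · change ((eichO (QO_bi (Sum.inl 1)) hy).1 u) (Sum.inr (Sum.inl 1)) ≠ 0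
        rw [eichO_apply, polar_bi, polar_v0, QO_v0, z3, Pi.add_apply, Pi.add_apply, hc, Pi.smul_apply, Pi.smul_apply,
          ba_ne (by simp), ba_same]
        change 0 + u (Sum.inr (Sum.inr 1)) • (0 : F) + (-(2 * 0) - 1 * u (Sum.inr (Sum.inr 1))) • (1 : F) ≠ 0
        simpa using z4
    · exact ⟨1, one_mem _, by rw [one_mul]; exact b1, by rw [one_mul]; exact b2, by rw [one_mul]; exact hc⟩
  obtain ⟨h3, hh3, c1, c2, c3⟩ := c1
  set g3 := h3 * g2 with hg3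
  have y1 : (g3.1 (ba F 2 (Sum.inr (Sum.inl 1)))) (Sum.inr (Sum.inr 0)) = 0 := by
    have := coord_eq g3 (by rw [c1, one_smul]) (ba F 2 (Sum.inr (Sum.inl 1)))
    rw [one_mul] at this
    exact this.trans (ba_ne (by simp [pt]))
  have y2 : (g3.1 (ba F 2 (Sum.inr (Sum.inl 1)))) (Sum.inr (Sum.inl 0)) = 0 := by
    have := coord_eq g3 (by rw [c2, one_smul]) (ba F 2 (Sum.inr (Sum.inl 1)))
    rw [one_mul] at this
    exact this.trans (ba_ne (by simp [pt]))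
  obtain ⟨h4, hh4, d4, e4, e4', e4''⟩ := T1 (eichG (QO 2 F)) (g3.1 (ba F 2 (Sum.inr (Sum.inl 1)))) (k := Sum.inl 1) c3 (hE _)
  have q4 : QO 2 F (h4.1 (g3.1 (ba F 2 (Sum.inr (Sum.inl 1))))) = 0 := by rw [map_coe, map_coe, QO_bi]
  rw [e4, Q_ab] at q4
  rw [(mul_eq_zero.mp q4).resolve_left c3, zero_smul, add_zero] at e4
  set a := (g3.1 (ba F 2 (Sum.inr (Sum.inl 1)))) (Sum.inr (Sum.inl 1)) with ha
  set g4 := h4 * g3 with hg4
  have f1 : g4.1 (ba F 2 (Sum.inr (Sum.inl 0))) = (1 : F) • ba F 2 (Sum.inr (Sum.inl 0)) := by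
    change h4.1 (g3.1 _) = _
    rw [c1, one_smul]
    exact e4'' (Sum.inl 0) (by simp) (by simp [pt]) y1
  have f2 : g4.1 (ba F 2 (Sum.inr (Sum.inr 0))) = (1 : F) • ba F 2 (Sum.inr (Sum.inr 0)) := by
    change h4.1 (g3.1 _) = _
    rw [c2, one_smul]
    exact e4'' (Sum.inr 0) (by simp) (by simp [pt]) y2
  have f3 : g4.1 (ba F 2 (Sum.inr (Sum.inl 1))) = a • ba F 2 (Sum.inr (Sum.inl 1)) := e4
  -- f₁
  have x1 := coord_eq g4 f1 (ba F 2 (Sum.inr (Sum.inr 1)))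
  have x2 := coord_eq g4 f2 (ba F 2 (Sum.inr (Sum.inr 1)))
  have x3 := coord_eq g4 f3 (ba F 2 (Sum.inr (Sum.inr 1)))
  rw [one_mul] at x1 x2
  have x1' : (g4.1 (ba F 2 (Sum.inr (Sum.inr 1)))) (Sum.inr (Sum.inr 0)) = 0 := x1.trans (ba_ne (by simp [pt]))
  have x2' : (g4.1 (ba F 2 (Sum.inr (Sum.inr 1)))) (Sum.inr (Sum.inl 0)) = 0 := x2.trans (ba_ne (by simp [pt]))
  have x3' : a * (g4.1 (ba F 2 (Sum.inr (Sum.inr 1)))) (Sum.inr (Sum.inr 1)) = 1 := x3.trans (ba_same _)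
  have x4 : (g4.1 (ba F 2 (Sum.inr (Sum.inr 1)))) (Sum.inr (Sum.inr 1)) ≠ 0 := right_ne_zero_of_mul_eq_one x3'
  obtain ⟨h5, hh5, d5, e5, e5', e5''⟩ := T1 (eichG (QO 2 F)) (g4.1 (ba F 2 (Sum.inr (Sum.inr 1)))) (k := Sum.inr 1) x4 (hE _)
  have q5 : QO 2 F (h5.1 (g4.1 (ba F 2 (Sum.inr (Sum.inr 1))))) = 0 := by rw [map_coe, map_coe, QO_bi]
  rw [e5, Q_ab] at q5
  rw [(mul_eq_zero.mp q5).resolve_left x4, zero_smul, add_zero] at e5
  set b := (g4.1 (ba F 2 (Sum.inr (Sum.inr 1)))) (Sum.inr (Sum.inr 1)) with hb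
  set g5 := h5 * g4 with hg5
  have j1 : g5.1 (ba F 2 (Sum.inr (Sum.inl 0))) = (1 : F) • ba F 2 (Sum.inr (Sum.inl 0)) := by
    change h5.1 (g4.1 _) = _
    rw [f1, one_smul]
    exact e5'' (Sum.inl 0) (by simp) (by simp [pt]) x1'
  have j2 : g5.1 (ba F 2 (Sum.inr (Sum.inr 0))) = (1 : F) • ba F 2 (Sum.inr (Sum.inr 0)) := by
    change h5.1 (g4.1 _) = _
    rw [f2, one_smul]
    exact e5'' (Sum.inr 0) (by simp) (by simp [pt]) x2'
  have j3 : g5.1 (ba F 2 (Sum.inr (Sum.inl 1))) = a • ba F 2 (Sum.inr (Sum.inl 1)) := by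
    change h5.1 (g4.1 _) = _
    rw [f3, _root_.map_smul]
    congr 1
  have j4 : g5.1 (ba F 2 (Sum.inr (Sum.inr 1))) = b • ba F 2 (Sum.inr (Sum.inr 1)) := e5
  -- v₀
  have j5 : ∀ k, (g5.1 (ba F 2 (Sum.inl ()))) (Sum.inr k) = 0 := by
    have t1 := coord_eq g5 j1 (ba F 2 (Sum.inl ()))
    have t2 := coord_eq g5 j2 (ba F 2 (Sum.inl ()))
    have t3 := coord_eq g5 j3 (ba F 2 (Sum.inl ()))
    have t4 := coord_eq g5 j4 (ba F 2 (Sum.inl ()))
    rw [ba_ne (by simp)] at t1 t2 t3 t4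
    rw [one_mul] at t1 t2
    have t3' := (mul_eq_zero.mp t3).resolve_left c3
    have t4' := (mul_eq_zero.mp t4).resolve_left x4
    intro k
    rcases k with k | k
    · fin_cases k
      · exact t2
      · exact t4'
    · fin_cases k
      · exact t1
      · exact t3'
  refine ⟨h5 * (h4 * (h3 * (h2 * h1))), mul_mem hh5 (mul_mem hh4 (mul_mem hh3 (mul_mem hh2 hh1))), ?_⟩
  have hgg : h5 * (h4 * (h3 * (h2 * h1))) * g = g5 := by
    rw [hg5, hg4, hg3, hg2]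
    group
  rw [hgg]
  intro x
  rcases x with ⟨⟩ | (k | k)
  · exact ⟨_, eq_smul_v0 _ j5⟩
  · fin_cases k
    · exact ⟨_, j1⟩
    · exact ⟨_, j3⟩
  · fin_cases k
    · exact ⟨_, j2⟩
    · exact ⟨_, j4⟩

theorem diag_comm {g h : O (QO m F)} (hg : ∀ a, ∃ c : F, g.1 (ba F m a) = c • ba F m a)
    (hh : ∀ a, ∃ c : F, h.1 (ba F m a) = c • ba F m a) : g * h = h * g := by
  apply Subtype.ext
  apply LinearEquiv.toLinearMap_injective
  apply (Pi.basisFun F _).ext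
  intro a
  rw [Pi.basisFun_apply]
  obtain ⟨c, hc⟩ := hg a
  obtain ⟨d, hd⟩ := hh a
  change g.1 (h.1 (ba F m a)) = h.1 (g.1 (ba F m a))
  rw [hc, hd, _root_.map_smul, _root_.map_smul, hc, hd, smul_comm]

theorem commutator_le_eich : commutator (O (QO 2 F)) ≤ eichG (QO 2 F) := by
  have hN := eichG_normal (QO 2 F)
  rw [commutator_eq_closure, Subgroup.closure_le]
  rintro _ ⟨a, b, rfl⟩
  obtain ⟨h, hh, ha⟩ := diag a
  obtain ⟨k, hk, hb⟩ := diag b
  have h1 := diag_comm ha hb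
  change ⁅a, b⁆ ∈ eichG (QO 2 F)
  rw [← QuotientGroup.eq_one_iff]
  change QuotientGroup.mk' (eichG (QO 2 F)) ⁅a, b⁆ = 1
  have h2 : QuotientGroup.mk' (eichG (QO 2 F)) h = 1 := (QuotientGroup.eq_one_iff _).mpr hh
  have h3 : QuotientGroup.mk' (eichG (QO 2 F)) k = 1 := (QuotientGroup.eq_one_iff _).mpr hk
  have h4 := congrArg (QuotientGroup.mk' (eichG (QO 2 F))) h1
  rw [_root_.map_mul, _root_.map_mul, _root_.map_mul, _root_.map_mul, _root_.map_mul, _root_.map_mul, h2, h3, one_mul, one_mul] at h4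
  rw [map_commutatorElement, commutatorElement_eq_one_iff_mul_comm]
  exact h4

theorem commutator_eq (hF : ∃ s : F, s ≠ 0 ∧ s ≠ 1) : commutator (O (QO 2 F)) = eichG (QO 2 F) := by
  obtain ⟨s, hs0, hs1⟩ := hF
  have hs2 : s - 1 ≠ 0 := sub_ne_zero.mpr hs1
  apply le_antisymm commutator_le_eich
  apply eichG_le_of_basis
  intro i a h hne c
  have he : QO 2 F (ba F 2 (Sum.inr i)) = 0 := QO_bi i
  have hf : QO 2 F (ba F 2 (Sum.inr (pt 2 i))) = 0 := QO_bi _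
  have hef : QuadraticMap.polarBilin (QO 2 F) (ba F 2 (Sum.inr i)) (ba F 2 (Sum.inr (pt 2 i))) = 1 := by
    rw [polar_bi, ba_same]
  have h1 : QO 2 F (ba F 2 (Sum.inr i) - s⁻¹ • ba F 2 (Sum.inr (pt 2 i))) ≠ 0 := by
    have e : ba F 2 (Sum.inr i) - s⁻¹ • ba F 2 (Sum.inr (pt 2 i)) = (1 : F) • ba F 2 (Sum.inr i) + (-s⁻¹) • ba F 2 (Sum.inr (pt 2 i)) := by module
    rw [e, Q_ab, one_mul]
    exact neg_ne_zero.mpr (inv_ne_zero hs0)
  have h2 : QO 2 F (ba F 2 (Sum.inr i) - ba F 2 (Sum.inr (pt 2 i))) ≠ 0 := by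
    have e : ba F 2 (Sum.inr i) - ba F 2 (Sum.inr (pt 2 i)) = (1 : F) • ba F 2 (Sum.inr i) + (-1 : F) • ba F 2 (Sum.inr (pt 2 i)) := by module
    rw [e, Q_ab, one_mul]
    exact neg_ne_zero.mpr one_ne_zero
  have hsc := exists_hscale he hf hef hs0 h1 h2
  set t := reflO h1 * reflO h2 with ht
  have t1 : t.1 (ba F 2 (Sum.inr i)) = s • ba F 2 (Sum.inr i) := by
    have hne' : (Sum.inr (pt 2 i) : Unit ⊕ (Fin 2 ⊕ Fin 2)) ≠ Sum.inr i := fun h => pt_ne i (Sum.inr_injective h)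
    rw [hsc, polar_bi, polar_bi, pt_pt, ba_same, ba_ne hne']
    module
  set y := ((s - 1)⁻¹ * c) • ba F 2 a with hy
  have hby : QuadraticMap.polarBilin (QO 2 F) (ba F 2 (Sum.inr i)) y = 0 := polar_smul h _
  have t2 : t.1 y = y := by
    have hfy : QuadraticMap.polarBilin (QO 2 F) (ba F 2 (Sum.inr (pt 2 i))) y = 0 := by
      rw [polar_bi, pt_pt, hy, Pi.smul_apply, ba_ne (Ne.symm hne), smul_zero]
    rw [hsc, hby, hfy]
    module
  have hc1 := eichO_conj t he hby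
  have q1 : QO 2 F (s • ba F 2 (Sum.inr i)) = 0 := by rw [CfsgLib.Quad.map_smul, he, mul_zero]
  have q2 : QuadraticMap.polarBilin (QO 2 F) (s • ba F 2 (Sum.inr i)) y = 0 := by rw [LinearMap.map_smul₂, hby, smul_zero]
  have q3 : QuadraticMap.polarBilin (QO 2 F) (ba F 2 (Sum.inr i)) (s • y) = 0 := by rw [_root_.map_smul, hby, smul_zero]
  have hc2 : t * eichO he hby * t⁻¹ = eichO he q3 := by
    rw [hc1, ← eichO_smul he hby s q1 q2 q3]
    exact eichO_congr _ _ _ _ t1 t2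
  have hsum : c • ba F 2 a + y = s • y := by
    rw [hy, smul_smul, ← add_smul]
    congr 1
    field_simp
    ring
  have q4 : QuadraticMap.polarBilin (QO 2 F) (ba F 2 (Sum.inr i)) (c • ba F 2 a + y) = 0 := by rw [hsum]; exact q3
  have hm := eichO_mul he (polar_smul h c) hby q4
  have hc3 : eichO he q3 = eichO he (polar_smul h c) * eichO he hby := by
    rw [hm]
    exact eichO_congr _ _ _ _ rfl hsum.symm
  have hfin : eichO (QO_bi (F := F) i) (polar_smul h c) = ⁅t, eichO he hby⁆ := by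
    rw [commutatorElement_def, hc2, hc3, mul_inv_cancel_right]
  rw [hfin]
  exact Subgroup.commutator_mem_commutator (Subgroup.mem_top _) (Subgroup.mem_top _)

end CfsgLib.Chev.Rep.Od
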