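import Cfsg.Agent.Lib.CGrp12
import Cfsg.Agent.Lib.ChevCD
set_option autoImplicit false
set_option maxRecDepth 1000000

namespace CfsgLib.Chev
open Cfsg.Lie

theorem sym_all {D : ChevalleyDatum} (hD : D ∈ [chevG2, chevB2, chevD4, chevF4, chevE6, chevE7, chevE8]) : Sym D := by
  simp only [List.mem_cons, List.not_mem_nil, or_false] at hD
  rcases hD with rfl | rfl | rfl | rfl | rfl | rfl | rfl
  · exact sym_of_chk (d := [1, 3]) (by decide +kernel)
  · exact sym_of_chk (d := [1, 2]) (by decide +kernel)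
  · exact sym_of_chk (d := [1, 1, 1, 1]) (by decide +kernel)
  · exact sym_of_chk (d := [1, 1, 2, 2]) (by decide +kernel)
  · exact sym_of_chk (d := [1, 1, 1, 1, 1, 1]) (by decide +kernel)
  · exact sym_of_chk (d := [1, 1, 1, 1, 1, 1, 1]) (by decide +kernel)
  · exact sym_of_chk (d := [1, 1, 1, 1, 1, 1, 1, 1]) (by decide +kernel)

end CfsgLib.Chev
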