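import Mathlib
import Cfsg.Prelude.Def_Characters
import Cfsg.Agent.Lib.CharBasic
import Cfsg.Agent.Lib.CharBasic2
import Cfsg.Agent.Lib.CharInd
import Cfsg.Agent.Lib.CharClifford
import Cfsg.Agent.Lib.CliffordCorr
import Cfsg.Agent.Lib.Gallagher2

/-!
# Restriction of an invariant character over an abelian chief factor
-/

set_option autoImplicit false
set_option linter.style.haveILetI false
set_option linter.unusedSectionVars false

open scoped ComplexConjugate

namespace CfsgLib.ChiefRes

open Cfsg CfsgLib.CharBasic CfsgLib.CharInd CfsgLib.CharClifford CfsgLib.CliffordCorr CfsgLib.Gallagher2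

universe u v

/-- norm of the restriction when no nontrivial twist fixes the character -/
theorem norm_res {H : Type u} [Group H] [Fintype H] {N : Subgroup H} [N.Normal] [Fintype N] (hab : ∀ x y : H, x * y * x⁻¹ * y⁻¹ ∈ N)
    {ϑ : H → ℂ} (hϑ : IsIrrCharacter H ϑ)
    (htriv : ∀ lam : H →* ℂˣ, (∀ n ∈ N, lam n = 1) → (∀ h, (lam h : ℂ) * ϑ h = ϑ h) → ∀ h, lam h = 1) :
    classInner (fun n : N => ϑ n) (fun n : N => ϑ n) = 1 := by
  classical
  have hcomm : ∀ a b : H ⧸ N, a * b = b * a := by
    intro a b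
    obtain ⟨x, rfl⟩ := QuotientGroup.mk_surjective a
    obtain ⟨y, rfl⟩ := QuotientGroup.mk_surjective b
    rw [← QuotientGroup.mk_mul, ← QuotientGroup.mk_mul, QuotientGroup.eq]
    have := hab y⁻¹ x⁻¹
    simpa [mul_assoc] using this
  have hdeg : ∀ ψ : IrrCharacter (H ⧸ N), (ψ : H ⧸ N → ℂ) 1 = 1 := fun ψ => IsIrrCharacter.degree_one_of_comm ψ.2 hcomm
  have hreg : ∀ h : H, ∑ ψ : IrrCharacter (H ⧸ N), (ψ : H ⧸ N → ℂ) (QuotientGroup.mk' N h) = if h ∈ N then (Nat.card (H ⧸ N) : ℂ) else 0 := by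
    intro h
    have h1 := sum_irr_one_mul (QuotientGroup.mk' N h)
    simp only [hdeg, one_mul] at h1
    rw [h1]
    congr 1
    exact propext (QuotientGroup.eq_one_iff h)
  have h1 : ∑ ψ : IrrCharacter (H ⧸ N), classInner (fun h => (ψ : H ⧸ N → ℂ) (QuotientGroup.mk' N h) * ϑ h) ϑ = classInner (fun n : N => ϑ n) (fun n : N => ϑ n) := by
    simp only [classInner]
    rw [← Finset.mul_sum, Finset.sum_comm]
    have h2 : ∀ h : H, ∑ ψ : IrrCharacter (H ⧸ N), (ψ : H ⧸ N → ℂ) (QuotientGroup.mk' N h) * ϑ h * conj (ϑ h) = (Nat.card (H ⧸ N) : ℂ) * extendByZero N (fun n : N => ϑ n * conj (ϑ n)) h := by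
      intro h
      rw [← Finset.sum_mul, ← Finset.sum_mul, hreg]
      by_cases hh : h ∈ N
      · rw [if_pos hh, ext_of_mem hh]; ring
      · rw [if_neg hh, ext_of_not_mem hh]; ring
    rw [Finset.sum_congr rfl (fun h _ => h2 h), ← Finset.mul_sum, sum_ext, ← mul_assoc]
    congr 1
    have h3 : (Nat.card H : ℂ) = Nat.card (H ⧸ N) * Nat.card N := by exact_mod_cast Subgroup.card_eq_card_quotient_mul_card_subgroup N
    have h4 : (Nat.card N : ℂ) ≠ 0 := by exact_mod_cast Nat.card_pos.ne'
    have h5 : (Nat.card (H ⧸ N) : ℂ) ≠ 0 := by exact_mod_cast Nat.card_pos.ne'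
    rw [h3]; field_simp
  rw [← h1]
  rw [Finset.sum_eq_single (irrOne (H ⧸ N))]
  · have : (fun h => (irrOne (H ⧸ N) : H ⧸ N → ℂ) (QuotientGroup.mk' N h) * ϑ h) = ϑ := by
      funext h; rw [irrOne_apply, one_mul]
    rw [this, IsIrrCharacter.inner_self hϑ]
  · intro ψ _ hne
    obtain ⟨lam, hlam⟩ := IsCharacter.exists_linear (irr_isCharacter ψ) (hdeg ψ)
    have h2 : (fun h => (ψ : H ⧸ N → ℂ) (QuotientGroup.mk' N h) * ϑ h) = fun h => ((lam.comp (QuotientGroup.mk' N) h : ℂˣ) : ℂ) * ϑ h := by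
      funext h; rw [hlam]; rfl
    rw [h2]
    rw [IsIrrCharacter.inner_eq_zero (IsCharacter.mul_linear_isIrr hϑ _) hϑ]
    intro heq
    apply hne
    have h3 := htriv (lam.comp (QuotientGroup.mk' N)) (by
      intro n hn
      have : QuotientGroup.mk' N n = 1 := (QuotientGroup.eq_one_iff n).mpr hn
      rw [MonoidHom.comp_apply, this, map_one]) (fun h => congrFun heq h)
    apply Subtype.ext
    funext x
    obtain ⟨h, rfl⟩ := QuotientGroup.mk'_surjective N x
    rw [hlam, irrOne_apply]
    have := h3 h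
    rw [MonoidHom.comp_apply] at this
    rw [this, Units.val_one]
  · intro h; exact absurd (Finset.mem_univ _) h

variable {G : Type u} [Group G] [Fintype G] {K L : Subgroup G} [hK : K.Normal] [hL : L.Normal]

theorem conjFn_subFun (k : K) (φ : L → ℂ) : conjFn k (subFun K φ) = subFun K (conjFn (k : G) φ) := by
  funext x
  rw [conjFn_apply]
  show φ _ = conjFn (k : G) φ _
  rw [conjFn_apply]
  rfl

theorem subFun_inj (hLK : L ≤ K) {φ φ' : L → ℂ} (h : subFun K φ = subFun K φ') : φ = φ' := by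
  funext x
  exact congrFun h ⟨⟨x, hLK x.2⟩, Subgroup.mem_subgroupOf.mpr x.2⟩

/-- pull a function on `L.subgroupOf K` back to `L` -/
theorem subFun_surj (hLK : L ≤ K) (ψ : L.subgroupOf K → ℂ) (hψ : IsIrrCharacter (L.subgroupOf K) ψ) :
    ∃ φ : L → ℂ, IsIrrCharacter L φ ∧ subFun K φ = ψ := by
  refine ⟨ψ ∘ (Subgroup.subgroupOfEquivOfLe hLK).symm, IsIrrCharacter.comp_equiv hψ _, ?_⟩
  rw [subFun_eq hLK]
  funext x
  simp

theorem chief_res (hLK : L < K) (hchief : ∀ M : Subgroup G, M.Normal → L ≤ M → M ≤ K → M = L ∨ M = K) (hab : ⁅K, K⁆ ≤ L)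
    {ϑ : K → ℂ} (hϑ : IsIrrCharacter K ϑ) (hinv : ∀ g : G, conjFn g ϑ = ϑ) :
    IsIrrCharacter L (resTo hLK.le ϑ) ∨
    (∃ (φ : L → ℂ) (e : ℕ), IsIrrCharacter L φ ∧ resTo hLK.le ϑ = (e : ℂ) • φ ∧ e ^ 2 = L.relIndex K) ∨
    (∃ F : Finset (L → ℂ), (∀ φ ∈ F, IsIrrCharacter L φ) ∧ F.card = L.relIndex K ∧ resTo hLK.le ϑ = ∑ φ ∈ F, φ) := by
  classical
  haveI : Fintype K := Fintype.ofFinite K
  haveI : Fintype L := Fintype.ofFinite L
  haveI : Fintype (L.subgroupOf K) := Fintype.ofFinite _
  have hϑc := IsIrrCharacter.isCharacter hϑ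
  have hresc : IsCharacter (L.subgroupOf K) (fun x : L.subgroupOf K => ϑ x) := IsCharacter.restrict hϑc _
  have hsubres : (fun x : L.subgroupOf K => ϑ x) = subFun K (resTo hLK.le ϑ) := rfl
  have habK : ∀ x y : K, x * y * x⁻¹ * y⁻¹ ∈ L.subgroupOf K := by
    intro x y
    rw [Subgroup.mem_subgroupOf]
    exact hab (Subgroup.commutator_mem_commutator x.2 y.2)
  have hrel : (L.subgroupOf K).index = L.relIndex K := rfl
  -- a constituent
  obtain ⟨φ', hφ'⟩ := exists_constituent hresc (by
    intro h0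
    have := congrFun h0 1
    exact IsIrrCharacter.one_ne_zero hϑ this)
  obtain ⟨φ, hφ, hφeq⟩ := subFun_surj hLK.le φ' φ'.2
  rw [← hφeq] at hφ'
  have hφs := subFun_irr hLK.le hφ
  -- conjugates
  have hinner : ∀ g : G, classInner (fun x : L.subgroupOf K => ϑ x) (subFun K (conjFn g φ)) = classInner (fun x : L.subgroupOf K => ϑ x) (subFun K φ) := by
    intro g
    rw [inner_sub hLK.le, inner_sub hLK.le]
    have h1 : conjFn g (resTo hLK.le ϑ) = resTo hLK.le ϑ := by
      funext x
      rw [conjFn_apply]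
      have := congrFun (hinv g) ⟨x, hLK.le x.2⟩
      rw [conjFn_apply] at this
      exact this
    conv_lhs => rw [← h1]
    rw [inner_conjFn_conjFn]
  have hTK : ∀ g : G, ∃ k ∈ K, g * k⁻¹ ∈ inertia φ := by
    intro g
    have h1 : classInner (fun x : L.subgroupOf K => ϑ x) (subFun K (conjFn g φ)) ≠ 0 := by rw [hinner]; exact hφ'
    obtain ⟨k, hk⟩ := conj_of_constituents hϑ hφs (subFun_irr hLK.le (isIrr_conjFn hφ g)) hφ' h1
    rw [conjFn_subFun] at hk
    have h2 := subFun_inj hLK.le hk
    refine ⟨k, k.2, ?_⟩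
    rw [mem_inertia, conjFn_mul, ← h2, conjFn_inv_conjFn]
  -- the intersection with the inertia group is normal
  have hLT : L ≤ inertia φ := le_inertia (IsCharacter.isClassFunction (IsIrrCharacter.isCharacter hφ))
  have hMn : (K ⊓ inertia φ).Normal := by
    constructor
    intro m hm g
    obtain ⟨k, hk, hgk⟩ := hTK g
    have h1 : k * m * k⁻¹ ∈ K ⊓ inertia φ := by
      have h2 : k * m * k⁻¹ = (k * m * k⁻¹ * m⁻¹) * m := by group
      rw [h2]
      have h3 : k * m * k⁻¹ * m⁻¹ ∈ L := hab (Subgroup.commutator_mem_commutator hk hm.1)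
      exact Subgroup.mul_mem _ ⟨hLK.le h3, hLT h3⟩ hm
    have h2 : g * m * g⁻¹ = (g * k⁻¹) * (k * m * k⁻¹) * (g * k⁻¹)⁻¹ := by group
    rw [h2]
    exact ⟨hK.conj_mem _ h1.1 _, (inertia φ).mul_mem ((inertia φ).mul_mem hgk h1.2) ((inertia φ).inv_mem hgk)⟩
  have hclif := clifford_degree hϑ hφs hφ'
  obtain ⟨e, he⟩ := IsCharacter.inner_nat hresc (IsIrrCharacter.isCharacter hφs)
  rw [he] at hclif
  have he0 : e ≠ 0 := by rintro rfl; rw [Nat.cast_zero] at he; exact hφ' he
  have hin : inertia (G := K) (subFun K φ) = (inertia φ).subgroupOf K := by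
    ext k
    rw [mem_inertia, Subgroup.mem_subgroupOf, mem_inertia, conjFn_subFun]
    exact ⟨fun h => subFun_inj hLK.le h, fun h => by rw [h]⟩
  rcases hchief _ hMn (le_inf hLK.le hLT) inf_le_left with hM | hM
  · -- the inertia group in K is L
    right; right
    have hin' : inertia (G := K) (subFun K φ) = L.subgroupOf K := by
      rw [hin]
      ext k
      rw [Subgroup.mem_subgroupOf, Subgroup.mem_subgroupOf]
      exact ⟨fun h => hM.le ⟨k.2, h⟩, fun h => (hM.ge h).2⟩
    have hindc := CfsgLib.CharInd.isCharacter_indFun (L.subgroupOf K) (IsIrrCharacter.isCharacter hφs)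
    have h1 : classInner (indFun (L.subgroupOf K) (subFun K φ)) ϑ ≠ 0 := by
      rw [CfsgLib.CharInd.frobenius _ _ (IsCharacter.isClassFunction hϑc), ← classInner_conj_symm, he]
      simpa using he0
    have h2 := (constituent_degree_le hindc hϑ h1).1
    rw [CfsgLib.CharInd.indFun_one, hclif, hin'] at h2
    obtain ⟨d, hd0, hd⟩ := IsIrrCharacter.exists_pos hφs
    rw [hd] at h2
    have h3 : ((e * (L.subgroupOf K).index * d : ℕ) : ℝ) ≤ (((L.subgroupOf K).index * d : ℕ) : ℝ) := by
      have e1 : ((e : ℂ) * ((L.subgroupOf K).index : ℂ) * (d : ℂ)).re = ((e * (L.subgroupOf K).index * d : ℕ) : ℝ) := by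
        rw [← Complex.natCast_re]; push_cast; rfl
      have e2 : (((L.subgroupOf K).index : ℂ) * (d : ℂ)).re = (((L.subgroupOf K).index * d : ℕ) : ℝ) := by
        rw [← Complex.natCast_re]; push_cast; rfl
      rw [e1, e2] at h2
      exact h2
    have h4 : e * (L.subgroupOf K).index * d ≤ (L.subgroupOf K).index * d := by exact_mod_cast h3
    have hidx : 0 < (L.subgroupOf K).index := Nat.pos_of_ne_zero Subgroup.index_ne_zero_of_finite
    have he1 : e = 1 := by
      have h5 : e * ((L.subgroupOf K).index * d) ≤ 1 * ((L.subgroupOf K).index * d) := by rw [one_mul, ← mul_assoc]; exact h4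
      have h6 := Nat.le_of_mul_le_mul_right h5 (Nat.mul_pos hidx hd0)
      omega
    have h5 := clifford hϑ hφs hφ'
    rw [he, he1, Nat.cast_one, one_smul] at h5
    have hcard := card_orb (G := K) hφs
    rw [hin'] at hcard
    let T : IrrCharacter (L.subgroupOf K) → (L → ℂ) := fun ψ => (ψ : L.subgroupOf K → ℂ) ∘ (Subgroup.subgroupOfEquivOfLe hLK.le).symm
    have hTinj : Function.Injective T := by
      intro a b hab
      apply Subtype.ext
      funext x
      have := congrFun hab (Subgroup.subgroupOfEquivOfLe hLK.le x)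
      simpa [T] using this
    refine ⟨(orb (G := K) (subFun K φ)).image T, ?_, ?_, ?_⟩
    · intro ψ hψ
      obtain ⟨ψ', -, rfl⟩ := Finset.mem_image.mp hψ
      exact IsIrrCharacter.comp_equiv ψ'.2 _
    · rw [Finset.card_image_of_injective _ hTinj, hcard, hrel]
    · rw [Finset.sum_image (fun a _ b _ h => hTinj h)]
      funext x
      have h6 := congrFun h5 ((Subgroup.subgroupOfEquivOfLe hLK.le).symm x)
      rw [Finset.sum_apply] at h6 ⊢
      exact h6
  · -- invariant constituent
    have hKT : K ≤ inertia φ := by rw [← hM]; exact inf_le_right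
    have hinvK : ∀ k : K, conjFn k (subFun K φ) = subFun K φ := by
      intro k
      rw [conjFn_subFun]
      have := hKT k.2
      rw [mem_inertia] at this
      rw [this]
    have hres := res_of_inv hφs hinvK hϑ hφ'
    rw [he] at hres
    have hres' : resTo hLK.le ϑ = (e : ℂ) • φ := subFun_inj hLK.le hres
    have hnorm : classInner (fun x : L.subgroupOf K => ϑ x) (fun x : L.subgroupOf K => ϑ x) = (e : ℂ) ^ 2 := by
      rw [hres, classInner_smul_left, classInner_smul_right, IsIrrCharacter.inner_self hφs, Complex.conj_natCast]; ring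
    -- the subgroup U
    let U : Subgroup G :=
      { carrier := {k | ∃ hk : k ∈ K, ∀ lam : K →* ℂˣ, (∀ n ∈ L.subgroupOf K, lam n = 1) → (∀ h, (lam h : ℂ) * ϑ h = ϑ h) → lam ⟨k, hk⟩ = 1}
        one_mem' := ⟨K.one_mem, fun lam _ _ => map_one lam⟩
        mul_mem' := by
          rintro a b ⟨ha, ha'⟩ ⟨hb, hb'⟩
          refine ⟨K.mul_mem ha hb, fun lam h1 h2 => ?_⟩
          have : (⟨a * b, K.mul_mem ha hb⟩ : K) = ⟨a, ha⟩ * ⟨b, hb⟩ := rfl
          rw [this, map_mul, ha' lam h1 h2, hb' lam h1 h2, one_mul]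
        inv_mem' := by
          rintro a ⟨ha, ha'⟩
          refine ⟨K.inv_mem ha, fun lam h1 h2 => ?_⟩
          have : (⟨a⁻¹, K.inv_mem ha⟩ : K) = ⟨a, ha⟩⁻¹ := rfl
          rw [this, map_inv, ha' lam h1 h2, inv_one] }
    have hUn : U.Normal := by
      constructor
      rintro a ⟨ha, ha'⟩ g
      refine ⟨hK.conj_mem a ha g, fun lam h1 h2 => ?_⟩
      have h3 := ha' (lam.comp (MulAut.conjNormal g : MulAut K).toMonoidHom) (by
        intro n hn
        show lam (MulAut.conjNormal g n) = 1
        apply h1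
        rw [Subgroup.mem_subgroupOf] at hn ⊢
        exact hL.conj_mem _ hn g) (by
        intro h
        have h4 := h2 (MulAut.conjNormal g h)
        have h5 : ϑ (MulAut.conjNormal g h) = ϑ h := by
          have := congrFun (hinv g) h
          rw [conjFn_eq_comp] at this
          exact this
        rw [h5] at h4
        exact h4)
      exact h3
    have hLU : L ≤ U := fun x hx => ⟨hLK.le hx, fun lam h1 _ => h1 _ (Subgroup.mem_subgroupOf.mpr hx)⟩
    have hUK : U ≤ K := fun x hx => hx.1
    rcases hchief U hUn hLU hUK with hU | hU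
    · -- ϑ vanishes off L
      right; left
      refine ⟨φ, e, hφ, hres', ?_⟩
      have hvan : ∀ k : K, (k : G) ∉ L → ϑ k = 0 := by
        intro k hk
        rw [← hU] at hk
        by_contra hne
        apply hk
        refine ⟨k.2, fun lam _ h2 => ?_⟩
        have h3 := h2 k
        have h4 : (lam k : ℂ) = 1 := by
          have : ((lam k : ℂ) - 1) * ϑ k = 0 := by linear_combination h3
          rcases mul_eq_zero.mp this with h | h
          · exact sub_eq_zero.mp h
          · exact absurd h hne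
        exact Units.ext h4
      have h1 : classInner ϑ ϑ = ((Nat.card K : ℂ)⁻¹ * Nat.card (L.subgroupOf K)) * classInner (fun x : L.subgroupOf K => ϑ x) (fun x : L.subgroupOf K => ϑ x) := by
        simp only [classInner]
        have h2 : ∑ k : K, ϑ k * conj (ϑ k) = ∑ k : K, extendByZero (L.subgroupOf K) (fun x : L.subgroupOf K => ϑ x * conj (ϑ x)) k := by
          apply Finset.sum_congr rfl
          intro k _
          by_cases hk : k ∈ L.subgroupOf K
          · rw [ext_of_mem hk]
          · rw [ext_of_not_mem hk, hvan k (fun h => hk (Subgroup.mem_subgroupOf.mpr h)), zero_mul]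
        rw [h2, sum_ext]
        have h4 : (Nat.card (L.subgroupOf K) : ℂ) ≠ 0 := by exact_mod_cast Nat.card_pos.ne'
        field_simp
      rw [IsIrrCharacter.inner_self hϑ, hnorm] at h1
      have h3 : (Nat.card K : ℂ) = (L.relIndex K : ℂ) * Nat.card (L.subgroupOf K) := by
        rw [← hrel]
        exact_mod_cast (Subgroup.index_mul_card (L.subgroupOf K)).symm
      have h4 : (Nat.card (L.subgroupOf K) : ℂ) ≠ 0 := by exact_mod_cast Nat.card_pos.ne'
      have h5 : (L.relIndex K : ℂ) ≠ 0 := by rw [← hrel]; exact_mod_cast Subgroup.index_ne_zero_of_finite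
      rw [h3] at h1
      have h6 : (e : ℂ) ^ 2 = L.relIndex K := by
        field_simp at h1
        exact h1.symm
      exact_mod_cast h6
    · -- no nontrivial twist
      left
      have h1 := norm_res habK hϑ (by
        intro lam h2 h3 h
        have h4 : (h : G) ∈ U := by rw [hU]; exact h.2
        exact h4.2 lam h2 h3)
      rw [hnorm] at h1
      have h2 : e = 1 := by
        have : e ^ 2 = 1 := by exact_mod_cast h1
        exact (Nat.pow_eq_one.mp this).resolve_right (by norm_num)
      rw [hres', h2, Nat.cast_one, one_smul]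
      exact hφ

end CfsgLib.ChiefRes
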