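import Mathlib
import Cfsg.Agent.Lib.QuadRing
import Cfsg.Agent.Lib.OrbitProd

/-! A unit `x` with `(x - 1)^(p-1) = 0` normalizing a commuting set of `p'`-units centralizes it. -/

set_option autoImplicit false

namespace CfsgLib.QuadRing

variable {R : Type*} [Ring R]

/-- a primitive idempotent not killing `b` -/
theorem exists_idem [Finite R] (A : Subring R) (hA : ∀ a ∈ A, ∀ b ∈ A, a * b = b * a)
    (hred : ∀ a ∈ A, a * a = 0 → a = 0) {b : R} (hb : b ∈ A) (hb0 : b ≠ 0) :
    ∃ e ∈ A, e ≠ 0 ∧ e * b ≠ 0 ∧ ∀ u ∈ A, e * u = 0 ∨ ∃ d ∈ A, e * (u * d) = e := by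
  classical
  -- principal ideals
  let I : R → Set R := fun y => (fun a => y * a) '' A
  have hfin : ∀ y, (I y).Finite := fun y => Set.toFinite _
  let P : Set R := {y | y ≠ 0 ∧ ∃ w ∈ A, y = b * w}
  obtain ⟨y, hyP, hymin⟩ := Set.exists_min_image P (fun y => (I y).ncard) (Set.toFinite _)
    ⟨b, hb0, 1, A.one_mem, (mul_one b).symm⟩
  obtain ⟨hy0, w, hw, hyw⟩ := hyP
  have hyA : y ∈ A := by rw [hyw]; exact A.mul_mem hb hw
  have key : ∀ z ∈ A, y * z ≠ 0 → ∃ t ∈ A, y = (y * z) * t := by
    intro z hz hyz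
    have h1 : y * z ∈ P := ⟨hyz, w * z, A.mul_mem hw hz, by rw [hyw, mul_assoc]⟩
    have h2 := hymin _ h1
    have h3 : I (y * z) ⊆ I y := by
      rintro _ ⟨a, ha, rfl⟩
      exact ⟨z * a, A.mul_mem hz ha, by simp only [mul_assoc]⟩
    have h4 : I (y * z) = I y := Set.eq_of_subset_of_ncard_le h3 h2 (hfin y)
    have h5 : y ∈ I y := ⟨1, A.one_mem, mul_one y⟩
    rw [← h4] at h5
    obtain ⟨t, ht, hty⟩ := h5
    exact ⟨t, ht, hty.symm⟩
  have hyy : y * y ≠ 0 := fun h => hy0 (hred y hyA h)
  obtain ⟨z, hz, hyz⟩ := key y hyA hyy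
  refine ⟨y * z, A.mul_mem hyA hz, ?_, ?_, ?_⟩
  · intro h
    apply hy0
    rw [hyz, mul_assoc, h, mul_zero]
  · intro h
    apply hy0
    have h1 : y = y * z * y := by
      conv_lhs => rw [hyz]
      rw [mul_assoc, mul_assoc, hA y hyA z hz]
    have h2 : y * z * y = y * z * b * w := by rw [mul_assoc _ b w, ← hyw]
    rw [h1, h2, h, zero_mul]
  · intro u hu
    by_cases h : y * z * u = 0
    · exact Or.inl h
    · right
      have h1 : y * (z * u) ≠ 0 := by rwa [← mul_assoc]
      obtain ⟨t, ht, hyt⟩ := key _ (A.mul_mem hz hu) h1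
      refine ⟨t * z, A.mul_mem ht hz, ?_⟩
      have h2 : y * z * (u * (t * z)) = y * (z * u) * t * z := by simp only [mul_assoc]
      rw [h2, ← hyt]

/-- independence of characters, with a primitive idempotent -/
theorem dedekind (A : Subring R) (hA : ∀ a ∈ A, ∀ b ∈ A, a * b = b * a) {e : R} (he : e ∈ A)
    (hprim : ∀ u ∈ A, e * u = 0 ∨ ∃ d ∈ A, e * (u * d) = e) {ι : Type*} [DecidableEq ι] (c : ι → R → R)
    (hc : ∀ i, ∀ a ∈ A, c i a ∈ A) (hcm : ∀ i, ∀ a ∈ A, ∀ b ∈ A, c i (a * b) = c i a * c i b)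
    (hc1 : ∀ i, c i 1 = 1)
    (hdist : ∀ i j, i ≠ j → ∃ a ∈ A, e * (c i a - c j a) ≠ 0) (s : Finset ι) :
    ∀ w : ι → R, (∀ a ∈ A, ∑ i ∈ s, e * c i a * w i = 0) → ∀ i ∈ s, e * w i = 0 := by
  induction s using Finset.induction_on with
  | empty => intro w _ i hi; exact absurd hi (Finset.notMem_empty i)
  | insert j s hj ih =>
    intro w hw
    have hcomm : ∀ a ∈ A, ∀ b ∈ A, ∀ r : R, e * (a * b) * r = a * (e * b * r) := by
      intro a ha b hb r
      rw [← mul_assoc e a b, hA e he a ha]
      simp only [mul_assoc]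
    -- the coefficients for `i ∈ s` vanish
    have h1 : ∀ i ∈ s, e * w i = 0 := by
      intro i hi
      have hij : i ≠ j := fun h => hj (h ▸ hi)
      obtain ⟨t, ht, hte⟩ := hdist i j hij
      have h2 : ∀ a ∈ A, ∑ k ∈ s, e * c k a * ((c k t - c j t) * w k) = 0 := by
        intro a ha
        have e1 := hw (a * t) (A.mul_mem ha ht)
        have e2 := congrArg (fun r => c j t * r) (hw a ha)
        simp only [mul_zero, Finset.mul_sum] at e2
        rw [Finset.sum_insert hj] at e1 e2
        have e3 : e * c j (a * t) * w j = c j t * (e * c j a * w j) := by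
          rw [hcm j a ha t ht, hA _ (hc j a ha) _ (hc j t ht), hcomm _ (hc j t ht) _ (hc j a ha)]
        rw [e3] at e1
        have e4 : ∑ k ∈ s, e * c k (a * t) * w k - ∑ k ∈ s, c j t * (e * c k a * w k) = 0 := by
          have := congrArg₂ (fun u v => u - v) e1 e2
          simp only [sub_zero] at this
          rw [add_sub_add_left_eq_sub] at this
          exact this
        rw [← e4, ← Finset.sum_sub_distrib]
        apply Finset.sum_congr rfl
        intro k _
        rw [hcm k a ha t ht, sub_mul, mul_sub, mul_assoc e, mul_assoc e (c k a)]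
        congr 1
        · simp only [mul_assoc]
        · rw [← mul_assoc (c k a), hA _ (hc k a ha) _ (hc j t ht)]
          have := hcomm _ (hc j t ht) _ (hc k a ha) (w k)
          simp only [mul_assoc] at this ⊢
          exact this
      have h3 := ih _ h2 i hi
      obtain ⟨d, hd, hde⟩ := (hprim _ (A.sub_mem (hc i t ht) (hc j t ht))).resolve_left hte
      have h4 : e * w i = d * (e * ((c i t - c j t) * w i)) := by
        have hu := A.sub_mem (hc i t ht) (hc j t ht)
        conv_lhs => rw [← hde]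
        rw [hA _ hu d hd, hA e he _ (A.mul_mem hd hu)]
        have : d * (c i t - c j t) * e = d * (e * (c i t - c j t)) := by rw [mul_assoc, hA _ hu e he]
        rw [this]; simp only [mul_assoc]
      rw [h4, h3, mul_zero]
    intro i hi
    rcases Finset.mem_insert.1 hi with rfl | hi
    · have h2 := hw 1 A.one_mem
      rw [Finset.sum_insert hj, hc1, mul_one] at h2
      have h3 : ∑ k ∈ s, e * c k 1 * w k = 0 := by
        apply Finset.sum_eq_zero
        intro k hk
        rw [hc1, mul_one]; exact h1 k hk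
      rw [h3, add_zero] at h2
      exact h2
    · exact h1 i hi

theorem geom_of_pow' {p : ℕ} [hp : Fact p.Prime] (hpR : (p : R) = 0) {x : R} (hx : (x - 1) ^ (p - 1) = 0) :
    ∑ i ∈ Finset.range p, x ^ i = 0 := by
  rcases subsingleton_or_nontrivial R with h | h
  · exact Subsingleton.elim _ _
  · haveI : CharP R p := by
      obtain ⟨q, hq⟩ := CharP.exists R
      have h1 : q ∣ p := (CharP.cast_eq_zero_iff R q p).1 hpR
      have h2 : q ≠ 1 := CharP.char_ne_one R q
      rcases (Nat.dvd_prime hp.out).1 h1 with h3 | h3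
      · exact absurd h3 h2
      · rw [← h3]; exact hq
    letI : Algebra (ZMod p) R := ZMod.algebra R p
    have := congrArg (Polynomial.aeval x) (CfsgLib.OrbitProd.poly_identity (p := p))
    rw [map_pow, map_sub, Polynomial.aeval_X, map_one, map_sum, hx] at this
    rw [this]
    simp

theorem commute_gen' [Finite R] {p : ℕ} [hp : Fact p.Prime] (hpR : (p : R) = 0) (S : Set R)
    (hS : ∀ a ∈ S, ∀ b ∈ S, a * b = b * a) {m : ℕ} (hm : m.Coprime p) (hSm : ∀ a ∈ S, a ^ m = 1) {x y : R}
    (hyx : y * x = 1) (hxy : x * y = 1) (hx : (x - 1) ^ (p - 1) = 0) (hxS : ∀ a ∈ S, x * a * y ∈ S) :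
    ∀ a ∈ S, x * a = a * x := by
  set A : Subring R := Subring.closure S with hAdef
  have hA : ∀ a ∈ A, ∀ b ∈ A, a * b = b * a := by
    intro a ha b hb
    have h1 : ∀ k ∈ S, k * b = b * k := by
      intro k hk
      refine Subring.closure_induction (p := fun b _ => k * b = b * k) ?_ ?_ ?_ ?_ ?_ ?_ hb
      · intro k' hk'
        exact hS k hk k' hk'
      · rw [mul_zero, zero_mul]
      · rw [mul_one, one_mul]
      · intro x y _ _ hx hy; rw [mul_add, add_mul, hx, hy]
      · intro x _ hx; rw [mul_neg, neg_mul, hx]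
      · intro x y _ _ hx hy
        rw [← mul_assoc, hx, mul_assoc, hy, mul_assoc]
    refine Subring.closure_induction (p := fun a _ => a * b = b * a) ?_ ?_ ?_ ?_ ?_ ?_ ha
    · intro k' hk'
      exact h1 k' hk'
    · rw [mul_zero, zero_mul]
    · rw [mul_one, one_mul]
    · intro x y _ _ hx hy; rw [mul_add, add_mul, hx, hy]
    · intro x _ hx; rw [mul_neg, neg_mul, hx]
    · intro x y _ _ hx hy
      rw [mul_assoc, hy, ← mul_assoc, hx, mul_assoc]
  have hm0 : 0 < m := by
    rcases Nat.eq_zero_or_pos m with h | h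
    · rw [h, Nat.coprime_zero_left] at hm
      exact absurd hm hp.out.one_lt.ne'
    · exact h
  set r := m.totient with hr
  have hr0 : 0 < r := Nat.totient_pos.2 hm0
  obtain ⟨t, ht⟩ : ∃ t, p ^ r = 1 + m * t := by
    have h1 : p ^ r ≡ 1 [MOD m] := Nat.ModEq.pow_totient hm.symm
    have h3 : 1 ≤ p ^ r := Nat.one_le_pow _ _ hp.out.pos
    have h4 := (Nat.modEq_iff_dvd' h3).1 h1.symm
    obtain ⟨t, ht⟩ := h4
    exact ⟨t, by omega⟩
  have hfrob : ∀ a ∈ A, a ^ p ^ r = a := by
    intro a ha
    have : a ^ p ^ r = a ∧ a ∈ A := by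
      refine Subring.closure_induction (p := fun a _ => a ^ p ^ r = a ∧ a ∈ A) ?_ ?_ ?_ ?_ ?_ ?_ ha
      · intro k' hk'
        refine ⟨?_, Subring.subset_closure hk'⟩
        rw [ht, pow_add, pow_one, pow_mul, hSm k' hk', one_pow, mul_one]
      · refine ⟨?_, A.zero_mem⟩
        rw [zero_pow]
        exact (Nat.pow_pos hp.out.pos).ne'
      · exact ⟨one_pow _, A.one_mem⟩
      · rintro x y _ _ ⟨hx, hxA⟩ ⟨hy, hyA⟩
        refine ⟨?_, A.add_mem hxA hyA⟩
        rw [add_pow_of_commute hpR (hA x hxA y hyA), hx, hy]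
      · rintro x _ ⟨hx, hxA⟩
        refine ⟨?_, A.neg_mem hxA⟩
        rcases hp.out.eq_two_or_odd' with h2 | h2
        · have h3 : ∀ z : R, -z = z := by
            intro z
            have : (2 : R) = 0 := by
              have := hpR
              rw [h2] at this
              exact_mod_cast this
            have h4 : z + z = 0 := by rw [← two_mul, this, zero_mul]
            exact neg_eq_of_add_eq_zero_left h4
          rw [h3, hx]
        · rw [Odd.neg_pow (Odd.pow h2), hx]
      · rintro x y _ _ ⟨hx, hxA⟩ ⟨hy, hyA⟩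
        refine ⟨?_, A.mul_mem hxA hyA⟩
        have hc : Commute x y := hA x hxA y hyA
        rw [hc.mul_pow, hx, hy]
    exact this.1
  have hred : ∀ a ∈ A, a * a = 0 → a = 0 := by
    intro a ha h0
    rw [← hfrob a ha]
    have h1 : 2 ≤ p ^ r := by
      calc 2 ≤ p := hp.out.two_le
        _ = p ^ 1 := (pow_one p).symm
        _ ≤ p ^ r := Nat.pow_le_pow_right hp.out.pos hr0
    obtain ⟨c, hc⟩ := Nat.exists_eq_add_of_le h1
    rw [hc, pow_add, pow_two, h0, zero_mul]
  have hσA : ∀ a ∈ A, x * a * y ∈ A := by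
    intro a ha
    refine Subring.closure_induction (p := fun a _ => x * a * y ∈ A) ?_ ?_ ?_ ?_ ?_ ?_ ha
    · intro k' hk'
      exact Subring.subset_closure (hxS k' hk')
    · rw [mul_zero, zero_mul]; exact A.zero_mem
    · rw [mul_one, hxy]; exact A.one_mem
    · intro a b _ _ hx hy; rw [mul_add, add_mul]; exact A.add_mem hx hy
    · intro a _ hx; rw [mul_neg, neg_mul]; exact A.neg_mem hx
    · intro a b _ _ ha hb
      have : x * (a * b) * y = (x * a * y) * (x * b * y) := by
        have h1 : (x * a * y) * (x * b * y) = x * a * (y * x) * b * y := by noncomm_ring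
        rw [h1, hyx]; noncomm_ring
      rw [this]; exact A.mul_mem ha hb
  -- `x ^ p = 1`
  have hxp : x ^ p = 1 := by
    have h1 := add_pow_of_commute hpR (a := x - 1) (b := 1) (by rw [mul_one, one_mul]) 1
    rw [pow_one, sub_add_cancel, one_pow] at h1
    have h2 : (x - 1) ^ p = 0 := by
      have : p = (p - 1) + 1 := by have := hp.out.one_lt; omega
      rw [this, pow_succ, hx, zero_mul]
    rw [h1, h2, zero_add]
  have hyp : y ^ p = 1 := by
    have h1 : y ^ p * x ^ p = 1 := by
      have hc : Commute y x := by rw [commute_iff_eq, hyx, hxy]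
      rw [← hc.mul_pow, hyx, one_pow]
    rwa [hxp, mul_one] at h1
  -- the iterates
  set c : ℕ → R → R := fun i a => x ^ i * a * y ^ i with hc
  have hyxi : ∀ i, y ^ i * x ^ i = 1 := by
    intro i
    have hc : Commute y x := by rw [commute_iff_eq, hyx, hxy]
    rw [← hc.mul_pow, hyx, one_pow]
  have hxyi : ∀ i, x ^ i * y ^ i = 1 := by
    intro i
    have hc : Commute x y := by rw [commute_iff_eq, hyx, hxy]
    rw [← hc.mul_pow, hxy, one_pow]
  have hcA : ∀ i, ∀ a ∈ A, c i a ∈ A := by
    intro i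
    induction i with
    | zero => intro a ha; simpa [hc] using ha
    | succ i ih =>
      intro a ha
      have : c (i + 1) a = x * c i a * y := by
        simp only [hc]; rw [pow_succ', pow_succ]; simp only [mul_assoc]
      rw [this]; exact hσA _ (ih a ha)
  have hcc : ∀ i j a, c (i + j) a = c i (c j a) := by
    intro i j a
    simp only [hc]
    rw [pow_add, add_comm i j, pow_add]; simp only [mul_assoc]
  have hcp : ∀ a, c p a = a := by intro a; simp only [hc]; rw [hxp, hyp, one_mul, mul_one]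
  have hcpk : ∀ k a, c (p * k) a = a := by
    intro k a
    simp only [hc]; rw [pow_mul, pow_mul, hxp, hyp, one_pow, one_mul, mul_one]
  intro a₀ ha₀
  have ha₀A : a₀ ∈ A := Subring.subset_closure ha₀
  by_contra hne
  set b := x * a₀ * y - a₀ with hb
  have hbA : b ∈ A := A.sub_mem (hσA _ ha₀A) ha₀A
  have hb0 : b ≠ 0 := by
    intro h
    apply hne
    rw [hb, sub_eq_zero] at h
    calc x * a₀ = x * a₀ * (y * x) := by rw [hyx, mul_one]
      _ = x * a₀ * y * x := by simp only [mul_assoc]
      _ = a₀ * x := by rw [h]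
  obtain ⟨e, heA, he0, heb, hprim⟩ := exists_idem A hA hred hbA hb0
  -- distinctness
  have hdist0 : ∀ k : ℕ, 0 < k → k < p → ∃ a ∈ A, e * (c k a - a) ≠ 0 := by
    intro k hk0 hkp
    by_contra hcon
    push Not at hcon
    apply heb
    have h1 : ∀ n, ∀ a ∈ A, e * c (k * n) a = e * a := by
      intro n
      induction n with
      | zero => intro a _; simp [hc]
      | succ n ih =>
        intro a ha
        rw [mul_add, mul_one, add_comm, hcc]
        have h2 := hcon (c (k * n) a) (hcA _ a ha)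
        rw [mul_sub, sub_eq_zero] at h2
        rw [h2, ih a ha]
    have hcop : Nat.Coprime k p := Nat.Coprime.symm ((Nat.Prime.coprime_iff_not_dvd hp.out).2 (fun h => by
      have := Nat.le_of_dvd hk0 h; omega))
    obtain ⟨n, hn⟩ : ∃ n, k * n ≡ 1 [MOD p] := by
      have := Nat.exists_mul_mod_eq_one_of_coprime hcop hp.out.one_lt
      obtain ⟨n, hn1, hn2⟩ := this
      exact ⟨n, by
        unfold Nat.ModEq
        rw [hn2, Nat.mod_eq_of_lt hp.out.one_lt]⟩
    -- `k * n = 1 + p * l`
    have h3 : k * n = 1 + p * (k * n / p) := by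
      have h4 := Nat.div_add_mod (k * n) p
      have h5 : k * n % p = 1 := by
        have := hn
        unfold Nat.ModEq at this
        rwa [Nat.mod_eq_of_lt hp.out.one_lt] at this
      omega
    have h4 := h1 n a₀ ha₀A
    rw [h3, hcc, hcpk] at h4
    have h5 : c 1 a₀ = x * a₀ * y := by simp only [hc, pow_one]
    rw [h5] at h4
    rw [hb, mul_sub, h4, sub_self]
  have hdist : ∀ i j : Fin p, i ≠ j → ∃ a ∈ A, e * (c i a - c j a) ≠ 0 := by
    have key : ∀ i j : ℕ, i < j → j < p → ∃ a ∈ A, e * (c j a - c i a) ≠ 0 := by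
      intro i j hij hjp
      obtain ⟨a, ha, hea⟩ := hdist0 (j - i) (by omega) (by omega)
      refine ⟨c (p - i) a, hcA _ a ha, ?_⟩
      rw [← hcc, ← hcc]
      have e1 : j + (p - i) = (j - i) + p := by omega
      have e2 : i + (p - i) = p := by omega
      rw [e1, e2, hcc, hcp]
      exact hea
    intro i j hij
    rcases lt_or_gt_of_ne hij with h | h
    · obtain ⟨a, ha, hea⟩ := key i j h j.2
      refine ⟨a, ha, fun h0 => hea ?_⟩
      have : c j a - c i a = -(c i a - c j a) := by abel
      rw [this, mul_neg, h0, neg_zero]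
    · exact key j i h i.2
  have hsum := geom_of_pow' hpR hx
  have hfinal := dedekind A hA heA hprim (ι := Fin p) (fun i => c i) (fun i => hcA i) (by
      intro i a _ b _
      simp only [hc]
      have h1 : x ^ (i : ℕ) * a * y ^ (i : ℕ) * (x ^ (i : ℕ) * b * y ^ (i : ℕ)) =
        x ^ (i : ℕ) * a * (y ^ (i : ℕ) * x ^ (i : ℕ)) * b * y ^ (i : ℕ) := by simp only [mul_assoc]
      rw [h1, hyxi, mul_one]; simp only [mul_assoc]) (by
      intro i; simp only [hc]; rw [mul_one, hxyi]) hdist Finset.univ (fun i => x ^ (i : ℕ)) (by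
      intro a ha
      have h1 : ∑ i : Fin p, e * c i a * x ^ (i : ℕ) = ∑ i : Fin p, e * (x ^ (i : ℕ) * a) := by
        apply Finset.sum_congr rfl
        intro i _
        simp only [hc]
        rw [mul_assoc e, mul_assoc (x ^ (i : ℕ) * a), hyxi, mul_one]
      rw [h1, ← Finset.mul_sum, ← Finset.sum_mul, Fin.sum_univ_eq_sum_range (fun i => x ^ i) p, hsum, zero_mul, mul_zero])
  have h0 := hfinal ⟨0, hp.out.pos⟩ (Finset.mem_univ _)
  simp only [pow_zero, mul_one] at h0
  exact he0 h0

end CfsgLib.QuadRing
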