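import Mathlib
import Cfsg.Agent.Lib.QuadRing2
import Cfsg.Agent.Lib.NPCFun2

/-! Action on chief factors of groups with a series `p`-group, abelian `p'`-group, `p`-group. -/

set_option autoImplicit false

open scoped commutatorElement Pointwise

namespace CfsgLib.ClsStab

open CfsgLib.SecMod CfsgLib.ChiefP CfsgLib.PReg CfsgLib.CF CfsgLib.Coprime CfsgLib.PStabN CfsgLib.NPCFun CfsgLib.NPC

universe u v

variable {G : Type*} [Group G] [Finite G] {p : ℕ} [hp : Fact p.Prime]

instance finite_M (s : AbSec G) : Finite s.M := by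
  have : Finite (↥s.U ⧸ s.V.subgroupOf s.U) := inferInstance
  exact this

instance finite_end (s : AbSec G) : Finite (AddMonoid.End s.M) :=
  DFunLike.finite (AddMonoid.End s.M)

theorem comm_of_pow {s : AbSec G} (hpow : ∀ x ∈ s.U, x ^ p ∈ s.V) {K : Subgroup G} (hK : K.Normal)
    (hKab : ∀ k ∈ K, ∀ k' ∈ K, s.act k * s.act k' = s.act k' * s.act k) {m : ℕ} (hm : m.Coprime p)
    (hKm : ∀ k ∈ K, s.act k ^ m = 1) {g : G}
    (hg : Cfsg.iterCommutator s.U (Subgroup.zpowers g) (p - 1) ≤ s.V) :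
    ∀ k ∈ K, s.act g * s.act k = s.act k * s.act g := by
  have hpR : (p : AddMonoid.End s.M) = 0 := natCast_end hpow
  have hx : (s.act g - 1) ^ (p - 1) = 0 := by
    rw [← AbSec.iter_le_iff]; exact hg
  have key := CfsgLib.QuadRing.commute_gen' hpR (s.act '' K) (by
      rintro _ ⟨k, hk, rfl⟩ _ ⟨k', hk', rfl⟩
      exact hKab k hk k' hk') hm (by
      rintro _ ⟨k, hk, rfl⟩
      exact hKm k hk) (x := s.act g) (y := s.act g⁻¹) (by rw [← map_mul, inv_mul_cancel, map_one])
      (by rw [← map_mul, mul_inv_cancel, map_one]) hx (by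
      rintro _ ⟨k', hk', rfl⟩
      rw [← map_mul, ← map_mul]
      exact ⟨g * k' * g⁻¹, hK.conj_mem k' hk' g, rfl⟩)
  intro k hk
  exact key _ ⟨k, hk, rfl⟩

theorem act_pow_p' {s : AbSec G} (hpow : ∀ x ∈ s.U, x ^ p ∈ s.V) {g : G}
    (hg : Cfsg.iterCommutator s.U (Subgroup.zpowers g) (p - 1) ≤ s.V) : s.act g ^ p = 1 := by
  have hpR : (p : AddMonoid.End s.M) = 0 := natCast_end hpow
  have hx : (s.act g - 1) ^ (p - 1) = 0 := by rw [← AbSec.iter_le_iff]; exact hg
  have h1 := CfsgLib.QuadRing.add_pow_of_commute hpR (a := s.act g - 1) (b := 1) (by rw [mul_one, one_mul]) 1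
  rw [pow_one, sub_add_cancel, one_pow] at h1
  have h2 : (s.act g - 1) ^ p = 0 := by
    have : p = (p - 1) + 1 := by have := hp.out.one_lt; omega
    rw [this, pow_succ, hx, zero_mul]
  rw [h1, h2, zero_add]

/-- elements acting with small degree on a chief factor centralize it -/
theorem cls_chief {H K : Subgroup G} {m : ℕ} (hH : H.Normal) (hK : K.Normal)
    (hHp : IsPGroup p H) (hKH : ⁅K, K⁆ ≤ H) (hm : m.Coprime p) (hKm : ∀ k ∈ K, k ^ m ∈ H)
    (hGK : ∀ x : G, ∃ n : ℕ, x ^ p ^ n ∈ K) {P : Subgroup G} (hPn : P.Normal) (hP : IsPGroup p P) {g : G}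
    {U V : Subgroup G} (hUV : Cfsg.IsChiefFactor U V) (hUP : U ≤ P)
    (hq : Cfsg.iterCommutator U (Subgroup.zpowers g) (p - 1) ≤ V) : ∀ u ∈ U, ⁅g, u⁆ ∈ V := by
  haveI := hUV.2.2.1
  have hPH : IsPGroup p (P ⊔ H : Subgroup G) := hP.to_sup_of_normal_right hHp
  have hUPH : U ≤ P ⊔ H := hUP.trans le_sup_left
  have hUH : ⁅U, H⁆ ≤ V := (Subgroup.commutator_mono le_rfl le_sup_right).trans (chief_comm hPH hUV hUPH)
  let s := chiefSec hP hUV hUP
  have hpow : ∀ x ∈ s.U, x ^ p ∈ s.V := fun x hx => chief_pow hP hUV hUP hx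
  have hact : ∀ h ∈ H, s.act h = 1 := by
    intro h hh
    rw [act_eq_one_iff]
    intro u hu
    have := Subgroup.inv_mem _ (hUH (Subgroup.commutator_mem_commutator hu hh))
    rwa [commutatorElement_inv] at this
  have hcomm : ∀ k ∈ K, s.act g * s.act k = s.act k * s.act g := by
    refine comm_of_pow hpow hK ?_ hm ?_ hq
    · intro k hk k' hk'
      have h1 := hact _ (hKH (Subgroup.commutator_mem_commutator hk hk'))
      have h2 : k * k' = ⁅k, k'⁆ * (k' * k) := by rw [commutatorElement_def]; group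
      rw [← map_mul, h2, map_mul, h1, one_mul, map_mul]
    · intro k hk
      rw [← map_pow]
      exact hact _ (hKm k hk)
  obtain ⟨h1, h2, h3⟩ := chief_quot hUV
  set π := QuotientGroup.mk' V with hπ
  have hπs : Function.Surjective π := QuotientGroup.mk'_surjective V
  have key := centralizer_of_OP' ((hP.to_le hUP).map π) h1 h2 h3 (K := K.map π) (B := (Subgroup.zpowers g).map π)
    (hK.map π hπs) (by
      rintro _ ⟨b, hb, rfl⟩
      refine ⟨1, ?_⟩
      rw [pow_one, ← map_pow, mk_centralizer_iff]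
      refine (act_eq_one_iff (s := s)).1 ?_
      obtain ⟨i, rfl⟩ := (mem_powers_iff_mem_zpowers.2 hb)
      show s.act ((g ^ i) ^ p) = 1
      rw [← pow_mul, mul_comm, pow_mul, map_pow, map_pow, act_pow_p' hpow hq, one_pow]) (by
      intro l
      obtain ⟨x, rfl⟩ := hπs l
      obtain ⟨n, hn⟩ := hGK x
      exact ⟨n, x ^ p ^ n, hn, by rw [map_pow]⟩) (by
      rw [← Subgroup.map_commutator]
      rintro _ ⟨x, hx, rfl⟩
      rw [mk_centralizer_iff]
      refine (act_eq_one_iff (s := s)).1 ?_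
      have h4 : ⁅K, Subgroup.zpowers g⁆ ≤ s.act.ker := by
        rw [Subgroup.commutator_le]
        intro k hk y hy
        rw [MonoidHom.mem_ker]
        obtain ⟨i, rfl⟩ := (mem_powers_iff_mem_zpowers.2 hy)
        have h5 : Commute (s.act k) (s.act (g ^ i)) := by
          rw [map_pow]
          exact (Commute.pow_left (show Commute (s.act g) (s.act k) from hcomm k hk) i).symm
        have h6 : s.act ⁅k, g ^ i⁆ = s.act k * s.act (g ^ i) * s.act k⁻¹ * s.act (g ^ i)⁻¹ := by
          rw [commutatorElement_def, map_mul, map_mul, map_mul]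
        show s.act ⁅k, g ^ i⁆ = 1
        rw [h6, h5.eq, mul_assoc (s.act (g ^ i)), ← map_mul s.act k, mul_inv_cancel, map_one, mul_one, ← map_mul,
          mul_inv_cancel, map_one]
      exact h4 hx)
  exact mk_centralizer_iff.1 (key ⟨g, Subgroup.mem_zpowers g, rfl⟩)

end CfsgLib.ClsStab
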