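import Mathlib

set_option autoImplicit false

namespace CfsgLib.ConjCount

/-- class size times centralizer order. -/
theorem card_carrier_mul {G : Type*} [Group G] (g : G) :
    Nat.card (ConjClasses.mk g).carrier * Nat.card (Subgroup.centralizer ({g} : Set G)) = Nat.card G := by
  rw [Subgroup.nat_card_centralizer_nat_card_stabilizer, ← ConjAct.orbit_eq_carrier_conjClasses, Nat.card_coe_set_eq,
    ← MulAction.index_stabilizer, Subgroup.index_mul_card]
  exact Nat.card_congr ConjAct.ofConjAct.toEquiv

theorem mem_carrier_iff {G : Type*} [Group G] (g x : G) : x ∈ (ConjClasses.mk g).carrier ↔ ∃ c : G, x = c * g * c⁻¹ := by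
  rw [ConjClasses.mem_carrier_iff_mk_eq, ConjClasses.mk_eq_mk_iff_isConj, isConj_comm, isConj_iff]
  constructor
  · rintro ⟨c, hc⟩; exact ⟨c, hc.symm⟩
  · rintro ⟨c, hc⟩; exact ⟨c, hc.symm⟩

end CfsgLib.ConjCount
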