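import Mathlib
import Cfsg.Agent.Lib.Coprime

namespace CfsgLib.CopNil
open Subgroup

theorem s1442 {G : Type*} [Group G] [Finite G] (H A : Subgroup G) (hH : Group.IsNilpotent H) (hA : (A ≤ Subgroup.normalizer (H : Set G))) (hcop : (Nat.card A).Coprime (Nat.card H))
    (hC : H ⊓ Subgroup.centralizer (((H ⊓ Subgroup.centralizer (A : Set G)) : Subgroup G) : Set G) ≤ (H ⊓ Subgroup.centralizer (A : Set G))) :
    A ≤ Subgroup.centralizer (H : Set G) := by
  obtain ⟨C, hCd⟩ : ∃ C : Subgroup G, C = H ⊓ Subgroup.centralizer (A : Set G) := ⟨_, rfl⟩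
  rw [← hCd] at hC
  have hCH : C ≤ H := hCd ▸ inf_le_left
  have hCA : C ≤ centralizer (A : Set G) := hCd ▸ inf_le_right
  have hAC : A ≤ centralizer (C : Set G) := le_centralizer_iff.1 hCA
  have hACn : A ≤ normalizer (C : Set G) := hAC.trans (centralizer_le_normalizer _)
  have hAN : A ≤ normalizer ((H ⊓ normalizer (C : Set G) : Subgroup G) : Set G) := by
    intro a ha
    rw [mem_normalizer_iff]
    intro x
    exact and_congr (mem_normalizer_iff.1 (hA ha) x) (mem_normalizer_iff.1 (le_normalizer (hACn ha)) x)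
  have hsol : Group.IsSolvable (H ⊓ normalizer (C : Set G) : Subgroup G) := by
    haveI : Group.IsSolvable H := inferInstance
    exact solvable_of_solvable_injective (inclusion_injective (inf_le_left : H ⊓ normalizer (C : Set G) ≤ H))
  have hca : CfsgLib.Coprime.CopAct A (H ⊓ normalizer (C : Set G)) :=
    ⟨hAN, Nat.Coprime.coprime_dvd_right (card_dvd_of_le inf_le_left) hcop, Or.inr hsol⟩
  have hCAb : ⁅C, A⁆ = ⊥ := commutator_eq_bot_iff_le_centralizer.2 hCA
  have h3 : ⁅⁅H ⊓ normalizer (C : Set G), A⁆, C⁆ = ⊥ := by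
    apply commutator_commutator_eq_bot_of_rotate
    · rw [commutator_eq_bot_iff_le_centralizer.2 hAC, commutator_bot_left]
    · rw [eq_bot_iff, ← hCAb]
      exact commutator_mono (CfsgLib.Coprime.commutator_le_of_le_normalizer inf_le_right) le_rfl
  have h4 : ⁅H ⊓ normalizer (C : Set G), A⁆ ≤ C := by
    refine le_trans (le_inf ?_ (commutator_eq_bot_iff_le_centralizer.1 h3)) hC
    exact (CfsgLib.Coprime.commutator_le_of_le_normalizer hAN).trans inf_le_left
  have h5 := hca.le_centralizer_of_commutator_commutator (by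
    rw [eq_bot_iff, ← hCAb]; exact commutator_mono h4 le_rfl)
  have h6 : H ⊓ normalizer (C : Set G) ≤ C := by
    conv_rhs => rw [hCd]
    exact le_inf inf_le_left (le_centralizer_iff.1 h5)
  have h7 : C.subgroupOf H = ⊤ := by
    by_contra hne
    have hlt : C.subgroupOf H < normalizer ((C.subgroupOf H : Subgroup H) : Set H) := Group.normalizerCondition_of_isNilpotent _ (lt_top_iff_ne_top.2 hne)
    obtain ⟨x, hx, hx'⟩ := SetLike.exists_of_lt hlt
    apply hx'
    rw [mem_normalizer_iff] at hx
    refine h6 (mem_inf.2 ⟨x.2, mem_normalizer_iff.2 fun y => ?_⟩)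
    constructor
    · intro hy
      exact (hx ⟨y, hCH hy⟩).1 hy
    · intro hy
      have hyH : y ∈ H := by
        have h8 := hCH hy
        have : y = (x : G)⁻¹ * (x * y * (x : G)⁻¹) * x := by group
        rw [this]
        exact H.mul_mem (H.mul_mem (H.inv_mem x.2) h8) x.2
      exact (hx ⟨y, hyH⟩).2 hy
  rw [subgroupOf_eq_top] at h7
  exact le_centralizer_iff.1 (h7.trans hCA)

end CfsgLib.CopNil
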