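import Cfsg.Agent.Lib.Asch10

set_option autoImplicit false
set_option maxHeartbeats 400000

/-! Overgroups of similarity groups in special linear groups. -/
namespace CfsgLib.Csim1

open Cfsg Cfsg.Geo Module CfsgLib.GeoBase CfsgLib.Asch1 CfsgLib.Asch6 CfsgLib.Asch10

universe u v

variable {ι : Type} [Fintype ι] [DecidableEq ι] {F : Type u} [Field F]

/-- the transvection with functional `φ` and centre `v` is in `M` -/
def Tm (M : Subgroup (Matrix.GeneralLinearGroup ι F)) (φ : Dual F (ι → F)) (v : ι → F) : Prop := ∃ h : φ v = 0, tv φ v h ∈ M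

theorem Tm.add {M : Subgroup (Matrix.GeneralLinearGroup ι F)} {φ ψ : Dual F (ι → F)} {v : ι → F} (h1 : Tm M φ v) (h2 : Tm M ψ v) : Tm M (φ + ψ) v := by
  obtain ⟨a, ha⟩ := h1
  obtain ⟨b, hb⟩ := h2
  refine ⟨by rw [LinearMap.add_apply, a, b, add_zero], ?_⟩
  have : tv (φ + ψ) v (by rw [LinearMap.add_apply, a, b, add_zero]) = tv φ v a * tv ψ v b := by
    apply ext_mulVec
    intro x
    rw [mulVec_mul, tv_apply, tv_apply, tv_apply, map_add, map_smul, a, smul_zero, add_zero, LinearMap.add_apply, add_smul]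
    abel
  rw [this]
  exact M.mul_mem ha hb

theorem Tm.neg {M : Subgroup (Matrix.GeneralLinearGroup ι F)} {φ : Dual F (ι → F)} {v : ι → F} (h1 : Tm M φ v) : Tm M (-φ) v := by
  obtain ⟨a, ha⟩ := h1
  refine ⟨by rw [LinearMap.neg_apply, a, neg_zero], ?_⟩
  have : tv (-φ) v (by rw [LinearMap.neg_apply, a, neg_zero]) = (tv φ v a)⁻¹ := by
    apply ext_mulVec
    intro x
    apply mulVec_injective (tv φ v a)
    rw [mulVec_inv, tv_apply, tv_apply, map_add, map_smul, a, smul_zero, add_zero, LinearMap.neg_apply, neg_smul]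
    abel
  rw [this]
  exact M.inv_mem ha

theorem Tm.sub {M : Subgroup (Matrix.GeneralLinearGroup ι F)} {φ ψ : Dual F (ι → F)} {v : ι → F} (h1 : Tm M φ v) (h2 : Tm M ψ v) : Tm M (φ - ψ) v := by
  rw [sub_eq_add_neg]
  exact h1.add h2.neg

theorem Tm.conj {M : Subgroup (Matrix.GeneralLinearGroup ι F)} {φ : Dual F (ι → F)} {v : ι → F} (h1 : Tm M φ v) {g : Matrix.GeneralLinearGroup ι F} (hg : g ∈ M) :
    Tm M (φ ∘ₗ Matrix.toLin' ((g⁻¹ : Matrix.GeneralLinearGroup ι F) : Matrix ι ι F)) (Matrix.mulVec (g : Matrix ι ι F) v) := by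
  obtain ⟨a, ha⟩ := h1
  obtain ⟨h', e⟩ := tv_conj g φ v a
  exact ⟨h', e ▸ M.mul_mem (M.mul_mem hg ha) (M.inv_mem hg)⟩

theorem Tm.congr {M : Subgroup (Matrix.GeneralLinearGroup ι F)} {φ ψ : Dual F (ι → F)} {v : ι → F} (h1 : Tm M φ v) (h : ∀ x, φ x = ψ x) : Tm M ψ v := by
  have : φ = ψ := LinearMap.ext h
  rwa [← this]

theorem Tm.smul {M : Subgroup (Matrix.GeneralLinearGroup ι F)} {φ : Dual F (ι → F)} {v : ι → F} {c : F} (hc : c ≠ 0) : Tm M φ (c • v) ↔ Tm M (c • φ) v := by
  have key : ∀ (h : φ (c • v) = 0) (h' : (c • φ) v = 0), tv φ (c • v) h = tv (c • φ) v h' := by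
    intro h h'
    apply ext_mulVec
    intro x
    rw [tv_apply, tv_apply, LinearMap.smul_apply, smul_smul, smul_eq_mul, mul_comm]
  constructor
  · rintro ⟨a, ha⟩
    have a' : (c • φ) v = 0 := by rw [LinearMap.smul_apply, ← map_smul]; exact a
    exact ⟨a', by rw [← key a a']; exact ha⟩
  · rintro ⟨a, ha⟩
    have a' : φ (c • v) = 0 := by rw [map_smul]; exact a
    exact ⟨a', by rw [key a' a]; exact ha⟩

/-- centres all of whose transvections are in `M` -/
def Fl (M : Subgroup (Matrix.GeneralLinearGroup ι F)) : Submodule F (ι → F) where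
  carrier := {v | ∀ φ : Dual F (ι → F), φ v = 0 → Tm M φ v}
  zero_mem' := by
    intro φ h
    refine ⟨h, ?_⟩
    have : tv φ 0 h = 1 := by
      apply ext_mulVec
      intro x
      rw [tv_apply, smul_zero, add_zero, mulVec_one]
    rw [this]
    exact M.one_mem
  smul_mem' := by
    intro c v hv φ h
    by_cases hc : c = 0
    · rw [hc, zero_smul]
      refine ⟨map_zero _, ?_⟩
      have : tv φ 0 (map_zero _) = 1 := by
        apply ext_mulVec
        intro x
        rw [tv_apply, smul_zero, add_zero, mulVec_one]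
      rw [this]
      exact M.one_mem
    · rw [Tm.smul hc]
      apply hv
      rw [LinearMap.smul_apply, ← map_smul]
      exact h
  add_mem' := by
    intro v w hv hw
    by_cases hvw : w ∈ Submodule.span F {v}
    · obtain ⟨c, rfl⟩ := Submodule.mem_span_singleton.1 hvw
      intro φ h
      have e : v + c • v = (1 + c) • v := by rw [add_smul, one_smul]
      rw [e] at h ⊢
      by_cases hc : 1 + c = 0
      · rw [hc, zero_smul]
        refine ⟨map_zero _, ?_⟩
        have : tv φ 0 (map_zero _) = 1 := by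
          apply ext_mulVec
          intro x
          rw [tv_apply, smul_zero, add_zero, mulVec_one]
        rw [this]
        exact M.one_mem
      · rw [Tm.smul hc]
        apply hv
        rw [LinearMap.smul_apply, ← map_smul]
        exact h
    · obtain ⟨ψ, hψ, hψ'⟩ := exists_dual hvw 1
      obtain ⟨a, ha⟩ := hv ψ (hψ v (Submodule.mem_span_singleton_self v))
      intro φ h
      have e : Matrix.mulVec (tv ψ v a : Matrix ι ι F) w = v + w := by
        rw [tv_apply, hψ', one_smul, add_comm]
      have h1 := (hw (φ ∘ₗ Matrix.toLin' (tv ψ v a : Matrix ι ι F)) (by rw [LinearMap.comp_apply, toLin_apply, e, h])).conj ha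
      rw [e] at h1
      apply h1.congr
      intro x
      rw [LinearMap.comp_apply, LinearMap.comp_apply, toLin_apply, toLin_apply, mulVec_inv]

theorem Fl_inv {M : Subgroup (Matrix.GeneralLinearGroup ι F)} : Inv M (Fl M) := by
  intro g hg v hv φ h
  have h1 := (hv (φ ∘ₗ Matrix.toLin' (g : Matrix ι ι F)) (by rw [LinearMap.comp_apply, toLin_apply, h])).conj hg
  apply h1.congr
  intro x
  rw [LinearMap.comp_apply, LinearMap.comp_apply, toLin_apply, toLin_apply, mulVec_inv]

/-- an irreducible group with a full centre contains the special linear group -/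
theorem sl_le_of_full [Nontrivial ι] {M : Subgroup (Matrix.GeneralLinearGroup ι F)} (hM : Irr M) {w : ι → F} (hw : w ≠ 0) (hf : w ∈ Fl M) :
    specialLinear ι F ≤ M := by
  rcases hM _ Fl_inv with h | h
  · rw [h, Submodule.mem_bot] at hf
    exact absurd hf hw
  · apply sl_le_of_tv
    intro f v hfv
    have : v ∈ Fl M := by rw [h]; trivial
    obtain ⟨_, h2⟩ := this f hfv
    exact h2

/-! ### forms -/

/-- functional of a vector -/
def fn {σ : F ≃+* F} {f : (ι → F) → (ι → F) → F} (hf : SF σ f) (v : ι → F) : Dual F (ι → F) where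
  toFun := fun x => f x v
  map_add' := fun x y => hf.add_left x y v
  map_smul' := fun c x => hf.smul_left c x v

theorem exists_fn {σ : F ≃+* F} {f : (ι → F) → (ι → F) → F} (hf : SF σ f) (hnd : IsNondegenerateForm f) (φ : Dual F (ι → F)) :
    ∃ z, ∀ x, φ x = f x z := by
  obtain ⟨A, hA⟩ := sf_rep hf
  have hu := rep_isUnit hA hnd
  have hd : IsUnit A.det := (Matrix.isUnit_iff_isUnit_det A).1 hu
  -- vector of φ
  let y : ι → F := fun i => φ (Pi.single i 1)
  refine ⟨fun i => σ.symm ((A⁻¹).mulVec y i), fun x => ?_⟩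
  rw [hA]
  simp only [RingEquiv.apply_symm_apply]
  rw [show (fun i => (A⁻¹).mulVec y i) = (A⁻¹).mulVec y from rfl, Matrix.mulVec_mulVec, Matrix.mul_nonsing_inv _ hd, Matrix.one_mulVec]
  conv_lhs => rw [pi_eq_sum_univ' x, map_sum]
  simp only [dotProduct]
  apply Finset.sum_congr rfl
  intro i _
  rw [map_smul, smul_eq_mul]

theorem sim_of_eig [Nonempty ι] {σ : F ≃+* F} {f : (ι → F) → (ι → F) → F} (hf : SF σ f) (hnd : IsNondegenerateForm f) {g : Matrix.GeneralLinearGroup ι F}
    (h : ∀ v, ∃ d : F, ∀ x, f (Matrix.mulVec (g : Matrix ι ι F) x) (Matrix.mulVec (g : Matrix ι ι F) v) = d * f x v) : g ∈ similarityGroup f := by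
  obtain ⟨A, hA⟩ := sf_rep hf
  have hu := rep_isUnit hA hnd
  have hd : IsUnit A.det := (Matrix.isUnit_iff_isUnit_det A).1 hu
  set B := (g : Matrix ι ι F).transpose * A * (g : Matrix ι ι F).map σ with hB
  have h1 : ∀ w : ι → F, (A⁻¹ * B).mulVec w ∈ Submodule.span F {w} := by
    intro w
    obtain ⟨d, hd'⟩ := h (fun i => σ.symm (w i))
    rw [Submodule.mem_span_singleton]
    refine ⟨d, ?_⟩
    have h2 : B.mulVec w = A.mulVec (d • w) := by
      apply dotProduct_eq
      intro x
      have h3 := hd' x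
      rw [hA, rep_conj, ← hB, hA] at h3
      simp only [RingEquiv.apply_symm_apply] at h3
      rw [dotProduct_comm, h3, Matrix.mulVec_smul, smul_dotProduct, smul_eq_mul, dotProduct_comm x]
    rw [← Matrix.mulVec_mulVec, h2, Matrix.mulVec_mulVec, Matrix.nonsing_inv_mul _ hd, Matrix.one_mulVec]
  obtain ⟨c, hc⟩ := scalar_of_eig h1
  have h4 : B = c • A := by
    calc B = A * (A⁻¹ * B) := by rw [← mul_assoc, Matrix.mul_nonsing_inv _ hd, one_mul]
      _ = c • A := by rw [hc, Matrix.mul_smul, mul_one]
  have h5 : ∀ x v, f (Matrix.mulVec (g : Matrix ι ι F) x) (Matrix.mulVec (g : Matrix ι ι F) v) = c * f x v := by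
    intro x v
    rw [hA, rep_conj, ← hB, h4, hA x v, Matrix.smul_mulVec, dotProduct_smul, smul_eq_mul]
  have hc0 : c ≠ 0 := by
    rintro rfl
    obtain ⟨w, hw⟩ := exists_ne (0 : ι → F)
    obtain ⟨⟨x, hx⟩, -⟩ := hnd w hw
    apply hx
    have := h5 (Matrix.mulVec ((g⁻¹ : Matrix.GeneralLinearGroup ι F) : Matrix ι ι F) x) (Matrix.mulVec ((g⁻¹ : Matrix.GeneralLinearGroup ι F) : Matrix ι ι F) w)
    rw [mulVec_inv, mulVec_inv, zero_mul] at this
    exact this
  exact ⟨Units.mk0 c hc0, h5⟩

theorem dual_mul {φ ψ : Dual F (ι → F)} (h : ∀ x, φ x = 0 → ψ x = 0) : ∃ c : F, ∀ x, ψ x = c * φ x := by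
  by_cases h0 : φ = 0
  · refine ⟨0, fun x => ?_⟩
    rw [zero_mul]
    exact h x (by rw [h0]; rfl)
  · obtain ⟨y, hy⟩ : ∃ y, φ y ≠ 0 := by
      by_contra hne
      push Not at hne
      exact h0 (LinearMap.ext hne)
    refine ⟨ψ y * (φ y)⁻¹, fun x => ?_⟩
    have h1 := h (x - (φ x * (φ y)⁻¹) • y) (by
      rw [map_sub, map_smul, smul_eq_mul, mul_assoc, inv_mul_cancel₀ hy, mul_one, sub_self])
    rw [map_sub, map_smul, smul_eq_mul] at h1
    linear_combination h1

/-! ### the symplectic case -/
section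
variable {f : (ι → F) → (ι → F) → F} (hf : IsSymplecticForm f)
include hf

theorem symp_tv (u : ι → F) (c : F) : Tm (similarityGroup f ⊓ specialLinear ι F) (c • fn (sf_bilin hf.bilinear) u) u := by
  have h0 : (c • fn (sf_bilin hf.bilinear) u) u = 0 := by
    rw [LinearMap.smul_apply]
    change c • f u u = 0
    rw [hf.alternating, smul_zero]
  refine ⟨h0, ?_, tv_mem_sl _ _ h0⟩
  refine ⟨1, fun x y => ?_⟩
  rw [tv_apply, tv_apply, Units.val_one, one_mul]
  have e : ∀ z, (c • fn (sf_bilin hf.bilinear) u) z = c * f z u := fun z => rfl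
  rw [e, e, hf.bilinear.add_left, hf.bilinear.add_right, hf.bilinear.add_right, hf.bilinear.smul_left, hf.bilinear.smul_left, hf.bilinear.smul_right,
    hf.bilinear.smul_right, hf.alternating, hf.skew u y]
  ring

theorem symp_irr [Nontrivial ι] {M : Subgroup (Matrix.GeneralLinearGroup ι F)} (hM : similarityGroup f ⊓ specialLinear ι F ≤ M) : Irr M := by
  intro W hW
  by_contra hne
  push Not at hne
  obtain ⟨w, hw, hw0⟩ := Submodule.exists_mem_ne_zero_of_ne_bot hne.1
  have h1 : ∀ u, u ∉ W → f w u = 0 := by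
    intro u hu
    by_contra hfu
    obtain ⟨h0, h2⟩ := symp_tv hf u 1
    have h3 := hW _ (hM h2) w hw
    rw [tv_apply] at h3
    have h4 := W.sub_mem h3 hw
    rw [add_sub_cancel_left] at h4
    have e : ((1 : F) • fn (sf_bilin hf.bilinear) u) w = f w u := by
      rw [one_smul]; rfl
    rw [e] at h4
    apply hu
    have := W.smul_mem (f w u)⁻¹ h4
    rwa [smul_smul, inv_mul_cancel₀ hfu, one_smul] at this
  obtain ⟨u', hu'⟩ : ∃ u', u' ∉ W := by
    by_contra hne'
    push Not at hne'
    exact hne.2 (eq_top_iff.2 fun x _ => hne' x)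
  obtain ⟨-, ⟨y, hy⟩⟩ := hf.nondegenerate w hw0
  by_cases hyW : y ∈ W
  · have h2 : y + u' ∉ W := by
      intro h3
      have := W.sub_mem h3 hyW
      rw [add_sub_cancel_left] at this
      exact hu' this
    have h3 := h1 _ h2
    rw [hf.bilinear.add_right, h1 u' hu', add_zero] at h3
    exact hy h3
  · exact hy (h1 y hyW)

theorem symp_maximal (h3 : 3 ≤ Fintype.card ι) : IsMaximalIn (specialLinear ι F) (similarityGroup f ⊓ specialLinear ι F) := by
  haveI : Nontrivial ι := Fintype.one_lt_card_iff_nontrivial.1 (by omega)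
  have hsf := sf_bilin hf.bilinear
  constructor
  · refine lt_of_le_of_ne inf_le_right fun h => ?_
    exact not_similarity h3 hsf hf.nondegenerate (inf_eq_right.1 h)
  · intro M hHM hMS
    by_cases hM : M ≤ similarityGroup f
    · left
      exact le_antisymm (le_inf hM hMS) hHM
    · right
      apply le_antisymm hMS
      obtain ⟨g, hg, hgs⟩ := Set.not_subset.1 hM
      -- a bad vector
      have hbad : ∃ v, ∀ d : F, ∃ x, f (Matrix.mulVec (g : Matrix ι ι F) x) (Matrix.mulVec (g : Matrix ι ι F) v) ≠ d * f x v := by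
        by_contra hne
        push Not at hne
        exact hgs (sim_of_eig hsf hf.nondegenerate hne)
      obtain ⟨v, hv⟩ := hbad
      have hv0 : v ≠ 0 := by
        rintro rfl
        obtain ⟨x, hx⟩ := hv 0
        apply hx
        rw [Matrix.mulVec_zero, zero_mul]
        have := hf.bilinear.smul_right 0 (Matrix.mulVec (g : Matrix ι ι F) x) 0
        rw [smul_zero, zero_mul] at this
        exact this
      -- the conjugated transvection
      set gv := Matrix.mulVec (g : Matrix ι ι F) v with hgv
      have hT : ∀ (u : ι → F) (c : F), Tm M (c • fn hsf u) u := by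
        intro u c
        obtain ⟨h0, h1⟩ := symp_tv hf u c
        exact ⟨h0, hHM h1⟩
      have h1 := (hT gv 1).conj (M.inv_mem hg)
      rw [hgv, inv_mulVec, inv_inv] at h1
      obtain ⟨z, hz⟩ := exists_fn hsf hf.nondegenerate ((1 : F) • fn hsf gv ∘ₗ Matrix.toLin' (g : Matrix ι ι F))
      have hz' : ∀ x, f (Matrix.mulVec (g : Matrix ι ι F) x) gv = f x z := by
        intro x
        rw [← hz x, one_smul]
        rfl
      have hTz : Tm M (fn hsf z) v := by
        apply h1.congr
        intro x
        change (1 : F) * f (Matrix.mulVec (g : Matrix ι ι F) x) gv = f x z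
        rw [one_mul, hz']
      have hvz : f v z = 0 := by
        rw [← hz' v, hgv, hf.alternating]
      -- pairs in the orthogonal complement
      have step : ∀ u, f v u = 0 → f z u ≠ 0 → ∀ c : F, Tm M (c • fn hsf u) v := by
        intro u hvu hzu c
        obtain ⟨h0, h2⟩ := hT u (c * (f z u)⁻¹)
        have e0 : Matrix.mulVec (tv ((c * (f z u)⁻¹) • fn hsf u) u h0 : Matrix ι ι F) v = v := by
          rw [tv_apply]
          change v + ((c * (f z u)⁻¹) * f v u) • u = v
          rw [hvu, mul_zero, zero_smul, add_zero]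
        have h3 := hTz.conj h2
        rw [e0] at h3
        have h4 := h3.sub hTz
        apply h4.congr
        intro x
        have hinv : ∀ a b, f (Matrix.mulVec (tv ((c * (f z u)⁻¹) • fn hsf u) u h0 : Matrix ι ι F) a) (Matrix.mulVec (tv ((c * (f z u)⁻¹) • fn hsf u) u h0 : Matrix ι ι F) b) = f a b := by
          intro a b
          rw [tv_apply, tv_apply]
          have e : ∀ z', ((c * (f z u)⁻¹) • fn hsf u) z' = (c * (f z u)⁻¹) * f z' u := fun z' => rfl
          rw [e, e, hf.bilinear.add_left, hf.bilinear.add_right, hf.bilinear.add_right, hf.bilinear.smul_left, hf.bilinear.smul_left, hf.bilinear.smul_right,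
            hf.bilinear.smul_right, hf.alternating, hf.skew u b]
          ring
        rw [LinearMap.sub_apply, LinearMap.comp_apply, toLin_apply]
        change f _ z - f x z = c * f x u
        have h5 := hinv (Matrix.mulVec (((tv ((c * (f z u)⁻¹) • fn hsf u) u h0)⁻¹ : Matrix.GeneralLinearGroup ι F) : Matrix ι ι F) x) z
        rw [mulVec_inv] at h5
        rw [← h5, tv_apply]
        change f x (z + ((c * (f z u)⁻¹) * f z u) • u) - f x z = c * f x u
        rw [mul_assoc, inv_mul_cancel₀ hzu, mul_one, hf.bilinear.add_right, hf.bilinear.smul_right, add_sub_cancel_left]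
      obtain ⟨y, hvy, hzy⟩ : ∃ y, f v y = 0 ∧ f z y ≠ 0 := by
        by_contra hne
        push Not at hne
        obtain ⟨c, hc⟩ := dual_mul (φ := fn hsf v) (ψ := fn hsf z) (by
          intro x hx
          change f x z = 0
          have hx' : f x v = 0 := hx
          have := hne x (by rw [hf.skew, hx', neg_zero])
          rw [hf.skew, this, neg_zero])
        obtain ⟨x, hx⟩ := hv c
        apply hx
        rw [hz']
        exact hc x
      apply sl_le_of_full (symp_irr hf hHM) hv0
      intro φ hφ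
      obtain ⟨u, hu⟩ := exists_fn hsf hf.nondegenerate φ
      have hvu : f v u = 0 := by rw [← hu, hφ]
      by_cases hzu : f z u = 0
      · have h5 := (step (u + y) (by rw [hf.bilinear.add_right, hvu, hvy, add_zero]) (by rw [hf.bilinear.add_right, hzu, zero_add]; exact hzy) 1).sub (step y hvy hzy 1)
        apply h5.congr
        intro x
        rw [one_smul, one_smul, LinearMap.sub_apply]
        change f x (u + y) - f x y = φ x
        rw [hf.bilinear.add_right, add_sub_cancel_right, hu]
      · have h5 := step u hvu hzu 1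
        apply h5.congr
        intro x
        rw [one_smul, hu]
        rfl

end

end CfsgLib.Csim1
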