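import Cfsg.Agent.Lib.GeoSp
import Cfsg.Agent.Lib.Asch1

set_option autoImplicit false
set_option maxHeartbeats 400000

/-! Orthogonal groups are maximal in symplectic groups of characteristic two. -/
namespace CfsgLib.Csim2

open Cfsg Cfsg.Geo Module CfsgLib.GeoBase CfsgLib.GeoSp

variable {F : Type*} [Field F] {m : ℕ}


theorem fsl (w : Fin m ⊕ Fin m → F) : finrank F (Submodule.span F {w}) ≤ 1 := by
  by_cases hw : w = 0
  · rw [hw, Submodule.span_zero_singleton, finrank_bot]
    exact Nat.zero_le _
  · rw [finrank_span_singleton hw]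

section
variable {Q : (Fin m ⊕ Fin m → F) → F} (hQ : IsNondegenerateQuadraticForm Q) (hpol : ∀ u v, QuadraticMap.polar Q u v = sympForm m F u v)
include hQ hpol

theorem Q_add (x v : (Fin m ⊕ Fin m → F)) (c : F) : Q (x + c • v) = Q x + c ^ 2 * Q v + c * sympForm m F x v := by
  have h := hpol x (c • v)
  unfold QuadraticMap.polar at h
  rw [hQ.smul, f_smul_right] at h
  linear_combination h

theorem exists_ns {E : Submodule F (Fin m ⊕ Fin m → F)} (hE : m < finrank F E) : ∃ e ∈ E, Q e ≠ 0 := by
  by_contra hne
  push Not at hne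
  have h1 : E ≤ perp E := by
    intro x hx
    rw [mem_perp]
    intro w hw
    rw [← hpol w x]
    unfold QuadraticMap.polar
    rw [hne _ (E.add_mem hw hx), hne w hw, hne x hx]
    ring
  have h2 := Submodule.finrank_mono h1
  have h3 := finrank_perp E
  omega

theorem sim_one [Nonempty (Fin m)] {g : Matrix.GeneralLinearGroup (Fin m ⊕ Fin m) F} (hg : g ∈ spGL m F) (hs : g ∈ quadSimilarityGroup Q) (v : (Fin m ⊕ Fin m → F)) : Q (Matrix.mulVec (g : Matrix _ _ F) v) = Q v := by
  obtain ⟨c, hc⟩ := hs
  have h1 : ∀ u v : (Fin m ⊕ Fin m → F), sympForm m F u v = c * sympForm m F u v := by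
    intro u v
    have h2 := mem_spGL.1 hg u v
    rw [← hpol, ← hpol] at h2
    have h3 : QuadraticMap.polar Q (Matrix.mulVec (g : Matrix _ _ F) u) (Matrix.mulVec (g : Matrix _ _ F) v) = c * QuadraticMap.polar Q u v := by
      unfold QuadraticMap.polar
      rw [← Matrix.mulVec_add, hc, hc, hc]
      ring
    rw [h3, hpol] at h2
    exact h2.symm
  obtain ⟨w, hw⟩ := exists_ne (0 : (Fin m ⊕ Fin m → F))
  obtain ⟨⟨x, hx⟩, -⟩ := hQ.nondegenerate w hw
  rw [hpol] at hx
  have h4 := h1 x w
  have h5 : (c : F) = 1 := by
    have : ((c : F) - 1) * sympForm m F x w = 0 := by linear_combination -h4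
    exact sub_eq_zero.1 ((mul_eq_zero.1 this).resolve_right hx)
  rw [hc, h5, one_mul]

variable (h2 : (2 : F) = 0)
include h2

theorem st_one_mem {v : (Fin m ⊕ Fin m → F)} (hv : Q v = 1) : st v 1 ∈ quadSimilarityGroup Q ⊓ spGL m F := by
  refine ⟨⟨1, fun x => ?_⟩, st_mem v 1⟩
  rw [st_apply, Q_add hQ hpol, hv, Units.val_one]
  linear_combination (sympForm m F x v ^ 2) * h2

theorem exists_v [Finite F] (hm : 4 ≤ m) {w y : (Fin m ⊕ Fin m → F)} (hw : w ≠ 0) (hy : y ∉ Submodule.span F {w}) (δ : F) :
    ∃ v : (Fin m ⊕ Fin m → F), Q v = 1 ∧ sympForm m F w v = 1 ∧ sympForm m F y v = δ := by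
  -- a first vector
  obtain ⟨v₀, h3, h4⟩ : ∃ v₀ : (Fin m ⊕ Fin m → F), sympForm m F w v₀ = 1 ∧ sympForm m F y v₀ = δ := by
    -- surjectivity of the pair of functionals
    have hnd : ∀ u : (Fin m ⊕ Fin m → F), u ≠ 0 → ∃ x, sympForm m F u x ≠ 0 := by
      intro u hu
      obtain ⟨-, ⟨x, hx⟩⟩ := hQ.nondegenerate u hu
      exact ⟨x, by rw [← hpol]; exact hx⟩
    -- vector x1 with f(w,x1) ≠ 0 and f(y,x1) = 0
    have key : ∀ a b : (Fin m ⊕ Fin m → F), a ≠ 0 → a ∉ Submodule.span F {b} → ∃ x, sympForm m F a x ≠ 0 ∧ sympForm m F b x = 0 := by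
      intro a b ha hab
      by_cases hb : b = 0
      · obtain ⟨x, hx⟩ := hnd a ha
        exact ⟨x, hx, by rw [hb, f_zero_left]⟩
      by_contra hne
      push Not at hne
      obtain ⟨z, hz⟩ := hnd b hb
      apply hab
      rw [Submodule.mem_span_singleton]
      refine ⟨sympForm m F a z * (sympForm m F b z)⁻¹, ?_⟩
      by_contra hne2
      have h5 : a - (sympForm m F a z * (sympForm m F b z)⁻¹) • b ≠ 0 := fun h => hne2 (sub_eq_zero.1 h).symm
      obtain ⟨x, hx⟩ := hnd _ h5
      apply hx
      rw [f_sub_left, f_smul_left]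
      have h6 : sympForm m F a (x - (sympForm m F b x * (sympForm m F b z)⁻¹) • z) = 0 := by
        by_contra h7
        apply hne _ h7
        rw [f_sub_right, f_smul_right, mul_assoc, inv_mul_cancel₀ hz, mul_one, sub_self]
      rw [f_sub_right, f_smul_right] at h6
      linear_combination h6
    obtain ⟨x₁, h5, h6⟩ := key w y hw (by
      intro h
      obtain ⟨c, hc⟩ := Submodule.mem_span_singleton.1 h
      have hc0 : c ≠ 0 := by
        rintro rfl
        rw [zero_smul] at hc
        exact hw hc.symm
      apply hy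
      rw [Submodule.mem_span_singleton]
      exact ⟨c⁻¹, by rw [← hc, smul_smul, inv_mul_cancel₀ hc0, one_smul]⟩)
    have hy0 : y ≠ 0 := by
      rintro rfl
      exact hy (Submodule.zero_mem _)
    obtain ⟨x₂, h7, h8⟩ := key y w hy0 hy
    refine ⟨(sympForm m F w x₁)⁻¹ • x₁ + (δ * (sympForm m F y x₂)⁻¹) • x₂, ?_, ?_⟩
    · rw [f_add_right, f_smul_right, f_smul_right, h8, mul_zero, add_zero, inv_mul_cancel₀ h5]
    · rw [f_add_right, f_smul_right, f_smul_right, h6, mul_zero, zero_add, mul_assoc, inv_mul_cancel₀ h7, mul_one]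
  -- correction
  have hE : m < finrank F (perp (Submodule.span F {w, y, v₀})) := by
    have h5 := finrank_perp (Submodule.span F {w, y, v₀})
    have h6 : finrank F (Submodule.span F {w, y, v₀}) ≤ 3 := by
      classical
      have := finrank_span_finset_le_card (R := F) ({w, y, v₀} : Finset (Fin m ⊕ Fin m → F))
      rw [Finset.coe_insert, Finset.coe_insert, Finset.coe_singleton] at this
      exact this.trans Finset.card_le_three
    omega
  obtain ⟨e, he, he0⟩ := exists_ns hQ hpol hE
  rw [mem_perp] at he
  have hew := he w (Submodule.subset_span (by simp))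
  have hey := he y (Submodule.subset_span (by simp))
  have hev := he v₀ (Submodule.subset_span (by simp))
  have hsq : ∀ a : F, ∃ t : F, a = t ^ 2 := by
    intro a
    obtain ⟨t, ht⟩ := FiniteField.isSquare_of_char_two (F := F) (by
      apply CharP.ringChar_of_prime_eq_zero Nat.prime_two
      exact_mod_cast h2) a
    exact ⟨t, by rw [ht, pow_two]⟩
  obtain ⟨t, ht⟩ := hsq ((1 + Q v₀) * (Q e)⁻¹)
  refine ⟨v₀ + t • e, ?_, ?_, ?_⟩
  · rw [Q_add hQ hpol, hev, ← ht, mul_assoc, inv_mul_cancel₀ he0]
    linear_combination (Q v₀) * h2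
  · rw [f_add_right, f_smul_right, hew, h3, mul_zero, add_zero]
  · rw [f_add_right, f_smul_right, hey, h4, mul_zero, add_zero]

theorem quad_maximal [Finite F] (hm : 4 ≤ m) : IsMaximalIn (spGL m F) (quadSimilarityGroup Q ⊓ spGL m F) := by
  haveI : Nonempty (Fin m) := ⟨⟨0, by omega⟩⟩
  haveI : Nontrivial (Fin m ⊕ Fin m) := ⟨⟨Sum.inl ⟨0, by omega⟩, Sum.inr ⟨0, by omega⟩, by simp⟩⟩
  have hsq : ∀ a : F, ∃ t : F, a = t ^ 2 := by
    intro a
    obtain ⟨t, ht⟩ := FiniteField.isSquare_of_char_two (F := F) (by
      apply CharP.ringChar_of_prime_eq_zero Nat.prime_two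
      exact_mod_cast h2) a
    exact ⟨t, by rw [ht, pow_two]⟩
  have hbig : ∀ E : Submodule F (Fin m ⊕ Fin m → F), 2 ≤ finrank F E → ∀ w : (Fin m ⊕ Fin m → F), ∃ y ∈ E, y ∉ Submodule.span F {w} := by
    intro E hE w
    by_contra hne
    push Not at hne
    have h1 := Submodule.finrank_mono (show E ≤ Submodule.span F {w} from fun x hx => hne x hx)
    have h3 : finrank F (Submodule.span F {w}) ≤ 1 := fsl w
    omega
  have hind : ∀ w : (Fin m ⊕ Fin m → F), ∃ y : (Fin m ⊕ Fin m → F), y ∉ Submodule.span F {w} := by
    intro w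
    obtain ⟨y, -, hy⟩ := hbig ⊤ (by
      rw [finrank_top, finrank_fintype_fun_eq_card, Fintype.card_sum, Fintype.card_fin]
      omega) w
    exact ⟨y, hy⟩
  have hnd : ∀ u : (Fin m ⊕ Fin m → F), u ≠ 0 → ∃ x, sympForm m F x u ≠ 0 := by
    intro u hu
    obtain ⟨⟨x, hx⟩, -⟩ := hQ.nondegenerate u hu
    exact ⟨x, by rw [← hpol]; exact hx⟩
  constructor
  · refine lt_of_le_of_ne inf_le_right fun h => ?_
    -- a vector v ≠ 0 with Q v ≠ 1
    obtain ⟨v, hv, hv1⟩ : ∃ v : (Fin m ⊕ Fin m → F), v ≠ 0 ∧ Q v ≠ 1 := by
      by_contra hne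
      push Not at hne
      obtain ⟨w, hw⟩ := exists_ne (0 : (Fin m ⊕ Fin m → F))
      obtain ⟨y, hy, hyw⟩ := hbig (perp (Submodule.span F {w})) (by
        have h3 := finrank_perp (Submodule.span F {w})
        have h4 : finrank F (Submodule.span F {w}) ≤ 1 := fsl w
        omega) w
      have h3 := (mem_perp.1 hy) w (Submodule.mem_span_singleton_self w)
      have hy0 : y ≠ 0 := by
        rintro rfl
        exact hyw (Submodule.zero_mem _)
      have hwy : w + (1 : F) • y ≠ 0 := by
        intro h0
        apply hyw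
        rw [one_smul] at h0
        rw [eq_neg_of_add_eq_zero_right h0]
        exact Submodule.neg_mem _ (Submodule.mem_span_singleton_self w)
      have h4 := Q_add hQ hpol w y 1
      rw [hne w hw, hne y hy0, hne _ hwy, h3] at h4
      apply one_ne_zero (α := F)
      linear_combination (-1 : F) * h4
    have h1 : st v 1 ∈ quadSimilarityGroup Q := by
      have : st v 1 ∈ quadSimilarityGroup Q ⊓ spGL m F := by rw [h]; exact st_mem v 1
      exact this.1
    obtain ⟨x, hx⟩ := hnd v hv
    have h3 := sim_one hQ hpol (st_mem v 1) h1 x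
    rw [st_apply, Q_add hQ hpol] at h3
    have h4 : (sympForm m F x v) ^ 2 * (Q v - 1) = 0 := by linear_combination h3 - (sympForm m F x v) ^ 2 * h2
    rcases mul_eq_zero.1 h4 with h5 | h5
    · exact hx (pow_eq_zero_iff two_ne_zero |>.1 h5)
    · exact hv1 (sub_eq_zero.1 h5)
  · intro M hSM hMS
    by_cases hM : M ≤ quadSimilarityGroup Q
    · left
      exact le_antisymm (le_inf hM hMS) hSM
    · right
      apply le_antisymm hMS
      obtain ⟨g, hg, hgs⟩ := Set.not_subset.1 hM
      -- the set of good vectors
      have hSinv : ∀ h ∈ M, ∀ v : (Fin m ⊕ Fin m → F), st v 1 ∈ M → st (Matrix.mulVec (h : Matrix _ _ F) v) 1 ∈ M := by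
        intro h hh v hv
        rw [← st_conj (hMS hh)]
        exact M.mul_mem (M.mul_mem hh hv) (M.inv_mem hh)
      have hS1 : ∀ v : (Fin m ⊕ Fin m → F), Q v = 1 → st v 1 ∈ M := fun v hv => hSM (st_one_mem hQ hpol h2 hv)
      -- a good vector with Q ≠ 1
      obtain ⟨w, hw0, hw1, hwS⟩ : ∃ w : (Fin m ⊕ Fin m → F), w ≠ 0 ∧ Q w ≠ 1 ∧ st w 1 ∈ M := by
        by_contra hne
        push Not at hne
        have h3 : ∀ v : (Fin m ⊕ Fin m → F), Q v = 1 → Q (Matrix.mulVec (g : Matrix (Fin m ⊕ Fin m) (Fin m ⊕ Fin m) F) v) = 1 := by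
          intro v hv
          by_contra h4
          have hgv0 : Matrix.mulVec (g : Matrix (Fin m ⊕ Fin m) (Fin m ⊕ Fin m) F) v ≠ 0 := by
            intro h5
            have h6 : v = 0 := by
              apply mulVec_injective g
              rw [h5]
              exact (Matrix.mulVec_zero (g : Matrix (Fin m ⊕ Fin m) (Fin m ⊕ Fin m) F)).symm
            have h7 := hQ.smul 0 0
            rw [zero_smul, ← h6, hv] at h7
            apply one_ne_zero (α := F)
            rw [h7]; ring
          exact hne _ hgv0 h4 (hSinv g hg v (hS1 v hv))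
        have h4 : ∀ v : (Fin m ⊕ Fin m → F), Q v ≠ 0 → Q (Matrix.mulVec (g : Matrix _ _ F) v) = Q v := by
          intro v hv
          obtain ⟨t, ht⟩ := hsq (Q v)⁻¹
          have h5 : Q (t • v) = 1 := by rw [hQ.smul, ← ht, inv_mul_cancel₀ hv]
          have h6 := h3 _ h5
          rw [mulVec_smul', hQ.smul, ← ht] at h6
          field_simp at h6
          exact h6
        apply hgs
        refine ⟨1, fun v => ?_⟩
        rw [Units.val_one, one_mul]
        by_cases hv : Q v = 0
        · -- choose a perpendicular non-singular vector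
          have hE : m < finrank F (perp (Submodule.span F {v})) := by
            have h5 := finrank_perp (Submodule.span F {v})
            have h6 : finrank F (Submodule.span F {v}) ≤ 1 := fsl v
            omega
          obtain ⟨e, he, he0⟩ := exists_ns hQ hpol hE
          have hve := (mem_perp.1 he) v (Submodule.mem_span_singleton_self v)
          have h7 := Q_add hQ hpol v e 1
          rw [hv, hve] at h7
          have h8 : Q (v + (1 : F) • e) ≠ 0 := by
            rw [h7]
            intro h9
            apply he0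
            linear_combination h9
          have h9 := h4 _ h8
          rw [mulVec_add', mulVec_smul', Q_add hQ hpol, h4 e he0, mem_spGL.1 (hMS hg), h7, hve] at h9
          rw [hv]
          linear_combination h9
        · exact h4 v hv
      -- main claim
      have claim : ∀ w : (Fin m ⊕ Fin m → F), w ≠ 0 → Q w ≠ 1 → st w 1 ∈ M → ∀ y : (Fin m ⊕ Fin m → F), y ∉ Submodule.span F {w} → st y 1 ∈ M := by
        intro w hw0 hw1 hwS y hy
        have hα : (1 + Q w) ≠ 0 := by
          intro h3
          apply hw1
          linear_combination h3 - h2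
        obtain ⟨s, hs⟩ := hsq ((1 + Q y) * (1 + Q w)⁻¹)
        obtain ⟨v, hv1, hv2, hv3⟩ := exists_v hQ hpol h2 (by omega) hw0 hy (s + sympForm m F y w)
        -- w' = st v 1 w
        have hw' := hSinv _ (hS1 v hv1) w hwS
        rw [st_apply, hv2, mul_one, one_smul] at hw'
        have hQw' : Q (w + v) = Q w := by
          have := Q_add hQ hpol w v 1
          rw [one_smul, hv1, hv2] at this
          rw [this]
          linear_combination h2
        have hfy : sympForm m F y (w + v) = s := by
          rw [f_add_right, hv3]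
          linear_combination (sympForm m F y w) * h2
        have hy' : Q (Matrix.mulVec (st (w + v) 1 : Matrix _ _ F) y) = 1 := by
          rw [st_apply, Q_add hQ hpol, hfy, hQw']
          have h5 : s ^ 2 * (1 + Q w) = 1 + Q y := by rw [← hs, mul_assoc, inv_mul_cancel₀ hα, mul_one]
          linear_combination h5 + (Q y) * h2
        have h6 := hSinv _ (M.inv_mem hw') _ (hS1 _ hy')
        rwa [inv_mulVec] at h6
      -- everything is good
      have hall : ∀ y : (Fin m ⊕ Fin m → F), st y 1 ∈ M := by
        intro y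
        by_cases hy : y ∈ Submodule.span F {w}
        · -- another good vector
          obtain ⟨x, hx⟩ := hind w
          obtain ⟨v, hv1, hv2, -⟩ := exists_v hQ hpol h2 (by omega) hw0 hx 0
          have hw' := hSinv _ (hS1 v hv1) w hwS
          rw [st_apply, hv2, mul_one, one_smul] at hw'
          have hQw' : Q (w + v) = Q w := by
            have := Q_add hQ hpol w v 1
            rw [one_smul, hv1, hv2] at this
            rw [this]
            linear_combination h2
          have hvw : v ∉ Submodule.span F {w} := by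
            intro h3
            obtain ⟨c, rfl⟩ := Submodule.mem_span_singleton.1 h3
            rw [f_smul_right, f_self, mul_zero] at hv2
            exact zero_ne_one hv2
          have hwv : w + v ∉ Submodule.span F {w} := by
            intro h3
            apply hvw
            have := Submodule.sub_mem _ h3 (Submodule.mem_span_singleton_self w)
            rwa [add_sub_cancel_left] at this
          have hwv0 : w + v ≠ 0 := by
            intro h3
            rw [h3] at hwv
            exact hwv (Submodule.zero_mem _)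
          by_cases hy0 : y = 0
          · rw [hy0]
            have : st (0 : Fin m ⊕ Fin m → F) 1 = 1 := by
              apply ext_mulVec
              intro x
              rw [st_apply, smul_zero, add_zero, mulVec_one]
            rw [this]
            exact M.one_mem
          · apply claim (w + v) hwv0 (by rw [hQw']; exact hw1) hw' y
            intro h3
            obtain ⟨c, hc⟩ := Submodule.mem_span_singleton.1 h3
            have hc0 : c ≠ 0 := by
              rintro rfl
              rw [zero_smul] at hc
              exact hy0 hc.symm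
            apply hwv
            have h4 : w + v = c⁻¹ • y := by rw [← hc, smul_smul, inv_mul_cancel₀ hc0, one_smul]
            rw [h4]
            exact Submodule.smul_mem _ _ hy
        · exact claim w hw0 hw1 hwS y hy
      apply sp_le
      intro v c
      obtain ⟨t, ht⟩ := hsq c
      have : st v c = st (t • v) 1 := by
        apply ext_mulVec
        intro x
        rw [st_apply, st_apply, f_smul_right, smul_smul, ht]
        congr 2
        ring
      rw [this]
      exact hall _

end

end CfsgLib.Csim2
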