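import Cfsg.Agent.Lib.Csim1
import Cfsg.Agent.Lib.Herm8

set_option autoImplicit false
set_option maxHeartbeats 400000

/-! Unitary similarity groups are maximal in special linear groups. -/
namespace CfsgLib.Csim3

open Cfsg Cfsg.Geo Module CfsgLib.GeoBase CfsgLib.Asch1 CfsgLib.Asch6 CfsgLib.Asch10 CfsgLib.Csim1 CfsgLib.Herm

section abs
variable {F V : Type*} [Field F] [AddCommGroup V] [Module F V] [FiniteDimensional F V] {σ : F →+* F} {q : ℕ} {B : V →ₛₗ[σ] V →ₗ[F] F}

/-- non-isotropic vectors in large subspaces -/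
theorem exists_aniso (hq : QConj σ q) (h : HForm B) {E : Submodule F V} (hE : finrank F V < 2 * finrank F E) : ∃ e ∈ E, B e e ≠ 0 := by
  by_contra hne
  push Not at hne
  have h0 : ∀ x ∈ E, ∀ y ∈ E, B x y = 0 := by
    intro x hx y hy
    by_contra hxy
    obtain ⟨a, ha⟩ := hq.exists_trace_ne
    have h1 := hne (x + (a / B x y) • y) (E.add_mem hx (E.smul_mem _ hy))
    rw [map_add_left, map_add_right, map_add_right, hne x hx, map_smul_left, map_smul_left,
      map_smul_right, map_smul_right, hne y hy, map_div₀, h.symm, ← h.symm x y] at h1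
    have hσ : σ (B x y) ≠ 0 := by rw [Ne, map_eq_zero]; exact hxy
    apply ha
    have e1 : a / B x y * B x y = a := div_mul_cancel₀ _ hxy
    have e2 : σ a / B y x * B y x = σ a := div_mul_cancel₀ _ (by rw [← h.symm]; exact hσ)
    rw [h.symm] at h1
    linear_combination h1 - e1 - e2
  have h1 : E ≤ perp B E := fun y hy x hx => h0 x hx y hy
  have h2 := Submodule.finrank_mono h1
  have h3 := finrank_perp hq h E
  omega

/-- isotropic vectors with prescribed products -/
theorem exists_iso (hq : QConj σ q) (h : HForm B) {k : ℕ} (hk : 2 * k + 2 < finrank F V) (v : Fin k → V) (hv : LinearIndependent F v) (c : Fin k → F) :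
    ∃ u, B u u = 0 ∧ ∀ i, B (v i) u = c i := by
  let Φ : V →ₗ[F] (Fin k → F) := LinearMap.pi fun i => B (v i)
  have hsurj : LinearMap.range Φ = ⊤ := by
    by_contra hne
    obtain ⟨f, hf0, hf⟩ := Submodule.exists_le_ker_of_lt_top _ (lt_top_iff_ne_top.mpr hne)
    apply hf0
    have h1 : ∑ i, σ (f (Pi.single i 1)) • (v i : V) = 0 := by
      apply h.nd
      intro x
      have h2 : f (Φ x) = 0 := hf ⟨x, rfl⟩
      have h3 : Φ x = ∑ i, Φ x i • (Pi.single i 1 : Fin k → F) := by
        funext j
        simp [Finset.sum_apply, Pi.single_apply]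
      rw [h3, map_sum] at h2
      rw [map_sum, LinearMap.sum_apply, ← h2]
      refine Finset.sum_congr rfl fun i _ => ?_
      rw [map_smul_left, hq.invol, LinearMap.map_smul, smul_eq_mul, mul_comm]
      rfl
    have h5 := Fintype.linearIndependent_iff.mp hv _ h1
    apply LinearMap.pi_ext'
    intro i
    apply LinearMap.ext_ring
    rw [LinearMap.comp_apply, LinearMap.single_apply, LinearMap.zero_comp, LinearMap.zero_apply]
    exact (map_eq_zero σ).mp (h5 i)
  obtain ⟨x0, hx0⟩ : ∃ x0, Φ x0 = c := LinearMap.range_eq_top.1 hsurj c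
  obtain ⟨e, he, he0⟩ := exists_aniso hq h (E := perp B (Submodule.span F (Set.range (Fin.cons x0 v : Fin (k + 1) → V)))) (by
    have h3 := finrank_perp hq h (Submodule.span F (Set.range (Fin.cons x0 v : Fin (k + 1) → V)))
    have h4 : finrank F (Submodule.span F (Set.range (Fin.cons x0 v : Fin (k + 1) → V))) ≤ k + 1 := by
      have := finrank_range_le_card (R := F) (Fin.cons x0 v : Fin (k + 1) → V)
      rwa [Fintype.card_fin] at this
    omega)
  have hx0e : B x0 e = 0 := he x0 (Submodule.subset_span ⟨0, rfl⟩)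
  have hve : ∀ i, B (v i) e = 0 := fun i => he (v i) (Submodule.subset_span ⟨i.succ, rfl⟩)
  obtain ⟨t, ht⟩ := hq.exists_norm (c := -(B x0 x0) / B e e) (by rw [map_div₀, map_neg, h.self_fixed, h.self_fixed])
  refine ⟨x0 + t • e, ?_, fun i => ?_⟩
  · rw [map_add_left, map_add_right, map_add_right, map_smul_left, map_smul_left, map_smul_right, map_smul_right, hx0e, h.eq_zero_comm hx0e]
    have h5 : t * σ t * B e e = - B x0 x0 := by rw [ht, div_mul_cancel₀ _ he0]
    linear_combination h5
  · rw [map_add_right, map_smul_right, hve, mul_zero, add_zero]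
    exact congrFun hx0 i

theorem iso_scalar (hq : QConj σ q) (h : HForm B) (hV : 2 ≤ finrank F V) (L : V →ₗ[F] V) (hL : ∀ u, B u u = 0 → ∃ a : F, L u = a • u) :
    ∃ a : F, ∀ x, L x = a • x := by
  obtain ⟨e, he0, he⟩ := h.exists_isotropic hq hV
  obtain ⟨a, ha⟩ := hL e he
  refine ⟨a, fun x => isotropic_induction hq h hV (P := fun v => L v = a • v) ?_ ?_ x⟩
  · intro v hv
    change L v = a • v
    by_cases hve : v ∈ Submodule.span F {e}
    · obtain ⟨c, rfl⟩ := Submodule.mem_span_singleton.1 hve
      rw [map_smul, ha, smul_comm]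
    · obtain ⟨b, hb⟩ := hL v hv
      have hli : LinearIndependent F ![v, e] := by
        rw [linearIndependent_fin2]
        refine ⟨he0, fun c hc => hve ?_⟩
        rw [Submodule.mem_span_singleton]
        exact ⟨c, hc⟩
      obtain ⟨ε, hε0, hε⟩ : ∃ ε : F, ε ≠ 0 ∧ B (e + ε • v) (e + ε • v) = 0 := by
        by_cases h1 : B e v = 0
        · refine ⟨1, one_ne_zero, ?_⟩
          rw [map_add_left, map_add_right, map_add_right, map_smul_left, map_smul_left, map_smul_right, map_smul_right, he, hv, h1, h.eq_zero_comm h1]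
          ring
        · obtain ⟨δ, hδ0, hδ⟩ := hq.exists_trace_ne_zero (map_zero σ)
          refine ⟨δ / B e v, div_ne_zero hδ0 h1, ?_⟩
          have h2 : B v e ≠ 0 := fun h3 => h1 (h.eq_zero_comm h3)
          rw [map_add_left, map_add_right, map_add_right, map_smul_left, map_smul_left, map_smul_right, map_smul_right, he, hv, map_div₀, h.symm]
          have e1 : δ / B e v * B e v = δ := div_mul_cancel₀ _ h1
          have e2 : σ δ / B v e * B v e = σ δ := div_mul_cancel₀ _ h2
          linear_combination e1 + e2 + hδ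
      obtain ⟨d, hd⟩ := hL _ hε
      rw [map_add, map_smul, ha, hb] at hd
      have h2 : (ε * (b - d)) • v + (a - d) • e = 0 := by
        have : (ε * (b - d)) • v + (a - d) • e = (a • e + ε • b • v) - d • (e + ε • v) := by module
        rw [this, hd, sub_self]
      obtain ⟨h4, h3⟩ := LinearIndependent.pair_iff.1 hli _ _ h2
      have h5 := (mul_eq_zero.mp h4).resolve_left hε0
      have h6 : a = b := by linear_combination h3 - h5
      rw [hb, h6]
  · intro v w hv hw
    change L (v + w) = a • (v + w)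
    rw [map_add, hv, hw, smul_add]

end abs

universe u
variable {ι : Type} [Fintype ι] [DecidableEq ι] {F : Type u} [Field F]

section
variable {σ : F →+* F} {q : ℕ} {B : (ι → F) →ₛₗ[σ] (ι → F) →ₗ[F] F} (hq : QConj σ q) (h : HForm B)
include hq h

/-- isometry transvections -/
def HT (B : (ι → F) →ₛₗ[σ] (ι → F) →ₗ[F] F) (M : Subgroup (Matrix.GeneralLinearGroup ι F)) : Prop := ∀ u, B u u = 0 → ∀ b : F, b + σ b = 0 → Tm M (b • B u) u

theorem u_irr (hn : 2 ≤ Fintype.card ι) {M : Subgroup (Matrix.GeneralLinearGroup ι F)} (hM : HT B M) : Irr M := by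
  have hV : 2 ≤ finrank F (ι → F) := by rw [finrank_fintype_fun_eq_card]; exact hn
  intro W hW
  by_contra hne
  push Not at hne
  have h1 : ∀ u, B u u = 0 → u ∈ W ∨ ∀ x ∈ W, B u x = 0 := by
    intro u hu
    by_contra hcon
    push Not at hcon
    obtain ⟨huW, x, hx, hux⟩ := hcon
    obtain ⟨b, hb0, hb⟩ := hq.exists_trace_ne_zero (map_zero σ)
    obtain ⟨h0, h2⟩ := hM u hu b hb
    have h3 := hW _ h2 x hx
    rw [tv_apply] at h3
    have h4 := W.sub_mem h3 hx
    rw [add_sub_cancel_left, LinearMap.smul_apply, smul_eq_mul] at h4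
    apply huW
    have := W.smul_mem (b * B u x)⁻¹ h4
    rwa [smul_smul, inv_mul_cancel₀ (mul_ne_zero hb0 hux), one_smul] at this
  obtain ⟨u₁, hu₁, hu₁W⟩ : ∃ u, B u u = 0 ∧ u ∉ W := by
    by_contra hcon
    push Not at hcon
    apply hne.2
    rw [eq_top_iff]
    intro x _
    exact isotropic_induction hq h hV (P := fun v => v ∈ W) hcon (fun v w hv hw => W.add_mem hv hw) x
  obtain ⟨w, hw, hw0⟩ := Submodule.exists_mem_ne_zero_of_ne_bot hne.1
  obtain ⟨u₂, hu₂, hu₂W⟩ : ∃ u, B u u = 0 ∧ ¬ ∀ x ∈ W, B u x = 0 := by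
    by_contra hcon
    push Not at hcon
    apply hw0
    apply h.nd
    intro y
    have h3 : ∀ x ∈ W, B y x = 0 := isotropic_induction hq h hV (P := fun v => ∀ x ∈ W, B v x = 0) hcon
      (fun v w hv hw x hx => by rw [map_add_left, hv x hx, hw x hx, add_zero]) y
    exact h.eq_zero_comm (h3 w hw)
  have h2 := (h1 u₁ hu₁).resolve_left hu₁W
  have h3 := (h1 u₂ hu₂).resolve_right hu₂W
  have h4 := h2 u₂ h3
  have h5 : B (u₁ + u₂) (u₁ + u₂) = 0 := by
    rw [map_add_left, map_add_right, map_add_right, hu₁, hu₂, h4, h.eq_zero_comm h4]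
    ring
  rcases h1 _ h5 with h6 | h6
  · apply hu₁W
    have := W.sub_mem h6 h3
    rwa [add_sub_cancel_right] at this
  · apply hu₂W
    intro x hx
    have := h6 x hx
    rwa [map_add_left, h2 x hx, zero_add] at this

theorem u_full [Finite F] (hn : 13 ≤ Fintype.card ι) {M : Subgroup (Matrix.GeneralLinearGroup ι F)} (hM : HT B M) {w z : ι → F} (hw : w ≠ 0)
    (hz : z ∉ Submodule.span F {w}) (hzw : B z w = 0) (hT : ∀ a : F, a + σ a = 0 → Tm M (B (a • z)) w) : w ∈ Fl M := by
  have hV : finrank F (ι → F) = Fintype.card ι := finrank_fintype_fun_eq_card F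
  obtain ⟨δ, hδ0, hδ⟩ := hq.exists_trace_ne_zero (map_zero σ)
  have step : ∀ u, B u u = 0 → B u w = 0 → ∀ b, b + σ b = 0 → ∀ y, Tm M (B y) w → Tm M (B ((b * B u y) • u)) w := by
    intro u hu huw b hb y hy
    obtain ⟨h0, h2⟩ := hM u hu b hb
    have hT : ∀ x, Matrix.mulVec (tv (b • B u) u h0 : Matrix ι ι F) x = x + (b * B u x) • u := by
      intro x
      rw [tv_apply, LinearMap.smul_apply, smul_eq_mul]
    have hTw : Matrix.mulVec (tv (b • B u) u h0 : Matrix ι ι F) w = w := by
      rw [hT, huw, mul_zero, zero_smul, add_zero]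
    have hiso : ∀ x x', B (Matrix.mulVec (tv (b • B u) u h0 : Matrix ι ι F) x) (Matrix.mulVec (tv (b • B u) u h0 : Matrix ι ι F) x') = B x x' := by
      intro x x'
      rw [hT, hT, map_add_left, map_add_right, map_add_right, map_smul_left, map_smul_left, map_smul_right, map_smul_right, hu, map_mul, h.symm]
      linear_combination (B x u * B u x') * hb
    have h3 := hy.conj h2
    rw [hTw] at h3
    have h4 := h3.sub hy
    apply h4.congr
    intro x
    rw [LinearMap.sub_apply, LinearMap.comp_apply, toLin_apply]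
    have h5 := hiso y (Matrix.mulVec (((tv (b • B u) u h0)⁻¹ : Matrix.GeneralLinearGroup ι F) : Matrix ι ι F) x)
    rw [mulVec_inv, hT y, map_add_left] at h5
    rw [← h5, add_sub_cancel_left]
  have stepB : ∀ u, B u u = 0 → B u w = 0 → Tm M (B ((B u z) • u)) w := by
    intro u hu huw
    have hσδ : σ δ = -δ := by linear_combination hδ
    have h1 := step u hu huw δ hδ _ (hT δ⁻¹ (by rw [map_inv₀, hσδ, inv_neg, add_neg_cancel]))
    rw [map_smul_right, ← mul_assoc, mul_inv_cancel₀ hδ0, one_mul] at h1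
    exact h1
  set D := Submodule.span F (Set.range ![z, w]) with hD
  have hwD : w ∈ D := Submodule.subset_span ⟨1, rfl⟩
  have hzD : z ∈ D := Submodule.subset_span ⟨0, rfl⟩
  have hDle : ∀ (x : ι → F), B x w = 0 → B x z = 0 → ∀ d ∈ D, B x d = 0 := by
    intro x h1 h2 d hd
    have : D ≤ LinearMap.ker (B x) := by
      rw [hD, Submodule.span_le]
      rintro _ ⟨i, rfl⟩
      fin_cases i
      · exact h2
      · exact h1
    exact this hd
  have hzwli : LinearIndependent F ![z, w] := by
    rw [linearIndependent_fin2]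
    refine ⟨hw, fun c hc => hz ?_⟩
    rw [Submodule.mem_span_singleton]
    exact ⟨c, hc⟩
  have hDdim : finrank F D ≤ 2 := by
    have := finrank_range_le_card (R := F) ![z, w]
    rwa [Fintype.card_fin] at this
  have stepC : ∀ u', B u' u' = 0 → B u' w = 0 → u' ∉ D → ∀ c : F, Tm M (B (c • u')) w := by
    intro u' hu' hu'w hu'D c
    have hli : LinearIndependent F (Fin.cons u' ![z, w] : Fin 3 → ι → F) := linearIndependent_finCons.2 ⟨hzwli, hu'D⟩
    obtain ⟨u, hu, huc⟩ := exists_iso hq h (by omega) _ hli (Fin.cons (c / δ) ![1, 0])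
    have h1 : B u' u = c / δ := huc 0
    have h2 : B z u = 1 := huc 1
    have h3 : B w u = 0 := huc 2
    have h4 : B u z = 1 := by rw [← h.symm, h2, map_one]
    have h5 := step u' hu' hu'w δ hδ _ (stepB u hu (h.eq_zero_comm h3))
    rw [h4, one_smul, h1, mul_div_cancel₀ _ hδ0] at h5
    exact h5
  have stepD : ∀ y, B y w = 0 → y ∉ D → ∀ c : F, Tm M (B (c • y)) w := by
    intro y hyw hyD c
    have hli : LinearIndependent F (Fin.cons y ![z, w] : Fin 3 → ι → F) := linearIndependent_finCons.2 ⟨hzwli, hyD⟩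
    obtain ⟨x₁, hx₁, hx₁'⟩ : ∃ x₁ ∈ perp B (Submodule.span F (Set.range (Fin.cons y ![z, w] : Fin 3 → ι → F))),
        x₁ ∉ Submodule.span F (Set.range (Fin.cons y ![z, w] : Fin 3 → ι → F)) := by
      by_contra hne
      push Not at hne
      have h1 := Submodule.finrank_mono (show perp B _ ≤ _ from fun x hx => hne x hx)
      have h2 := finrank_perp hq h (Submodule.span F (Set.range (Fin.cons y ![z, w] : Fin 3 → ι → F)))
      have h3 := finrank_range_le_card (R := F) (Fin.cons y ![z, w] : Fin 3 → ι → F)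
      rw [Fintype.card_fin] at h3
      have h4 : Set.finrank F (Set.range (Fin.cons y ![z, w] : Fin 3 → ι → F)) = finrank F (Submodule.span F (Set.range (Fin.cons y ![z, w] : Fin 3 → ι → F))) := rfl
      omega
    have hyx : B y x₁ = 0 := hx₁ _ (Submodule.subset_span ⟨0, rfl⟩)
    have hzx : B z x₁ = 0 := hx₁ _ (Submodule.subset_span ⟨1, rfl⟩)
    have hwx : B w x₁ = 0 := hx₁ _ (Submodule.subset_span ⟨2, rfl⟩)
    have hli' : LinearIndependent F (Fin.cons x₁ (Fin.cons y ![z, w] : Fin 3 → ι → F) : Fin 4 → ι → F) := linearIndependent_finCons.2 ⟨hli, hx₁'⟩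
    obtain ⟨u, hu, huc⟩ := exists_iso hq h (by omega) _ hli' (Fin.cons 1 (Fin.cons 1 ![0, 0]))
    have h1 : B x₁ u = 1 := huc 0
    have h2 : B y u = 1 := huc 1
    have h3 : B w u = 0 := huc 3
    have h2' : B u y = 1 := by rw [← h.symm, h2, map_one]
    have huD : u ∉ D := by
      intro h4
      have := hDle x₁ (h.eq_zero_comm hwx) (h.eq_zero_comm hzx) u h4
      rw [h1] at this
      exact one_ne_zero this
    obtain ⟨a, ha0, ha⟩ := hq.exists_trace_ne_zero (h.self_fixed y)
    have h5 : B (y - a • u) (y - a • u) = 0 := by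
      rw [map_sub_left, map_sub_right, map_sub_right, map_smul_left, map_smul_left, map_smul_right, map_smul_right, h2, h2', hu]
      linear_combination -ha
    have h6 : y - a • u ∉ D := by
      intro h4
      have := hDle x₁ (h.eq_zero_comm hwx) (h.eq_zero_comm hzx) _ h4
      rw [map_sub_right, map_smul_right, h1, h.eq_zero_comm hyx, zero_sub, mul_one] at this
      exact ha0 (neg_eq_zero.1 this)
    have h7 : B (y - a • u) w = 0 := by
      rw [map_sub_left, map_smul_left, hyw, h.eq_zero_comm h3, mul_zero, sub_zero]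
    have h8 := (stepC _ h5 h7 h6 c).add (stepC u hu (h.eq_zero_comm h3) huD (c * a))
    apply h8.congr
    intro x
    rw [LinearMap.add_apply, map_smul_left, map_smul_left, map_smul_left, map_sub_left, map_smul_left, map_mul]
    ring
  obtain ⟨y₁, hy₁, hy₁D⟩ : ∃ y₁ ∈ perp B (Submodule.span F {w}), y₁ ∉ D := by
    by_contra hne
    push Not at hne
    have h1 := Submodule.finrank_mono (show perp B (Submodule.span F {w}) ≤ D from fun x hx => hne x hx)
    have h2 := finrank_perp hq h (Submodule.span F {w})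
    rw [finrank_span_singleton hw] at h2
    omega
  have hy₁w : B y₁ w = 0 := h.eq_zero_comm (hy₁ w (Submodule.mem_span_singleton_self w))
  intro φ hφ
  obtain ⟨y, hy⟩ := h.exists_repr φ
  have hyw : B y w = 0 := by rw [hy, hφ]
  by_cases hyD : y ∈ D
  · have h1 := (stepD (y + y₁) (by rw [map_add_left, hyw, hy₁w, add_zero]) (fun h2 => hy₁D (by
      have := D.sub_mem h2 hyD
      rwa [add_sub_cancel_left] at this)) 1).sub (stepD y₁ hy₁w hy₁D 1)
    apply h1.congr
    intro x
    rw [one_smul, one_smul, LinearMap.sub_apply, map_add_left, add_sub_cancel_right, hy]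
  · apply (stepD y hyw hyD 1).congr
    intro x
    rw [one_smul, hy]

theorem u_over [Finite F] (hn : 13 ≤ Fintype.card ι) {M : Subgroup (Matrix.GeneralLinearGroup ι F)} (hM : HT B M) {g : Matrix.GeneralLinearGroup ι F} (hg : g ∈ M)
    (hgs : ¬ ∃ c : F, c ≠ 0 ∧ ∀ x y, B (Matrix.mulVec (g : Matrix ι ι F) x) (Matrix.mulVec (g : Matrix ι ι F) y) = c * B x y) : specialLinear ι F ≤ M := by
  haveI : Nontrivial ι := Fintype.one_lt_card_iff_nontrivial.1 (by omega)
  have hV : finrank F (ι → F) = Fintype.card ι := finrank_fintype_fun_eq_card F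
  -- bad isotropic vector
  obtain ⟨u, hu, hbad⟩ : ∃ u, B u u = 0 ∧ ∀ d : F, ∃ x, B u (Matrix.mulVec (g : Matrix ι ι F) x) ≠ d * B (Matrix.mulVec ((g⁻¹ : Matrix.GeneralLinearGroup ι F) : Matrix ι ι F) u) x := by
    by_contra hne
    push Not at hne
    choose L hL using fun y : ι → F => h.exists_repr ((B y).comp (Matrix.toLin' (g : Matrix ι ι F)))
    -- L y = g^* y, linear
    have hnd : ∀ a b : ι → F, (∀ x, B a x = B b x) → a = b := by
      intro a b hab
      apply sub_eq_zero.1
      apply h.nd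
      intro x
      rw [map_sub_left, hab, sub_self]
    let L' : (ι → F) →ₗ[F] (ι → F) :=
      { toFun := L
        map_add' := by
          intro a b
          apply hnd
          intro x
          rw [map_add_left, hL, hL, hL, LinearMap.comp_apply, map_add_left]
          rfl
        map_smul' := by
          intro c a
          apply hnd
          intro x
          rw [RingHom.id_apply, map_smul_left, hL, hL, LinearMap.comp_apply, map_smul_left]
          rfl }
    obtain ⟨a, ha⟩ := iso_scalar hq h (by omega) ((Matrix.toLin' (g : Matrix ι ι F)).comp L') (by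
      intro u hu
      obtain ⟨d, hd⟩ := hne u hu
      refine ⟨σ d, ?_⟩
      have h1 : L u = σ d • Matrix.mulVec ((g⁻¹ : Matrix.GeneralLinearGroup ι F) : Matrix ι ι F) u := by
        apply hnd
        intro x
        rw [hL, LinearMap.comp_apply, toLin_apply, hd, map_smul_left, hq.invol]
      change (Matrix.toLin' (g : Matrix ι ι F)) (L u) = _
      rw [h1, map_smul, toLin_apply, mulVec_inv])
    apply hgs
    have h2 : ∀ y, L y = a • Matrix.mulVec ((g⁻¹ : Matrix.GeneralLinearGroup ι F) : Matrix ι ι F) y := by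
      intro y
      apply mulVec_injective g
      rw [mulVec_smul', mulVec_inv]
      have := ha y
      rw [← this]
      rfl
    have h3 : ∀ x y, B (Matrix.mulVec (g : Matrix ι ι F) x) (Matrix.mulVec (g : Matrix ι ι F) y) = σ a * B x y := by
      intro x y
      have h4 := hL (Matrix.mulVec (g : Matrix ι ι F) x) y
      rw [h2, inv_mulVec, map_smul_left, LinearMap.comp_apply, toLin_apply] at h4
      exact h4.symm
    refine ⟨σ a, ?_, h3⟩
    intro h0
    obtain ⟨v, hv⟩ := h.exists_ne_zero hq
    apply hv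
    have h4 := h3 (Matrix.mulVec ((g⁻¹ : Matrix.GeneralLinearGroup ι F) : Matrix ι ι F) v) (Matrix.mulVec ((g⁻¹ : Matrix.GeneralLinearGroup ι F) : Matrix ι ι F) v)
    rwa [mulVec_inv, h0, zero_mul] at h4
  obtain ⟨z, hz⟩ := h.exists_repr ((B u).comp (Matrix.toLin' (g : Matrix ι ι F)))
  have hz' : ∀ x, B z x = B u (Matrix.mulVec (g : Matrix ι ι F) x) := by
    intro x
    rw [hz, LinearMap.comp_apply, toLin_apply]
  set w := Matrix.mulVec ((g⁻¹ : Matrix.GeneralLinearGroup ι F) : Matrix ι ι F) u with hw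
  have hzw : B z w = 0 := by rw [hz', hw, mulVec_inv, hu]
  have hw0 : w ≠ 0 := by
    intro h0
    obtain ⟨x, hx⟩ := hbad 0
    apply hx
    have : u = 0 := by
      apply mulVec_injective g⁻¹
      change Matrix.mulVec ((g⁻¹ : Matrix.GeneralLinearGroup ι F) : Matrix ι ι F) u = Matrix.mulVec ((g⁻¹ : Matrix.GeneralLinearGroup ι F) : Matrix ι ι F) 0
      rw [← hw, h0, Matrix.mulVec_zero]
    rw [this, map_zero_left, zero_mul]
  have hzF : z ∉ Submodule.span F {w} := by
    intro h0
    obtain ⟨c, hc⟩ := Submodule.mem_span_singleton.1 h0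
    obtain ⟨x, hx⟩ := hbad (σ c)
    apply hx
    rw [← hz', ← hc, map_smul_left]
  apply sl_le_of_full (u_irr hq h (by omega) hM) hw0
  apply u_full hq h hn hM hw0 hzF hzw
  intro a ha
  obtain ⟨h0, h2⟩ := hM u hu (-a) (by rw [map_neg]; linear_combination -ha)
  have h3 := Tm.conj ⟨h0, h2⟩ (M.inv_mem hg)
  rw [inv_inv] at h3
  apply h3.congr
  intro x
  rw [LinearMap.comp_apply, toLin_apply, LinearMap.smul_apply, ← hz', map_smul_left, smul_eq_mul]
  have : σ a = -a := by linear_combination ha
  rw [this]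

end

/-- the sesquilinear map of a form -/
def mkB {σ : F ≃+* F} {f : (ι → F) → (ι → F) → F} (hf : IsUnitaryForm σ f) : (ι → F) →ₛₗ[(σ : F →+* F)] (ι → F) →ₗ[F] F where
  toFun := fun y => fn (sf_unitary hf) y
  map_add' := fun x y => LinearMap.ext fun v => (sf_unitary hf).add_right v x y
  map_smul' := fun c x => LinearMap.ext fun v => (sf_unitary hf).smul_right c v x

theorem mkB_apply {σ : F ≃+* F} {f : (ι → F) → (ι → F) → F} (hf : IsUnitaryForm σ f) (x y : ι → F) : mkB hf x y = f y x := rfl

theorem mkB_form {σ : F ≃+* F} {f : (ι → F) → (ι → F) → F} (hf : IsUnitaryForm σ f) : HForm (mkB hf) := by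
  refine ⟨fun x y => ?_, fun x hx => ?_⟩
  · rw [mkB_apply, mkB_apply]
    exact (hf.herm x y).symm
  · by_contra hx0
    obtain ⟨⟨y, hy⟩, -⟩ := hf.nondegenerate x hx0
    exact hy (hx y)

theorem qconj_of [Finite F] {σ : F ≃+* F} {f : (ι → F) → (ι → F) → F} (hf : IsUnitaryForm σ f) : ∃ q, QConj (σ : F →+* F) q := by
  apply exists_qconj
  · intro h
    apply hf.ne_refl
    apply RingEquiv.ext
    intro a
    exact RingHom.congr_fun h a
  · exact hf.involutive

theorem u_maximal [Finite F] (hn : 13 ≤ Fintype.card ι) {σ : F ≃+* F} {f : (ι → F) → (ι → F) → F} (hf : IsUnitaryForm σ f) :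
    IsMaximalIn (specialLinear ι F) (similarityGroup f ⊓ specialLinear ι F) := by
  haveI : Nontrivial ι := Fintype.one_lt_card_iff_nontrivial.1 (by omega)
  obtain ⟨q, hq⟩ := qconj_of hf
  have h := mkB_form hf
  constructor
  · refine lt_of_le_of_ne inf_le_right fun h => ?_
    exact not_similarity (by omega) (sf_unitary hf) hf.nondegenerate (inf_eq_right.1 h)
  · intro M hHM hMS
    by_cases hM : M ≤ similarityGroup f
    · left
      exact le_antisymm (le_inf hM hMS) hHM
    · right
      apply le_antisymm hMS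
      obtain ⟨g, hg, hgs⟩ := Set.not_subset.1 hM
      apply u_over hq h hn (M := M) ?_ hg
      · rintro ⟨c, hc0, hc⟩
        apply hgs
        refine ⟨Units.mk0 c hc0, fun u v => ?_⟩
        exact hc v u
      · intro u hu b hb
        have h0 : (b • mkB hf u) u = 0 := by rw [LinearMap.smul_apply, hu, smul_zero]
        refine ⟨h0, hHM ⟨⟨1, fun x y => ?_⟩, tv_mem_sl _ _ h0⟩⟩
        rw [tv_apply, tv_apply, Units.val_one, one_mul, ← mkB_apply hf, ← mkB_apply hf]
        rw [LinearMap.smul_apply, LinearMap.smul_apply, map_add_left, map_add_right, map_add_right, map_smul_left, map_smul_left, map_smul_right, map_smul_right, hu, smul_eq_mul, smul_eq_mul, map_mul, h.symm]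
        linear_combination (mkB hf y u * mkB hf u x) * hb

end CfsgLib.Csim3
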