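import Cfsg.Agent.Lib.GeoSp
import Cfsg.Agent.Lib.AltForm3

set_option autoImplicit false
set_option maxHeartbeats 400000
set_option linter.unusedSectionVars false

/-! Stabilisers of orthogonal decompositions in symplectic groups. -/
namespace CfsgLib.Csp1

open Cfsg Cfsg.Geo Module CfsgLib.GeoBase CfsgLib.Symp CfsgLib.GeoSp

variable {F : Type*} [Field F] {m : ℕ}

local notation "V" => (Fin m ⊕ Fin m → F)
local notation "GG" => Matrix.GeneralLinearGroup (Fin m ⊕ Fin m) F

section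
variable {t k : ℕ} {D : Fin t → Submodule F (Fin m ⊕ Fin m → F)} (hD : IsNondegenerateMDecomposition (sympForm m F) k D)
include hD

theorem exists_comp (w : V) : ∃ x : Fin t → V, (∀ j, x j ∈ D j) ∧ ∑ j, x j = w := by
  have h1 : w ∈ ⨆ i ∈ (Finset.univ : Finset (Fin t)), D i := by
    have : (⨆ i ∈ (Finset.univ : Finset (Fin t)), D i) = ⊤ := by
      rw [← hD.decomp.iSup_eq_top]
      simp
    rw [this]
    trivial
  obtain ⟨μ, hμ⟩ := (Submodule.mem_iSup_finset_iff_exists_sum _ _).1 h1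
  exact ⟨fun j => μ j, fun j => (μ j).2, hμ⟩

theorem f_sum_on {s : Finset (Fin t)} {x : Fin t → V} (hx : ∀ j, x j ∈ D j) {i : Fin t} (hi : i ∈ s) {v : V} (hv : v ∈ D i) :
    sympForm m F (∑ j ∈ s, x j) v = sympForm m F (x i) v := by
  classical
  rw [← sympB_apply, map_sum, LinearMap.sum_apply, Finset.sum_eq_single i]
  · rw [sympB_apply]
  · intro j _ hj
    rw [sympB_apply]
    exact hD.orthogonal j i hj _ (hx j) v hv
  · intro h
    exact absurd hi h

theorem f_sum {x : Fin t → V} (hx : ∀ j, x j ∈ D j) {i : Fin t} {v : V} (hv : v ∈ D i) :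
    sympForm m F (∑ j, x j) v = sympForm m F (x i) v := f_sum_on hD hx (Finset.mem_univ i) hv

theorem f_sum' {s : Finset (Fin t)} {x : Fin t → V} (hx : ∀ j, x j ∈ D j) {i : Fin t} (hi : i ∉ s) {v : V} (hv : v ∈ D i) :
    sympForm m F (∑ j ∈ s, x j) v = 0 := by
  rw [← sympB_apply, map_sum, LinearMap.sum_apply, Finset.sum_eq_zero]
  intro j hj
  rw [sympB_apply]
  exact hD.orthogonal j i (fun h => hi (h ▸ hj)) _ (hx j) v hv

theorem eq_zero_of_f {i : Fin t} {a : V} (ha : a ∈ D i) (h : ∀ v ∈ D i, sympForm m F a v = 0) : a = 0 := by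
  by_contra h0
  obtain ⟨x, hx, hx'⟩ := (hD.nondegenerate i a ha h0).2
  exact hx' (h x hx)

theorem exists_one {i : Fin t} {a : V} (ha : a ∈ D i) (h0 : a ≠ 0) : ∃ y ∈ D i, sympForm m F a y = 1 := by
  obtain ⟨x, hx, hx'⟩ := (hD.nondegenerate i a ha h0).2
  exact ⟨(sympForm m F a x)⁻¹ • x, (D i).smul_mem _ hx, by rw [f_smul_right, inv_mul_cancel₀ hx']⟩

theorem exists_basis (j : Fin t) : ∃ b : Module.Basis (Fin (k / 2) ⊕ Fin (k / 2)) F (D j),
    (∀ a c, sympForm m F (b (Sum.inl a)) (b (Sum.inr c)) = if a = c then 1 else 0) ∧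
    (∀ a c, sympForm m F (b (Sum.inl a)) (b (Sum.inl c)) = 0) ∧
    (∀ a c, sympForm m F (b (Sum.inr a)) (b (Sum.inr c)) = 0) := by
  obtain ⟨m', k', b, h1, h2, h3, h4⟩ := CfsgLib.AltForm.exists_symplectic_basis ((sympB m F).restrict (D j)) (fun x => sympB_isAlt (x : V))
  have hk' : k' = 0 := by
    by_contra hne
    have h5 := eq_zero_of_f hD (b (Sum.inr ⟨0, Nat.pos_of_ne_zero hne⟩)).2 (fun v hv => by
      have := h4 ⟨0, Nat.pos_of_ne_zero hne⟩ ⟨v, hv⟩
      rw [← sympB_apply]
      exact this)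
    exact b.ne_zero _ (Subtype.ext h5)
  subst hk'
  have h5 := Module.finrank_eq_card_basis b
  rw [hD.decomp.finrank_eq, Fintype.card_sum, Fintype.card_sum, Fintype.card_fin, Fintype.card_fin] at h5
  have h6 : m' = k / 2 := by omega
  subst h6
  refine ⟨b.reindex (Equiv.sumEmpty _ _), fun a c => ?_, fun a c => ?_, fun a c => ?_⟩
  · rw [Module.Basis.reindex_apply, Module.Basis.reindex_apply, ← sympB_apply]
    exact h1 a c
  · rw [Module.Basis.reindex_apply, Module.Basis.reindex_apply, ← sympB_apply]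
    exact h2 a c
  · rw [Module.Basis.reindex_apply, Module.Basis.reindex_apply, ← sympB_apply]
    exact h3 a c

theorem exists_gl (A : Matrix.symplecticGroup (Fin m) F) : ∃ g ∈ spGL m F, (g : Matrix (Fin m ⊕ Fin m) (Fin m ⊕ Fin m) F) = A.1 := by
  refine ⟨⟨A.1, (A⁻¹).1, congrArg Subtype.val (mul_inv_cancel A), congrArg Subtype.val (inv_mul_cancel A)⟩, ?_, rfl⟩
  exact (mem_symplecticGroup_iff _).1 A.2

theorem perm_mem (s : Equiv.Perm (Fin t)) : ∃ g ∈ decompositionStabilizer D ⊓ spGL m F, ∀ j, (D j).map (Matrix.toLin' (g : Matrix _ _ F)) = D (s j) := by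
  classical
  choose b h1 h2 h3 using exists_basis hD
  have hint : DirectSum.IsInternal D := DirectSum.isInternal_submodule_of_iSupIndep_of_iSup_eq_top hD.decomp.indep hD.decomp.iSup_eq_top
  have hli := (hint.collectedBasis b).linearIndependent
  rw [DirectSum.IsInternal.collectedBasis_coe] at hli
  let e := Fintype.equivFin (Σ _ : Fin t, (Fin (k / 2) ⊕ Fin (k / 2)))
  let p : (Σ _ : Fin t, (Fin (k / 2) ⊕ Fin (k / 2))) → (Σ _ : Fin t, (Fin (k / 2) ⊕ Fin (k / 2))) := fun x => ⟨s x.1, x.2⟩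
  have hp : Function.Injective p := by
    rintro ⟨a, x⟩ ⟨c, y⟩ h
    simp only [p, Sigma.mk.injEq, EmbeddingLike.apply_eq_iff_eq] at h
    simp only [Sigma.mk.injEq]
    exact h
  have hgram : ∀ (j j' : Fin t) x y, j = j' → sympForm m F (b j x) (b j y) = sympForm m F (b j' x) (b j' y) := by
    rintro j _ x y rfl
    rfl
  have hG : ∀ (j j' : Fin t) x y, sympForm m F (b j x) (b j y) = sympForm m F (b j' x) (b j' y) := by
    intro j j' x y
    rcases x with x | x <;> rcases y with y | y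
    · rw [h2, h2]
    · rw [h1, h1]
    · rw [f_swap, f_swap (b j' (Sum.inr x) : V), h1, h1]
    · rw [h3, h3]
  let w : (Σ _ : Fin t, (Fin (k / 2) ⊕ Fin (k / 2))) → V := fun z => ((b z.1 z.2 : D z.1) : V)
  obtain ⟨A, hA⟩ := exists_symp_family (m := m) (F := F) (fun i => w (e.symm i)) (fun i => w (p (e.symm i)))
    (hli.comp e.symm e.symm.injective) (hli.comp (fun i => p (e.symm i)) (hp.comp e.symm.injective)) (by
      intro i j
      obtain ⟨⟨a, x⟩, ha⟩ : ∃ z, e.symm i = z := ⟨_, rfl⟩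
      obtain ⟨⟨c, y⟩, hc⟩ : ∃ z, e.symm j = z := ⟨_, rfl⟩
      rw [ha, hc]
      change sympForm m F (b a x) (b c y) = sympForm m F (b (s a) x) (b (s c) y)
      by_cases hac : a = c
      · subst hac
        exact hG _ _ _ _
      · rw [hD.orthogonal a c hac _ (b a x).2 _ (b c y).2, hD.orthogonal (s a) (s c) (fun h => hac (s.injective h)) _ (b (s a) x).2 _ (b (s c) y).2])
  obtain ⟨g, hg, hgA⟩ := exists_gl hD A
  have hgb : ∀ j x, Matrix.mulVec (g : Matrix _ _ F) ((b j x : D j) : V) = ((b (s j) x : D (s j)) : V) := by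
    intro j x
    have h5 := hA (e ⟨j, x⟩)
    rw [Equiv.symm_apply_apply] at h5
    rw [hgA]
    exact h5
  have hspan : ∀ j, D j = Submodule.span F (Set.range fun x => ((b j x : D j) : V)) := by
    intro j
    have h5 := congrArg (Submodule.map (D j).subtype) (b j).span_eq
    rw [Submodule.map_span, Submodule.map_top, Submodule.range_subtype, ← Set.range_comp] at h5
    exact h5.symm
  have key : ∀ j, (D j).map (Matrix.toLin' (g : Matrix _ _ F)) = D (s j) := by
    intro j
    rw [hspan j, hspan (s j), Submodule.map_span, ← Set.range_comp]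
    congr 1
    congr 1
    funext x
    rw [Function.comp_apply, toLin_apply, hgb]
  exact ⟨g, ⟨⟨s, key⟩, hg⟩, key⟩

end

end CfsgLib.Csp1
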