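import Cfsg.Agent.Lib.Csp1
import Cfsg.Agent.Lib.Asch3

set_option autoImplicit false
set_option maxHeartbeats 400000
set_option linter.unusedSectionVars false

/-! Stabilisers of orthogonal decompositions in symplectic groups are maximal. -/
namespace CfsgLib.Csp2

open Cfsg Cfsg.Geo Module CfsgLib.GeoBase CfsgLib.Symp CfsgLib.GeoSp CfsgLib.Csp1

variable {F : Type*} [Field F] {m : ℕ}

local notation "V" => (Fin m ⊕ Fin m → F)
local notation "GG" => Matrix.GeneralLinearGroup (Fin m ⊕ Fin m) F

section
variable {t k : ℕ} {D : Fin t → Submodule F (Fin m ⊕ Fin m → F)} (hD : IsNondegenerateMDecomposition (sympForm m F) k D)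
include hD

theorem st_mem_stab {i : Fin t} {v : V} (hv : v ∈ D i) (c : F) : st v c ∈ decompositionStabilizer D := by
  refine ⟨1, fun j => ?_⟩
  rw [Equiv.Perm.one_apply]
  have hle : (D j).map (Matrix.toLin' (st v c : Matrix _ _ F)) ≤ D j := by
    rintro _ ⟨x, hx, rfl⟩
    rw [toLin_apply, st_apply]
    by_cases hij : j = i
    · subst hij
      exact (D j).add_mem hx ((D j).smul_mem _ hv)
    · rw [hD.orthogonal j i hij x hx v hv, mul_zero, zero_smul, add_zero]
      exact hx
  apply Submodule.eq_of_le_of_finrank_eq hle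
  exact CfsgLib.Asch1.finrank_mp (st v c) (D j)

/-- replacing one component -/
theorem repl {M : Subgroup GG} (hM : M ≤ spGL m F) (hDX : ∀ j, ∀ u ∈ D j, u ∈ X M) {z : V} (hz : z ∈ X M) {j : Fin t} {a b : V} (ha : a ∈ D j) (hb : b ∈ D j) (ha0 : a ≠ 0) (hb0 : b ≠ 0)
    (hza : ∀ u ∈ D j, sympForm m F (z - a) u = 0) : z - a + b ∈ X M := by
  obtain ⟨h, hh, h1, h2⟩ := move_in (M := M) (U := D j) (hDX j) (fun u hu hu0 => (hD.nondegenerate j u hu hu0).2) ha hb ha0 hb0
  have h3 := X_inv hM hh hz
  have h4 : Matrix.mulVec (h : Matrix _ _ F) z = z - a + b := by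
    have : z = (z - a) + a := by rw [sub_add_cancel]
    conv_lhs => rw [this]
    rw [mulVec_add', h1, h2 _ hza]
  rwa [h4] at h3

/-- replacing all components -/
theorem repl_all {M : Subgroup GG} (hM : M ≤ spGL m F) (hDX : ∀ j, ∀ u ∈ D j, u ∈ X M) {x y : Fin t → V} (hx : ∀ j, x j ∈ D j) (hy : ∀ j, y j ∈ D j)
    (hxy : ∀ j, x j = 0 ↔ y j = 0) (h : ∑ j, x j ∈ X M) : ∑ j, y j ∈ X M := by
  classical
  have key : ∀ s : Finset (Fin t), (∑ j, if j ∈ s then y j else x j) ∈ X M := by
    intro s
    induction s using Finset.induction_on with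
    | empty =>
      simp only [Finset.notMem_empty, if_false]
      exact h
    | insert i s hi ih =>
      have hmem : ∀ j, (if j ∈ s then y j else x j) ∈ D j := by
        intro j
        split_ifs
        · exact hy j
        · exact hx j
      have e : (∑ j, if j ∈ insert i s then y j else x j) = (∑ j, if j ∈ s then y j else x j) - x i + y i := by
        have h1 : ∀ j, (if j ∈ insert i s then y j else x j) = (if j ∈ s then y j else x j) + (if j = i then y i - x i else 0) := by
          intro j
          by_cases hj : j = i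
          · subst hj
            simp [hi]
          · simp [hj]
        rw [Finset.sum_congr rfl fun j _ => h1 j, Finset.sum_add_distrib, Finset.sum_ite_eq' Finset.univ i, if_pos (Finset.mem_univ i)]
        abel
      rw [e]
      by_cases h0 : x i = 0
      · rw [h0, (hxy i).1 h0, sub_zero, add_zero]
        exact ih
      · apply repl hD hM hDX ih (hx i) (hy i) h0 (fun h1 => h0 ((hxy i).2 h1))
        intro u hu
        rw [f_sub_left, f_sum hD hmem hu, if_neg hi, sub_self]
  have := key Finset.univ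
  simpa using this

theorem exists_r [Fintype F] (hex : ¬ (k = 2 ∧ Fintype.card F = 2)) {i : Fin t} {a : V} (ha : a ∈ D i) (h0 : a ≠ 0) :
    ∃ r ∈ D i, sympForm m F r a = 0 ∧ r ≠ 0 ∧ r + a ≠ 0 := by
  by_cases hk : 3 ≤ k
  · -- the kernel has dimension at least two
    by_contra hcon
    push Not at hcon
    let L : D i →ₗ[F] F := ((sympB m F) a).comp (D i).subtype
    have h1 := LinearMap.finrank_range_add_finrank_ker L
    have h2 := Submodule.finrank_le (LinearMap.range L)
    rw [finrank_self] at h2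
    rw [hD.decomp.finrank_eq] at h1
    have h3 : LinearMap.ker L ≤ Submodule.span F {(⟨a, ha⟩ : D i)} := by
      intro r hr
      rw [LinearMap.mem_ker] at hr
      by_cases hr0 : r = 0
      · rw [hr0]; exact Submodule.zero_mem _
      · have h4 : sympForm m F (r : V) a = 0 := by
          rw [f_swap, ← sympB_apply]
          have : sympB m F a (r : V) = 0 := hr
          rw [this, neg_zero]
        have h5 := hcon r r.2 h4 (fun h => hr0 (Subtype.ext h))
        rw [Submodule.mem_span_singleton]
        refine ⟨-1, Subtype.ext ?_⟩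
        change (-1 : F) • a = (r : V)
        rw [neg_one_smul]
        exact (eq_neg_of_add_eq_zero_left h5).symm
    have h4 := Submodule.finrank_mono h3
    have h5 : finrank F (Submodule.span F {(⟨a, ha⟩ : D i)}) ≤ 1 := by
      rw [finrank_span_singleton (fun h => h0 (congrArg Subtype.val h))]
    omega
  · have hk1 : k ≠ 1 := by
      intro hk1
      obtain ⟨x, hx, hx'⟩ := (hD.nondegenerate i a ha h0).2
      obtain ⟨c, hc⟩ := (finrank_eq_one_iff_of_nonzero' (⟨a, ha⟩ : D i) (fun h => h0 (congrArg Subtype.val h))).1 (by rw [hD.decomp.finrank_eq, hk1]) ⟨x, hx⟩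
      have : c • a = x := congrArg Subtype.val hc
      rw [← this, f_smul_right, f_self, mul_zero] at hx'
      exact hx' rfl
    have hk2 : k = 2 := by
      have := hD.decomp.pos
      omega
    have hF : 2 < Fintype.card F := by
      have h1 : 1 < Fintype.card F := Fintype.one_lt_card
      have h2 : Fintype.card F ≠ 2 := fun h => hex ⟨hk2, h⟩
      omega
    classical
    obtain ⟨c, hc⟩ : ∃ c : F, c ∉ ({0, -1} : Finset F) := by
      by_contra hcon
      push Not at hcon
      have h1 : (Finset.univ : Finset F) ⊆ {0, -1} := fun c _ => hcon c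
      have h2 := Finset.card_le_card h1
      have h3 : ({0, -1} : Finset F).card ≤ 2 := Finset.card_le_two
      rw [Finset.card_univ] at h2
      omega
    rw [Finset.mem_insert, Finset.mem_singleton, not_or] at hc
    refine ⟨c • a, (D i).smul_mem _ ha, ?_, smul_ne_zero hc.1 h0, ?_⟩
    · rw [f_smul_left, f_self, mul_zero]
    · intro h1
      have h2 : (c + 1) • a = 0 := by rw [add_smul, one_smul, h1]
      rcases smul_eq_zero.1 h2 with h3 | h3
      · exact hc.2 (eq_neg_of_add_eq_zero_left h3)
      · exact h0 h3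

/-- from a vector with two non-zero components, all sums of two components -/
theorem pair_of [Fintype F] (hex : ¬ (k = 2 ∧ Fintype.card F = 2)) {M : Subgroup GG} (hM : M ≤ spGL m F) (hDX : ∀ j, ∀ u ∈ D j, u ∈ X M)
    {x : Fin t → V} (hx : ∀ j, x j ∈ D j) (hX : ∑ j, x j ∈ X M) {i j : Fin t} (hij : i ≠ j) (hi : x i ≠ 0) (hj : x j ≠ 0) :
    ∀ a ∈ D i, ∀ b ∈ D j, a + b ∈ X M := by
  classical
  obtain ⟨p, hp, hp1⟩ : ∃ p ∈ D i, sympForm m F p (x i) = 1 := by
    obtain ⟨y, hy, hy1⟩ := exists_one hD (hx i) hi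
    exact ⟨-y, (D i).neg_mem hy, by rw [f_neg_left, f_swap, neg_neg, hy1]⟩
  obtain ⟨r, hr, hr1, hr0, hr2⟩ := exists_r hD hex (hx j) hj
  have hp0 : p ≠ 0 := by
    rintro rfl
    rw [f_zero_left] at hp1
    exact zero_ne_one hp1
  let y : Fin t → V := fun l => if l = i then p else if l = j then r else - x l
  have hyi : y i = p := by simp [y]
  have hyj : y j = r := by simp [y, hij.symm]
  have hyl : ∀ l, l ≠ i → l ≠ j → y l = - x l := by
    intro l h1 h2
    simp [y, h1, h2]
  have hy : ∀ l, y l ∈ D l := by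
    intro l
    by_cases h1 : l = i
    · subst h1; rw [hyi]; exact hp
    · by_cases h2 : l = j
      · subst h2; rw [hyj]; exact hr
      · rw [hyl l h1 h2]; exact (D l).neg_mem (hx l)
  have hY : ∑ l, y l ∈ X M := by
    apply repl_all hD hM hDX hx hy _ hX
    intro l
    by_cases h1 : l = i
    · subst h1; rw [hyi]; exact ⟨fun h => absurd h hi, fun h => absurd h hp0⟩
    · by_cases h2 : l = j
      · subst h2; rw [hyj]; exact ⟨fun h => absurd h hj, fun h => absurd h hr0⟩
      · rw [hyl l h1 h2, neg_eq_zero]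
  have hf : sympForm m F (∑ l, y l) (∑ l, x l) = 1 := by
    rw [← sympB_apply, map_sum]
    have h1 : ∀ l, sympB m F (∑ l, y l) (x l) = (if l = i then 1 else 0) := by
      intro l
      rw [sympB_apply, f_sum hD hy (hx l)]
      split_ifs with h1
      · subst h1; rw [hyi, hp1]
      · by_cases h2 : l = j
        · subst h2; rw [hyj, hr1]
        · rw [hyl l h1 h2, f_neg_left, f_self, neg_zero]
    rw [Finset.sum_congr rfl fun l _ => h1 l, Finset.sum_ite_eq' Finset.univ i, if_pos (Finset.mem_univ i)]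
  have h3 := X_inv hM (hX 1) hY
  rw [st_apply, hf, one_mul, one_smul, ← Finset.sum_add_distrib] at h3
  have h4 : ∑ l, (y l + x l) = (p + x i) + (r + x j) := by
    rw [← Finset.sum_subset (Finset.subset_univ {i, j}), Finset.sum_pair hij, hyi, hyj]
    intro l _ hl
    rw [Finset.mem_insert, Finset.mem_singleton, not_or] at hl
    rw [hyl l hl.1 hl.2, neg_add_cancel]
  rw [h4] at h3
  have hpi0 : p + x i ≠ 0 := by
    intro h0
    have := congrArg (fun z => sympForm m F z (x i)) h0
    simp only [f_add_left, hp1, f_self, add_zero, f_zero_left] at this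
    exact one_ne_zero this
  have hpi : p + x i ∈ D i := (D i).add_mem hp (hx i)
  have hrj : r + x j ∈ D j := (D j).add_mem hr (hx j)
  intro a ha b hb
  by_cases ha0 : a = 0
  · rw [ha0, zero_add]; exact hDX j b hb
  by_cases hb0 : b = 0
  · rw [hb0, add_zero]; exact hDX i a ha
  have h5 := repl hD hM hDX h3 hpi ha hpi0 ha0 (fun u hu => by rw [add_sub_cancel_left]; exact hD.orthogonal j i hij.symm _ hrj u hu)
  rw [add_sub_cancel_left] at h5
  have h6 := repl hD hM hDX h5 hrj hb hr2 hb0 (fun u hu => by rw [add_sub_cancel_left]; exact hD.orthogonal i j hij _ ha u hu)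
  rwa [add_sub_cancel_left] at h6

theorem full_of [Fintype F] {M : Subgroup GG} (hM : M ≤ spGL m F) (hDX : ∀ j, ∀ u ∈ D j, u ∈ X M)
    (hpair : ∀ i j, i ≠ j → ∀ a ∈ D i, ∀ b ∈ D j, a + b ∈ X M) : ∀ v : V, v ∈ X M := by
  classical
  have key : ∀ s : Finset (Fin t), ∀ x : Fin t → V, (∀ j, x j ∈ D j) → ∑ j ∈ s, x j ∈ X M := by
    intro s
    induction s using Finset.induction_on with
    | empty =>
      intro x _
      rw [Finset.sum_empty, ← zero_smul F (0 : V)]
      have h2 := hD.decomp.two_le
      exact X_smul 0 (hDX ⟨0, by omega⟩ 0 (Submodule.zero_mem _))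
    | insert i s hi ih =>
      intro x hx
      rw [Finset.sum_insert hi]
      by_cases h0 : x i = 0
      · rw [h0, zero_add]; exact ih x hx
      by_cases hall : ∀ j ∈ s, x j = 0
      · rw [Finset.sum_eq_zero hall, add_zero]
        exact hDX i _ (hx i)
      push Not at hall
      obtain ⟨j, hj, hj0⟩ := hall
      obtain ⟨y, hy, hy1⟩ := exists_one hD (hx j) hj0
      have hij : i ≠ j := fun h => hi (h ▸ hj)
      have hu := hpair i j hij (x i) (hx i) y hy
      have hx' : ∀ l, Function.update x j (x j - y) l ∈ D l := by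
        intro l
        by_cases hl : l = j
        · subst hl
          rw [Function.update_self]
          exact (D l).sub_mem (hx l) hy
        · rw [Function.update_of_ne hl]
          exact hx l
      have hv := ih _ hx'
      have hsum : ∑ l ∈ s, Function.update x j (x j - y) l = ∑ l ∈ s, x l - y := by
        rw [← Finset.add_sum_erase s _ hj, ← Finset.add_sum_erase s x hj, Function.update_self]
        have : ∑ l ∈ s.erase j, Function.update x j (x j - y) l = ∑ l ∈ s.erase j, x l := by
          apply Finset.sum_congr rfl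
          intro l hl
          rw [Function.update_of_ne (Finset.ne_of_mem_erase hl)]
        rw [this]
        abel
      have hf : sympForm m F (∑ l ∈ s, Function.update x j (x j - y) l) (x i + y) = 1 := by
        rw [f_add_right, f_sum' hD hx' hi (hx i), f_sum_on hD hx' hj hy, Function.update_self, f_sub_left, f_self, hy1, sub_zero, zero_add]
      have h3 := X_inv hM (hu 1) hv
      rw [st_apply, hf, one_mul, one_smul, hsum] at h3
      have e : ∑ l ∈ s, x l - y + (x i + y) = x i + ∑ l ∈ s, x l := by abel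
      rwa [e] at h3
  intro v
  obtain ⟨x, hx, rfl⟩ := exists_comp hD v
  exact key Finset.univ x hx

theorem decomp_maximal [Fintype F] (hex : ¬ (k = 2 ∧ Fintype.card F = 2)) : IsMaximalIn (spGL m F) (decompositionStabilizer D ⊓ spGL m F) := by
  classical
  have ht := hD.decomp.two_le
  have hne : ∀ i, ∃ d ∈ D i, d ≠ 0 := by
    intro i
    apply Submodule.exists_mem_ne_zero_of_ne_bot
    intro h0
    have h1 := hD.decomp.finrank_eq i
    have h2 := hD.decomp.pos
    rw [h0, finrank_bot] at h1
    omega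
  constructor
  · refine lt_of_le_of_ne inf_le_right fun h => ?_
    have hle : spGL m F ≤ decompositionStabilizer D := inf_eq_right.1 h
    let i₀ : Fin t := ⟨0, by omega⟩
    let i₁ : Fin t := ⟨1, by omega⟩
    have h01 : i₀ ≠ i₁ := by intro h3; have := congrArg Fin.val h3; simp [i₀, i₁] at this
    obtain ⟨a, ha, ha0⟩ := hne i₀
    obtain ⟨b, hb, hb0⟩ := hne i₁
    obtain ⟨x, hx, hx1⟩ := exists_one hD ha ha0
    have hx1' : sympForm m F x a = -1 := by rw [f_swap, hx1]
    obtain ⟨s, hs⟩ := hle (st_mem (a + b) 1)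
    have h3 : x + (-1 : F) • (a + b) ∈ D (s i₀) := by
      rw [← hs i₀]
      refine ⟨x, hx, ?_⟩
      rw [toLin_apply, st_apply, f_add_right, hx1', hD.orthogonal i₀ i₁ h01 x hx b hb, add_zero, one_mul]
    by_cases hsi : s i₀ = i₀
    · rw [hsi] at h3
      obtain ⟨y, hy, hy1⟩ := exists_one hD hb hb0
      have h4 := hD.orthogonal i₀ i₁ h01 _ h3 y hy
      rw [f_add_left, f_smul_left, f_add_left, hD.orthogonal i₀ i₁ h01 x hx y hy, hD.orthogonal i₀ i₁ h01 a ha y hy, hy1] at h4
      have : (1 : F) = 0 := by linear_combination -h4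
      exact one_ne_zero this
    · have h4 := hD.orthogonal (s i₀) i₀ hsi _ h3 a ha
      rw [f_add_left, f_smul_left, f_add_left, hx1', f_self, hD.orthogonal i₁ i₀ h01.symm b hb a ha] at h4
      have : (1 : F) = 0 := by linear_combination -h4
      exact one_ne_zero this
  · intro M hHM hMS
    by_cases hM : M ≤ decompositionStabilizer D
    · left
      exact le_antisymm (le_inf hM hMS) hHM
    right
    apply le_antisymm hMS
    have hDX : ∀ j, ∀ u ∈ D j, u ∈ X M := fun j u hu c => hHM ⟨st_mem_stab hD hu c, st_mem u c⟩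
    obtain ⟨g, hg, hgs⟩ := Set.not_subset.1 hM
    -- a member not mapped to a member
    obtain ⟨i, hi⟩ : ∃ i, ∀ j, (D i).map (Matrix.toLin' (g : Matrix _ _ F)) ≠ D j := by
      by_contra hcon
      push Not at hcon
      choose s hs using hcon
      apply hgs
      have hinj : Function.Injective s := by
        intro a b hab
        by_contra hne'
        obtain ⟨d, hd, hd0⟩ := hne a
        have h3 : (D a).map (Matrix.toLin' (g : Matrix (Fin m ⊕ Fin m) (Fin m ⊕ Fin m) F)) = (D b).map (Matrix.toLin' (g : Matrix (Fin m ⊕ Fin m) (Fin m ⊕ Fin m) F)) := by rw [hs, hs, hab]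
        have h4 : Matrix.toLin' (g : Matrix (Fin m ⊕ Fin m) (Fin m ⊕ Fin m) F) d ∈ (D b).map (Matrix.toLin' (g : Matrix (Fin m ⊕ Fin m) (Fin m ⊕ Fin m) F)) := by
          rw [← h3]; exact ⟨d, hd, rfl⟩
        obtain ⟨d', hd', hdd⟩ := h4
        have h5 : d' = d := CfsgLib.GeoBase.mulVec_injective g hdd
        subst h5
        apply hd0
        exact eq_zero_of_f hD hd (fun v hv => hD.orthogonal b a (Ne.symm hne') _ hd' v hv)
      exact ⟨Equiv.ofBijective s (Finite.injective_iff_bijective.1 hinj), fun j => by rw [hs]; rfl⟩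
    obtain ⟨v, hv, x, hx, hxv, i₁, i₂, h12, hi1, hi2⟩ : ∃ v ∈ D i, ∃ x : Fin t → V, (∀ j, x j ∈ D j) ∧ ∑ j, x j = Matrix.mulVec (g : Matrix (Fin m ⊕ Fin m) (Fin m ⊕ Fin m) F) v ∧
        ∃ i₁ i₂, i₁ ≠ i₂ ∧ x i₁ ≠ 0 ∧ x i₂ ≠ 0 := by
      by_contra hcon
      push Not at hcon
      have hone : ∀ v ∈ D i, ∃ j, Matrix.mulVec (g : Matrix (Fin m ⊕ Fin m) (Fin m ⊕ Fin m) F) v ∈ D j := by
        intro v hv
        obtain ⟨x, hx, hxv⟩ := exists_comp hD (Matrix.mulVec (g : Matrix (Fin m ⊕ Fin m) (Fin m ⊕ Fin m) F) v)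
        by_cases hall : ∀ j, x j = 0
        · refine ⟨i, ?_⟩
          rw [← hxv, Finset.sum_eq_zero (fun j _ => hall j)]
          exact Submodule.zero_mem _
        · push Not at hall
          obtain ⟨j, hj⟩ := hall
          refine ⟨j, ?_⟩
          rw [← hxv, Finset.sum_eq_single j (fun l _ hl => hcon v hv x hx hxv j l (Ne.symm hl) hj) (fun h => absurd (Finset.mem_univ j) h)]
          exact hx j
      obtain ⟨v₀, hv₀, hv₀0⟩ := hne i
      obtain ⟨j₀, hj₀⟩ := hone v₀ hv₀
      apply hi j₀
      have hg0 : Matrix.mulVec (g : Matrix (Fin m ⊕ Fin m) (Fin m ⊕ Fin m) F) v₀ ≠ 0 := by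
        intro h0
        rw [← Matrix.mulVec_zero (g : Matrix (Fin m ⊕ Fin m) (Fin m ⊕ Fin m) F)] at h0
        exact hv₀0 (CfsgLib.GeoBase.mulVec_injective g h0)
      apply Submodule.eq_of_le_of_finrank_eq
      · rintro _ ⟨v, hv, rfl⟩
        rw [toLin_apply]
        obtain ⟨j₁, hj₁⟩ := hone v hv
        obtain ⟨j₂, hj₂⟩ := hone (v₀ + v) ((D i).add_mem hv₀ hv)
        rw [mulVec_add'] at hj₂
        by_cases h3 : j₁ = j₀
        · rw [← h3]; exact hj₁
        · by_cases h4 : j₂ = j₀
          · rw [h4] at hj₂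
            have := (D j₀).sub_mem hj₂ hj₀
            rwa [add_sub_cancel_left] at this
          · exfalso
            apply hg0
            apply eq_zero_of_f hD hj₀
            intro u hu
            have h5 := hD.orthogonal j₂ j₀ h4 _ hj₂ u hu
            rw [f_add_left, hD.orthogonal j₁ j₀ h3 _ hj₁ u hu, add_zero] at h5
            exact h5
      · rw [hD.decomp.finrank_eq]
        exact (CfsgLib.Asch1.finrank_mp g (D i)).trans (hD.decomp.finrank_eq i)
    have hX : ∑ j, x j ∈ X M := by
      rw [hxv]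
      exact X_inv hMS hg (hDX i v hv)
    have hpair := pair_of hD hex hMS hDX hx hX h12 hi1 hi2
    apply sp_le
    intro v c
    refine full_of hD hMS hDX ?_ v c
    intro j₁ j₂ hj a ha b hb
    -- a permutation
    obtain ⟨s, hs1, hs2⟩ : ∃ s : Equiv.Perm (Fin t), s i₁ = j₁ ∧ s i₂ = j₂ := by
      let s₁ := Equiv.swap i₁ j₁
      have h3 : s₁ i₁ = j₁ := Equiv.swap_apply_left _ _
      have h4 : s₁ i₂ ≠ j₁ := by
        intro h5
        rw [← h3] at h5
        exact h12 (s₁.injective h5).symm
      refine ⟨Equiv.swap (s₁ i₂) j₂ * s₁, ?_, ?_⟩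
      · rw [Equiv.Perm.mul_apply, h3]
        exact Equiv.swap_apply_of_ne_of_ne (Ne.symm h4) hj
      · rw [Equiv.Perm.mul_apply]
        exact Equiv.swap_apply_left _ _
    obtain ⟨h, hh, hhD⟩ := perm_mem hD s
    have ha' : a ∈ (D i₁).map (Matrix.toLin' (h : Matrix _ _ F)) := by rw [hhD, hs1]; exact ha
    have hb' : b ∈ (D i₂).map (Matrix.toLin' (h : Matrix _ _ F)) := by rw [hhD, hs2]; exact hb
    obtain ⟨a', ha', rfl⟩ := ha'
    obtain ⟨b', hb', rfl⟩ := hb'
    rw [toLin_apply, toLin_apply, ← mulVec_add']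
    exact X_inv hMS (hHM hh) (hpair a' ha' b' hb')

end

end CfsgLib.Csp2
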