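import Cfsg.Agent.Lib.Asu1

set_option autoImplicit false
set_option maxHeartbeats 400000
set_option linter.unusedSectionVars false

/-! Stabilisers of decompositions into two totally isotropic subspaces: generic part. -/
namespace CfsgLib.Cts1

open Cfsg Cfsg.Geo Module CfsgLib.GeoBase CfsgLib.Asch1 CfsgLib.Herm CfsgLib.Asu1

universe u

variable {ι : Type} [Fintype ι] [DecidableEq ι] {F : Type u} [Field F] {σ : F →+* F}

structure EForm (ε : F) (B : (ι → F) →ₛₗ[σ] (ι → F) →ₗ[F] F) : Prop where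
  symm : ∀ x y, σ (B x y) = ε * B y x
  nd : ∀ x, (∀ y, B x y = 0) → x = 0
  sq : ε * ε = 1
  fix : σ ε = ε
  inv : ∀ a, σ (σ a) = a

variable {ε : F} {B : (ι → F) →ₛₗ[σ] (ι → F) →ₗ[F] F} (h : EForm ε B)

/-- the transvections with centre v lie in M -/
def TT (ε : F) (B : (ι → F) →ₛₗ[σ] (ι → F) →ₗ[F] F) (M : Subgroup (Matrix.GeneralLinearGroup ι F)) (v : ι → F) : Prop :=
  ∀ b : F, b + ε * σ b = 0 → ∃ g ∈ M, ∀ x, Matrix.mulVec (g : Matrix ι ι F) x = x + (b * B v x) • v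

/-- the long root type element lies in M -/
def SH (ε : F) (B : (ι → F) →ₛₗ[σ] (ι → F) →ₗ[F] F) (M : Subgroup (Matrix.GeneralLinearGroup ι F)) (u w : ι → F) : Prop :=
  ∃ g ∈ M, ∀ x, Matrix.mulVec (g : Matrix ι ι F) x = x + (B w x) • u - (ε * B u x) • w

include h

theorem EForm.comm {x y : ι → F} (hxy : B x y = 0) : B y x = 0 := by
  have h1 := h.symm x y
  rw [hxy, map_zero] at h1
  have h2 : ε ≠ 0 := left_ne_zero_of_mul_eq_one h.sq
  exact (mul_eq_zero.1 h1.symm).resolve_left h2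

theorem EForm.swap (x y : ι → F) : B y x = ε * σ (B x y) := by
  rw [h.symm, ← mul_assoc, h.sq, one_mul]

theorem SH.conj {M : Subgroup (Matrix.GeneralLinearGroup ι F)} {u w : ι → F} (hs : SH ε B M u w) {k : Matrix.GeneralLinearGroup ι F} (hk : k ∈ M) (hkU : k ∈ UB B) :
    SH ε B M (Matrix.mulVec (k : Matrix ι ι F) u) (Matrix.mulVec (k : Matrix ι ι F) w) := by
  obtain ⟨g, hg, hgx⟩ := hs
  refine ⟨k * g * k⁻¹, M.mul_mem (M.mul_mem hk hg) (M.inv_mem hk), fun x => ?_⟩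
  have h1 := hkU w (Matrix.mulVec ((k⁻¹ : Matrix.GeneralLinearGroup ι F) : Matrix ι ι F) x)
  have h2 := hkU u (Matrix.mulVec ((k⁻¹ : Matrix.GeneralLinearGroup ι F) : Matrix ι ι F) x)
  rw [mulVec_inv] at h1 h2
  rw [mulVec_mul, mulVec_mul, hgx, Matrix.mulVec_sub, mulVec_add', mulVec_smul', mulVec_smul', mulVec_inv, ← h1, ← h2]

theorem TT.conj {M : Subgroup (Matrix.GeneralLinearGroup ι F)} {v : ι → F} (hs : TT ε B M v) {k : Matrix.GeneralLinearGroup ι F} (hk : k ∈ M) (hkU : k ∈ UB B) :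
    TT ε B M (Matrix.mulVec (k : Matrix ι ι F) v) := by
  intro b hb
  obtain ⟨g, hg, hgx⟩ := hs b hb
  refine ⟨k * g * k⁻¹, M.mul_mem (M.mul_mem hk hg) (M.inv_mem hk), fun x => ?_⟩
  have h1 := hkU v (Matrix.mulVec ((k⁻¹ : Matrix.GeneralLinearGroup ι F) : Matrix ι ι F) x)
  rw [mulVec_inv] at h1
  rw [mulVec_mul, mulVec_mul, hgx, mulVec_add', mulVec_smul', mulVec_inv, ← h1]

theorem TT.smul {M : Subgroup (Matrix.GeneralLinearGroup ι F)} {v : ι → F} (hs : TT ε B M v) (c : F) : TT ε B M (c • v) := by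
  intro b hb
  obtain ⟨g, hg, hgx⟩ := hs (b * σ c * c) (by
    rw [map_mul, map_mul, h.inv]
    linear_combination (σ c * c) * hb)
  refine ⟨g, hg, fun x => ?_⟩
  rw [hgx, map_smul_left, smul_smul]
  congr 2
  ring

/-- the commutator of two root elements -/
theorem TT_of_SH (hΛ : ∀ c : F, c + ε * σ c = 0 → ∃ μ, c = σ μ - ε * μ) {M : Subgroup (Matrix.GeneralLinearGroup ι F)} {a b b' : ι → F}
    (h1 : ∀ c : F, SH ε B M a (c • b)) (h2 : SH ε B M a b') (ha : B a a = 0) (hb : B b b = 0) (hab : B a b = 0) (hab' : B a b' = 0) (hbb : B b b' ≠ 0) : TT ε B M a := by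
  intro c hc
  obtain ⟨μ, hμ⟩ := hΛ c hc
  obtain ⟨g, hg, hgx⟩ := h1 (σ (μ * (B b b')⁻¹))
  obtain ⟨g', hg', hgx'⟩ := h2
  have hcb : B (σ (μ * (B b b')⁻¹) • b) b' = μ := by
    rw [map_smul_left, h.inv, mul_assoc, inv_mul_cancel₀ hbb, mul_one]
  have hba : B b a = 0 := h.comm hab
  have hba' : B b' a = 0 := h.comm hab'
  set b₁ := σ (μ * (B b b')⁻¹) • b with hb₁
  have hab₁ : B a b₁ = 0 := by rw [hb₁, map_smul_right, hab, mul_zero]
  have hb₁a : B b₁ a = 0 := h.comm hab₁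
  -- inverse of g
  refine ⟨g * g' * g⁻¹ * g'⁻¹, M.mul_mem (M.mul_mem (M.mul_mem hg hg') (M.inv_mem hg)) (M.inv_mem hg'), fun x => ?_⟩
  -- compare on g' g y
  obtain ⟨y, rfl⟩ : ∃ y, Matrix.mulVec ((g' * g : Matrix.GeneralLinearGroup ι F) : Matrix ι ι F) y = x := ⟨Matrix.mulVec (((g' * g)⁻¹ : Matrix.GeneralLinearGroup ι F) : Matrix ι ι F) x, mulVec_inv _ _⟩
  rw [← mulVec_mul]
  have e : g * g' * g⁻¹ * g'⁻¹ * (g' * g) = g * g' := by group
  rw [e, mulVec_mul, mulVec_mul, hgx, hgx', hgx', hgx]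
  simp only [map_add_right, map_sub_right, map_smul_right, hb, hab₁, hb₁a, ha, hab', hba', hba, hcb, mul_zero, add_zero, sub_zero]
  have hb₁b₁ : B b₁ b₁ = 0 := by rw [hb₁, map_smul_left, map_smul_right, hb, mul_zero, mul_zero]
  have hbb' : B b' b₁ = ε * σ μ := by rw [h.swap b₁ b', hcb]
  rw [hbb', hμ]
  have hε := h.sq
  match_scalars <;> first | ring1 | linear_combination (B a y * σ μ) * hε | linear_combination (-(B a y * σ μ)) * hε

/-- a pair of complementary totally isotropic subspaces -/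
structure Pr (B : (ι → F) →ₛₗ[σ] (ι → F) →ₗ[F] F) (U W : Submodule F (ι → F)) : Prop where
  su : ∀ x ∈ U, ∀ y ∈ U, B x y = 0
  sw : ∀ x ∈ W, ∀ y ∈ W, B x y = 0
  span : ∀ x, ∃ u ∈ U, ∃ w ∈ W, x = u + w
  disj : ∀ x ∈ U, x ∈ W → x = 0

omit h in
theorem Pr.symm {U W : Submodule F (ι → F)} (hP : Pr B U W) : Pr B W U :=
  ⟨hP.sw, hP.su, fun x => by
    obtain ⟨u, hu, w, hw, rfl⟩ := hP.span x
    exact ⟨w, hw, u, hu, add_comm _ _⟩, fun x h1 h2 => hP.disj x h2 h1⟩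

omit h in
theorem Pr.map {U W : Submodule F (ι → F)} (hP : Pr B U W) {g : Matrix.GeneralLinearGroup ι F} (hg : g ∈ UB B) : Pr B (mp g U) (mp g W) := by
  refine ⟨?_, ?_, fun x => ?_, ?_⟩
  · rintro _ ⟨x, hx, rfl⟩ _ ⟨y, hy, rfl⟩
    rw [toLin_apply, toLin_apply, hg]
    exact hP.su x hx y hy
  · rintro _ ⟨x, hx, rfl⟩ _ ⟨y, hy, rfl⟩
    rw [toLin_apply, toLin_apply, hg]
    exact hP.sw x hx y hy
  · obtain ⟨u, hu, w, hw, huw⟩ := hP.span (Matrix.mulVec ((g⁻¹ : Matrix.GeneralLinearGroup ι F) : Matrix ι ι F) x)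
    refine ⟨_, mp_mem hu, _, mp_mem hw, ?_⟩
    rw [← mulVec_add', ← huw, mulVec_inv]
  · rintro x h1 h2
    rw [mem_mp] at h1 h2
    have := hP.disj _ h1 h2
    rw [← mulVec_inv g x, this, Matrix.mulVec_zero]

/-- detecting zero -/
theorem Pr.zero_of {U W : Submodule F (ι → F)} (hP : Pr B U W) {u : ι → F} (hu : u ∈ U) (h1 : ∀ w ∈ W, B u w = 0) : u = 0 := by
  apply h.nd
  intro y
  obtain ⟨a, ha, b, hb, rfl⟩ := hP.span y
  rw [map_add_right, hP.su u hu a ha, h1 b hb, add_zero]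

theorem Pr.exists_one {U W : Submodule F (ι → F)} (hP : Pr B U W) {u : ι → F} (hu : u ∈ U) (h0 : u ≠ 0) : ∃ w ∈ W, B u w = 1 := by
  have h1 : ∃ w ∈ W, B u w ≠ 0 := by
    by_contra hcon
    push Not at hcon
    exact h0 (hP.zero_of h hu hcon)
  obtain ⟨w, hw, hw0⟩ := h1
  exact ⟨(B u w)⁻¹ • w, W.smul_mem _ hw, by rw [map_smul_right, inv_mul_cancel₀ hw0]⟩

theorem Pr.mult {U W : Submodule F (ι → F)} (hP : Pr B U W) {u a : ι → F} (hu : u ∈ U) (ha : a ∈ U) (h1 : ∀ w ∈ W, B a w = 0 → B u w = 0) : ∃ c : F, u = c • a := by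
  by_cases h0 : a = 0
  · refine ⟨0, ?_⟩
    rw [zero_smul]
    apply hP.zero_of h hu
    intro w hw
    apply h1 w hw
    rw [h0, map_zero_left]
  · obtain ⟨b, hb, hab⟩ := hP.exists_one h ha h0
    refine ⟨σ (B u b), ?_⟩
    apply sub_eq_zero.1
    apply hP.zero_of h (U.sub_mem hu (U.smul_mem _ ha))
    intro w hw
    have h2 := h1 (w - B a w • b) (W.sub_mem hw (W.smul_mem _ hb)) (by rw [map_sub_right, map_smul_right, hab, mul_one, sub_self])
    rw [map_sub_right, map_smul_right] at h2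
    rw [map_sub_left, map_smul_left, h.inv]
    linear_combination h2

omit h in
theorem exists_ker {S : Submodule F (ι → F)} {k : ℕ} (hk : k < finrank F S) (φ : Fin k → (ι → F) →ₗ[F] F) : ∃ b ∈ S, b ≠ 0 ∧ ∀ i, φ i b = 0 := by
  let L : S →ₗ[F] (Fin k → F) := (LinearMap.pi φ).comp S.subtype
  have h1 := LinearMap.finrank_range_add_finrank_ker L
  have h2 := Submodule.finrank_le (LinearMap.range L)
  rw [finrank_fintype_fun_eq_card, Fintype.card_fin] at h2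
  have h3 : LinearMap.ker L ≠ ⊥ := by
    intro h4
    rw [h4, finrank_bot] at h1
    omega
  obtain ⟨b, hb, hb0⟩ := Submodule.exists_mem_ne_zero_of_ne_bot h3
  refine ⟨b, b.2, fun h4 => hb0 (Subtype.ext h4), fun i => ?_⟩
  exact congrFun (LinearMap.mem_ker.1 hb) i

/-- all root elements of the pair lie in M -/
def SHall (ε : F) (B : (ι → F) →ₛₗ[σ] (ι → F) →ₗ[F] F) (M : Subgroup (Matrix.GeneralLinearGroup ι F)) (U W : Submodule F (ι → F)) : Prop :=
  ∀ u ∈ U, ∀ w ∈ W, B u w = 0 → SH ε B M u w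

theorem SHall.symm {M : Subgroup (Matrix.GeneralLinearGroup ι F)} {U W : Submodule F (ι → F)} (hS : SHall ε B M U W) : SHall ε B M W U := by
  intro w hw u hu hwu
  have hε : ε ≠ 0 := left_ne_zero_of_mul_eq_one h.sq
  obtain ⟨g, hg, hgx⟩ := hS ((-ε) • u) (U.smul_mem _ hu) w hw (by rw [map_smul_left, h.comm hwu, mul_zero])
  refine ⟨g, hg, fun x => ?_⟩
  rw [hgx, map_smul_left, map_neg, h.fix]
  have := h.sq
  match_scalars <;> first | ring1 | linear_combination (B u x) * this | linear_combination (-(B u x)) * this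

theorem SHall.map {M : Subgroup (Matrix.GeneralLinearGroup ι F)} (hM : M ≤ UB B) {U W : Submodule F (ι → F)} (hS : SHall ε B M U W) {g : Matrix.GeneralLinearGroup ι F} (hg : g ∈ M) :
    SHall ε B M (mp g U) (mp g W) := by
  rintro _ ⟨u, hu, rfl⟩ _ ⟨w, hw, rfl⟩ huw
  rw [toLin_apply, toLin_apply] at huw ⊢
  rw [hM hg] at huw
  exact (hS u hu w hw huw).conj h hg (hM hg)

theorem claim1 (hΛ : ∀ c : F, c + ε * σ c = 0 → ∃ μ, c = σ μ - ε * μ) {M : Subgroup (Matrix.GeneralLinearGroup ι F)} {U W U' W' : Submodule F (ι → F)}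
    (hP : Pr B U W) (hP' : Pr B U' W') (hS : SHall ε B M U W) (hS' : SHall ε B M U' W') (hno : ∀ a ∈ U, a ≠ 0 → ¬ TT ε B M a)
    {a : ι → F} (ha : a ∈ U) (ha' : a ∈ U') (ha0 : a ≠ 0) {b' : ι → F} (hb' : b' ∈ W') (hab' : B a b' = 0) : ∃ c : F, b' - c • a ∈ W := by
  obtain ⟨u, hu, w, hw, rfl⟩ := hP.span b'
  obtain ⟨c, rfl⟩ := hP.mult h hu ha (fun b hb hab => by
    by_contra hne
    apply hno a ha ha0
    apply TT_of_SH h hΛ (b := b) (b' := u + w) (fun c => hS a ha _ (W.smul_mem c hb) (by rw [map_smul_right, hab, mul_zero])) (hS' a ha' _ hb' hab')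
      (hP.su a ha a ha) (hP.sw b hb b hb) hab hab'
    rw [map_add_right, hP.sw b hb w hw, add_zero]
    exact fun h0 => hne (h.comm h0))
  exact ⟨c, by rw [add_sub_cancel_left]; exact hw⟩

theorem claimE (hΛ : ∀ c : F, c + ε * σ c = 0 → ∃ μ, c = σ μ - ε * μ) {M : Subgroup (Matrix.GeneralLinearGroup ι F)} {U W U' W' : Submodule F (ι → F)}
    (hP : Pr B U W) (hP' : Pr B U' W') (hS : SHall ε B M U W) (hS' : SHall ε B M U' W') (hno : ∀ a ∈ U, a ≠ 0 → ¬ TT ε B M a) (hno' : ∀ a ∈ W, a ≠ 0 → ¬ TT ε B M a)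
    (hdW' : 5 ≤ finrank F W')
    {a : ι → F} (ha : a ∈ U) (ha' : a ∈ U') (ha0 : a ≠ 0) : U' ≤ U ∧ ∃ a₂ ∈ W, a₂ ∈ W' ∧ a₂ ≠ 0 := by
  obtain ⟨y, hy, hay⟩ := hP.exists_one h ha ha0
  have hya : B y a ≠ 0 := fun h0 => by
    rw [h.comm h0] at hay
    exact zero_ne_one hay
  have hmem : ∀ b' ∈ W', B a b' = 0 → B y b' = 0 → b' ∈ W := by
    intro b' hb' h1 h2
    obtain ⟨c, hc⟩ := claim1 h hΛ hP hP' hS hS' hno ha ha' ha0 hb' h1
    have h3 := hP.sw y hy _ hc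
    rw [map_sub_right, map_smul_right, h2, zero_sub, neg_eq_zero] at h3
    have hc0 : c = 0 := (mul_eq_zero.1 h3).resolve_right hya
    rwa [hc0, zero_smul, sub_zero] at hc
  constructor
  · intro u' hu'
    obtain ⟨a₂, ha₂, ha₂0, hk⟩ := exists_ker (S := W') (k := 3) (by omega) ![B a, B y, B u']
    have k1 : B a a₂ = 0 := hk 0
    have k2 : B y a₂ = 0 := hk 1
    have k3 : B u' a₂ = 0 := hk 2
    have ha₂W := hmem a₂ ha₂ k1 k2
    obtain ⟨c₂, hc₂⟩ := claim1 h hΛ hP.symm hP'.symm (hS.symm h) (hS'.symm h) hno' ha₂W ha₂ ha₂0 hu' (h.comm k3)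
    obtain ⟨z, hz⟩ : ∃ z, B z a₂ ≠ 0 := by
      by_contra hcon
      push Not at hcon
      exact ha₂0 (h.nd a₂ fun y => h.comm (hcon y))
    obtain ⟨a₃, ha₃, ha₃0, hk'⟩ := exists_ker (S := W') (k := 4) (by omega) ![B a, B y, B u', B z]
    have l1 : B a a₃ = 0 := hk' 0
    have l2 : B y a₃ = 0 := hk' 1
    have l3 : B u' a₃ = 0 := hk' 2
    have l4 : B z a₃ = 0 := hk' 3
    have ha₃W := hmem a₃ ha₃ l1 l2
    obtain ⟨c₃, hc₃⟩ := claim1 h hΛ hP.symm hP'.symm (hS.symm h) (hS'.symm h) hno' ha₃W ha₃ ha₃0 hu' (h.comm l3)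
    have h3 : c₃ • a₃ - c₂ • a₂ ∈ U := by
      have := U.sub_mem hc₂ hc₃
      rwa [sub_sub_sub_cancel_left] at this
    have h4 := hP.disj _ h3 (W.sub_mem (W.smul_mem _ ha₃W) (W.smul_mem _ ha₂W))
    have h5 := congrArg (B z) h4
    rw [map_sub_right, map_smul_right, map_smul_right, l4, mul_zero, zero_sub, map_zero, neg_eq_zero] at h5
    have hc0 : c₂ = 0 := (mul_eq_zero.1 h5).resolve_right hz
    rwa [hc0, zero_smul, sub_zero] at hc₂
  · obtain ⟨a₂, ha₂, ha₂0, hk⟩ := exists_ker (S := W') (k := 2) (by omega) ![B a, B y]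
    exact ⟨a₂, hmem a₂ ha₂ (hk 0) (hk 1), ha₂, ha₂0⟩

theorem claimG (hΛ : ∀ c : F, c + ε * σ c = 0 → ∃ μ, c = σ μ - ε * μ) {M : Subgroup (Matrix.GeneralLinearGroup ι F)} {U W U' W' : Submodule F (ι → F)}
    (hP : Pr B U W) (hP' : Pr B U' W') (hS : SHall ε B M U W) (hS' : SHall ε B M U' W') (hno : ∀ a ∈ U, a ≠ 0 → ¬ TT ε B M a) (hno' : ∀ a ∈ W, a ≠ 0 → ¬ TT ε B M a)
    (hdU' : 5 ≤ finrank F U') (hdW' : 5 ≤ finrank F W') (hUU : finrank F U' = finrank F U) (hWW : finrank F W' = finrank F W)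
    {a : ι → F} (ha : a ∈ U) (ha' : a ∈ U') (ha0 : a ≠ 0) : U' = U ∧ W' = W := by
  obtain ⟨h1, a₂, h2, h3, h4⟩ := claimE h hΛ hP hP' hS hS' hno hno' hdW' ha ha' ha0
  obtain ⟨h5, -⟩ := claimE h hΛ hP.symm hP'.symm (hS.symm h) (hS'.symm h) hno' hno hdU' h2 h3 h4
  exact ⟨Submodule.eq_of_le_of_finrank_eq h1 hUU, Submodule.eq_of_le_of_finrank_eq h5 hWW⟩

/-- some transvection with centre in one of the two subspaces -/
theorem exists_TT (hΛ : ∀ c : F, c + ε * σ c = 0 → ∃ μ, c = σ μ - ε * μ) {M : Subgroup (Matrix.GeneralLinearGroup ι F)} (hM : M ≤ UB B) {U W : Submodule F (ι → F)}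
    (hP : Pr B U W) (hS : SHall ε B M U W) (hd : 5 ≤ finrank F U) (hdd : finrank F W = finrank F U)
    {g : Matrix.GeneralLinearGroup ι F} (hg : g ∈ M) (hg1 : ¬ (mp g U = U ∧ mp g W = W)) (hg2 : ¬ (mp g U = W ∧ mp g W = U)) :
    (∃ a ∈ U, a ≠ 0 ∧ TT ε B M a) ∨ (∃ a ∈ W, a ≠ 0 ∧ TT ε B M a) := by
  by_contra hcon
  push Not at hcon
  obtain ⟨hno, hno'⟩ := hcon
  have key : ∀ g ∈ M, ¬ (mp g U = U ∧ mp g W = W) → ¬ (mp g U = W ∧ mp g W = U) →
      (∀ x ∈ U, x ∈ mp g U → x = 0) ∧ (∀ x ∈ U, x ∈ mp g W → x = 0) ∧ (∀ x ∈ W, x ∈ mp g U → x = 0) ∧ (∀ x ∈ W, x ∈ mp g W → x = 0) := by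
    intro g hg hg1 hg2
    have hP' := hP.map (hM hg)
    have hS' := hS.map h hM hg
    have fU := finrank_mp g U
    have fW := finrank_mp g W
    refine ⟨fun x h1 h2 => ?_, fun x h1 h2 => ?_, fun x h1 h2 => ?_, fun x h1 h2 => ?_⟩
    · by_contra h0
      exact hg1 (claimG h hΛ hP hP' hS hS' hno hno' (by omega) (by omega) (by omega) (by omega) h1 h2 h0)
    · by_contra h0
      obtain ⟨h3, h4⟩ := claimG h hΛ hP hP'.symm hS (hS'.symm h) hno hno' (by omega) (by omega) (by omega) (by omega) h1 h2 h0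
      exact hg2 ⟨h4, h3⟩
    · by_contra h0
      obtain ⟨h3, h4⟩ := claimG h hΛ hP.symm hP' (hS.symm h) hS' hno' hno (by omega) (by omega) (by omega) (by omega) h1 h2 h0
      exact hg2 ⟨h3, h4⟩
    · by_contra h0
      obtain ⟨h3, h4⟩ := claimG h hΛ hP.symm hP'.symm (hS.symm h) (hS'.symm h) hno' hno (by omega) (by omega) (by omega) (by omega) h1 h2 h0
      exact hg1 ⟨h4, h3⟩
  obtain ⟨k1, k2, k3, k4⟩ := key g hg hg1 hg2
  have hP' := hP.map (hM hg)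
  have hS' := hS.map h hM hg
  have fU := finrank_mp g U
  have fW := finrank_mp g W
  obtain ⟨u', hu', hu'0⟩ : ∃ u' ∈ mp g U, u' ≠ 0 := by
    apply Submodule.exists_mem_ne_zero_of_ne_bot
    intro h0
    rw [h0, finrank_bot] at fU
    omega
  obtain ⟨x, hx, hxu⟩ : ∃ x ∈ U, B u' x ≠ 0 := by
    by_contra hcon
    push Not at hcon
    apply hu'0
    apply k1 u' _ hu'
    obtain ⟨u, hu, w, hw, rfl⟩ := hP.span u'
    have : w = 0 := by
      apply hP.symm.zero_of h hw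
      intro v hv
      have := hcon v hv
      rwa [map_add_left, hP.su u hu v hv, zero_add] at this
    rw [this, add_zero]
    exact hu
  obtain ⟨w', hw', hw'0, hk⟩ := exists_ker (S := mp g W) (k := 2) (by omega) ![B u', B x]
  have l1 : B u' w' = 0 := hk 0
  have l2 : B x w' = 0 := hk 1
  obtain ⟨s, hs, hsx⟩ := hS' u' hu' w' hw' l1
  obtain ⟨y, hy, hy0, hk'⟩ := exists_ker (S := U) (k := 2) (by omega) ![B u', B w']
  have m1 : B u' y = 0 := hk' 0
  have m2 : B w' y = 0 := hk' 1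
  have hsy : Matrix.mulVec (s : Matrix ι ι F) y = y := by
    rw [hsx, m1, m2, zero_smul, mul_zero, zero_smul, add_zero, sub_zero]
  have hys : y ∈ mp s U := by
    have := mp_mem (g := s) hy
    rwa [hsy] at this
  have hsU : mp s U = U := by
    by_contra hne
    by_cases hs2 : mp s U = W ∧ mp s W = U
    · rw [hs2.1] at hys
      exact hy0 (hP.disj y hy hys)
    · exact hy0 ((key s hs (fun h1 => hne h1.1) hs2).1 y hy hys)
  have h3 : Matrix.mulVec (s : Matrix ι ι F) x ∈ U := by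
    rw [← hsU]
    exact mp_mem hx
  rw [hsx, h.comm l2, zero_smul, add_zero] at h3
  have h4 := U.sub_mem hx h3
  rw [sub_sub_cancel] at h4
  have hε : ε ≠ 0 := left_ne_zero_of_mul_eq_one h.sq
  have hc := mul_ne_zero hε hxu
  have h5 := U.smul_mem (ε * B u' x)⁻¹ h4
  rw [smul_smul, inv_mul_cancel₀ hc, one_smul] at h5
  exact hw'0 (k2 w' h5 hw')

end CfsgLib.Cts1
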