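import Cfsg.Agent.Lib.Cts1

set_option autoImplicit false
set_option maxHeartbeats 400000
set_option linter.unusedSectionVars false

/-! Stabilisers of decompositions into two totally isotropic subspaces are maximal. -/
namespace CfsgLib.Cts2

open Cfsg Cfsg.Geo Module CfsgLib.GeoBase CfsgLib.Asch1 CfsgLib.Herm CfsgLib.Asu1 CfsgLib.Cts1

universe u

variable {ι : Type} [Fintype ι] [DecidableEq ι] {F : Type u} [Field F] {σ : F →+* F}
variable {ε : F} {B : (ι → F) →ₛₗ[σ] (ι → F) →ₗ[F] F} (h : EForm ε B)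

include h

theorem inv_L {β : F} (hβ : β + ε * σ β = 0) : β⁻¹ + ε * σ β⁻¹ = 0 := by
  by_cases h0 : β = 0
  · rw [h0, inv_zero, map_zero, mul_zero, add_zero]
  have h1 : σ β = -(ε * β) := by
    have := h.sq
    linear_combination ε * hβ - (σ β) * this
  have hε : ε ≠ 0 := left_ne_zero_of_mul_eq_one h.sq
  have h2 : ε⁻¹ = ε := (eq_inv_of_mul_eq_one_left h.sq).symm
  rw [map_inv₀, h1, inv_neg, mul_inv, h2, mul_neg, ← mul_assoc, h.sq, one_mul, add_neg_cancel]

omit h in
theorem neg_L {β : F} (hβ : β + ε * σ β = 0) : -β + ε * σ (-β) = 0 := by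
  rw [map_neg]
  linear_combination -hβ

theorem TT_all {M : Subgroup (Matrix.GeneralLinearGroup ι F)} (hM : M ≤ UB B) {U W : Submodule F (ι → F)} (hP : Pr B U W) (hS : SHall ε B M U W)
    {a : ι → F} (ha : a ∈ U) (ha0 : a ≠ 0) (hT : TT ε B M a) : ∀ a' ∈ U, TT ε B M a' := by
  intro a' ha'
  by_cases hc : ∃ c : F, a' = c • a
  · obtain ⟨c, rfl⟩ := hc
    exact hT.smul h c
  obtain ⟨w₁, hw₁, h1, h1'⟩ : ∃ w ∈ W, B a' w = 0 ∧ B a w ≠ 0 := by
    by_contra hcon
    push Not at hcon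
    obtain ⟨c, hc'⟩ := hP.mult h ha ha' hcon
    apply hc
    have hc0 : c ≠ 0 := by
      rintro rfl
      rw [zero_smul] at hc'
      exact ha0 hc'
    exact ⟨c⁻¹, by rw [hc', smul_smul, inv_mul_cancel₀ hc0, one_smul]⟩
  obtain ⟨w₂, hw₂, h2, h2'⟩ : ∃ w ∈ W, B a w = 0 ∧ B a' w ≠ 0 := by
    by_contra hcon
    push Not at hcon
    exact hc (hP.mult h ha' ha hcon)
  set w := (ε * (B a w₁)⁻¹) • w₁ + (ε * (B a' w₂)⁻¹) • w₂ with hw
  have e1 : B a w = ε := by
    rw [hw, map_add_right, map_smul_right, map_smul_right, h2, mul_zero, add_zero, mul_assoc, inv_mul_cancel₀ h1', mul_one]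
  have e2 : B a' w = ε := by
    rw [hw, map_add_right, map_smul_right, map_smul_right, h1, mul_zero, zero_add, mul_assoc, inv_mul_cancel₀ h2', mul_one]
  have hwW : w ∈ W := W.add_mem (W.smul_mem _ hw₁) (W.smul_mem _ hw₂)
  obtain ⟨g, hg, hgx⟩ := hS (a' - a) (U.sub_mem ha' ha) w hwW (by rw [map_sub_left, e1, e2, sub_self])
  have h3 : Matrix.mulVec (g : Matrix ι ι F) a = a' := by
    rw [hgx, h.swap a w, e1, h.fix, h.sq, one_smul, hP.su (a' - a) (U.sub_mem ha' ha) a ha, mul_zero, zero_smul, sub_zero, add_sub_cancel]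
  rw [← h3]
  exact hT.conj h hg (hM hg)

theorem TT_iso {M : Subgroup (Matrix.GeneralLinearGroup ι F)} (hM : M ≤ UB B) {U W : Submodule F (ι → F)} (hP : Pr B U W) (hU : ∀ u ∈ U, TT ε B M u) (hW : ∀ w ∈ W, TT ε B M w)
    (hΛ0 : ∃ β : F, β ≠ 0 ∧ β + ε * σ β = 0) : ∀ v, B v v = 0 → TT ε B M v := by
  have key : ∀ u ∈ U, ∀ w ∈ W, B u w ≠ 0 → B u w + ε * σ (B u w) = 0 → TT ε B M (w + u) := by
    intro u hu w hw h0 hβ
    obtain ⟨g, hg, hgx⟩ := hU u hu (B u w)⁻¹ (inv_L h hβ)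
    have h3 : Matrix.mulVec (g : Matrix ι ι F) w = w + u := by
      rw [hgx, inv_mul_cancel₀ h0, one_smul]
    rw [← h3]
    exact (hW w hw).conj h hg (hM hg)
  intro v hv
  obtain ⟨u, hu, w, hw, rfl⟩ := hP.span v
  rw [map_add_left, map_add_right, map_add_right, hP.su u hu u hu, hP.sw w hw w hw, zero_add, add_zero, h.swap u w] at hv
  by_cases h0 : B u w = 0
  · by_cases hw0 : w = 0
    · rw [hw0, add_zero]; exact hU u hu
    obtain ⟨u₂', hu₂', h1⟩ := hP.symm.exists_one h hw hw0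
    obtain ⟨β, hβ0, hβ⟩ := hΛ0
    have h2 : B u₂' w = ε := by rw [h.swap w u₂', h1, map_one, mul_one]
    set u₂ := (σ (β * ε)) • u₂' with hu₂
    have h3 : B u₂ w = β := by rw [hu₂, map_smul_left, h.inv, h2, mul_assoc, h.sq, mul_one]
    have hu₂U : u₂ ∈ U := U.smul_mem _ hu₂'
    have h4 := key u₂ hu₂U w hw (by rw [h3]; exact hβ0) (by rw [h3]; exact hβ)
    obtain ⟨g, hg, hgx⟩ := hU (u - u₂) (U.sub_mem hu hu₂U) (-β)⁻¹ (inv_L h (neg_L hβ))
    have h5 : Matrix.mulVec (g : Matrix ι ι F) (w + u₂) = u + w := by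
      rw [hgx, map_add_right, hP.su (u - u₂) (U.sub_mem hu hu₂U) u₂ hu₂U, map_sub_left, h0, h3, zero_sub, add_zero, inv_mul_cancel₀ (neg_ne_zero.2 hβ0), one_smul]
      abel
    rw [← h5]
    exact h4.conj h hg (hM hg)
  · rw [add_comm]
    exact key u hu w hw h0 hv

theorem exists_n {G : Subgroup (Matrix.GeneralLinearGroup ι F)} (hG : ∀ v, B v v = 0 → TT ε B G v) {c : F} (hc0 : c ≠ 0) (hc : c + ε * σ c = 0)
    {e f : ι → F} (he : B e e = 0) (hf : B f f = 0) (hef : B e f = 1) :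
    ∃ n ∈ G, Matrix.mulVec (n : Matrix ι ι F) e = (-c⁻¹) • f ∧ Matrix.mulVec (n : Matrix ι ι F) f = c • e ∧
      ∀ x, B e x = 0 → B f x = 0 → Matrix.mulVec (n : Matrix ι ι F) x = x := by
  have hfe : B f e = ε := by rw [h.swap e f, hef, map_one, mul_one]
  obtain ⟨t, ht, htx⟩ := hG e he c hc
  obtain ⟨s, hs, hsx⟩ := hG f hf (-(ε * c⁻¹)) (by
    have h1 := inv_L h hc
    rw [map_neg, map_mul, h.fix]
    linear_combination (-ε) * h1)
  refine ⟨t * s * t, G.mul_mem (G.mul_mem ht hs) ht, ?_, ?_, fun x h1 h2 => ?_⟩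
  · rw [mulVec_mul, mulVec_mul, htx e, he, mul_zero, zero_smul, add_zero, hsx, hfe]
    have e1 : -(ε * c⁻¹) * ε = -c⁻¹ := by have := h.sq; linear_combination (-c⁻¹) * this
    rw [e1, htx, map_add_right, map_smul_right, he, hef, zero_add, mul_one, mul_neg, mul_inv_cancel₀ hc0]
    module
  · rw [mulVec_mul, mulVec_mul, htx f, hef, mul_one, hsx, map_add_right, map_smul_right, hf, hfe, zero_add]
    have e1 : -(ε * c⁻¹) * (c * ε) = -1 := by
      have := h.sq
      have h3 := mul_inv_cancel₀ hc0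
      linear_combination (-(ε * ε)) * h3 - this
    rw [e1]
    have e2 : f + c • e + (-1 : F) • f = c • e := by module
    rw [e2, htx, map_smul_right, he, mul_zero, mul_zero, zero_smul, add_zero]
  · rw [mulVec_mul, mulVec_mul, htx x, h1, mul_zero, zero_smul, add_zero, hsx, h2, mul_zero, zero_smul, add_zero, htx, h1, mul_zero, zero_smul, add_zero]

theorem exists_tau {U W : Submodule F (ι → F)} (hP : Pr B U W) (hdd : finrank F W = finrank F U) (hΛ0 : ∃ β : F, β ≠ 0 ∧ β + ε * σ β = 0)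
    {G : Subgroup (Matrix.GeneralLinearGroup ι F)} (hG : ∀ v, B v v = 0 → TT ε B G v) : ∃ t ∈ G, mp t U = W ∧ mp t W = U := by
  classical
  obtain ⟨c, hc0, hc⟩ := hΛ0
  let b := Module.finBasis F U
  let L : W →ₗ[F] (Fin (finrank F U) → F) := (LinearMap.pi fun j => B (b j : U)).comp W.subtype
  have hLinj : ∀ w ∈ W, (∀ j, B (b j : U) w = 0) → w = 0 := by
    intro w hw hj
    apply hP.symm.zero_of h hw
    intro u hu
    have h1 : (B w).comp U.subtype = 0 := by
      apply b.ext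
      intro j
      exact h.comm (hj j)
    exact LinearMap.congr_fun h1 ⟨u, hu⟩
  have hL : Function.Injective L := by
    rw [← LinearMap.ker_eq_bot, eq_bot_iff]
    intro w hw
    rw [Submodule.mem_bot]
    exact Subtype.ext (hLinj w w.2 fun j => congrFun (LinearMap.mem_ker.1 hw) j)
  have hLs : Function.Surjective L := (LinearMap.injective_iff_surjective_of_finrank_eq_finrank (by
    rw [hdd, finrank_fintype_fun_eq_card, Fintype.card_fin])).1 hL
  choose d hd using fun i => hLs (Pi.single i 1)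
  have hbd : ∀ i j, B (b j : U) (d i : W) = if j = i then 1 else 0 := by
    intro i j
    have := congrFun (hd i) j
    rw [Pi.single_apply] at this
    exact this
  have hexp : ∀ w ∈ W, w = ∑ i, (B (b i : U) w) • ((d i : W) : ι → F) := by
    intro w hw
    apply sub_eq_zero.1
    apply hLinj _ (W.sub_mem hw (W.sum_mem fun i _ => W.smul_mem _ (d i).2))
    intro j
    rw [map_sub_right, map_sum]
    have : ∀ i, B (b j : U) ((B (b i : U) w) • ((d i : W) : ι → F)) = if i = j then B (b j : U) w else 0 := by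
      intro i
      rw [map_smul_right, hbd]
      by_cases hij : i = j
      · subst hij; simp
      · rw [if_neg (Ne.symm hij), if_neg hij, mul_zero]
    rw [Finset.sum_congr rfl fun i _ => this i, Finset.sum_ite_eq' Finset.univ j, if_pos (Finset.mem_univ j), sub_self]
  have key : ∀ s : Finset (Fin (finrank F U)), ∃ g ∈ G,
      (∀ i ∈ s, (∃ c : F, Matrix.mulVec (g : Matrix ι ι F) (b i : U) = c • ((d i : W) : ι → F)) ∧ ∃ c : F, Matrix.mulVec (g : Matrix ι ι F) ((d i : W) : ι → F) = c • ((b i : U) : ι → F)) ∧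
      ∀ i ∉ s, Matrix.mulVec (g : Matrix ι ι F) (b i : U) = ((b i : U) : ι → F) ∧ Matrix.mulVec (g : Matrix ι ι F) ((d i : W) : ι → F) = ((d i : W) : ι → F) := by
    intro s
    induction s using Finset.induction_on with
    | empty =>
      refine ⟨1, G.one_mem, fun i hi => absurd hi (Finset.notMem_empty i), fun i _ => ⟨?_, ?_⟩⟩
      · rw [mulVec_one]
      · rw [mulVec_one]
    | insert i s hi ih =>
      obtain ⟨g, hg, h1, h2⟩ := ih
      obtain ⟨n, hn, n1, n2, n3⟩ := exists_n h hG hc0 hc (e := ((b i : U) : ι → F)) (f := ((d i : W) : ι → F)) (hP.su _ (b i).2 _ (b i).2) (hP.sw _ (d i).2 _ (d i).2)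
        (by rw [hbd, if_pos rfl])
      have f1 : ∀ j, j ≠ i → Matrix.mulVec (n : Matrix ι ι F) ((b j : U) : ι → F) = ((b j : U) : ι → F) := by
        intro j hj
        apply n3
        · exact hP.su _ (b i).2 _ (b j).2
        · apply h.comm
          rw [hbd, if_neg hj]
      have f2 : ∀ j, j ≠ i → Matrix.mulVec (n : Matrix ι ι F) ((d j : W) : ι → F) = ((d j : W) : ι → F) := by
        intro j hj
        apply n3
        · rw [hbd, if_neg (Ne.symm hj)]
        · exact hP.sw _ (d i).2 _ (d j).2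
      refine ⟨n * g, G.mul_mem hn hg, fun j hj => ?_, fun j hj => ?_⟩
      · by_cases hji : j = i
        · subst hji
          obtain ⟨g1, g2⟩ := h2 j hi
          rw [mulVec_mul, mulVec_mul, g1, g2, n1, n2]
          exact ⟨⟨_, rfl⟩, ⟨_, rfl⟩⟩
        · obtain ⟨⟨c1, g1⟩, ⟨c2, g2⟩⟩ := h1 j ((Finset.mem_insert.1 hj).resolve_left hji)
          rw [mulVec_mul, mulVec_mul, g1, g2, mulVec_smul', mulVec_smul', f1 j hji, f2 j hji]
          exact ⟨⟨_, rfl⟩, ⟨_, rfl⟩⟩
      · rw [Finset.mem_insert, not_or] at hj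
        obtain ⟨g1, g2⟩ := h2 j hj.2
        rw [mulVec_mul, mulVec_mul, g1, g2]
        exact ⟨f1 j hj.1, f2 j hj.1⟩
  obtain ⟨t, ht, h1, -⟩ := key Finset.univ
  refine ⟨t, ht, ?_, ?_⟩
  · apply Submodule.eq_of_le_of_finrank_eq
    · rintro _ ⟨u, hu, rfl⟩
      have h3 : (⊤ : Submodule F U) ≤ (W.comap (Matrix.toLin' (t : Matrix ι ι F))).comap U.subtype := by
        rw [← b.span_eq, Submodule.span_le]
        rintro _ ⟨i, rfl⟩
        obtain ⟨⟨c1, g1⟩, -⟩ := h1 i (Finset.mem_univ i)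
        change Matrix.toLin' (t : Matrix ι ι F) (b i : U) ∈ W
        rw [toLin_apply, g1]
        exact W.smul_mem _ (d i).2
      exact h3 (Submodule.mem_top : (⟨u, hu⟩ : U) ∈ ⊤)
    · rw [finrank_mp, hdd]
  · apply Submodule.eq_of_le_of_finrank_eq
    · rintro _ ⟨w, hw, rfl⟩
      rw [hexp w hw, map_sum]
      apply U.sum_mem
      intro i _
      obtain ⟨-, ⟨c1, g1⟩⟩ := h1 i (Finset.mem_univ i)
      rw [map_smul, toLin_apply, g1]
      exact U.smul_mem _ (U.smul_mem _ (b i).2)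
    · rw [finrank_mp, hdd]

theorem exists_tt {v : ι → F} (hv : B v v = 0) {b : F} (hb : b + ε * σ b = 0) :
    ∃ g ∈ UB B ⊓ specialLinear ι F, ∀ x, Matrix.mulVec (g : Matrix ι ι F) x = x + (b * B v x) • v := by
  have h0 : (b • B v) v = 0 := by rw [LinearMap.smul_apply, hv, smul_zero]
  have hx : ∀ x, Matrix.mulVec (tv (b • B v) v h0 : Matrix ι ι F) x = x + (b * B v x) • v := fun x => by
    rw [tv_apply, LinearMap.smul_apply, smul_eq_mul]
  refine ⟨tv (b • B v) v h0, ⟨fun x y => ?_, tv_mem_sl _ _ h0⟩, hx⟩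
  rw [hx, hx, map_add_left, map_add_right, map_add_right, map_smul_left, map_smul_right, map_smul_right, map_smul_left, hv, map_mul, h.symm]
  linear_combination (B x v * B v y) * hb

theorem exists_sh {u w : ι → F} (hu : B u u = 0) (hw : B w w = 0) (huw : B u w = 0) :
    ∃ g ∈ UB B ⊓ specialLinear ι F, ∀ x, Matrix.mulVec (g : Matrix ι ι F) x = x + (B w x) • u - (ε * B u x) • w := by
  have hwu : B w u = 0 := h.comm huw
  have h0 : (-ε • B u) w = 0 := by rw [LinearMap.smul_apply, huw, smul_zero]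
  have hx : ∀ x, Matrix.mulVec ((tv (B w) u hwu * tv (-ε • B u) w h0 : Matrix.GeneralLinearGroup ι F) : Matrix ι ι F) x = x + (B w x) • u - (ε * B u x) • w := by
    intro x
    rw [mulVec_mul, tv_apply, tv_apply, map_add_right, map_smul_right, hw, mul_zero, add_zero, LinearMap.smul_apply, smul_eq_mul]
    module
  refine ⟨_, ⟨fun x y => ?_, (specialLinear ι F).mul_mem (tv_mem_sl _ _ hwu) (tv_mem_sl _ _ h0)⟩, hx⟩
  rw [hx, hx]
  simp only [map_add_left, map_sub_left, map_smul_left, map_add_right, map_sub_right, map_smul_right, hu, hw, huw, hwu, map_mul, h.fix, h.symm, mul_zero, add_zero, sub_zero]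
  have := h.sq
  linear_combination (-(B x u * B w y)) * this

theorem ts_maximal [Finite F] (hΛ : ∀ c : F, c + ε * σ c = 0 → ∃ μ, c = σ μ - ε * μ) (hΛ0 : ∃ β : F, β ≠ 0 ∧ β + ε * σ β = 0)
    {G : Subgroup (Matrix.GeneralLinearGroup ι F)} (hGU : G ≤ UB B) (hUG : UB B ⊓ specialLinear ι F ≤ G)
    (hgen : ∀ M : Subgroup (Matrix.GeneralLinearGroup ι F), (∀ v, B v v = 0 → TT ε B M v) → G ≤ M)
    {k : ℕ} (hk : 5 ≤ k) {D : Fin 2 → Submodule F (ι → F)} (hD : IsMDecomposition k D) (hts : ∀ i, ∀ x ∈ D i, ∀ y ∈ D i, B x y = 0) :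
    IsMaximalIn G (decompositionStabilizer D ⊓ G) := by
  have hsup : ∀ x, ∃ u ∈ D 0, ∃ w ∈ D 1, x = u + w := by
    intro x
    have h1 : x ∈ iSup D := by rw [hD.iSup_eq_top]; trivial
    have h2 : iSup D ≤ D 0 ⊔ D 1 := by
      apply iSup_le
      intro i
      fin_cases i
      · exact le_sup_left
      · exact le_sup_right
    obtain ⟨u, hu, w, hw, rfl⟩ := Submodule.mem_sup.1 (h2 h1)
    exact ⟨u, hu, w, hw, rfl⟩
  have hdisj : ∀ x ∈ D 0, x ∈ D 1 → x = 0 := by
    intro x h1 h2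
    have := hD.indep.pairwiseDisjoint (show (0 : Fin 2) ≠ 1 by decide)
    exact (Submodule.disjoint_def.1 this) x h1 h2
  have hP : Pr B (D 0) (D 1) := ⟨hts 0, hts 1, hsup, hdisj⟩
  have hd0 := hD.finrank_eq 0
  have hd1 := hD.finrank_eq 1
  have hGT : ∀ v, B v v = 0 → TT ε B G v := by
    intro v hv b hb
    obtain ⟨g, hg, hgx⟩ := exists_tt h hv hb
    exact ⟨g, hUG hg, hgx⟩
  have hstab : ∀ g : Matrix.GeneralLinearGroup ι F, (mp g (D 0) = D 0 ∧ mp g (D 1) = D 1) ∨ (mp g (D 0) = D 1 ∧ mp g (D 1) = D 0) → g ∈ decompositionStabilizer D := by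
    rintro g (⟨h1, h2⟩ | ⟨h1, h2⟩)
    · refine ⟨1, fun i => ?_⟩
      fin_cases i
      · exact h1
      · exact h2
    · refine ⟨Equiv.swap 0 1, fun i => ?_⟩
      fin_cases i
      · exact h1
      · exact h2
  constructor
  · refine lt_of_le_of_ne inf_le_right fun heq => ?_
    have hle : G ≤ decompositionStabilizer D := inf_eq_right.1 heq
    obtain ⟨w, hw, hw0⟩ : ∃ w ∈ D 1, w ≠ 0 := by
      apply Submodule.exists_mem_ne_zero_of_ne_bot
      intro h0
      rw [h0, finrank_bot] at hd1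
      omega
    obtain ⟨u, hu, hwu⟩ := hP.symm.exists_one h hw hw0
    obtain ⟨c, hc0, hc⟩ := hΛ0
    obtain ⟨g, hg, hgx⟩ := hGT w (hts 1 w hw w hw) c hc
    obtain ⟨s, hs⟩ := hle hg
    have h3 : u + c • w ∈ D (s 0) := by
      rw [← hs 0]
      refine ⟨u, hu, ?_⟩
      rw [toLin_apply, hgx, hwu, mul_one]
    obtain ⟨i, hi⟩ : ∃ i, s 0 = i := ⟨_, rfl⟩
    rw [hi] at h3
    fin_cases i
    · have h4 := (D 0).sub_mem h3 hu
      rw [add_sub_cancel_left] at h4
      have h5 := (D 0).smul_mem c⁻¹ h4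
      rw [smul_smul, inv_mul_cancel₀ hc0, one_smul] at h5
      exact hw0 (hdisj w h5 hw)
    · have h4 := (D 1).sub_mem h3 ((D 1).smul_mem c hw)
      rw [add_sub_cancel_right] at h4
      have h5 := hdisj u hu h4
      rw [h5, map_zero] at hwu
      exact zero_ne_one hwu
  · intro M hHM hMG
    by_cases hM : M ≤ decompositionStabilizer D
    · left
      exact le_antisymm (le_inf hM hMG) hHM
    right
    apply le_antisymm hMG
    apply hgen
    have hMU := hMG.trans hGU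
    have hS : SHall ε B M (D 0) (D 1) := by
      intro u hu w hw huw
      obtain ⟨g, hg, hgx⟩ := exists_sh h (hts 0 u hu u hu) (hts 1 w hw w hw) huw
      refine ⟨g, hHM ⟨hstab g (Or.inl ⟨?_, ?_⟩), hUG hg⟩, hgx⟩
      · apply Submodule.eq_of_le_of_finrank_eq
        · rintro _ ⟨x, hx, rfl⟩
          rw [toLin_apply, hgx, hts 0 u hu x hx, mul_zero, zero_smul, sub_zero]
          exact (D 0).add_mem hx ((D 0).smul_mem _ hu)
        · exact finrank_mp g (D 0)
      · apply Submodule.eq_of_le_of_finrank_eq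
        · rintro _ ⟨x, hx, rfl⟩
          rw [toLin_apply, hgx, hts 1 w hw x hx, zero_smul, add_zero]
          exact (D 1).sub_mem hx ((D 1).smul_mem _ hw)
        · exact finrank_mp g (D 1)
    obtain ⟨g, hg, hgs⟩ := Set.not_subset.1 hM
    obtain ⟨t, ht, ht1, ht2⟩ := exists_tau h hP (by rw [hd0, hd1]) hΛ0 hGT
    have htM : t ∈ M := hHM ⟨hstab t (Or.inr ⟨ht1, ht2⟩), ht⟩
    have hmove : ∀ a, TT ε B M a → TT ε B M (Matrix.mulVec (t : Matrix ι ι F) a) := fun a ha => ha.conj h htM (hMU htM)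
    have hboth : (∀ u ∈ D 0, TT ε B M u) ∧ ∀ w ∈ D 1, TT ε B M w := by
      rcases exists_TT h hΛ hMU hP hS (by omega) (by omega) hg (fun h1 => hgs (hstab g (Or.inl h1))) (fun h1 => hgs (hstab g (Or.inr h1))) with ⟨a, ha, ha0, hT⟩ | ⟨a, ha, ha0, hT⟩
      · have h1 := TT_all h hMU hP hS ha ha0 hT
        refine ⟨h1, fun w hw => ?_⟩
        rw [← ht1] at hw
        obtain ⟨u, hu, rfl⟩ := hw
        rw [toLin_apply]
        exact hmove u (h1 u hu)
      · have h1 := TT_all h hMU hP.symm (hS.symm h) ha ha0 hT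
        refine ⟨fun u hu => ?_, h1⟩
        rw [← ht2] at hu
        obtain ⟨w, hw, rfl⟩ := hu
        rw [toLin_apply]
        exact hmove w (h1 w hw)
    exact TT_iso h hMU hP hboth.1 hboth.2 hΛ0

end CfsgLib.Cts2
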