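import Cfsg.Agent.Lib.GeoBase
import Cfsg.Agent.Lib.Symp

set_option autoImplicit false

/-! Stabilisers of subspaces in symplectic groups. -/
namespace CfsgLib.GeoSp

open Cfsg Cfsg.Geo Module CfsgLib.GeoBase CfsgLib.Symp

variable {F : Type*} [Field F] {m : ℕ}

local notation "V" => (Fin m ⊕ Fin m → F)
local notation "GG" => Matrix.GeneralLinearGroup (Fin m ⊕ Fin m) F

theorem mem_spGL {g : GG} : g ∈ spGL m F ↔ ∀ u v : V, sympForm m F (Matrix.mulVec (g : Matrix _ _ F) u) (Matrix.mulVec (g : Matrix _ _ F) v) = sympForm m F u v := Iff.rfl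

theorem f_add_left (u v w : V) : sympForm m F (u + v) w = sympForm m F u w + sympForm m F v w := by
  rw [← sympB_apply, ← sympB_apply, ← sympB_apply, map_add, LinearMap.add_apply]

theorem f_add_right (u v w : V) : sympForm m F u (v + w) = sympForm m F u v + sympForm m F u w := by
  rw [← sympB_apply, ← sympB_apply, ← sympB_apply, map_add]

theorem f_smul_left (c : F) (u v : V) : sympForm m F (c • u) v = c * sympForm m F u v := by
  rw [← sympB_apply, ← sympB_apply, map_smul, LinearMap.smul_apply, smul_eq_mul]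

theorem f_smul_right (c : F) (u v : V) : sympForm m F u (c • v) = c * sympForm m F u v := by
  rw [← sympB_apply, ← sympB_apply, map_smul, smul_eq_mul]

theorem f_self (u : V) : sympForm m F u u = 0 := by
  rw [← sympB_apply]
  exact sympB_isAlt u

theorem f_sub_left (u v w : V) : sympForm m F (u - v) w = sympForm m F u w - sympForm m F v w := by
  rw [← sympB_apply, ← sympB_apply, ← sympB_apply, map_sub, LinearMap.sub_apply]

theorem f_sub_right (u v w : V) : sympForm m F u (v - w) = sympForm m F u v - sympForm m F u w := by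
  rw [← sympB_apply, ← sympB_apply, ← sympB_apply, map_sub]

theorem f_swap (u v : V) : sympForm m F u v = - sympForm m F v u := by
  have h := f_self (u + v)
  rw [f_add_left, f_add_right, f_add_right, f_self, f_self, zero_add, add_zero] at h
  exact eq_neg_of_add_eq_zero_left h

theorem f_neg_left (u v : V) : sympForm m F (-u) v = - sympForm m F u v := by
  rw [← sympB_apply, ← sympB_apply, map_neg, LinearMap.neg_apply]

theorem f_zero_left (v : V) : sympForm m F 0 v = 0 := by rw [← sympB_apply, map_zero, LinearMap.zero_apply]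

/-- symplectic transvection in GL -/
noncomputable def st (v : V) (c : F) : GG :=
  ⟨sympTransvection m v c, sympTransvection m v (-c), by
    apply mulVec_injective_matrix
    intro x
    rw [← Matrix.mulVec_mulVec, sympTransvection_mulVec, sympTransvection_mulVec, Matrix.one_mulVec, f_add_left, f_smul_left, f_self]
    rw [mul_zero, add_zero, add_assoc, ← add_smul]
    have : -c * sympForm m F x v + c * sympForm m F x v = 0 := by ring
    rw [this, zero_smul, add_zero], by
    apply mulVec_injective_matrix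
    intro x
    rw [← Matrix.mulVec_mulVec, sympTransvection_mulVec, sympTransvection_mulVec, Matrix.one_mulVec, f_add_left, f_smul_left, f_self]
    rw [mul_zero, add_zero, add_assoc, ← add_smul]
    have : c * sympForm m F x v + -c * sympForm m F x v = 0 := by ring
    rw [this, zero_smul, add_zero]⟩

theorem st_apply (v : V) (c : F) (x : V) : Matrix.mulVec (st v c : Matrix _ _ F) x = x + (c * sympForm m F x v) • v :=
  sympTransvection_mulVec v x c

theorem st_mem (v : V) (c : F) : st v c ∈ spGL m F :=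
  (mem_symplecticGroup_iff _).1 (sympTransvection_mem v c)

theorem st_conj {g : GG} (hg : g ∈ spGL m F) (v : V) (c : F) : g * st v c * g⁻¹ = st (Matrix.mulVec (g : Matrix _ _ F) v) c := by
  apply ext_mulVec
  intro x
  rw [mulVec_mul, mulVec_mul, st_apply, st_apply, mulVec_add', mulVec_smul', mulVec_inv]
  congr 3
  have h := mem_spGL.1 hg (Matrix.mulVec ((g⁻¹ : GG) : Matrix _ _ F) x) v
  rw [mulVec_inv] at h
  exact h.symm

/-- Sp is generated by transvections -/
theorem sp_le {M : Subgroup GG} (hM : ∀ (v : V) (c : F), st v c ∈ M) : spGL m F ≤ M := by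
  intro g hg
  have hgm : (g : Matrix _ _ F) ∈ Matrix.symplecticGroup (Fin m) F := (mem_symplecticGroup_iff _).2 hg
  let A : Matrix.symplecticGroup (Fin m) F := ⟨(g : Matrix _ _ F), hgm⟩
  have h1 : A ∈ Subgroup.closure {A : Matrix.symplecticGroup (Fin m) F |
      ∃ (w : Fin m ⊕ Fin m → F) (c : F),
        (A : Matrix (Fin m ⊕ Fin m) (Fin m ⊕ Fin m) F) = sympTransvection m w c} := by
    rw [closure_sympTransvection]; exact Subgroup.mem_top A
  let P : Matrix.symplecticGroup (Fin m) F → Prop := fun B => ∃ h : GG, h ∈ M ∧ (h : Matrix (Fin m ⊕ Fin m) (Fin m ⊕ Fin m) F) = B.1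
  have h2 : P A := by
    refine Subgroup.closure_induction (p := fun B _ => P B) ?_ ?_ ?_ ?_ h1
    · rintro B ⟨w, c, hB⟩
      exact ⟨st w c, hM w c, hB.symm⟩
    · exact ⟨1, one_mem M, rfl⟩
    · rintro B C _ _ ⟨b, hb, hb'⟩ ⟨c, hc, hc'⟩
      exact ⟨b * c, mul_mem hb hc, by rw [Units.val_mul, hb', hc']; rfl⟩
    · rintro B _ ⟨b, hb, hb'⟩
      refine ⟨b⁻¹, inv_mem hb, ?_⟩
      have h3 : (b : Matrix (Fin m ⊕ Fin m) (Fin m ⊕ Fin m) F) * (B⁻¹ : Matrix.symplecticGroup (Fin m) F).1 = 1 := by
        rw [hb']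
        exact congrArg Subtype.val (mul_inv_cancel B)
      have h4 : ((b⁻¹ : GG) : Matrix _ _ F) * ((b : Matrix (Fin m ⊕ Fin m) (Fin m ⊕ Fin m) F) * (B⁻¹ : Matrix.symplecticGroup (Fin m) F).1) = (B⁻¹ : Matrix.symplecticGroup (Fin m) F).1 := by
        rw [← mul_assoc, Units.inv_mul, one_mul]
      rw [h3, mul_one] at h4
      exact h4
  obtain ⟨h, hh, hh'⟩ := h2
  have : h = g := Units.ext hh'
  rw [← this]
  exact hh

/-- the set of centres -/
def X (M : Subgroup GG) : Set V := {v | ∀ c : F, st v c ∈ M}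

theorem X_smul {M : Subgroup GG} (a : F) {v : V} (hv : v ∈ X M) : a • v ∈ X M := by
  intro c
  have : st (a • v) c = st v (a * a * c) := by
    apply ext_mulVec
    intro x
    rw [st_apply, st_apply, f_smul_right, smul_smul]
    congr 2
    ring
  rw [this]
  exact hv _

theorem X_inv {M : Subgroup GG} (hM : M ≤ spGL m F) {g : GG} (hg : g ∈ M) {v : V} (hv : v ∈ X M) :
    Matrix.mulVec (g : Matrix _ _ F) v ∈ X M := by
  intro c
  rw [← st_conj (hM hg)]
  exact mul_mem (mul_mem hg (hv c)) (inv_mem hg)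

/-- the orthogonal complement -/
def perp (W : Submodule F V) : Submodule F V where
  carrier := {x | ∀ w ∈ W, sympForm m F w x = 0}
  zero_mem' := fun w _ => by rw [f_swap, f_zero_left, neg_zero]
  add_mem' := fun {a b} ha hb w hw => by rw [f_add_right, ha w hw, hb w hw, add_zero]
  smul_mem' := fun c x hx w hw => by rw [f_smul_right, hx w hw, mul_zero]

theorem mem_perp {W : Submodule F V} {x : V} : x ∈ perp W ↔ ∀ w ∈ W, sympForm m F w x = 0 := Iff.rfl

theorem perp_eq (W : Submodule F V) : perp W = (sympB m F).orthogonal W := by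
  ext x
  rw [mem_perp, LinearMap.BilinForm.mem_orthogonal_iff]
  constructor
  · intro h w hw
    rw [sympB_apply]
    exact h w hw
  · intro h w hw
    have := h w hw
    rw [sympB_apply] at this
    exact this

theorem perp_perp (W : Submodule F V) : perp (perp W) = W := by
  rw [perp_eq, perp_eq]
  exact LinearMap.BilinForm.orthogonal_orthogonal sympB_nondegenerate sympB_isAlt.isRefl W

theorem finrank_perp (W : Submodule F V) : finrank F W + finrank F (perp W) = 2 * m := by
  rw [perp_eq, LinearMap.BilinForm.finrank_orthogonal sympB_nondegenerate, Module.finrank_fintype_fun_eq_card,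
    Fintype.card_sum, Fintype.card_fin]
  have := Submodule.finrank_le W
  rw [Module.finrank_fintype_fun_eq_card, Fintype.card_sum, Fintype.card_fin] at this
  omega

/-- moving vectors inside a non-degenerate subspace -/
theorem move_in {M : Subgroup GG} {U : Submodule F V} (hU : ∀ u ∈ U, u ∈ X M) (hnd : ∀ u ∈ U, u ≠ 0 → ∃ x ∈ U, sympForm m F u x ≠ 0)
    {a b : V} (ha : a ∈ U) (hb : b ∈ U) (ha0 : a ≠ 0) (hb0 : b ≠ 0) :
    ∃ h ∈ M, Matrix.mulVec (h : Matrix _ _ F) a = b ∧ ∀ x, (∀ u ∈ U, sympForm m F x u = 0) → Matrix.mulVec (h : Matrix _ _ F) x = x := by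
  have one : ∀ a b : V, a ∈ U → b ∈ U → sympForm m F a b ≠ 0 → ∃ h ∈ M, Matrix.mulVec (h : Matrix _ _ F) a = b ∧ ∀ x, (∀ u ∈ U, sympForm m F x u = 0) → Matrix.mulVec (h : Matrix _ _ F) x = x := by
    intro a b ha hb hab
    refine ⟨st (b - a) (sympForm m F a b)⁻¹, hU _ (U.sub_mem hb ha) _, ?_, ?_⟩
    · rw [st_apply, f_sub_right, f_self, sub_zero, inv_mul_cancel₀ hab, one_smul, add_sub_cancel]
    · intro x hx
      rw [st_apply, hx _ (U.sub_mem hb ha), mul_zero, zero_smul, add_zero]
  by_cases hab : sympForm m F a b = 0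
  · obtain ⟨e, he, hae, hbe⟩ : ∃ e ∈ U, sympForm m F a e ≠ 0 ∧ sympForm m F e b ≠ 0 := by
      obtain ⟨e1, he1, h1⟩ := hnd a ha ha0
      obtain ⟨e2, he2, h2⟩ := hnd b hb hb0
      have h2' : sympForm m F e2 b ≠ 0 := by rw [f_swap]; exact neg_ne_zero.2 h2
      by_cases h3 : sympForm m F e1 b = 0
      · by_cases h4 : sympForm m F a e2 = 0
        · refine ⟨e1 + e2, U.add_mem he1 he2, ?_, ?_⟩
          · rw [f_add_right, h4, add_zero]; exact h1
          · rw [f_add_left, h3, zero_add]; exact h2'
        · exact ⟨e2, he2, h4, h2'⟩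
      · exact ⟨e1, he1, h1, h3⟩
    obtain ⟨h, hh, hh1, hh2⟩ := one a e ha he hae
    obtain ⟨k, hk, hk1, hk2⟩ := one e b he hb hbe
    refine ⟨k * h, mul_mem hk hh, ?_, ?_⟩
    · rw [mulVec_mul, hh1, hk1]
    · intro x hx
      rw [mulVec_mul, hh2 x hx, hk2 x hx]
  · exact one a b ha hb hab

theorem nondeg_maximal (W : Submodule F V) (hW0 : W ≠ ⊥) (hW : IsNondegenerateOn (sympForm m F) W)
    (hdim : finrank F W < m) : IsMaximalIn (spGL m F) (subspaceStabilizer W ⊓ spGL m F) := by
  classical
  obtain ⟨w0, hw0, hw0'⟩ := (Submodule.ne_bot_iff W).1 hW0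
  have hfr := finrank_perp W
  have hP0 : perp W ≠ ⊥ := by
    intro h
    rw [h, finrank_bot] at hfr
    omega
  obtain ⟨p0, hp0, hp0'⟩ := (Submodule.ne_bot_iff (perp W)).1 hP0
  have hinf : ∀ x, x ∈ W → x ∈ perp W → x = 0 := by
    intro x hx hx'
    by_contra hne
    obtain ⟨⟨y, hy, hyx⟩, -⟩ := hW x hx hne
    exact hyx (hx' y hy)
  have hsup : ∀ x : V, ∃ a ∈ W, ∃ b ∈ perp W, x = a + b := by
    intro x
    have h1 : W ⊔ perp W = ⊤ := by
      apply Submodule.eq_top_of_finrank_eq
      have h2 := Submodule.finrank_sup_add_finrank_inf_eq W (perp W)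
      have h3 : W ⊓ perp W = ⊥ := by
        rw [eq_bot_iff]
        intro y hy
        rw [Submodule.mem_bot]
        exact hinf y hy.1 hy.2
      rw [h3, finrank_bot] at h2
      rw [Module.finrank_fintype_fun_eq_card, Fintype.card_sum, Fintype.card_fin]
      omega
    have h2 : x ∈ W ⊔ perp W := by rw [h1]; exact Submodule.mem_top
    obtain ⟨a, ha, b, hb, hab⟩ := Submodule.mem_sup.1 h2
    exact ⟨a, ha, b, hb, hab.symm⟩
  have hlt : subspaceStabilizer W ⊓ spGL m F < spGL m F := by
    refine lt_of_le_of_ne inf_le_right ?_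
    intro heq
    obtain ⟨⟨x, hx, hxw⟩, -⟩ := hW w0 hw0 hw0'
    have h1 := st_mem (m := m) (w0 + p0) (1 : F)
    rw [← heq] at h1
    have h2 := mem_stab_iff.1 h1.1 x hx
    rw [st_apply, one_mul, f_add_right, hp0 x hx, add_zero] at h2
    have h3 := (Submodule.add_mem_iff_right W hx).1 h2
    have h4 := W.smul_mem (sympForm m F x w0)⁻¹ h3
    rw [smul_smul, inv_mul_cancel₀ hxw, one_smul] at h4
    exact hp0' (hinf p0 ((Submodule.add_mem_iff_right W hw0).1 h4) hp0)
  refine ⟨hlt, fun M hM1 hM2 => ?_⟩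
  by_cases hM : M ≤ subspaceStabilizer W
  · left
    exact le_antisymm (le_inf hM hM2) hM1
  right
  apply le_antisymm hM2
  apply sp_le
  have hXW : ∀ v ∈ W, v ∈ X M := by
    intro v hv c
    apply hM1
    refine ⟨mem_stab_iff.2 (fun x hx => ?_), st_mem v c⟩
    rw [st_apply]
    exact W.add_mem hx (W.smul_mem _ hv)
  have hXP : ∀ v ∈ perp W, v ∈ X M := by
    intro v hv c
    apply hM1
    refine ⟨mem_stab_iff.2 (fun x hx => ?_), st_mem v c⟩
    rw [st_apply, hv x hx, mul_zero, zero_smul, add_zero]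
    exact hx
  -- a centre outside W ∪ W^⊥
  have hex : ∃ v ∈ X M, v ∉ W ∧ v ∉ perp W := by
    by_contra hno
    push Not at hno
    obtain ⟨g, hgM, hgW⟩ := Set.not_subset.1 hM
    have hXall : ∀ v ∈ X M, v ∈ W ∨ v ∈ perp W := by
      intro v hv
      by_cases h : v ∈ W
      · exact Or.inl h
      · exact Or.inr (hno v hv h)
    -- images of subspaces contained in X
    have himg : ∀ U : Submodule F V, (∀ u ∈ U, u ∈ X M) → (∀ u ∈ U, Matrix.mulVec (g : Matrix _ _ F) u ∈ W) ∨ (∀ u ∈ U, Matrix.mulVec (g : Matrix _ _ F) u ∈ perp W) := by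
      intro U hU
      by_contra hcon
      push Not at hcon
      obtain ⟨⟨u, hu, hu'⟩, ⟨v, hv, hv'⟩⟩ := hcon
      have h1 := (hXall _ (X_inv hM2 hgM (hU u hu))).resolve_left hu'
      have h2 := (hXall _ (X_inv hM2 hgM (hU v hv))).resolve_right hv'
      have h3 := hXall _ (X_inv hM2 hgM (hU (u + v) (U.add_mem hu hv)))
      rw [mulVec_add'] at h3
      rcases h3 with h3 | h3
      · exact hu' ((Submodule.add_mem_iff_left W h2).1 h3)
      · exact hv' ((Submodule.add_mem_iff_right (perp W) h1).1 h3)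
    have hgW' : ∀ u ∈ W, Matrix.mulVec (g : Matrix _ _ F) u ∈ perp W := by
      rcases himg W hXW with h | h
      · exact absurd (mem_stab_iff.2 h) hgW
      · exact h
    have hinj : Function.Injective (Matrix.toLin' (g : Matrix (Fin m ⊕ Fin m) (Fin m ⊕ Fin m) F)) := fun a b h => mulVec_injective g h
    rcases himg (perp W) hXP with h | h
    · have h1 : (perp W).map (Matrix.toLin' (g : Matrix (Fin m ⊕ Fin m) (Fin m ⊕ Fin m) F)) ≤ W := by
        rintro _ ⟨u, hu, rfl⟩
        exact h u hu
      have h2 := Submodule.finrank_mono h1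
      rw [← (Submodule.equivMapOfInjective _ hinj (perp W)).finrank_eq] at h2
      omega
    · have h1 : (perp W).map (Matrix.toLin' (g : Matrix (Fin m ⊕ Fin m) (Fin m ⊕ Fin m) F)) = perp W := by
        apply Submodule.eq_of_le_of_finrank_eq
        · rintro _ ⟨u, hu, rfl⟩
          exact h u hu
        · exact (Submodule.equivMapOfInjective _ hinj (perp W)).finrank_eq.symm
      have h2 := hgW' w0 hw0
      rw [← h1] at h2
      obtain ⟨u, hu, huw⟩ := h2
      have h3 : u = w0 := mulVec_injective g huw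
      rw [h3] at hu
      exact hw0' (hinf w0 hw0 hu)
  obtain ⟨v, hvX, hvW, hvP⟩ := hex
  obtain ⟨a, ha, b, hb, rfl⟩ := hsup v
  have ha0 : a ≠ 0 := by
    rintro rfl
    rw [zero_add] at hvP
    exact hvP hb
  have hb0 : b ≠ 0 := by
    rintro rfl
    rw [add_zero] at hvW
    exact hvW ha
  have hall : ∀ x : V, x ∈ X M := by
    intro x
    obtain ⟨c, hc, d, hd, rfl⟩ := hsup x
    by_cases hc0 : c = 0
    · rw [hc0, zero_add]; exact hXP d hd
    by_cases hd0 : d = 0
    · rw [hd0, add_zero]; exact hXW c hc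
    obtain ⟨h, hh, hh1, hh2⟩ := move_in hXW (fun u hu hu0 => (hW u hu hu0).2) ha hc ha0 hc0
    obtain ⟨k, hk, hk1, hk2⟩ := move_in (U := perp W) hXP (fun u hu hu0 => by
      by_contra hcon
      push Not at hcon
      apply hu0
      apply hinf u _ hu
      rw [← perp_perp W]
      intro y hy
      rw [f_swap, hcon y hy, neg_zero]) hb hd hb0 hd0
    have h1 := X_inv hM2 hk (X_inv hM2 hh hvX)
    rw [mulVec_add', hh1, hh2 b (fun u hu => by rw [f_swap, hb u hu, neg_zero]), mulVec_add', hk1, hk2 c (fun u hu => hu c hc)] at h1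
    exact h1
  intro v c
  exact hall v c

theorem isotropic_maximal (W : Submodule F V) (hW0 : W ≠ ⊥) (hW : IsTotallySingularFor (sympForm m F) W) :
    IsMaximalIn (spGL m F) (subspaceStabilizer W ⊓ spGL m F) := by
  classical
  obtain ⟨w0, hw0, hw0'⟩ := (Submodule.ne_bot_iff W).1 hW0
  have hWP : ∀ x ∈ W, x ∈ perp W := fun x hx w hw => hW w hw x hx
  have hPne : ∃ v, v ∉ perp W := by
    by_contra hcon
    push Not at hcon
    apply hw0'
    have h1 : w0 ∈ perp (⊤ : Submodule F V) := by
      intro y _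
      rw [f_swap, hcon y w0 hw0, neg_zero]
    have h2 := finrank_perp (⊤ : Submodule F V)
    rw [finrank_top, Module.finrank_fintype_fun_eq_card, Fintype.card_sum, Fintype.card_fin] at h2
    have h3 : perp (⊤ : Submodule F V) = ⊥ := by
      rw [← Submodule.finrank_eq_zero]
      omega
    rw [h3, Submodule.mem_bot] at h1
    exact h1
  have hlt : subspaceStabilizer W ⊓ spGL m F < spGL m F := by
    refine lt_of_le_of_ne inf_le_right ?_
    intro heq
    have hex : ∃ y, sympForm m F w0 y ≠ 0 := by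
      by_contra hcon
      push Not at hcon
      have h1 : w0 ∈ perp (⊤ : Submodule F V) := by
        intro y _
        rw [f_swap, hcon y, neg_zero]
      have h2 := finrank_perp (⊤ : Submodule F V)
      rw [finrank_top, Module.finrank_fintype_fun_eq_card, Fintype.card_sum, Fintype.card_fin] at h2
      have h3 : perp (⊤ : Submodule F V) = ⊥ := by
        rw [← Submodule.finrank_eq_zero]
        omega
      rw [h3, Submodule.mem_bot] at h1
      exact hw0' h1
    obtain ⟨y, hy⟩ := hex
    have h1 := st_mem (m := m) y (1 : F)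
    rw [← heq] at h1
    have h2 := mem_stab_iff.1 h1.1 w0 hw0
    rw [st_apply, one_mul] at h2
    have h3 := (Submodule.add_mem_iff_right W hw0).1 h2
    have h4 := W.smul_mem (sympForm m F w0 y)⁻¹ h3
    rw [smul_smul, inv_mul_cancel₀ hy, one_smul] at h4
    exact hy (hW w0 hw0 y h4)
  refine ⟨hlt, fun M hM1 hM2 => ?_⟩
  by_cases hM : M ≤ subspaceStabilizer W
  · left
    exact le_antisymm (le_inf hM hM2) hM1
  right
  apply le_antisymm hM2
  apply sp_le
  have hXP : ∀ v ∈ perp W, v ∈ X M := by
    intro v hv c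
    apply hM1
    refine ⟨mem_stab_iff.2 (fun x hx => ?_), st_mem v c⟩
    rw [st_apply, hv x hx, mul_zero, zero_smul, add_zero]
    exact hx
  have hex : ∃ v ∈ X M, v ∉ perp W := by
    by_contra hno
    push Not at hno
    apply hM
    intro g hg
    rw [mem_stab_iff]
    intro x hx
    rw [← perp_perp W]
    intro y hy
    have h1 : Matrix.mulVec ((g⁻¹ : GG) : Matrix _ _ F) y ∈ perp W := hno _ (X_inv hM2 (inv_mem hg) (hXP y hy))
    have h2 := mem_spGL.1 (hM2 hg) (Matrix.mulVec ((g⁻¹ : GG) : Matrix _ _ F) y) x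
    rw [mulVec_inv] at h2
    rw [h2, f_swap, h1 x hx, neg_zero]
  -- Siegel elements
  have hsieg : ∀ u w : V, w ∈ W → sympForm m F u w = 0 → ∃ h ∈ M, ∀ x, Matrix.mulVec (h : Matrix _ _ F) x = x + sympForm m F x u • w + sympForm m F x w • u := by
    intro u w hw huw
    have hwu : sympForm m F w u = 0 := by rw [f_swap, huw, neg_zero]
    have hform : ∀ x, Matrix.mulVec ((st (u + w) 1 * st u (-1) * st w (-1) : GG) : Matrix _ _ F) x = x + sympForm m F x u • w + sympForm m F x w • u := by
      intro x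
      rw [mulVec_mul, mulVec_mul, st_apply w, st_apply u, st_apply (u + w)]
      simp only [f_add_left, f_add_right, f_smul_left, f_neg_left, f_self, huw, hwu, mul_zero, add_zero, zero_add, one_mul, neg_mul, neg_smul, smul_add, add_smul, neg_zero]
      abel
    refine ⟨st (u + w) 1 * st u (-1) * st w (-1), ?_, hform⟩
    apply hM1
    refine ⟨mem_stab_iff.2 (fun x hx => ?_), mul_mem (mul_mem (st_mem _ _) (st_mem _ _)) (st_mem _ _)⟩
    rw [hform, hW x hx w hw, zero_smul, add_zero]
    exact W.add_mem hx (W.smul_mem _ hw)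
  obtain ⟨y, hyX, hyP⟩ := hex
  have hall : ∀ y' : V, y' ∈ X M := by
    intro y'
    by_cases hy'P : y' ∈ perp W
    · exact hXP y' hy'P
    -- step A
    have hA : ∃ z ∈ perp W, y' + z ∈ X M := by
      by_cases hdep : ∃ c : F, y' - c • y ∈ perp W
      · obtain ⟨c, hc⟩ := hdep
        refine ⟨- (y' - c • y), (perp W).neg_mem hc, ?_⟩
        have : y' + -(y' - c • y) = c • y := by abel
        rw [this]
        exact X_smul c hyX
      · push Not at hdep
        -- w with f(w,y) = f(w,y') = 1
        have hw1 : ∃ w1 ∈ W, sympForm m F y w1 = 1 := by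
          rw [mem_perp] at hyP
          push Not at hyP
          obtain ⟨w, hw, hwy⟩ := hyP
          have hyw : sympForm m F y w ≠ 0 := by rw [f_swap]; exact neg_ne_zero.2 hwy
          exact ⟨(sympForm m F y w)⁻¹ • w, W.smul_mem _ hw, by rw [f_smul_right, inv_mul_cancel₀ hyw]⟩
        obtain ⟨w1, hw1, hw1y⟩ := hw1
        have h2 := hdep (sympForm m F y' w1)
        rw [mem_perp] at h2
        push Not at h2
        obtain ⟨w2, hw2, hw2y⟩ := h2
        have hw2y' : sympForm m F y' w2 - sympForm m F y' w1 * sympForm m F y w2 ≠ 0 := by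
          rw [f_swap, f_sub_left, f_smul_left] at hw2y
          exact neg_ne_zero.1 hw2y
        set w3 := w2 - sympForm m F y w2 • w1 with hw3
        have e1 : sympForm m F y w3 = 0 := by rw [hw3, f_sub_right, f_smul_right, hw1y, mul_one, sub_self]
        have e2 : sympForm m F y' w3 ≠ 0 := by
          rw [hw3, f_sub_right, f_smul_right]
          rwa [mul_comm (sympForm m F y w2)]
        have hw3W : w3 ∈ W := W.sub_mem hw2 (W.smul_mem _ hw1)
        set w := w1 + ((1 - sympForm m F y' w1) / sympForm m F y' w3) • w3 with hw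
        have hwW : w ∈ W := W.add_mem hw1 (W.smul_mem _ hw3W)
        have e3 : sympForm m F y w = 1 := by rw [hw, f_add_right, f_smul_right, e1, mul_zero, add_zero, hw1y]
        have e4 : sympForm m F y' w = 1 := by
          rw [hw, f_add_right, f_smul_right, div_mul_cancel₀ _ e2]
          ring
        obtain ⟨h, hh, hhx⟩ := hsieg (y' - y) w hwW (by rw [f_sub_left, e3, e4, sub_self])
        refine ⟨sympForm m F y (y' - y) • w, (perp W).smul_mem _ (hWP w hwW), ?_⟩
        have h5 := X_inv hM2 hh hyX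
        rw [hhx, e3, one_smul] at h5
        have : y + sympForm m F y (y' - y) • w + (y' - y) = y' + sympForm m F y (y' - y) • w := by abel
        rwa [this] at h5
    obtain ⟨z, hz, hzX⟩ := hA
    -- step B
    have hB1 : ∀ z ∈ perp W, sympForm m F y' z ≠ 0 → y' + z ∈ X M → y' ∈ X M := by
      intro z hz hyz hzX
      have h1 := X_inv hM2 (hXP z hz (-(sympForm m F y' z)⁻¹)) hzX
      rw [st_apply, f_add_left, f_self, add_zero, neg_mul, inv_mul_cancel₀ hyz, neg_smul, one_smul, add_neg_cancel_right] at h1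
      exact h1
    by_cases hyz : sympForm m F y' z = 0
    · obtain ⟨z1, hz1, hyz1⟩ : ∃ z1 ∈ W, sympForm m F y' z1 ≠ 0 := by
        rw [mem_perp] at hy'P
        push Not at hy'P
        obtain ⟨w, hw, hwy⟩ := hy'P
        exact ⟨w, hw, by rw [f_swap]; exact neg_ne_zero.2 hwy⟩
      apply hB1 (z - z1) ((perp W).sub_mem hz (hWP z1 hz1))
      · rw [f_sub_right, hyz, zero_sub]
        exact neg_ne_zero.2 hyz1
      · have h1 := X_inv hM2 (hXP z1 (hWP z1 hz1) (-(sympForm m F y' z1)⁻¹)) hzX
        have hzz1 : sympForm m F z z1 = 0 := by rw [f_swap, hz z1 hz1, neg_zero]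
        rw [st_apply, f_add_left, hzz1, add_zero, neg_mul, inv_mul_cancel₀ hyz1, neg_smul, one_smul] at h1
        have : y' + z + -z1 = y' + (z - z1) := by abel
        rwa [this] at h1
    · exact hB1 z hz hyz hzX
  intro v c
  exact hall v c

end CfsgLib.GeoSp
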