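import Cfsg.Agent.Lib.Cts2
import Cfsg.Agent.Lib.GeoSp
import Cfsg.Agent.Lib.Herm5
import Cfsg.Agent.Lib.Quad2
import Cfsg.Agent.Lib.Asu5

set_option autoImplicit false
set_option maxHeartbeats 400000
set_option linter.unusedSectionVars false

/-! Stabilisers of decompositions into two totally isotropic subspaces: symplectic and unitary groups. -/
namespace CfsgLib.Cts3

open Cfsg Cfsg.Geo Module CfsgLib.GeoBase CfsgLib.Asch1 CfsgLib.Herm CfsgLib.Asu1 CfsgLib.Cts1 CfsgLib.Cts2

universe u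

section
open CfsgLib.Symp CfsgLib.GeoSp
variable {F : Type u} [Field F] {m : ℕ}

theorem sp_eform : EForm (σ := RingHom.id F) (-1) (sympB m F) := by
  refine ⟨fun x y => ?_, fun x hx => ?_, by ring, rfl, fun _ => rfl⟩
  · rw [RingHom.id_apply]
    change sympB m F x y = -1 * sympB m F y x
    rw [sympB_apply, sympB_apply, f_swap, neg_one_mul]
  · exact sympB_nondegenerate.1 x hx

theorem sp_eq : spGL m F = UB (σ := RingHom.id F) (sympB m F) := by
  ext g
  constructor
  · intro hg x y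
    change sympB m F _ _ = sympB m F _ _
    rw [sympB_apply, sympB_apply]
    exact hg x y
  · intro hg x y
    rw [← sympB_apply, ← sympB_apply]
    exact hg x y

theorem sp_ts [Finite F] (h2 : (2 : F) ≠ 0) {k : ℕ} (hk : 5 ≤ k) {D : Fin 2 → Submodule F (Fin m ⊕ Fin m → F)} (hD : IsMDecomposition k D)
    (hts : ∀ i, IsTotallySingularFor (sympForm m F) (D i)) : IsMaximalIn (spGL m F) (decompositionStabilizer D ⊓ spGL m F) := by
  refine ts_maximal sp_eform (fun c _ => ⟨c / 2, ?_⟩) ⟨1, one_ne_zero, ?_⟩ (le_of_eq sp_eq) (by rw [sp_eq]; exact inf_le_left) ?_ hk hD ?_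
  · rw [RingHom.id_apply]
    field_simp
    ring
  · rw [RingHom.id_apply]
    ring
  · intro M hM
    apply sp_le
    intro v c
    obtain ⟨g, hg, hgx⟩ := hM v (by
      change sympB m F v v = 0
      exact sympB_isAlt v) (-c) (by rw [RingHom.id_apply]; ring)
    have : g = st v c := by
      apply ext_mulVec
      intro x
      rw [hgx, st_apply]
      congr 2
      change -c * sympB m F v x = _
      rw [sympB_apply, f_swap]
      ring
    rw [← this]
    exact hg
  · intro i x hx y hy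
    change sympB m F x y = 0
    rw [sympB_apply]
    exact hts i x hx y hy

end

section
variable {ι : Type} [Fintype ι] [DecidableEq ι] {F : Type u} [Field F] {σ : F →+* F} {q : ℕ} {B : (ι → F) →ₛₗ[σ] (ι → F) →ₗ[F] F} (hq : QConj σ q) (h : HForm B)

include hq h

theorem su_eform : EForm 1 B := ⟨fun x y => by rw [h.symm, one_mul], h.nd, by ring, map_one σ, hq.invol⟩

theorem su_le (h4 : 4 ≤ Fintype.card ι) {M : Subgroup (Matrix.GeneralLinearGroup ι F)} (hM : ∀ v, B v v = 0 → TT 1 B M v) : GB B ≤ M := by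
  haveI := hq.finite
  intro g hg
  have he : CfsgLib.Quad.glEquiv ι F g ∈ SUL B := by
    refine mem_SUL.2 ⟨fun x y => ?_, ?_⟩
    · change B (CfsgLib.Quad.glEquiv ι F g x) (CfsgLib.Quad.glEquiv ι F g y) = B x y
      rw [CfsgLib.Quad.glEquiv_apply, CfsgLib.Quad.glEquiv_apply]
      exact hg.1 x y
    · have h1 : ((CfsgLib.Quad.glEquiv ι F g : (ι → F) ≃ₗ[F] (ι → F)) : (ι → F) →ₗ[F] (ι → F)) = Matrix.toLin' (g : Matrix ι ι F) := by
        apply LinearMap.ext
        intro x
        rw [toLin_apply]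
        exact CfsgLib.Quad.glEquiv_apply g x
      rw [h1, LinearMap.det_toLin']
      exact mem_sl.1 hg.2
  rw [← TG_eq hq h (Or.inr (Or.inr (by rw [finrank_fintype_fun_eq_card]; exact h4)))] at he
  have key : ∃ k ∈ M, ∀ x, Matrix.mulVec (k : Matrix ι ι F) x = CfsgLib.Quad.glEquiv ι F g x := by
    refine Subgroup.closure_induction (p := fun e _ => ∃ k ∈ M, ∀ x, Matrix.mulVec (k : Matrix ι ι F) x = e x) ?_ ?_ ?_ ?_ he
    · rintro e ⟨u, c, hu, hc, hx⟩
      obtain ⟨k, hk, hkx⟩ := hM u hu c (by rw [one_mul]; exact hc)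
      exact ⟨k, hk, fun x => by rw [hkx, hx]⟩
    · exact ⟨1, M.one_mem, fun x => by rw [mulVec_one]; rfl⟩
    · rintro e f _ _ ⟨k, hk, hkx⟩ ⟨l, hl, hlx⟩
      exact ⟨k * l, M.mul_mem hk hl, fun x => by rw [mulVec_mul, hlx, hkx]; rfl⟩
    · rintro e _ ⟨k, hk, hkx⟩
      refine ⟨k⁻¹, M.inv_mem hk, fun x => ?_⟩
      apply mulVec_injective k
      rw [mulVec_inv, hkx]
      exact (LinearEquiv.apply_symm_apply e x).symm
  obtain ⟨k, hk, hkx⟩ := key
  have : k = g := by
    apply ext_mulVec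
    intro x
    rw [hkx]
    exact CfsgLib.Quad.glEquiv_apply g x
  rw [← this]
  exact hk

theorem su_ts {k : ℕ} (hk : 5 ≤ k) (h4 : 4 ≤ Fintype.card ι) {D : Fin 2 → Submodule F (ι → F)} (hD : IsMDecomposition k D)
    (hts : ∀ i, IsTotallySingularFor (fB B) (D i)) : IsMaximalIn (GB B) (decompositionStabilizer D ⊓ GB B) := by
  haveI := hq.finite
  refine ts_maximal (su_eform hq h) (fun c hc => ?_) ?_ inf_le_left le_rfl (fun M hM => su_le hq h h4 hM) hk hD (fun i x hx y hy => hts i y hy x hx)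
  · obtain ⟨t, ht⟩ := hq.exists_trace (map_one σ)
    refine ⟨-(c * t), ?_⟩
    rw [one_mul] at hc ⊢
    rw [map_neg, map_mul]
    linear_combination (-c) * ht + (σ t) * hc
  · obtain ⟨β, h0, h1⟩ := hq.exists_trace_ne_zero (map_zero σ)
    exact ⟨β, h0, by rw [one_mul]; exact h1⟩

end

end CfsgLib.Cts3
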