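import Cfsg.Agent.Lib.Cuo1
import Cfsg.Agent.Lib.GeoBase

set_option autoImplicit false
set_option maxHeartbeats 400000
set_option linter.unusedSectionVars false

/-! Orthogonal similarity groups in the special linear group: preparations. -/
namespace CfsgLib.Cug1

open Cfsg Cfsg.Geo Module CfsgLib.GeoBase CfsgLib.Cuo1

universe u

section
variable {K : Type u} [Field K] {V : Type u} [AddCommGroup V] [Module K V] [FiniteDimensional K V] {b : LinearMap.BilinForm K V}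

theorem exists_ne [Finite K] (h2 : (2 : K) ≠ 0) (hs : ∀ x y, b x y = b y x) (hnd : b.Nondegenerate) (h3 : 3 ≤ finrank K V) {v : V} (hv : v ≠ 0) : ∃ u, b u u = 0 ∧ b u v ≠ 0 := by
  by_contra hno
  push Not at hno
  obtain ⟨a, -, ha0, haa⟩ := exists_iso h2 hs (U := ⊤) (by rw [finrank_top]; exact h3)
  obtain ⟨f, hff, haf⟩ := exists_part h2 hs hnd ha0 haa
  have hfa : b f a = 1 := by rw [hs]; exact haf
  have key : ∀ y, b a y = 0 → b y v = 0 := by
    intro y hy
    have hya : b y a = 0 := by rw [hs]; exact hy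
    have hyf : b y f = b f y := hs _ _
    have h1 := hno (f + y + (-(b y y) / 2 - b f y) • a) (by
      simp only [map_add, LinearMap.add_apply, map_smul, LinearMap.smul_apply, smul_eq_mul, hff, haa, haf, hfa, hya, hy, hyf]
      field_simp
      ring)
    simp only [map_add, LinearMap.add_apply, map_smul, LinearMap.smul_apply, smul_eq_mul, hno f hff, hno a haa] at h1
    simpa using h1
  apply hv
  apply hnd.1
  intro y
  have h1 := key (y - (b a y) • f) (by rw [map_sub, map_smul, haf, smul_eq_mul, mul_one, sub_self])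
  rw [map_sub, map_smul, LinearMap.sub_apply, LinearMap.smul_apply, hno f hff, smul_zero, sub_zero] at h1
  rw [hs]
  exact h1

/-- forms with the same isotropic eigenvectors -/
theorem prop_of_eig [Finite K] (h2 : (2 : K) ≠ 0) {b' : LinearMap.BilinForm K V} (hs : ∀ x y, b x y = b y x) (hs' : ∀ x y, b' x y = b' y x) (hnd' : b'.Nondegenerate) (h13 : 13 ≤ finrank K V)
    (hall : ∀ w, b' w w = 0 → ∃ l : K, ∀ v, b' w v = l * b w v) : ∃ l : K, ∀ x y, b' x y = l * b x y := by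
  obtain ⟨a, -, ha0, haa⟩ := exists_iso h2 hs' (U := ⊤) (by rw [finrank_top]; omega)
  obtain ⟨l, hl⟩ := hall a haa
  have hnb : ∀ (w u : V) (m : K), b' w w = 0 → b' u u = 0 → b' w u ≠ 0 → (∀ v, b' w v = m * b w v) → ∀ v, b' u v = m * b u v := by
    intro w u m hw hu hwu hm
    obtain ⟨m', hm'⟩ := hall u hu
    have h1 := hm u
    have h3 := hm' w
    rw [hs' u w, hs u w, h1] at h3
    have h4 : b w u ≠ 0 := by
      intro h0
      rw [h1, h0, mul_zero] at hwu
      exact hwu rfl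
    have h5 : m = m' := mul_right_cancel₀ h4 h3
    rw [h5]
    exact hm'
  have hiso : ∀ w, b' w w = 0 → ∀ v, b' w v = l * b w v := by
    intro w hw
    by_cases hw0 : w = 0
    · intro v
      rw [hw0]
      simp
    obtain ⟨u, hu, hua, huw⟩ := exists_common h2 hs' hnd' h13 ha0 haa hw0 hw
    have h1 := hnb a u l haa hu (by rw [hs']; exact hua) hl
    exact hnb u w l hu hw huw h1
  refine ⟨l, fun x y => ?_⟩
  -- the functional b' x - l b x vanishes on the isotropic vectors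
  let s := (b'.toDual hnd').symm (b' x - l • b x)
  have hsv : ∀ v, b' s v = b' x v - l * b x v := fun v => by
    simp only [s]
    rw [LinearMap.BilinForm.apply_toDual_symm_apply]
    rfl
  have hs0 : s = 0 := by
    by_contra hne
    obtain ⟨u, hu, hus⟩ := exists_ne h2 hs' hnd' (by omega) hne
    apply hus
    rw [hs' u s, hsv, hs' x u, hiso u hu x, hs u x, sub_self]
  have h1 := hsv y
  rw [hs0, map_zero, LinearMap.zero_apply] at h1
  exact (sub_eq_zero.1 h1.symm)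

end

variable {ι : Type} [Fintype ι] [DecidableEq ι] {F : Type u} [Field F] {b : LinearMap.BilinForm F (ι → F)} {M : Subgroup (Matrix.GeneralLinearGroup ι F)}

/-- transvections in M -/
def TL (M : Subgroup (Matrix.GeneralLinearGroup ι F)) (f : (ι → F) →ₗ[F] F) (v : ι → F) : Prop :=
  ∃ k ∈ M, ∀ x, Matrix.mulVec (k : Matrix ι ι F) x = x + f x • v

/-- Siegel type elements in M -/
def EE (b : LinearMap.BilinForm F (ι → F)) (M : Subgroup (Matrix.GeneralLinearGroup ι F)) (a u : ι → F) (φ : (ι → F) →ₗ[F] F) (c : F) : Prop :=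
  ∃ k ∈ M, ∀ v, Matrix.mulVec (k : Matrix ι ι F) v = v + b a v • u - (φ v + c * b a v) • a

/-- all Siegel transformations for b in M -/
def SF (b : LinearMap.BilinForm F (ι → F)) (M : Subgroup (Matrix.GeneralLinearGroup ι F)) : Prop :=
  ∀ a y, b a a = 0 → b a y = 0 → EE b M a y (b y) (b y y / 2)

theorem EE.mul {a u u' : ι → F} {φ φ' : (ι → F) →ₗ[F] F} {c c' : F} (h1 : EE b M a u φ c) (h2 : EE b M a u' φ' c') (haa : b a a = 0) (hu' : b a u' = 0) (hφ : φ a = 0) :
    EE b M a (u + u') (φ + φ') (c + c' + φ u') := by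
  obtain ⟨k, hk, hkx⟩ := h1
  obtain ⟨l, hl, hlx⟩ := h2
  refine ⟨k * l, M.mul_mem hk hl, fun v => ?_⟩
  rw [mulVec_mul, hlx, hkx]
  simp only [map_add, map_sub, map_smul, smul_eq_mul, haa, hu', hφ, LinearMap.add_apply]
  module

theorem EE.diff {a u : ι → F} {φ : (ι → F) →ₗ[F] F} {c c' : F} (h1 : EE b M a u φ c) (h2 : EE b M a u φ c') (haa : b a a = 0) (hu : b a u = 0) (hφ : φ a = 0) :
    TL M ((c' - c) • b a) a := by
  obtain ⟨k, hk, hkx⟩ := h1
  obtain ⟨l, hl, hlx⟩ := h2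
  refine ⟨k * l⁻¹, M.mul_mem hk (M.inv_mem hl), fun v => ?_⟩
  obtain ⟨w, hw⟩ : ∃ w, Matrix.mulVec ((l⁻¹ : Matrix.GeneralLinearGroup ι F) : Matrix ι ι F) v = w := ⟨_, rfl⟩
  have hv : v = Matrix.mulVec (l : Matrix ι ι F) w := by rw [← hw, mulVec_inv]
  rw [mulVec_mul, hw, hv, hlx, hkx]
  simp only [map_add, map_sub, map_smul, smul_eq_mul, haa, hu, LinearMap.smul_apply]
  module

theorem EE.adj {a u : ι → F} {φ : (ι → F) →ₗ[F] F} {c d : F} (h1 : EE b M a u φ c) (h2 : TL M (d • b a) a) (haa : b a a = 0) (hφ : φ a = 0) :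
    EE b M a u φ (c - d) := by
  obtain ⟨k, hk, hkx⟩ := h1
  obtain ⟨l, hl, hlx⟩ := h2
  refine ⟨k * l, M.mul_mem hk hl, fun v => ?_⟩
  rw [mulVec_mul, hlx, hkx]
  simp only [map_add, map_smul, smul_eq_mul, haa, hφ, LinearMap.smul_apply]
  module

theorem TL.conj {f : (ι → F) →ₗ[F] F} {v : ι → F} (h1 : TL M f v) {g : Matrix.GeneralLinearGroup ι F} (hg : g ∈ M) :
    TL M (f ∘ₗ Matrix.toLin' ((g⁻¹ : Matrix.GeneralLinearGroup ι F) : Matrix ι ι F)) (Matrix.mulVec (g : Matrix ι ι F) v) := by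
  obtain ⟨k, hk, hkx⟩ := h1
  refine ⟨g * k * g⁻¹, M.mul_mem (M.mul_mem hg hk) (M.inv_mem hg), fun x => ?_⟩
  rw [mulVec_mul, mulVec_mul, hkx, mulVec_add', mulVec_smul', mulVec_inv]
  rfl

theorem TL.add {f : (ι → F) →ₗ[F] F} {v v' : ι → F} (h1 : TL M f v) (h2 : TL M f v') (hv' : f v' = 0) : TL M f (v + v') := by
  obtain ⟨k, hk, hkx⟩ := h1
  obtain ⟨l, hl, hlx⟩ := h2
  refine ⟨k * l, M.mul_mem hk hl, fun x => ?_⟩
  rw [mulVec_mul, hlx, hkx]
  simp only [map_add, map_smul, smul_eq_mul, hv']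
  module

theorem sl_le [Nontrivial ι] (hM : ∀ (f : (ι → F) →ₗ[F] F) (v : ι → F), f v = 0 → TL M f v) : specialLinear ι F ≤ M := by
  apply sl_le_of_tv
  intro f v h
  obtain ⟨k, hk, hkx⟩ := hM f v h
  have : tv f v h = k := by
    apply ext_mulVec
    intro x
    rw [tv_apply, hkx]
  rw [this]
  exact hk

/-- conjugates of the Siegel transformations -/
theorem SF.conj (hS : SF b M) {g : Matrix.GeneralLinearGroup ι F} (hg : g ∈ M) {b' : LinearMap.BilinForm F (ι → F)}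
    (hb' : ∀ x y, b' (Matrix.mulVec (g : Matrix ι ι F) x) (Matrix.mulVec (g : Matrix ι ι F) y) = b x y) : SF b' M := by
  intro a y haa hay
  obtain ⟨a₀, ha₀⟩ : ∃ a₀, a = Matrix.mulVec (g : Matrix ι ι F) a₀ := ⟨_, (mulVec_inv g a).symm⟩
  obtain ⟨y₀, hy₀⟩ : ∃ y₀, y = Matrix.mulVec (g : Matrix ι ι F) y₀ := ⟨_, (mulVec_inv g y).symm⟩
  rw [ha₀, hb'] at haa
  rw [ha₀, hy₀, hb'] at hay
  obtain ⟨k, hk, hkx⟩ := hS a₀ y₀ haa hay
  refine ⟨g * k * g⁻¹, M.mul_mem (M.mul_mem hg hk) (M.inv_mem hg), fun v => ?_⟩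
  obtain ⟨v₀, hv₀⟩ : ∃ v₀, v = Matrix.mulVec (g : Matrix ι ι F) v₀ := ⟨_, (mulVec_inv g v).symm⟩
  rw [mulVec_mul, mulVec_mul, hv₀, inv_mulVec, hkx, ha₀, hy₀, hb', hb', hb']
  rw [sub_eq_add_neg, ← neg_smul, mulVec_add', mulVec_add', mulVec_smul', mulVec_smul', neg_smul, ← sub_eq_add_neg]

end CfsgLib.Cug1
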