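import Cfsg.Agent.Lib.Cug1

set_option autoImplicit false
set_option maxHeartbeats 400000
set_option linter.unusedSectionVars false

/-! Orthogonal similarity groups in the special linear group: the first transvection. -/
namespace CfsgLib.Cug2

open Cfsg Cfsg.Geo Module CfsgLib.GeoBase CfsgLib.Cuo1 CfsgLib.Cug1

universe u

variable {ι : Type} [Fintype ι] [DecidableEq ι] {F : Type u} [Field F] {b b' : LinearMap.BilinForm F (ι → F)} {M : Subgroup (Matrix.GeneralLinearGroup ι F)}

theorem first_tv [Finite F] (h2 : (2 : F) ≠ 0) (h13 : 13 ≤ Fintype.card ι) (hs : ∀ x y, b x y = b y x) (hnd : b.Nondegenerate) (hs' : ∀ x y, b' x y = b' y x) (hnd' : b'.Nondegenerate)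
    (hS : SF b M) (hS' : SF b' M) (hne : ¬ ∃ l : F, ∀ x y, b' x y = l * b x y) : ∃ a, a ≠ 0 ∧ b a a = 0 ∧ ∀ d : F, TL M (d • b a) a := by
  have hfin : finrank F (ι → F) = Fintype.card ι := finrank_fintype_fun_eq_card F
  -- the adjoint
  have hT : ∀ x, ∃ x', ∀ v, b x' v = b' x v := fun x => ⟨(b.toDual hnd).symm (b' x), fun v => LinearMap.BilinForm.apply_toDual_symm_apply _ _⟩
  choose T hT using hT
  -- the vector w
  obtain ⟨w, hww, hTw⟩ : ∃ w, b' w w = 0 ∧ T w ∉ Submodule.span F {w} := by
    by_contra hno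
    push Not at hno
    apply hne
    apply prop_of_eig h2 hs hs' hnd' (by rw [hfin]; exact h13)
    intro w hw
    obtain ⟨l, hl⟩ := Submodule.mem_span_singleton.1 (hno w hw)
    refine ⟨l, fun v => ?_⟩
    rw [← hT, ← hl, map_smul, LinearMap.smul_apply, smul_eq_mul]
  -- the vector y
  obtain ⟨y, hwy, hyn⟩ : ∃ y, b' w y = 0 ∧ y ∉ Submodule.span F {w, T w} := by
    by_contra hno
    push Not at hno
    have hle : LinearMap.ker (b' w) ≤ Submodule.span F {w, T w} := fun y hy => hno y hy
    have h1 := Submodule.finrank_mono hle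
    have h3 := LinearMap.finrank_range_add_finrank_ker (b' w)
    have h4 := Submodule.finrank_le (LinearMap.range (b' w))
    rw [finrank_self] at h4
    have h5 : finrank F (Submodule.span F {w, T w}) ≤ 2 := by
      classical
      have h6 := finrank_span_finset_le_card (R := F) ({w, T w} : Finset (ι → F))
      have h7 : (({w, T w} : Finset (ι → F)) : Set (ι → F)) = {w, T w} := by simp
      have h8 := Finset.card_le_two (a := w) (b := T w)
      unfold Set.finrank at h6
      rw [h7] at h6
      omega
    omega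
  -- the vector a
  obtain ⟨a, haX, haa, hax⟩ := exists_iso_out h2 hs hnd (X := Submodule.span F {w, y, T w, T y}) (by
    classical
    have h6 := finrank_span_finset_le_card (R := F) ({w, y, T w, T y} : Finset (ι → F))
    have h7 : (({w, y, T w, T y} : Finset (ι → F)) : Set (ι → F)) = {w, y, T w, T y} := by simp
    have h8 := Finset.card_le_four (a := w) (b := y) (c := T w) (d := T y)
    unfold Set.finrank at h6
    rw [h7] at h6
    exact h6.trans h8) (by rw [hfin]; exact h13)
  have ha0 : a ≠ 0 := by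
    rintro rfl
    exact haX (Submodule.zero_mem _)
  have hmw : w ∈ Submodule.span F {w, y, T w, T y} := Submodule.subset_span (by simp)
  have hmy : y ∈ Submodule.span F {w, y, T w, T y} := Submodule.subset_span (by simp)
  have hmTw : T w ∈ Submodule.span F {w, y, T w, T y} := Submodule.subset_span (by simp)
  have hmTy : T y ∈ Submodule.span F {w, y, T w, T y} := Submodule.subset_span (by simp)
  have hwa : b w a = 0 := hax w hmw
  have hya : b y a = 0 := hax y hmy
  have hwa' : b' w a = 0 := by rw [← hT]; exact hax _ hmTw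
  have hya' : b' y a = 0 := by rw [← hT]; exact hax _ hmTy
  have haw : b a w = 0 := by rw [hs]; exact hwa
  have hay : b a y = 0 := by rw [hs]; exact hya
  -- the vector z
  have hTwn : T w ∉ Submodule.span F {a, w} := by
    intro hx
    obtain ⟨α, β, hαβ⟩ := Submodule.mem_span_pair.1 hx
    by_cases hα : α = 0
    · rw [hα, zero_smul, zero_add] at hαβ
      exact hTw (Submodule.mem_span_singleton.2 ⟨β, hαβ⟩)
    · apply haX
      have : a = α⁻¹ • (T w - β • w) := by
        rw [← hαβ, add_sub_cancel_right, smul_smul, inv_mul_cancel₀ hα, one_smul]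
      rw [this]
      exact Submodule.smul_mem _ _ (Submodule.sub_mem _ hmTw (Submodule.smul_mem _ _ hmw))
  obtain ⟨z, hz, hTwz⟩ := exists_sep hs hnd hTwn
  have haz : b a z = 0 := hz a (Submodule.subset_span (by simp))
  have hwz : b w z = 0 := hz w (Submodule.subset_span (by simp))
  have hzw : b z w = 0 := by rw [hs]; exact hwz
  have hza : b z a = 0 := by rw [hs]; exact haz
  have hwz' : b' w z = 1 := by rw [← hT]; exact hTwz
  -- the elements k and its inverse
  have hyw' : b' y w = 0 := by rw [hs']; exact hwy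
  obtain ⟨k, hk, hkx⟩ := hS' w y hww hwy
  obtain ⟨l, hl, hlx⟩ := hS' w (-y) hww (by rw [map_neg, hwy, neg_zero])
  obtain ⟨m, hm⟩ : ∃ m, b' y y / 2 = m := ⟨_, rfl⟩
  have hm2 : b' y y = 2 * m := by
    rw [← hm]
    field_simp
  have hlx' : ∀ v, Matrix.mulVec (l : Matrix ι ι F) v = v - b' w v • y + (b' y v - m * b' w v) • w := by
    intro v
    rw [hlx]
    simp only [map_neg, LinearMap.neg_apply, neg_neg, hm]
    module
  rw [hm] at hkx
  have hkl : ∀ v, Matrix.mulVec (k : Matrix ι ι F) (Matrix.mulVec (l : Matrix ι ι F) v) = v := by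
    intro v
    rw [hkx, hlx']
    simp only [map_add, map_sub, map_smul, smul_eq_mul, hww, hwy, hyw', hm2]
    module
  have hka : Matrix.mulVec (k : Matrix ι ι F) a = a := by
    rw [hkx, hwa', hya']
    simp
  obtain ⟨r, hr, hrx⟩ := hS a z haa haz
  have hbal : ∀ v, b a (Matrix.mulVec (l : Matrix ι ι F) v) = b a v := by
    intro v
    rw [hlx']
    simp only [map_add, map_sub, map_smul, smul_eq_mul, haw, hay]
    ring
  obtain ⟨kz, hkz⟩ : ∃ kz, Matrix.mulVec (k : Matrix ι ι F) z = kz := ⟨_, rfl⟩
  have hkz' : kz = z + y - (b' y z + m) • w := by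
    rw [← hkz, hkx, hwz', one_smul, mul_one]
  have hakz : b a kz = 0 := by
    rw [hkz']
    simp only [map_add, map_sub, map_smul, smul_eq_mul, haz, hay, haw]
    ring
  let φ : (ι → F) →ₗ[F] F := (b z).comp (Matrix.toLin' (l : Matrix ι ι F))
  have hφ : ∀ v, φ v = b z v - b' w v * b z y := by
    intro v
    change b z (Matrix.toLin' (l : Matrix ι ι F) v) = _
    rw [Matrix.toLin'_apply, hlx']
    simp only [map_add, map_sub, map_smul, smul_eq_mul, hzw]
    ring
  have hE1 : EE b M a kz φ (b z z / 2) := by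
    refine ⟨k * r * l, M.mul_mem (M.mul_mem hk hr) hl, fun v => ?_⟩
    rw [mulVec_mul, mulVec_mul, hrx, hbal]
    rw [sub_eq_add_neg, ← neg_smul, mulVec_add', mulVec_add', mulVec_smul', mulVec_smul', hkl, hka, hkz, neg_smul, ← sub_eq_add_neg]
    rfl
  have hφa : φ a = 0 := by rw [hφ, hza, hwa', zero_mul, sub_zero]
  -- the vector D
  obtain ⟨D, hD⟩ : ∃ D, -(b z y) • T w - y + (b' y z + m) • w = D := ⟨_, rfl⟩
  have hDmem : D ∈ Submodule.span F {w, y, T w, T y} := by
    rw [← hD]
    exact Submodule.add_mem _ (Submodule.sub_mem _ (Submodule.smul_mem _ _ hmTw) hmy) (Submodule.smul_mem _ _ hmw)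
  have hDa : D ∉ Submodule.span F {a} := by
    intro hx
    obtain ⟨α, hα⟩ := Submodule.mem_span_singleton.1 hx
    by_cases hα0 : α = 0
    · rw [hα0, zero_smul] at hα
      apply hyn
      have h1 : -(b z y) • T w - y + (b' y z + m) • w = 0 := hD.trans hα.symm
      have : y = -(b z y) • T w + (b' y z + m) • w := by
        rw [← sub_eq_zero]
        calc y - (-(b z y) • T w + (b' y z + m) • w) = -(-(b z y) • T w - y + (b' y z + m) • w) := by abel
          _ = 0 := by rw [h1, neg_zero]
      rw [this]
      exact Submodule.add_mem _ (Submodule.smul_mem _ _ (Submodule.subset_span (by simp))) (Submodule.smul_mem _ _ (Submodule.subset_span (by simp)))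
    · apply haX
      have : a = α⁻¹ • D := by rw [← hα, smul_smul, inv_mul_cancel₀ hα0, one_smul]
      rw [this]
      exact Submodule.smul_mem _ _ hDmem
  obtain ⟨u, hu, hDu⟩ := exists_sep hs hnd hDa
  have hau : b a u = 0 := hu a (Submodule.mem_span_singleton_self a)
  have hdiff : φ u - b u kz = 1 := by
    rw [hφ, hkz', ← hDu, ← hD]
    simp only [map_add, map_sub, map_smul, map_neg, LinearMap.add_apply, LinearMap.sub_apply, LinearMap.neg_apply, LinearMap.smul_apply, smul_eq_mul]
    rw [hT, hs u z, hs u y, hs u w]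
    ring
  refine ⟨a, ha0, haa, fun d => ?_⟩
  have hadu : b a (d • u) = 0 := by rw [map_smul, hau, smul_zero]
  have hE2 := hS a (d • u) haa hadu
  have hua : b (d • u) a = 0 := by rw [hs]; exact hadu
  have h3 := EE.mul hE1 hE2 haa hadu hφa
  have h4 := EE.mul hE2 hE1 haa hakz hua
  rw [add_comm (d • u), add_comm (b (d • u))] at h4
  have h5 := EE.diff h4 h3 haa (by rw [map_add, hakz, hadu, add_zero]) (by rw [LinearMap.add_apply, hφa, hua, add_zero])
  have h6 : b z z / 2 + b (d • u) (d • u) / 2 + φ (d • u) - (b (d • u) (d • u) / 2 + b z z / 2 + b (d • u) kz) = d := by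
    rw [map_smul φ, map_smul b, LinearMap.smul_apply, LinearMap.smul_apply, smul_eq_mul, smul_eq_mul, smul_eq_mul]
    linear_combination d * hdiff
  rw [h6] at h5
  exact h5

end CfsgLib.Cug2
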