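import Cfsg.Agent.Lib.Cug2

set_option autoImplicit false
set_option maxHeartbeats 400000
set_option linter.unusedSectionVars false

/-! Orthogonal similarity groups in the special linear group: generation of SL. -/
namespace CfsgLib.Cug3

open Cfsg Cfsg.Geo Module CfsgLib.GeoBase CfsgLib.Cuo1 CfsgLib.Cug1

universe u

variable {ι : Type} [Fintype ι] [DecidableEq ι] {F : Type u} [Field F] {b : LinearMap.BilinForm F (ι → F)} {M : Subgroup (Matrix.GeneralLinearGroup ι F)}

theorem tl_zero (f : (ι → F) →ₗ[F] F) : TL M f 0 := ⟨1, M.one_mem, fun x => by rw [mulVec_one, smul_zero, add_zero]⟩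

/-- all isotropic centres -/
theorem all_tv [Finite F] (h2 : (2 : F) ≠ 0) (h13 : 13 ≤ Fintype.card ι) (hs : ∀ x y, b x y = b y x) (hnd : b.Nondegenerate) (hS : SF b M)
    {a : ι → F} (ha0 : a ≠ 0) (haa : b a a = 0) (hT : ∀ d : F, TL M (d • b a) a) {c : ι → F} (hcc : b c c = 0) (d : F) : TL M (d • b c) c := by
  have hfin : finrank F (ι → F) = Fintype.card ι := finrank_fintype_fun_eq_card F
  by_cases hc0 : c = 0
  · rw [hc0]
    exact tl_zero _
  obtain ⟨u, huu, hua, huc⟩ := exists_common h2 hs hnd (by rw [hfin]; exact h13) ha0 haa hc0 hcc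
  obtain ⟨a₁, ha₁⟩ : ∃ v, (b u a)⁻¹ • a = v := ⟨_, rfl⟩
  obtain ⟨a₂, ha₂⟩ : ∃ v, (b u c)⁻¹ • c = v := ⟨_, rfl⟩
  have h1 : b u a₁ = 1 := by rw [← ha₁, map_smul, smul_eq_mul, inv_mul_cancel₀ hua]
  have h3 : b u a₂ = 1 := by rw [← ha₂, map_smul, smul_eq_mul, inv_mul_cancel₀ huc]
  have h4 : b a₁ a₁ = 0 := by rw [← ha₁, map_smul, map_smul, LinearMap.smul_apply, haa]; simp
  have h5 : b a₂ a₂ = 0 := by rw [← ha₂, map_smul, map_smul, LinearMap.smul_apply, hcc]; simp
  have huy : b u (a₂ - a₁) = 0 := by rw [map_sub, h1, h3, sub_self]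
  obtain ⟨k, hk, hkx⟩ := hS u (a₂ - a₁) huu huy
  have h7 : Matrix.mulVec (k : Matrix ι ι F) a₁ = a₂ := by
    rw [hkx, h1]
    have h8 : b (a₂ - a₁) a₁ + b (a₂ - a₁) (a₂ - a₁) / 2 * 1 = 0 := by
      simp only [map_sub, LinearMap.sub_apply, h4, h5, hs a₁ a₂]
      field_simp
      ring
    rw [h8, one_smul, zero_smul, sub_zero]
    abel
  -- k is an isometry
  have hkf : ∀ x, b a₁ (Matrix.mulVec ((k⁻¹ : Matrix.GeneralLinearGroup ι F) : Matrix ι ι F) x) = b a₂ x := by
    intro x
    obtain ⟨x₀, hx₀⟩ : ∃ x₀, x = Matrix.mulVec (k : Matrix ι ι F) x₀ := ⟨_, (mulVec_inv k x).symm⟩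
    rw [hx₀, inv_mulVec, hkx]
    simp only [map_add, map_sub, LinearMap.sub_apply, map_smul, smul_eq_mul, h4, h5, hs a₂ u, hs a₂ a₁, h3]
    field_simp
    ring
  have h9 : TL M ((d * (b u c) ^ 2 * (b u a)^2 * ((b u a)⁻¹) ^ 2) • b a₁) a₁ := by
    have h10 := hT (d * (b u c) ^ 2 * ((b u a)⁻¹) ^ 2)
    obtain ⟨l, hl, hlx⟩ := h10
    refine ⟨l, hl, fun x => ?_⟩
    rw [hlx, ← ha₁]
    simp only [map_smul, LinearMap.smul_apply, smul_eq_mul, smul_smul]
    congr 2
    field_simp
  have h11 := TL.conj h9 hk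
  rw [h7] at h11
  obtain ⟨l, hl, hlx⟩ := h11
  refine ⟨l, hl, fun x => ?_⟩
  rw [hlx]
  have h12 : (((d * (b u c) ^ 2 * (b u a)^2 * ((b u a)⁻¹) ^ 2) • b a₁) ∘ₗ Matrix.toLin' ((k⁻¹ : Matrix.GeneralLinearGroup ι F) : Matrix ι ι F)) x = d * (b u c) ^ 2 * b a₂ x := by
    change (d * (b u c) ^ 2 * (b u a)^2 * ((b u a)⁻¹) ^ 2) * b a₁ (Matrix.toLin' ((k⁻¹ : Matrix.GeneralLinearGroup ι F) : Matrix ι ι F) x) = _
    rw [Matrix.toLin'_apply, hkf]
    field_simp
  rw [h12, ← ha₂]
  simp only [map_smul, LinearMap.smul_apply, smul_eq_mul, smul_smul]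
  congr 2
  field_simp

/-- isotropic centre u, hyperplane orthogonal to the isotropic vector a -/
theorem pair_iso (h2 : (2 : F) ≠ 0) (hs : ∀ x y, b x y = b y x) (hS : SF b M)
    (hT : ∀ c : ι → F, b c c = 0 → ∀ d : F, TL M (d • b c) c) {a u y : ι → F} (haa : b a a = 0) (huu : b u u = 0) (hau : b a u = 0) (hay : b a y = 0) (huy : b u y ≠ 0) :
    TL M (b a) u := by
  -- s = 1/2
  obtain ⟨t, ht, htx⟩ := hT u huu ((1 / 2) / b u y)
  have hua : b u a = 0 := by rw [hs]; exact hau
  have hya : b y a = 0 := by rw [hs]; exact hay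
  have htx' : ∀ x, Matrix.mulVec (t : Matrix ι ι F) x = x + ((1 / 2) / b u y * b u x) • u := htx
  obtain ⟨r, hr, hrx⟩ := hS a y haa hay
  obtain ⟨l, hl, hlx⟩ := hT u huu (-((1 / 2) / b u y))
  have hlx' : ∀ x, Matrix.mulVec (l : Matrix ι ι F) x = x - ((1 / 2) / b u y * b u x) • u := by
    intro x
    rw [hlx]
    simp only [LinearMap.smul_apply, smul_eq_mul]
    module
  have htl : ∀ v, Matrix.mulVec (t : Matrix ι ι F) (Matrix.mulVec (l : Matrix ι ι F) v) = v := by
    intro v
    rw [htx', hlx']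
    simp only [map_sub, map_smul, smul_eq_mul, huu]
    module
  have hta : Matrix.mulVec (t : Matrix ι ι F) a = a := by
    rw [htx', hua]
    simp
  have hty : Matrix.mulVec (t : Matrix ι ι F) y = y + (1 / 2 : F) • u := by
    rw [htx']
    congr 2
    field_simp
  have hE1 : EE b M a (y + (1 / 2 : F) • u) (b y - (1 / 2 : F) • b u) (b y y / 2) := by
    refine ⟨t * r * l, M.mul_mem (M.mul_mem ht hr) hl, fun v => ?_⟩
    have e1 : b a (Matrix.mulVec (l : Matrix ι ι F) v) = b a v := by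
      rw [hlx']
      simp only [map_sub, map_smul, smul_eq_mul, hau]
      ring
    have e2 : b y (Matrix.mulVec (l : Matrix ι ι F) v) = (b y - (1 / 2 : F) • b u) v := by
      rw [hlx']
      simp only [map_sub, map_smul, smul_eq_mul, LinearMap.sub_apply, LinearMap.smul_apply, hs y u]
      field_simp
    rw [mulVec_mul, mulVec_mul, hrx, e1, e2]
    rw [sub_eq_add_neg, ← neg_smul, mulVec_add', mulVec_add', mulVec_smul', mulVec_smul', htl, hta, hty, neg_smul, ← sub_eq_add_neg]
  have hE2 := hS a (-y + (1 / 2 : F) • u) haa (by simp only [map_add, map_neg, map_smul, smul_eq_mul, hay, hau]; ring)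
  have h3 := EE.mul hE1 hE2 haa (by simp only [map_add, map_neg, map_smul, smul_eq_mul, hay, hau]; ring) (by
    simp only [LinearMap.sub_apply, LinearMap.smul_apply, hya, hua]
    simp)
  obtain ⟨c, hc⟩ : ∃ c, b y y / 2 + b (-y + (1 / 2 : F) • u) (-y + (1 / 2 : F) • u) / 2 + (b y - (1 / 2 : F) • b u) (-y + (1 / 2 : F) • u) = c := ⟨_, rfl⟩
  rw [hc] at h3
  have e3 : b y - (1 / 2 : F) • b u + b (-y + (1 / 2 : F) • u) = 0 := by
    rw [map_add, map_neg, map_smul]
    abel
  have e4 : y + (1 / 2 : F) • u + (-y + (1 / 2 : F) • u) = u := by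
    have : (1 / 2 : F) • u + (1 / 2 : F) • u = u := by
      rw [← add_smul]
      have : (1 / 2 : F) + 1 / 2 = 1 := by field_simp; norm_num
      rw [this, one_smul]
    calc y + (1 / 2 : F) • u + (-y + (1 / 2 : F) • u) = (1 / 2 : F) • u + (1 / 2 : F) • u := by abel
      _ = u := this
  rw [e3, e4] at h3
  have h5 := EE.adj h3 (hT a haa c) haa rfl
  obtain ⟨k, hk, hkx⟩ := h5
  refine ⟨k, hk, fun x => ?_⟩
  rw [hkx]
  simp

/-- all centres, hyperplane orthogonal to the isotropic vector a -/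
theorem pair_all [Finite F] (h2 : (2 : F) ≠ 0) (h13 : 13 ≤ Fintype.card ι) (hs : ∀ x y, b x y = b y x) (hnd : b.Nondegenerate) (hS : SF b M)
    (hT : ∀ c : ι → F, b c c = 0 → ∀ d : F, TL M (d • b c) c) {a x : ι → F} (haa : b a a = 0) (hax : b a x = 0) :
    TL M (b a) x := by
  have hfin : finrank F (ι → F) = Fintype.card ι := finrank_fintype_fun_eq_card F
  by_cases hxx : b x x = 0
  · by_cases hxa : x ∈ Submodule.span F {a}
    · obtain ⟨α, rfl⟩ := Submodule.mem_span_singleton.1 hxa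
      obtain ⟨k, hk, hkx⟩ := hT a haa α
      refine ⟨k, hk, fun v => ?_⟩
      rw [hkx]
      simp only [LinearMap.smul_apply, smul_eq_mul]
      module
    · obtain ⟨r, hr, hr1⟩ := exists_sep hs hnd hxa
      exact pair_iso h2 hs hS hT haa hxx hax (hr a (Submodule.mem_span_singleton_self a)) (by rw [hr1]; exact one_ne_zero)
  · obtain ⟨e, heX, hee, hex⟩ := exists_iso_out h2 hs hnd (X := Submodule.span F {a, x}) (by
      classical
      have h6 := finrank_span_finset_le_card (R := F) ({a, x} : Finset (ι → F))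
      have h7 : (({a, x} : Finset (ι → F)) : Set (ι → F)) = {a, x} := by simp
      have h8 := Finset.card_le_two (a := a) (b := x)
      unfold Set.finrank at h6
      rw [h7] at h6
      omega) (by rw [hfin]; exact h13)
    obtain ⟨r, hr, her⟩ := exists_sep hs hnd heX
    have har : b a r = 0 := hr a (Submodule.subset_span (by simp))
    have hxr : b x r = 0 := hr x (Submodule.subset_span (by simp))
    have hae : b a e = 0 := hex a (Submodule.subset_span (by simp))
    have hxe : b x e = 0 := hex x (Submodule.subset_span (by simp))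
    have hex' : b e x = 0 := by rw [hs]; exact hxe
    have hrx : b r x = 0 := by rw [hs]; exact hxr
    have hre : b r e = 1 := by rw [hs]; exact her
    obtain ⟨u, hu⟩ : ∃ u, x + r - ((b x x + b r r) / 2) • e = u := ⟨_, rfl⟩
    have huu : b u u = 0 := by
      rw [← hu]
      simp only [map_add, map_sub, LinearMap.add_apply, LinearMap.sub_apply, map_smul, LinearMap.smul_apply, smul_eq_mul, hxr, hrx, hxe, hex', her, hre, hee]
      field_simp
      ring
    have hau : b a u = 0 := by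
      rw [← hu]
      simp only [map_add, map_sub, map_smul, smul_eq_mul, hax, har, hae]
      ring
    have hux : b u x = b x x := by
      rw [← hu]
      simp only [map_add, map_sub, LinearMap.add_apply, LinearMap.sub_apply, map_smul, LinearMap.smul_apply, smul_eq_mul, hrx, hex']
      ring
    have hxu : b x u = b x x := by rw [hs]; exact hux
    obtain ⟨u₂, hu₂⟩ : ∃ u₂, x - (1 / 2 : F) • u = u₂ := ⟨_, rfl⟩
    have hu22 : b u₂ u₂ = 0 := by
      rw [← hu₂]
      simp only [map_sub, LinearMap.sub_apply, map_smul, LinearMap.smul_apply, smul_eq_mul, huu, hux, hxu]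
      field_simp
      ring
    have hau2 : b a u₂ = 0 := by
      rw [← hu₂]
      simp only [map_sub, map_smul, smul_eq_mul, hax, hau]
      ring
    have hu2u : b u₂ u = b x x := by
      rw [← hu₂]
      simp only [map_sub, LinearMap.sub_apply, map_smul, LinearMap.smul_apply, smul_eq_mul, huu, hxu]
      ring
    have h1 : TL M (b a) u₂ := pair_iso h2 hs hS hT haa hu22 hau2 hau (by rw [hu2u]; exact hxx)
    have h3 : TL M (b a) ((1 / 2 : F) • u) := pair_iso h2 hs hS hT haa (by
      simp only [map_smul, LinearMap.smul_apply, smul_eq_mul, huu]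
      ring) (by
      simp only [map_smul, smul_eq_mul, hau]
      ring) hax (by
      simp only [map_smul, LinearMap.smul_apply, smul_eq_mul, hux]
      exact mul_ne_zero (one_div_ne_zero h2) hxx)
    have h4 : x = (1 / 2 : F) • u + u₂ := by
      rw [← hu₂]
      abel
    rw [h4]
    exact TL.add h3 h1 hau2

theorem sl_of_tv [Finite F] (h2 : (2 : F) ≠ 0) (h13 : 13 ≤ Fintype.card ι) (hs : ∀ x y, b x y = b y x) (hnd : b.Nondegenerate) (hS : SF b M)
    (hT : ∀ c : ι → F, b c c = 0 → ∀ d : F, TL M (d • b c) c) : specialLinear ι F ≤ M := by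
  have hfin : finrank F (ι → F) = Fintype.card ι := finrank_fintype_fun_eq_card F
  haveI : Nontrivial ι := Fintype.one_lt_card_iff_nontrivial.1 (by omega)
  apply sl_le
  intro f v hfv
  obtain ⟨c, hc⟩ : ∃ c, b c = f := ⟨(b.toDual hnd).symm f, by
    apply LinearMap.ext
    intro x
    exact LinearMap.BilinForm.apply_toDual_symm_apply _ _⟩
  rw [← hc] at hfv ⊢
  by_cases hcc : b c c = 0
  · exact pair_all h2 h13 hs hnd hS hT hcc hfv
  have hc0 : c ≠ 0 := by
    rintro rfl
    apply hcc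
    simp
  obtain ⟨a', ha'a', ha'c⟩ := exists_ne h2 hs hnd (by omega) hc0
  have hca' : b c a' ≠ 0 := by rw [hs]; exact ha'c
  obtain ⟨β, hβ⟩ : ∃ β, -(b c c) / (2 * b a' c) = β := ⟨_, rfl⟩
  have haa : b (c + β • a') (c + β • a') = 0 := by
    simp only [map_add, LinearMap.add_apply, map_smul, LinearMap.smul_apply, smul_eq_mul, ha'a', hs c a', ← hβ]
    field_simp
    ring
  obtain ⟨a, ha⟩ : ∃ a, c + β • a' = a := ⟨_, rfl⟩
  rw [ha] at haa
  have haa' : b a a' = b c a' := by
    rw [← ha]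
    simp only [map_add, LinearMap.add_apply, map_smul, LinearMap.smul_apply, smul_eq_mul, ha'a']
    ring
  have han : a ∉ Submodule.span F {a'} := by
    intro hx
    obtain ⟨α, hα⟩ := Submodule.mem_span_singleton.1 hx
    rw [← hα, map_smul, LinearMap.smul_apply, ha'a', smul_zero] at haa'
    exact hca' haa'.symm
  obtain ⟨r, hr, har⟩ := exists_sep hs hnd han
  have ha'r : b a' r = 0 := hr a' (Submodule.mem_span_singleton_self a')
  -- the transvection T x = x + b a' x • (β • r)
  obtain ⟨t, ht, htx⟩ := pair_all h2 h13 hs hnd hS hT ha'a' (x := β • r) (by rw [map_smul, ha'r, smul_zero])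
  have key : ∀ x, b a (Matrix.mulVec ((t⁻¹ : Matrix.GeneralLinearGroup ι F) : Matrix ι ι F) x) = b c x := by
    intro x
    obtain ⟨x₀, hx₀⟩ : ∃ x₀, x = Matrix.mulVec (t : Matrix ι ι F) x₀ := ⟨_, (mulVec_inv t x).symm⟩
    rw [hx₀, inv_mulVec, htx]
    have hcr : b c r = 1 := by
      have : c = a - β • a' := by rw [← ha]; abel
      rw [this, map_sub, map_smul, LinearMap.sub_apply, LinearMap.smul_apply, har, ha'r]
      simp
    rw [← ha]
    simp only [map_add, LinearMap.add_apply, map_smul, LinearMap.smul_apply, smul_eq_mul, hcr]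
    ring
  obtain ⟨y, hy⟩ : ∃ y, v = Matrix.mulVec (t : Matrix ι ι F) y := ⟨_, (mulVec_inv t v).symm⟩
  have hay : b a y = 0 := by
    have h1 := key v
    rw [hfv, hy, inv_mulVec] at h1
    exact h1
  have h3 := TL.conj (pair_all h2 h13 hs hnd hS hT haa hay) ht
  rw [← hy] at h3
  obtain ⟨k, hk, hkx⟩ := h3
  refine ⟨k, hk, fun x => ?_⟩
  rw [hkx]
  congr 2
  change b a (Matrix.toLin' ((t⁻¹ : Matrix.GeneralLinearGroup ι F) : Matrix ι ι F) x) = _
  rw [Matrix.toLin'_apply, key]

end CfsgLib.Cug3
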