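import Cfsg.Agent.Lib.Cug3

set_option autoImplicit false
set_option maxHeartbeats 400000
set_option linter.unusedSectionVars false

/-! Orthogonal similarity groups in the special linear group are maximal. -/
namespace CfsgLib.Cug4

open Cfsg Cfsg.Geo Module CfsgLib.GeoBase CfsgLib.Cuo1 CfsgLib.Cug1 CfsgLib.Cug2 CfsgLib.Cug3

universe u

variable {ι : Type} [Fintype ι] [DecidableEq ι] {F : Type u} [Field F] {b : LinearMap.BilinForm F (ι → F)}

/-- Siegel transformations as matrices -/
theorem exists_si (hs : ∀ x y, b x y = b y x) {a y : ι → F} (haa : b a a = 0) (hay : b a y = 0) (h2 : (2 : F) ≠ 0) :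
    ∃ k ∈ specialLinear ι F, ∀ v, Matrix.mulVec (k : Matrix ι ι F) v = v + b a v • y - (b y v + b y y / 2 * b a v) • a := by
  have hya : b y a = 0 := by rw [hs]; exact hay
  have h0 : ((b y y / 2) • b a - b y) a = 0 := by
    simp only [LinearMap.sub_apply, LinearMap.smul_apply, smul_eq_mul, haa, hya]
    ring
  refine ⟨tv ((b y y / 2) • b a - b y) a h0 * tv (b a) y hay, Subgroup.mul_mem _ (tv_mem_sl _ _ _) (tv_mem_sl _ _ _), fun v => ?_⟩
  rw [mulVec_mul, tv_apply, tv_apply]
  simp only [map_add, map_smul, smul_eq_mul, LinearMap.sub_apply, LinearMap.smul_apply, haa, hay, hya]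
  match_scalars <;> first | ring1 | (field_simp; ring1)

theorem si_isom (hs : ∀ x y, b x y = b y x) {a y : ι → F} (haa : b a a = 0) (hay : b a y = 0) (h2 : (2 : F) ≠ 0) (v : ι → F) :
    b (v + b a v • y - (b y v + b y y / 2 * b a v) • a) (v + b a v • y - (b y v + b y y / 2 * b a v) • a) = b v v := by
  simp only [map_add, map_sub, LinearMap.add_apply, LinearMap.sub_apply, map_smul, LinearMap.smul_apply, smul_eq_mul, haa, hay, hs y a, hs v a, hs v y]
  field_simp
  ring

theorem os_maximal [Finite F] (h2 : (2 : F) ≠ 0) (h13 : 13 ≤ Fintype.card ι) (hs : ∀ x y, b x y = b y x) (hnd : b.Nondegenerate) {Q : (ι → F) → F}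
    (hQ : ∀ v, 2 * Q v = b v v) : IsMaximalIn (specialLinear ι F) (quadSimilarityGroup Q ⊓ specialLinear ι F) := by
  have hfin : finrank F (ι → F) = Fintype.card ι := finrank_fintype_fun_eq_card F
  -- similarities of the bilinear form
  have hsim : ∀ (g : Matrix.GeneralLinearGroup ι F) (c : F), (∀ v, Q (Matrix.mulVec (g : Matrix ι ι F) v) = c * Q v) → ∀ x y, b (Matrix.mulVec (g : Matrix ι ι F) x) (Matrix.mulVec (g : Matrix ι ι F) y) = c * b x y := by
    intro g c hg x y
    have e : ∀ v, b (Matrix.mulVec (g : Matrix ι ι F) v) (Matrix.mulVec (g : Matrix ι ι F) v) = c * b v v := fun v => by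
      rw [← hQ, hg, ← hQ]
      ring
    have e1 := e (x + y)
    rw [mulVec_add'] at e1
    simp only [map_add, LinearMap.add_apply] at e1
    rw [e x, e y, hs (Matrix.mulVec (g : Matrix ι ι F) y), hs y x] at e1
    apply mul_left_cancel₀ h2
    linear_combination e1
  obtain ⟨a, -, ha0, haa⟩ := exists_iso h2 hs (U := ⊤) (by rw [finrank_top, hfin]; omega)
  -- properness
  have hne : ¬ specialLinear ι F ≤ quadSimilarityGroup Q := by
    intro hle
    obtain ⟨f, hff, haf⟩ := exists_part h2 hs hnd ha0 haa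
    have han : a ∉ Submodule.span F {f} := by
      intro hx
      obtain ⟨α, hα⟩ := Submodule.mem_span_singleton.1 hx
      rw [← hα, map_smul, LinearMap.smul_apply, hff, smul_zero] at haf
      exact zero_ne_one haf
    obtain ⟨φ, hφ, hφa⟩ := exists_dual han (1 : F)
    obtain ⟨c, hc⟩ := hle (tv_mem_sl φ f (hφ f (Submodule.mem_span_singleton_self f)))
    have h1 := hsim _ c hc a a
    rw [tv_apply, hφa, one_smul, haa, mul_zero] at h1
    simp only [map_add, LinearMap.add_apply, haa, hff, haf, hs f a] at h1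
    apply h2
    linear_combination h1
  refine ⟨lt_of_le_of_ne inf_le_right fun heq => hne (by rw [← heq]; exact inf_le_left), fun M hHM hMG => ?_⟩
  by_cases hMH : M ≤ quadSimilarityGroup Q
  · exact Or.inl (le_antisymm (le_inf hMH hMG) hHM)
  right
  obtain ⟨g, hg, hgs⟩ := Set.not_subset.1 hMH
  have hS : SF b M := by
    intro a y haa hay
    obtain ⟨k, hk, hkx⟩ := exists_si hs haa hay h2
    refine ⟨k, hHM ⟨⟨1, fun v => ?_⟩, hk⟩, hkx⟩
    apply mul_left_cancel₀ h2
    rw [hQ, hkx, si_isom hs haa hay h2, Units.val_one, one_mul, hQ]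
  -- the conjugate form
  let L := Matrix.toLin' ((g⁻¹ : Matrix.GeneralLinearGroup ι F) : Matrix ι ι F)
  let b' : LinearMap.BilinForm F (ι → F) := b.comp L L
  have hb' : ∀ x y, b' x y = b (Matrix.mulVec ((g⁻¹ : Matrix.GeneralLinearGroup ι F) : Matrix ι ι F) x) (Matrix.mulVec ((g⁻¹ : Matrix.GeneralLinearGroup ι F) : Matrix ι ι F) y) := by
    intro x y
    change b (L x) (L y) = _
    simp only [L]
    rw [Matrix.toLin'_apply, Matrix.toLin'_apply]
  have hb'g : ∀ x y, b' (Matrix.mulVec (g : Matrix ι ι F) x) (Matrix.mulVec (g : Matrix ι ι F) y) = b x y := by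
    intro x y
    rw [hb', inv_mulVec, inv_mulVec]
  have hs' : ∀ x y, b' x y = b' y x := fun x y => by rw [hb', hb', hs]
  have hnd' : b'.Nondegenerate := by
    have hR : b'.IsRefl := fun u v huv => by rw [hs']; exact huv
    refine (hR.nondegenerate_iff_separatingLeft).mpr ?_
    intro x hx
    obtain ⟨x₀, hx₀⟩ : ∃ x₀, x = Matrix.mulVec (g : Matrix ι ι F) x₀ := ⟨_, (mulVec_inv g x).symm⟩
    have h1 : x₀ = 0 := hnd.1 x₀ fun y => by
      rw [← hb'g, ← hx₀]
      exact hx _
    rw [hx₀, h1]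
    exact Matrix.mulVec_zero _
  have hS' : SF b' M := SF.conj hS hg hb'g
  obtain ⟨a, ha0, haa, hT⟩ := first_tv h2 h13 hs hnd hs' hnd' hS hS' (by
    rintro ⟨l, hl⟩
    have hl0 : l ≠ 0 := by
      rintro rfl
      apply ha0
      apply hnd'.1
      intro y
      rw [hl, zero_mul]
    apply hgs
    have h1 : g⁻¹ ∈ quadSimilarityGroup Q := ⟨Units.mk0 l hl0, fun v => by
      apply mul_left_cancel₀ h2
      rw [hQ, ← hb', hl, Units.val_mk0, ← hQ]
      ring⟩
    exact (Subgroup.inv_mem_iff _).1 h1)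
  exact le_antisymm hMG (sl_of_tv h2 h13 hs hnd hS fun c hcc d => all_tv h2 h13 hs hnd hS ha0 haa hT hcc d)

end CfsgLib.Cug4
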