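import Cfsg.Agent.Lib.Csp2

set_option autoImplicit false
set_option maxHeartbeats 400000
set_option linter.unusedSectionVars false

/-! Decompositions into planes over the field with two elements. -/
namespace CfsgLib.Cuk1

open Cfsg Cfsg.Geo Module CfsgLib.GeoBase CfsgLib.GeoSp CfsgLib.Symp CfsgLib.Csp1

universe u

variable {F : Type u} [Field F] {m : ℕ} {t k : ℕ} {D : Fin t → Submodule F (Fin m ⊕ Fin m → F)}
  (hD : IsNondegenerateMDecomposition (sympForm m F) k D)

include hD

theorem comp_unique {x y : Fin t → (Fin m ⊕ Fin m → F)} (hx : ∀ j, x j ∈ D j) (hy : ∀ j, y j ∈ D j) (hxy : ∑ j, x j = ∑ j, y j) : x = y := by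
  funext j
  apply sub_eq_zero.1
  apply eq_zero_of_f hD ((D j).sub_mem (hx j) (hy j))
  intro v hv
  have h1 := f_sum hD hx hv
  have h2 := f_sum hD hy hv
  rw [hxy, h2] at h1
  rw [← sympB_apply, map_sub, LinearMap.sub_apply, sympB_apply, sympB_apply, ← h1, sub_self]

theorem nonmax (hm : 7 ≤ m) (hq : Nat.card F = 2) (hk : k = 2) :
    ∃ K : Subgroup (Matrix.GeneralLinearGroup (Fin m ⊕ Fin m) F), decompositionStabilizer D ⊓ spGL m F < K ∧ K < spGL m F := by
  classical
  subst hk
  haveI : Finite F := (Nat.card_pos_iff.1 (by rw [hq]; norm_num)).2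
  haveI : Fintype F := Fintype.ofFinite F
  have hF : ∀ a : F, a = 0 ∨ a = 1 := by
    intro a
    have h1 : Fintype.card F = 2 := by rw [← Nat.card_eq_fintype_card]; exact hq
    have h2 : a ^ 2 = a := by
      have := FiniteField.pow_card a
      rwa [h1] at this
    have h3 : a * (a - 1) = 0 := by linear_combination h2
    rcases mul_eq_zero.1 h3 with h | h
    · exact Or.inl h
    · exact Or.inr (sub_eq_zero.1 h)
  have h2 : (2 : F) = 0 := by
    rcases hF (1 + 1) with h | h
    · linear_combination h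
    · exfalso
      apply one_ne_zero (α := F)
      linear_combination h
  have ht : t = m := by
    have hint : DirectSum.IsInternal D := DirectSum.isInternal_submodule_of_iSupIndep_of_iSup_eq_top hD.decomp.indep hD.decomp.iSup_eq_top
    have h1 := LinearEquiv.finrank_eq (LinearEquiv.ofBijective (DirectSum.coeLinearMap D) hint)
    rw [finrank_fintype_fun_eq_card, Fintype.card_sum, Fintype.card_fin, Module.finrank_directSum] at h1
    simp only [hD.decomp.finrank_eq, Finset.sum_const, Finset.card_univ, Fintype.card_fin, smul_eq_mul] at h1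
    omega
  choose comp hc1 hc2 using fun w => exists_comp hD w
  have hu : ∀ w (y : Fin t → (Fin m ⊕ Fin m → F)), (∀ j, y j ∈ D j) → ∑ j, y j = w → comp w = y := fun w y hy hyw => comp_unique hD (hc1 w) hy ((hc2 w).trans hyw.symm)
  let ind : (Fin m ⊕ Fin m → F) → F := fun a => if a = 0 then 0 else 1
  let Q : (Fin m ⊕ Fin m → F) → F := fun w => ∑ j, ind (comp w j)
  have hfs : ∀ a b : (Fin m ⊕ Fin m → F), sympForm m F a b = sympForm m F b a := by
    intro a b
    rw [← sympB_apply, ← sympB_apply]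
    have := (sympB_isAlt (m := m) (F := F)).neg_eq a b
    rw [← this]
    have h3 : ∀ c : F, -c = c := fun c => by linear_combination (-c) * h2
    rw [h3]
  have hself : ∀ a : (Fin m ⊕ Fin m → F), sympForm m F a a = 0 := fun a => by
    rw [← sympB_apply]
    exact sympB_isAlt a
  -- the planes
  have hplane : ∀ j, ∀ a ∈ D j, ∀ b ∈ D j, ind (a + b) = ind a + ind b + sympForm m F a b := by
    intro j a ha b hb
    by_cases ha0 : a = 0
    · subst ha0
      rw [← sympB_apply]
      simp [ind]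
    by_cases hb0 : b = 0
    · subst hb0
      rw [← sympB_apply]
      simp [ind]
    by_cases hab : a = b
    · subst hab
      rw [hself]
      have : a + a = 0 := by
        rw [← two_smul F a, h2, zero_smul]
      simp only [ind, this, if_true, if_neg ha0]
      linear_combination (-1 : F) * h2
    · have h3 : a + b ≠ 0 := by
        intro h0
        apply hab
        have : a = -b := eq_neg_of_add_eq_zero_left h0
        rw [this]
        have h4 : -b = (-1 : F) • b := by rw [neg_one_smul]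
        rw [h4]
        have h5 : (-1 : F) = 1 := by linear_combination (-1 : F) * h2
        rw [h5, one_smul]
      have hli : LinearIndependent F ![(⟨a, ha⟩ : D j), ⟨b, hb⟩] := by
        rw [LinearIndependent.pair_iff]
        intro s r hsr
        have h4 : s • a + r • b = 0 := congrArg Subtype.val hsr
        rcases hF s with hs | hs <;> rcases hF r with hr | hr
        · exact ⟨hs, hr⟩
        · rw [hs, hr, zero_smul, one_smul, zero_add] at h4
          exact absurd h4 hb0
        · rw [hs, hr, zero_smul, one_smul, add_zero] at h4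
          exact absurd h4 ha0
        · rw [hs, hr, one_smul, one_smul] at h4
          exact absurd h4 h3
      have h4 : sympForm m F a b = 1 := by
        rcases hF (sympForm m F a b) with h5 | h5
        · exfalso
          apply ha0
          apply eq_zero_of_f hD ha
          intro v hv
          have hsp := hli.span_eq_top_of_card_eq_finrank (by rw [Fintype.card_fin, hD.decomp.finrank_eq])
          have h6 : (⟨v, hv⟩ : D j) ∈ Submodule.span F (Set.range ![(⟨a, ha⟩ : D j), ⟨b, hb⟩]) := by rw [hsp]; exact Submodule.mem_top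
          rw [Matrix.range_cons, Matrix.range_cons, Matrix.range_empty, Set.union_empty, Set.singleton_union] at h6
          obtain ⟨s, r, hsr⟩ := Submodule.mem_span_pair.1 h6
          have h7 : s • a + r • b = v := congrArg Subtype.val hsr
          rw [← h7, ← sympB_apply, map_add, map_smul, map_smul, sympB_apply, sympB_apply, hself, h5, smul_zero, smul_zero, add_zero]
        · exact h5
      rw [h4]
      simp only [ind, if_neg h3, if_neg ha0, if_neg hb0]
      linear_combination (-1 : F) * h2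
  have hsum : ∀ w w', sympForm m F w w' = ∑ j, sympForm m F (comp w j) (comp w' j) := by
    intro w w'
    conv_lhs => rw [← hc2 w']
    rw [← sympB_apply, map_sum]
    apply Finset.sum_congr rfl
    intro j _
    rw [sympB_apply]
    conv_lhs => rw [← hc2 w]
    exact f_sum hD (hc1 w) (hc1 w' j)
  have hQadd : ∀ w w', Q (w + w') = Q w + Q w' + sympForm m F w w' := by
    intro w w'
    have h3 : comp (w + w') = fun j => comp w j + comp w' j := hu _ _ (fun j => (D j).add_mem (hc1 w j) (hc1 w' j)) (by rw [Finset.sum_add_distrib, hc2, hc2])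
    change ∑ j, ind (comp (w + w') j) = ∑ j, ind (comp w j) + ∑ j, ind (comp w' j) + _
    rw [h3, hsum, ← Finset.sum_add_distrib, ← Finset.sum_add_distrib]
    exact Finset.sum_congr rfl fun j _ => hplane j _ (hc1 w j) _ (hc1 w' j)
  have hQon : ∀ j, ∀ a ∈ D j, Q a = ind a := by
    intro j a ha
    have h3 : comp a = fun i => if i = j then a else 0 := hu _ _ (fun i => by
      by_cases hij : i = j
      · rw [if_pos hij, hij]; exact ha
      · rw [if_neg hij]; exact (D i).zero_mem) (by simp)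
    change ∑ i, ind (comp a i) = _
    rw [h3]
    rw [Finset.sum_eq_single j]
    · simp
    · intro i _ hij
      simp [hij, ind]
    · intro h; exact absurd (Finset.mem_univ j) h
  -- the group K
  let K : Subgroup (Matrix.GeneralLinearGroup (Fin m ⊕ Fin m) F) :=
    { carrier := {g | g ∈ spGL m F ∧ ∀ w, Q (Matrix.mulVec (g : Matrix (Fin m ⊕ Fin m) (Fin m ⊕ Fin m) F) w) = Q w}
      mul_mem' := fun {a b} ha hb => ⟨(spGL m F).mul_mem ha.1 hb.1, fun w => by rw [mulVec_mul, ha.2, hb.2]⟩
      one_mem' := ⟨(spGL m F).one_mem, fun w => by rw [mulVec_one]⟩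
      inv_mem' := fun {a} ha => ⟨(spGL m F).inv_mem ha.1, fun w => by
        have := ha.2 (Matrix.mulVec ((a⁻¹ : Matrix.GeneralLinearGroup (Fin m ⊕ Fin m) F) : Matrix (Fin m ⊕ Fin m) (Fin m ⊕ Fin m) F) w)
        rw [mulVec_inv] at this
        exact this.symm⟩ }
  have hne : ∀ j, ∃ a ∈ D j, a ≠ 0 := by
    intro j
    have h3 : D j ≠ ⊥ := by
      intro h0
      have := hD.decomp.finrank_eq j
      rw [h0, finrank_bot] at this
      omega
    exact (Submodule.ne_bot_iff _).1 h3
  obtain ⟨v₁, hv₁, hv₁0⟩ := hne ⟨0, by omega⟩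
  obtain ⟨v₂, hv₂, hv₂0⟩ := hne ⟨1, by omega⟩
  obtain ⟨v₃, hv₃, hv₃0⟩ := hne ⟨2, by omega⟩
  have hind1 : ∀ a : (Fin m ⊕ Fin m → F), a ≠ 0 → ind a = 1 := fun a ha => if_neg ha
  have ho12 : sympForm m F v₁ v₂ = 0 := hD.orthogonal _ _ (by simp) v₁ hv₁ v₂ hv₂
  have ho13 : sympForm m F v₁ v₃ = 0 := hD.orthogonal _ _ (by simp) v₁ hv₁ v₃ hv₃
  have ho23 : sympForm m F v₂ v₃ = 0 := hD.orthogonal _ _ (by simp) v₂ hv₂ v₃ hv₃
  obtain ⟨x, hx, hvx⟩ := exists_one hD hv₁ hv₁0
  have hxv : sympForm m F x v₁ = 1 := by rw [hfs]; exact hvx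
  have hx2 : sympForm m F x v₂ = 0 := hD.orthogonal _ _ (by simp) x hx v₂ hv₂
  have hx3 : sympForm m F x v₃ = 0 := hD.orthogonal _ _ (by simp) x hx v₃ hv₃
  have hQ12 : Q (v₁ + v₂) = 0 := by
    rw [hQadd, hQon _ _ hv₁, hQon _ _ hv₂, hind1 _ hv₁0, hind1 _ hv₂0, ho12]
    linear_combination h2
  have hQ123 : Q (v₁ + v₂ + v₃) = 1 := by
    rw [hQadd, hQ12, hQon _ _ hv₃, hind1 _ hv₃0, ← sympB_apply, map_add, LinearMap.add_apply, sympB_apply, sympB_apply, ho13, ho23]
    ring
  have hx12 : sympForm m F x (v₁ + v₂) = 1 := by rw [← sympB_apply, map_add, sympB_apply, sympB_apply, hxv, hx2, add_zero]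
  have hx123 : sympForm m F x (v₁ + v₂ + v₃) = 1 := by rw [← sympB_apply, map_add, sympB_apply, sympB_apply, hx12, hx3, add_zero]
  refine ⟨K, lt_of_le_of_ne ?_ ?_, lt_of_le_of_ne (fun g hg => hg.1) ?_⟩
  · rintro g ⟨⟨s, hs⟩, hg⟩
    refine ⟨hg, fun w => ?_⟩
    have h3 : comp (Matrix.mulVec (g : Matrix (Fin m ⊕ Fin m) (Fin m ⊕ Fin m) F) w) = fun i => Matrix.mulVec (g : Matrix (Fin m ⊕ Fin m) (Fin m ⊕ Fin m) F) (comp w (s.symm i)) := by
      apply hu
      · intro i
        have h4 : Matrix.toLin' (g : Matrix (Fin m ⊕ Fin m) (Fin m ⊕ Fin m) F) (comp w (s.symm i)) ∈ (D (s.symm i)).map (Matrix.toLin' (g : Matrix (Fin m ⊕ Fin m) (Fin m ⊕ Fin m) F)) := ⟨_, hc1 w _, rfl⟩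
        rw [hs, Equiv.apply_symm_apply, toLin_apply] at h4
        exact h4
      · rw [Equiv.sum_comp s.symm (fun i => Matrix.mulVec (g : Matrix (Fin m ⊕ Fin m) (Fin m ⊕ Fin m) F) (comp w i))]
        conv_rhs => rw [← hc2 w]
        rw [← toLin_apply, map_sum]
        exact Finset.sum_congr rfl fun i _ => (toLin_apply _ _).symm
    change ∑ i, ind (comp _ i) = ∑ i, ind (comp w i)
    rw [h3, ← Equiv.sum_comp s.symm (fun i => ind (comp w i))]
    apply Finset.sum_congr rfl
    intro i _
    change (if _ = 0 then (0 : F) else 1) = if _ = 0 then (0 : F) else 1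
    have h5 : Matrix.mulVec (g : Matrix (Fin m ⊕ Fin m) (Fin m ⊕ Fin m) F) (comp w (s.symm i)) = 0 ↔ comp w (s.symm i) = 0 := by
      constructor
      · intro h0
        exact mulVec_injective g (h0.trans (Matrix.mulVec_zero _).symm)
      · intro h0
        rw [h0]
        exact Matrix.mulVec_zero _
    rw [if_congr h5 rfl rfl]
  · intro heq
    have hK : st (v₁ + v₂ + v₃) (1 : F) ∈ K := by
      refine ⟨st_mem _ _, fun w => ?_⟩
      rw [st_apply, one_mul]
      rcases hF (sympForm m F w (v₁ + v₂ + v₃)) with h3 | h3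
      · rw [h3, zero_smul, add_zero]
      · rw [h3, one_smul, hQadd, hQ123, h3]
        linear_combination h2
    rw [← heq] at hK
    obtain ⟨⟨s, hs⟩, -⟩ := hK
    have h4 : Matrix.toLin' (st (v₁ + v₂ + v₃) (1 : F) : Matrix (Fin m ⊕ Fin m) (Fin m ⊕ Fin m) F) x ∈ (D ⟨0, by omega⟩).map (Matrix.toLin' (st (v₁ + v₂ + v₃) (1 : F) : Matrix (Fin m ⊕ Fin m) (Fin m ⊕ Fin m) F)) := ⟨_, hx, rfl⟩
    rw [hs, toLin_apply, st_apply, one_mul, hx123, one_smul] at h4
    obtain ⟨j, hj⟩ : ∃ j, s ⟨0, by omega⟩ = j := ⟨_, rfl⟩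
    rw [hj] at h4
    -- the vector is orthogonal to the other planes
    have h5 : ∀ i, i ≠ j → ∀ y ∈ D i, sympForm m F (x + (v₁ + v₂ + v₃)) y = 0 := fun i hij y hy => hD.orthogonal j i (Ne.symm hij) _ h4 y hy
    obtain ⟨y₂, hy₂, hy₂1⟩ := exists_one hD hv₂ hv₂0
    obtain ⟨y₃, hy₃, hy₃1⟩ := exists_one hD hv₃ hv₃0
    have e2 : sympForm m F (x + (v₁ + v₂ + v₃)) y₂ = 1 := by
      have a1 : sympForm m F x y₂ = 0 := hD.orthogonal _ _ (by simp) x hx y₂ hy₂
      have a2 : sympForm m F v₁ y₂ = 0 := hD.orthogonal _ _ (by simp) v₁ hv₁ y₂ hy₂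
      have a3 : sympForm m F v₃ y₂ = 0 := hD.orthogonal _ _ (by simp) v₃ hv₃ y₂ hy₂
      rw [← sympB_apply, map_add, map_add, map_add]
      simp only [LinearMap.add_apply, sympB_apply, a1, a2, a3, hy₂1]
      ring
    have e3 : sympForm m F (x + (v₁ + v₂ + v₃)) y₃ = 1 := by
      have a1 : sympForm m F x y₃ = 0 := hD.orthogonal _ _ (by simp) x hx y₃ hy₃
      have a2 : sympForm m F v₁ y₃ = 0 := hD.orthogonal _ _ (by simp) v₁ hv₁ y₃ hy₃
      have a3 : sympForm m F v₂ y₃ = 0 := hD.orthogonal _ _ (by simp) v₂ hv₂ y₃ hy₃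
      rw [← sympB_apply, map_add, map_add, map_add]
      simp only [LinearMap.add_apply, sympB_apply, a1, a2, a3, hy₃1]
      ring
    by_cases hj2 : (⟨1, by omega⟩ : Fin t) = j
    · have h6 := h5 ⟨2, by omega⟩ (by rw [← hj2]; simp) y₃ hy₃
      rw [e3] at h6
      exact one_ne_zero h6
    · have h6 := h5 ⟨1, by omega⟩ hj2 y₂ hy₂
      rw [e2] at h6
      exact one_ne_zero h6
  · intro heq
    have hK : st (v₁ + v₂) (1 : F) ∈ K := by
      rw [heq]
      exact st_mem _ _
    have h3 := hK.2 x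
    rw [st_apply, one_mul, hx12, one_smul, hQadd, hQ12, hx12] at h3
    apply one_ne_zero (α := F)
    linear_combination h3

end CfsgLib.Cuk1
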