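import Cfsg.Agent.Lib.Cur2
import Mathlib.FieldTheory.Finite.Basic

set_option autoImplicit false
set_option maxHeartbeats 400000
set_option linter.unusedSectionVars false

/-! Symmetric bilinear forms over finite fields: isotropic vectors. -/
namespace CfsgLib.Cuo1

open Module

universe u v

variable {K : Type u} [Field K] {V : Type v} [AddCommGroup V] [Module K V] [FiniteDimensional K V] {b : LinearMap.BilinForm K V}

theorem exists_two {U : Submodule K V} (hU : 3 ≤ finrank K U) (f g : V →ₗ[K] K) : ∃ u ∈ U, u ≠ 0 ∧ f u = 0 ∧ g u = 0 := by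
  let φ : U →ₗ[K] (K × K) := (f.comp U.subtype).prod (g.comp U.subtype)
  have hker : LinearMap.ker φ ≠ ⊥ := LinearMap.ker_ne_bot_of_finrank_lt (by rw [finrank_prod, finrank_self]; omega)
  obtain ⟨u, hu, hu0⟩ := (Submodule.ne_bot_iff _).1 hker
  have h1 : φ u = 0 := hu
  exact ⟨u.1, u.2, fun h0 => hu0 (Subtype.ext h0), congrArg Prod.fst h1, congrArg Prod.snd h1⟩

theorem exists_quad [Finite K] (h2 : (2 : K) ≠ 0) {α β : K} (hα : α ≠ 0) (hβ : β ≠ 0) (γ : K) : ∃ x y, α * x ^ 2 + β * y ^ 2 + γ = 0 := by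
  haveI : Fintype K := Fintype.ofFinite K
  have hodd : Fintype.card K % 2 = 1 := FiniteField.odd_card_of_char_ne_two (fun hc => h2 (by
    have := ringChar.spec K 2
    rw [hc] at this
    exact_mod_cast this.2 dvd_rfl))
  obtain ⟨x, y, hxy⟩ := FiniteField.exists_root_sum_quadratic (f := Polynomial.C α * Polynomial.X ^ 2) (g := Polynomial.C β * Polynomial.X ^ 2 + Polynomial.C γ)
    (Polynomial.degree_C_mul_X_pow 2 hα) (by
      have h := Polynomial.degree_quadratic (a := β) (b := 0) (c := γ) hβ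
      rwa [map_zero, zero_mul, add_zero] at h) hodd
  refine ⟨x, y, ?_⟩
  simp only [Polynomial.eval_add, Polynomial.eval_mul, Polynomial.eval_C, Polynomial.eval_pow, Polynomial.eval_X] at hxy
  linear_combination hxy

/-- isotropic vectors in subspaces of dimension at least three -/
theorem exists_iso [Finite K] (h2 : (2 : K) ≠ 0) (hs : ∀ x y, b x y = b y x) {U : Submodule K V} (hU : 3 ≤ finrank K U) :
    ∃ u ∈ U, u ≠ 0 ∧ b u u = 0 := by
  obtain ⟨e₁, he₁, he₁0, -, -⟩ := exists_two hU 0 0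
  by_cases h1 : b e₁ e₁ = 0
  · exact ⟨e₁, he₁, he₁0, h1⟩
  obtain ⟨e₂, he₂, he₂0, h12, -⟩ := exists_two hU (b e₁) 0
  by_cases h3 : b e₂ e₂ = 0
  · exact ⟨e₂, he₂, he₂0, h3⟩
  obtain ⟨e₃, he₃, he₃0, h13, h23⟩ := exists_two hU (b e₁) (b e₂)
  by_cases h4 : b e₃ e₃ = 0
  · exact ⟨e₃, he₃, he₃0, h4⟩
  obtain ⟨x, y, hxy⟩ := exists_quad h2 h1 h3 (b e₃ e₃)
  refine ⟨x • e₁ + y • e₂ + e₃, U.add_mem (U.add_mem (U.smul_mem _ he₁) (U.smul_mem _ he₂)) he₃, fun h0 => ?_, ?_⟩
  · have h5 := congrArg (b e₃) h0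
    rw [map_add, map_add, map_smul, map_smul, hs e₃ e₁, h13, hs e₃ e₂, h23, map_zero] at h5
    apply h4
    simpa using h5
  · simp only [map_add, LinearMap.add_apply, map_smul, LinearMap.smul_apply, smul_eq_mul]
    rw [h12, h13, h23, hs e₂ e₁, hs e₃ e₁, hs e₃ e₂, h12, h13, h23]
    linear_combination hxy

/-- isotropic partners -/
theorem exists_part (h2 : (2 : K) ≠ 0) (hs : ∀ x y, b x y = b y x) (hnd : b.Nondegenerate) {x : V} (hx0 : x ≠ 0) (hx : b x x = 0) : ∃ f, b f f = 0 ∧ b x f = 1 := by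
  obtain ⟨y, hy⟩ : ∃ y, b x y ≠ 0 := by
    by_contra hno
    push Not at hno
    exact hx0 (hnd.1 x hno)
  let z := (b x y)⁻¹ • y
  have hz : b x z = 1 := by
    simp only [z]
    rw [map_smul, smul_eq_mul, inv_mul_cancel₀ hy]
  refine ⟨z - (b z z / 2) • x, ?_, ?_⟩
  · simp only [map_sub, LinearMap.sub_apply, map_smul, LinearMap.smul_apply, smul_eq_mul]
    rw [hs z x, hz, hx]
    field_simp
    ring
  · rw [map_sub, hz, map_smul, hx, smul_zero, sub_zero]

/-- isotropic vectors orthogonal to a small subspace and outside it -/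
theorem exists_iso_out [Finite K] (h2 : (2 : K) ≠ 0) (hs : ∀ x y, b x y = b y x) (hnd : b.Nondegenerate) {X : Submodule K V} (hX : finrank K X ≤ 4) (h13 : 13 ≤ finrank K V) :
    ∃ a, a ∉ X ∧ b a a = 0 ∧ ∀ x ∈ X, b x a = 0 := by
  obtain ⟨U₀, hU₀⟩ := Submodule.exists_isCompl X
  have h1 := Submodule.finrank_add_eq_of_isCompl hU₀
  have h3 := LinearMap.BilinForm.finrank_orthogonal hnd X
  have h4 := Submodule.finrank_sup_add_finrank_inf_eq (b.orthogonal X) U₀
  have h5 := Submodule.finrank_le (b.orthogonal X ⊔ U₀)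
  obtain ⟨a, ha, ha0, haa⟩ := exists_iso h2 hs (U := b.orthogonal X ⊓ U₀) (by omega)
  refine ⟨a, fun haX => ha0 ?_, haa, fun x hx => ha.1 x hx⟩
  exact (Submodule.disjoint_def.1 hU₀.disjoint) a haX ha.2

/-- vectors with prescribed products -/
theorem exists_sep (hs : ∀ x y, b x y = b y x) (hnd : b.Nondegenerate) {X : Submodule K V} {x : V} (hx : x ∉ X) : ∃ r, (∀ y ∈ X, b y r = 0) ∧ b x r = 1 := by
  have hR : b.IsRefl := fun u v huv => by rw [hs]; exact huv
  obtain ⟨r, hr, hrx⟩ := CfsgLib.AltForm.exists_orthogonal_ne_zero hnd hR hx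
  refine ⟨(b r x)⁻¹ • r, fun y hy => ?_, ?_⟩
  · rw [map_smul, hr y hy, smul_zero]
  · rw [map_smul, hs x r, smul_eq_mul, inv_mul_cancel₀ hrx]

/-- a common non-orthogonal isotropic vector -/
theorem exists_common [Finite K] (h2 : (2 : K) ≠ 0) (hs : ∀ x y, b x y = b y x) (hnd : b.Nondegenerate) (h13 : 13 ≤ finrank K V) {a a' : V} (ha0 : a ≠ 0) (ha : b a a = 0) (ha'0 : a' ≠ 0) (ha' : b a' a' = 0) :
    ∃ u, b u u = 0 ∧ b u a ≠ 0 ∧ b u a' ≠ 0 := by
  by_cases haa : b a a' = 0
  · obtain ⟨f, hf, haf⟩ := exists_part h2 hs hnd ha0 ha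
    obtain ⟨f', hf', haf'⟩ := exists_part h2 hs hnd ha'0 ha'
    by_cases h3 : b f a' = 0
    · by_cases h4 : b f' a = 0
      · have hfa' : b a f = 1 := haf
        have hs1 : b f a = 1 := by rw [hs]; exact haf
        have hs2 : b f' a' = 1 := by rw [hs]; exact haf'
        have haa' : b a' a = 0 := by rw [hs]; exact haa
        have hff : b f' f = b f f' := hs _ _
        have h5 : b a f' = 0 := by rw [hs]; exact h4
        refine ⟨f + f' - (b f f') • a, ?_, ?_, ?_⟩
        · simp only [map_add, map_sub, LinearMap.add_apply, LinearMap.sub_apply, map_smul, LinearMap.smul_apply, smul_eq_mul, hf, hf', ha, haf, hs1, h4, h5, hff]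
          ring
        · simp only [map_add, map_sub, LinearMap.add_apply, LinearMap.sub_apply, map_smul, LinearMap.smul_apply, smul_eq_mul, hs1, h4, ha]
          simp
        · simp only [map_add, map_sub, LinearMap.add_apply, LinearMap.sub_apply, map_smul, LinearMap.smul_apply, smul_eq_mul, h3, hs2, haa]
          simp
      · exact ⟨f', hf', h4, by rw [hs, haf']; exact one_ne_zero⟩
    · exact ⟨f, hf, by rw [hs, haf]; exact one_ne_zero, h3⟩
  · -- a vector of non-zero norm orthogonal to both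
    have haa' : b a' a ≠ 0 := by rw [hs]; exact haa
    obtain ⟨z, hz1, hz2, hz3⟩ : ∃ z, b a z = 0 ∧ b a' z = 0 ∧ b z z ≠ 0 := by
      by_contra hno
      push Not at hno
      obtain ⟨z, -, hz0, hz1, hz2⟩ := exists_two (U := (⊤ : Submodule K V)) (by rw [finrank_top]; omega) (b a) (b a')
      obtain ⟨y, hy⟩ : ∃ y, b z y ≠ 0 := by
        by_contra hno'
        push Not at hno'
        exact hz0 (hnd.1 z hno')
      let y' := y - (b a' y / b a' a) • a - (b a y / b a a') • a'
      have e1 : b a y' = 0 := by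
        simp only [y', map_sub, map_smul, smul_eq_mul, ha]
        rw [div_mul_cancel₀ _ haa]
        ring
      have e2 : b a' y' = 0 := by
        simp only [y', map_sub, map_smul, smul_eq_mul, ha']
        rw [div_mul_cancel₀ _ haa']
        ring
      have e3 : b z y' = b z y := by
        simp only [y', map_sub, map_smul, smul_eq_mul]
        rw [hs z a, hs z a', hz1, hz2]
        ring
      have e4 := hno (z + y') (by rw [map_add, hz1, e1, add_zero]) (by rw [map_add, hz2, e2, add_zero])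
      have e5 := hno z hz1 hz2
      have e6 := hno y' e1 e2
      have e8 : b y' z = b z y := by rw [hs]; exact e3
      simp only [LinearMap.map_add, LinearMap.add_apply] at e4
      have e7 : 2 * b z y = 0 := by linear_combination e4 - e5 - e6 - e3 - e8
      exact hy ((mul_eq_zero.1 e7).resolve_left h2)
    have hza : b z a = 0 := by rw [hs]; exact hz1
    have hza' : b z a' = 0 := by rw [hs]; exact hz2
    refine ⟨a + (-(b z z) / (2 * b a a')) • a' + z, ?_, ?_, ?_⟩
    · simp only [map_add, LinearMap.add_apply, map_smul, LinearMap.smul_apply, smul_eq_mul, ha, ha', hz1, hz2, hza, hza', hs a' a]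
      field_simp
      ring
    · simp only [map_add, LinearMap.add_apply, map_smul, LinearMap.smul_apply, smul_eq_mul, ha, hza, hs a' a, zero_add, add_zero]
      have : -(b z z) / (2 * b a a') * b a a' = -(b z z) / 2 := by field_simp
      rw [this]
      exact div_ne_zero (neg_ne_zero.2 hz3) h2
    · simp only [map_add, LinearMap.add_apply, map_smul, LinearMap.smul_apply, smul_eq_mul, ha', hza', mul_zero, add_zero]
      exact haa

end CfsgLib.Cuo1
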