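import Cfsg.Agent.Lib.Cuw1
import Cfsg.Agent.Lib.Herm7

set_option autoImplicit false
set_option maxHeartbeats 400000
set_option linter.unusedSectionVars false

/-! Stabilisers of non-degenerate subspaces in special unitary groups. -/
namespace CfsgLib.Cuw2

open Cfsg Cfsg.Geo Module CfsgLib.GeoBase CfsgLib.Asch1 CfsgLib.Herm CfsgLib.Asu1 CfsgLib.Cts1 CfsgLib.Cts2 CfsgLib.Cts3

universe u v

section
variable {F : Type u} [Field F] {σ : F →+* F} {q : ℕ} (hq : QConj σ q) {V : Type v} [AddCommGroup V] [Module F V] [FiniteDimensional F V] {C : V →ₛₗ[σ] V →ₗ[F] F} (hC : HForm C)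

include hq hC

theorem exists_norm_vec (h2 : 2 ≤ finrank F V) {c : F} (hc : σ c = c) : ∃ t, t ≠ 0 ∧ C t t = c := by
  by_cases hc0 : c = 0
  · obtain ⟨e, he0, he⟩ := hC.exists_isotropic hq h2
    exact ⟨e, he0, by rw [he, hc0]⟩
  · haveI : Nontrivial V := Module.nontrivial_of_finrank_pos (R := F) (by omega)
    obtain ⟨t, ht⟩ := hC.exists_norm_eq hq hc hc0
    exact ⟨t, by rintro rfl; rw [map_zero_left] at ht; exact hc0 ht.symm, ht⟩

theorem exists_companion (h4 : 4 ≤ finrank F V) {b : V} (hb : b ≠ 0) (s : F) {c : F} (hc : σ c = c) :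
    ∃ b', C b b' = s ∧ C b' b' = c ∧ b' ≠ 0 ∧ b' + b ≠ 0 := by
  by_cases hbb : C b b = 0
  · obtain ⟨f, hf, hbf⟩ := hC.exists_partner hq hb hbb
    have hfin := finrank_hpp hq hC hbb hf hbf
    have hfb : C f b = 1 := by rw [← hC.symm, hbf, map_one]
    obtain ⟨⟨t, htm⟩, ht0, ht⟩ := exists_norm_vec hq (hpp_hform hq hC hbb hf hbf) (by omega) hc
    have ht1 := mem_hpp.1 htm
    have ht' : C t t = c := ht
    have ht0' : t ≠ 0 := fun h0 => ht0 (Subtype.ext h0)
    have htf : C t f = 0 := hC.eq_zero_comm ht1.2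
    refine ⟨s • f + t, ?_, ?_, fun h0 => ?_, fun h0 => ?_⟩
    · rw [map_add_right, map_smul_right, hbf, ht1.1, mul_one, add_zero]
    · rw [map_add_left, map_add_right, map_add_right, map_smul_left, map_smul_left, map_smul_right, map_smul_right, hf, ht1.2, htf, ht']
      ring
    · have h1 := congrArg (C b) h0
      rw [map_add_right, map_smul_right, hbf, ht1.1, mul_one, add_zero, map_zero] at h1
      rw [h1, zero_smul, zero_add] at h0
      exact ht0' h0
    · have h1 := congrArg (C f) h0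
      rw [map_add_right, map_add_right, map_smul_right, hf, ht1.2, hfb, map_zero] at h1
      simp at h1
  · have hfin := finrank_perp_span hC hbb
    let z := (s / C b b) • b
    have hz : C b z = s := by
      simp only [z]
      rw [map_smul_right, div_mul_cancel₀ _ hbb]
    have hzz : σ (c - C z z) = c - C z z := by rw [map_sub, hc, hC.self_fixed]
    obtain ⟨⟨t, htm⟩, ht0, ht⟩ := exists_norm_vec hq (hC.perp_span hbb) (by omega) hzz
    have hbt : C b t = 0 := mem_perp_span.1 htm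
    have htb : C t b = 0 := hC.eq_zero_comm hbt
    have ht' : C t t = c - C z z := ht
    have ht0' : t ≠ 0 := fun h0 => ht0 (Subtype.ext h0)
    have hzt : C z t = 0 := by
      simp only [z]
      rw [map_smul_left, hbt, mul_zero]
    have htz : C t z = 0 := hC.eq_zero_comm hzt
    have key : ∀ a : F, z + t = a • b → False := by
      intro a ha
      have h2 : t = (a - s / C b b) • b := by
        rw [sub_smul, ← ha]
        simp only [z]
        abel
      have h1 := hbt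
      rw [h2, map_smul_right] at h1
      rw [(mul_eq_zero.1 h1).resolve_right hbb, zero_smul] at h2
      exact ht0' h2
    refine ⟨z + t, ?_, ?_, fun h0 => key 0 (by rw [h0, zero_smul]), fun h0 => key (-1) (by rw [neg_one_smul]; exact eq_neg_of_add_eq_zero_left h0)⟩
    · rw [map_add_right, hz, hbt, add_zero]
    · rw [map_add_left, map_add_right, map_add_right, hzt, htz, ht']
      ring

theorem exists_SUL_eq (h3 : 3 ≤ finrank F V) {x y : V} (hx : x ≠ 0) (hy : y ≠ 0) (hxy : C x x = C y y) : ∃ g ∈ SUL C, g x = y := by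
  by_cases hxx : C x x = 0
  · exact exists_SUL_isotropic hq hC h3 hx hxx hy (hxy ▸ hxx)
  · obtain ⟨a, ha0, ha⟩ := exists_smul_one hq hC hxx (map_one σ) one_ne_zero
    have ha' : C (a • y) (a • y) = 1 := by
      rw [map_smul_left, map_smul_right] at ha ⊢
      rw [← hxy]
      exact ha
    obtain ⟨g, hg, hgx⟩ := exists_SUL_map hq hC (by omega) ha ha'
    refine ⟨g, hg, ?_⟩
    have h1 : a • g x = a • y := by rw [← map_smul]; exact hgx
    exact smul_right_injective _ ha0 h1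

end

variable {ι : Type} [Fintype ι] [DecidableEq ι] {F : Type u} [Field F] {σ : F →+* F} {q : ℕ} {B : (ι → F) →ₛₗ[σ] (ι → F) →ₗ[F] F} (hq : QConj σ q) (h : HForm B)

include hq h

omit h in
theorem emb {M : Subgroup (Matrix.GeneralLinearGroup ι F)} {W' : Submodule F (ι → F)} (hW' : HForm (resB B W')) (h4 : 4 ≤ finrank F W')
    (hT : ∀ u ∈ W', B u u = 0 → TT 1 B M u) {s : W' ≃ₗ[F] W'} (hs : s ∈ SUL (resB B W')) :
    ∃ k ∈ M, (∀ x, (∀ y ∈ W', B y x = 0) → Matrix.mulVec (k : Matrix ι ι F) x = x) ∧ ∀ b : W', Matrix.mulVec (k : Matrix ι ι F) (b : ι → F) = (s b : ι → F) := by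
  rw [← TG_eq hq hW' (Or.inr (Or.inr h4))] at hs
  refine Subgroup.closure_induction (p := fun (s : W' ≃ₗ[F] W') _ => ∃ k ∈ M, (∀ x, (∀ y ∈ W', B y x = 0) → Matrix.mulVec (k : Matrix ι ι F) x = x) ∧ ∀ b : W', Matrix.mulVec (k : Matrix ι ι F) (b : ι → F) = (s b : ι → F)) ?_ ?_ ?_ ?_ hs
  · rintro e ⟨u, c, hu, hc, hx⟩
    obtain ⟨k, hk, hkx⟩ := hT u.1 u.2 hu c (by rw [one_mul]; exact hc)
    exact ⟨k, hk, fun x hx' => by rw [hkx, hx' _ u.2, mul_zero, zero_smul, add_zero], fun b => by rw [hkx, hx]; rfl⟩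
  · exact ⟨1, M.one_mem, fun x _ => mulVec_one x, fun b => mulVec_one _⟩
  · rintro e f _ _ ⟨k, hk, hk1, hk2⟩ ⟨l, hl, hl1, hl2⟩
    refine ⟨k * l, M.mul_mem hk hl, fun x hx => ?_, fun b => ?_⟩
    · rw [mulVec_mul, hl1 x hx, hk1 x hx]
    · rw [mulVec_mul, hl2, hk2]
      rfl
  · rintro e _ ⟨k, hk, hk1, hk2⟩
    refine ⟨k⁻¹, M.inv_mem hk, fun x hx => ?_, fun b => ?_⟩
    · conv_lhs => rw [← hk1 x hx]
      rw [inv_mulVec]
    · have h1 := hk2 (e⁻¹ b)
      rw [show e (e⁻¹ b) = b from LinearEquiv.apply_symm_apply e b] at h1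
      rw [← h1, inv_mulVec]

/-- bireflections as matrices -/
theorem exists_birefl {z z' : ι → F} (hz : B z z = 1) (hz' : B z' z' = 1) (hzz : B z z' = 0) {d : F} (hd : d * σ d = 1) :
    ∃ g ∈ GB B, ∀ x, Matrix.mulVec (g : Matrix ι ι F) x = x + ((d - 1) * B z x) • z + ((d⁻¹ - 1) * B z' x) • z' := by
  haveI := hq.finite
  have hd' : d⁻¹ * σ d⁻¹ = 1 := by rw [map_inv₀, ← mul_inv, hd, inv_one]
  have hd0 : d ≠ 0 := left_ne_zero_of_mul_eq_one hd
  obtain ⟨g, hg⟩ : ∃ g : Matrix.GeneralLinearGroup ι F, CfsgLib.Quad.glEquiv ι F g = qrefl h hz hd * qrefl h hz' hd' := ⟨(CfsgLib.Quad.glEquiv ι F).symm (qrefl h hz hd * qrefl h hz' hd'), MulEquiv.apply_symm_apply _ _⟩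
  have hgx : ∀ x, Matrix.mulVec (g : Matrix ι ι F) x = qrefl h hz hd (qrefl h hz' hd' x) := fun x => by
    rw [← CfsgLib.Quad.glEquiv_apply, hg]
    rfl
  refine ⟨g, ⟨fun x y => ?_, ?_⟩, fun x => ?_⟩
  · rw [hgx, hgx]
    exact (qrefl_mem h hz hd _ _).trans (qrefl_mem h hz' hd' _ _)
  · refine mem_sl.2 ?_
    have h1 : LinearMap.det (Matrix.toLin' (g : Matrix ι ι F)) = LinearMap.det ((qrefl h hz hd : (ι → F) →ₗ[F] (ι → F)) ∘ₗ (qrefl h hz' hd' : (ι → F) →ₗ[F] (ι → F))) := by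
      congr 1
      apply LinearMap.ext
      intro x
      rw [Matrix.toLin'_apply]
      exact hgx x
    rw [LinearMap.det_toLin', LinearMap.det_comp, det_qrefl, det_qrefl, mul_inv_cancel₀ hd0] at h1
    exact h1
  · rw [hgx, qrefl_apply, qrefl_apply, map_add_right, map_smul_right, hzz, mul_zero, add_zero]
    abel

theorem exists_normone_ne : ∃ d : F, d * σ d = 1 ∧ d ≠ 1 := by
  haveI := hq.finite
  by_contra hne
  push Not at hne
  have h1 := hq.card_norm_one
  haveI : Subsingleton {a : F // a * σ a = 1} := ⟨fun a b => Subtype.ext ((hne a.1 a.2).trans (hne b.1 b.2).symm)⟩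
  have h2 : Nat.card {a : F // a * σ a = 1} ≤ 1 := Finite.card_le_one_iff_subsingleton.2 inferInstance
  have := hq.two_le
  omega

end CfsgLib.Cuw2
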