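import Cfsg.Agent.Lib.Cuo1
import Cfsg.Agent.Lib.Cuw2

set_option autoImplicit false
set_option maxHeartbeats 400000
set_option linter.unusedSectionVars false

/-! The orthogonal group over the fixed field inside the unitary group: preparations. -/
namespace CfsgLib.Cuo2

open Cfsg Cfsg.Geo Module CfsgLib.GeoBase CfsgLib.Asch1 CfsgLib.Herm CfsgLib.Asu1 CfsgLib.Cts1 CfsgLib.Cts2 CfsgLib.Cts3 CfsgLib.Cur1 CfsgLib.Cur2 CfsgLib.Cuo1

universe u

variable {ι : Type} [Fintype ι] [DecidableEq ι] {F : Type u} [Field F] {σ : F →+* F} {q : ℕ} {B : (ι → F) →ₛₗ[σ] (ι → F) →ₗ[F] F}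
  {F₀ : Subfield F}

/-- the Siegel transformation lies in M -/
def SI (B : (ι → F) →ₛₗ[σ] (ι → F) →ₗ[F] F) (M : Subgroup (Matrix.GeneralLinearGroup ι F)) (a y : ι → F) (c : F) : Prop :=
  ∃ k ∈ M, ∀ v, Matrix.mulVec (k : Matrix ι ι F) v = v + B a v • y + (c * B a v - B y v) • a

/-- a transvection lies in M -/
def TV (B : (ι → F) →ₛₗ[σ] (ι → F) →ₗ[F] F) (M : Subgroup (Matrix.GeneralLinearGroup ι F)) (a : ι → F) (c : F) : Prop :=
  ∃ k ∈ M, ∀ v, Matrix.mulVec (k : Matrix ι ι F) v = v + (c * B a v) • a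

theorem SI.conj {M : Subgroup (Matrix.GeneralLinearGroup ι F)} {a y : ι → F} {c : F} (hs : SI B M a y c) {g : Matrix.GeneralLinearGroup ι F} (hg : g ∈ M) (hgU : g ∈ UB B) :
    SI B M (Matrix.mulVec (g : Matrix ι ι F) a) (Matrix.mulVec (g : Matrix ι ι F) y) c := by
  obtain ⟨k, hk, hkx⟩ := hs
  refine ⟨g * k * g⁻¹, M.mul_mem (M.mul_mem hg hk) (M.inv_mem hg), fun v => ?_⟩
  have h1 := hgU a (Matrix.mulVec ((g⁻¹ : Matrix.GeneralLinearGroup ι F) : Matrix ι ι F) v)
  have h2 := hgU y (Matrix.mulVec ((g⁻¹ : Matrix.GeneralLinearGroup ι F) : Matrix ι ι F) v)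
  rw [mulVec_inv] at h1 h2
  rw [mulVec_mul, mulVec_mul, hkx, mulVec_add', mulVec_add', mulVec_smul', mulVec_smul', mulVec_inv, ← h1, ← h2]

section
variable (h : HForm B) {M : Subgroup (Matrix.GeneralLinearGroup ι F)}
include h

theorem SI.mul {a y y' : ι → F} {c c' : F} (hs : SI B M a y c) (hs' : SI B M a y' c') (ha : B a a = 0) (hy : B a y = 0) (hy' : B a y' = 0) :
    SI B M a (y + y') (c + c' - B y y') := by
  obtain ⟨k, hk, hkx⟩ := hs
  obtain ⟨l, hl, hlx⟩ := hs'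
  refine ⟨k * l, M.mul_mem hk hl, fun v => ?_⟩
  have hya : B y a = 0 := h.eq_zero_comm hy
  rw [mulVec_mul, hlx, hkx]
  simp only [map_add_right, map_smul_right, ha, hy, hy', hya, map_add_left]
  module

theorem SI.diff {a y : ι → F} {c c' : F} (hs : SI B M a y c) (hs' : SI B M a y c') (ha : B a a = 0) (hy : B a y = 0) : TV B M a (c - c') := by
  obtain ⟨k, hk, hkx⟩ := hs
  obtain ⟨l, hl, hlx⟩ := hs'
  refine ⟨k * l⁻¹, M.mul_mem hk (M.inv_mem hl), fun v => ?_⟩
  obtain ⟨w, hw⟩ : ∃ w, Matrix.mulVec ((l⁻¹ : Matrix.GeneralLinearGroup ι F) : Matrix ι ι F) v = w := ⟨_, rfl⟩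
  have hv : v = Matrix.mulVec (l : Matrix ι ι F) w := by rw [← hw, mulVec_inv]
  rw [mulVec_mul, hw, hv, hlx, hkx]
  simp only [map_add_right, map_smul_right, ha, hy]
  module

theorem SI.adj {a y : ι → F} {c d : F} (hs : SI B M a y c) (ht : TV B M a d) (ha : B a a = 0) (hy : B a y = 0) : SI B M a y (c + d) := by
  obtain ⟨k, hk, hkx⟩ := hs
  obtain ⟨l, hl, hlx⟩ := ht
  refine ⟨k * l, M.mul_mem hk hl, fun v => ?_⟩
  have hya : B y a = 0 := h.eq_zero_comm hy
  rw [mulVec_mul, hlx, hkx]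
  simp only [map_add_right, map_smul_right, ha, hya]
  module

end

theorem TT.tv {M : Subgroup (Matrix.GeneralLinearGroup ι F)} {a : ι → F} (ht : TT 1 B M a) {d : F} (hd : d + σ d = 0) : TV B M a d := ht d (by rw [one_mul]; exact hd)

section
variable (hq : QConj σ q) (h : HForm B) (hF0 : ∀ a, a ∈ F₀ ↔ σ a = a) {P : Matrix.GeneralLinearGroup ι F}
  (hP : ∀ x y : ι → F₀, B (pe P x) (pe P y) ∈ F₀)

/-- the symmetric form over the subfield -/
noncomputable def bs : LinearMap.BilinForm F₀ (ι → F₀) := bf (fun a ha => (hF0 a).1 ha) 1 P (fun x y => by rw [one_mul]; exact hP x y)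

theorem bs_apply (x y : ι → F₀) : B (pe P x) (pe P y) = ((bs hF0 hP x y : F₀) : F) := by
  change _ = 1 * B (pe P x) (pe P y)
  rw [one_mul]

include h in
theorem bs_symm (x y : ι → F₀) : bs hF0 hP x y = bs hF0 hP y x := by
  apply Subtype.ext
  rw [← bs_apply, ← bs_apply]
  have h1 := (hF0 _).1 (hP y x)
  rw [h.symm] at h1
  exact h1

include h in
theorem bs_nd (hinv : ∀ a, σ (σ a) = a) {θ : F} (hθ : σ θ ≠ θ) : (bs hF0 hP).Nondegenerate := by
  have hR : (bs hF0 hP).IsRefl := fun u v huv => by rw [bs_symm h]; exact huv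
  refine (hR.nondegenerate_iff_separatingLeft).mpr ?_
  intro x hx
  have h0 : pe P x = 0 := by
    apply h.nd
    intro v
    obtain ⟨y, z, rfl⟩ := exists_pair hF0 hinv hθ P v
    rw [map_add_right, map_smul_right, bs_apply hF0 hP, bs_apply hF0 hP, hx, hx]
    simp
  apply pe_inj P
  rw [h0]
  unfold pe
  exact (Matrix.mulVec_zero _).symm

include hq h hF0 hP in
/-- rational Siegel transformations -/
theorem rsieg (h2 : (2 : F) ≠ 0) {x y : ι → F₀} (hx : bs hF0 hP x x = 0) (hxy : bs hF0 hP x y = 0) :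
    SI B (subfieldSubgroup F₀ P ⊓ GB B) (pe P x) (pe P y) (-(B (pe P y) (pe P y)) / 2) := by
  have hx' : B (pe P x) (pe P x) = 0 := by rw [bs_apply hF0 hP, hx]; rfl
  have hxy' : B (pe P x) (pe P y) = 0 := by rw [bs_apply hF0 hP, hxy]; rfl
  have hyy := (hF0 _).1 (hP y y)
  obtain ⟨g, hg, hgx⟩ := CfsgLib.Cuw1.exists_siegel hq h (u := pe P x) (y := pe P y) (c := -(B (pe P y) (pe P y)) / 2) hx' hxy' (by
    rw [map_div₀, map_neg, hyy, map_ofNat]
    field_simp
    ring)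
  refine ⟨g, ⟨mem_sub P fun v => ?_, hg⟩, hgx⟩
  have hc : -(B (pe P y) (pe P y)) / 2 ∈ F₀ := by
    rw [hF0, map_div₀, map_neg, hyy, map_ofNat]
  refine ⟨v + (bs hF0 hP x v) • y + ((⟨_, hc⟩ : F₀) * bs hF0 hP x v - bs hF0 hP y v) • x, ?_⟩
  rw [hgx, pe_add, pe_add, pe_smul, pe_smul, bs_apply hF0 hP x v, bs_apply hF0 hP y v]
  rfl

include hq h hF0 in
/-- rational isotropic vectors span -/
theorem exists_ne (h2 : (2 : F) ≠ 0) (h13 : 13 ≤ Fintype.card ι) {θ : F} (hθ : σ θ ≠ θ) {v : ι → F} (hv : v ≠ 0) :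
    ∃ u : ι → F₀, bs hF0 hP u u = 0 ∧ B (pe P u) v ≠ 0 := by
  haveI := hq.finite
  have hinv := hq.invol
  have h2' : (2 : F₀) ≠ 0 := fun h0 => h2 ((map_ofNat F₀.subtype 2).symm.trans ((congrArg F₀.subtype h0).trans (map_zero _)))
  have hs := bs_symm h hF0 hP
  have hnd := bs_nd h hF0 hP hinv hθ
  have hfin : finrank F₀ (ι → F₀) = Fintype.card ι := finrank_fintype_fun_eq_card F₀
  by_contra hno
  push Not at hno
  obtain ⟨a, -, ha0, haa⟩ := exists_iso h2' hs (U := ⊤) (by rw [finrank_top]; omega)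
  obtain ⟨f, hff, haf⟩ := exists_part h2' hs hnd ha0 haa
  have hfa : bs hF0 hP f a = 1 := by rw [hs]; exact haf
  have key : ∀ y : ι → F₀, bs hF0 hP a y = 0 → B (pe P y) v = 0 := by
    intro y hy
    have hya : bs hF0 hP y a = 0 := by rw [hs]; exact hy
    have hyf : bs hF0 hP y f = bs hF0 hP f y := hs _ _
    have h1 := hno (f + y + (-(bs hF0 hP y y) / 2 - bs hF0 hP f y) • a) (by
      simp only [map_add, LinearMap.add_apply, map_smul, LinearMap.smul_apply, smul_eq_mul, hff, haa, haf, hfa, hya, hy, hyf]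
      field_simp
      ring)
    rw [pe_add, pe_add, pe_smul, map_add_left, map_add_left, map_smul_left, hno f hff, hno a haa] at h1
    simpa using h1
  have key2 : ∀ y : ι → F₀, B (pe P y) v = 0 := by
    intro y
    have h1 := key (y - (bs hF0 hP a y) • f) (by rw [map_sub, map_smul, haf, smul_eq_mul, mul_one, sub_self])
    have h3 : y = (y - (bs hF0 hP a y) • f) + (bs hF0 hP a y) • f := by abel
    rw [h3, pe_add, map_add_left, h1, pe_smul, map_smul_left, hno f hff, mul_zero, zero_add]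
  apply hv
  apply h.nd
  intro w
  obtain ⟨x, y, rfl⟩ := exists_pair hF0 hinv hθ P w
  apply h.eq_zero_comm
  rw [map_add_left, map_smul_left, key2, key2, mul_zero, add_zero]

end

end CfsgLib.Cuo2
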