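import Cfsg.Agent.Lib.Cuo2

set_option autoImplicit false
set_option maxHeartbeats 400000
set_option linter.unusedSectionVars false

/-! The orthogonal group over the fixed field inside the unitary group: the first transvection. -/
namespace CfsgLib.Cuo3

open Cfsg Cfsg.Geo Module CfsgLib.GeoBase CfsgLib.Asch1 CfsgLib.Herm CfsgLib.Asu1 CfsgLib.Cts1 CfsgLib.Cts2 CfsgLib.Cts3 CfsgLib.Cur1 CfsgLib.Cur2 CfsgLib.Cuo1 CfsgLib.Cuo2

universe u

variable {ι : Type} [Fintype ι] [DecidableEq ι] {F : Type u} [Field F] {σ : F →+* F} {q : ℕ} {B : (ι → F) →ₛₗ[σ] (ι → F) →ₗ[F] F}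
  {F₀ : Subfield F}

variable (hq : QConj σ q) (h : HForm B) (hF0 : ∀ a, a ∈ F₀ ↔ σ a = a) {P : Matrix.GeneralLinearGroup ι F}
  (hP : ∀ x y : ι → F₀, B (pe P x) (pe P y) ∈ F₀)

include hq h hF0

/-- an isotropic rational line moved to a non-rational line -/
theorem exists_bad (h2 : (2 : F) ≠ 0) (h13 : 13 ≤ Fintype.card ι) {θ : F} (hθ : σ θ ≠ θ) {g : Matrix.GeneralLinearGroup ι F} (hgU : g ∈ UB B) (hgs : g ∉ subfieldSubgroup F₀ P) :
    ∃ a' : ι → F₀, bs hF0 hP a' a' = 0 ∧ ∀ (c : F) (y : ι → F₀), Matrix.mulVec (g : Matrix ι ι F) (pe P a') ≠ c • pe P y := by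
  by_contra hno
  push Not at hno
  haveI : Nonempty ι := Fintype.card_pos_iff.1 (by omega)
  have h2' : (2 : F₀) ≠ 0 := fun h0 => h2 ((map_ofNat F₀.subtype 2).symm.trans ((congrArg F₀.subtype h0).trans (map_zero _)))
  have hs := bs_symm h hF0 hP
  have hinv := hq.invol
  apply hgs
  apply mem_sub' P
  intro x
  by_cases hxx : bs hF0 hP x x = 0
  · exact hno x hxx
  have hx0 : pe P x ≠ 0 := by
    intro h0
    apply hxx
    apply Subtype.ext
    rw [← bs_apply hF0 hP, h0, map_zero_left]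
    rfl
  obtain ⟨u, huu, hux'⟩ := exists_ne hq h hF0 hP h2 h13 hθ hx0
  have hux : bs hF0 hP u x ≠ 0 := fun h0 => hux' (by rw [bs_apply hF0 hP, h0]; rfl)
  let μ : F₀ := bs hF0 hP x x / (2 * bs hF0 hP u x)
  have hμ0 : μ ≠ 0 := div_ne_zero hxx (mul_ne_zero h2' hux)
  have e0 : bs hF0 hP (μ • u) (x - μ • u) ≠ 0 := by
    rw [map_sub, map_smul, map_smul, LinearMap.smul_apply, LinearMap.smul_apply, huu, smul_eq_mul, smul_zero, smul_zero, sub_zero]
    exact mul_ne_zero hμ0 hux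
  obtain ⟨c₁, y₁, h₁⟩ := hno (μ • u) (by rw [map_smul, map_smul, LinearMap.smul_apply, huu]; simp)
  obtain ⟨c₂, y₂, h₂⟩ := hno (x - μ • u) (by
    simp only [map_sub, LinearMap.sub_apply, map_smul, LinearMap.smul_apply, smul_eq_mul, huu, hs x u]
    simp only [μ]
    field_simp
    ring)
  have e1 := hgU (pe P (μ • u)) (pe P (x - μ • u))
  rw [h₁, h₂, map_smul_left, map_smul_right, bs_apply hF0 hP, bs_apply hF0 hP] at e1
  have e0' : ((bs hF0 hP (μ • u) (x - μ • u) : F₀) : F) ≠ 0 := fun h0 => e0 (Subtype.ext h0)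
  have hc1 : c₁ ≠ 0 := by
    rintro rfl
    rw [map_zero, zero_mul] at e1
    exact e0' e1.symm
  have hc2 : c₂ ≠ 0 := by
    rintro rfl
    rw [zero_mul, mul_zero] at e1
    exact e0' e1.symm
  have hb1 : ((bs hF0 hP y₁ y₂ : F₀) : F) ≠ 0 := by
    intro h0
    rw [h0, mul_zero, mul_zero] at e1
    exact e0' e1.symm
  have e2 : σ c₁ * c₂ = ((bs hF0 hP (μ • u) (x - μ • u) : F₀) : F) / ((bs hF0 hP y₁ y₂ : F₀) : F) := by
    rw [eq_div_iff hb1, ← e1]
    ring
  have e3 : σ (σ c₁ * c₂) = σ c₁ * c₂ := by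
    rw [e2]
    exact (hF0 _).1 (F₀.div_mem (bs hF0 hP _ _).2 (bs hF0 hP _ _).2)
  rw [map_mul, hinv] at e3
  have hr : c₁ / c₂ ∈ F₀ := by
    have hσ2 : σ c₂ ≠ 0 := by rw [Ne, map_eq_zero]; exact hc2
    rw [hF0, map_div₀, div_eq_div_iff hσ2 hc2]
    exact e3.symm
  refine ⟨c₂, (⟨_, hr⟩ : F₀) • y₁ + y₂, ?_⟩
  have e4 : x = μ • u + (x - μ • u) := by abel
  rw [e4, pe_add, mulVec_add', h₁, h₂, pe_add, pe_smul, smul_add, smul_smul]
  congr 2
  change c₁ = c₂ * (c₁ / c₂)
  field_simp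

/-- the image vectors are not all in a plane -/
theorem exists_y0 (h13 : 13 ≤ Fintype.card ι) {θ : F} (hθ : σ θ ≠ θ) (g : Matrix.GeneralLinearGroup ι F) (a' : ι → F₀) (x y : ι → F₀) :
    ∃ y₀ x₁ y₁ : ι → F₀, bs hF0 hP a' y₀ = 0 ∧ Matrix.mulVec (g : Matrix ι ι F) (pe P y₀) = pe P x₁ + θ • pe P y₁ ∧
      ¬ (x₁ ∈ Submodule.span F₀ {x, y} ∧ y₁ ∈ Submodule.span F₀ {x, y}) := by
  haveI := hq.finite
  by_contra hno
  push Not at hno
  have hinv := hq.invol
  let G : Submodule F (ι → F) := (Submodule.span F {pe P x, pe P y}).comap (Matrix.toLin' (g : Matrix ι ι F))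
  have hspan : ∀ z : ι → F₀, z ∈ Submodule.span F₀ {x, y} → pe P z ∈ Submodule.span F {pe P x, pe P y} := by
    intro z hz
    obtain ⟨s, t, rfl⟩ := Submodule.mem_span_pair.1 hz
    rw [pe_add, pe_smul, pe_smul]
    exact Submodule.add_mem _ (Submodule.smul_mem _ _ (Submodule.subset_span (by simp))) (Submodule.smul_mem _ _ (Submodule.subset_span (by simp)))
  have hG : ∀ y₀ : ι → F₀, bs hF0 hP a' y₀ = 0 → pe P y₀ ∈ G := by
    intro y₀ hy₀
    obtain ⟨x₁, y₁, hxy⟩ := exists_pair hF0 hinv hθ P (Matrix.mulVec (g : Matrix ι ι F) (pe P y₀))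
    have h1 := hno y₀ x₁ y₁ hy₀ hxy
    change Matrix.toLin' (g : Matrix ι ι F) (pe P y₀) ∈ Submodule.span F {pe P x, pe P y}
    rw [Matrix.toLin'_apply, hxy]
    exact Submodule.add_mem _ (hspan _ h1.1) (Submodule.smul_mem _ _ (hspan _ h1.2))
  have hle : perp B (Submodule.span F {pe P a'}) ≤ G := by
    intro v hv
    have hv1 : B (pe P a') v = 0 := mem_perp_span.1 hv
    obtain ⟨r, s, rfl⟩ := exists_pair hF0 hinv hθ P v
    rw [map_add_right, map_smul_right, bs_apply hF0 hP, bs_apply hF0 hP] at hv1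
    have hs0 : bs hF0 hP a' s = 0 := by
      by_contra hc
      apply hθ
      rw [← hF0]
      have hc' : ((bs hF0 hP a' s : F₀) : F) ≠ 0 := fun h0 => hc (Subtype.ext h0)
      have : θ = -((bs hF0 hP a' r : F₀) : F) / ((bs hF0 hP a' s : F₀) : F) := by
        rw [eq_div_iff hc']
        linear_combination hv1
      rw [this]
      exact F₀.div_mem (F₀.neg_mem (bs hF0 hP _ _).2) (bs hF0 hP _ _).2
    have hr0 : bs hF0 hP a' r = 0 := by
      rw [hs0] at hv1
      apply Subtype.ext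
      simpa using hv1
    exact G.add_mem (hG r hr0) (G.smul_mem _ (hG s hs0))
  have h1 := Submodule.finrank_mono hle
  have h3 := finrank_perp hq h (Submodule.span F {pe P a'})
  rw [finrank_fintype_fun_eq_card] at h3
  have h4 : finrank F (Submodule.span F {pe P a'}) ≤ 1 := by
    classical
    exact (finrank_span_le_card ({pe P a'} : Set (ι → F))).trans (by simp)
  have hinj : Function.Injective (Matrix.toLin' (g : Matrix ι ι F)) := fun y z hyz => mulVec_injective g (by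
    rw [Matrix.toLin'_apply, Matrix.toLin'_apply] at hyz
    exact hyz)
  have h5 : finrank F G ≤ 2 := by
    rw [(Submodule.equivMapOfInjective _ hinj G).finrank_eq]
    refine (Submodule.finrank_mono (Submodule.map_comap_le _ _)).trans ?_
    classical
    have h6 := finrank_span_finset_le_card (R := F) ({pe P x, pe P y} : Finset (ι → F))
    have h7 : (({pe P x, pe P y} : Finset (ι → F)) : Set (ι → F)) = {pe P x, pe P y} := by simp
    have h8 := Finset.card_le_two (a := pe P x) (b := pe P y)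
    unfold Set.finrank at h6
    rw [h7] at h6
    exact h6.trans h8
  omega

end CfsgLib.Cuo3
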