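import Cfsg.Agent.Lib.Cuo3

set_option autoImplicit false
set_option maxHeartbeats 400000
set_option linter.unusedSectionVars false

/-! The orthogonal group over the fixed field inside the unitary group: the first transvection. -/
namespace CfsgLib.Cuo4

open Cfsg Cfsg.Geo Module CfsgLib.GeoBase CfsgLib.Asch1 CfsgLib.Herm CfsgLib.Asu1 CfsgLib.Cts1 CfsgLib.Cts2 CfsgLib.Cts3 CfsgLib.Cur1 CfsgLib.Cur2 CfsgLib.Cuo1 CfsgLib.Cuo2 CfsgLib.Cuo3

universe u

variable {ι : Type} [Fintype ι] [DecidableEq ι] {F : Type u} [Field F] {σ : F →+* F} {q : ℕ} {B : (ι → F) →ₛₗ[σ] (ι → F) →ₗ[F] F}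
  {F₀ : Subfield F}

variable (hq : QConj σ q) (h : HForm B) (hF0 : ∀ a, a ∈ F₀ ↔ σ a = a) {P : Matrix.GeneralLinearGroup ι F}
  (hP : ∀ x y : ι → F₀, B (pe P x) (pe P y) ∈ F₀)

include hq h hF0

theorem first_tt (h2 : (2 : F) ≠ 0) (h13 : 13 ≤ Fintype.card ι) {θ : F} (hθ : σ θ ≠ θ) {M : Subgroup (Matrix.GeneralLinearGroup ι F)}
    (hHM : subfieldSubgroup F₀ P ⊓ GB B ≤ M) (hMG : M ≤ GB B) {g : Matrix.GeneralLinearGroup ι F} (hg : g ∈ M) (hgs : g ∉ subfieldSubgroup F₀ P) :
    ∃ a : ι → F₀, a ≠ 0 ∧ bs hF0 hP a a = 0 ∧ TT 1 B M (pe P a) := by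
  haveI := hq.finite
  have hinv := hq.invol
  have hgU : g ∈ UB B := (hMG hg).1
  have hMU : ∀ k ∈ M, k ∈ UB B := fun k hk => (hMG hk).1
  have h2' : (2 : F₀) ≠ 0 := fun h0 => h2 ((map_ofNat F₀.subtype 2).symm.trans ((congrArg F₀.subtype h0).trans (map_zero _)))
  have hs := bs_symm h hF0 hP
  have hnd := bs_nd h hF0 hP hinv hθ
  have hfin : finrank F₀ (ι → F₀) = Fintype.card ι := finrank_fintype_fun_eq_card F₀
  have hb := bs_apply hF0 hP
  have hσθ : σ θ ∉ F₀ := by
    rw [hF0, hinv]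
    exact fun h0 => hθ h0.symm
  -- B(pe x + θ pe y, pe z)
  have hB : ∀ x y z : ι → F₀, B (pe P x + θ • pe P y) (pe P z) = ((bs hF0 hP x z : F₀) : F) + σ θ * ((bs hF0 hP y z : F₀) : F) := by
    intro x y z
    rw [map_add_left, map_smul_left, hb, hb]
  have hBne : ∀ s t : F₀, (s ≠ 0 ∨ t ≠ 0) → (s : F) + σ θ * (t : F) ≠ 0 := by
    intro s t hst h0
    by_cases ht : t = 0
    · rw [ht] at h0
      rcases hst with hs0 | ht0
      · apply hs0
        apply Subtype.ext
        simpa using h0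
      · exact ht0 ht
    · apply hσθ
      have ht' : (t : F) ≠ 0 := fun h1 => ht (Subtype.ext h1)
      have : σ θ = -(s : F) / (t : F) := by
        rw [eq_div_iff ht']
        linear_combination h0
      rw [this]
      exact F₀.div_mem (F₀.neg_mem s.2) t.2
  obtain ⟨a', ha'a', hbad⟩ := exists_bad hq h hF0 hP h2 h13 hθ hgU hgs
  obtain ⟨x, y, hw⟩ := exists_pair hF0 hinv hθ P (Matrix.mulVec (g : Matrix ι ι F) (pe P a'))
  obtain ⟨y₀, x₁, y₁, hy₀, hy', hnot⟩ := exists_y0 hq h hF0 hP h13 hθ g a' x y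
  rw [hw] at hbad
  -- the vector a
  obtain ⟨a, haX, haa, hax⟩ := exists_iso_out h2' hs hnd (X := Submodule.span F₀ {x, y, x₁, y₁}) (by
    classical
    have h6 := finrank_span_finset_le_card (R := F₀) ({x, y, x₁, y₁} : Finset (ι → F₀))
    have h7 : (({x, y, x₁, y₁} : Finset (ι → F₀)) : Set (ι → F₀)) = {x, y, x₁, y₁} := by simp
    have h8 := Finset.card_le_four (a := x) (b := y) (c := x₁) (d := y₁)
    unfold Set.finrank at h6
    rw [h7] at h6
    exact h6.trans h8) (by rw [hfin]; exact h13)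
  have hXle : Submodule.span F₀ {x, y} ≤ Submodule.span F₀ {x, y, x₁, y₁} := Submodule.span_mono (by
    intro z hz
    rcases hz with rfl | hz
    · simp
    · rw [Set.mem_singleton_iff.1 hz]; simp)
  have hxa : bs hF0 hP x a = 0 := hax x (Submodule.subset_span (by simp))
  have hya : bs hF0 hP y a = 0 := hax y (Submodule.subset_span (by simp))
  have hx₁a : bs hF0 hP x₁ a = 0 := hax x₁ (Submodule.subset_span (by simp))
  have hy₁a : bs hF0 hP y₁ a = 0 := hax y₁ (Submodule.subset_span (by simp))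
  have haX2 : a ∉ Submodule.span F₀ {x, y} := fun h0 => haX (hXle h0)
  have ha0 : a ≠ 0 := by
    rintro rfl
    exact haX (Submodule.zero_mem _)
  -- the vector z
  have hout : ∀ v, v ∈ Submodule.span F₀ {x, y, x₁, y₁} → v ∉ Submodule.span F₀ {x, y} → v ∉ Submodule.span F₀ {a, x, y} := by
    intro v hv hvX hvX3
    obtain ⟨α, z', hz', hvz⟩ := Submodule.mem_span_insert.1 hvX3
    by_cases hα : α = 0
    · rw [hα, zero_smul, zero_add] at hvz
      exact hvX (hvz ▸ hz')
    · apply haX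
      have : a = α⁻¹ • (v - z') := by
        rw [hvz, add_sub_cancel_right, smul_smul, inv_mul_cancel₀ hα, one_smul]
      rw [this]
      exact Submodule.smul_mem _ _ (Submodule.sub_mem _ hv (hXle hz'))
  obtain ⟨z, hza, hzx, hzy, hzne⟩ : ∃ z : ι → F₀, bs hF0 hP a z = 0 ∧ bs hF0 hP x z = 0 ∧ bs hF0 hP y z = 0 ∧ (bs hF0 hP x₁ z ≠ 0 ∨ bs hF0 hP y₁ z ≠ 0) := by
    by_cases h1 : x₁ ∈ Submodule.span F₀ {x, y}
    · have h3 : y₁ ∉ Submodule.span F₀ {x, y} := fun h3 => hnot ⟨h1, h3⟩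
      obtain ⟨z, hz, hz1⟩ := exists_sep hs hnd (hout y₁ (Submodule.subset_span (by simp)) h3)
      exact ⟨z, hz a (Submodule.subset_span (by simp)), hz x (Submodule.subset_span (by simp)), hz y (Submodule.subset_span (by simp)), Or.inr (by rw [hz1]; exact one_ne_zero)⟩
    · obtain ⟨z, hz, hz1⟩ := exists_sep hs hnd (hout x₁ (Submodule.subset_span (by simp)) h1)
      exact ⟨z, hz a (Submodule.subset_span (by simp)), hz x (Submodule.subset_span (by simp)), hz y (Submodule.subset_span (by simp)), Or.inl (by rw [hz1]; exact one_ne_zero)⟩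
  -- the Siegel transformation with centre w
  have hk0 := rsieg hq h hF0 hP h2 ha'a' hy₀
  have hk0M : SI B M (pe P a') (pe P y₀) (-(B (pe P y₀) (pe P y₀)) / 2) := by
    obtain ⟨k, hk, hkx⟩ := hk0
    exact ⟨k, hHM hk, hkx⟩
  have hk1 := hk0M.conj hg hgU
  rw [hw, hy'] at hk1
  obtain ⟨k, hk, hkx⟩ := hk1
  have hwa : B (pe P x + θ • pe P y) (pe P a) = 0 := by rw [hB, hxa, hya]; simp
  have hy'a : B (pe P x₁ + θ • pe P y₁) (pe P a) = 0 := by rw [hB, hx₁a, hy₁a]; simp
  have hwz : B (pe P x + θ • pe P y) (pe P z) = 0 := by rw [hB, hzx, hzy]; simp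
  have hy'z : B (pe P x₁ + θ • pe P y₁) (pe P z) ≠ 0 := by rw [hB]; exact hBne _ _ hzne
  obtain ⟨lam, hlam⟩ : ∃ l, B (pe P x₁ + θ • pe P y₁) (pe P z) = l := ⟨_, rfl⟩
  rw [hlam] at hy'z
  obtain ⟨w, hwdef⟩ : ∃ w, pe P x + θ • pe P y = w := ⟨_, rfl⟩
  obtain ⟨y', hy'def⟩ : ∃ w, pe P x₁ + θ • pe P y₁ = w := ⟨_, rfl⟩
  have hka : Matrix.mulVec (k : Matrix ι ι F) (pe P a) = pe P a := by
    rw [hkx, hwa, hy'a]
    simp
  have hkz : Matrix.mulVec (k : Matrix ι ι F) (pe P z) = pe P z - lam • w := by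
    rw [hkx, hwz, hlam, hwdef]
    module
  -- a non-rational Siegel transformation with rational centre
  have hSY : SI B M (pe P a) (pe P z - lam • w) (-(B (pe P z) (pe P z)) / 2) := by
    obtain ⟨k', hk', hkx'⟩ := rsieg hq h hF0 hP h2 haa hza
    have h3 : SI B M (pe P a) (pe P z) (-(B (pe P z) (pe P z)) / 2) := ⟨k', hHM hk', hkx'⟩
    have h4 := h3.conj hk (hMU k hk)
    rw [hka, hkz] at h4
    exact h4
  -- a rational vector with non-rational product
  obtain ⟨r, har, hr⟩ : ∃ r : ι → F₀, bs hF0 hP a r = 0 ∧ B (lam • w) (pe P r) ∉ F₀ := by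
    by_contra hno
    push Not at hno
    have hxn : x ∉ Submodule.span F₀ {a, y} := by
      intro hx
      obtain ⟨α, β, hαβ⟩ := Submodule.mem_span_pair.1 hx
      by_cases hα : α = 0
      · rw [hα, zero_smul, zero_add] at hαβ
        apply hbad ((β : F) + θ) y
        rw [← hαβ, pe_smul, add_smul]
      · apply haX2
        have : a = α⁻¹ • (x - β • y) := by
          rw [← hαβ, add_sub_cancel_right, smul_smul, inv_mul_cancel₀ hα, one_smul]
        rw [this]
        exact Submodule.smul_mem _ _ (Submodule.sub_mem _ (Submodule.subset_span (by simp)) (Submodule.smul_mem _ _ (Submodule.subset_span (by simp))))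
    have hyn : y ∉ Submodule.span F₀ {a, x} := by
      intro hy
      obtain ⟨α, β, hαβ⟩ := Submodule.mem_span_pair.1 hy
      by_cases hα : α = 0
      · rw [hα, zero_smul, zero_add] at hαβ
        apply hbad (1 + θ * (β : F)) x
        rw [← hαβ, pe_smul, add_smul, one_smul, smul_smul]
      · apply haX2
        have : a = α⁻¹ • (y - β • x) := by
          rw [← hαβ, add_sub_cancel_right, smul_smul, inv_mul_cancel₀ hα, one_smul]
        rw [this]
        exact Submodule.smul_mem _ _ (Submodule.sub_mem _ (Submodule.subset_span (by simp)) (Submodule.smul_mem _ _ (Submodule.subset_span (by simp))))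
    obtain ⟨r₁, hr₁, hr₁x⟩ := exists_sep hs hnd hxn
    obtain ⟨r₂, hr₂, hr₂y⟩ := exists_sep hs hnd hyn
    have e1 := hno r₁ (hr₁ a (Submodule.subset_span (by simp)))
    have e2 := hno r₂ (hr₂ a (Submodule.subset_span (by simp)))
    rw [map_smul_left, ← hwdef, hB] at e1 e2
    rw [hr₁x, hr₁ y (Submodule.subset_span (by simp))] at e1
    rw [hr₂y, hr₂ x (Submodule.subset_span (by simp))] at e2
    have e1' : σ lam ∈ F₀ := by simpa using e1
    have e2' : σ lam * σ θ ∈ F₀ := by simpa using e2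
    have hlam0 : σ lam ≠ 0 := by rw [Ne, map_eq_zero]; exact hy'z
    apply hσθ
    have : σ θ = (σ lam * σ θ) / σ lam := by field_simp
    rw [this]
    exact F₀.div_mem e2' e1'
  -- the transvections
  refine ⟨a, ha0, haa, fun b hb' => ?_⟩
  rw [one_mul] at hb'
  have haY : B (pe P a) (pe P z - lam • w) = 0 := by
    have e1 : B (pe P a) w = 0 := by
      apply h.eq_zero_comm
      rw [← hwdef]
      exact hwa
    rw [map_sub, map_smul_right, e1, hb, hza]
    simp
  have haR : B (pe P a) (pe P r) = 0 := by rw [hb, har]; rfl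
  have haA : B (pe P a) (pe P a) = 0 := by rw [hb, haa]; rfl
  obtain ⟨β, hβ⟩ : ∃ β, B (pe P z - lam • w) (pe P r) = β := ⟨_, rfl⟩
  have hβF : σ β ≠ β := by
    rw [Ne, ← hF0, ← hβ]
    intro h0
    apply hr
    have h3 : B (lam • w) (pe P r) = B (pe P z) (pe P r) - B (pe P z - lam • w) (pe P r) := by
      rw [LinearMap.map_sub, LinearMap.sub_apply]
      ring
    rw [h3]
    exact F₀.sub_mem (hP z r) h0
  have hβ' : B (pe P r) (pe P z - lam • w) = σ β := by rw [← hβ, h.symm]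
  -- scale r
  have hd : σ β - β ≠ 0 := sub_ne_zero.2 hβF
  have hs0 : b / (σ β - β) ∈ F₀ := by
    rw [hF0, map_div₀, map_sub, hinv]
    rw [div_eq_div_iff (sub_ne_zero.2 (Ne.symm hβF)) hd]
    linear_combination (σ β - β) * hb'
  let s : F₀ := ⟨_, hs0⟩
  have hsr : bs hF0 hP a (s • r) = 0 := by rw [map_smul, har, smul_zero]
  obtain ⟨k', hk', hkx'⟩ := rsieg hq h hF0 hP h2 haa hsr
  have h3 : SI B M (pe P a) (pe P (s • r)) (-(B (pe P (s • r)) (pe P (s • r))) / 2) := ⟨k', hHM hk', hkx'⟩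
  have haR' : B (pe P a) (pe P (s • r)) = 0 := by rw [hb, hsr]; rfl
  have h4 := SI.mul h hSY h3 haA haY haR'
  have h5 := SI.mul h h3 hSY haA haR' haY
  rw [add_comm (pe P (s • r))] at h5
  have h6 := SI.diff h h4 h5 haA (by rw [map_add_right, haY, haR', add_zero])
  have h7 : -(B (pe P z) (pe P z)) / 2 + -(B (pe P (s • r)) (pe P (s • r))) / 2 - B (pe P z - lam • w) (pe P (s • r)) - (-(B (pe P (s • r)) (pe P (s • r))) / 2 + -(B (pe P z) (pe P z)) / 2 - B (pe P (s • r)) (pe P z - lam • w)) = b := by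
    have f1 : B (pe P z - lam • w) (pe P (s • r)) = (s : F) * β := by rw [pe_smul, map_smul_right, hβ]
    have f2 : B (pe P (s • r)) (pe P z - lam • w) = (s : F) * σ β := by rw [pe_smul, map_smul_left, hβ', (hF0 _).1 s.2]
    rw [f1, f2]
    have h8 : (s : F) * (σ β - β) = b := by
      change b / (σ β - β) * (σ β - β) = b
      exact div_mul_cancel₀ _ hd
    linear_combination h8
  rw [h7] at h6
  exact h6

end CfsgLib.Cuo4
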