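import Cfsg.Agent.Lib.Cuo4

set_option autoImplicit false
set_option maxHeartbeats 400000
set_option linter.unusedSectionVars false

/-! The orthogonal group over the fixed field inside the unitary group: all Siegel transformations. -/
namespace CfsgLib.Cuo5

open Cfsg Cfsg.Geo Module CfsgLib.GeoBase CfsgLib.Asch1 CfsgLib.Herm CfsgLib.Asu1 CfsgLib.Cts1 CfsgLib.Cts2 CfsgLib.Cts3 CfsgLib.Cur1 CfsgLib.Cur2 CfsgLib.Cuo1 CfsgLib.Cuo2 CfsgLib.Cuo3

universe u

variable {ι : Type} [Fintype ι] [DecidableEq ι] {F : Type u} [Field F] {σ : F →+* F} {q : ℕ} {B : (ι → F) →ₛₗ[σ] (ι → F) →ₗ[F] F}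
  {F₀ : Subfield F}

/-- all Siegel transformations with given data -/
def NN (B : (ι → F) →ₛₗ[σ] (ι → F) →ₗ[F] F) (M : Subgroup (Matrix.GeneralLinearGroup ι F)) (a y : ι → F) : Prop :=
  ∀ c, c + σ c + B y y = 0 → SI B M a y c

variable (hq : QConj σ q) (h : HForm B) (hF0 : ∀ a, a ∈ F₀ ↔ σ a = a) {P : Matrix.GeneralLinearGroup ι F}
  (hP : ∀ x y : ι → F₀, B (pe P x) (pe P y) ∈ F₀) {M : Subgroup (Matrix.GeneralLinearGroup ι F)}

include hq h

theorem NN_add {a y y' : ι → F} (ha : B a a = 0) (hy : B a y = 0) (hy' : B a y' = 0) (h1 : NN B M a y) (h2 : NN B M a y') : NN B M a (y + y') := by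
  intro c hc
  obtain ⟨t, ht⟩ := hq.exists_trace (c := -(B y y)) (by rw [map_neg, h.self_fixed])
  have e1 := h1 t (by rw [ht]; ring)
  have e2 := h2 (c - t + B y y') (by
    rw [map_add, map_sub, h.symm]
    rw [map_add_left, map_add_right, map_add_right] at hc
    linear_combination hc - ht)
  have e3 := SI.mul h e1 e2 ha hy hy'
  have e4 : t + (c - t + B y y') - B y y' = c := by ring
  rw [e4] at e3
  exact e3

theorem NN_of {a y : ι → F} {c₀ : F} (ha : B a a = 0) (hy : B a y = 0) (hT : TT 1 B M a) (hs : SI B M a y c₀) (hc₀ : c₀ + σ c₀ + B y y = 0) : NN B M a y := by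
  intro c hc
  have e1 := SI.adj h hs (TT.tv hT (d := c - c₀) (by
    rw [map_sub]
    linear_combination hc - hc₀)) ha hy
  have e2 : c₀ + (c - c₀) = c := by ring
  rw [e2] at e1
  exact e1

theorem NN_self {a : ι → F} (ha : B a a = 0) (hT : TT 1 B M a) (r : F) : NN B M a (r • a) := by
  intro c hc
  rw [map_smul_left, map_smul_right, ha] at hc
  obtain ⟨k, hk, hkx⟩ := TT.tv hT (d := r + c - σ r) (by
    rw [map_sub, map_add, hq.invol]
    linear_combination hc)
  refine ⟨k, hk, fun v => ?_⟩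
  rw [hkx, map_smul_left]
  module

include hF0

theorem all_tt (h2 : (2 : F) ≠ 0) (h13 : 13 ≤ Fintype.card ι) {θ : F} (hθ : σ θ ≠ θ)
    (hHM : subfieldSubgroup F₀ P ⊓ GB B ≤ M) (hMG : M ≤ GB B) {a : ι → F₀} (ha0 : a ≠ 0) (haa : bs hF0 hP a a = 0) (hT : TT 1 B M (pe P a))
    {c : ι → F₀} (hcc : bs hF0 hP c c = 0) : TT 1 B M (pe P c) := by
  haveI := hq.finite
  have hE := su_eform hq h
  have hinv := hq.invol
  have h2' : (2 : F₀) ≠ 0 := fun h0 => h2 ((map_ofNat F₀.subtype 2).symm.trans ((congrArg F₀.subtype h0).trans (map_zero _)))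
  have hs := bs_symm h hF0 hP
  have hnd := bs_nd h hF0 hP hinv hθ
  have hfin : finrank F₀ (ι → F₀) = Fintype.card ι := finrank_fintype_fun_eq_card F₀
  have hb := bs_apply hF0 hP
  by_cases hc0 : c = 0
  · subst hc0
    intro b _
    have h0 : pe P (0 : ι → F₀) = 0 := Matrix.mulVec_zero _
    exact ⟨1, M.one_mem, fun x => by rw [mulVec_one, h0, smul_zero, add_zero]⟩
  obtain ⟨u, huu, hua, huc⟩ := exists_common h2' hs hnd (by rw [hfin]; exact h13) ha0 haa hc0 hcc
  obtain ⟨a₁, ha₁⟩ : ∃ v, (bs hF0 hP u a)⁻¹ • a = v := ⟨_, rfl⟩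
  obtain ⟨a₂, ha₂⟩ : ∃ v, (bs hF0 hP u c)⁻¹ • c = v := ⟨_, rfl⟩
  have h1 : bs hF0 hP u a₁ = 1 := by rw [← ha₁, map_smul, smul_eq_mul, inv_mul_cancel₀ hua]
  have h3 : bs hF0 hP u a₂ = 1 := by rw [← ha₂, map_smul, smul_eq_mul, inv_mul_cancel₀ huc]
  have h4 : B (pe P a₁) (pe P a₁) = 0 := by rw [hb, ← ha₁, map_smul, map_smul, LinearMap.smul_apply, haa]; simp
  have h5 : B (pe P a₂) (pe P a₂) = 0 := by rw [hb, ← ha₂, map_smul, map_smul, LinearMap.smul_apply, hcc]; simp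
  have huy : bs hF0 hP u (a₂ - a₁) = 0 := by rw [map_sub, h1, h3, sub_self]
  obtain ⟨k, hk, hkx⟩ := rsieg hq h hF0 hP h2 huu huy
  obtain ⟨y, hy⟩ : ∃ y, a₂ - a₁ = y := ⟨_, rfl⟩
  rw [hy] at hkx huy
  have hpy : pe P a₂ = pe P a₁ + pe P y := by
    rw [← pe_add, ← hy]
    congr 1
    abel
  have hua1 : B (pe P u) (pe P a₁) = 1 := by rw [hb, h1]; rfl
  have hsym : B (pe P a₁) (pe P y) = B (pe P y) (pe P a₁) := by rw [hb, hb, hs]
  have h6 : k ∈ M := hHM hk
  have h7 : Matrix.mulVec (k : Matrix ι ι F) (pe P a₁) = pe P a₂ := by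
    rw [hkx, hua1, hpy]
    rw [hpy, map_add_left, map_add_right, map_add_right, h4, hsym] at h5
    have h8 : -(B (pe P y)) (pe P y) / 2 * 1 - (B (pe P y)) (pe P a₁) = 0 := by
      field_simp
      linear_combination (-1 : F) * h5
    rw [h8, one_smul, zero_smul, add_zero]
  have h8 : TT 1 B M (pe P a₂) := by
    rw [← h7]
    apply TT.conj hE _ h6 hk.2.1
    rw [← ha₁, pe_smul]
    exact TT.smul hE hT _
  have h9 : pe P c = ((bs hF0 hP u c : F₀) : F) • pe P a₂ := by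
    rw [← ha₂, ← pe_smul, smul_smul, mul_inv_cancel₀ huc, one_smul]
  rw [h9]
  exact TT.smul hE h8 _

theorem NN_rat (h2 : (2 : F) ≠ 0) (hHM : subfieldSubgroup F₀ P ⊓ GB B ≤ M) {a y : ι → F₀} (haa : bs hF0 hP a a = 0) (hT : TT 1 B M (pe P a)) (hay : bs hF0 hP a y = 0) :
    NN B M (pe P a) (pe P y) := by
  have hb := bs_apply hF0 hP
  obtain ⟨k, hk, hkx⟩ := rsieg hq h hF0 hP h2 haa hay
  refine NN_of hq h (by rw [hb, haa]; rfl) (by rw [hb, hay]; rfl) hT ⟨k, hHM hk, hkx⟩ ?_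
  rw [map_div₀, map_neg, (hF0 _).1 (hP y y), map_ofNat]
  field_simp
  ring

theorem NN_lam (h2 : (2 : F) ≠ 0) (hHM : subfieldSubgroup F₀ P ⊓ GB B ≤ M) (hMG : M ≤ GB B) {a y u : ι → F₀} (haa : bs hF0 hP a a = 0) (hT : TT 1 B M (pe P a)) (hay : bs hF0 hP a y = 0)
    (hau : bs hF0 hP a u = 0) (huu : bs hF0 hP u u = 0) (hTu : TT 1 B M (pe P u)) (huy : bs hF0 hP u y ≠ 0) {s : F} (hs : s + σ s = 0) :
    NN B M (pe P a) (s • pe P u) := by
  have hb := bs_apply hF0 hP
  have hsy := bs_symm h hF0 hP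
  have huy' : ((bs hF0 hP u y : F₀) : F) ≠ 0 := fun h0 => huy (Subtype.ext h0)
  have haA : B (pe P a) (pe P a) = 0 := by rw [hb, haa]; rfl
  obtain ⟨k, hk, hkx⟩ := TT.tv hTu (d := s / ((bs hF0 hP u y : F₀) : F)) (by
    rw [map_div₀, (hF0 _).1 (bs hF0 hP u y).2, ← add_div, hs, zero_div])
  have hkU := (hMG hk).1
  have h1 : Matrix.mulVec (k : Matrix ι ι F) (pe P a) = pe P a := by
    rw [hkx, hb, hsy u a, hau]
    simp
  have h3 : Matrix.mulVec (k : Matrix ι ι F) (pe P y) = pe P y + s • pe P u := by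
    rw [hkx, hb, div_mul_cancel₀ _ huy']
  obtain ⟨l, hl, hlx⟩ := rsieg hq h hF0 hP h2 haa hay
  have h4 : SI B M (pe P a) (pe P y) (-(B (pe P y) (pe P y)) / 2) := ⟨l, hHM hl, hlx⟩
  have h5 := h4.conj hk hkU
  rw [h1, h3] at h5
  have h6 : B (pe P y + s • pe P u) (pe P y + s • pe P u) = B (pe P y) (pe P y) := by
    rw [← h3]
    exact hkU _ _
  have hay' : B (pe P a) (pe P y) = 0 := by rw [hb, hay]; rfl
  have hau' : B (pe P a) (pe P u) = 0 := by rw [hb, hau]; rfl
  have h7 : B (pe P a) (pe P y + s • pe P u) = 0 := by rw [map_add_right, map_smul_right, hay', hau', mul_zero, add_zero]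
  have h8 : NN B M (pe P a) (pe P y + s • pe P u) := by
    refine NN_of hq h haA h7 hT h5 ?_
    rw [h6, map_div₀, map_neg, (hF0 _).1 (hP y y), map_ofNat]
    field_simp
    ring
  have hany : bs hF0 hP a (-y) = 0 := by rw [map_neg, hay, neg_zero]
  have h9 := NN_rat hq h hF0 hP h2 hHM haa hT hany
  have h10 := NN_add hq h haA h7 (by rw [hb, hany]; rfl) h8 h9
  have h11 : pe P y + s • pe P u + pe P (-y) = s • pe P u := by
    have : pe P y + pe P (-y) = 0 := by
      rw [← pe_add, add_neg_cancel]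
      exact Matrix.mulVec_zero _
    calc pe P y + s • pe P u + pe P (-y) = (pe P y + pe P (-y)) + s • pe P u := by abel
      _ = s • pe P u := by rw [this, zero_add]
  rw [h11] at h10
  exact h10

theorem NN_lam' (h2 : (2 : F) ≠ 0) (h13 : 13 ≤ Fintype.card ι) {θ : F} (hθ : σ θ ≠ θ) (hHM : subfieldSubgroup F₀ P ⊓ GB B ≤ M) (hMG : M ≤ GB B)
    (hall : ∀ c : ι → F₀, bs hF0 hP c c = 0 → TT 1 B M (pe P c)) {a x : ι → F₀} (ha0 : a ≠ 0) (haa : bs hF0 hP a a = 0)
    (hax : bs hF0 hP a x = 0) {s : F} (hs : s + σ s = 0) :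
    NN B M (pe P a) (s • pe P x) := by
  haveI := hq.finite
  have hinv := hq.invol
  have h2' : (2 : F₀) ≠ 0 := fun h0 => h2 ((map_ofNat F₀.subtype 2).symm.trans ((congrArg F₀.subtype h0).trans (map_zero _)))
  have hsy := bs_symm h hF0 hP
  have hnd := bs_nd h hF0 hP hinv hθ
  have hfin : finrank F₀ (ι → F₀) = Fintype.card ι := finrank_fintype_fun_eq_card F₀
  have hb := bs_apply hF0 hP
  have haA : B (pe P a) (pe P a) = 0 := by rw [hb, haa]; rfl
  by_cases hxx : bs hF0 hP x x = 0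
  · by_cases hxa : x ∈ Submodule.span F₀ {a}
    · obtain ⟨α, rfl⟩ := Submodule.mem_span_singleton.1 hxa
      rw [pe_smul, smul_smul]
      exact NN_self hq h haA (hall a haa) _
    · obtain ⟨r, hr, hr1⟩ := exists_sep hsy hnd hxa
      exact NN_lam hq h hF0 hP h2 hHM hMG haa (hall a haa) (hr a (Submodule.mem_span_singleton_self a)) hax hxx (hall x hxx) (by rw [hr1]; exact one_ne_zero) hs
  · -- an isotropic vector orthogonal to a and not to x
    obtain ⟨e, heX, hee, hex⟩ := exists_iso_out h2' hsy hnd (X := Submodule.span F₀ {a, x}) (by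
      classical
      have h6 := finrank_span_finset_le_card (R := F₀) ({a, x} : Finset (ι → F₀))
      have h7 : (({a, x} : Finset (ι → F₀)) : Set (ι → F₀)) = {a, x} := by simp
      have h8 := Finset.card_le_two (a := a) (b := x)
      unfold Set.finrank at h6
      rw [h7] at h6
      omega) (by rw [hfin]; exact h13)
    obtain ⟨r, hr, her⟩ := exists_sep hsy hnd heX
    have har : bs hF0 hP a r = 0 := hr a (Submodule.subset_span (by simp))
    have hxr : bs hF0 hP x r = 0 := hr x (Submodule.subset_span (by simp))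
    have hae : bs hF0 hP a e = 0 := hex a (Submodule.subset_span (by simp))
    have hxe : bs hF0 hP x e = 0 := hex x (Submodule.subset_span (by simp))
    have hex' : bs hF0 hP e x = 0 := by rw [hsy]; exact hxe
    have hrx : bs hF0 hP r x = 0 := by rw [hsy]; exact hxr
    have hre : bs hF0 hP r e = 1 := by rw [hsy]; exact her
    obtain ⟨u, hu⟩ : ∃ u, x + r - ((bs hF0 hP x x + bs hF0 hP r r) / 2) • e = u := ⟨_, rfl⟩
    have huu : bs hF0 hP u u = 0 := by
      rw [← hu]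
      simp only [map_add, map_sub, LinearMap.add_apply, LinearMap.sub_apply, map_smul, LinearMap.smul_apply, smul_eq_mul, hxr, hrx, hxe, hex', her, hre, hee]
      field_simp
      ring
    have hau : bs hF0 hP a u = 0 := by
      rw [← hu]
      simp only [map_add, map_sub, map_smul, smul_eq_mul, hax, har, hae]
      ring
    have hux : bs hF0 hP u x = bs hF0 hP x x := by
      rw [← hu]
      simp only [map_add, map_sub, LinearMap.add_apply, LinearMap.sub_apply, map_smul, LinearMap.smul_apply, smul_eq_mul, hrx, hex']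
      ring
    have hxu : bs hF0 hP x u = bs hF0 hP x x := by rw [hsy]; exact hux
    -- x = u/2 + (x - u/2)
    obtain ⟨u₂, hu₂⟩ : ∃ u₂, x - (1 / 2 : F₀) • u = u₂ := ⟨_, rfl⟩
    have hu22 : bs hF0 hP u₂ u₂ = 0 := by
      rw [← hu₂]
      simp only [map_sub, LinearMap.sub_apply, map_smul, LinearMap.smul_apply, smul_eq_mul, huu, hux, hxu]
      field_simp
      ring
    have hau2 : bs hF0 hP a u₂ = 0 := by
      rw [← hu₂]
      simp only [map_sub, map_smul, smul_eq_mul, hax, hau]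
      ring
    have hu2u : bs hF0 hP u₂ u = bs hF0 hP x x := by
      rw [← hu₂]
      simp only [map_sub, LinearMap.sub_apply, map_smul, LinearMap.smul_apply, smul_eq_mul, huu, hxu]
      ring
    have h1 : NN B M (pe P a) (s • pe P u₂) := NN_lam hq h hF0 hP h2 hHM hMG haa (hall a haa) hau hau2 hu22 (hall u₂ hu22) (by rw [hu2u]; exact hxx) hs
    have hvv : bs hF0 hP ((1 / 2 : F₀) • u) ((1 / 2 : F₀) • u) = 0 := by
      simp only [map_smul, LinearMap.smul_apply, smul_eq_mul, huu]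
      ring
    have hav : bs hF0 hP a ((1 / 2 : F₀) • u) = 0 := by
      simp only [map_smul, smul_eq_mul, hau]
      ring
    have h3 : NN B M (pe P a) (s • pe P ((1 / 2 : F₀) • u)) := NN_lam hq h hF0 hP h2 hHM hMG haa (hall a haa) hax hav hvv (hall _ hvv) (by
      simp only [map_smul, LinearMap.smul_apply, smul_eq_mul, hux]
      exact mul_ne_zero (one_div_ne_zero h2') hxx) hs
    have h4 : x = (1 / 2 : F₀) • u + u₂ := by
      rw [← hu₂]
      abel
    rw [h4, pe_add, smul_add]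
    refine NN_add hq h haA ?_ ?_ h3 h1
    · rw [map_smul_right, hb, hav]; simp
    · rw [map_smul_right, hb, hau2]; simp

theorem NN_all (h2 : (2 : F) ≠ 0) (h13 : 13 ≤ Fintype.card ι) {θ : F} (hθ : σ θ ≠ θ) (hHM : subfieldSubgroup F₀ P ⊓ GB B ≤ M) (hMG : M ≤ GB B)
    (hall : ∀ c : ι → F₀, bs hF0 hP c c = 0 → TT 1 B M (pe P c)) {a : ι → F₀} (ha0 : a ≠ 0) (haa : bs hF0 hP a a = 0) {y : ι → F} (hay : B (pe P a) y = 0) :
    NN B M (pe P a) y := by
  haveI := hq.finite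
  have hinv := hq.invol
  have hb := bs_apply hF0 hP
  have haA : B (pe P a) (pe P a) = 0 := by rw [hb, haa]; rfl
  obtain ⟨r, s, rfl⟩ := exists_pair hF0 hinv hθ P y
  rw [map_add_right, map_smul_right, hb, hb] at hay
  have hs0 : bs hF0 hP a s = 0 := by
    by_contra hc
    apply hθ
    rw [← hF0]
    have hc' : ((bs hF0 hP a s : F₀) : F) ≠ 0 := fun h0 => hc (Subtype.ext h0)
    have : θ = -((bs hF0 hP a r : F₀) : F) / ((bs hF0 hP a s : F₀) : F) := by
      rw [eq_div_iff hc']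
      linear_combination hay
    rw [this]
    exact F₀.div_mem (F₀.neg_mem (bs hF0 hP _ _).2) (bs hF0 hP _ _).2
  have hr0 : bs hF0 hP a r = 0 := by
    rw [hs0] at hay
    apply Subtype.ext
    simpa using hay
  have hθ₀ : (θ + σ θ) / 2 ∈ F₀ := by
    rw [hF0, map_div₀, map_add, hinv, map_ofNat, add_comm]
  have h1 : pe P r + θ • pe P s = pe P (r + (⟨_, hθ₀⟩ : F₀) • s) + ((θ - σ θ) / 2) • pe P s := by
    rw [pe_add, pe_smul, add_assoc, ← add_smul]
    congr 2
    change θ = (θ + σ θ) / 2 + (θ - σ θ) / 2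
    field_simp
    ring
  rw [h1]
  have hr1 : bs hF0 hP a (r + (⟨_, hθ₀⟩ : F₀) • s) = 0 := by rw [map_add, map_smul, hr0, hs0, smul_zero, add_zero]
  refine NN_add hq h haA ?_ ?_ (NN_rat hq h hF0 hP h2 hHM haa (hall a haa) hr1) (NN_lam' hq h hF0 hP h2 h13 hθ hHM hMG hall ha0 haa hs0 ?_)
  · rw [hb, hr1]; rfl
  · rw [map_smul_right, hb, hs0]; simp
  · rw [map_div₀, map_sub, hinv, map_ofNat]
    field_simp
    ring

include hP in
theorem or_maximal (h2 : (2 : F) ≠ 0) (h13 : 13 ≤ Fintype.card ι) : IsMaximalIn (GB B) (subfieldSubgroup F₀ P ⊓ GB B) := by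
  haveI := hq.finite
  have hE := su_eform hq h
  have hinv := hq.invol
  have h2' : (2 : F₀) ≠ 0 := fun h0 => h2 ((map_ofNat F₀.subtype 2).symm.trans ((congrArg F₀.subtype h0).trans (map_zero _)))
  have hsy := bs_symm h hF0 hP
  have hb := bs_apply hF0 hP
  obtain ⟨θ, hθ0, hθ1⟩ := hq.exists_trace_ne_zero (map_zero σ)
  have hθ : σ θ ≠ θ := by
    intro h0
    rw [h0] at hθ1
    have : 2 * θ = 0 := by linear_combination hθ1
    exact hθ0 ((mul_eq_zero.1 this).resolve_left h2)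
  have hnd := bs_nd h hF0 hP hinv hθ
  have hF : F₀ ≠ ⊤ := by
    rintro rfl
    exact hθ ((hF0 θ).1 (Subfield.mem_top θ))
  refine ⟨lt_of_le_of_ne inf_le_right fun heq => CfsgLib.Asu2.not_subfield_u hq h (by omega) hF P (by rw [← heq]; exact inf_le_left), fun M hHM hMG => ?_⟩
  by_cases hMH : M ≤ subfieldSubgroup F₀ P
  · exact Or.inl (le_antisymm (le_inf hMH hMG) hHM)
  right
  obtain ⟨g, hg, hgs⟩ := Set.not_subset.1 hMH
  obtain ⟨a, ha0, haa, hT⟩ := CfsgLib.Cuo4.first_tt hq h hF0 hP h2 h13 hθ hHM hMG hg hgs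
  have hall : ∀ c : ι → F₀, bs hF0 hP c c = 0 → TT 1 B M (pe P c) := fun c hcc => all_tt hq h hF0 hP h2 h13 hθ hHM hMG ha0 haa hT hcc
  apply le_antisymm hMG
  apply su_le hq h (by omega)
  intro v hvv
  by_cases hv0 : v = 0
  · subst hv0
    intro b _
    exact ⟨1, M.one_mem, fun x => by rw [mulVec_one, smul_zero, add_zero]⟩
  obtain ⟨u, huu, huv⟩ := exists_ne hq h hF0 hP h2 h13 hθ hv0
  have hu0 : u ≠ 0 := by
    rintro rfl
    apply huv
    rw [show pe P (0 : ι → F₀) = 0 from Matrix.mulVec_zero _, map_zero_left]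
  obtain ⟨f, hff, huf⟩ := exists_part h2' hsy hnd hu0 huu
  obtain ⟨v₁, hv₁⟩ : ∃ v₁, (B (pe P u) v)⁻¹ • v = v₁ := ⟨_, rfl⟩
  have h1 : B (pe P u) v₁ = 1 := by rw [← hv₁, map_smul_right, inv_mul_cancel₀ huv]
  have h3 : B v₁ v₁ = 0 := by rw [← hv₁, map_smul_left, map_smul_right, hvv, mul_zero, mul_zero]
  have huf' : B (pe P u) (pe P f) = 1 := by rw [hb, huf]; rfl
  have hff' : B (pe P f) (pe P f) = 0 := by rw [hb, hff]; rfl
  obtain ⟨y, hy⟩ : ∃ y, v₁ - pe P f = y := ⟨_, rfl⟩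
  have hy' : v₁ = pe P f + y := by rw [← hy]; abel
  have huy : B (pe P u) y = 0 := by rw [← hy, map_sub, h1, huf', sub_self]
  rw [hy', map_add_left, map_add_right, map_add_right, hff'] at h3
  obtain ⟨k, hk, hkx⟩ := NN_all hq h hF0 hP h2 h13 hθ hHM hMG hall hu0 huu huy (B y (pe P f)) (by
    rw [h.symm]
    linear_combination h3)
  have h4 : Matrix.mulVec (k : Matrix ι ι F) (pe P f) = v₁ := by
    rw [hkx, huf', hy', one_smul, mul_one, sub_self, zero_smul, add_zero]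
  have h5 : TT 1 B M v₁ := by
    rw [← h4]
    exact TT.conj hE (hall f hff) hk (hMG hk).1
  have h6 : v = B (pe P u) v • v₁ := by
    rw [← hv₁, smul_smul, mul_inv_cancel₀ huv, one_smul]
  rw [h6]
  exact TT.smul hE h5 _

end CfsgLib.Cuo5
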