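import Cfsg.Agent.Lib.Aso1
import Cfsg.Agent.Lib.AltForm

set_option autoImplicit false
set_option maxHeartbeats 400000
set_option linter.unusedSectionVars false

/-! Stabilisers of totally singular subspaces in orthogonal groups. -/
namespace CfsgLib.Cuq1

open Cfsg Cfsg.Geo Module CfsgLib.GeoBase CfsgLib.Asch1 CfsgLib.Aso1
open CfsgLib.Quad (O O_ext eichO eichO_apply eichG two_mul_finrank_singular_le polar_comm polar_self eichO_mem exists_partner)

local notation "β[" Q "]" => QuadraticMap.polarBilin Q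

universe u v

variable {ι : Type} [Fintype ι] [DecidableEq ι] {F : Type u} [Field F] {Q : QuadraticForm F (ι → F)} {M : Subgroup (Matrix.GeneralLinearGroup ι F)}

/-- the full Siegel group at v lies in M -/
def FS (Q : QuadraticForm F (ι → F)) (M : Subgroup (Matrix.GeneralLinearGroup ι F)) (v : ι → F) : Prop :=
  ∀ y, β[Q] v y = 0 → ∃ k ∈ M, ∀ x, Matrix.mulVec (k : Matrix ι ι F) x = x + (β[Q] v x) • y + (- β[Q] y x - Q y * β[Q] v x) • v

theorem om_si [Finite F] (hQ : (β[Q]).Nondegenerate) (h7 : 7 ≤ Fintype.card ι) {u y : ι → F} (hu : Q u = 0) (hy : β[Q] u y = 0) :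
    ∃ g ∈ omegaGL ⇑Q, ∀ x, Matrix.mulVec (g : Matrix ι ι F) x = x + (β[Q] u x) • y + (- β[Q] y x - Q y * β[Q] u x) • u := by
  have h1 : eichO hu hy ∈ commutator (O Q) := by
    rw [CfsgLib.Quad.commutator_eq_eichG hQ (by rw [finrank_fintype_fun_eq_card]; exact h7)]
    exact eichO_mem hu hy
  have h3 : (CfsgLib.Quad.isometryGroupEquiv Q).symm (eichO hu hy) ∈ commutator (isometryGroup F ⇑Q) := by
    rw [← CfsgLib.Quad.mem_commutator_congr (CfsgLib.Quad.isometryGroupEquiv Q), MulEquiv.apply_symm_apply]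
    exact h1
  refine ⟨((CfsgLib.Quad.isometryGroupEquiv Q).symm (eichO hu hy) : Matrix.GeneralLinearGroup ι F), ⟨_, h3, rfl⟩, fun x => ?_⟩
  have h4 := CfsgLib.Quad.isometryGroupEquiv_apply Q ((CfsgLib.Quad.isometryGroupEquiv Q).symm (eichO hu hy)) x
  rw [MulEquiv.apply_symm_apply] at h4
  rw [← h4, eichO_apply]

theorem om_le_of [Finite F] (hQ : (β[Q]).Nondegenerate) (h7 : 7 ≤ Fintype.card ι) (hM : ∀ v, Q v = 0 → FS Q M v) : omegaGL ⇑Q ≤ M := by
  rintro _ ⟨g, hg, rfl⟩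
  have h1 : CfsgLib.Quad.isometryGroupEquiv Q g ∈ commutator (O Q) := (CfsgLib.Quad.mem_commutator_congr (CfsgLib.Quad.isometryGroupEquiv Q) g).mpr hg
  rw [CfsgLib.Quad.commutator_eq_eichG hQ (by rw [finrank_fintype_fun_eq_card]; exact h7)] at h1
  have key : ∃ k ∈ M, ∀ x, Matrix.mulVec (k : Matrix ι ι F) x = (CfsgLib.Quad.isometryGroupEquiv Q g).1 x := by
    refine Subgroup.closure_induction (p := fun (e : O Q) _ => ∃ k ∈ M, ∀ x, Matrix.mulVec (k : Matrix ι ι F) x = e.1 x) ?_ ?_ ?_ ?_ h1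
    · rintro e ⟨u, y, hu, huy, rfl⟩
      obtain ⟨k, hk, hkx⟩ := hM u hu y huy
      exact ⟨k, hk, fun x => by rw [hkx, eichO_apply]⟩
    · exact ⟨1, M.one_mem, fun x => by rw [mulVec_one]; rfl⟩
    · rintro e f _ _ ⟨k, hk, hkx⟩ ⟨l, hl, hlx⟩
      exact ⟨k * l, M.mul_mem hk hl, fun x => by rw [mulVec_mul, hlx, hkx]; rfl⟩
    · rintro e _ ⟨k, hk, hkx⟩
      refine ⟨k⁻¹, M.inv_mem hk, fun x => ?_⟩
      apply mulVec_injective k
      rw [mulVec_inv, hkx]
      exact (LinearEquiv.apply_symm_apply e.1 x).symm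
  obtain ⟨k, hk, hkx⟩ := key
  have : k = (g : Matrix.GeneralLinearGroup ι F) := by
    apply ext_mulVec
    intro x
    rw [hkx]
    exact CfsgLib.Quad.isometryGroupEquiv_apply Q g x
  change (g : Matrix.GeneralLinearGroup ι F) ∈ M
  rw [← this]
  exact hk

theorem FS.conj {v : ι → F} (hv : FS Q M v) {g : Matrix.GeneralLinearGroup ι F} (hg : g ∈ M) (hgQ : ∀ x : ι → F, Q (Matrix.mulVec (g : Matrix ι ι F) x) = Q x) :
    FS Q M (Matrix.mulVec (g : Matrix ι ι F) v) := by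
  intro y hy
  obtain ⟨y₀, hy₀⟩ : ∃ y₀, y = Matrix.mulVec (g : Matrix ι ι F) y₀ := ⟨_, (mulVec_inv g y).symm⟩
  rw [hy₀, q_polar hgQ] at hy
  obtain ⟨k, hk, hkx⟩ := hv y₀ hy
  refine ⟨g * k * g⁻¹, M.mul_mem (M.mul_mem hg hk) (M.inv_mem hg), fun x => ?_⟩
  obtain ⟨x₀, hx₀⟩ : ∃ x₀, x = Matrix.mulVec (g : Matrix ι ι F) x₀ := ⟨_, (mulVec_inv g x).symm⟩
  rw [mulVec_mul, mulVec_mul, hx₀, inv_mulVec, hkx, hy₀, q_polar hgQ, q_polar hgQ, hgQ]
  rw [mulVec_add', mulVec_add', mulVec_smul', mulVec_smul']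

theorem FS.smul {v : ι → F} (hv : FS Q M v) (c : F) : FS Q M (c • v) := by
  intro y hy
  by_cases hc : c = 0
  · subst hc
    refine ⟨1, M.one_mem, fun x => ?_⟩
    rw [mulVec_one, zero_smul, map_zero, LinearMap.zero_apply]
    simp
  have hy' : β[Q] v (c • y) = 0 := by
    rw [map_smul, LinearMap.smul_apply] at hy
    rw [map_smul]
    exact hy
  obtain ⟨k, hk, hkx⟩ := hv (c • y) hy'
  refine ⟨k, hk, fun x => ?_⟩
  rw [hkx, qsmul]
  simp only [map_smul, LinearMap.smul_apply, smul_eq_mul]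
  module

end CfsgLib.Cuq1
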