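import Cfsg.Agent.Lib.Cuq1

set_option autoImplicit false
set_option maxHeartbeats 400000
set_option linter.unusedSectionVars false

/-! Stabilisers of totally singular subspaces in orthogonal groups: maximality. -/
namespace CfsgLib.Cuq2

open Cfsg Cfsg.Geo Module CfsgLib.GeoBase CfsgLib.Asch1 CfsgLib.Aso1 CfsgLib.Cuq1
open CfsgLib.Quad (two_mul_finrank_singular_le polar_comm polar_self exists_partner)

local notation "β[" Q "]" => QuadraticMap.polarBilin Q

universe u v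

variable {ι : Type} [Fintype ι] [DecidableEq ι] {F : Type u} [Field F] {Q : QuadraticForm F (ι → F)}

theorem exists_sep (hQ : (β[Q]).Nondegenerate) {X : Submodule F (ι → F)} {x : ι → F} (hx : x ∉ X) : ∃ r, (∀ y ∈ X, β[Q] y r = 0) ∧ β[Q] x r = 1 := by
  have hR : (β[Q]).IsRefl := fun u v huv => by rw [polar_comm]; exact huv
  obtain ⟨r, hr, hrx⟩ := CfsgLib.AltForm.exists_orthogonal_ne_zero hQ hR hx
  refine ⟨(β[Q] r x)⁻¹ • r, fun y hy => ?_, ?_⟩
  · rw [map_smul, hr y hy, smul_zero]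
  · rw [map_smul, polar_comm Q x r, smul_eq_mul, inv_mul_cancel₀ hrx]

theorem ts_maximal [Finite F] (hQ : (β[Q]).Nondegenerate) (h13 : 13 ≤ Fintype.card ι) {W : Submodule F (ι → F)} (hW0 : W ≠ ⊥) (hW : ∀ w ∈ W, Q w = 0)
    (hex : ∀ U : Submodule F (ι → F), (∀ u ∈ U, Q u = 0) → 2 * finrank F U = Fintype.card ι → 2 * (finrank F W + 1) ≠ Fintype.card ι) :
    IsMaximalIn (omegaGL ⇑Q) (subspaceStabilizer W ⊓ omegaGL ⇑Q) := by
  have hWW : ∀ x ∈ W, ∀ y ∈ W, β[Q] x y = 0 := by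
    intro x hx y hy
    have h1 := hW (x + y) (W.add_mem hx hy)
    rw [qadd, hW x hx, hW y hy, zero_add, zero_add] at h1
    exact h1
  have hWp : W ≤ pp Q W := fun x hx => mem_pp.2 fun w hw => hWW w hw x hx
  have hself : ∀ v, Q v = 0 → β[Q] v v = 0 := fun v hv => by rw [polar_self, hv, mul_zero]
  obtain ⟨w₀, hw₀, hw₀0⟩ := (Submodule.ne_bot_iff W).1 hW0
  have hk2 := two_mul_finrank_singular_le hQ hW
  rw [finrank_fintype_fun_eq_card] at hk2
  have hpp : ∀ x, x ∉ W → ∃ y ∈ pp Q W, β[Q] y x ≠ 0 := by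
    intro x hx
    by_contra hno
    push Not at hno
    apply hx
    rw [← pp_pp hQ W]
    exact mem_pp.2 hno
  -- properness
  have hne : ¬ omegaGL ⇑Q ≤ subspaceStabilizer W := by
    intro hle
    obtain ⟨v, hv, hwv⟩ := exists_partner hQ hw₀0 (hW w₀ hw₀)
    have hvw : β[Q] v w₀ = 1 := by rw [polar_comm]; exact hwv
    obtain ⟨y, hy, hyn⟩ : ∃ y, β[Q] v y = 0 ∧ y ∉ W ⊔ Submodule.span F {v} := by
      by_contra hno
      push Not at hno
      have hle : LinearMap.ker (β[Q] v) ≤ W ⊔ Submodule.span F {v} := fun y hy => hno y hy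
      have h1 := Submodule.finrank_mono hle
      have h3 := LinearMap.finrank_range_add_finrank_ker (β[Q] v)
      have h4 := Submodule.finrank_le (LinearMap.range (β[Q] v))
      have h5 := Submodule.finrank_add_le_finrank_add_finrank W (Submodule.span F {v})
      have h6 : finrank F (Submodule.span F {v}) ≤ 1 := by
        classical
        exact (finrank_span_le_card ({v} : Set (ι → F))).trans (by simp)
      rw [finrank_self] at h4
      rw [finrank_fintype_fun_eq_card] at h3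
      omega
    obtain ⟨g, hg, hgx⟩ := om_si hQ (by omega) hv hy
    have h1 := mem_stab_iff.1 (hle hg) w₀ hw₀
    rw [hgx, hvw, one_smul] at h1
    apply hyn
    have h2 : y = ((w₀ + y + (- β[Q] y w₀ - Q y * 1) • v) - w₀) + (β[Q] y w₀ + Q y) • v := by module
    rw [h2]
    exact Submodule.add_mem _ (Submodule.mem_sup_left (W.sub_mem h1 hw₀)) (Submodule.mem_sup_right (Submodule.smul_mem _ _ (Submodule.mem_span_singleton_self v)))
  refine ⟨lt_of_le_of_ne inf_le_right fun heq => hne (by rw [← heq]; exact inf_le_left), fun M hHM hMG => ?_⟩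
  by_cases hMH : M ≤ subspaceStabilizer W
  · exact Or.inl (le_antisymm (le_inf hMH hMG) hHM)
  right
  obtain ⟨g, hg, hgs⟩ := Set.not_subset.1 hMH
  have hMQ : ∀ k ∈ M, ∀ x : ι → F, Q (Matrix.mulVec (k : Matrix ι ι F) x) = Q x := fun k hk x => om_Q (hMG hk) x
  have hconj : ∀ v, FS Q M v → ∀ k ∈ M, FS Q M (Matrix.mulVec (k : Matrix ι ι F) v) := fun v hv k hk => FS.conj hv hk (hMQ k hk)
  -- Siegel elements of the stabiliser
  have hA : ∀ w ∈ W, ∀ y, β[Q] w y = 0 → ∃ k ∈ M, ∀ x, Matrix.mulVec (k : Matrix ι ι F) x = x + (β[Q] w x) • y + (- β[Q] y x - Q y * β[Q] w x) • w := by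
    intro w hw y hy
    obtain ⟨k, hk, hkx⟩ := om_si hQ (by omega) (hW w hw) hy
    refine ⟨k, hHM ⟨mem_stab_iff.2 fun x hx => ?_, hk⟩, hkx⟩
    rw [hkx, hWW w hw x hx, zero_smul, add_zero]
    exact W.add_mem hx (W.smul_mem _ hw)
  have hAF : ∀ w ∈ W, FS Q M w := fun w hw y hy => hA w hw y hy
  have hB : ∀ u ∈ pp Q W, Q u = 0 → ∀ z ∈ pp Q W, β[Q] u z = 0 → ∃ k ∈ M, ∀ x, Matrix.mulVec (k : Matrix ι ι F) x = x + (β[Q] u x) • z + (- β[Q] z x - Q z * β[Q] u x) • u := by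
    intro u hu huu z hz huz
    obtain ⟨k, hk, hkx⟩ := om_si hQ (by omega) huu huz
    refine ⟨k, hHM ⟨mem_stab_iff.2 fun x hx => ?_, hk⟩, hkx⟩
    have h1 : β[Q] u x = 0 := by rw [polar_comm]; exact mem_pp.1 hu x hx
    have h2 : β[Q] z x = 0 := by rw [polar_comm]; exact mem_pp.1 hz x hx
    rw [hkx, h1, h2]
    simpa using hx
  -- a vector outside the perpendicular space with full Siegel group
  obtain ⟨v₀, hv₀Q, hv₀, hv₀F⟩ : ∃ v, Q v = 0 ∧ v ∉ pp Q W ∧ FS Q M v := by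
    by_cases h1 : ∃ w ∈ W, Matrix.mulVec (g : Matrix ι ι F) w ∉ pp Q W
    · obtain ⟨w, hw, hgw⟩ := h1
      exact ⟨_, by rw [hMQ g hg, hW w hw], hgw, hconj w (hAF w hw) g hg⟩
    push Not at h1
    obtain ⟨w₁, hw₁, hgw₁⟩ : ∃ w ∈ W, Matrix.mulVec (g : Matrix ι ι F) w ∉ W := by
      by_contra hno
      push Not at hno
      exact hgs (mem_stab_iff.2 hno)
    obtain ⟨v₁, hv₁⟩ : ∃ v, Matrix.mulVec (g : Matrix ι ι F) w₁ = v := ⟨_, rfl⟩
    have hv₁Q : Q v₁ = 0 := by rw [← hv₁, hMQ g hg, hW w₁ hw₁]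
    have hv₁p : v₁ ∈ pp Q W := by rw [← hv₁]; exact h1 w₁ hw₁
    have hv₁F : FS Q M v₁ := by rw [← hv₁]; exact hconj w₁ (hAF w₁ hw₁) g hg
    rw [hv₁] at hgw₁
    obtain ⟨y, hy, hyv⟩ := hpp v₁ hgw₁
    obtain ⟨u, hu⟩ : ∃ u, y - (Q y / β[Q] y v₁) • v₁ = u := ⟨_, rfl⟩
    have huQ : Q u = 0 := by
      rw [← hu, qsub, qsmul, hv₁Q, map_smul, smul_eq_mul, div_mul_cancel₀ _ hyv]
      ring
    have huv : β[Q] u v₁ = β[Q] y v₁ := by
      rw [← hu, map_sub, map_smul, LinearMap.sub_apply, LinearMap.smul_apply, hself v₁ hv₁Q, smul_zero, sub_zero]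
    have hup : u ∈ pp Q W := by
      rw [← hu]
      exact Submodule.sub_mem _ hy (Submodule.smul_mem _ _ hv₁p)
    have huW : u ∉ W := by
      intro huW
      apply hyv
      rw [← huv]
      exact mem_pp.1 hv₁p u huW
    obtain ⟨z, hz, huz, hQz⟩ : ∃ z ∈ pp Q W, β[Q] u z = 0 ∧ Q z ≠ 0 := by
      by_contra hno
      push Not at hno
      have hUts : ∀ x ∈ pp Q W ⊓ LinearMap.ker (β[Q] u), Q x = 0 := fun x hx => hno x hx.1 hx.2
      have h3 := two_mul_finrank_singular_le hQ hUts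
      rw [finrank_fintype_fun_eq_card] at h3
      have h4 := finrank_pp hQ W
      have h5 := LinearMap.finrank_range_add_finrank_ker (β[Q] u)
      have h6 := Submodule.finrank_le (LinearMap.range (β[Q] u))
      rw [finrank_self] at h6
      rw [finrank_fintype_fun_eq_card] at h5
      have h7 := Submodule.finrank_sup_add_finrank_inf_eq (pp Q W) (LinearMap.ker (β[Q] u))
      have h8 := Submodule.finrank_le (pp Q W ⊔ LinearMap.ker (β[Q] u))
      rw [finrank_fintype_fun_eq_card] at h8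
      have h9 : W < pp Q W ⊓ LinearMap.ker (β[Q] u) := by
        rw [lt_iff_le_and_ne]
        refine ⟨fun x hx => ⟨hWp hx, ?_⟩, fun heq => huW ?_⟩
        · change β[Q] u x = 0
          rw [polar_comm]
          exact mem_pp.1 hup x hx
        · rw [heq]
          exact ⟨hup, hself u huQ⟩
      have h10 := Submodule.finrank_lt_finrank_of_lt h9
      exact hex _ hUts (by omega) (by omega)
    obtain ⟨k, hk, hkx⟩ := hB u hup huQ z hz huz
    obtain ⟨v₂, hv₂⟩ : ∃ v, Matrix.mulVec (k : Matrix ι ι F) v₁ = v := ⟨_, rfl⟩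
    have hv₂Q : Q v₂ = 0 := by rw [← hv₂, hMQ k hk, hv₁Q]
    have hv₂F : FS Q M v₂ := by rw [← hv₂]; exact hconj v₁ hv₁F k hk
    have hv₂p : v₂ ∈ pp Q W := by
      rw [← hv₂, hkx]
      exact Submodule.add_mem _ (Submodule.add_mem _ hv₁p (Submodule.smul_mem _ _ hz)) (Submodule.smul_mem _ _ hup)
    have hv₁₂ : β[Q] v₁ v₂ ≠ 0 := by
      rw [← hv₂, hkx]
      simp only [map_add, map_smul, smul_eq_mul, hself v₁ hv₁Q]
      rw [polar_comm Q v₁ z, polar_comm Q v₁ u]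
      have e1 : 0 + β[Q] u v₁ * β[Q] z v₁ + (- β[Q] z v₁ - Q z * β[Q] u v₁) * β[Q] u v₁ = -(Q z * (β[Q] u v₁) ^ 2) := by ring
      rw [e1]
      exact neg_ne_zero.2 (mul_ne_zero hQz (pow_ne_zero 2 (by rw [huv]; exact hyv)))
    have hw₀n : w₀ ∉ Submodule.span F {v₁} := by
      intro hx
      obtain ⟨c, hc⟩ := Submodule.mem_span_singleton.1 hx
      by_cases hc0 : c = 0
      · rw [hc0, zero_smul] at hc
        exact hw₀0 hc.symm
      · apply hgw₁
        have : v₁ = c⁻¹ • w₀ := by rw [← hc, smul_smul, inv_mul_cancel₀ hc0, one_smul]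
        rw [this]
        exact W.smul_mem _ hw₀
    obtain ⟨r, hr, hwr⟩ := exists_sep hQ hw₀n
    obtain ⟨l, hl, hlx⟩ := hv₁F r (hr v₁ (Submodule.mem_span_singleton_self v₁))
    refine ⟨Matrix.mulVec (l : Matrix ι ι F) v₂, by rw [hMQ l hl, hv₂Q], ?_, hconj v₂ hv₂F l hl⟩
    rw [hlx]
    intro hcon
    have h3 := mem_pp.1 hcon w₀ hw₀
    simp only [map_add, map_smul, smul_eq_mul] at h3
    rw [mem_pp.1 hv₂p w₀ hw₀, mem_pp.1 hv₁p w₀ hw₀, hwr] at h3
    apply hv₁₂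
    linear_combination h3
  -- all singular vectors outside
  have hout : ∀ v, Q v = 0 → v ∉ pp Q W → FS Q M v := by
    intro v hvQ hv
    obtain ⟨w, hw, hw1, hw2⟩ : ∃ w ∈ W, β[Q] w v₀ ≠ 0 ∧ β[Q] w v ≠ 0 := by
      by_contra hno
      push Not at hno
      obtain ⟨w₁, hw₁, hw₁1⟩ : ∃ w ∈ W, β[Q] w v₀ ≠ 0 := by
        by_contra hcon
        push Not at hcon
        exact hv₀ (mem_pp.2 hcon)
      obtain ⟨w₂, hw₂, hw₂1⟩ : ∃ w ∈ W, β[Q] w v ≠ 0 := by
        by_contra hcon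
        push Not at hcon
        exact hv (mem_pp.2 hcon)
      have e1 := hno w₁ hw₁ hw₁1
      have e2 : β[Q] w₂ v₀ = 0 := by
        by_contra hcon
        exact hw₂1 (hno w₂ hw₂ hcon)
      have e3 := hno (w₁ + w₂) (W.add_mem hw₁ hw₂) (by rw [map_add, LinearMap.add_apply, e2, add_zero]; exact hw₁1)
      rw [map_add, LinearMap.add_apply, e1, zero_add] at e3
      exact hw₂1 e3
    obtain ⟨a, ha⟩ : ∃ a, (β[Q] w v₀)⁻¹ • v₀ = a := ⟨_, rfl⟩
    obtain ⟨b, hb⟩ : ∃ b, (β[Q] w v)⁻¹ • v = b := ⟨_, rfl⟩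
    have hwa : β[Q] w a = 1 := by rw [← ha, map_smul, smul_eq_mul, inv_mul_cancel₀ hw1]
    have hwb : β[Q] w b = 1 := by rw [← hb, map_smul, smul_eq_mul, inv_mul_cancel₀ hw2]
    have haQ : Q a = 0 := by rw [← ha, qsmul, hv₀Q, mul_zero]
    have hbQ : Q b = 0 := by rw [← hb, qsmul, hvQ, mul_zero]
    obtain ⟨k, hk, hkx⟩ := hA w hw (b - a) (by rw [map_sub, hwa, hwb, sub_self])
    have h1 : Matrix.mulVec (k : Matrix ι ι F) a = b := by
      rw [hkx, hwa, qsub, haQ, hbQ, map_sub, LinearMap.sub_apply, hself a haQ]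
      module
    have h2 : v = β[Q] w v • b := by rw [← hb, smul_smul, mul_inv_cancel₀ hw2, one_smul]
    rw [h2]
    apply FS.smul
    rw [← h1]
    apply hconj _ _ k hk
    rw [← ha]
    exact FS.smul hv₀F _
  apply le_antisymm hMG
  apply om_le_of hQ (by omega)
  intro v hvQ
  by_cases hvp : v ∈ pp Q W
  swap
  · exact hout v hvQ hvp
  by_cases hvW : v ∈ W
  · exact hAF v hvW
  have hv0 : v ≠ 0 := by
    rintro rfl
    exact hvW W.zero_mem
  have hw₀n : w₀ ∉ Submodule.span F {v} := by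
    intro hx
    obtain ⟨c, hc⟩ := Submodule.mem_span_singleton.1 hx
    by_cases hc0 : c = 0
    · rw [hc0, zero_smul] at hc
      exact hw₀0 hc.symm
    · apply hvW
      have : v = c⁻¹ • w₀ := by rw [← hc, smul_smul, inv_mul_cancel₀ hc0, one_smul]
      rw [this]
      exact W.smul_mem _ hw₀
  obtain ⟨r, hr, hwr⟩ := exists_sep hQ hw₀n
  have hvr : β[Q] v r = 0 := hr v (Submodule.mem_span_singleton_self v)
  have hrw : β[Q] r w₀ = 1 := by rw [polar_comm]; exact hwr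
  have hvw : β[Q] v w₀ = 0 := by rw [polar_comm]; exact mem_pp.1 hvp w₀ hw₀
  obtain ⟨s, hs⟩ : ∃ s, r - Q r • w₀ = s := ⟨_, rfl⟩
  have hsQ : Q s = 0 := by
    rw [← hs, qsub, qsmul, hW w₀ hw₀, map_smul, smul_eq_mul, hrw]
    ring
  have hws : β[Q] w₀ s = 1 := by rw [← hs, map_sub, map_smul, hwr, hWW w₀ hw₀ w₀ hw₀, smul_zero, sub_zero]
  have hvs : β[Q] v s = 0 := by rw [← hs, map_sub, map_smul, hvr, hvw, smul_zero, sub_zero]
  have hsp : s ∉ pp Q W := by
    intro hcon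
    rw [mem_pp.1 hcon w₀ hw₀] at hws
    exact zero_ne_one hws
  have hvn : v ∉ Submodule.span F {s} := by
    intro hx
    obtain ⟨c, hc⟩ := Submodule.mem_span_singleton.1 hx
    by_cases hc0 : c = 0
    · rw [hc0, zero_smul] at hc
      exact hv0 hc.symm
    · apply hsp
      have : s = c⁻¹ • v := by rw [← hc, smul_smul, inv_mul_cancel₀ hc0, one_smul]
      rw [this]
      exact Submodule.smul_mem _ _ hvp
  obtain ⟨y, hy, hvy⟩ := exists_sep hQ hvn
  have hsF := hout s hsQ hsp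
  obtain ⟨k, hk, hkx⟩ := hsF y (hy s (Submodule.mem_span_singleton_self s))
  have hsv : β[Q] s v = 0 := by rw [polar_comm]; exact hvs
  have hyv : β[Q] y v = 1 := by rw [polar_comm]; exact hvy
  have h1 : Matrix.mulVec (k : Matrix ι ι F) v = v - s := by
    rw [hkx, hsv, hyv]
    module
  have h2 : FS Q M (Matrix.mulVec (k : Matrix ι ι F) v) := by
    apply hout _ (by rw [hMQ k hk, hvQ])
    rw [h1]
    intro hcon
    apply hsp
    have : s = v - (v - s) := by abel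
    rw [this]
    exact Submodule.sub_mem _ hvp hcon
  have h3 := hconj _ h2 k⁻¹ (M.inv_mem hk)
  rw [inv_mulVec] at h3
  exact h3

end CfsgLib.Cuq2
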