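import Cfsg.Agent.Lib.Cuq2

set_option autoImplicit false
set_option maxHeartbeats 400000
set_option linter.unusedSectionVars false

/-! Quadratic forms from non-degenerate quadratic functions. -/
namespace CfsgLib.Cuq3

open Cfsg Cfsg.Geo Module

universe u

variable {ι : Type} [Fintype ι] [DecidableEq ι] {F : Type u} [Field F]

theorem exists_qf {Q : (ι → F) → F} (hQ : IsNondegenerateQuadraticForm Q) : ∃ Q' : QuadraticForm F (ι → F), ⇑Q' = Q ∧ (QuadraticMap.polarBilin Q').Nondegenerate := by
  let Q' : QuadraticForm F (ι → F) := QuadraticMap.ofPolar Q (fun a x => by rw [hQ.smul, pow_two, smul_eq_mul]) (fun x y v => hQ.polar_bilinear.add_left x y v) (fun c x v => hQ.polar_bilinear.smul_left c x v)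
  refine ⟨Q', rfl, ?_⟩
  have hR : (QuadraticMap.polarBilin Q').IsRefl := fun u v huv => by
    rw [CfsgLib.Quad.polar_comm]
    exact huv
  refine (hR.nondegenerate_iff_separatingLeft).mpr ?_
  intro x hx
  by_contra hne
  obtain ⟨-, y, hy⟩ := hQ.nondegenerate x hne
  exact hy (hx y)

end CfsgLib.Cuq3
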