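import Cfsg.Agent.Lib.Cuq2
import Cfsg.Agent.Lib.Cuo1

set_option autoImplicit false
set_option maxHeartbeats 400000
set_option linter.unusedSectionVars false

/-! Stabilisers of non-singular points in orthogonal groups in characteristic two. -/
namespace CfsgLib.Cuq4

open Cfsg Cfsg.Geo Module CfsgLib.GeoBase CfsgLib.Asch1 CfsgLib.Aso1 CfsgLib.Cuq1 CfsgLib.Cuq2
open CfsgLib.Quad (two_mul_finrank_singular_le polar_comm polar_self exists_partner)

local notation "β[" Q "]" => QuadraticMap.polarBilin Q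

universe u v

variable {ι : Type} [Fintype ι] [DecidableEq ι] {F : Type u} [Field F] {Q : QuadraticForm F (ι → F)}

theorem ns_maximal [Finite F] (h2 : (2 : F) = 0) (hQ : (β[Q]).Nondegenerate) (h13 : 13 ≤ Fintype.card ι) {v : ι → F} (hv : Q v ≠ 0) :
    IsMaximalIn (omegaGL ⇑Q) (subspaceStabilizer (Submodule.span F {v}) ⊓ omegaGL ⇑Q) := by
  haveI : Fintype F := Fintype.ofFinite F
  haveI : CharP F 2 := CharTwo.of_one_ne_zero_of_two_eq_zero one_ne_zero h2
  have hfr : finrank F (ι → F) = Fintype.card ι := finrank_fintype_fun_eq_card F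
  have hself : ∀ x, β[Q] x x = 0 := fun x => by rw [polar_self, h2, zero_mul]
  have hv0 : v ≠ 0 := by
    rintro rfl
    exact hv (by rw [QuadraticMap.map_zero])
  -- adjusting by multiples of v
  have hadj : ∀ x, β[Q] v x = 0 → ∃ c : F, Q (x + c • v) = 0 := by
    intro x hx
    obtain ⟨c, hc⟩ : ∃ c : F, c ^ 2 = Q x / Q v := by
      obtain ⟨c, hc⟩ := (frobeniusEquiv F 2).surjective (Q x / Q v)
      exact ⟨c, hc⟩
    refine ⟨c, ?_⟩
    rw [qadd, qsmul, hc, map_smul, polar_comm Q x v, hx, smul_zero, add_zero, div_mul_cancel₀ _ hv]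
    linear_combination (Q x) * h2
  have hspan : ∀ s : Set (ι → F), ∀ k : ℕ, True := fun _ _ => trivial
  -- properness
  obtain ⟨u₀, hu₀, huv₀⟩ := CfsgLib.Quad.exists_singular_polar_ne hQ (by rw [hfr]; omega) hv0
  have hfin2 : ∀ x y : ι → F, finrank F (Submodule.span F {x, y}) ≤ 2 := by
    intro x y
    classical
    have h6 := finrank_span_finset_le_card (R := F) ({x, y} : Finset (ι → F))
    have h7 : (({x, y} : Finset (ι → F)) : Set (ι → F)) = {x, y} := by simp
    have h8 := Finset.card_le_two (a := x) (b := y)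
    unfold Set.finrank at h6
    rw [h7] at h6
    omega
  have hne : ¬ omegaGL ⇑Q ≤ subspaceStabilizer (Submodule.span F {v}) := by
    intro hle
    obtain ⟨y, hy, hyn⟩ : ∃ y, β[Q] u₀ y = 0 ∧ y ∉ Submodule.span F {v, u₀} := by
      by_contra hno
      push Not at hno
      have hle : LinearMap.ker (β[Q] u₀) ≤ Submodule.span F {v, u₀} := fun y hy => hno y hy
      have h1 := Submodule.finrank_mono hle
      have h3 := LinearMap.finrank_range_add_finrank_ker (β[Q] u₀)
      have h4 := Submodule.finrank_le (LinearMap.range (β[Q] u₀))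
      have h5 := hfin2 v u₀
      rw [finrank_self] at h4
      omega
    obtain ⟨g, hg, hgx⟩ := om_si hQ (by omega) hu₀ hy
    obtain ⟨c, hc⟩ := Submodule.mem_span_singleton.1 (mem_stab_iff.1 (hle hg) v (Submodule.mem_span_singleton_self v))
    rw [hgx] at hc
    apply hyn
    have h2 : y = (β[Q] u₀ v)⁻¹ • ((c - 1) • v + (β[Q] y v + Q y * β[Q] u₀ v) • u₀) := by
      have e1 : (c - 1) • v + (β[Q] y v + Q y * β[Q] u₀ v) • u₀ = β[Q] u₀ v • y := by
        rw [sub_smul, hc]
        module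
      rw [e1, smul_smul, inv_mul_cancel₀ huv₀, one_smul]
    rw [h2]
    exact Submodule.smul_mem _ _ (Submodule.add_mem _ (Submodule.smul_mem _ _ (Submodule.subset_span (by simp))) (Submodule.smul_mem _ _ (Submodule.subset_span (by simp))))
  refine ⟨lt_of_le_of_ne inf_le_right fun heq => hne (by rw [← heq]; exact inf_le_left), fun M hHM hMG => ?_⟩
  by_cases hMH : M ≤ subspaceStabilizer (Submodule.span F {v})
  · exact Or.inl (le_antisymm (le_inf hMH hMG) hHM)
  right
  obtain ⟨g, hg, hgs⟩ := Set.not_subset.1 hMH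
  have hMQ : ∀ k ∈ M, ∀ x : ι → F, Q (Matrix.mulVec (k : Matrix ι ι F) x) = Q x := fun k hk x => om_Q (hMG hk) x
  have hconj : ∀ v, FS Q M v → ∀ k ∈ M, FS Q M (Matrix.mulVec (k : Matrix ι ι F) v) := fun v hv k hk => FS.conj hv hk (hMQ k hk)
  -- Siegel elements of the stabiliser
  have hA : ∀ u, β[Q] u v = 0 → Q u = 0 → ∀ y, β[Q] y v = 0 → β[Q] u y = 0 → ∃ k ∈ M, ∀ x, Matrix.mulVec (k : Matrix ι ι F) x = x + (β[Q] u x) • y + (- β[Q] y x - Q y * β[Q] u x) • u := by
    intro u huv hu y hyv huy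
    obtain ⟨k, hk, hkx⟩ := om_si hQ (by omega) hu huy
    refine ⟨k, hHM ⟨mem_stab_iff.2 fun x hx => ?_, hk⟩, hkx⟩
    obtain ⟨c, rfl⟩ := Submodule.mem_span_singleton.1 hx
    rw [mulVec_smul', hkx, huv, hyv]
    simpa using Submodule.smul_mem _ _ (Submodule.mem_span_singleton_self v)
  obtain ⟨v', hv'⟩ : ∃ v', Matrix.mulVec (g : Matrix ι ι F) v = v' := ⟨_, rfl⟩
  have hv'n : v' ∉ Submodule.span F {v} := by
    intro hx
    apply hgs
    apply mem_stab_iff.2
    intro x hx'
    obtain ⟨c, rfl⟩ := Submodule.mem_span_singleton.1 hx'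
    rw [mulVec_smul', hv']
    exact Submodule.smul_mem _ _ hx
  -- conjugates
  have hA' : ∀ u, β[Q] u v' = 0 → Q u = 0 → ∀ y, β[Q] y v' = 0 → β[Q] u y = 0 → ∃ k ∈ M, ∀ x, Matrix.mulVec (k : Matrix ι ι F) x = x + (β[Q] u x) • y + (- β[Q] y x - Q y * β[Q] u x) • u := by
    intro u huv hu y hyv huy
    obtain ⟨u₁, hu₁⟩ : ∃ u₁, u = Matrix.mulVec (g : Matrix ι ι F) u₁ := ⟨_, (mulVec_inv g u).symm⟩
    obtain ⟨y₁, hy₁⟩ : ∃ y₁, y = Matrix.mulVec (g : Matrix ι ι F) y₁ := ⟨_, (mulVec_inv g y).symm⟩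
    rw [hu₁, ← hv', q_polar (hMQ g hg)] at huv
    rw [hy₁, ← hv', q_polar (hMQ g hg)] at hyv
    rw [hu₁, hy₁, q_polar (hMQ g hg)] at huy
    rw [hu₁, hMQ g hg] at hu
    obtain ⟨k, hk, hkx⟩ := hA u₁ huv hu y₁ hyv huy
    refine ⟨g * k * g⁻¹, M.mul_mem (M.mul_mem hg hk) (M.inv_mem hg), fun x => ?_⟩
    obtain ⟨x₀, hx₀⟩ : ∃ x₀, x = Matrix.mulVec (g : Matrix ι ι F) x₀ := ⟨_, (mulVec_inv g x).symm⟩
    rw [mulVec_mul, mulVec_mul, hx₀, inv_mulVec, hkx, hu₁, hy₁, q_polar (hMQ g hg), q_polar (hMQ g hg), hMQ g hg]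
    rw [mulVec_add', mulVec_add', mulVec_smul', mulVec_smul']
  -- a singular vector orthogonal to both and outside their span
  obtain ⟨u, hu0, huQ, huv, huv', hun⟩ : ∃ u, u ≠ 0 ∧ Q u = 0 ∧ β[Q] u v = 0 ∧ β[Q] u v' = 0 ∧ v' ∉ Submodule.span F {v, u} := by
    let U := pp Q (Submodule.span F {v, v'})
    have h3 : finrank F U + _ = _ := finrank_pp hQ (Submodule.span F {v, v'})
    have h4 := hfin2 v v'
    obtain ⟨X, hX⟩ := Submodule.exists_isCompl (Submodule.span F {v, v'})
    have h5 := Submodule.finrank_add_eq_of_isCompl hX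
    have h6 := Submodule.finrank_sup_add_finrank_inf_eq U X
    have h7 := Submodule.finrank_le (U ⊔ X)
    have hUX : 3 ≤ finrank F ↥(U ⊓ X) := by omega
    obtain ⟨u, hu, hu0, huQ⟩ : ∃ u ∈ U ⊓ X, u ≠ 0 ∧ Q u = 0 := by
      obtain ⟨x, hx, hx0, -, -⟩ := CfsgLib.Cuo1.exists_two hUX 0 0
      by_cases hQx : Q x = 0
      · exact ⟨x, hx, hx0, hQx⟩
      obtain ⟨f, -, hfx⟩ := CfsgLib.GeoBase.exists_dual (W := (⊥ : Submodule F (ι → F))) (x := x) (by rw [Submodule.mem_bot]; exact hx0) (1 : F)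
      obtain ⟨y, hy, hy0, hxy, hfy⟩ := CfsgLib.Cuo1.exists_two hUX (β[Q] x) f
      obtain ⟨c, hc⟩ : ∃ c : F, c ^ 2 = Q y / Q x := by
        obtain ⟨c, hc⟩ := (frobeniusEquiv F 2).surjective (Q y / Q x)
        exact ⟨c, hc⟩
      refine ⟨y + c • x, Submodule.add_mem _ hy (Submodule.smul_mem _ _ hx), fun h0 => hy0 ?_, ?_⟩
      · have h8 := congrArg f h0
        rw [map_add, map_smul, hfy, hfx, map_zero, zero_add, smul_eq_mul, mul_one] at h8
        rw [h8, zero_smul, add_zero] at h0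
        exact h0
      · rw [qadd, qsmul, hc, map_smul, polar_comm Q y x, hxy, smul_zero, add_zero, div_mul_cancel₀ _ hQx]
        linear_combination (Q y) * h2
    have h10 : β[Q] v u = 0 := mem_pp.1 hu.1 v (Submodule.subset_span (by simp))
    have h11 : β[Q] v' u = 0 := mem_pp.1 hu.1 v' (Submodule.subset_span (by simp))
    refine ⟨u, hu0, huQ, by rw [polar_comm]; exact h10, by rw [polar_comm]; exact h11, ?_⟩
    intro hcon
    obtain ⟨s, t, hst⟩ := Submodule.mem_span_pair.1 hcon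
    by_cases ht : t = 0
    · apply hv'n
      rw [← hst, ht, zero_smul, add_zero]
      exact Submodule.smul_mem _ _ (Submodule.mem_span_singleton_self v)
    · apply hu0
      apply (Submodule.disjoint_def.1 hX.disjoint) u _ hu.2
      have : u = t⁻¹ • (v' - s • v) := by
        rw [← hst]
        have : s • v + t • u - s • v = t • u := by module
        rw [this, smul_smul, inv_mul_cancel₀ ht, one_smul]
      rw [this]
      exact Submodule.smul_mem _ _ (Submodule.sub_mem _ (Submodule.subset_span (by simp)) (Submodule.smul_mem _ _ (Submodule.subset_span (by simp))))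
  -- the full Siegel group at u
  have huF : FS Q M u := by
    intro y hy
    obtain ⟨r, hr, hr1⟩ := exists_sep hQ hun
    have hrv : β[Q] v r = 0 := hr v (Submodule.subset_span (by simp))
    have hru : β[Q] u r = 0 := hr u (Submodule.subset_span (by simp))
    obtain ⟨c, hc⟩ : ∃ c, β[Q] v' y = c := ⟨_, rfl⟩
    obtain ⟨k, hk, hkx⟩ := hA u huv huQ (c • r) (by rw [polar_comm, map_smul, hrv, smul_zero]) (by rw [map_smul, hru, smul_zero])
    obtain ⟨l, hl, hlx⟩ := hA' u huv' huQ (y - c • r) (by rw [polar_comm, map_sub, map_smul, hr1, hc]; simp) (by rw [map_sub, map_smul, hru, hy]; simp)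
    refine ⟨k * l, M.mul_mem hk hl, fun x => ?_⟩
    have hur : β[Q] r u = 0 := by rw [polar_comm]; exact hru
    have hyu : β[Q] y u = 0 := by rw [polar_comm]; exact hy
    have hQy : Q (y - c • r) = Q y + c ^ 2 * Q r - c * β[Q] y r := by rw [qsub, qsmul, map_smul, smul_eq_mul]
    rw [mulVec_mul, hlx, hkx, hQy, qsmul]
    simp only [map_add, map_sub, map_smul, LinearMap.sub_apply, LinearMap.smul_apply, smul_eq_mul, hself, hy, hru, hur, polar_comm Q r y]
    match_scalars
    · ring1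
    · ring1
    · ring1
    · linear_combination (- c ^ 2 * β[Q] u x * Q r) * h2
  -- all singular vectors orthogonal to v
  have hnv : ∀ a, Q a = 0 → a ≠ 0 → a ∉ Submodule.span F {v} := by
    intro a ha ha0 hx
    obtain ⟨c, rfl⟩ := Submodule.mem_span_singleton.1 hx
    rw [qsmul] at ha
    have hc : c = 0 := by
      rcases mul_eq_zero.1 ha with h3 | h3
      · exact pow_eq_zero_iff (two_ne_zero) |>.1 h3
      · exact absurd h3 hv
    exact ha0 (by rw [hc, zero_smul])
  have hall : ∀ b, Q b = 0 → β[Q] v b = 0 → FS Q M b := by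
    intro b hb hvb
    by_cases hb0 : b = 0
    · rw [hb0]
      have := FS.smul huF (0 : F)
      rwa [zero_smul] at this
    have hvu : β[Q] v u = 0 := by rw [polar_comm]; exact huv
    obtain ⟨x, hvx, hux, hbx⟩ : ∃ x, β[Q] v x = 0 ∧ β[Q] u x ≠ 0 ∧ β[Q] b x ≠ 0 := by
      obtain ⟨r₁, hr₁, hr₁1⟩ := exists_sep hQ (hnv u huQ hu0)
      obtain ⟨r₂, hr₂, hr₂1⟩ := exists_sep hQ (hnv b hb hb0)
      have e1 : β[Q] v r₁ = 0 := hr₁ v (Submodule.mem_span_singleton_self v)
      have e2 : β[Q] v r₂ = 0 := hr₂ v (Submodule.mem_span_singleton_self v)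
      by_cases h3 : β[Q] b r₁ = 0
      · by_cases h4 : β[Q] u r₂ = 0
        · refine ⟨r₁ + r₂, by rw [map_add, e1, e2, add_zero], ?_, ?_⟩
          · rw [map_add, hr₁1, h4, add_zero]; exact one_ne_zero
          · rw [map_add, h3, hr₂1, zero_add]; exact one_ne_zero
        · exact ⟨r₂, e2, h4, by rw [hr₂1]; exact one_ne_zero⟩
      · exact ⟨r₁, e1, by rw [hr₁1]; exact one_ne_zero, h3⟩
    obtain ⟨c, hc⟩ := hadj x hvx
    obtain ⟨w, hw⟩ : ∃ w, x + c • v = w := ⟨_, rfl⟩
    rw [hw] at hc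
    have hwv : β[Q] w v = 0 := by rw [← hw, polar_comm, map_add, map_smul, hvx, hself, smul_zero, add_zero]
    have hwu : β[Q] w u ≠ 0 := by
      rw [← hw, polar_comm, map_add, map_smul, polar_comm Q u v, hvu, smul_zero, add_zero]
      exact hux
    have hwb : β[Q] w b ≠ 0 := by
      rw [← hw, polar_comm, map_add, map_smul, polar_comm Q b v, hvb, smul_zero, add_zero]
      exact hbx
    obtain ⟨a₁, ha₁⟩ : ∃ a, (β[Q] w u)⁻¹ • u = a := ⟨_, rfl⟩
    obtain ⟨b₁, hb₁⟩ : ∃ b', (β[Q] w b)⁻¹ • b = b' := ⟨_, rfl⟩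
    have hwa1 : β[Q] w a₁ = 1 := by rw [← ha₁, map_smul, smul_eq_mul, inv_mul_cancel₀ hwu]
    have hwb1 : β[Q] w b₁ = 1 := by rw [← hb₁, map_smul, smul_eq_mul, inv_mul_cancel₀ hwb]
    have haQ : Q a₁ = 0 := by rw [← ha₁, qsmul, huQ, mul_zero]
    have hbQ : Q b₁ = 0 := by rw [← hb₁, qsmul, hb, mul_zero]
    have hva1 : β[Q] v a₁ = 0 := by rw [← ha₁, map_smul, hvu, smul_zero]
    have hvb1 : β[Q] v b₁ = 0 := by rw [← hb₁, map_smul, hvb, smul_zero]
    obtain ⟨k, hk, hkx⟩ := hA w hwv hc (b₁ - a₁) (by rw [polar_comm, map_sub, hva1, hvb1, sub_self]) (by rw [map_sub, hwa1, hwb1, sub_self])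
    have h3 : Matrix.mulVec (k : Matrix ι ι F) a₁ = b₁ := by
      rw [hkx, hwa1, qsub, haQ, hbQ, map_sub, LinearMap.sub_apply, hself a₁]
      module
    have h4 : b = β[Q] w b • b₁ := by rw [← hb₁, smul_smul, mul_inv_cancel₀ hwb, one_smul]
    rw [h4]
    apply FS.smul
    rw [← h3]
    apply hconj _ _ k hk
    rw [← ha₁]
    exact FS.smul huF _
  apply le_antisymm hMG
  apply om_le_of hQ (by omega)
  intro w hwQ
  by_cases hvw : β[Q] v w = 0
  · exact hall w hwQ hvw
  have hwv : β[Q] w v ≠ 0 := by rw [polar_comm]; exact hvw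
  have hwn : w ∉ Submodule.span F {v} := by
    intro hx
    obtain ⟨c, rfl⟩ := Submodule.mem_span_singleton.1 hx
    apply hvw
    rw [map_smul, hself, smul_zero]
  obtain ⟨r, hr, hwr⟩ := exists_sep hQ hwn
  have hvr : β[Q] v r = 0 := hr v (Submodule.mem_span_singleton_self v)
  -- a singular vector orthogonal to v and not to w
  obtain ⟨s, hsv, hsQ, hws⟩ : ∃ s, β[Q] v s = 0 ∧ Q s = 0 ∧ β[Q] w s ≠ 0 := by
    obtain ⟨c, hc⟩ := hadj r hvr
    by_cases h3 : 1 + c * β[Q] w v = 0
    · obtain ⟨t, htv, htw, htr, htQ⟩ : ∃ t, β[Q] v t = 0 ∧ β[Q] w t = 0 ∧ β[Q] r t = 0 ∧ Q t ≠ 0 := by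
        by_contra hno
        push Not at hno
        have h4 : ∀ x ∈ pp Q (Submodule.span F {v, w, r}), Q x = 0 := fun x hx => hno x (mem_pp.1 hx v (Submodule.subset_span (by simp))) (mem_pp.1 hx w (Submodule.subset_span (by simp))) (mem_pp.1 hx r (Submodule.subset_span (by simp)))
        have h5 := two_mul_finrank_singular_le hQ h4
        have h6 := finrank_pp hQ (Submodule.span F {v, w, r})
        have h7 : finrank F (Submodule.span F {v, w, r}) ≤ 3 := by
          classical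
          have h6 := finrank_span_finset_le_card (R := F) ({v, w, r} : Finset (ι → F))
          have h7 : (({v, w, r} : Finset (ι → F)) : Set (ι → F)) = {v, w, r} := by simp
          have h8 := Finset.card_le_three (a := v) (b := w) (c := r)
          unfold Set.finrank at h6
          rw [h7] at h6
          omega
        omega
      have hvrt : β[Q] v (r + t) = 0 := by rw [map_add, hvr, htv, add_zero]
      obtain ⟨c', hc'⟩ := hadj (r + t) hvrt
      refine ⟨r + t + c' • v, by rw [map_add, hvrt, map_smul, hself, smul_zero, add_zero], hc', fun h0 => ?_⟩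
      rw [map_add, map_add, map_smul, hwr, htw, add_zero, smul_eq_mul] at h0
      have h5 : c' = c := by
        have h6 : (c' - c) * β[Q] w v = 0 := by linear_combination h0 - h3
        exact sub_eq_zero.1 ((mul_eq_zero.1 h6).resolve_right hwv)
      rw [h5] at hc'
      rw [qadd, qadd, qsmul, htr, map_smul, map_add, LinearMap.add_apply] at hc'
      rw [qadd, qsmul, map_smul] at hc
      rw [polar_comm Q r v, hvr] at hc hc'
      rw [polar_comm Q t v, htv] at hc'
      apply htQ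
      have h7 : Q t = (Q r + Q t + 0 + c ^ 2 * Q v + c • (0 + 0)) - (Q r + c ^ 2 * Q v + c • 0) := by
        simp only [smul_eq_mul]
        ring
      rw [h7, hc', hc, sub_self]
    · refine ⟨r + c • v, by rw [map_add, hvr, map_smul, hself, smul_zero, add_zero], hc, ?_⟩
      rw [map_add, map_smul, hwr, smul_eq_mul]
      exact h3
  have hsF := hall s hsQ hsv
  have hsw : β[Q] s w ≠ 0 := by rw [polar_comm]; exact hws
  have hvs : v ∉ Submodule.span F {s} := by
    intro hx
    obtain ⟨c, hc⟩ := Submodule.mem_span_singleton.1 hx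
    apply hv
    rw [← hc, qsmul, hsQ, mul_zero]
  obtain ⟨z, hz, hvz⟩ := exists_sep hQ hvs
  have hsz : β[Q] s z = 0 := hz s (Submodule.mem_span_singleton_self s)
  obtain ⟨k, hk, hkx⟩ := hsF ((-(β[Q] v w) / β[Q] s w) • z) (by rw [map_smul, hsz, smul_zero])
  have h3 : β[Q] v (Matrix.mulVec (k : Matrix ι ι F) w) = 0 := by
    rw [hkx]
    rw [map_add, map_add, map_smul _ _ s, hsv, smul_zero, add_zero, map_smul, map_smul, hvz, smul_eq_mul, smul_eq_mul, mul_one, mul_div_cancel₀ _ hsw, add_neg_cancel]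
  have h4 : FS Q M (Matrix.mulVec (k : Matrix ι ι F) w) := hall _ (by rw [hMQ k hk, hwQ]) h3
  have h5 := hconj _ h4 k⁻¹ (M.inv_mem hk)
  rw [inv_mulVec] at h5
  exact h5

end CfsgLib.Cuq4
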