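import Cfsg.Agent.Lib.Cuq3
import Cfsg.Agent.Lib.Cuq2

set_option autoImplicit false
set_option maxHeartbeats 400000
set_option linter.unusedSectionVars false

/-! Stabilisers of hyperbolic planes over small fields are not maximal. -/
namespace CfsgLib.Cuq5

open Cfsg Cfsg.Geo Module CfsgLib.GeoBase CfsgLib.Asch1 CfsgLib.Aso1 CfsgLib.Cuq1 CfsgLib.Cuq2
open CfsgLib.Quad (two_mul_finrank_singular_le polar_comm polar_self exists_partner)

local notation "β[" Q "]" => QuadraticMap.polarBilin Q

universe u v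

variable {ι : Type} [Fintype ι] [DecidableEq ι] {F : Type u} [Field F] {Q : QuadraticForm F (ι → F)}

theorem fin2 (x y : ι → F) : finrank F (Submodule.span F {x, y}) ≤ 2 := by
  classical
  have h6 := finrank_span_finset_le_card (R := F) ({x, y} : Finset (ι → F))
  have h7 : (({x, y} : Finset (ι → F)) : Set (ι → F)) = {x, y} := by simp
  have h8 := Finset.card_le_two (a := x) (b := y)
  unfold Set.finrank at h6
  rw [h7] at h6
  omega

theorem not_stab_line [Finite F] (hQ : (β[Q]).Nondegenerate) (h13 : 13 ≤ Fintype.card ι) {v : ι → F} (hv0 : v ≠ 0) :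
    ¬ omegaGL ⇑Q ≤ subspaceStabilizer (Submodule.span F {v}) := by
  have hfr : finrank F (ι → F) = Fintype.card ι := finrank_fintype_fun_eq_card F
  obtain ⟨u₀, hu₀, huv₀⟩ := CfsgLib.Quad.exists_singular_polar_ne hQ (by rw [hfr]; omega) hv0
  intro hle
  obtain ⟨y, hy, hyn⟩ : ∃ y, β[Q] u₀ y = 0 ∧ y ∉ Submodule.span F {v, u₀} := by
    by_contra hno
    push Not at hno
    have hle : LinearMap.ker (β[Q] u₀) ≤ Submodule.span F {v, u₀} := fun y hy => hno y hy
    have h1 := Submodule.finrank_mono hle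
    have h3 := LinearMap.finrank_range_add_finrank_ker (β[Q] u₀)
    have h4 := Submodule.finrank_le (LinearMap.range (β[Q] u₀))
    have h5 := fin2 v u₀
    rw [finrank_self] at h4
    omega
  obtain ⟨g, hg, hgx⟩ := om_si hQ (by omega) hu₀ hy
  obtain ⟨c, hc⟩ := Submodule.mem_span_singleton.1 (mem_stab_iff.1 (hle hg) v (Submodule.mem_span_singleton_self v))
  rw [hgx] at hc
  apply hyn
  have h2 : y = (β[Q] u₀ v)⁻¹ • ((c - 1) • v + (β[Q] y v + Q y * β[Q] u₀ v) • u₀) := by
    have e1 : (c - 1) • v + (β[Q] y v + Q y * β[Q] u₀ v) • u₀ = β[Q] u₀ v • y := by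
      rw [sub_smul, hc]
      module
    rw [e1, smul_smul, inv_mul_cancel₀ huv₀, one_smul]
  rw [h2]
  exact Submodule.smul_mem _ _ (Submodule.add_mem _ (Submodule.smul_mem _ _ (Submodule.subset_span (by simp))) (Submodule.smul_mem _ _ (Submodule.subset_span (by simp))))

theorem plane_nonmax [Finite F] (hF : ∀ a b : F, a * b = 1 → a = b) (hQ : (β[Q]).Nondegenerate) (h13 : 13 ≤ Fintype.card ι) {W : Submodule F (ι → F)} (hdim : finrank F W = 2)
    (hW : IsNondegenerateOn (QuadraticMap.polar ⇑Q) W) (hWp : IsPlusTypeOn ⇑Q W) :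
    ∃ K : Subgroup (Matrix.GeneralLinearGroup ι F), subspaceStabilizer W ⊓ omegaGL ⇑Q < K ∧ K < omegaGL ⇑Q := by
  have hfr : finrank F (ι → F) = Fintype.card ι := finrank_fintype_fun_eq_card F
  obtain ⟨U, hUW, hUs, hU⟩ := hWp
  have hU0 : U ≠ ⊥ := by
    intro h0
    rw [h0, finrank_bot, hdim] at hU
    omega
  obtain ⟨e, heU, he0⟩ := (Submodule.ne_bot_iff U).1 hU0
  have heQ : Q e = 0 := hUs e heU
  have heW : e ∈ W := hUW heU
  obtain ⟨-, y, hy, hey⟩ := hW e heW he0
  have hey' : β[Q] e y ≠ 0 := hey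
  -- the partner
  obtain ⟨z, hz⟩ : ∃ z, (β[Q] e y)⁻¹ • y = z := ⟨_, rfl⟩
  have hzW : z ∈ W := by rw [← hz]; exact W.smul_mem _ hy
  have hez : β[Q] e z = 1 := by rw [← hz, map_smul, smul_eq_mul, inv_mul_cancel₀ hey']
  have hself : β[Q] e e = 0 := by rw [polar_self, heQ, mul_zero]
  obtain ⟨f, hf⟩ : ∃ f, z - Q z • e = f := ⟨_, rfl⟩
  have hfW : f ∈ W := by rw [← hf]; exact W.sub_mem hzW (W.smul_mem _ heW)
  have hef : β[Q] e f = 1 := by rw [← hf, map_sub, map_smul, hez, hself, smul_zero, sub_zero]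
  have hfQ : Q f = 0 := by
    rw [← hf, qsub, qsmul, heQ, map_smul, polar_comm Q z e, hez, smul_eq_mul]
    ring
  have hfe : β[Q] f e = 1 := by rw [polar_comm]; exact hef
  have hff : β[Q] f f = 0 := by rw [polar_self, hfQ, mul_zero]
  have hxQ : Q (e + f) = 1 := by rw [qadd, heQ, hfQ, hef]; ring
  have hx0 : e + f ≠ 0 := by
    intro h0
    rw [h0, QuadraticMap.map_zero] at hxQ
    exact zero_ne_one hxQ
  -- W is spanned by e and f
  have hspan : ∀ w ∈ W, ∃ a b : F, w = a • e + b • f := by
    have hle : Submodule.span F {e, f} ≤ W := by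
      rw [Submodule.span_le]
      intro x hx
      rcases hx with rfl | hx
      · exact heW
      · rw [Set.mem_singleton_iff.1 hx]; exact hfW
    have hli : LinearIndependent F ![e, f] := by
      rw [LinearIndependent.pair_iff]
      intro s t hst
      have h1 := congrArg (β[Q] e) hst
      have h2 := congrArg (β[Q] f) hst
      rw [map_add, map_smul, map_smul, hself, hef, map_zero] at h1
      rw [map_add, map_smul, map_smul, hfe, hff, map_zero] at h2
      constructor
      · simpa using h2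
      · simpa using h1
    have h3 : finrank F (Submodule.span F {e, f}) = 2 := by
      have h4 := finrank_span_eq_card hli
      rw [Fintype.card_fin, Matrix.range_cons, Matrix.range_cons, Matrix.range_empty, Set.union_empty, Set.singleton_union] at h4
      exact h4
    have h4 : Submodule.span F {e, f} = W := Submodule.eq_of_le_of_finrank_eq hle (by rw [h3, hdim])
    intro w hw
    rw [← h4] at hw
    obtain ⟨a, b, hab⟩ := Submodule.mem_span_pair.1 hw
    exact ⟨a, b, hab.symm⟩
  refine ⟨subspaceStabilizer (Submodule.span F {e + f}) ⊓ omegaGL ⇑Q, lt_of_le_of_ne ?_ ?_, lt_of_le_of_ne inf_le_right fun heq => not_stab_line hQ h13 hx0 (by rw [← heq]; exact inf_le_left)⟩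
  · rintro g ⟨hgW, hg⟩
    refine ⟨mem_stab_iff.2 fun x hx => ?_, hg⟩
    obtain ⟨c, rfl⟩ := Submodule.mem_span_singleton.1 hx
    obtain ⟨a, b, hab⟩ := hspan _ (mem_stab_iff.1 hgW (e + f) (W.add_mem heW hfW))
    have h1 := om_Q hg (e + f)
    rw [hab, hxQ, qadd, qsmul, qsmul, heQ, hfQ, map_smul, map_smul, LinearMap.smul_apply, hef] at h1
    have h2 : a * b = 1 := by
      simp only [smul_eq_mul] at h1
      linear_combination h1
    rw [mulVec_smul', hab, ← hF a b h2, ← smul_add]
    exact Submodule.smul_mem _ _ (Submodule.smul_mem _ _ (Submodule.mem_span_singleton_self _))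
  · intro heq
    obtain ⟨w, hew, hfw, hwQ⟩ := CfsgLib.Quad.exists_hperp_map_eq hQ heQ hfQ hef (by omega) (1 : F)
    have hwe : β[Q] w e = 0 := by rw [polar_comm]; exact hew
    have hwf : β[Q] w f = 0 := by rw [polar_comm]; exact hfw
    obtain ⟨u, hu⟩ : ∃ u, e - f + w = u := ⟨_, rfl⟩
    have huQ : Q u = 0 := by
      rw [← hu, qadd, qsub, heQ, hfQ, hef, hwQ, map_sub, LinearMap.sub_apply, hew, hfw]
      ring
    have hue : β[Q] u e = -1 := by
      rw [← hu, map_add, map_sub, LinearMap.add_apply, LinearMap.sub_apply, hself, hfe, hwe]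
      ring
    have huf : β[Q] u f = 1 := by
      rw [← hu, map_add, map_sub, LinearMap.add_apply, LinearMap.sub_apply, hef, hff, hwf]
      ring
    obtain ⟨y, hyu, hyx, hyn⟩ : ∃ y, β[Q] u y = 0 ∧ β[Q] (e + f) y = 0 ∧ y ∉ W ⊔ Submodule.span F {u} := by
      by_contra hno
      push Not at hno
      have hle : pp Q (Submodule.span F {u, e + f}) ≤ W ⊔ Submodule.span F {u} := fun y hy => hno y (mem_pp.1 hy u (Submodule.subset_span (by simp))) (mem_pp.1 hy (e + f) (Submodule.subset_span (by simp)))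
      have h1 := Submodule.finrank_mono hle
      have h3 := finrank_pp hQ (Submodule.span F {u, e + f})
      have h4 := fin2 u (e + f)
      have h5 := Submodule.finrank_add_le_finrank_add_finrank W (Submodule.span F {u})
      have h6 : finrank F (Submodule.span F {u}) ≤ 1 := by
        classical
        exact (finrank_span_le_card ({u} : Set (ι → F))).trans (by simp)
      omega
    obtain ⟨k, hk, hkx⟩ := om_si hQ (by omega) huQ hyu
    have hux : β[Q] u (e + f) = 0 := by rw [map_add, hue, huf]; ring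
    have hyx' : β[Q] y (e + f) = 0 := by rw [polar_comm]; exact hyx
    have hkK : k ∈ subspaceStabilizer (Submodule.span F {e + f}) ⊓ omegaGL ⇑Q := by
      refine ⟨mem_stab_iff.2 fun x hx => ?_, hk⟩
      obtain ⟨c, rfl⟩ := Submodule.mem_span_singleton.1 hx
      rw [mulVec_smul', hkx, hux, hyx']
      have : e + f + (0 : F) • y + (-0 - Q y * 0) • u = e + f := by simp
      rw [this]
      exact Submodule.smul_mem _ _ (Submodule.mem_span_singleton_self _)
    rw [← heq] at hkK
    have h1 := mem_stab_iff.1 hkK.1 e heW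
    rw [hkx, hue] at h1
    apply hyn
    have h2 : y = (e - (e + (-1 : F) • y + (- β[Q] y e - Q y * (-1)) • u)) + (- β[Q] y e + Q y) • u := by module
    rw [h2]
    exact Submodule.add_mem _ (Submodule.mem_sup_left (W.sub_mem heW h1)) (Submodule.mem_sup_right (Submodule.smul_mem _ _ (Submodule.mem_span_singleton_self u)))

end CfsgLib.Cuq5
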