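import Cfsg.Agent.Lib.Cts3
import Cfsg.Agent.Lib.AltForm

set_option autoImplicit false
set_option maxHeartbeats 400000
set_option linter.unusedSectionVars false

/-! The symplectic group over the fixed field inside the unitary group. -/
namespace CfsgLib.Cur1

open Cfsg Cfsg.Geo Module CfsgLib.GeoBase CfsgLib.Asch1 CfsgLib.Asch4 CfsgLib.Asch7 CfsgLib.Herm CfsgLib.Asu1

universe u

variable {ι : Type} [Fintype ι] [DecidableEq ι] {F : Type u} [Field F] {σ : F →+* F} {q : ℕ} {B : (ι → F) →ₛₗ[σ] (ι → F) →ₗ[F] F}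
  {F₀ : Subfield F}

/-- the vector with coordinates in the subfield -/
def pe (P : Matrix.GeneralLinearGroup ι F) (x : ι → F₀) : ι → F := Matrix.mulVec (P : Matrix ι ι F) (fun i => (x i : F))

theorem pe_add (P : Matrix.GeneralLinearGroup ι F) (x y : ι → F₀) : pe P (x + y) = pe P x + pe P y := by
  unfold pe
  rw [← mulVec_add']
  rfl

theorem pe_smul (P : Matrix.GeneralLinearGroup ι F) (c : F₀) (x : ι → F₀) : pe P (c • x) = (c : F) • pe P x := by
  unfold pe
  rw [← mulVec_smul']
  rfl

theorem pe_inj (P : Matrix.GeneralLinearGroup ι F) {x y : ι → F₀} (hxy : pe P x = pe P y) : x = y := by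
  have h1 := mulVec_injective P hxy
  funext i
  exact Subtype.ext (congrFun h1 i)

/-- elements preserving the rational vectors -/
theorem mem_sub (P : Matrix.GeneralLinearGroup ι F) {g : Matrix.GeneralLinearGroup ι F} (hg : ∀ x : ι → F₀, ∃ y : ι → F₀, Matrix.mulVec (g : Matrix ι ι F) (pe P x) = pe P y) :
    g ∈ subfieldSubgroup F₀ P := by
  have h1 : P⁻¹ * g * P ∈ (Matrix.GeneralLinearGroup.map (F₀.subtype : F₀ →+* F)).range := by
    apply CfsgLib.Asch5.exists_map
    intro i j
    obtain ⟨y, hy⟩ := hg (Pi.single j 1)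
    have h2 : Matrix.mulVec ((P⁻¹ * g * P : Matrix.GeneralLinearGroup ι F) : Matrix ι ι F) (Pi.single j 1) = fun i => (y i : F) := by
      rw [mulVec_mul, mulVec_mul]
      have h3 : pe P (Pi.single j 1 : ι → F₀) = Matrix.mulVec (P : Matrix ι ι F) (Pi.single j 1) := by
        unfold pe
        congr 1
        funext k
        rw [Pi.single_apply, Pi.single_apply]
        split_ifs <;> rfl
      rw [← h3, hy]
      exact inv_mulVec _ _
    have h4 := congrFun h2 i
    rw [Matrix.mulVec_single_one] at h4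
    change ((P⁻¹ * g * P : Matrix.GeneralLinearGroup ι F) : Matrix ι ι F) i j = (y i : F) at h4
    rw [h4]
    exact (y i).2
  refine ⟨P⁻¹ * g * P, Subgroup.mem_sup_left h1, ?_⟩
  change P * (P⁻¹ * g * P) * P⁻¹ = g
  group

/-- elements preserving the lines through the rational vectors -/
theorem mem_sub' (P : Matrix.GeneralLinearGroup ι F) [Nonempty ι] {g : Matrix.GeneralLinearGroup ι F}
    (hg : ∀ x : ι → F₀, ∃ (c : F) (y : ι → F₀), Matrix.mulVec (g : Matrix ι ι F) (pe P x) = c • pe P y) :
    g ∈ subfieldSubgroup F₀ P := by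
  classical
  obtain ⟨i₀⟩ := (inferInstance : Nonempty ι)
  have hne : ∀ x : ι → F₀, x ≠ 0 → pe P x ≠ 0 := fun x hx h0 => hx (pe_inj P (by rw [h0]; unfold pe; exact (Matrix.mulVec_zero _).symm))
  have hne' : ∀ x : ι → F₀, x ≠ 0 → Matrix.mulVec (g : Matrix ι ι F) (pe P x) ≠ 0 := fun x hx h0 => hne x hx (mulVec_injective g (h0.trans (Matrix.mulVec_zero _).symm))
  choose c y hcy using hg
  have hc : ∀ x, x ≠ 0 → c x ≠ 0 := fun x hx h0 => hne' x hx (by rw [hcy, h0, zero_smul])
  have hy : ∀ x, x ≠ 0 → y x ≠ 0 := fun x hx h0 => hne' x hx (by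
    rw [hcy, h0]
    have : pe P (0 : ι → F₀) = 0 := by
      unfold pe
      exact Matrix.mulVec_zero _
    rw [this, smul_zero])
  -- ratios
  have hrat : ∀ x z : ι → F₀, x ≠ 0 → z ≠ 0 → z ∉ Submodule.span F₀ {x} → c z * (c x)⁻¹ ∈ F₀ := by
    intro x z hx hz hxz
    have hyz : y z ∉ Submodule.span F₀ {y x} := by
      intro hcon
      obtain ⟨a, ha⟩ := Submodule.mem_span_singleton.1 hcon
      have ha0 : a ≠ 0 := by
        rintro rfl
        exact hy z hz (by rw [← ha, zero_smul])
      -- g (pe z) = c z • a • pe (y x) = (c z * a / c x) • g (pe x)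
      have h1 : Matrix.mulVec (g : Matrix ι ι F) (pe P z) = Matrix.mulVec (g : Matrix ι ι F) ((c z * a * (c x)⁻¹) • pe P x) := by
        rw [mulVec_smul', hcy, hcy, ← ha, pe_smul, smul_smul, smul_smul]
        congr 1
        have := hc x hx
        field_simp
      have h2 := mulVec_injective g h1
      have h3 : (fun i => (z i : F)) = (c z * a * (c x)⁻¹) • (fun i => (x i : F)) := by
        apply mulVec_injective P
        rw [mulVec_smul']
        exact h2
      obtain ⟨j, hj⟩ : ∃ j, x j ≠ 0 := by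
        by_contra hcon
        push Not at hcon
        exact hx (funext hcon)
      have h4 := congrFun h3 j
      rw [Pi.smul_apply, smul_eq_mul] at h4
      apply hxz
      rw [Submodule.mem_span_singleton]
      refine ⟨z j * (x j)⁻¹, ?_⟩
      funext i
      apply Subtype.ext
      have h5 := congrFun h3 i
      rw [Pi.smul_apply, smul_eq_mul] at h5
      have hj' : (x j : F) ≠ 0 := fun h0 => hj (Subtype.ext h0)
      change (z j : F) * (x j : F)⁻¹ * (x i : F) = (z i : F)
      rw [h5, h4]
      field_simp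
    -- c z • y z + c x • y x = c (z+x) • y (z + x)
    have h6 : c (z + x) • pe P (y (z + x)) = c z • pe P (y z) + c x • pe P (y x) := by
      rw [← hcy, ← hcy, ← hcy, pe_add, mulVec_add']
    have h7 : ∀ i, c (z + x) * (y (z + x) i : F) = c z * (y z i : F) + c x * (y x i : F) := by
      have h8 : c (z + x) • (fun i => (y (z + x) i : F)) = c z • (fun i => (y z i : F)) + c x • (fun i => (y x i : F)) := by
        apply mulVec_injective P
        rw [mulVec_add', mulVec_smul', mulVec_smul', mulVec_smul']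
        exact h6
      intro i
      exact congrFun h8 i
    obtain ⟨i, j, hij⟩ := CfsgLib.Asu2.minor (hy x hx) hyz
    have hij' : (y z i : F) * y x j - y z j * y x i ≠ 0 := fun h0 => hij (Subtype.ext h0)
    -- Cramer
    have e1 : c z * ((y z i : F) * y x j - y z j * y x i) = c (z + x) * ((y (z + x) i : F) * y x j - y (z + x) j * y x i) := by
      linear_combination (-(y x j : F)) * h7 i + (y x i : F) * h7 j
    have e2 : c x * ((y z i : F) * y x j - y z j * y x i) = c (z + x) * ((y z i : F) * y (z + x) j - y z j * y (z + x) i) := by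
      linear_combination (-(y z i : F)) * h7 j + (y z j : F) * h7 i
    have hcx := hc x hx
    have hczx : c (z + x) ≠ 0 := by
      intro h0
      rw [h0, zero_mul] at e2
      exact (mul_ne_zero hcx hij') e2
    have hD : ((y z i : F) * y (z + x) j - y z j * y (z + x) i) ≠ 0 := by
      intro h0
      rw [h0, mul_zero] at e2
      exact (mul_ne_zero hcx hij') e2
    have e3 : c z * (c x)⁻¹ = ((y (z + x) i : F) * y x j - y (z + x) j * y x i) * ((y z i : F) * y (z + x) j - y z j * y (z + x) i)⁻¹ := by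
      have e4 : c z * ((y z i : F) * y (z + x) j - y z j * y (z + x) i) * ((y z i : F) * y x j - y z j * y x i) * c (z + x) = c x * ((y (z + x) i : F) * y x j - y (z + x) j * y x i) * ((y z i : F) * y x j - y z j * y x i) * c (z + x) := by
        linear_combination (((y z i : F) * y (z + x) j - y z j * y (z + x) i) * c (z + x)) * e1 - (((y (z + x) i : F) * y x j - y (z + x) j * y x i) * c (z + x)) * e2
      have e5 := mul_right_cancel₀ hij' (mul_right_cancel₀ hczx e4)
      rw [← div_eq_mul_inv, ← div_eq_mul_inv, div_eq_div_iff hcx hD, e5]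
      ring
    rw [e3]
    exact F₀.mul_mem (F₀.sub_mem (F₀.mul_mem (y _ i).2 (y _ j).2) (F₀.mul_mem (y _ j).2 (y _ i).2)) (F₀.inv_mem (F₀.sub_mem (F₀.mul_mem (y _ i).2 (y _ j).2) (F₀.mul_mem (y _ j).2 (y _ i).2)))
  -- scale
  let e : ι → F₀ := Pi.single i₀ 1
  have he : e ≠ 0 := by
    intro h0
    have := congrFun h0 i₀
    simp [e] at this
  have hce := hc e he
  have hunit : ∀ x : ι → F₀, x ≠ 0 → c x * (c e)⁻¹ ∈ F₀ := by
    intro x hx
    by_cases hxe : x ∈ Submodule.span F₀ {e}
    · obtain ⟨a, rfl⟩ := Submodule.mem_span_singleton.1 hxe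
      -- g(pe (a • e)) = a • c e • pe (y e) = c (a•e) • pe (y (a • e))
      have h1 : c (a • e) • pe P (y (a • e)) = ((a : F) * c e) • pe P (y e) := by
        rw [← hcy, pe_smul, mulVec_smul', hcy, smul_smul]
      have h2 : c (a • e) • (fun i => (y (a • e) i : F)) = ((a : F) * c e) • (fun i => (y e i : F)) := by
        apply mulVec_injective P
        rw [mulVec_smul', mulVec_smul']
        exact h1
      obtain ⟨j, hj⟩ : ∃ j, y (a • e) j ≠ 0 := by
        by_contra hcon
        push Not at hcon
        exact hy _ hx (funext hcon)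
      have hj' : (y (a • e) j : F) ≠ 0 := fun h0 => hj (Subtype.ext h0)
      have h3 := congrFun h2 j
      rw [Pi.smul_apply, Pi.smul_apply, smul_eq_mul, smul_eq_mul] at h3
      have h4 : c (a • e) * (c e)⁻¹ = (a : F) * (y e j : F) * (y (a • e) j : F)⁻¹ := by
        rw [← div_eq_mul_inv, ← div_eq_mul_inv, div_eq_div_iff hce hj', h3]
        ring
      rw [h4]
      exact F₀.mul_mem (F₀.mul_mem a.2 (y e j).2) (F₀.inv_mem (y _ j).2)
    · exact hrat e x he hx hxe
  have hunit' : ∀ x : ι → F₀, ∃ z : ι → F₀, Matrix.mulVec (g : Matrix ι ι F) (pe P x) = c e • pe P z := by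
    intro x
    by_cases hx : x = 0
    · subst hx
      refine ⟨0, ?_⟩
      have : pe P (0 : ι → F₀) = 0 := by
        unfold pe
        exact Matrix.mulVec_zero _
      rw [this, smul_zero]
      exact Matrix.mulVec_zero _
    · refine ⟨(⟨c x * (c e)⁻¹, hunit x hx⟩ : F₀) • y x, ?_⟩
      rw [hcy, pe_smul, smul_smul]
      congr 1
      change c x = c e * (c x * (c e)⁻¹)
      field_simp
  let s : Matrix.GeneralLinearGroup ι F := sc (Units.mk0 (c e) hce)
  have h8 : s⁻¹ * g ∈ subfieldSubgroup F₀ P := by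
    apply mem_sub
    intro x
    obtain ⟨z, hz⟩ := hunit' x
    refine ⟨z, ?_⟩
    rw [mulVec_mul, hz]
    have h9 : c e • pe P z = Matrix.mulVec (s : Matrix ι ι F) (pe P z) := by
      rw [sc_mulVec]
      rfl
    rw [h9, inv_mulVec]
  have h10 : s ∈ subfieldSubgroup F₀ P := by
    refine ⟨s, Subgroup.mem_sup_right (sc_mem _), ?_⟩
    change P * s * P⁻¹ = s
    rw [← scalar_comm (sc_mem _) P, mul_assoc, mul_inv_cancel, mul_one]
  have h11 : g = s * (s⁻¹ * g) := by group
  rw [h11]
  exact Subgroup.mul_mem _ h10 h8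

end CfsgLib.Cur1
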