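import Cfsg.Agent.Lib.Cur1

set_option autoImplicit false
set_option maxHeartbeats 400000
set_option linter.unusedSectionVars false

/-! The symplectic group over the fixed field inside the unitary group: maximality. -/
namespace CfsgLib.Cur2

open Cfsg Cfsg.Geo Module CfsgLib.GeoBase CfsgLib.Asch1 CfsgLib.Herm CfsgLib.Asu1 CfsgLib.Cts1 CfsgLib.Cts2 CfsgLib.Cts3 CfsgLib.Cur1

universe u

variable {ι : Type} [Fintype ι] [DecidableEq ι] {F : Type u} [Field F] {σ : F →+* F} {q : ℕ} {B : (ι → F) →ₛₗ[σ] (ι → F) →ₗ[F] F}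
  {F₀ : Subfield F}

/-- the alternating form over the subfield -/
noncomputable def bf (hF0 : ∀ a ∈ F₀, σ a = a) (ζ : F) (P : Matrix.GeneralLinearGroup ι F) (hP : ∀ x y : ι → F₀, ζ * B (pe P x) (pe P y) ∈ F₀) :
    LinearMap.BilinForm F₀ (ι → F₀) :=
  LinearMap.mk₂ F₀ (fun x y => (⟨ζ * B (pe P x) (pe P y), hP x y⟩ : F₀))
    (fun x x' y => by
      apply Subtype.ext
      change ζ * B (pe P (x + x')) (pe P y) = ζ * B (pe P x) (pe P y) + ζ * B (pe P x') (pe P y)
      rw [pe_add, map_add_left, mul_add])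
    (fun c x y => by
      apply Subtype.ext
      change ζ * B (pe P (c • x)) (pe P y) = (c : F) * (ζ * B (pe P x) (pe P y))
      rw [pe_smul, map_smul_left, hF0 _ c.2]
      ring)
    (fun x y y' => by
      apply Subtype.ext
      change ζ * B (pe P x) (pe P (y + y')) = ζ * B (pe P x) (pe P y) + ζ * B (pe P x) (pe P y')
      rw [pe_add, map_add_right, mul_add])
    (fun c x y => by
      apply Subtype.ext
      change ζ * B (pe P x) (pe P (c • y)) = (c : F) * (ζ * B (pe P x) (pe P y))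
      rw [pe_smul, map_smul_right]
      ring)

theorem bf_apply (hF0 : ∀ a ∈ F₀, σ a = a) (ζ : F) (P : Matrix.GeneralLinearGroup ι F) (hP : ∀ x y : ι → F₀, ζ * B (pe P x) (pe P y) ∈ F₀) (x y : ι → F₀) :
    ((bf hF0 ζ P hP x y : F₀) : F) = ζ * B (pe P x) (pe P y) := rfl

section
variable (hq : QConj σ q) (h : HForm B) (hF0 : ∀ a, a ∈ F₀ ↔ σ a = a) {ζ : F} (hζ0 : ζ ≠ 0) (hζ : σ ζ = -ζ) {P : Matrix.GeneralLinearGroup ι F}
  (hP : ∀ x y : ι → F₀, ζ * B (pe P x) (pe P y) ∈ F₀) (halt : ∀ x : ι → F₀, B (pe P x) (pe P x) = 0)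

include h hF0 hζ0 hζ hP in
theorem skew (x y : ι → F₀) : B (pe P y) (pe P x) = - B (pe P x) (pe P y) := by
  have h1 := (hF0 _).1 (hP x y)
  rw [map_mul, hζ, h.symm] at h1
  apply mul_left_cancel₀ hζ0
  linear_combination (-1 : F) * h1

include halt in
theorem bf_alt : (bf (fun a ha => (hF0 a).1 ha) ζ P hP).IsAlt := by
  intro x
  apply Subtype.ext
  rw [bf_apply, halt, mul_zero]
  rfl

/-- every vector is a combination of two rational vectors -/
theorem exists_pair (hF0 : ∀ a, a ∈ F₀ ↔ σ a = a) (hinv : ∀ a, σ (σ a) = a) {θ : F} (hθ : σ θ ≠ θ) (P : Matrix.GeneralLinearGroup ι F) (v : ι → F) :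
    ∃ x y : ι → F₀, v = pe P x + θ • pe P y := by
  have hd : σ θ - θ ≠ 0 := sub_ne_zero.2 hθ
  let w := Matrix.mulVec ((P⁻¹ : Matrix.GeneralLinearGroup ι F) : Matrix ι ι F) v
  have hb : ∀ i, (σ (w i) - w i) * (σ θ - θ)⁻¹ ∈ F₀ := by
    intro i
    rw [hF0, map_mul, map_inv₀, map_sub, map_sub, hinv, hinv]
    rw [show θ - σ θ = -(σ θ - θ) by ring, inv_neg]
    ring
  have ha : ∀ i, w i - θ * ((σ (w i) - w i) * (σ θ - θ)⁻¹) ∈ F₀ := by
    intro i
    rw [hF0, map_sub, map_mul, (hF0 _).1 (hb i)]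
    field_simp
    ring
  refine ⟨fun i => ⟨_, ha i⟩, fun i => ⟨_, hb i⟩, ?_⟩
  unfold pe
  rw [← mulVec_smul', ← mulVec_add']
  rw [← mulVec_inv P v]
  congr 1
  funext i
  change w i = (w i - θ * ((σ (w i) - w i) * (σ θ - θ)⁻¹)) + θ * ((σ (w i) - w i) * (σ θ - θ)⁻¹)
  ring

include h hζ0 halt in
theorem bf_nd (hinv : ∀ a, σ (σ a) = a) {θ : F} (hθ : σ θ ≠ θ) : (bf (fun a ha => (hF0 a).1 ha) ζ P hP).Nondegenerate := by
  refine ((bf_alt hF0 hP halt).isRefl.nondegenerate_iff_separatingLeft).mpr ?_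
  intro x hx
  have h0 : pe P x = 0 := by
    apply h.nd
    intro v
    obtain ⟨y, z, rfl⟩ := exists_pair hF0 hinv hθ P v
    have e1 : ∀ y : ι → F₀, B (pe P x) (pe P y) = 0 := by
      intro y
      have := congrArg (fun a : F₀ => (a : F)) (hx y)
      change ζ * B (pe P x) (pe P y) = 0 at this
      exact (mul_eq_zero.1 this).resolve_left hζ0
    rw [map_add_right, map_smul_right, e1, e1, mul_zero, add_zero]
  apply pe_inj P
  rw [h0]
  unfold pe
  exact (Matrix.mulVec_zero _).symm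

include hq h hF0 hζ0 hζ hP halt in
/-- the transvection with rational centre -/
theorem tt_rat (x : ι → F₀) {b : F} (hb : b + σ b = 0) :
    ∃ g ∈ subfieldSubgroup F₀ P ⊓ GB B, ∀ y, Matrix.mulVec (g : Matrix ι ι F) y = y + (b * B (pe P x) y) • pe P x := by
  obtain ⟨g, hg, hgx⟩ := exists_tt (su_eform hq h) (halt x) (b := b) (by rw [one_mul]; exact hb)
  refine ⟨g, ⟨mem_sub P fun y => ?_, hg⟩, hgx⟩
  have hbz : b * ζ⁻¹ ∈ F₀ := by
    rw [hF0, map_mul, map_inv₀, hζ, inv_neg]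
    linear_combination (-ζ⁻¹) * hb
  refine ⟨y + (⟨b * ζ⁻¹, hbz⟩ * ⟨ζ * B (pe P x) (pe P y), hP x y⟩ : F₀) • x, ?_⟩
  rw [hgx, pe_add, pe_smul]
  congr 2
  change b * B (pe P x) (pe P y) = b * ζ⁻¹ * (ζ * B (pe P x) (pe P y))
  field_simp

include hq h hF0 hζ0 hζ hP halt in
theorem tg {g : (ι → F₀) ≃ₗ[F₀] (ι → F₀)} (hg : g ∈ CfsgLib.AltForm.transvGroup (bf (fun a ha => (hF0 a).1 ha) ζ P hP) (bf_alt hF0 hP halt)) :
    ∃ k ∈ subfieldSubgroup F₀ P ⊓ GB B, ∀ x : ι → F₀, Matrix.mulVec (k : Matrix ι ι F) (pe P x) = pe P (g x) := by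
  unfold CfsgLib.AltForm.transvGroup at hg
  induction hg using Subgroup.closure_induction with
  | mem g hg =>
    obtain ⟨w, c, rfl⟩ := hg
    obtain ⟨k, hk, hkx⟩ := tt_rat hq h hF0 hζ0 hζ hP halt w (b := -((c : F) * ζ)) (by
      rw [map_neg, map_mul, hζ, (hF0 _).1 c.2]
      ring)
    refine ⟨k, hk, fun x => ?_⟩
    rw [hkx, CfsgLib.AltForm.transv_apply, pe_add, pe_smul]
    congr 2
    change -((c : F) * ζ) * B (pe P w) (pe P x) = (c : F) * (ζ * B (pe P x) (pe P w))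
    rw [skew h hF0 hζ0 hζ hP x w]
    ring
  | one => exact ⟨1, Subgroup.one_mem _, fun x => mulVec_one _⟩
  | mul a b _ _ ha hb =>
    obtain ⟨k, hk, hkx⟩ := ha
    obtain ⟨l, hl, hlx⟩ := hb
    refine ⟨k * l, Subgroup.mul_mem _ hk hl, fun x => ?_⟩
    rw [mulVec_mul, hlx, hkx]
    rfl
  | inv a _ ha =>
    obtain ⟨k, hk, hkx⟩ := ha
    refine ⟨k⁻¹, Subgroup.inv_mem _ hk, fun x => ?_⟩
    have h1 := hkx (a⁻¹ x)
    rw [show a (a⁻¹ x) = x from LinearEquiv.apply_symm_apply a x] at h1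
    rw [← h1, inv_mulVec]

include hq h hF0 hζ0 hζ hP halt in
theorem ur_maximal (h7 : 7 ≤ Fintype.card ι) : IsMaximalIn (GB B) (subfieldSubgroup F₀ P ⊓ GB B) := by
  haveI := hq.finite
  haveI : Nonempty ι := Fintype.card_pos_iff.1 (by omega)
  have hF : F₀ ≠ ⊤ := by
    rintro rfl
    have h1 : ζ + ζ = 0 := by
      have h2 := (hF0 ζ).1 (Subfield.mem_top ζ)
      rw [hζ] at h2
      linear_combination (-1 : F) * h2
    obtain ⟨t, ht⟩ := hq.exists_trace (map_one σ)
    have h3 := (hF0 t).1 (Subfield.mem_top t)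
    rw [h3] at ht
    have h4 : ζ * (t + t) = 0 := by linear_combination t * h1
    rw [ht, mul_one] at h4
    exact hζ0 h4
  obtain ⟨θ, hθ⟩ : ∃ θ : F, σ θ ≠ θ := by
    by_contra hne
    push Not at hne
    exact hF (by rw [eq_top_iff]; exact fun a _ => (hF0 a).2 (hne a))
  have hinv := hq.invol
  refine ⟨lt_of_le_of_ne inf_le_right fun heq => CfsgLib.Asu2.not_subfield_u hq h h7 hF P (by rw [← heq]; exact inf_le_left), fun M hHM hMG => ?_⟩
  by_cases hMH : M ≤ subfieldSubgroup F₀ P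
  · exact Or.inl (le_antisymm (le_inf hMH hMG) hHM)
  right
  obtain ⟨g, hg, hgs⟩ := Set.not_subset.1 hMH
  have hgU : g ∈ UB B := (hMG hg).1
  -- transvections with rational centre
  have htr : ∀ x : ι → F₀, TT 1 B M (pe P x) := by
    intro x b hb
    rw [one_mul] at hb
    obtain ⟨k, hk, hkx⟩ := tt_rat hq h hF0 hζ0 hζ hP halt x hb
    exact ⟨k, hHM hk, hkx⟩
  obtain ⟨x₀, hx₀⟩ : ∃ x : ι → F₀, ∀ (c : F) (y : ι → F₀), Matrix.mulVec (g : Matrix ι ι F) (pe P x) ≠ c • pe P y := by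
    by_contra hne
    push Not at hne
    exact hgs (mem_sub' P hne)
  obtain ⟨w, hw⟩ : ∃ w, Matrix.mulVec (g : Matrix ι ι F) (pe P x₀) = w := ⟨_, rfl⟩
  have hww : B w w = 0 := by
    rw [← hw, hgU, halt]
  have hTw : TT 1 B M w := by
    rw [← hw]
    exact TT.conj (su_eform hq h) (htr x₀) hg hgU
  rw [hw] at hx₀
  -- the structure of the other isotropic vectors
  have hstr : ∀ v : ι → F, B v v = 0 → (∀ (c : F) (y : ι → F₀), v ≠ c • pe P y) → ∃ x y : ι → F₀, v = pe P x + θ • pe P y ∧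
      LinearIndependent F₀ ![x, y] ∧ B (pe P x) (pe P y) = 0 := by
    intro v hv hvr
    obtain ⟨x, y, hxy⟩ := exists_pair hF0 hinv hθ P v
    refine ⟨x, y, hxy, ?_, ?_⟩
    · rw [LinearIndependent.pair_iff]
      intro s t hst
      by_contra hne
      by_cases hs : s = 0
      · have ht : t ≠ 0 := fun ht => hne ⟨hs, ht⟩
        rw [hs, zero_smul, zero_add] at hst
        have hy0 : y = 0 := (smul_eq_zero.1 hst).resolve_left ht
        apply hvr 1 x
        rw [hxy, hy0, one_smul, show pe P (0 : ι → F₀) = 0 from Matrix.mulVec_zero _, smul_zero, add_zero]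
      · have hx : x = (-(s⁻¹ * t)) • y := by
          have : s⁻¹ • (s • x + t • y) = 0 := by rw [hst, smul_zero]
          rw [smul_add, smul_smul, smul_smul, inv_mul_cancel₀ hs, one_smul] at this
          rw [neg_smul]
          exact eq_neg_of_add_eq_zero_left this
        apply hvr ((-(s⁻¹ * t) : F₀) + θ) y
        rw [hxy, hx, pe_smul, add_smul]
    · rw [hxy, map_add_left, map_add_right, map_add_right, map_smul_left, map_smul_left, map_smul_right, map_smul_right, halt, halt, skew h hF0 hζ0 hζ hP x y] at hv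
      have h1 : (θ - σ θ) * B (pe P x) (pe P y) = 0 := by linear_combination hv
      exact (mul_eq_zero.1 h1).resolve_left (sub_ne_zero.2 (Ne.symm hθ))
  obtain ⟨x, y, hxy, hli, hxy0⟩ := hstr w hww hx₀
  have hle : GB B ≤ M := by
    apply su_le hq h (by omega)
    intro v hv
    by_cases hvr : ∃ (c : F) (y : ι → F₀), v = c • pe P y
    · obtain ⟨c, y, rfl⟩ := hvr
      exact TT.smul (su_eform hq h) (htr y) c
    · push Not at hvr
      obtain ⟨x', y', hxy', hli', hxy0'⟩ := hstr v hv hvr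
      obtain ⟨t, ht, htv⟩ := CfsgLib.AltForm.exists_transv_family (bf_nd h hF0 hζ0 hP halt hinv hθ) (bf_alt hF0 hP halt) ![x, y] ![x', y'] hli hli' (by
        have hb0 : ∀ x y : ι → F₀, B (pe P x) (pe P y) = 0 → bf (fun a ha => (hF0 a).1 ha) ζ P hP x y = 0 := fun x y h0 => by
          apply Subtype.ext
          rw [bf_apply, h0, mul_zero]
          rfl
        have hs1 : B (pe P y) (pe P x) = 0 := by rw [skew h hF0 hζ0 hζ hP x y, hxy0, neg_zero]
        have hs2 : B (pe P y') (pe P x') = 0 := by rw [skew h hF0 hζ0 hζ hP x' y', hxy0', neg_zero]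
        intro i j
        fin_cases i <;> fin_cases j
        · exact (hb0 _ _ (halt _)).trans (hb0 _ _ (halt _)).symm
        · exact (hb0 _ _ hxy0).trans (hb0 _ _ hxy0').symm
        · exact (hb0 _ _ hs1).trans (hb0 _ _ hs2).symm
        · exact (hb0 _ _ (halt _)).trans (hb0 _ _ (halt _)).symm)
      obtain ⟨k, hk, hkx⟩ := tg hq h hF0 hζ0 hζ hP halt ht
      have h1 : Matrix.mulVec (k : Matrix ι ι F) w = v := by
        rw [hxy, hxy', mulVec_add', mulVec_smul', hkx, hkx]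
        have e0 : t x = x' := htv 0
        have e1 : t y = y' := htv 1
        rw [e0, e1]
      rw [← h1]
      exact TT.conj (su_eform hq h) hTw (hHM hk) hk.2.1
  exact le_antisymm hMG hle

end

end CfsgLib.Cur2
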