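import Cfsg.Agent.Lib.Cts3
import Cfsg.Agent.Lib.Herm8

set_option autoImplicit false
set_option maxHeartbeats 400000
set_option linter.unusedSectionVars false

/-! Stabilisers of totally isotropic subspaces in special unitary groups. -/
namespace CfsgLib.Cuw1

open Cfsg Cfsg.Geo Module CfsgLib.GeoBase CfsgLib.Asch1 CfsgLib.Herm CfsgLib.Asu1 CfsgLib.Cts1 CfsgLib.Cts2 CfsgLib.Cts3

universe u

variable {ι : Type} [Fintype ι] [DecidableEq ι] {F : Type u} [Field F] {σ : F →+* F} {q : ℕ} {B : (ι → F) →ₛₗ[σ] (ι → F) →ₗ[F] F} (hq : QConj σ q) (h : HForm B)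

include hq h

/-- Siegel transformations as matrices -/
theorem exists_siegel {u y : ι → F} {c : F} (hu : B u u = 0) (huy : B u y = 0) (hc : c + σ c + B y y = 0) :
    ∃ g ∈ GB B, ∀ x, Matrix.mulVec (g : Matrix ι ι F) x = x + B u x • y + (c * B u x - B y x) • u := by
  haveI := hq.finite
  obtain ⟨g, hg⟩ : ∃ g : Matrix.GeneralLinearGroup ι F, CfsgLib.Quad.glEquiv ι F g = siH h hu huy hc := ⟨(CfsgLib.Quad.glEquiv ι F).symm (siH h hu huy hc), MulEquiv.apply_symm_apply _ _⟩
  have hgx : ∀ x, Matrix.mulVec (g : Matrix ι ι F) x = siH h hu huy hc x := fun x => by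
    rw [← hg, CfsgLib.Quad.glEquiv_apply]
  obtain ⟨h1, h2⟩ := mem_SUL.1 (siH_mem h hu huy hc)
  refine ⟨g, ⟨fun x z => ?_, ?_⟩, fun x => by rw [hgx, siH_apply]⟩
  · rw [hgx, hgx]
    exact h1 x z
  · refine mem_sl.2 ?_
    rw [← h2, ← LinearMap.det_toLin']
    congr 1
    apply LinearMap.ext
    intro x
    rw [Matrix.toLin'_apply]
    exact hgx x

theorem isotropic_maximal (h4 : 4 ≤ Fintype.card ι) {W : Submodule F (ι → F)} (hW0 : W ≠ ⊥) (hW : ∀ x ∈ W, ∀ y ∈ W, B x y = 0) :
    IsMaximalIn (GB B) (subspaceStabilizer W ⊓ GB B) := by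
  haveI := hq.finite
  have hE := su_eform hq h
  obtain ⟨w₀, hw₀, hw₀0⟩ := (Submodule.ne_bot_iff W).1 hW0
  have hWW : W ≤ perp B W := fun x hx y hy => hW y hy x hx
  -- properness
  have hne : ¬ GB B ≤ subspaceStabilizer W := by
    intro hle
    obtain ⟨f, hf, hwf⟩ := h.exists_partner hq hw₀0 (hW w₀ hw₀ w₀ hw₀)
    have hfw : B f w₀ = 1 := by rw [← h.symm, hwf, map_one]
    obtain ⟨ζ, hζ0, hζ⟩ := hq.exists_trace_ne_zero (map_zero σ)
    obtain ⟨g, hg, hgx⟩ := exists_tt hE hf (b := ζ) (by rw [one_mul]; exact hζ)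
    have h1 := mem_stab_iff.1 (hle hg) w₀ hw₀
    rw [hgx, hfw, mul_one] at h1
    have h2 : ζ • f ∈ W := by
      have := W.sub_mem h1 hw₀
      rwa [add_sub_cancel_left] at this
    have h3 : f ∈ W := (Submodule.smul_mem_iff W hζ0).1 h2
    rw [hW f h3 w₀ hw₀] at hfw
    exact zero_ne_one hfw
  refine ⟨lt_of_le_of_ne inf_le_right fun heq => hne (by rw [← heq]; exact inf_le_left), fun M hHM hMG => ?_⟩
  by_cases hMH : M ≤ subspaceStabilizer W
  · exact Or.inl (le_antisymm (le_inf hMH hMG) hHM)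
  right
  obtain ⟨g, hg, hgs⟩ := Set.not_subset.1 hMH
  have hgU : g ∈ UB B := (hMG hg).1
  -- transvections with centre in the perpendicular space
  have hA : ∀ u ∈ perp B W, B u u = 0 → TT 1 B M u := by
    intro u hu huu b hb
    obtain ⟨k, hk, hkx⟩ := exists_tt hE huu hb
    refine ⟨k, hHM ⟨mem_stab_iff.2 fun x hx => ?_, hk⟩, hkx⟩
    have h1 : B u x = 0 := h.eq_zero_comm (hu x hx)
    rw [hkx, h1, mul_zero, zero_smul, add_zero]
    exact hx
  -- some isotropic vector of the perpendicular space leaves it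
  obtain ⟨u, hu, huu, hgu⟩ : ∃ u ∈ perp B W, B u u = 0 ∧ Matrix.mulVec (g : Matrix ι ι F) u ∉ perp B W := by
    by_contra hcon
    push Not at hcon
    let U : Submodule F (ι → F) := Submodule.span F {u | u ∈ perp B W ∧ B u u = 0}
    have hUW : U ≤ perp B W := Submodule.span_le.2 fun u hu => hu.1
    have hWU : W ≤ U := fun w hw => Submodule.subset_span ⟨hWW hw, hW w hw w hw⟩
    have hgU' : U.map (Matrix.toLin' (g : Matrix ι ι F)) ≤ U := by
      rw [Submodule.map_span_le]
      intro u hu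
      rw [Matrix.toLin'_apply]
      exact Submodule.subset_span ⟨hcon u hu.1 hu.2, by rw [hgU]; exact hu.2⟩
    have hgU2 : U.map (Matrix.toLin' (g : Matrix ι ι F)) = U := by
      apply Submodule.eq_of_le_of_finrank_eq hgU'
      exact (Submodule.equivMapOfInjective (Matrix.toLin' (g : Matrix ι ι F)) (fun y z hyz => mulVec_injective g (by
        rw [Matrix.toLin'_apply, Matrix.toLin'_apply] at hyz
        exact hyz)) U).finrank_eq.symm
    -- W is the radical of U
    have hrad : ∀ x, x ∈ W ↔ x ∈ U ∧ ∀ y ∈ U, B y x = 0 := by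
      intro x
      constructor
      · intro hx
        exact ⟨hWU hx, fun y hy => h.eq_zero_comm (hUW hy x hx)⟩
      · rintro ⟨hxU, hx⟩
        by_contra hxW
        obtain ⟨y, hy, hxy⟩ : ∃ y ∈ perp B W, B y x ≠ 0 := by
          by_contra hno
          push Not at hno
          apply hxW
          rw [← perp_perp h W]
          exact hno
        have hxx : B x x = 0 := hx x hxU
        obtain ⟨t, ht⟩ := hq.exists_trace (h.self_fixed y)
        -- y' = y - (t / B(y,x)) x
        let a : F := -(t * (B y x)⁻¹)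
        have hy' : B (y + a • x) (y + a • x) = 0 := by
          rw [map_add_left, map_add_right, map_add_right, map_smul_left, map_smul_left, map_smul_right, map_smul_right, hxx, ← h.symm y x]
          have h1 : a * B y x = -t := by
            simp only [a]
            field_simp
          have h2 : σ a * σ (B y x) = -σ t := by rw [← map_mul, h1, map_neg]
          linear_combination h1 + h2 - ht
        have h3 := hx (y + a • x) (Submodule.subset_span ⟨Submodule.add_mem _ hy (Submodule.smul_mem _ _ (hUW hxU)), hy'⟩)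
        rw [map_add_left, map_smul_left, hxx, mul_zero, add_zero] at h3
        exact hxy h3
    apply hgs
    apply mem_stab_iff.2
    intro x hx
    obtain ⟨hxU, hx2⟩ := (hrad x).1 hx
    refine (hrad _).2 ⟨hgU' ⟨x, hxU, Matrix.toLin'_apply _ _⟩, fun y hy => ?_⟩
    rw [← hgU2] at hy
    obtain ⟨z, hz, rfl⟩ := hy
    rw [Matrix.toLin'_apply, hgU]
    exact hx2 z hz
  have hTu : TT 1 B M (Matrix.mulVec (g : Matrix ι ι F) u) := TT.conj hE (hA u hu huu) hg hgU
  obtain ⟨v₀, hv₀⟩ : ∃ v, Matrix.mulVec (g : Matrix ι ι F) u = v := ⟨_, rfl⟩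
  have hvv₀ : B v₀ v₀ = 0 := by rw [← hv₀, hgU, huu]
  rw [hv₀] at hTu hgu
  apply le_antisymm hMG
  apply su_le hq h h4
  intro v hvv
  by_cases hv : v ∈ perp B W
  · exact hA v hv hvv
  -- a common non-orthogonal vector
  obtain ⟨w, hw, hw1, hw2⟩ : ∃ w ∈ W, B w v₀ ≠ 0 ∧ B w v ≠ 0 := by
    by_contra hno
    push Not at hno
    obtain ⟨w₁, hw₁, hw₁1⟩ : ∃ w ∈ W, B w v₀ ≠ 0 := by
      by_contra hcon
      push Not at hcon
      exact hgu hcon
    obtain ⟨w₂, hw₂, hw₂1⟩ : ∃ w ∈ W, B w v ≠ 0 := by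
      by_contra hcon
      push Not at hcon
      exact hv hcon
    have e1 := hno w₁ hw₁ hw₁1
    have e2 : B w₂ v₀ = 0 := by
      by_contra hcon
      exact hw₂1 (hno w₂ hw₂ hcon)
    have e3 := hno (w₁ + w₂) (W.add_mem hw₁ hw₂) (by rw [map_add_left, e2, add_zero]; exact hw₁1)
    rw [map_add_left, e1, zero_add] at e3
    exact hw₂1 e3
  -- normalise
  let a := (B w v₀)⁻¹ • v₀
  let b := (B w v)⁻¹ • v
  have ha : B w a = 1 := by
    simp only [a]
    rw [map_smul_right, inv_mul_cancel₀ hw1]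
  have hb : B w b = 1 := by
    simp only [b]
    rw [map_smul_right, inv_mul_cancel₀ hw2]
  have haa : B a a = 0 := by
    simp only [a]
    rw [map_smul_left, map_smul_right, hvv₀, mul_zero, mul_zero]
  have hbb : B b b = 0 := by
    simp only [b]
    rw [map_smul_left, map_smul_right, hvv, mul_zero, mul_zero]
  have hba : B b a = B b a := rfl
  obtain ⟨k, hk, hkx⟩ := exists_siegel hq h (u := w) (y := b - a) (c := B (b - a) a) (hW w hw w hw) (by rw [map_sub, ha, hb, sub_self]) (by
    rw [h.symm]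
    simp only [map_sub, LinearMap.sub_apply, haa, hbb]
    ring)
  have hkW : k ∈ subspaceStabilizer W := by
    apply mem_stab_iff.2
    intro x hx
    rw [hkx, hW w hw x hx, zero_smul, add_zero, mul_zero]
    exact W.add_mem hx (W.smul_mem _ hw)
  have hka : Matrix.mulVec (k : Matrix ι ι F) a = b := by
    rw [hkx, ha, one_smul, mul_one, sub_self, zero_smul, add_zero]
    abel
  have h1 : TT 1 B M b := by
    rw [← hka]
    exact TT.conj hE (TT.smul hE hTu _) (hHM ⟨hkW, hk⟩) hk.1
  have h2 : v = B w v • b := by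
    simp only [b]
    rw [smul_smul, mul_inv_cancel₀ hw2, one_smul]
  rw [h2]
  exact TT.smul hE h1 _

end CfsgLib.Cuw1
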