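import Cfsg.Agent.Lib.Cuw2

set_option autoImplicit false
set_option maxHeartbeats 400000
set_option linter.unusedSectionVars false

/-! Stabilisers of non-degenerate subspaces in special unitary groups: maximality. -/
namespace CfsgLib.Cuw3

open Cfsg Cfsg.Geo Module CfsgLib.GeoBase CfsgLib.Asch1 CfsgLib.Herm CfsgLib.Asu1 CfsgLib.Cts1 CfsgLib.Cts2 CfsgLib.Cts3 CfsgLib.Cuw2

universe u

variable {ι : Type} [Fintype ι] [DecidableEq ι] {F : Type u} [Field F] {σ : F →+* F} {q : ℕ} {B : (ι → F) →ₛₗ[σ] (ι → F) →ₗ[F] F} (hq : QConj σ q) (h : HForm B)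

include hq h

/-- an isotropic vector of the complement moved to a mixed vector -/
theorem exists_mixed {W : Submodule F (ι → F)} (hWf : HForm (resB B W)) (h2 : 2 ≤ finrank F (perp B W)) (hdim : finrank F W < finrank F (perp B W))
    {g : Matrix.GeneralLinearGroup ι F} (hgU : g ∈ UB B) (hgs : g ∉ subspaceStabilizer W) :
    ∃ u ∈ perp B W, B u u = 0 ∧ Matrix.mulVec (g : Matrix ι ι F) u ∉ W ∧ Matrix.mulVec (g : Matrix ι ι F) u ∉ perp B W := by
  haveI := hq.finite
  by_contra hcon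
  push Not at hcon
  have hW'f : HForm (resB B (perp B W)) := perp_hform hq h hWf
  have hdisj : ∀ x, x ∈ W → x ∈ perp B W → x = 0 := fun x hx hx' => (Submodule.disjoint_def.1 (isCompl_perp hq h hWf).disjoint) x hx hx'
  have hinj : Function.Injective (Matrix.toLin' (g : Matrix ι ι F)) := fun y z hyz => mulVec_injective g (by
    rw [Matrix.toLin'_apply, Matrix.toLin'_apply] at hyz
    exact hyz)
  have hall : (∀ u ∈ perp B W, B u u = 0 → Matrix.mulVec (g : Matrix ι ι F) u ∈ perp B W) ∨ (∀ u ∈ perp B W, B u u = 0 → Matrix.mulVec (g : Matrix ι ι F) u ∈ W) := by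
    by_contra hno
    push Not at hno
    obtain ⟨⟨u₁, hu₁, hu₁0, hg₁⟩, ⟨u₂, hu₂, hu₂0, hg₂⟩⟩ := hno
    have e1 : Matrix.mulVec (g : Matrix ι ι F) u₁ ∈ W := by
      by_contra hc
      exact hg₁ (hcon u₁ hu₁ hu₁0 hc)
    have e2 : Matrix.mulVec (g : Matrix ι ι F) u₂ ∈ perp B W := hcon u₂ hu₂ hu₂0 hg₂
    have e3 : B u₁ u₂ = 0 := by
      rw [← hgU]
      exact e2 _ e1
    have e4 : B u₂ u₁ = 0 := h.eq_zero_comm e3
    have e5 : B (u₁ + u₂) (u₁ + u₂) = 0 := by
      rw [map_add_left, map_add_right, map_add_right, hu₁0, hu₂0, e3, e4]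
      ring
    by_cases hc : Matrix.mulVec (g : Matrix ι ι F) (u₁ + u₂) ∈ W
    · rw [mulVec_add'] at hc
      exact hg₂ ((Submodule.add_mem_iff_right W e1).1 hc)
    · have := hcon _ (Submodule.add_mem _ hu₁ hu₂) e5 hc
      rw [mulVec_add'] at this
      exact hg₁ ((Submodule.add_mem_iff_left _ e2).1 this)
  rcases hall with hall | hall
  · have hg' : g ∈ subspaceStabilizer (perp B W) := by
      apply mem_stab_iff.2
      intro x hx
      exact isotropic_induction hq hW'f h2 (P := fun v : perp B W => Matrix.mulVec (g : Matrix ι ι F) (v : ι → F) ∈ perp B W)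
        (fun v hv => hall v.1 v.2 hv) (fun v w hv hw => by
          change Matrix.mulVec (g : Matrix ι ι F) ((v : ι → F) + (w : ι → F)) ∈ perp B W
          rw [mulVec_add']
          exact Submodule.add_mem _ hv hw) ⟨x, hx⟩
    apply hgs
    apply mem_stab_iff.2
    intro x hx
    rw [← perp_perp h W]
    intro y hy
    have h1 := mem_stab_iff.1 (Subgroup.inv_mem _ hg') y hy
    have h2 := hgU (Matrix.mulVec ((g⁻¹ : Matrix.GeneralLinearGroup ι F) : Matrix ι ι F) y) x
    rw [mulVec_inv] at h2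
    rw [h2]
    exact h.eq_zero_comm (h1 x hx)
  · have hle : (perp B W).map (Matrix.toLin' (g : Matrix ι ι F)) ≤ W := by
      rintro _ ⟨x, hx, rfl⟩
      rw [Matrix.toLin'_apply]
      exact isotropic_induction hq hW'f h2 (P := fun v : perp B W => Matrix.mulVec (g : Matrix ι ι F) (v : ι → F) ∈ W)
        (fun v hv => hall v.1 v.2 hv) (fun v w hv hw => by
          change Matrix.mulVec (g : Matrix ι ι F) ((v : ι → F) + (w : ι → F)) ∈ W
          rw [mulVec_add']
          exact Submodule.add_mem _ hv hw) ⟨x, hx⟩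
    have h3 := Submodule.finrank_mono hle
    rw [← (Submodule.equivMapOfInjective _ hinj (perp B W)).finrank_eq] at h3
    omega

theorem nondeg_maximal (h4 : 4 ≤ Fintype.card ι) {W : Submodule F (ι → F)} (hW0 : W ≠ ⊥) (hWf : HForm (resB B W)) (h4' : 4 ≤ finrank F (perp B W)) (hdim : finrank F W < finrank F (perp B W)) :
    IsMaximalIn (GB B) (subspaceStabilizer W ⊓ GB B) := by
  haveI := hq.finite
  have hE := su_eform hq h
  have hW'f : HForm (resB B (perp B W)) := perp_hform hq h hWf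
  have hcompl := isCompl_perp hq h hWf
  have hdisj : ∀ x, x ∈ W → x ∈ perp B W → x = 0 := fun x hx hx' => (Submodule.disjoint_def.1 hcompl.disjoint) x hx hx'
  have ho : ∀ a ∈ W, ∀ b ∈ perp B W, B a b = 0 := fun a ha b hb => hb a ha
  have ho' : ∀ a ∈ W, ∀ b ∈ perp B W, B b a = 0 := fun a ha b hb => h.eq_zero_comm (hb a ha)
  have hnorm : ∀ a ∈ W, ∀ b ∈ perp B W, B (a + b) (a + b) = B a a + B b b := fun a ha b hb => by
    rw [map_add_left, map_add_right, map_add_right, ho a ha b hb, ho' a ha b hb]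
    ring
  obtain ⟨ζ, hζ0, hζ⟩ := hq.exists_trace_ne_zero (map_zero σ)
  have hselfn : ∀ a : ι → F, σ (-(B a a)) = -(B a a) := fun a => by rw [map_neg, h.self_fixed]
  -- norms in the complement
  have hnv : ∀ c, σ c = c → ∃ b ∈ perp B W, b ≠ 0 ∧ B b b = c := by
    intro c hc
    obtain ⟨⟨t, htm⟩, ht0, ht⟩ := exists_norm_vec hq hW'f (by omega) hc
    exact ⟨t, htm, fun h0 => ht0 (Subtype.ext h0), ht⟩
  have hcv : ∀ b ∈ perp B W, b ≠ 0 → ∀ (s c : F), σ c = c → ∃ b' ∈ perp B W, B b b' = s ∧ B b' b' = c ∧ b' ≠ 0 ∧ b' + b ≠ 0 := by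
    intro b hb hb0 s c hc
    obtain ⟨⟨b', hb'm⟩, e1, e2, e3, e4⟩ := exists_companion hq hW'f h4' (b := ⟨b, hb⟩) (fun h0 => hb0 (congrArg Subtype.val h0)) s hc
    exact ⟨b', hb'm, e1, e2, fun h0 => e3 (Subtype.ext h0), fun h0 => e4 (Subtype.ext h0)⟩
  -- properness
  have hne : ¬ GB B ≤ subspaceStabilizer W := by
    intro hle
    haveI : Nontrivial W := (Submodule.nontrivial_iff_ne_bot).2 hW0
    obtain ⟨⟨a, ha⟩, ha1⟩ := hWf.exists_norm_eq hq (map_one σ) one_ne_zero
    have ha1' : B a a = 1 := ha1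
    obtain ⟨b, hb, hb0, hbb⟩ := hnv (-1) (by rw [map_neg, map_one])
    obtain ⟨g, hg, hgx⟩ := exists_tt hE (v := a + b) (b := ζ) (by
      rw [map_add_left, map_add_right, map_add_right, ho a ha b hb, ho' a ha b hb, ha1', hbb]
      ring) (by rw [one_mul]; exact hζ)
    have h1 := mem_stab_iff.1 (hle hg) a ha
    have h2 : B (a + b) a = 1 := by rw [map_add_left, ho' a ha b hb, ha1', add_zero]
    rw [hgx, h2, mul_one] at h1
    have h3 : ζ • (a + b) ∈ W := (Submodule.add_mem_iff_right W ha).1 h1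
    have h4 : a + b ∈ W := (Submodule.smul_mem_iff W hζ0).1 h3
    exact hb0 (hdisj b ((Submodule.add_mem_iff_right W ha).1 h4) hb)
  refine ⟨lt_of_le_of_ne inf_le_right fun heq => hne (by rw [← heq]; exact inf_le_left), fun M hHM hMG => ?_⟩
  by_cases hMH : M ≤ subspaceStabilizer W
  · exact Or.inl (le_antisymm (le_inf hMH hMG) hHM)
  right
  obtain ⟨g, hg, hgs⟩ := Set.not_subset.1 hMH
  have hgU : g ∈ UB B := (hMG hg).1
  have hMU : ∀ k ∈ M, k ∈ UB B := fun k hk => (hMG hk).1
  -- transvections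
  have hTW : ∀ u ∈ W, B u u = 0 → TT 1 B M u := by
    intro u hu huu b hb
    obtain ⟨k, hk, hkx⟩ := exists_tt hE huu hb
    refine ⟨k, hHM ⟨mem_stab_iff.2 fun x hx => ?_, hk⟩, hkx⟩
    rw [hkx]
    exact W.add_mem hx (W.smul_mem _ hu)
  have hTW' : ∀ u ∈ perp B W, B u u = 0 → TT 1 B M u := by
    intro u hu huu b hb
    obtain ⟨k, hk, hkx⟩ := exists_tt hE huu hb
    refine ⟨k, hHM ⟨mem_stab_iff.2 fun x hx => ?_, hk⟩, hkx⟩
    rw [hkx, ho' x hx u hu, mul_zero, zero_smul, add_zero]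
    exact hx
  -- spreading
  have hspread : ∀ a ∈ W, ∀ b₀ ∈ perp B W, b₀ ≠ 0 → TT 1 B M (a + b₀) → ∀ b ∈ perp B W, b ≠ 0 → B b b = B b₀ b₀ → TT 1 B M (a + b) := by
    intro a ha b₀ hb₀ hb₀0 hT b hb hb0 hbb
    obtain ⟨s, hs, hsb⟩ := exists_SUL_eq hq hW'f (by omega) (x := ⟨b₀, hb₀⟩) (y := ⟨b, hb⟩) (fun h0 => hb₀0 (congrArg Subtype.val h0)) (fun h0 => hb0 (congrArg Subtype.val h0)) hbb.symm
    obtain ⟨k, hk, hk1, hk2⟩ := emb hq hW'f h4' hTW' hs
    have h1 : Matrix.mulVec (k : Matrix ι ι F) (a + b₀) = a + b := by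
      rw [mulVec_add', hk1 a (fun y hy => ho' a ha y hy), hk2 ⟨b₀, hb₀⟩, hsb]
    rw [← h1]
    exact TT.conj hE hT hk (hMU k hk)
  -- the good subspace
  let A : Submodule F (ι → F) :=
    { carrier := {a | a ∈ W ∧ ∀ b ∈ perp B W, b ≠ 0 → B b b = -(B a a) → TT 1 B M (a + b)}
      zero_mem' := ⟨W.zero_mem, fun b hb _ hbb => by
        rw [zero_add]
        exact hTW' b hb (by rw [hbb, map_zero_left, neg_zero])⟩
      add_mem' := by
        rintro a a' ⟨ha, haT⟩ ⟨ha', haT'⟩
        refine ⟨W.add_mem ha ha', ?_⟩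
        obtain ⟨b, hb, hb0, hbb⟩ := hnv _ (hselfn a)
        obtain ⟨b', hb', hbb', hbb2, hb'0, hb3⟩ := hcv b hb hb0 (ζ⁻¹ - B a a') _ (hselfn a')
        have hTv := haT b hb hb0 hbb
        have hTv' := haT' b' hb' hb'0 hbb2
        obtain ⟨k, hk, hkx⟩ := hTv ζ (by rw [one_mul]; exact hζ)
        have e1 : B (a + b) (a' + b') = ζ⁻¹ := by
          rw [map_add_left, map_add_right, map_add_right, ho a ha b' hb', ho' a' ha' b hb, hbb']
          ring
        have e2 : Matrix.mulVec (k : Matrix ι ι F) (a' + b') = (a + a') + (b' + b) := by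
          rw [hkx, e1, mul_inv_cancel₀ hζ0, one_smul]
          abel
        have hT2 := TT.conj hE hTv' hk (hMU k hk)
        have e3 : B (b' + b) (b' + b) = -(B (a + a') (a + a')) := by
          have e4 := hMU k hk (a' + b') (a' + b')
          rw [e2, hnorm _ (W.add_mem ha ha') _ (Submodule.add_mem _ hb' hb), hnorm a' ha' b' hb', hbb2] at e4
          linear_combination e4
        rw [e2] at hT2
        intro b₁ hb₁ hb₁0 hbb₁
        exact hspread _ (W.add_mem ha ha') _ (Submodule.add_mem _ hb' hb) hb3 hT2 b₁ hb₁ hb₁0 (by rw [hbb₁, e3])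
      smul_mem' := by
        rintro c a ⟨ha, haT⟩
        refine ⟨W.smul_mem c ha, fun b hb hb0 hbb => ?_⟩
        by_cases hc : c = 0
        · subst hc
          rw [zero_smul, zero_add]
          refine hTW' b hb ?_
          rw [hbb, zero_smul, map_zero_left, neg_zero]
        · have hσc : σ c ≠ 0 := by rw [Ne, map_eq_zero]; exact hc
          have e1 : c • a + b = c • (a + c⁻¹ • b) := by
            rw [smul_add, smul_smul, mul_inv_cancel₀ hc, one_smul]
          rw [e1]
          apply TT.smul hE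
          refine haT _ (Submodule.smul_mem _ _ hb) (smul_ne_zero (inv_ne_zero hc) hb0) ?_
          rw [map_smul_left, map_smul_right, hbb, map_smul_left, map_smul_right, map_inv₀]
          field_simp }
  have hmemA : ∀ a ∈ W, ∀ b ∈ perp B W, b ≠ 0 → B b b = -(B a a) → TT 1 B M (a + b) → a ∈ A := by
    intro a ha b hb hb0 hbb hT
    exact ⟨ha, fun b₁ hb₁ hb₁0 hbb₁ => hspread a ha b hb hb0 hT b₁ hb₁ hb₁0 (by rw [hbb₁, hbb])⟩
  -- a non-zero element
  obtain ⟨a₀, ha₀A, ha₀0⟩ : ∃ a ∈ A, a ≠ 0 := by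
    obtain ⟨u, hu, huu, hgu, hgu'⟩ := exists_mixed hq h hWf (by omega) hdim hgU hgs
    have hT := TT.conj hE (hTW' u hu huu) hg hgU
    obtain ⟨a, ha, b, hb, hab⟩ := Submodule.mem_sup.1 (show Matrix.mulVec (g : Matrix ι ι F) u ∈ W ⊔ perp B W by
      rw [hcompl.sup_eq_top]; exact Submodule.mem_top)
    have ha0 : a ≠ 0 := by
      rintro rfl
      rw [zero_add] at hab
      exact hgu' (hab ▸ hb)
    have hb0 : b ≠ 0 := by
      rintro rfl
      rw [add_zero] at hab
      exact hgu (hab ▸ ha)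
    have hvv : B (a + b) (a + b) = 0 := by rw [hab, hgU, huu]
    rw [map_add_left, map_add_right, map_add_right, ho a ha b hb, ho' a ha b hb] at hvv
    refine ⟨a, hmemA a ha b hb hb0 (by linear_combination hvv) ?_, ha0⟩
    rw [hab]
    exact hT
  -- dichotomy
  have hdich : ∀ x ∈ W, ∀ a ∈ A, B x a ≠ 0 → x ∈ A := by
    intro x hx a haA hxa
    have ha : a ∈ W := haA.1
    obtain ⟨b, hb, hb0, hbb⟩ := hnv _ (hselfn a)
    have hT := haA.2 b hb hb0 hbb
    by_cases hxx : B x x = 0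
    · obtain ⟨k, hk, hkx⟩ := hTW x hx hxx ζ (by rw [one_mul]; exact hζ)
      have e1 : Matrix.mulVec (k : Matrix ι ι F) (a + b) = (a + (ζ * B x a) • x) + b := by
        rw [hkx, map_add_right, ho x hx b hb, add_zero]
        abel
      have hT2 := TT.conj hE hT hk (hMU k hk)
      rw [e1] at hT2
      have h1 : a + (ζ * B x a) • x ∈ A := by
        refine hmemA _ (W.add_mem ha (W.smul_mem _ hx)) b hb hb0 ?_ hT2
        rw [hbb, map_add_left, map_add_right, map_add_right, map_smul_left, map_smul_left, map_smul_right, map_smul_right, hxx, map_mul, ← h.symm x a]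
        have h2 := h.symm x a
        linear_combination (B x a * σ (B x a)) * hζ
      have h2 := (Submodule.add_mem_iff_right A haA).1 h1
      exact (Submodule.smul_mem_iff A (mul_ne_zero hζ0 hxa)).1 h2
    · obtain ⟨μ, hμ0, hμ⟩ := exists_smul_one hq h hxx (map_one σ) one_ne_zero
      obtain ⟨z', hz', hbz', hzz', -, -⟩ := hcv b hb hb0 0 1 (map_one σ)
      obtain ⟨d, hd, hd1⟩ := exists_normone_ne hq h
      have hzW : μ • x ∈ W := W.smul_mem _ hx
      obtain ⟨k, hk, hkx⟩ := exists_birefl hq h hμ hzz' (ho _ hzW _ hz') hd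
      have hkM : k ∈ M := by
        refine hHM ⟨mem_stab_iff.2 fun y hy => ?_, hk⟩
        rw [hkx, ho' y hy z' hz', mul_zero, zero_smul, add_zero]
        exact W.add_mem hy (W.smul_mem _ hzW)
      have hz'b : B z' b = 0 := h.eq_zero_comm hbz'
      have e1 : Matrix.mulVec (k : Matrix ι ι F) (a + b) = (a + ((d - 1) * B (μ • x) a) • (μ • x)) + b := by
        rw [hkx, map_add_right, map_add_right, ho _ hzW b hb, ho' a ha z' hz', hz'b, add_zero, add_zero, mul_zero, zero_smul, add_zero]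
        abel
      have hT2 := TT.conj hE hT hkM hk.1
      have e2 := hk.1 (a + b) (a + b)
      rw [e1] at hT2 e2
      have hW2 : a + ((d - 1) * B (μ • x) a) • (μ • x) ∈ W := W.add_mem ha (W.smul_mem _ hzW)
      have h1 : a + ((d - 1) * B (μ • x) a) • (μ • x) ∈ A := by
        refine hmemA _ hW2 b hb hb0 ?_ hT2
        generalize a + ((d - 1) * B (μ • x) a) • (μ • x) = y at e2 hW2
        rw [hnorm y hW2 b hb, hnorm a ha b hb, hbb] at e2
        rw [hbb]
        linear_combination e2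
      have h2 := (Submodule.add_mem_iff_right A haA).1 h1
      have h3 : B (μ • x) a ≠ 0 := by
        rw [map_smul_left]
        exact mul_ne_zero (by rw [Ne, map_eq_zero]; exact hμ0) hxa
      have h4 := (Submodule.smul_mem_iff A (mul_ne_zero (sub_ne_zero.2 hd1) h3)).1 h2
      exact (Submodule.smul_mem_iff A hμ0).1 h4
  have hWA : ∀ x ∈ W, x ∈ A := by
    intro x hx
    by_contra hxA
    have h1 : B x a₀ = 0 := by
      by_contra hc
      exact hxA (hdich x hx a₀ ha₀A hc)
    obtain ⟨w, hw, hwa⟩ : ∃ w ∈ W, B w a₀ ≠ 0 := by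
      by_contra hno
      push Not at hno
      apply ha₀0
      have h2 : (⟨a₀, ha₀A.1⟩ : W) = 0 := hWf.nd _ fun y => by
        rw [resB_apply]
        exact h.eq_zero_comm (hno y.1 y.2)
      exact congrArg Subtype.val h2
    have h2 := hdich w hw a₀ ha₀A hwa
    have h3 := hdich (w + x) (W.add_mem hw hx) a₀ ha₀A (by rw [map_add_left, h1, add_zero]; exact hwa)
    exact hxA ((Submodule.add_mem_iff_right A h2).1 h3)
  apply le_antisymm hMG
  apply su_le hq h h4
  intro v hvv
  obtain ⟨a, ha, b, hb, rfl⟩ := Submodule.mem_sup.1 (show v ∈ W ⊔ perp B W by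
    rw [hcompl.sup_eq_top]; exact Submodule.mem_top)
  rw [map_add_left, map_add_right, map_add_right, ho a ha b hb, ho' a ha b hb] at hvv
  by_cases hb0 : b = 0
  · subst hb0
    rw [add_zero]
    refine hTW a ha ?_
    simpa using hvv
  · exact (hWA a ha).2 b hb hb0 (by linear_combination hvv)

end CfsgLib.Cuw3
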