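import Mathlib
import Cfsg.Prelude.Def_Characters
import Cfsg.Prelude.Def_OddOrderChar
import Cfsg.Agent.Lib.CharBasic
import Cfsg.Agent.Lib.CharBasic2
import Cfsg.Agent.Lib.CharInd
import Cfsg.Agent.Lib.CopElt

/-!
# The Dade hypothesis and the Dade isometry
-/

set_option autoImplicit false
set_option linter.style.haveILetI false

open scoped ComplexConjugate Pointwise

namespace CfsgLib.Dade

open Cfsg CfsgLib.CharBasic CfsgLib.CharInd CfsgLib.CopElt

universe u v

variable {G : Type u} [Group G]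

section basic

variable {A : Set G} {L : Subgroup G} {H : G → Subgroup G}

theorem mem_centralizer_iff' {a x : G} : x ∈ Subgroup.centralizer ({a} : Set G) ↔ x * a = a * x :=
  Subgroup.mem_centralizer_singleton_iff

theorem conj_mem_iff (hD : DadeHypothesis A L H) {x : G} (hx : x ∈ L) {a : G} : x * a * x⁻¹ ∈ A ↔ a ∈ A := by
  constructor
  · intro h
    have := hD.conj_mem x⁻¹ (L.inv_mem hx) _ h
    have e : x⁻¹ * (x * a * x⁻¹) * x⁻¹⁻¹ = a := by group
    rwa [e] at this
  · exact hD.conj_mem x hx a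

theorem commute_of_mem (hD : DadeHypothesis A L H) {a : G} (ha : a ∈ A) {u : G} (hu : u ∈ H a) : Commute a u := by
  have := mem_centralizer_iff'.mp (hD.le_centralizer a ha hu)
  exact this.symm

theorem mem_LC (hD : DadeHypothesis A L H) {a : G} (ha : a ∈ A) : a ∈ L ⊓ Subgroup.centralizer ({a} : Set G) :=
  Subgroup.mem_inf.mpr ⟨hD.subset ha, mem_centralizer_iff'.mpr rfl⟩

theorem orderOf_dvd_LC [Finite G] (hD : DadeHypothesis A L H) {a : G} (ha : a ∈ A) :
    orderOf a ∣ Nat.card ↥(L ⊓ Subgroup.centralizer ({a} : Set G)) := by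
  have := orderOf_dvd_natCard (⟨a, mem_LC hD ha⟩ : ↥(L ⊓ Subgroup.centralizer ({a} : Set G)))
  rwa [← Subgroup.orderOf_coe] at this

theorem orderOf_dvd_H [Finite G] {a u : G} (hu : u ∈ H a) : orderOf u ∣ Nat.card (H a) := by
  have := orderOf_dvd_natCard (⟨u, hu⟩ : H a)
  rwa [← Subgroup.orderOf_coe] at this

/-- the order of `a ∈ A` is coprime to `|H b|` -/
theorem coprime_orderOf [Finite G] (hD : DadeHypothesis A L H) {a b : G} (ha : a ∈ A) (hb : b ∈ A) :
    Nat.Coprime (orderOf a) (Nat.card (H b)) :=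
  Nat.Coprime.coprime_dvd_left (orderOf_dvd_LC hD ha) (hD.coprime b hb a ha).symm

/-- decomposition of the centralizer -/
theorem exists_mul_of_mem_centralizer (hD : DadeHypothesis A L H) {a : G} (ha : a ∈ A) {c : G}
    (hc : c ∈ Subgroup.centralizer ({a} : Set G)) :
    ∃ u ∈ H a, ∃ l ∈ L ⊓ Subgroup.centralizer ({a} : Set G), c = u * l := by
  rw [← hD.sup_eq a ha] at hc
  have hn : L ⊓ Subgroup.centralizer ({a} : Set G) ≤ Subgroup.normalizer (H a : Set G) := by
    intro x hx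
    rw [Subgroup.mem_normalizer_iff]
    intro h
    constructor
    · intro hh
      exact hD.conj_mem_H a ha x (Subgroup.mem_inf.mp hx).2 h hh
    · intro hh
      have := hD.conj_mem_H a ha x⁻¹ (Subgroup.inv_mem _ (Subgroup.mem_inf.mp hx).2) _ hh
      have e : x⁻¹ * (x * h * x⁻¹) * x⁻¹⁻¹ = h := by group
      rwa [e] at this
  rw [← SetLike.mem_coe, Subgroup.coe_mul_of_right_le_normalizer_left _ _ hn, Set.mem_mul] at hc
  obtain ⟨u, hu, l, hl, rfl⟩ := hc
  exact ⟨u, hu, l, hl, rfl⟩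

/-- elements of `H a`: the elements of the centralizer of `a` of order coprime to `|C_L(a)|` -/
theorem mem_H_of_coprime [Finite G] (hD : DadeHypothesis A L H) {a : G} (ha : a ∈ A) {c : G}
    (hc : c ∈ Subgroup.centralizer ({a} : Set G))
    (hcop : Nat.Coprime (orderOf c) (Nat.card ↥(L ⊓ Subgroup.centralizer ({a} : Set G)))) : c ∈ H a := by
  obtain ⟨u, hu, l, hl, rfl⟩ := exists_mul_of_mem_centralizer hD ha hc
  -- l normalizes H a; (u l)^k ∈ H a * l^k
  have hln : l ∈ Subgroup.normalizer (H a : Set G) := by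
    rw [Subgroup.mem_normalizer_iff]
    intro h
    constructor
    · intro hh
      exact hD.conj_mem_H a ha l (Subgroup.mem_inf.mp hl).2 h hh
    · intro hh
      have := hD.conj_mem_H a ha l⁻¹ (Subgroup.inv_mem _ (Subgroup.mem_inf.mp hl).2) _ hh
      have e : l⁻¹ * (l * h * l⁻¹) * l⁻¹⁻¹ = h := by group
      rwa [e] at this
  have h1 := mul_pow_mem hln (y := u * l) (by simpa using hu) (orderOf (u * l))
  rw [pow_orderOf_eq_one, one_mul] at h1
  have h2 : l ^ orderOf (u * l) = 1 := by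
    have h3 : (l ^ orderOf (u * l))⁻¹ ∈ H a ⊓ (L ⊓ Subgroup.centralizer ({a} : Set G)) :=
      Subgroup.mem_inf.mpr ⟨h1, Subgroup.inv_mem _ (Subgroup.pow_mem _ hl _)⟩
    rw [hD.inf_eq_bot a ha, Subgroup.mem_bot, inv_eq_one] at h3
    exact h3
  have h3 : l ^ Nat.card ↥(L ⊓ Subgroup.centralizer ({a} : Set G)) = 1 := by
    have := pow_card_eq_one' (x := (⟨l, hl⟩ : ↥(L ⊓ Subgroup.centralizer ({a} : Set G))))
    exact congrArg Subtype.val this
  have h4 : l = 1 := by
    rw [← orderOf_eq_one_iff, ← Nat.dvd_one, ← hcop]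
    exact Nat.dvd_gcd (orderOf_dvd_of_pow_eq_one h2) (orderOf_dvd_of_pow_eq_one h3)
  rw [h4, mul_one]
  exact hu

theorem mem_H_iff [Finite G] (hD : DadeHypothesis A L H) {a : G} (ha : a ∈ A) {c : G} :
    c ∈ H a ↔ c ∈ Subgroup.centralizer ({a} : Set G) ∧
      Nat.Coprime (orderOf c) (Nat.card ↥(L ⊓ Subgroup.centralizer ({a} : Set G))) := by
  constructor
  · intro h
    exact ⟨hD.le_centralizer a ha h, Nat.Coprime.coprime_dvd_left (orderOf_dvd_H h) (hD.coprime a ha a ha)⟩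
  · rintro ⟨h1, h2⟩
    exact mem_H_of_coprime hD ha h1 h2

/-- elements of order coprime to `|C_L(b)|` for one... : it is enough that the order divides `|H b|` -/
theorem mem_H_of_dvd [Finite G] (hD : DadeHypothesis A L H) {a b : G} (ha : a ∈ A) (hb : b ∈ A) {c : G}
    (hc : c ∈ Subgroup.centralizer ({a} : Set G)) (hcop : orderOf c ∣ Nat.card (H b)) : c ∈ H a :=
  mem_H_of_coprime hD ha hc (Nat.Coprime.coprime_dvd_left hcop (hD.coprime b hb a ha))

theorem card_LC_conj (x : G) (hx : x ∈ L) (a : G) :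
    Nat.card ↥(L ⊓ Subgroup.centralizer ({x * a * x⁻¹} : Set G)) = Nat.card ↥(L ⊓ Subgroup.centralizer ({a} : Set G)) := by
  apply Nat.card_congr
  refine ⟨fun y => ⟨x⁻¹ * y.1 * x, ?_⟩, fun y => ⟨x * y.1 * x⁻¹, ?_⟩, ?_, ?_⟩
  · have h1 := (Subgroup.mem_inf.mp y.2).1
    have h2 := mem_centralizer_iff'.mp (Subgroup.mem_inf.mp y.2).2
    refine Subgroup.mem_inf.mpr ⟨L.mul_mem (L.mul_mem (L.inv_mem hx) h1) hx, mem_centralizer_iff'.mpr ?_⟩
    calc x⁻¹ * y.1 * x * a = x⁻¹ * (y.1 * (x * a * x⁻¹)) * x := by group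
      _ = x⁻¹ * ((x * a * x⁻¹) * y.1) * x := by rw [h2]
      _ = _ := by group
  · have h1 := (Subgroup.mem_inf.mp y.2).1
    have h2 := mem_centralizer_iff'.mp (Subgroup.mem_inf.mp y.2).2
    refine Subgroup.mem_inf.mpr ⟨L.mul_mem (L.mul_mem hx h1) (L.inv_mem hx), mem_centralizer_iff'.mpr ?_⟩
    calc x * y.1 * x⁻¹ * (x * a * x⁻¹) = x * (y.1 * a) * x⁻¹ := by group
      _ = x * (a * y.1) * x⁻¹ := by rw [h2]
      _ = _ := by group
  · intro y; ext; simp [mul_assoc]
  · intro y; ext; simp [mul_assoc]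

theorem orderOf_conj' (x a : G) : orderOf (x * a * x⁻¹) = orderOf a := by
  have := orderOf_injective (MulAut.conj x).toMonoidHom (MulAut.conj x).injective a
  simpa using this

/-- `H (x a x⁻¹) = x (H a) x⁻¹` for `x ∈ L`, elementwise -/
theorem mem_H_conj [Finite G] (hD : DadeHypothesis A L H) {a : G} (ha : a ∈ A) {x : G} (hx : x ∈ L) {u : G} :
    x * u * x⁻¹ ∈ H (x * a * x⁻¹) ↔ u ∈ H a := by
  rw [mem_H_iff hD ha, mem_H_iff hD (hD.conj_mem x hx a ha), card_LC_conj x hx, orderOf_conj']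
  have : x * u * x⁻¹ ∈ Subgroup.centralizer ({x * a * x⁻¹} : Set G) ↔ u ∈ Subgroup.centralizer ({a} : Set G) := by
    rw [mem_centralizer_iff', mem_centralizer_iff']
    constructor
    · intro h
      calc u * a = x⁻¹ * (x * u * x⁻¹ * (x * a * x⁻¹)) * x := by group
        _ = x⁻¹ * (x * a * x⁻¹ * (x * u * x⁻¹)) * x := by rw [h]
        _ = _ := by group
    · intro h
      calc x * u * x⁻¹ * (x * a * x⁻¹) = x * (u * a) * x⁻¹ := by group
        _ = x * (a * u) * x⁻¹ := by rw [h]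
        _ = _ := by group
  rw [this]

theorem H_conj [Finite G] (hD : DadeHypothesis A L H) {a : G} (ha : a ∈ A) {x : G} (hx : x ∈ L) :
    H (x * a * x⁻¹) = (H a).map (MulAut.conj x).toMonoidHom := by
  ext u
  rw [Subgroup.mem_map]
  constructor
  · intro h
    refine ⟨x⁻¹ * u * x, ?_, by simp [mul_assoc]⟩
    have e : u = x * (x⁻¹ * u * x) * x⁻¹ := by group
    rw [e] at h
    exact (mem_H_conj hD ha hx).mp h
  · rintro ⟨v, hv, rfl⟩
    exact (mem_H_conj hD ha hx).mpr hv

theorem card_H_conj [Finite G] (hD : DadeHypothesis A L H) {a : G} (ha : a ∈ A) {x : G} (hx : x ∈ L) :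
    Nat.card (H (x * a * x⁻¹)) = Nat.card (H a) := by
  rw [H_conj hD ha hx]
  exact Nat.card_congr ((H a).equivMapOfInjective _ (MulAut.conj x).injective).symm.toEquiv

/-- the key uniqueness: if `g (a u) g⁻¹ = b v` then `g a g⁻¹ = b` and `g u g⁻¹ = v` -/
theorem conj_eq [Finite G] (hD : DadeHypothesis A L H) {a b : G} (ha : a ∈ A) (hb : b ∈ A) {u v : G} (hu : u ∈ H a) (hv : v ∈ H b)
    {g : G} (h : g * (a * u) * g⁻¹ = b * v) : g * a * g⁻¹ = b ∧ g * u * g⁻¹ = v := by
  -- exponent e ≡ 1 mod |a||b|, ≡ 0 mod |H a||H b|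
  have hcop : Nat.Coprime (orderOf a * orderOf b) (Nat.card (H a) * Nat.card (H b)) := by
    apply Nat.Coprime.mul_left <;> apply Nat.Coprime.mul_right
    · exact coprime_orderOf hD ha ha
    · exact coprime_orderOf hD ha hb
    · exact coprime_orderOf hD hb ha
    · exact coprime_orderOf hD hb hb
  obtain ⟨e, he1, he2⟩ := Nat.chineseRemainder hcop 1 0
  have h1 : (a * u) ^ e = a := pow_eq_left (commute_of_mem hD ha hu) (he1.of_dvd (dvd_mul_right _ _))
    (he2.of_dvd ((orderOf_dvd_H hu).trans (dvd_mul_right _ _)))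
  have h2 : (b * v) ^ e = b := pow_eq_left (commute_of_mem hD hb hv) (he1.of_dvd (dvd_mul_left _ _))
    (he2.of_dvd ((orderOf_dvd_H hv).trans (dvd_mul_left _ _)))
  have h3 : g * a * g⁻¹ = b := by
    have : (g * (a * u) * g⁻¹) ^ e = g * (a * u) ^ e * g⁻¹ := conj_pow
    rw [h, h1, h2] at this
    exact this.symm
  refine ⟨h3, ?_⟩
  have : g * a * g⁻¹ * (g * u * g⁻¹) = b * v := by rw [← h]; group
  rw [h3] at this
  exact mul_left_cancel this

/-- S1499, first part -/
theorem exists_conj_L [Finite G] (hD : DadeHypothesis A L H) {a b : G} (ha : a ∈ A) (hb : b ∈ A) {u v : G} (hu : u ∈ H a) (hv : v ∈ H b)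
    {g : G} (h : g * (a * u) * g⁻¹ = b * v) : ∃ x ∈ L, x * a * x⁻¹ = b := by
  have h1 := (conj_eq hD ha hb hu hv h).1
  obtain ⟨x, hx, hxa⟩ := hD.fusion a ha g (by rw [h1]; exact hb)
  exact ⟨x, hx, by rw [hxa, h1]⟩

theorem normalizer_coset [Finite G] (hD : DadeHypothesis A L H) {a : G} (ha : a ∈ A) :
    Subgroup.normalizer ((fun u : G => a * u) '' (H a : Set G)) = Subgroup.centralizer ({a} : Set G) := by
  ext g
  rw [Subgroup.mem_set_normalizer_iff, mem_centralizer_iff']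
  constructor
  · intro h
    have h1 := (h (a * 1)).mp ⟨1, (H a).one_mem, rfl⟩
    obtain ⟨v, hv, hv'⟩ := h1
    have h2 := (conj_eq hD ha ha (H a).one_mem hv hv'.symm).1
    calc g * a = g * a * g⁻¹ * g := by group
      _ = a * g := by rw [h2]
  · intro h y
    have hgc : g ∈ Subgroup.centralizer ({a} : Set G) := mem_centralizer_iff'.mpr h
    constructor
    · rintro ⟨u, hu, rfl⟩
      refine ⟨g * u * g⁻¹, hD.conj_mem_H a ha g hgc u hu, ?_⟩
      calc a * (g * u * g⁻¹) = (a * g) * u * g⁻¹ := by group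
        _ = (g * a) * u * g⁻¹ := by rw [h]
        _ = _ := by group
    · rintro ⟨u, hu, hu'⟩
      have h1 := hD.conj_mem_H a ha g⁻¹ (Subgroup.inv_mem _ hgc) u hu
      refine ⟨g⁻¹ * u * g⁻¹⁻¹, h1, ?_⟩
      have h2 : a * u = g * y * g⁻¹ := hu'
      have h3 : y = g⁻¹ * (a * u) * g := by rw [h2]; group
      rw [h3]
      have h4 : g⁻¹ * a = a * g⁻¹ := by
        calc g⁻¹ * a = g⁻¹ * (a * g) * g⁻¹ := by group
          _ = g⁻¹ * (g * a) * g⁻¹ := by rw [h]
          _ = _ := by group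
      calc a * (g⁻¹ * u * g⁻¹⁻¹) = (a * g⁻¹) * u * g := by group
        _ = (g⁻¹ * a) * u * g := by rw [h4]
        _ = _ := by group

/-- the number of `x` conjugating a given element of the support into the set of cosets -/
theorem card_conj_cosets [Finite G] (hD : DadeHypothesis A L H) {a : G} (ha : a ∈ A) :
    Nat.card {x : G // x * a * x⁻¹ ∈ A} = Nat.card L * Nat.card (H a) := by
  classical
  -- the set is L * C(a) = L * H a
  have h1 : ∀ x : G, x * a * x⁻¹ ∈ A → ∃ l ∈ L, ∃ h ∈ H a, x = l * h := by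
    intro x hx
    obtain ⟨l, hl, hla⟩ := hD.fusion a ha x hx
    have h2 : l⁻¹ * x ∈ Subgroup.centralizer ({a} : Set G) := by
      rw [mem_centralizer_iff']
      calc l⁻¹ * x * a = l⁻¹ * (x * a * x⁻¹) * x := by group
        _ = l⁻¹ * (l * a * l⁻¹) * x := by rw [hla]
        _ = _ := by group
    obtain ⟨u, hu, m, hm, hum⟩ := exists_mul_of_mem_centralizer hD ha h2
    have hm' := Subgroup.mem_inf.mp hm
    refine ⟨l * m, L.mul_mem hl hm'.1, m⁻¹ * u * m⁻¹⁻¹, hD.conj_mem_H a ha m⁻¹ (Subgroup.inv_mem _ hm'.2) u hu, ?_⟩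
    calc x = l * (l⁻¹ * x) := by group
      _ = l * (u * m) := by rw [hum]
      _ = _ := by group
  rw [← Nat.card_prod]
  symm
  apply Nat.card_congr
  apply Equiv.ofBijective (fun p : L × H a => (⟨(p.1 : G) * (p.2 : G), ?_⟩ : {x : G // x * a * x⁻¹ ∈ A}))
  · constructor
    · rintro ⟨l, h⟩ ⟨l', h'⟩ heq
      have h2 : (l : G) * h = l' * h' := congrArg Subtype.val heq
      have h3 : (l' : G)⁻¹ * l = h' * (h : G)⁻¹ := by
        calc (l' : G)⁻¹ * l = (l' : G)⁻¹ * (l * h) * (h : G)⁻¹ := by group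
          _ = (l' : G)⁻¹ * (l' * h') * (h : G)⁻¹ := by rw [h2]
          _ = _ := by group
      have h4 : (l' : G)⁻¹ * l ∈ H a ⊓ (L ⊓ Subgroup.centralizer ({a} : Set G)) := by
        have h5 : (l' : G)⁻¹ * l ∈ H a := by rw [h3]; exact (H a).mul_mem h'.2 ((H a).inv_mem h.2)
        exact Subgroup.mem_inf.mpr ⟨h5, Subgroup.mem_inf.mpr ⟨L.mul_mem (L.inv_mem l'.2) l.2, hD.le_centralizer a ha h5⟩⟩
      rw [hD.inf_eq_bot a ha, Subgroup.mem_bot] at h4
      have h5 : (l : G) = l' := by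
        have := inv_mul_eq_one.mp h4
        exact this.symm
      rw [h4] at h3
      have h6 : (h : G) = h' := by
        have := mul_inv_eq_one.mp h3.symm
        exact this.symm
      exact Prod.ext (Subtype.ext h5) (Subtype.ext h6)
    · rintro ⟨x, hx⟩
      obtain ⟨l, hl, h, hh, rfl⟩ := h1 x hx
      exact ⟨(⟨l, hl⟩, ⟨h, hh⟩), rfl⟩
  · have h2 : (p.1 : G) * p.2 * a * ((p.1 : G) * p.2)⁻¹ = p.1 * a * (p.1 : G)⁻¹ := by
      have h3 : (p.2 : G) * a = a * p.2 := (commute_of_mem hD ha p.2.2).symm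
      calc (p.1 : G) * p.2 * a * ((p.1 : G) * p.2)⁻¹ = p.1 * (p.2 * a) * (p.2 : G)⁻¹ * (p.1 : G)⁻¹ := by group
        _ = p.1 * (a * p.2) * (p.2 : G)⁻¹ * (p.1 : G)⁻¹ := by rw [h3]
        _ = _ := by group
    rw [h2]
    exact hD.conj_mem _ p.1.2 a ha

end basic

section isometry

variable {A : Set G} {L : Subgroup G} {H : G → Subgroup G}

/-- the Dade support -/
def supp (A : Set G) (H : G → Subgroup G) : Set G := {g | ∃ a ∈ A, ∃ u ∈ H a, ∃ x : G, x * g * x⁻¹ = a * u}

/-- value of the Dade map on the support -/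
theorem dadeIsometry_apply [Finite G] (hD : DadeHypothesis A L H) {α : L → ℂ} (hα : IsClassFunction L α) {a : L} (ha : (a : G) ∈ A)
    {u : G} (hu : u ∈ H a) {g x : G} (hg : x * g * x⁻¹ = a * u) : dadeIsometry A L H α g = α a := by
  classical
  have hex : ∃ a : ↥L, (a : G) ∈ A ∧ ∃ x : G, ∃ u ∈ H (a : G), x * g * x⁻¹ = (a : G) * u := ⟨a, ha, x, u, hu, hg⟩
  unfold dadeIsometry
  rw [dif_pos hex]
  obtain ⟨hb, y, v, hv, hgy⟩ := Classical.choose_spec hex
  set b := Classical.choose hex with hbdef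
  have h1 : (x * y⁻¹) * ((b : G) * v) * (x * y⁻¹)⁻¹ = a * u := by
    rw [← hg, ← hgy]; group
  obtain ⟨l, hl, hlb⟩ := exists_conj_L hD hb ha hv hu h1
  have h2 : a = ⟨l, hl⟩ * b * ⟨l, hl⟩⁻¹ := by
    ext
    simpa using hlb.symm
  rw [h2]
  exact (hα b ⟨l, hl⟩).symm

theorem dadeIsometry_eq_zero {α : L → ℂ} (hsub : A ⊆ (L : Set G)) {g : G} (hg : g ∉ supp A H) : dadeIsometry A L H α g = 0 := by
  classical
  unfold dadeIsometry
  rw [dif_neg]
  rintro ⟨a, ha, x, u, hu, h⟩
  exact hg ⟨a, ha, u, hu, x, h⟩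

theorem dadeIsometry_apply' [Finite G] (hD : DadeHypothesis A L H) {α : L → ℂ} (hα : IsClassFunction L α) {a : G} (ha : a ∈ A)
    {u : G} (hu : u ∈ H a) : dadeIsometry A L H α (a * u) = α ⟨a, hD.subset ha⟩ :=
  dadeIsometry_apply hD hα (a := ⟨a, hD.subset ha⟩) ha hu (x := 1) (by simp)

theorem mem_supp_conj {g x : G} : x * g * x⁻¹ ∈ supp A H ↔ g ∈ supp A H := by
  constructor
  · rintro ⟨a, ha, u, hu, y, hy⟩
    refine ⟨a, ha, u, hu, y * x, ?_⟩
    rw [← hy]; group
  · rintro ⟨a, ha, u, hu, y, hy⟩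
    refine ⟨a, ha, u, hu, y * x⁻¹, ?_⟩
    rw [← hy]; group

theorem isClassFunction_dade [Finite G] (hD : DadeHypothesis A L H) {α : L → ℂ} (hα : IsClassFunction L α) :
    IsClassFunction G (dadeIsometry A L H α) := by
  intro g y
  by_cases hg : g ∈ supp A H
  · obtain ⟨a, ha, u, hu, x, hx⟩ := hg
    rw [dadeIsometry_apply hD hα (a := ⟨a, hD.subset ha⟩) ha hu hx,
      dadeIsometry_apply hD hα (a := ⟨a, hD.subset ha⟩) ha hu (x := x * y⁻¹) (by rw [← hx]; group)]
  · rw [dadeIsometry_eq_zero hD.subset hg, dadeIsometry_eq_zero hD.subset (fun h => hg (mem_supp_conj.mp h))]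

open scoped Classical in
theorem count_key [Fintype G] (hD : DadeHypothesis A L H) {F : G → ℂ} (hF0 : ∀ g, g ∉ supp A H → F g = 0) (g : G) :
    (∑ a : G, if a ∈ A then (Nat.card (H a) : ℂ)⁻¹ * (∑ u : G, if u ∈ (H a : Set G) then
      (∑ x : G, if x * g * x⁻¹ = a * u then F g else 0) else 0) else 0) = (Nat.card L : ℂ) * F g := by
  classical
  haveI : Fintype L := Fintype.ofFinite L
  by_cases hg : g ∈ supp A H
  · obtain ⟨a₀, ha₀, u₀, hu₀, x₀, hx₀⟩ := hg
    -- reduce to counting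
    have h1 : ∀ a ∈ A, (Nat.card (H a) : ℂ)⁻¹ * (∑ u : G, if u ∈ (H a : Set G) then (∑ x : G, if x * g * x⁻¹ = a * u then F g else 0) else 0) =
        ∑ x : G, if x * g * x⁻¹ ∈ (fun u : G => a * u) '' (H a : Set G) then (Nat.card (H a₀) : ℂ)⁻¹ * F g else 0 := by
      intro a ha
      have h2 : (∑ u : G, if u ∈ (H a : Set G) then (∑ x : G, if x * g * x⁻¹ = a * u then F g else 0) else 0) =
          ∑ x : G, if x * g * x⁻¹ ∈ (fun u : G => a * u) '' (H a : Set G) then F g else 0 := by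
        have h3 : ∀ u : G, (if u ∈ (H a : Set G) then (∑ x : G, if x * g * x⁻¹ = a * u then F g else 0) else 0) =
            ∑ x : G, if u ∈ (H a : Set G) ∧ x * g * x⁻¹ = a * u then F g else 0 := by
          intro u
          by_cases hu : u ∈ (H a : Set G)
          · simp [hu]
          · simp [hu]
        rw [Finset.sum_congr rfl fun u _ => h3 u, Finset.sum_comm]
        apply Finset.sum_congr rfl
        intro x _
        by_cases hx : x * g * x⁻¹ ∈ (fun u : G => a * u) '' (H a : Set G)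
        · rw [if_pos hx]
          obtain ⟨u, hu, hux⟩ := hx
          rw [Finset.sum_eq_single u]
          · rw [if_pos ⟨hu, hux.symm⟩]
          · intro v _ hv
            rw [if_neg]
            rintro ⟨-, h4⟩
            apply hv
            rw [← hux] at h4
            exact (mul_left_cancel h4).symm
          · simp
        · rw [if_neg hx]
          apply Finset.sum_eq_zero
          intro u _
          rw [if_neg]
          rintro ⟨h4, h5⟩
          exact hx ⟨u, h4, h5.symm⟩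
      rw [h2, Finset.mul_sum]
      apply Finset.sum_congr rfl
      intro x _
      split_ifs with hx
      · congr 2
        obtain ⟨u, hu, hux⟩ := hx
        -- a is L-conjugate to a₀
        have h5 : (x * x₀⁻¹) * (a₀ * u₀) * (x * x₀⁻¹)⁻¹ = a * u := by
          rw [← hx₀]
          have : a * u = x * g * x⁻¹ := hux
          rw [this]; group
        obtain ⟨l, hl, hla⟩ := exists_conj_L hD ha₀ ha hu₀ hu h5
        rw [← hla, card_H_conj hD ha₀ hl]
      · ring
    have h2 : (∑ a : G, if a ∈ A then (Nat.card (H a) : ℂ)⁻¹ * (∑ u : G, if u ∈ (H a : Set G) then (∑ x : G, if x * g * x⁻¹ = a * u then F g else 0) else 0) else 0) =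
        ∑ a : G, ∑ x : G, if a ∈ A ∧ x * g * x⁻¹ ∈ (fun u : G => a * u) '' (H a : Set G) then (Nat.card (H a₀) : ℂ)⁻¹ * F g else 0 := by
      apply Finset.sum_congr rfl
      intro a _
      by_cases ha : a ∈ A
      · rw [if_pos ha, h1 a ha]
        simp [ha]
      · simp [ha]
    rw [h2, Finset.sum_comm]
    -- for each x at most one a
    have h3 : ∀ x : G, (∑ a : G, if a ∈ A ∧ x * g * x⁻¹ ∈ (fun u : G => a * u) '' (H a : Set G) then (Nat.card (H a₀) : ℂ)⁻¹ * F g else 0) =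
        if (x * x₀⁻¹) * a₀ * (x * x₀⁻¹)⁻¹ ∈ A then (Nat.card (H a₀) : ℂ)⁻¹ * F g else 0 := by
      intro x
      split_ifs with hx
      · rw [Finset.sum_eq_single ((x * x₀⁻¹) * a₀ * (x * x₀⁻¹)⁻¹)]
        · rw [if_pos]
          refine ⟨hx, (x * x₀⁻¹) * u₀ * (x * x₀⁻¹)⁻¹, ?_, ?_⟩
          · -- membership
            have hxm : (x * x₀⁻¹) * u₀ * (x * x₀⁻¹)⁻¹ ∈ Subgroup.centralizer ({(x * x₀⁻¹) * a₀ * (x * x₀⁻¹)⁻¹} : Set G) := by
              rw [mem_centralizer_iff']
              have h6 : u₀ * a₀ = a₀ * u₀ := (commute_of_mem hD ha₀ hu₀).symm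
              calc (x * x₀⁻¹) * u₀ * (x * x₀⁻¹)⁻¹ * ((x * x₀⁻¹) * a₀ * (x * x₀⁻¹)⁻¹) = (x * x₀⁻¹) * (u₀ * a₀) * (x * x₀⁻¹)⁻¹ := by group
                _ = (x * x₀⁻¹) * (a₀ * u₀) * (x * x₀⁻¹)⁻¹ := by rw [h6]
                _ = _ := by group
            exact mem_H_of_dvd hD hx ha₀ hxm (by rw [orderOf_conj']; exact orderOf_dvd_H hu₀)
          · show (x * x₀⁻¹) * a₀ * (x * x₀⁻¹)⁻¹ * ((x * x₀⁻¹) * u₀ * (x * x₀⁻¹)⁻¹) = x * g * x⁻¹
            calc (x * x₀⁻¹) * a₀ * (x * x₀⁻¹)⁻¹ * ((x * x₀⁻¹) * u₀ * (x * x₀⁻¹)⁻¹) = (x * x₀⁻¹) * (a₀ * u₀) * (x * x₀⁻¹)⁻¹ := by group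
              _ = (x * x₀⁻¹) * (x₀ * g * x₀⁻¹) * (x * x₀⁻¹)⁻¹ := by rw [hx₀]
              _ = _ := by group
        · intro a _ hane
          rw [if_neg]
          rintro ⟨ha, u, hu, hux⟩
          apply hane
          have h5 : (x * x₀⁻¹) * (a₀ * u₀) * (x * x₀⁻¹)⁻¹ = a * u := by
            rw [← hx₀]
            have : a * u = x * g * x⁻¹ := hux
            rw [this]; group
          exact (conj_eq hD ha₀ ha hu₀ hu h5).1.symm
        · simp
      · apply Finset.sum_eq_zero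
        intro a _
        rw [if_neg]
        rintro ⟨ha, u, hu, hux⟩
        apply hx
        have h5 : (x * x₀⁻¹) * (a₀ * u₀) * (x * x₀⁻¹)⁻¹ = a * u := by
          rw [← hx₀]
          have : a * u = x * g * x⁻¹ := hux
          rw [this]; group
        rw [(conj_eq hD ha₀ ha hu₀ hu h5).1]
        exact ha
    rw [Finset.sum_congr rfl fun x _ => h3 x]
    have h4 : (∑ x : G, if (x * x₀⁻¹) * a₀ * (x * x₀⁻¹)⁻¹ ∈ A then (Nat.card (H a₀) : ℂ)⁻¹ * F g else 0) =
        ∑ y : G, if y * a₀ * y⁻¹ ∈ A then (Nat.card (H a₀) : ℂ)⁻¹ * F g else 0 :=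
      Equiv.sum_comp (Equiv.mulRight x₀⁻¹) (fun y : G => if y * a₀ * y⁻¹ ∈ A then (Nat.card (H a₀) : ℂ)⁻¹ * F g else 0)
    rw [h4, ← Finset.sum_filter, Finset.sum_const, nsmul_eq_mul]
    have h5 : (Finset.univ.filter (fun y : G => y * a₀ * y⁻¹ ∈ A)).card = Nat.card L * Nat.card (H a₀) := by
      rw [← card_conj_cosets hD ha₀, Nat.card_eq_fintype_card, Fintype.card_subtype]
    rw [h5]
    push_cast
    have h6 := card_sub_ne_zero (H a₀)
    field_simp
  · rw [hF0 g hg, mul_zero]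
    apply Finset.sum_eq_zero
    intro a _
    simp

/-- **integration formula** for the Dade support -/
theorem sum_supp [Fintype G] (hD : DadeHypothesis A L H) {F : G → ℂ} (hF : IsClassFunction G F)
    (hF0 : ∀ g, g ∉ supp A H → F g = 0) :
    (Nat.card G : ℂ)⁻¹ * ∑ g : G, F g =
      (Nat.card L : ℂ)⁻¹ * ∑ᶠ a ∈ A, (Nat.card (H a) : ℂ)⁻¹ * ∑ᶠ u ∈ (H a : Set G), F (a * u) := by
  classical
  haveI : Fintype L := Fintype.ofFinite L
  -- finite sums over G with indicator
  have hfin : ∀ (S : Set G) (f : G → ℂ), ∑ᶠ a ∈ S, f a = ∑ a : G, if a ∈ S then f a else 0 := by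
    intro S f
    rw [finsum_mem_eq_finite_toFinset_sum f (Set.toFinite S), ← Finset.sum_filter]
    apply Finset.sum_congr
    · ext; simp
    · intro _ _; rfl
  rw [hfin]
  simp only [hfin]
  have hkey := fun g => count_key hD hF0 g
  -- sum over g
  have hcardL := card_sub_ne_zero L
  have h1 : ∑ g : G, F g = (Nat.card L : ℂ)⁻¹ * ∑ g : G, (Nat.card L : ℂ) * F g := by
    rw [← Finset.mul_sum, ← mul_assoc, inv_mul_cancel₀ hcardL, one_mul]
  rw [h1, ← Finset.sum_congr rfl fun g _ => hkey g, ← mul_assoc, mul_comm (Nat.card G : ℂ)⁻¹, mul_assoc]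
  congr 1
  rw [Finset.sum_comm, Finset.mul_sum]
  apply Finset.sum_congr rfl
  intro a _
  by_cases ha : a ∈ A
  · simp only [ha, if_true]
    rw [← Finset.mul_sum, ← mul_assoc, mul_comm (Nat.card G : ℂ)⁻¹, mul_assoc]
    congr 1
    rw [Finset.sum_comm, Finset.mul_sum]
    apply Finset.sum_congr rfl
    intro u _
    by_cases hu : u ∈ (H a : Set G)
    · simp only [hu, if_true]
      rw [Finset.sum_comm]
      have h2 : ∀ x : G, (∑ g : G, if x * g * x⁻¹ = a * u then F g else 0) = F (a * u) := by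
        intro x
        rw [Finset.sum_eq_single (x⁻¹ * (a * u) * x)]
        · rw [if_pos (by group)]
          have := hF (a * u) x⁻¹
          rwa [inv_inv] at this
        · intro g _ hg
          rw [if_neg]
          intro h
          apply hg
          rw [← h]; group
        · simp
      rw [Finset.sum_congr rfl fun x _ => h2 x, Finset.sum_const, Finset.card_univ, nsmul_eq_mul, Nat.card_eq_fintype_card, ← mul_assoc,
        inv_mul_cancel₀, one_mul]
      exact_mod_cast Fintype.card_ne_zero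
    · simp [hu]
  · simp [ha]

theorem finsum_mem_eq_sum_ite {M X : Type*} [AddCommMonoid M] [Fintype X] (S : Set X) [DecidablePred (· ∈ S)] (f : X → M) :
    ∑ᶠ a ∈ S, f a = ∑ a : X, if a ∈ S then f a else 0 := by
  classical
  rw [finsum_mem_eq_finite_toFinset_sum f (Set.toFinite S), ← Finset.sum_filter]
  apply Finset.sum_congr
  · ext; simp
  · intro _ _; rfl

theorem finsum_A_eq_sum_L [Fintype G] [Fintype L] (hsub : A ⊆ (L : Set G)) (f : G → ℂ) [DecidablePred (· ∈ A)] :
    ∑ᶠ a ∈ A, f a = ∑ a : L, if (a : G) ∈ A then f a else 0 := by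
  classical
  rw [finsum_mem_eq_sum_ite]
  have h1 := sum_ext (H := L) (fun a : L => if (a : G) ∈ A then f a else 0)
  rw [← h1]
  apply Finset.sum_congr rfl
  intro x _
  by_cases hx : x ∈ L
  · rw [ext_of_mem hx]
  · rw [ext_of_not_mem hx, if_neg (fun h => hx (hsub h))]

/-- Dade reciprocity -/
theorem inner_dade [Fintype G] [Fintype L] (hD : DadeHypothesis A L H) {α : L → ℂ} (hα : IsClassFunction L α)
    (hαA : ∀ x : L, (x : G) ∉ A → α x = 0) {χ : G → ℂ} {ψ : L → ℂ} (hχ : IsClassFunction G χ)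
    (hψ : ∀ a : L, (a : G) ∈ A → ψ a = (Nat.card (H a) : ℂ)⁻¹ * ∑ᶠ u ∈ (H a : Set G), χ (a * u)) :
    classInner (dadeIsometry A L H α) χ = classInner α ψ := by
  classical
  have hF : IsClassFunction G (fun g => dadeIsometry A L H α g * conj (χ g)) := by
    intro g x
    simp only
    rw [isClassFunction_dade hD hα g x, hχ g x]
  have h1 := sum_supp hD hF (fun g hg => by rw [dadeIsometry_eq_zero hD.subset hg, zero_mul])
  simp only [classInner]
  rw [h1, finsum_A_eq_sum_L hD.subset]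
  congr 1
  apply Finset.sum_congr rfl
  intro a _
  split_ifs with ha
  · rw [hψ a ha]
    simp only [finsum_mem_eq_sum_ite, map_mul, map_inv₀, map_natCast, map_sum]
    rw [← mul_assoc, mul_comm (α a), mul_assoc]
    congr 1
    rw [Finset.mul_sum]
    apply Finset.sum_congr rfl
    intro u _
    by_cases hu : u ∈ (H a : Set G)
    · simp only [hu, if_true]
      rw [dadeIsometry_apply' hD hα ha hu]
    · simp [hu]
  · rw [hαA a ha, zero_mul]

theorem avg_dade [Fintype G] (hD : DadeHypothesis A L H) {β : L → ℂ} (hβ : IsClassFunction L β) {a : L} (ha : (a : G) ∈ A) :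
    β a = (Nat.card (H a) : ℂ)⁻¹ * ∑ᶠ u ∈ (H a : Set G), dadeIsometry A L H β (a * u) := by
  classical
  have h1 : ∑ᶠ u ∈ (H a : Set G), dadeIsometry A L H β (a * u) = ∑ᶠ u ∈ (H a : Set G), β a := by
    apply finsum_mem_congr rfl
    intro u hu
    exact dadeIsometry_apply' hD hβ ha hu
  rw [h1, finsum_mem_eq_sum_ite, ← Finset.sum_filter, Finset.sum_const, nsmul_eq_mul]
  have h2 : (Finset.univ.filter (fun u : G => u ∈ (H a : Set G))).card = Nat.card (H a) := by
    rw [Nat.card_eq_fintype_card, Fintype.card_subtype]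
    congr 1
  rw [h2, ← mul_assoc, inv_mul_cancel₀ (card_sub_ne_zero (H a)), one_mul]

theorem inner_dade_dade [Fintype G] [Fintype L] (hD : DadeHypothesis A L H) {α β : L → ℂ} (hα : IsClassFunction L α)
    (hαA : ∀ x : L, (x : G) ∉ A → α x = 0) (hβ : IsClassFunction L β) :
    classInner (dadeIsometry A L H α) (dadeIsometry A L H β) = classInner α β :=
  inner_dade hD hα hαA (isClassFunction_dade hD hβ) (fun _ ha => avg_dade hD hβ ha)

theorem dade_add [Finite G] (hD : DadeHypothesis A L H) {α β : L → ℂ} (hα : IsClassFunction L α) (hβ : IsClassFunction L β) :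
    dadeIsometry A L H (α + β) = dadeIsometry A L H α + dadeIsometry A L H β := by
  have hαβ : IsClassFunction L (α + β) := by
    intro g x; simp only [Pi.add_apply]; rw [hα g x, hβ g x]
  funext g
  by_cases hg : g ∈ supp A H
  · obtain ⟨a, ha, u, hu, x, hx⟩ := hg
    rw [dadeIsometry_apply hD hαβ (a := ⟨a, hD.subset ha⟩) ha hu hx, Pi.add_apply, Pi.add_apply,
      dadeIsometry_apply hD hα (a := ⟨a, hD.subset ha⟩) ha hu hx, dadeIsometry_apply hD hβ (a := ⟨a, hD.subset ha⟩) ha hu hx]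
  · rw [Pi.add_apply]
    simp only [dadeIsometry_eq_zero hD.subset hg, add_zero]

theorem dade_smul [Finite G] (hD : DadeHypothesis A L H) (c : ℂ) {α : L → ℂ} (hα : IsClassFunction L α) :
    dadeIsometry A L H (c • α) = c • dadeIsometry A L H α := by
  have hα' : IsClassFunction L (c • α) := by
    intro g x; simp only [Pi.smul_apply]; rw [hα g x]
  funext g
  by_cases hg : g ∈ supp A H
  · obtain ⟨a, ha, u, hu, x, hx⟩ := hg
    rw [dadeIsometry_apply hD hα' (a := ⟨a, hD.subset ha⟩) ha hu hx, Pi.smul_apply, Pi.smul_apply,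
      dadeIsometry_apply hD hα (a := ⟨a, hD.subset ha⟩) ha hu hx]
  · rw [Pi.smul_apply]
    simp only [dadeIsometry_eq_zero hD.subset hg, smul_zero]

theorem dade_conj [Finite G] (hD : DadeHypothesis A L H) {α : L → ℂ} (hα : IsClassFunction L α) :
    dadeIsometry A L H (fun x => conj (α x)) = fun g => conj (dadeIsometry A L H α g) := by
  have hα' : IsClassFunction L (fun x => conj (α x)) := by
    intro g x; simp only; rw [hα g x]
  funext g
  by_cases hg : g ∈ supp A H
  · obtain ⟨a, ha, u, hu, x, hx⟩ := hg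
    rw [dadeIsometry_apply hD hα' (a := ⟨a, hD.subset ha⟩) ha hu hx,
      dadeIsometry_apply hD hα (a := ⟨a, hD.subset ha⟩) ha hu hx]
  · simp only [dadeIsometry_eq_zero hD.subset hg, map_zero]

/-- the identity is not in the support -/
theorem one_not_mem_supp [Finite G] (hD : DadeHypothesis A L H) : (1 : G) ∉ supp A H := by
  rintro ⟨a, ha, u, hu, x, hx⟩
  have h1 : a * u = 1 := by rw [← hx]; group
  have h2 : a ∈ H a := by
    have : a = u⁻¹ := mul_eq_one_iff_eq_inv.mp h1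
    rw [this]
    have h3 : u⁻¹ ∈ H a := (H a).inv_mem hu
    rwa [this] at h3
  have h3 : a ∈ H a ⊓ (L ⊓ Subgroup.centralizer ({a} : Set G)) := Subgroup.mem_inf.mpr ⟨h2, mem_LC hD ha⟩
  rw [hD.inf_eq_bot a ha, Subgroup.mem_bot] at h3
  rw [h3] at ha
  exact hD.one_not_mem ha

theorem dade_one [Finite G] (hD : DadeHypothesis A L H) (α : L → ℂ) : dadeIsometry A L H α 1 = 0 :=
  dadeIsometry_eq_zero hD.subset (one_not_mem_supp hD)

end isometry

end CfsgLib.Dade
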