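import Mathlib
import Cfsg.Prelude.Def_Characters
import Cfsg.Prelude.Def_OddOrderChar
import Cfsg.Agent.Lib.CharBasic
import Cfsg.Agent.Lib.CharBasic2
import Cfsg.Agent.Lib.CharInd
import Cfsg.Agent.Lib.CopElt
import Cfsg.Agent.Lib.Dade

/-!
# The Dade isometry maps generalized characters to generalized characters
-/

set_option autoImplicit false
set_option linter.style.haveILetI false

open scoped ComplexConjugate Pointwise

namespace CfsgLib.Dade

open Cfsg CfsgLib.CharBasic CfsgLib.CharInd CfsgLib.CopElt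

universe u v

variable {G : Type u} [Group G]

/-- inflation from a complement: for `N` normalizing `K` with `K ⊓ N = ⊥` a generalized character of `N` extends to
`K ⊔ N` trivially on `K` -/
theorem exists_inflation [Finite G] {K N : Subgroup G} (hn : N ≤ Subgroup.normalizer (K : Set G)) (hKN : K ⊓ N = ⊥) {β : N → ℂ}
    (hβ : IsGeneralizedCharacter N β) :
    ∃ γ : ↥(K ⊔ N) → ℂ, IsGeneralizedCharacter ↥(K ⊔ N) γ ∧
      ∀ (k n : G) (_ : k ∈ K) (hn : n ∈ N) (h : k * n ∈ K ⊔ N), γ ⟨k * n, h⟩ = β ⟨n, hn⟩ := by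
  classical
  haveI hnorm : (K.subgroupOf (K ⊔ N)).Normal := CfsgLib.Coprime.normal_subgroupOf_sup hn
  let q := QuotientGroup.mk' (K.subgroupOf (K ⊔ N))
  let ι : N →* (↥(K ⊔ N) ⧸ K.subgroupOf (K ⊔ N)) := q.comp (Subgroup.inclusion (le_sup_right : N ≤ K ⊔ N))
  have hinj : Function.Injective ι := by
    rw [← MonoidHom.ker_eq_bot_iff, eq_bot_iff]
    intro x hx
    rw [MonoidHom.mem_ker] at hx
    have h1 : q (Subgroup.inclusion (le_sup_right : N ≤ K ⊔ N) x) = 1 := hx
    rw [QuotientGroup.mk'_apply, QuotientGroup.eq_one_iff, Subgroup.mem_subgroupOf] at h1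
    have h2 : (x : G) ∈ K ⊓ N := Subgroup.mem_inf.mpr ⟨h1, x.2⟩
    rw [hKN, Subgroup.mem_bot] at h2
    rw [Subgroup.mem_bot]
    exact Subtype.ext h2
  have hqk : ∀ (k n : G) (hk : k ∈ K) (hn' : n ∈ N) (h : k * n ∈ K ⊔ N), q ⟨k * n, h⟩ = ι ⟨n, hn'⟩ := by
    intro k n hk hn' h
    show q ⟨k * n, h⟩ = q ⟨n, _⟩
    have hk' : k ∈ K ⊔ N := (le_sup_left : K ≤ K ⊔ N) hk
    have hn'' : n ∈ K ⊔ N := (le_sup_right : N ≤ K ⊔ N) hn'
    have e1 : (⟨k * n, h⟩ : ↥(K ⊔ N)) = ⟨k, hk'⟩ * ⟨n, hn''⟩ := rfl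
    rw [e1, map_mul]
    have e2 : q ⟨k, hk'⟩ = 1 := by
      rw [QuotientGroup.mk'_apply, QuotientGroup.eq_one_iff, Subgroup.mem_subgroupOf]
      exact hk
    rw [e2, one_mul]
  have hsurj : Function.Surjective ι := by
    intro y
    obtain ⟨x, rfl⟩ := QuotientGroup.mk'_surjective _ y
    obtain ⟨x, hx⟩ := x
    have hx' := hx
    rw [CfsgLib.Coprime.mem_sup_iff hn] at hx'
    obtain ⟨k, hk, n, hn', rfl⟩ := hx'
    exact ⟨⟨n, hn'⟩, (hqk k n hk hn' hx).symm⟩
  let e := MulEquiv.ofBijective ι ⟨hinj, hsurj⟩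
  let π : ↥(K ⊔ N) →* N := e.symm.toMonoidHom.comp q
  refine ⟨β ∘ π, IsGeneralizedCharacter.comp hβ π, ?_⟩
  intro k n hk hn' h
  show β (e.symm (q ⟨k * n, h⟩)) = β ⟨n, hn'⟩
  rw [hqk k n hk hn' h]
  congr 1
  rw [MulEquiv.symm_apply_eq]
  rfl

/-- the counting lemma for a coset `K a` -/
theorem card_coset_count [Finite G] {K : Subgroup G} {a : G} (ha : a ∈ Subgroup.normalizer (K : Set G))
    (hcop : Nat.Coprime (orderOf a) (Nat.card K)) (g : G) :
    Nat.card {x : G // x * g * x⁻¹ * a⁻¹ ∈ K} * Nat.card ↥(K ⊓ Subgroup.centralizer ({a} : Set G)) =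
      Nat.card {x : G // x * g * x⁻¹ * a⁻¹ ∈ K ⊓ Subgroup.centralizer ({a} : Set G)} * Nat.card K := by
  classical
  set C := K ⊓ Subgroup.centralizer ({a} : Set G) with hC
  have hCK : C ≤ K := inf_le_left
  have haK : ∀ k, k ∈ K ↔ a * k * a⁻¹ ∈ K := Subgroup.mem_normalizer_iff.mp ha
  have hCa : ∀ w ∈ C, w * a = a * w := fun w hw => mem_centralizer_iff'.mp (Subgroup.mem_inf.mp hw).2
  -- key uniqueness
  have huniq : ∀ w ∈ K, ∀ c ∈ C, ∀ c' ∈ C, w * (c * a) * w⁻¹ = c' * a → w ∈ C := by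
    intro w hw c hc c' hc' h
    have hord : ∀ c ∈ C, Nat.Coprime (orderOf a) (orderOf c) := by
      intro c hc
      apply Nat.Coprime.coprime_dvd_right _ hcop
      have := orderOf_dvd_natCard (⟨c, hCK hc⟩ : K)
      rwa [← Subgroup.orderOf_coe] at this
    have hcop2 : Nat.Coprime (orderOf a) (orderOf c * orderOf c') := Nat.Coprime.mul_right (hord c hc) (hord c' hc')
    obtain ⟨e, he1, he2⟩ := Nat.chineseRemainder hcop2 1 0
    have h1 : (a * c) ^ e = a := pow_eq_left (show Commute a c from (hCa c hc).symm) he1 (he2.of_dvd (dvd_mul_right _ _))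
    have h2 : (a * c') ^ e = a := pow_eq_left (show Commute a c' from (hCa c' hc').symm) he1 (he2.of_dvd (dvd_mul_left _ _))
    have h3 : w * a * w⁻¹ = a := by
      have : (w * (c * a) * w⁻¹) ^ e = w * (c * a) ^ e * w⁻¹ := conj_pow
      rw [h, hCa c hc, hCa c' hc', h1, h2] at this
      exact this.symm
    refine Subgroup.mem_inf.mpr ⟨hw, mem_centralizer_iff'.mpr ?_⟩
    calc w * a = w * a * w⁻¹ * w := by group
      _ = a * w := by rw [h3]
  -- the set of pairs
  have hL : Nat.card {p : G × K // (p.2 : G) * (p.1 * g * p.1⁻¹) * (p.2 : G)⁻¹ * a⁻¹ ∈ C} =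
      Nat.card {x : G // x * g * x⁻¹ * a⁻¹ ∈ K} * Nat.card C := by
    rw [← Nat.card_prod]
    -- for every x in the set choose y₀
    have hex : ∀ x : {x : G // x * g * x⁻¹ * a⁻¹ ∈ K}, ∃ y₀ : K, (y₀ : G) * (x.1 * g * x.1⁻¹) * (y₀ : G)⁻¹ * a⁻¹ ∈ C := by
      rintro ⟨x, hx⟩
      obtain ⟨y, hy, c, hc, hca, he⟩ := exists_conj_mul ha hcop hx
      refine ⟨⟨y, hy⟩, ?_⟩
      have e1 : x * g * x⁻¹ * a⁻¹ * a = x * g * x⁻¹ := by group
      rw [e1] at he
      simp only
      rw [he, mul_inv_cancel_right]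
      exact Subgroup.mem_inf.mpr ⟨hc, mem_centralizer_iff'.mpr hca⟩
    choose y₀ hy₀ using hex
    symm
    apply Nat.card_congr
    have hmem : ∀ (p : {x : G // x * g * x⁻¹ * a⁻¹ ∈ K} × C), ((p.2 : G) * (y₀ p.1 : G)) * (p.1.1 * g * p.1.1⁻¹) * ((p.2 : G) * (y₀ p.1 : G))⁻¹ * a⁻¹ ∈ C := by
      rintro ⟨x, w⟩
      have h1 := hy₀ x
      simp only
      set z := (y₀ x : G) * (x.1 * g * x.1⁻¹) * (y₀ x : G)⁻¹ * a⁻¹ with hz
      have e1 : ((w : G) * (y₀ x : G)) * (x.1 * g * x.1⁻¹) * ((w : G) * (y₀ x : G))⁻¹ * a⁻¹ = w * z * (a * (w : G)⁻¹ * a⁻¹) := by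
        rw [hz]; group
      have e2 : a * (w : G)⁻¹ * a⁻¹ = (w : G)⁻¹ := by
        have := hCa _ (C.inv_mem w.2)
        rw [← this]; group
      rw [e1, e2]
      exact C.mul_mem (C.mul_mem w.2 h1) (C.inv_mem w.2)
    refine Equiv.ofBijective (fun p => ⟨(p.1.1, ⟨(p.2 : G) * (y₀ p.1 : G), K.mul_mem (hCK p.2.2) (y₀ p.1).2⟩), hmem p⟩) ⟨?_, ?_⟩
    · rintro ⟨x, w⟩ ⟨x', w'⟩ h
      simp only [Subtype.mk.injEq, Prod.mk.injEq] at h
      obtain ⟨h1, h2⟩ := h
      have h3 : x = x' := Subtype.ext h1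
      subst h3
      have h4 := mul_right_cancel h2
      exact Prod.ext rfl (Subtype.ext h4)
    · rintro ⟨⟨x, y⟩, hxy⟩
      simp only at hxy
      have hx : x * g * x⁻¹ * a⁻¹ ∈ K := by
        have h1 := hCK hxy
        have e1 : x * g * x⁻¹ * a⁻¹ = (y : G)⁻¹ * ((y : G) * (x * g * x⁻¹) * (y : G)⁻¹ * a⁻¹) * (a * y * a⁻¹) := by group
        rw [e1]
        exact K.mul_mem (K.mul_mem (K.inv_mem y.2) h1) ((haK _).mp y.2)
      have hw : (y : G) * ((y₀ ⟨x, hx⟩ : K) : G)⁻¹ ∈ C := by
        apply huniq _ (K.mul_mem y.2 (K.inv_mem (y₀ ⟨x, hx⟩).2)) _ (hy₀ ⟨x, hx⟩) _ hxy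
        simp only
        group
      refine ⟨(⟨x, hx⟩, ⟨_, hw⟩), ?_⟩
      apply Subtype.ext
      apply Prod.ext
      · rfl
      · apply Subtype.ext
        simp only
        group
  have hR : Nat.card {p : G × K // (p.2 : G) * (p.1 * g * p.1⁻¹) * (p.2 : G)⁻¹ * a⁻¹ ∈ C} =
      Nat.card {x : G // x * g * x⁻¹ * a⁻¹ ∈ C} * Nat.card K := by
    rw [← Nat.card_prod]
    apply Nat.card_congr
    refine ⟨fun p => (⟨(p.1.2 : G) * p.1.1, ?_⟩, p.1.2), fun p => ⟨((p.2 : G)⁻¹ * p.1.1, p.2), ?_⟩, ?_, ?_⟩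
    · have := p.2
      have e1 : (p.1.2 : G) * p.1.1 * g * ((p.1.2 : G) * p.1.1)⁻¹ * a⁻¹ = (p.1.2 : G) * (p.1.1 * g * p.1.1⁻¹) * (p.1.2 : G)⁻¹ * a⁻¹ := by group
      rw [e1]; exact this
    · have := p.1.2
      have e1 : (p.2 : G) * (((p.2 : G)⁻¹ * p.1.1) * g * ((p.2 : G)⁻¹ * p.1.1)⁻¹) * (p.2 : G)⁻¹ * a⁻¹ = p.1.1 * g * p.1.1⁻¹ * a⁻¹ := by group
      simp only
      rw [e1]; exact this
    · rintro ⟨⟨x, y⟩, h⟩
      simp
    · rintro ⟨⟨x, h⟩, y⟩
      simp
  rw [← hL, hR]

theorem card_sup_of_inf_eq_bot [Finite G] {K N : Subgroup G} (hn : N ≤ Subgroup.normalizer (K : Set G)) (hKN : K ⊓ N = ⊥) :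
    Nat.card ↥(K ⊔ N) = Nat.card K * Nat.card N := by
  rw [← Nat.card_prod]
  symm
  apply Nat.card_congr
  refine Equiv.ofBijective (fun p : K × N => (⟨(p.1 : G) * (p.2 : G), Subgroup.mul_mem_sup p.1.2 p.2.2⟩ : ↥(K ⊔ N))) ⟨?_, ?_⟩
  · rintro ⟨k, n⟩ ⟨k', n'⟩ h
    have h1 : (k : G) * n = k' * n' := congrArg Subtype.val h
    have h2 : (k' : G)⁻¹ * k = n' * (n : G)⁻¹ := by
      calc (k' : G)⁻¹ * k = (k' : G)⁻¹ * (k * n) * (n : G)⁻¹ := by group
        _ = (k' : G)⁻¹ * (k' * n') * (n : G)⁻¹ := by rw [h1]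
        _ = _ := by group
    have h3 : (k' : G)⁻¹ * k ∈ K ⊓ N := Subgroup.mem_inf.mpr
      ⟨K.mul_mem (K.inv_mem k'.2) k.2, by rw [h2]; exact N.mul_mem n'.2 (N.inv_mem n.2)⟩
    rw [hKN, Subgroup.mem_bot] at h3
    have h4 : (k : G) = k' := (inv_mul_eq_one.mp h3).symm
    rw [h3] at h2
    have h5 : (n : G) = n' := (mul_inv_eq_one.mp h2.symm).symm
    exact Prod.ext (Subtype.ext h4) (Subtype.ext h5)
  · rintro ⟨x, hx⟩
    have hx' := hx
    rw [CfsgLib.Coprime.mem_sup_iff hn] at hx'
    obtain ⟨k, hk, n, hn', rfl⟩ := hx'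
    exact ⟨(⟨k, hk⟩, ⟨n, hn'⟩), rfl⟩

section virtual

variable {A : Set G} {L : Subgroup G} {H : G → Subgroup G}

/-- intersection of the `H b` for `b ∈ B` -/
def HB (H : G → Subgroup G) (B : Finset G) : Subgroup G := ⨅ b ∈ B, H b

theorem mem_HB {B : Finset G} {x : G} : x ∈ HB H B ↔ ∀ b ∈ B, x ∈ H b := by
  simp [HB, Subgroup.mem_iInf]

/-- the subgroup of `L` normalizing `B` -/
def NB (L : Subgroup G) (B : Finset G) : Subgroup G := L ⊓ Subgroup.normalizer (B : Set G)

theorem HB_le {B : Finset G} {b : G} (hb : b ∈ B) : HB H B ≤ H b := fun _ hx => mem_HB.mp hx b hb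

theorem NB_le_normalizer [Finite G] (hD : DadeHypothesis A L H) {B : Finset G} (hB : (B : Set G) ⊆ A) :
    NB L B ≤ Subgroup.normalizer (HB H B : Set G) := by
  have key : ∀ x ∈ NB L B, ∀ u ∈ HB H B, x * u * x⁻¹ ∈ HB H B := by
    intro x hx u hu
    have hx' := Subgroup.mem_inf.mp hx
    rw [mem_HB]
    intro b hb
    have h1 := Subgroup.mem_set_normalizer_iff.mp (Subgroup.inv_mem _ hx'.2) b
    have h2 : x⁻¹ * b * x⁻¹⁻¹ ∈ B := h1.mp hb
    have h3 := mem_HB.mp hu _ h2
    have h4 := (mem_H_conj hD (hB h2) hx'.1).mpr h3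
    have e1 : x * (x⁻¹ * b * x⁻¹⁻¹) * x⁻¹ = b := by group
    rwa [e1] at h4
  intro x hx
  rw [Subgroup.mem_normalizer_iff]
  intro u
  constructor
  · exact key x hx u
  · intro h
    have := key x⁻¹ (Subgroup.inv_mem _ hx) _ h
    have e1 : x⁻¹ * (x * u * x⁻¹) * x⁻¹⁻¹ = u := by group
    rwa [e1] at this

theorem HB_inf_NB [Finite G] (hD : DadeHypothesis A L H) {B : Finset G} (hB : (B : Set G) ⊆ A) (hne : B.Nonempty) :
    HB H B ⊓ NB L B = ⊥ := by
  obtain ⟨b, hb⟩ := hne
  rw [eq_bot_iff]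
  intro x hx
  obtain ⟨h1, h2⟩ := Subgroup.mem_inf.mp hx
  have h3 := HB_le hb h1
  have h4 : x ∈ H b ⊓ (L ⊓ Subgroup.centralizer ({b} : Set G)) :=
    Subgroup.mem_inf.mpr ⟨h3, Subgroup.mem_inf.mpr ⟨(Subgroup.mem_inf.mp h2).1, hD.le_centralizer b (hB hb) h3⟩⟩
  rw [hD.inf_eq_bot b (hB hb)] at h4
  exact h4

theorem HB_inf_centralizer [Finite G] (hD : DadeHypothesis A L H) {B : Finset G} (hB : (B : Set G) ⊆ A) (hne : B.Nonempty) {a : G}
    (ha : a ∈ A) [DecidableEq G] : HB H B ⊓ Subgroup.centralizer ({a} : Set G) = HB H (insert a B) := by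
  ext x
  rw [Subgroup.mem_inf, mem_HB, mem_HB]
  constructor
  · rintro ⟨h1, h2⟩ b hb
    rw [Finset.mem_insert] at hb
    rcases hb with rfl | hb
    · obtain ⟨c, hc⟩ := hne
      exact mem_H_of_dvd hD ha (hB hc) h2 (orderOf_dvd_H (h1 c hc))
    · exact h1 b hb
  · intro h
    exact ⟨fun b hb => h b (Finset.mem_insert_of_mem hb), hD.le_centralizer a ha (h a (Finset.mem_insert_self a B))⟩

/-- the normalized count -/
noncomputable def cnt (H : G → Subgroup G) (B : Finset G) (a g : G) : ℂ :=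
  (Nat.card (HB H B) : ℂ)⁻¹ * (Nat.card {x : G // x * g * x⁻¹ * a⁻¹ ∈ HB H B} : ℂ)

theorem cnt_insert [Fintype G] [DecidableEq G] (hD : DadeHypothesis A L H) {B : Finset G} (hB : (B : Set G) ⊆ A) (hne : B.Nonempty) {a : G}
    (ha : a ∈ A) (haB : a ∈ Subgroup.normalizer (B : Set G)) (g : G) : cnt H B a g = cnt H (insert a B) a g := by
  have hn : a ∈ Subgroup.normalizer (HB H B : Set G) :=
    NB_le_normalizer hD hB (Subgroup.mem_inf.mpr ⟨hD.subset ha, haB⟩)
  have hcop : Nat.Coprime (orderOf a) (Nat.card (HB H B)) := by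
    obtain ⟨b, hb⟩ := hne
    exact Nat.Coprime.coprime_dvd_right (Subgroup.card_dvd_of_le (HB_le hb)) (coprime_orderOf hD ha (hB hb))
  have h1 := card_coset_count hn hcop g
  rw [HB_inf_centralizer hD hB hne ha] at h1
  unfold cnt
  have h2 := card_sub_ne_zero (HB H B)
  have h3 := card_sub_ne_zero (HB H (insert a B))
  have h4 : (Nat.card {x : G // x * g * x⁻¹ * a⁻¹ ∈ HB H B} : ℂ) * (Nat.card (HB H (insert a B)) : ℂ) =
      (Nat.card {x : G // x * g * x⁻¹ * a⁻¹ ∈ HB H (insert a B)} : ℂ) * (Nat.card (HB H B) : ℂ) := by exact_mod_cast h1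
  field_simp
  linear_combination h4

theorem mem_normalizer_insert [DecidableEq G] {B : Finset G} {a : G} (haB : a ∈ Subgroup.normalizer (B : Set G)) :
    a ∈ Subgroup.normalizer ((insert a B : Finset G) : Set G) := by
  rw [Subgroup.mem_set_normalizer_iff] at haB ⊢
  intro x
  simp only [Finset.coe_insert, Set.mem_insert_iff, Finset.mem_coe]
  have h1 := haB x
  simp only [Finset.mem_coe] at h1
  rw [h1]
  have h2 : x = a ↔ a * x * a⁻¹ = a := by
    constructor
    · rintro rfl; group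
    · intro h
      calc x = a⁻¹ * (a * x * a⁻¹) * a := by group
        _ = a := by rw [h]; group
  rw [h2]

theorem mem_normalizer_erase [DecidableEq G] {B : Finset G} {a : G} (haB : a ∈ Subgroup.normalizer (B : Set G)) :
    a ∈ Subgroup.normalizer ((B.erase a : Finset G) : Set G) := by
  rw [Subgroup.mem_set_normalizer_iff] at haB ⊢
  intro x
  simp only [Finset.coe_erase, Set.mem_diff, Set.mem_singleton_iff, Finset.mem_coe]
  have h1 := haB x
  simp only [Finset.mem_coe] at h1
  rw [h1]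
  have h2 : x = a ↔ a * x * a⁻¹ = a := by
    constructor
    · rintro rfl; group
    · intro h
      calc x = a⁻¹ * (a * x * a⁻¹) * a := by group
        _ = a := by rw [h]; group
  rw [h2]

open scoped Classical in
/-- the alternating sum collapses -/
theorem sum_cnt [Fintype G] (hD : DadeHypothesis A L H) {a : G} (ha : a ∈ A) (g : G) :
    ∑ B ∈ (Finset.univ : Finset (Finset G)).filter (fun B : Finset G => B.Nonempty ∧ (B : Set G) ⊆ A ∧ a ∈ Subgroup.normalizer (B : Set G)),
      (-1 : ℂ) ^ B.card * cnt H B a g = -cnt H {a} a g := by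
  set S := (Finset.univ : Finset (Finset G)).filter (fun B : Finset G => B.Nonempty ∧ (B : Set G) ⊆ A ∧ a ∈ Subgroup.normalizer (B : Set G)) with hS
  have hmem : ({a} : Finset G) ∈ S := by
    rw [hS, Finset.mem_filter]
    refine ⟨Finset.mem_univ _, Finset.singleton_nonempty a, by simpa using ha, ?_⟩
    rw [Subgroup.mem_set_normalizer_iff]
    intro x
    simp only [Finset.coe_singleton, Set.mem_singleton_iff]
    constructor
    · rintro rfl; group
    · intro h
      calc x = a⁻¹ * (a * x * a⁻¹) * a := by group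
        _ = a := by rw [h]; group
  rw [← Finset.add_sum_erase S _ hmem]
  have h0 : ∑ B ∈ S.erase {a}, (-1 : ℂ) ^ B.card * cnt H B a g = 0 := by
    refine Finset.sum_involution (fun B _ => if a ∈ B then B.erase a else insert a B) ?_ ?_ ?_ ?_
    · intro B hB
      rw [Finset.mem_erase, hS, Finset.mem_filter] at hB
      obtain ⟨hne, -, hBn, hBA, haB⟩ := hB
      by_cases haM : a ∈ B
      · simp only [haM, if_true]
        have hBe : (B.erase a).Nonempty := by
          rw [Finset.nonempty_iff_ne_empty]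
          intro h
          apply hne
          rw [Finset.erase_eq_empty_iff] at h
          rcases h with h | h
          · rw [h] at haM; simp at haM
          · exact h
        have h1 := cnt_insert hD (B := B.erase a) (fun x hx => hBA (Finset.mem_of_mem_erase hx)) hBe ha (mem_normalizer_erase haB) g
        rw [Finset.insert_erase haM] at h1
        rw [h1]
        have h2 : B.card = (B.erase a).card + 1 := (Finset.card_erase_add_one haM).symm
        rw [h2, pow_succ]
        ring
      · simp only [haM, if_false]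
        rw [← cnt_insert hD hBA hBn ha haB g, Finset.card_insert_of_notMem haM, pow_succ]
        ring
    · intro B hB _
      by_cases haM : a ∈ B
      · simp only [haM, if_true]
        intro h
        rw [← h] at haM
        simp at haM
      · simp only [haM, if_false]
        intro h
        rw [← h] at haM
        simp at haM
    · intro B hB
      rw [Finset.mem_erase, hS, Finset.mem_filter] at hB
      obtain ⟨hne, -, hBn, hBA, haB⟩ := hB
      rw [Finset.mem_erase, hS, Finset.mem_filter]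
      by_cases haM : a ∈ B
      · simp only [haM, if_true]
        have hBe : (B.erase a).Nonempty := by
          rw [Finset.nonempty_iff_ne_empty]
          intro h
          apply hne
          rw [Finset.erase_eq_empty_iff] at h
          rcases h with h | h
          · rw [h] at haM; simp at haM
          · exact h
        refine ⟨?_, Finset.mem_univ _, hBe, fun x hx => hBA (Finset.mem_of_mem_erase hx), mem_normalizer_erase haB⟩
        intro h
        have : a ∈ B.erase a := by rw [h]; simp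
        simp at this
      · simp only [haM, if_false]
        refine ⟨?_, Finset.mem_univ _, Finset.insert_nonempty a B, ?_, mem_normalizer_insert haB⟩
        · intro h
          obtain ⟨b, hb⟩ := hBn
          have h2 : b ∈ insert a B := Finset.mem_insert_of_mem hb
          rw [h, Finset.mem_singleton] at h2
          rw [h2] at hb
          exact haM hb
        · intro x hx
          rw [Finset.coe_insert, Set.mem_insert_iff] at hx
          rcases hx with rfl | hx
          · exact ha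
          · exact hBA hx
    · intro B hB
      by_cases haM : a ∈ B
      · simp only [haM, if_true, Finset.mem_erase, ne_eq, not_true_eq_false, false_and, if_false]
        exact Finset.insert_erase haM
      · simp only [haM, if_false, Finset.mem_insert, true_or, if_true]
        exact Finset.erase_insert haM
  rw [h0, add_zero, Finset.card_singleton, pow_one]
  ring

theorem HB_singleton (a : G) : HB H {a} = H a := by
  ext x
  rw [mem_HB]
  simp

open scoped Classical in
/-- relation between the counts and the Dade map -/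
theorem sum_cnt_dade [Fintype G] (hD : DadeHypothesis A L H) {α : L → ℂ} (hα : IsClassFunction L α) (g : G) :
    ∑ a : G, (if a ∈ A then extendByZero L α a * cnt H {a} a g else 0) = (Nat.card L : ℂ) * dadeIsometry A L H α g := by
  rw [← count_key hD (F := dadeIsometry A L H α) (fun g hg => dadeIsometry_eq_zero hD.subset hg) g]
  apply Finset.sum_congr rfl
  intro a _
  by_cases ha : a ∈ A
  · rw [if_pos ha, if_pos ha]
    unfold cnt
    rw [HB_singleton, mul_left_comm]
    congr 1
    have h1 : ∀ u x : G, u ∈ (H a : Set G) → (if x * g * x⁻¹ = a * u then dadeIsometry A L H α g else 0) =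
        (if x * g * x⁻¹ = a * u then extendByZero L α a else 0) := by
      intro u x hu
      split_ifs with h
      · rw [ext_of_mem (hD.subset ha)]
        exact dadeIsometry_apply hD hα (a := ⟨a, hD.subset ha⟩) ha hu h
      · rfl
    have h2 : (∑ u : G, if u ∈ (H a : Set G) then (∑ x : G, if x * g * x⁻¹ = a * u then dadeIsometry A L H α g else 0) else 0) =
        ∑ x : G, if x * g * x⁻¹ * a⁻¹ ∈ H a then extendByZero L α a else 0 := by
      have h3 : ∀ u : G, (if u ∈ (H a : Set G) then (∑ x : G, if x * g * x⁻¹ = a * u then dadeIsometry A L H α g else 0) else 0) =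
          ∑ x : G, if u ∈ (H a : Set G) ∧ x * g * x⁻¹ = a * u then extendByZero L α a else 0 := by
        intro u
        by_cases hu : u ∈ (H a : Set G)
        · rw [if_pos hu]
          apply Finset.sum_congr rfl
          intro x _
          rw [h1 u x hu]
          simp only [hu, true_and]
        · simp [hu]
      rw [Finset.sum_congr rfl fun u _ => h3 u, Finset.sum_comm]
      apply Finset.sum_congr rfl
      intro x _
      by_cases hx : x * g * x⁻¹ * a⁻¹ ∈ H a
      · rw [if_pos hx]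
        have hxa : x * g * x⁻¹ = a * (x * g * x⁻¹ * a⁻¹) := by
          have h5 := commute_of_mem hD ha hx
          have h6 : (x * g * x⁻¹ * a⁻¹) * a = x * g * x⁻¹ := by group
          rw [← h6] at *
          calc x * g * x⁻¹ * a⁻¹ * a = (x * g * x⁻¹ * a⁻¹) * a := rfl
            _ = a * (x * g * x⁻¹ * a⁻¹) := h5.symm
            _ = _ := by simp
        rw [Finset.sum_eq_single (x * g * x⁻¹ * a⁻¹)]
        · rw [if_pos ⟨hx, hxa⟩]
        · intro v _ hv
          rw [if_neg]
          rintro ⟨-, h4⟩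
          apply hv
          rw [hxa] at h4
          exact (mul_left_cancel h4).symm
        · simp
      · rw [if_neg hx]
        apply Finset.sum_eq_zero
        intro u _
        rw [if_neg]
        rintro ⟨h4, h5⟩
        apply hx
        have h6 := commute_of_mem hD ha h4
        rw [h5, h6, mul_inv_cancel_right]
        exact h4
    rw [h2, ← Finset.sum_filter, Finset.sum_const, nsmul_eq_mul, mul_comm, Nat.card_eq_fintype_card, Fintype.card_subtype]
  · rw [if_neg ha, if_neg ha]

open scoped Classical in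
/-- the function `V B` (a multiple of an induced generalized character) -/
noncomputable def VB [Fintype G] (A : Set G) (L : Subgroup G) (H : G → Subgroup G) (α : L → ℂ) (B : Finset G) : G → ℂ :=
  fun g => ∑ a : G, if a ∈ A ∧ a ∈ Subgroup.normalizer (B : Set G) then extendByZero L α a * cnt H B a g else 0

theorem exists_VB [Fintype G] (hD : DadeHypothesis A L H) {α : L → ℂ} (hα : IsGeneralizedCharacter L α)
    (hαA : ∀ x : L, (x : G) ∉ A → α x = 0) {B : Finset G} (hB : (B : Set G) ⊆ A) (hne : B.Nonempty) :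
    ∃ Φ : G → ℂ, IsGeneralizedCharacter G Φ ∧ VB A L H α B = (Nat.card (NB L B) : ℂ) • Φ := by
  classical
  have hn := NB_le_normalizer hD hB
  have hbot := HB_inf_NB hD hB hne
  have hNL : NB L B ≤ L := inf_le_left
  -- the restriction of α to NB
  have hβ : IsGeneralizedCharacter (NB L B) (fun n : NB L B => α ⟨n, hNL n.2⟩) :=
    IsGeneralizedCharacter.comp hα (Subgroup.inclusion hNL)
  obtain ⟨γ, hγ, hγv⟩ := exists_inflation hn hbot hβ
  refine ⟨indFun (HB H B ⊔ NB L B) γ, isGeneralized_indFun _ hγ, ?_⟩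
  funext g
  have hcard : (Nat.card ↥(HB H B ⊔ NB L B) : ℂ) = (Nat.card (HB H B) : ℂ) * (Nat.card (NB L B) : ℂ) := by
    rw [card_sup_of_inf_eq_bot hn hbot]; push_cast; rfl
  -- the extension by zero of γ
  have hext : ∀ z : G, extendByZero (HB H B ⊔ NB L B) γ z =
      ∑ a : G, if (a ∈ A ∧ a ∈ Subgroup.normalizer (B : Set G)) ∧ z * a⁻¹ ∈ HB H B then extendByZero L α a else 0 := by
    intro z
    by_cases hz : z ∈ HB H B ⊔ NB L B
    · have hz' := hz
      rw [CfsgLib.Coprime.mem_sup_iff hn] at hz'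
      obtain ⟨k, hk, n, hnn, rfl⟩ := hz'
      rw [ext_of_mem hz, hγv k n hk hnn hz]
      have huniq : ∀ a, (a ∈ A ∧ a ∈ Subgroup.normalizer (B : Set G)) ∧ k * n * a⁻¹ ∈ HB H B → a = n := by
        rintro a ⟨⟨ha, haB⟩, hka⟩
        have haN : a ∈ NB L B := Subgroup.mem_inf.mpr ⟨hD.subset ha, haB⟩
        have h1 : n * a⁻¹ ∈ HB H B := by
          have e : n * a⁻¹ = k⁻¹ * (k * n * a⁻¹) := by group
          rw [e]; exact (HB H B).mul_mem ((HB H B).inv_mem hk) hka
        have h2 : n * a⁻¹ ∈ HB H B ⊓ NB L B := Subgroup.mem_inf.mpr ⟨h1, (NB L B).mul_mem hnn ((NB L B).inv_mem haN)⟩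
        rw [hbot, Subgroup.mem_bot] at h2
        exact (mul_inv_eq_one.mp h2).symm
      by_cases hnA : n ∈ A
      · rw [Finset.sum_eq_single n]
        · rw [if_pos, ext_of_mem (hNL hnn)]
          refine ⟨⟨hnA, (Subgroup.mem_inf.mp hnn).2⟩, ?_⟩
          rw [mul_inv_cancel_right]; exact hk
        · intro a _ hne'
          rw [if_neg]
          intro h
          exact hne' (huniq a h)
        · simp
      · rw [Finset.sum_eq_zero]
        · exact hαA ⟨n, hNL hnn⟩ hnA
        · intro a _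
          rw [if_neg]
          intro h
          have := huniq a h
          rw [this] at h
          exact hnA h.1.1
    · rw [ext_of_not_mem hz, Finset.sum_eq_zero]
      intro a _
      rw [if_neg]
      rintro ⟨⟨ha, haB⟩, hka⟩
      apply hz
      have e : z = (z * a⁻¹) * a := by group
      rw [e]
      exact Subgroup.mul_mem_sup hka (Subgroup.mem_inf.mpr ⟨hD.subset ha, haB⟩)
  have h1 : ∑ x : G, extendByZero (HB H B ⊔ NB L B) γ (x⁻¹ * g * x) =
      ∑ a : G, if a ∈ A ∧ a ∈ Subgroup.normalizer (B : Set G) then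
        extendByZero L α a * (Nat.card {x : G // x * g * x⁻¹ * a⁻¹ ∈ HB H B} : ℂ) else 0 := by
    have h2 := Equiv.sum_comp (Equiv.inv G) (fun x : G => extendByZero (HB H B ⊔ NB L B) γ (x⁻¹ * g * x))
    rw [← h2]
    simp only [Equiv.inv_apply, inv_inv, hext]
    rw [Finset.sum_comm]
    apply Finset.sum_congr rfl
    intro a _
    by_cases ha : a ∈ A ∧ a ∈ Subgroup.normalizer (B : Set G)
    · rw [if_pos ha]
      simp only [ha, true_and]
      rw [← Finset.sum_filter, Finset.sum_const, nsmul_eq_mul, mul_comm, Nat.card_eq_fintype_card, Fintype.card_subtype]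
    · rw [if_neg ha]
      apply Finset.sum_eq_zero
      intro x _
      rw [if_neg (fun h => ha h.1)]
  show VB A L H α B g = (Nat.card (NB L B) : ℂ) * indFun (HB H B ⊔ NB L B) γ g
  rw [indFun_apply, h1, hcard, VB]
  have h3 := card_sub_ne_zero (HB H B)
  have h4 := card_sub_ne_zero (NB L B)
  have h5 : ∀ X : ℂ, (Nat.card (NB L B) : ℂ) * (((Nat.card (HB H B) : ℂ) * (Nat.card (NB L B) : ℂ))⁻¹ * X) = (Nat.card (HB H B) : ℂ)⁻¹ * X := by
    intro X; field_simp
  rw [h5, Finset.mul_sum]
  apply Finset.sum_congr rfl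
  intro a _
  split_ifs
  · unfold cnt; ring
  · ring

/-- conjugation of a finset -/
def cjF (l : G) (B : Finset G) : Finset G := B.map (MulAut.conj l).toEquiv.toEmbedding

theorem mem_cjF {l x : G} {B : Finset G} : x ∈ cjF l B ↔ l⁻¹ * x * l ∈ B := by
  unfold cjF
  rw [Finset.mem_map]
  constructor
  · rintro ⟨y, hy, rfl⟩
    have : l⁻¹ * ((MulAut.conj l).toEquiv.toEmbedding y) * l = y := by
      show l⁻¹ * (l * y * l⁻¹) * l = y
      group
    rw [this]; exact hy
  · intro h
    refine ⟨_, h, ?_⟩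
    show l * (l⁻¹ * x * l) * l⁻¹ = x
    group

theorem cjF_one (B : Finset G) : cjF 1 B = B := by
  ext x; rw [mem_cjF]; simp

theorem cjF_mul (l m : G) (B : Finset G) : cjF (l * m) B = cjF l (cjF m B) := by
  ext x
  rw [mem_cjF, mem_cjF, mem_cjF]
  have : (l * m)⁻¹ * x * (l * m) = m⁻¹ * (l⁻¹ * x * l) * m := by group
  rw [this]

theorem card_cjF (l : G) (B : Finset G) : (cjF l B).card = B.card := Finset.card_map _

theorem cjF_subset (hD : DadeHypothesis A L H) {l : G} (hl : l ∈ L) {B : Finset G} (hB : (B : Set G) ⊆ A) : (cjF l B : Set G) ⊆ A := by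
  intro x hx
  rw [Finset.mem_coe, mem_cjF] at hx
  have h1 := hD.conj_mem l hl _ (hB hx)
  have e : l * (l⁻¹ * x * l) * l⁻¹ = x := by group
  rwa [e] at h1

theorem cjF_nonempty {l : G} {B : Finset G} (hB : B.Nonempty) : (cjF l B).Nonempty := by
  unfold cjF; exact Finset.Nonempty.map hB

theorem cjF_eq_iff {l : G} {B : Finset G} : cjF l B = B ↔ l ∈ Subgroup.normalizer (B : Set G) := by
  rw [Subgroup.mem_set_normalizer_iff, Finset.ext_iff]
  constructor
  · intro h x
    have := h (l * x * l⁻¹)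
    rw [mem_cjF] at this
    have e : l⁻¹ * (l * x * l⁻¹) * l = x := by group
    rw [e] at this
    exact this
  · intro h x
    rw [mem_cjF]
    have := h (l⁻¹ * x * l)
    have e : l * (l⁻¹ * x * l) * l⁻¹ = x := by group
    rw [e] at this
    exact this

theorem mem_normalizer_cjF {l a : G} {B : Finset G} : l * a * l⁻¹ ∈ Subgroup.normalizer (cjF l B : Set G) ↔ a ∈ Subgroup.normalizer (B : Set G) := by
  rw [← cjF_eq_iff, ← cjF_eq_iff, ← cjF_mul]
  have e : l * a * l⁻¹ * l = l * a := by group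
  rw [e, cjF_mul]
  constructor
  · intro h
    have := congrArg (cjF l⁻¹) h
    rwa [← cjF_mul l⁻¹ l (cjF a B), ← cjF_mul l⁻¹ l B, inv_mul_cancel, cjF_one, cjF_one] at this
  · intro h; rw [h]

theorem mem_HB_cjF [Finite G] (hD : DadeHypothesis A L H) {l : G} (hl : l ∈ L) {B : Finset G} (hB : (B : Set G) ⊆ A) {u : G} :
    l * u * l⁻¹ ∈ HB H (cjF l B) ↔ u ∈ HB H B := by
  rw [mem_HB, mem_HB]
  constructor
  · intro h b hb
    have h1 := h (l * b * l⁻¹) (by rw [mem_cjF]; have e : l⁻¹ * (l * b * l⁻¹) * l = b := by group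
                                   rw [e]; exact hb)
    exact (mem_H_conj hD (hB hb) hl).mp h1
  · intro h b hb
    rw [mem_cjF] at hb
    have h1 := (mem_H_conj hD (hB hb) hl).mpr (h _ hb)
    have e : l * (l⁻¹ * b * l) * l⁻¹ = b := by group
    rwa [e] at h1

theorem VB_cjF [Fintype G] (hD : DadeHypothesis A L H) {α : L → ℂ} (hα : IsClassFunction L α) {l : G} (hl : l ∈ L) {B : Finset G}
    (hB : (B : Set G) ⊆ A) : VB A L H α (cjF l B) = VB A L H α B := by
  classical
  funext g
  unfold VB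
  rw [← Equiv.sum_comp (MulAut.conj l).toEquiv]
  apply Finset.sum_congr rfl
  intro a _
  have e1 : (MulAut.conj l).toEquiv a = l * a * l⁻¹ := rfl
  rw [e1]
  have h1 : (l * a * l⁻¹ ∈ A ∧ l * a * l⁻¹ ∈ Subgroup.normalizer (cjF l B : Set G)) ↔ (a ∈ A ∧ a ∈ Subgroup.normalizer (B : Set G)) := by
    rw [conj_mem_iff hD hl, mem_normalizer_cjF]
  by_cases ha : a ∈ A ∧ a ∈ Subgroup.normalizer (B : Set G)
  · rw [if_pos ha, if_pos (h1.mpr ha)]
    congr 1
    · exact ext_conj_mem hα hl a
    · unfold cnt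
      have h2 : Nat.card (HB H (cjF l B)) = Nat.card (HB H B) := by
        symm
        apply Nat.card_congr
        refine ⟨fun u => ⟨l * u.1 * l⁻¹, (mem_HB_cjF hD hl hB).mpr u.2⟩, fun u => ⟨l⁻¹ * u.1 * l, ?_⟩, ?_, ?_⟩
        · have := u.2
          rw [← mem_HB_cjF hD hl hB]
          have e : l * (l⁻¹ * u.1 * l) * l⁻¹ = u.1 := by group
          rw [e]; exact this
        · intro u; ext; simp [mul_assoc]
        · intro u; ext; simp [mul_assoc]
      have h3 : Nat.card {x : G // x * g * x⁻¹ * (l * a * l⁻¹)⁻¹ ∈ HB H (cjF l B)} = Nat.card {x : G // x * g * x⁻¹ * a⁻¹ ∈ HB H B} := by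
        symm
        apply Nat.card_congr
        refine ⟨fun x => ⟨l * x.1, ?_⟩, fun x => ⟨l⁻¹ * x.1, ?_⟩, ?_, ?_⟩
        · have := (mem_HB_cjF hD hl hB).mpr x.2
          have e : l * x.1 * g * (l * x.1)⁻¹ * (l * a * l⁻¹)⁻¹ = l * (x.1 * g * x.1⁻¹ * a⁻¹) * l⁻¹ := by group
          rw [e]; exact this
        · have := x.2
          rw [← mem_HB_cjF hD hl hB]
          have e : l * (l⁻¹ * x.1 * g * (l⁻¹ * x.1)⁻¹ * a⁻¹) * l⁻¹ = x.1 * g * x.1⁻¹ * (l * a * l⁻¹)⁻¹ := by group
          rw [e]; exact this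
        · intro x; ext; simp
        · intro x; ext; simp
      rw [h2, h3]
  · rw [if_neg ha, if_neg (fun h => ha (h1.mp h))]

/-- the action of `L` on the nonempty subsets of `A` -/
@[reducible] def actX (hD : DadeHypothesis A L H) : MulAction L {B : Finset G // B.Nonempty ∧ (B : Set G) ⊆ A} where
  smul l B := ⟨cjF (l : G) B.1, cjF_nonempty B.2.1, cjF_subset hD l.2 B.2.2⟩
  one_smul B := Subtype.ext (cjF_one B.1)
  mul_smul l m B := Subtype.ext (cjF_mul (l : G) (m : G) B.1)

/-- S1501: the Dade map preserves generalized characters -/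
theorem isGeneralized_dade [Fintype G] (hD : DadeHypothesis A L H) {α : L → ℂ} (hα : IsGeneralizedCharacter L α)
    (hαA : ∀ x : L, (x : G) ∉ A → α x = 0) : IsGeneralizedCharacter G (dadeIsometry A L H α) := by
  classical
  haveI : Fintype L := Fintype.ofFinite L
  have hαc := IsGeneralizedCharacter.isClassFunction hα
  let X := {B : Finset G // B.Nonempty ∧ (B : Set G) ⊆ A}
  letI := actX hD
  have hsmul : ∀ (l : L) (B : X), (l • B).1 = cjF (l : G) B.1 := fun l B => rfl
  -- the total sum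
  have htot : ∑ B : X, (-1 : ℂ) ^ B.1.card • VB A L H α B.1 = -((Nat.card L : ℂ) • dadeIsometry A L H α) := by
    funext g
    rw [Finset.sum_apply, Pi.neg_apply, Pi.smul_apply, smul_eq_mul, ← sum_cnt_dade hD hαc g]
    simp only [Pi.smul_apply, smul_eq_mul, VB, Finset.mul_sum]
    rw [Finset.sum_comm, ← Finset.sum_neg_distrib]
    apply Finset.sum_congr rfl
    intro a _
    by_cases ha : a ∈ A
    · rw [if_pos ha, ← mul_neg, ← sum_cnt hD ha g, Finset.mul_sum, Finset.sum_filter]
      have h1 : ∀ F : Finset G → ℂ, ∑ B : X, F B.1 = ∑ B : Finset G, if B.Nonempty ∧ (B : Set G) ⊆ A then F B else 0 := by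
        intro F
        rw [← Finset.sum_filter]
        exact (Finset.sum_subtype _ (by simp) F).symm
      rw [h1 (fun B => (-1) ^ B.card * if a ∈ A ∧ a ∈ Subgroup.normalizer (B : Set G) then extendByZero L α a * cnt H B a g else 0)]
      apply Finset.sum_congr rfl
      intro B _
      by_cases hB : B.Nonempty ∧ (B : Set G) ⊆ A
      · rw [if_pos hB]
        by_cases haB : a ∈ Subgroup.normalizer (B : Set G)
        · rw [if_pos ⟨ha, haB⟩, if_pos ⟨hB.1, hB.2, haB⟩]; ring
        · rw [if_neg (fun h => haB h.2), if_neg (fun h => haB h.2.2), mul_zero]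
      · rw [if_neg hB, if_neg (fun h => hB ⟨h.1, h.2.1⟩)]
    · rw [if_neg ha, neg_zero]
      apply Finset.sum_eq_zero
      intro B _
      rw [if_neg (fun h => ha h.1), mul_zero]
  -- choose the induced characters
  have hex : ∀ B : X, ∃ Φ : G → ℂ, IsGeneralizedCharacter G Φ ∧ VB A L H α B.1 = (Nat.card (NB L B.1) : ℂ) • Φ :=
    fun B => exists_VB hD hα hαA B.2.2 B.2.1
  choose Φ hΦ1 hΦ2 using hex
  haveI : Fintype (MulAction.orbitRel.Quotient L X) := Fintype.ofFinite _
  have horb : ∑ B : X, (-1 : ℂ) ^ B.1.card • VB A L H α B.1 =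
      (Nat.card L : ℂ) • ∑ ω : MulAction.orbitRel.Quotient L X, (-1 : ℂ) ^ (Quotient.out ω : X).1.card • Φ (Quotient.out ω) := by
    rw [← Finset.sum_fiberwise Finset.univ (fun B : X => (Quotient.mk _ B : MulAction.orbitRel.Quotient L X)), Finset.smul_sum]
    apply Finset.sum_congr rfl
    intro ω _
    set B₀ : X := Quotient.out ω with hB₀
    have h1 : ∀ B ∈ Finset.univ.filter (fun B : X => (Quotient.mk _ B : MulAction.orbitRel.Quotient L X) = ω),
        (-1 : ℂ) ^ B.1.card • VB A L H α B.1 = (-1 : ℂ) ^ B₀.1.card • VB A L H α B₀.1 := by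
      intro B hB
      rw [Finset.mem_filter] at hB
      have h2 : (Quotient.mk _ B : MulAction.orbitRel.Quotient L X) = Quotient.mk _ B₀ := by rw [hB.2, hB₀, Quotient.out_eq]
      have h3 : MulAction.orbitRel L X B B₀ := Quotient.exact h2
      rw [MulAction.orbitRel_apply] at h3
      obtain ⟨l, hl⟩ := h3
      have h4 : B.1 = cjF (l : G) B₀.1 := by rw [← hl]; rfl
      rw [h4, card_cjF, VB_cjF hD hαc l.2 B₀.2.2]
    rw [Finset.sum_congr rfl h1, Finset.sum_const]
    have h5 : (Finset.univ.filter (fun B : X => (Quotient.mk _ B : MulAction.orbitRel.Quotient L X) = ω)).card * Nat.card (NB L B₀.1) = Nat.card L := by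
      have e1 : (Finset.univ.filter (fun B : X => (Quotient.mk _ B : MulAction.orbitRel.Quotient L X) = ω)).card = Nat.card (MulAction.orbit L B₀) := by
        rw [← Fintype.card_subtype, ← Nat.card_eq_fintype_card]
        apply Nat.card_congr
        apply Equiv.subtypeEquivRight
        intro B
        rw [← MulAction.orbitRel_apply]
        constructor
        · intro h
          apply Quotient.exact
          rw [h, hB₀, Quotient.out_eq]
        · intro h
          have : (Quotient.mk _ B : MulAction.orbitRel.Quotient L X) = Quotient.mk _ B₀ := Quotient.sound h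
          rw [this, hB₀, Quotient.out_eq]
      have e2 : Nat.card (NB L B₀.1) = Nat.card (MulAction.stabilizer L B₀) := by
        apply Nat.card_congr
        refine ⟨fun x => ⟨⟨x.1, (Subgroup.mem_inf.mp x.2).1⟩, ?_⟩, fun x => ⟨x.1, ?_⟩, ?_, ?_⟩
        · rw [MulAction.mem_stabilizer_iff]
          apply Subtype.ext
          rw [hsmul]
          exact cjF_eq_iff.mpr (Subgroup.mem_inf.mp x.2).2
        · have := x.2
          rw [MulAction.mem_stabilizer_iff] at this
          have h6 : cjF (x.1 : G) B₀.1 = B₀.1 := congrArg Subtype.val this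
          exact Subgroup.mem_inf.mpr ⟨x.1.2, cjF_eq_iff.mp h6⟩
        · intro x; rfl
        · intro x; rfl
      rw [e1, e2]
      have := MulAction.card_orbit_mul_card_stabilizer_eq_card_group L B₀
      simp only [← Nat.card_eq_fintype_card] at this
      exact this
    rw [hΦ2 B₀]
    funext g
    simp only [Pi.smul_apply, smul_eq_mul, nsmul_eq_mul]
    rw [← h5]
    push_cast
    ring
  have hfinal : dadeIsometry A L H α = -∑ ω : MulAction.orbitRel.Quotient L X, (-1 : ℂ) ^ (Quotient.out ω : X).1.card • Φ (Quotient.out ω) := by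
    rw [horb] at htot
    have hL := card_sub_ne_zero L
    have h1 : (Nat.card L : ℂ) • dadeIsometry A L H α = (Nat.card L : ℂ) • (-∑ ω : MulAction.orbitRel.Quotient L X, (-1 : ℂ) ^ (Quotient.out ω : X).1.card • Φ (Quotient.out ω)) := by
      rw [smul_neg, htot, neg_neg]
    exact smul_right_injective _ hL h1
  rw [hfinal]
  apply IsGeneralizedCharacter.neg
  apply IsGeneralizedCharacter.sum
  intro ω _
  have h1 := IsGeneralizedCharacter.zsmul (hΦ1 (Quotient.out ω)) ((-1) ^ (Quotient.out ω : X).1.card)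
  push_cast at h1
  exact h1

end virtual

end CfsgLib.Dade
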