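import Cfsg.Agent.Lib.Quad10

/-!
# Symmetric bilinear forms: Gram determinants, classification over finite fields of odd
characteristic
-/

namespace CfsgLib.Disc

open Module CfsgLib.Quad

set_option linter.unusedSimpArgs false
set_option linter.unusedSectionVars false

variable {F V : Type*} [Field F] [AddCommGroup V] [Module F V]

/-- Gram determinant of a family. -/
def gd {ι : Type*} [Fintype ι] [DecidableEq ι] (B : LinearMap.BilinForm F V) (v : ι → V) : F :=
  (Matrix.of fun i j => B (v i) (v j)).det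

lemma gd_comp_equiv {ι κ : Type*} [Fintype ι] [DecidableEq ι] [Fintype κ] [DecidableEq κ]
    (B : LinearMap.BilinForm F V) (v : ι → V) (e : κ ≃ ι) : gd B (v ∘ e) = gd B v := by
  rw [gd, gd, ← Matrix.det_reindex_self e.symm]
  rfl

/-- Change of basis. -/
lemma gd_change {ι : Type*} [Fintype ι] [DecidableEq ι] (B : LinearMap.BilinForm F V)
    (b : Basis ι F V) (v : ι → V) : gd B v = (b.toMatrix v).det ^ 2 * gd B b := by
  have h : (Matrix.of fun i j => B (v i) (v j)) =
      (b.toMatrix v).transpose * (Matrix.of fun i j => B (b i) (b j)) * b.toMatrix v := by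
    ext i j
    rw [Matrix.mul_apply]
    simp only [Matrix.mul_apply, Matrix.transpose_apply, Matrix.of_apply]
    rw [← b.sum_toMatrix_smul_self v i, ← b.sum_toMatrix_smul_self v j]
    simp only [_root_.map_sum, LinearMap.map_smul, LinearMap.sum_apply, LinearMap.smul_apply,
      smul_eq_mul, Finset.mul_sum, Finset.sum_mul]
    refine Finset.sum_congr rfl fun k _ => Finset.sum_congr rfl fun l _ => ?_
    ring
  rw [gd, h, Matrix.det_mul, Matrix.det_mul, Matrix.det_transpose, gd]
  ring

/-- Gram determinants of two bases differ by a nonzero square. -/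
lemma exists_gd_eq {ι κ : Type*} [Fintype ι] [DecidableEq ι] [Fintype κ] [DecidableEq κ]
    (B : LinearMap.BilinForm F V) (b : Basis ι F V) (c : Basis κ F V) :
    ∃ s : F, s ≠ 0 ∧ gd B c = s ^ 2 * gd B b := by
  let e := b.indexEquiv c
  refine ⟨(b.toMatrix (c ∘ e)).det, ?_, ?_⟩
  · have h : b.toMatrix (c ∘ e) = b.toMatrix (c.reindex e.symm) := by
      congr 1
      funext i
      simp
    rw [h]
    have := b.toMatrix_mul_toMatrix_flip (c.reindex e.symm)
    intro h0
    have h1 := congrArg Matrix.det this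
    rw [Matrix.det_mul, h0, zero_mul, Matrix.det_one] at h1
    exact zero_ne_one h1
  · rw [← gd_change, gd_comp_equiv]

lemma gd_ne_zero {ι : Type*} [Fintype ι] [DecidableEq ι] {B : LinearMap.BilinForm F V}
    (hB : B.Nondegenerate) (b : Basis ι F V) : gd B b ≠ 0 := by
  have h := (LinearMap.BilinForm.nondegenerate_iff_det_ne_zero b).mp hB
  have e : LinearMap.BilinForm.toMatrix b B = Matrix.of fun i j => B (b i) (b j) := by
    ext i j
    rw [LinearMap.BilinForm.toMatrix_apply, Matrix.of_apply]
  rw [e] at h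
  exact h

lemma nondegenerate_of_gd_ne_zero {ι : Type*} [Fintype ι] [DecidableEq ι]
    {B : LinearMap.BilinForm F V} (b : Basis ι F V) (h : gd B b ≠ 0) : B.Nondegenerate := by
  rw [LinearMap.BilinForm.nondegenerate_iff_det_ne_zero b]
  have e : LinearMap.BilinForm.toMatrix b B = Matrix.of fun i j => B (b i) (b j) := by
    ext i j
    rw [LinearMap.BilinForm.toMatrix_apply, Matrix.of_apply]
  rw [e]
  exact h

/-- Determinant of the block swap. -/
lemma det_fromBlocks_swap {n : Type*} [Fintype n] [DecidableEq n] :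
    (Matrix.fromBlocks (0 : Matrix n n F) (1 : Matrix n n F) (1 : Matrix n n F) (0 : Matrix n n F)).det = (-1) ^ Fintype.card n := by
  have h : (Matrix.fromBlocks (0 : Matrix n n F) (1 : Matrix n n F) (1 : Matrix n n F) (0 : Matrix n n F)) =
      Matrix.fromBlocks 1 1 0 1 * Matrix.fromBlocks (-1) 0 1 1 * Matrix.fromBlocks 1 (-1) 0 1 := by
    rw [Matrix.fromBlocks_multiply, Matrix.fromBlocks_multiply]
    simp
  rw [h, Matrix.det_mul, Matrix.det_mul, Matrix.det_fromBlocks_zero₂₁,
    Matrix.det_fromBlocks_zero₂₁, Matrix.det_fromBlocks_zero₁₂, Matrix.det_neg]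
  simp

lemma det_fromBlocks_zero₁₁ {n : Type*} [Fintype n] [DecidableEq n] (A B D : Matrix n n F) :
    (Matrix.fromBlocks 0 A B D).det = (-1) ^ Fintype.card n * (A.det * B.det) := by
  have h : Matrix.fromBlocks 0 A B D = Matrix.fromBlocks A 0 D B * Matrix.fromBlocks 0 1 1 0 := by
    rw [Matrix.fromBlocks_multiply]
    simp
  rw [h, Matrix.det_mul, Matrix.det_fromBlocks_zero₁₂, det_fromBlocks_swap]
  ring

/-- If there is a totally isotropic subspace of half the dimension, the signed discriminant is a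
square. -/
theorem isSquare_of_isotropic [FiniteDimensional F V] {B : LinearMap.BilinForm F V}
    (hS : B.IsSymm) {N : ℕ} (hV : finrank F V = 2 * N) (X : Submodule F V)
    (hX : finrank F X = N) (hiso : ∀ x ∈ X, ∀ y ∈ X, B x y = 0) {ι : Type*} [Fintype ι]
    [DecidableEq ι] (b : Basis ι F V) : IsSquare ((-1) ^ N * gd B b) := by
  obtain ⟨Y, hXY⟩ := X.exists_isCompl
  have hY : finrank F Y = N := by
    have := Submodule.finrank_add_eq_of_isCompl hXY
    omega
  let bX := finBasisOfFinrankEq F X hX
  let bY := finBasisOfFinrankEq F Y hY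
  let c := (bX.prod bY).map (Submodule.prodEquivOfIsCompl X Y hXY)
  have hc1 : ∀ i, c (Sum.inl i) = (bX i : V) := by
    intro i
    simp [c]
  have hc2 : ∀ i, c (Sum.inr i) = (bY i : V) := by
    intro i
    simp [c]
  obtain ⟨s, hs0, hs⟩ := exists_gd_eq B c b
  have hgram : (Matrix.of fun i j => B (c i) (c j)) = Matrix.fromBlocks 0
      (Matrix.of fun i j => B (bX i : V) (bY j : V)) (Matrix.of fun i j => B (bY i : V) (bX j : V))
      (Matrix.of fun i j => B (bY i : V) (bY j : V)) := by
    ext i j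
    rcases i with i | i <;> rcases j with j | j
    · rw [Matrix.fromBlocks_apply₁₁, Matrix.of_apply, hc1, hc1, Matrix.zero_apply]
      exact hiso _ (bX i).2 _ (bX j).2
    · rw [Matrix.fromBlocks_apply₁₂, Matrix.of_apply, Matrix.of_apply, hc1, hc2]
    · rw [Matrix.fromBlocks_apply₂₁, Matrix.of_apply, Matrix.of_apply, hc1, hc2]
    · rw [Matrix.fromBlocks_apply₂₂, Matrix.of_apply, Matrix.of_apply, hc2, hc2]
  have htr : (Matrix.of fun i j => B (bY i : V) (bX j : V)).det =
      (Matrix.of fun i j => B (bX i : V) (bY j : V)).det := by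
    rw [← Matrix.det_transpose]
    congr 1
    ext i j
    exact hS.eq _ _
  have hg : gd B c = (-1) ^ N * ((Matrix.of fun i j => B (bX i : V) (bY j : V)).det *
      (Matrix.of fun i j => B (bX i : V) (bY j : V)).det) := by
    rw [gd, hgram, det_fromBlocks_zero₁₁, Fintype.card_fin, htr]
  refine ⟨s * (Matrix.of fun i j => B (bX i : V) (bY j : V)).det, ?_⟩
  rw [hs, hg]
  have h1 : ((-1 : F) ^ N) * (-1) ^ N = 1 := by
    rw [← mul_pow, neg_one_mul, neg_neg, one_pow]
  linear_combination (s ^ 2 * ((Matrix.of fun i j => B (bX i : V) (bY j : V)).det *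
      (Matrix.of fun i j => B (bX i : V) (bY j : V)).det)) * h1

/-! ### Quadratic form of a symmetric bilinear form -/

/-- `x ↦ B x x`. -/
noncomputable def qf (B : LinearMap.BilinForm F V) : QuadraticForm F V :=
  LinearMap.BilinMap.toQuadraticMap B

lemma qf_apply (B : LinearMap.BilinForm F V) (x : V) : qf B x = B x x := rfl

lemma qf_polar {B : LinearMap.BilinForm F V} (hS : B.IsSymm) (x y : V) :
    QuadraticMap.polarBilin (qf B) x y = 2 * B x y := by
  rw [QuadraticMap.polarBilin_apply_apply, QuadraticMap.polar, qf_apply, qf_apply, qf_apply]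
  simp only [LinearMap.map_add, LinearMap.add_apply]
  have h : B y x = B x y := hS.eq y x
  rw [h]
  ring

lemma qf_nondegenerate (h2 : (2 : F) ≠ 0) {B : LinearMap.BilinForm F V} (hS : B.IsSymm)
    (hB : B.Nondegenerate) : (QuadraticMap.polarBilin (qf B)).Nondegenerate := by
  apply nondegenerate_of_left
  intro x hx
  apply hB.1
  intro y
  have := hx y
  rw [qf_polar hS] at this
  exact (mul_eq_zero.mp this).resolve_left h2

lemma eq_comm' {B : LinearMap.BilinForm F V} (hS : B.IsSymm) (x y : V) : B x y = B y x :=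
  hS.eq x y

/-- A family of the right size with nonzero Gram determinant is a basis. -/
lemma exists_basis_of_gd [FiniteDimensional F V] {ι : Type*} [Fintype ι] [DecidableEq ι]
    (B : LinearMap.BilinForm F V)
    (v : ι → V) (hv : gd B v ≠ 0) (hcard : Fintype.card ι = finrank F V) :
    ∃ b : Basis ι F V, ∀ i, b i = v i := by
  have hli : LinearIndependent F v := by
    rw [Fintype.linearIndependent_iff]
    intro c hc
    have h1 : (Matrix.of fun i j => B (v i) (v j)).mulVec c = 0 := by
      funext i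
      have h2 : B (v i) (∑ j, c j • v j) = 0 := by rw [hc, LinearMap.map_zero]
      rw [_root_.map_sum] at h2
      simp only [LinearMap.map_smul, smul_eq_mul] at h2
      rw [Matrix.mulVec, dotProduct]
      simp only [Matrix.of_apply, Pi.zero_apply]
      rw [← h2]
      exact Finset.sum_congr rfl fun j _ => mul_comm _ _
    have h3 := Matrix.eq_zero_of_mulVec_eq_zero hv h1
    exact fun i => congrFun h3 i
  have hne : Nonempty ι ∨ IsEmpty ι := (isEmpty_or_nonempty ι).symm
  rcases hne with hne | hne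
  · exact ⟨basisOfLinearIndependentOfCardEqFinrank hli hcard, fun i => by simp⟩
  · have h0 : finrank F V = 0 := by rw [← hcard, Fintype.card_eq_zero]
    have : Subsingleton V := finrank_zero_iff.mp h0
    exact ⟨Basis.empty V, fun i => hne.elim i⟩

section Fin

variable [Finite F]

/-- Orthogonal families with prescribed norms. -/
theorem exists_family (h2 : (2 : F) ≠ 0) {α : F} (hα : ¬ IsSquare α) (n : ℕ) :
    ∀ (V : Type _) [AddCommGroup V] [Module F V] [FiniteDimensional F V]
    (B : LinearMap.BilinForm F V), B.IsSymm → B.Nondegenerate → finrank F V = n + 1 →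
    ∃ w : Fin (n + 1) → V, (∀ i j, i ≠ j → B (w i) (w j) = 0) ∧
      (∀ i, i ≠ Fin.last n → B (w i) (w i) = 1) ∧
      (B (w (Fin.last n)) (w (Fin.last n)) = 1 ∨ B (w (Fin.last n)) (w (Fin.last n)) = α) := by
  induction n with
  | zero =>
    intro V _ _ _ B hS hB hV
    have hsub : ∀ i j : Fin (0 + 1), i = j := fun i j => Fin.ext (by omega)
    obtain ⟨v, hv⟩ := exists_ne_zero_of_nondegenerate (qf_nondegenerate h2 hS hB) (by omega)
    rw [qf_apply] at hv
    have hα0 : α ≠ 0 := by rintro rfl; exact hα IsSquare.zero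
    by_cases hsq : IsSquare (B v v)
    · obtain ⟨s, hs⟩ := hsq
      have hs0 : s ≠ 0 := by rintro rfl; rw [mul_zero] at hs; exact hv hs
      refine ⟨fun _ => s⁻¹ • v, fun i j hij => absurd (hsub i j) hij,
        fun i hi => absurd (hsub _ _) hi, Or.inl ?_⟩
      change B (s⁻¹ • v) (s⁻¹ • v) = 1
      simp only [LinearMap.map_smul, LinearMap.smul_apply, smul_eq_mul, hs]
      field_simp
    · obtain ⟨s, hs⟩ := isSquare_mul_of_not hα hsq
      have hs0 : s ≠ 0 := by
        rintro rfl
        rw [mul_zero] at hs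
        exact mul_ne_zero hα0 hv hs
      refine ⟨fun _ => (α / s) • v, fun i j hij => absurd (hsub i j) hij,
        fun i hi => absurd (hsub _ _) hi, Or.inr ?_⟩
      change B ((α / s) • v) ((α / s) • v) = α
      simp only [LinearMap.map_smul, LinearMap.smul_apply, smul_eq_mul]
      field_simp
      linear_combination hs
  | succ n ih =>
    intro V _ _ _ B hS hB hV
    obtain ⟨v, hv⟩ := exists_map_eq (qf_nondegenerate h2 hS hB) (by omega) 1
    rw [qf_apply] at hv
    have hv0 : v ≠ 0 := by
      rintro rfl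
      simp at hv
    have hR := hS.isRefl
    have hW : (B.restrict (B.orthogonal (F ∙ v))).Nondegenerate :=
      LinearMap.BilinForm.restrict_nondegenerate_orthogonal_spanSingleton B hB hR
        (by rw [hv]; exact one_ne_zero)
    have hdim := LinearMap.BilinForm.finrank_orthogonal hB (F ∙ v)
    rw [finrank_span_singleton hv0, hV] at hdim
    obtain ⟨w, hw1, hw2, hw3⟩ := ih (B.orthogonal (F ∙ v)) (B.restrict _)
      ⟨fun x y => hS.eq _ _⟩ hW (by omega)
    have hperp : ∀ i, B v (w i) = 0 := fun i =>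
      LinearMap.BilinForm.mem_orthogonal_iff.mp (w i).2 v (Submodule.mem_span_singleton_self v)
    have hperp' : ∀ i, B (w i) v = 0 := fun i => by rw [← eq_comm' hS, hperp]
    refine ⟨Fin.cons v (fun i => (w i : V)), ?_, ?_, ?_⟩
    · intro i j hij
      rcases Fin.eq_zero_or_eq_succ i with rfl | ⟨i, rfl⟩ <;>
      rcases Fin.eq_zero_or_eq_succ j with rfl | ⟨j, rfl⟩
      · exact absurd rfl hij
      · rw [Fin.cons_zero, Fin.cons_succ]
        exact hperp j
      · rw [Fin.cons_zero, Fin.cons_succ]
        exact hperp' i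
      · rw [Fin.cons_succ, Fin.cons_succ]
        exact hw1 i j (fun h => hij (by rw [h]))
    · intro i hi
      rcases Fin.eq_zero_or_eq_succ i with rfl | ⟨i, rfl⟩
      · rw [Fin.cons_zero]
        exact hv
      · rw [Fin.cons_succ]
        exact hw2 i (fun h => hi (by rw [h, Fin.succ_last]))
    · rw [← Fin.succ_last, Fin.cons_succ]
      exact hw3


/-- Existence of a basis as in `exists_family`. -/
theorem exists_orthogonal_basis [FiniteDimensional F V] (h2 : (2 : F) ≠ 0) {α : F}
    (hα : ¬ IsSquare α) {n : ℕ} {B : LinearMap.BilinForm F V} (hS : B.IsSymm)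
    (hB : B.Nondegenerate) (hn : finrank F V = n + 1) : ∃ b : Basis (Fin (n + 1)) F V,
    (∀ i j, i ≠ j → B (b i) (b j) = 0) ∧ (∀ i, i ≠ Fin.last n → B (b i) (b i) = 1) ∧
      (B (b (Fin.last n)) (b (Fin.last n)) = 1 ∨ B (b (Fin.last n)) (b (Fin.last n)) = α) := by
  obtain ⟨w, hw1, hw2, hw3⟩ := exists_family h2 hα n V B hS hB hn
  have hα0 : α ≠ 0 := by rintro rfl; exact hα IsSquare.zero
  have hg : gd B w = B (w (Fin.last n)) (w (Fin.last n)) := by
    have h1 : (Matrix.of fun i j => B (w i) (w j)) = Matrix.diagonal fun i => B (w i) (w i) := by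
      ext i j
      rw [Matrix.of_apply, Matrix.diagonal_apply]
      split_ifs with h
      · rw [h]
      · exact hw1 i j h
    rw [gd, h1, Matrix.det_diagonal, Fin.prod_univ_castSucc, Finset.prod_eq_one, one_mul]
    intro i _
    exact hw2 _ (Fin.castSucc_lt_last i).ne
  obtain ⟨b, hb⟩ := exists_basis_of_gd B w (by
    rw [hg]
    rcases hw3 with h | h
    · rw [h]; exact one_ne_zero
    · rw [h]; exact hα0) (by rw [Fintype.card_fin, hn])
  refine ⟨b, fun i j hij => ?_, fun i hi => ?_, ?_⟩
  · rw [hb, hb]; exact hw1 i j hij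
  · rw [hb]; exact hw2 i hi
  · rw [hb]; exact hw3

omit [Finite F] in
lemma gd_of_orthogonal {n : ℕ} {B : LinearMap.BilinForm F V} (w : Fin (n + 1) → V)
    (hw1 : ∀ i j, i ≠ j → B (w i) (w j) = 0) (hw2 : ∀ i, i ≠ Fin.last n → B (w i) (w i) = 1) :
    gd B w = B (w (Fin.last n)) (w (Fin.last n)) := by
  have h1 : (Matrix.of fun i j => B (w i) (w j)) = Matrix.diagonal fun i => B (w i) (w i) := by
    ext i j
    rw [Matrix.of_apply, Matrix.diagonal_apply]
    split_ifs with h
    · rw [h]
    · exact hw1 i j h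
  rw [gd, h1, Matrix.det_diagonal, Fin.prod_univ_castSucc, Finset.prod_eq_one, one_mul]
  intro i _
  exact hw2 _ (Fin.castSucc_lt_last i).ne

omit [Finite F] in
lemma isSquare_of_sq_mul {k x : F} (hk : k ≠ 0) (h : IsSquare (k ^ 2 * x)) : IsSquare x := by
  obtain ⟨r, hr⟩ := h
  refine ⟨r / k, ?_⟩
  field_simp
  linear_combination hr

omit [Finite F] in
lemma gd_hyp_sum {ι : Type*} [Fintype ι] [DecidableEq ι] {B : LinearMap.BilinForm F V}
    (hS : B.IsSymm) (e f : V) (w : ι → V) (he : B e e = 0) (hf : B f f = 0)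
    (hew : ∀ i, B e (w i) = 0) (hfw : ∀ i, B f (w i) = 0) :
    gd B (Sum.elim ![e, f] w) = -(B e f) ^ 2 * gd B w := by
  have hwe : ∀ i, B (w i) e = 0 := fun i => by rw [eq_comm' hS, hew]
  have hwf : ∀ i, B (w i) f = 0 := fun i => by rw [eq_comm' hS, hfw]
  have hfe : B f e = B e f := eq_comm' hS f e
  have h1 : (Matrix.of fun i j => B (Sum.elim ![e, f] w i) (Sum.elim ![e, f] w j)) =
      Matrix.fromBlocks !![0, B e f; B e f, 0] 0 0 (Matrix.of fun i j => B (w i) (w j)) := by
    ext i j
    rcases i with i | i <;> rcases j with j | j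
    · rw [Matrix.fromBlocks_apply₁₁, Matrix.of_apply]
      fin_cases i <;> fin_cases j <;> simp [he, hf, hfe]
    · rw [Matrix.fromBlocks_apply₁₂, Matrix.of_apply]
      fin_cases i <;> simp [hew, hfw]
    · rw [Matrix.fromBlocks_apply₂₁, Matrix.of_apply]
      fin_cases j <;> simp [hwe, hwf]
    · rw [Matrix.fromBlocks_apply₂₂, Matrix.of_apply]
      simp
  rw [gd, h1, Matrix.det_fromBlocks_zero₂₁, Matrix.det_fin_two_of, gd]
  ring

omit [Finite F] in
lemma isotropic_of_qf (h2 : (2 : F) ≠ 0) {B : LinearMap.BilinForm F V} (hS : B.IsSymm)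
    {X : Submodule F V} (hX : ∀ x ∈ X, B x x = 0) : ∀ x ∈ X, ∀ y ∈ X, B x y = 0 := by
  intro x hx y hy
  have h1 := hX (x + y) (X.add_mem hx hy)
  rw [LinearMap.map_add, LinearMap.map_add, LinearMap.add_apply,
    LinearMap.add_apply, hX x hx, hX y hy,
    eq_comm' hS y x, zero_add, add_zero, ← two_mul] at h1
  exact (mul_eq_zero.mp h1).resolve_left h2

/-- If the signed discriminant is a square, there is a totally isotropic subspace of half the
dimension. -/
theorem exists_isotropic_half_aux (h2 : (2 : F) ≠ 0) (N : ℕ) :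
    ∀ (V : Type _) [AddCommGroup V] [Module F V] [FiniteDimensional F V]
    (B : LinearMap.BilinForm F V), B.IsSymm → B.Nondegenerate → finrank F V = 2 * N →
    ∀ b : Basis (Fin (2 * N)) F V, IsSquare ((-1) ^ N * gd B b) →
    ∃ X : Submodule F V, finrank F X = N ∧ ∀ x ∈ X, B x x = 0 := by
  induction N with
  | zero =>
    intro V _ _ _ B hS hB hV b _
    exact ⟨⊥, finrank_bot F V, fun x hx => by rw [Submodule.mem_bot] at hx; rw [hx]; simp⟩
  | succ N ih =>
    intro V _ _ _ B hS hB hV b hsq
    have hQ := qf_nondegenerate h2 hS hB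
    -- an isotropic vector
    have hsing : ∃ e : V, e ≠ 0 ∧ qf B e = 0 := by
      rcases Nat.eq_zero_or_pos N with rfl | hN
      · obtain ⟨α, hα⟩ := exists_nonsquare h2
        obtain ⟨w, hw1, hw2, -⟩ := exists_orthogonal_basis h2 hα (n := 1) hS hB (by omega)
        obtain ⟨s, hs0, hs⟩ := exists_gd_eq B b w
        rw [gd_of_orthogonal w hw1 hw2] at hs
        obtain ⟨t, ht⟩ := hsq
        have h01 : (0 : Fin 2) ≠ 1 := by decide
        have hw00 : B (w 0) (w 0) = 1 := hw2 0 h01
        have hw01 : B (w 0) (w 1) = 0 := hw1 0 1 h01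
        have hw10 : B (w 1) (w 0) = 0 := hw1 1 0 h01.symm
        have hw11 : B (w 1) (w 1) = s ^ 2 * gd B b := hs
        refine ⟨(s * t) • w 0 + w 1, ?_, ?_⟩
        · intro h0
          have h1 := congrArg (fun x => w.repr x 1) h0
          simp at h1
        · rw [qf_apply]
          simp only [LinearMap.map_add, LinearMap.map_smul, LinearMap.add_apply,
            LinearMap.smul_apply, smul_eq_mul, hw00, hw01, hw10, hw11]
          linear_combination (- s ^ 2) * ht
      · exact exists_singular hQ (by omega)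
    obtain ⟨e, he0, he⟩ := hsing
    obtain ⟨f, hf, hef⟩ := exists_partner hQ he0 he
    have hWn := resQ_hperp_nondegenerate hQ he hf hef
    have hWd := finrank_hperp hQ he hf hef
    have hef' : 2 * B e f = 1 := by rw [← qf_polar hS]; exact hef
    have hef0 : B e f ≠ 0 := fun h => by rw [h, mul_zero] at hef'; exact zero_ne_one hef'
    set W := hperp (qf B) e f with hW
    have hWe : ∀ w ∈ W, B e w = 0 := by
      intro w hw
      have h1 := (mem_hperp.mp hw).1
      rw [qf_polar hS] at h1
      exact (mul_eq_zero.mp h1).resolve_left h2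
    have hWf : ∀ w ∈ W, B f w = 0 := by
      intro w hw
      have h1 := (mem_hperp.mp hw).2
      rw [qf_polar hS] at h1
      exact (mul_eq_zero.mp h1).resolve_left h2
    have hSW : (B.restrict W).IsSymm := ⟨fun x y => hS.eq _ _⟩
    have hBW : (B.restrict W).Nondegenerate := by
      have key : ∀ x : W, (∀ y : W, B.restrict W x y = 0) → x = 0 := by
        intro x hx
        apply hWn.1
        intro y
        rw [resQ_polar, qf_polar hS]
        have h1 : B (x : V) (y : V) = 0 := hx y
        rw [h1, mul_zero]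
      exact ⟨key, fun x hx => key x fun y => by rw [← eq_comm' hSW]; exact hx y⟩
    have hWd' : finrank F W = 2 * N := by omega
    let bW := finBasisOfFinrankEq F W hWd'
    have hgW : gd (B.restrict W) bW = gd B (fun i => (bW i : V)) := rfl
    have hg1 := gd_hyp_sum hS e f (fun i => (bW i : V)) he hf (fun i => hWe _ (bW i).2)
      (fun i => hWf _ (bW i).2)
    have hg2 : gd B (Sum.elim ![e, f] (fun i => (bW i : V))) ≠ 0 := by
      rw [hg1, ← hgW]
      exact mul_ne_zero (neg_ne_zero.mpr (pow_ne_zero 2 hef0)) (gd_ne_zero hBW bW)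
    obtain ⟨c, hc⟩ := exists_basis_of_gd B _ hg2 (by simp [hV]; ring)
    have hc' : gd B c = -(B e f) ^ 2 * gd (B.restrict W) bW := by
      rw [hgW, ← hg1]
      congr 1
      funext i
      exact hc i
    obtain ⟨s, hs0, hs⟩ := exists_gd_eq B c b
    obtain ⟨X, hX1, hX2⟩ := ih W (B.restrict W) hSW hBW hWd' bW (by
      apply isSquare_of_sq_mul (mul_ne_zero hs0 hef0)
      have e1 : (s * B e f) ^ 2 * ((-1) ^ N * gd (B.restrict W) bW) =
          (-1) ^ (N + 1) * gd B b := by
        rw [hs, hc']; ring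
      rw [e1]
      exact hsq)
    set X' := X.map W.subtype with hX'
    have hX'd : finrank F X' = N := by
      rw [← hX1]
      exact (LinearEquiv.finrank_eq (Submodule.equivMapOfInjective W.subtype
        W.injective_subtype X)).symm
    refine ⟨(F ∙ e) ⊔ X', ?_, ?_⟩
    · have hdis : Disjoint (F ∙ e) X' := by
        rw [Submodule.disjoint_def]
        intro x hx hxX
        obtain ⟨a, rfl⟩ := Submodule.mem_span_singleton.mp hx
        obtain ⟨y, hy, hye⟩ := hxX
        have h1 := hWf y.1 y.2
        have h2 : (y : V) = a • e := hye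
        rw [h2, LinearMap.map_smul, smul_eq_mul, eq_comm' hS] at h1
        rw [(mul_eq_zero.mp h1).resolve_right hef0, zero_smul]
      have h1 := Submodule.finrank_sup_add_finrank_inf_eq (F ∙ e) X'
      rw [disjoint_iff.mp hdis, finrank_bot, hX'd, finrank_span_singleton he0] at h1
      omega
    · intro x hx
      obtain ⟨y, hy, z, hz, rfl⟩ := Submodule.mem_sup.mp hx
      obtain ⟨a, rfl⟩ := Submodule.mem_span_singleton.mp hy
      obtain ⟨z, hzX, rfl⟩ := hz
      have h1 : B (z : V) (z : V) = 0 := hX2 z hzX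
      have h3 := hWe z.1 z.2
      have h4 : B (z : V) e = 0 := by rw [eq_comm' hS]; exact h3
      have h5 : B e e = 0 := he
      change B (a • e + (z : V)) (a • e + (z : V)) = 0
      simp only [LinearMap.map_add, LinearMap.map_smul, LinearMap.add_apply,
        LinearMap.smul_apply, smul_eq_mul, h1, h3, h4, h5, mul_zero, add_zero]

theorem exists_isotropic_half [FiniteDimensional F V] (h2 : (2 : F) ≠ 0) {N : ℕ}
    {B : LinearMap.BilinForm F V} (hS : B.IsSymm) (hB : B.Nondegenerate)
    (hV : finrank F V = 2 * N) {ι : Type*} [Fintype ι] [DecidableEq ι] (b : Basis ι F V)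
    (hb : IsSquare ((-1) ^ N * gd B b)) :
    ∃ X : Submodule F V, finrank F X = N ∧ ∀ x ∈ X, ∀ y ∈ X, B x y = 0 := by
  let c := finBasisOfFinrankEq F V hV
  obtain ⟨s, hs0, hs⟩ := exists_gd_eq B b c
  obtain ⟨X, hX, hX'⟩ := exists_isotropic_half_aux h2 N V B hS hB hV c (by
    rw [hs]
    obtain ⟨t, ht⟩ := hb
    refine ⟨s * t, ?_⟩
    linear_combination s ^ 2 * ht)
  exact ⟨X, hX, isotropic_of_qf h2 hS hX'⟩

/-- Symmetric forms with equal discriminants are isometric. -/
theorem exists_isometry_of_gd {V' : Type*} [AddCommGroup V'] [Module F V']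
    [FiniteDimensional F V] [FiniteDimensional F V'] (h2 : (2 : F) ≠ 0) {n : ℕ}
    {B : LinearMap.BilinForm F V} {B' : LinearMap.BilinForm F V'} (hS : B.IsSymm)
    (hS' : B'.IsSymm) (hB : B.Nondegenerate) (hB' : B'.Nondegenerate)
    (hV : finrank F V = n + 1) (hV' : finrank F V' = n + 1) {ι κ : Type*} [Fintype ι]
    [DecidableEq ι] [Fintype κ] [DecidableEq κ] (b : Basis ι F V) (b' : Basis κ F V')
    (h : IsSquare (gd B b * gd B' b')) :
    ∃ e : V ≃ₗ[F] V', ∀ x y, B' (e x) (e y) = B x y := by
  obtain ⟨α, hα⟩ := exists_nonsquare h2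
  obtain ⟨w, hw1, hw2, hw3⟩ := exists_orthogonal_basis h2 hα hS hB hV
  obtain ⟨w', hw1', hw2', hw3'⟩ := exists_orthogonal_basis h2 hα hS' hB' hV'
  obtain ⟨s, hs0, hs⟩ := exists_gd_eq B b w
  obtain ⟨s', hs0', hs'⟩ := exists_gd_eq B' b' w'
  rw [gd_of_orthogonal w hw1 hw2] at hs
  rw [gd_of_orthogonal w' hw1' hw2'] at hs'
  have hlast : B' (w' (Fin.last n)) (w' (Fin.last n)) = B (w (Fin.last n)) (w (Fin.last n)) := by
    obtain ⟨t, ht⟩ := h
    have hsq : IsSquare (B (w (Fin.last n)) (w (Fin.last n)) *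
        B' (w' (Fin.last n)) (w' (Fin.last n))) := by
      rw [hs, hs']
      exact ⟨s * s' * t, by linear_combination s ^ 2 * s' ^ 2 * ht⟩
    rcases hw3 with h3 | h3 <;> rcases hw3' with h3' | h3' <;> rw [h3, h3'] at hsq ⊢
    · rw [one_mul] at hsq; exact absurd hsq hα
    · rw [mul_one] at hsq; exact absurd hsq hα
  refine ⟨w.equiv w' (Equiv.refl _), ?_⟩
  have key : (B'.compl₁₂ (w.equiv w' (Equiv.refl _) : V →ₗ[F] V')
      (w.equiv w' (Equiv.refl _) : V →ₗ[F] V')) = B := by
    apply LinearMap.BilinForm.ext_basis w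
    intro i j
    rw [LinearMap.compl₁₂_apply]
    simp only [LinearEquiv.coe_coe, Basis.equiv_apply, Equiv.refl_apply]
    by_cases hij : i = j
    · subst hij
      by_cases hi : i = Fin.last n
      · rw [hi]; exact hlast
      · rw [hw2 i hi, hw2' i hi]
    · rw [hw1 i j hij, hw1' i j hij]
  intro x y
  exact LinearMap.congr_fun (LinearMap.congr_fun key x) y

end Fin

/-! ### Gram determinants of tensor products -/

section Tensor

open scoped TensorProduct

variable {W : Type*} [AddCommGroup W] [Module F W]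

lemma tmul_apply (B₁ : LinearMap.BilinForm F V) (B₂ : LinearMap.BilinForm F W) (a c : V)
    (b d : W) : (B₁.tmul B₂) (a ⊗ₜ[F] b) (c ⊗ₜ[F] d) = B₁ a c * B₂ b d := by
  rw [LinearMap.BilinForm.tensorDistrib_tmul, smul_eq_mul, mul_comm]

lemma gd_tmul {ι κ : Type*} [Fintype ι] [DecidableEq ι] [Fintype κ] [DecidableEq κ]
    (B₁ : LinearMap.BilinForm F V) (B₂ : LinearMap.BilinForm F W) (b : Basis ι F V)
    (c : Basis κ F W) : gd (B₁.tmul B₂) (b.tensorProduct c) =
      gd B₁ b ^ Fintype.card κ * gd B₂ c ^ Fintype.card ι := by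
  have h : (Matrix.of fun i j => (B₁.tmul B₂) (b.tensorProduct c i) (b.tensorProduct c j)) =
      Matrix.kroneckerMap (· * ·) (Matrix.of fun i j => B₁ (b i) (b j))
        (Matrix.of fun i j => B₂ (c i) (c j)) := by
    ext ⟨i, k⟩ ⟨j, l⟩
    rw [Matrix.of_apply, Basis.tensorProduct_apply, Basis.tensorProduct_apply,
      tmul_apply, Matrix.kroneckerMap_apply, Matrix.of_apply,
      Matrix.of_apply]
  rw [gd, h, Matrix.det_kronecker]
  rfl

lemma tmul_nondegenerate [FiniteDimensional F V] [FiniteDimensional F W]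
    {B₁ : LinearMap.BilinForm F V} {B₂ : LinearMap.BilinForm F W} (h₁ : B₁.Nondegenerate)
    (h₂ : B₂.Nondegenerate) : (B₁.tmul B₂).Nondegenerate := by
  apply nondegenerate_of_gd_ne_zero ((finBasis F V).tensorProduct (finBasis F W))
  rw [gd_tmul]
  exact mul_ne_zero (pow_ne_zero _ (gd_ne_zero h₁ _)) (pow_ne_zero _ (gd_ne_zero h₂ _))

lemma tmul_symm {B₁ : LinearMap.BilinForm F V} {B₂ : LinearMap.BilinForm F W} (ε : F)
    (hε : ε * ε = 1) (h₁ : ∀ x y, B₁ x y = ε * B₁ y x) (h₂ : ∀ x y, B₂ x y = ε * B₂ y x) :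
    (B₁.tmul B₂).IsSymm := by
  constructor
  intro x y
  change (B₁.tmul B₂) x y = (B₁.tmul B₂) y x
  induction x using TensorProduct.induction_on with
  | zero => simp
  | add x x' hx hx' => rw [LinearMap.map_add, LinearMap.add_apply, LinearMap.map_add, hx, hx']
  | tmul a b =>
    induction y using TensorProduct.induction_on with
    | zero => simp
    | add y y' hy hy' => rw [LinearMap.map_add, LinearMap.map_add, LinearMap.add_apply, hy, hy']
    | tmul c d =>
      rw [tmul_apply, tmul_apply, h₁ a c, h₂ b d]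
      linear_combination (B₁ c a * B₂ d b) * hε

end Tensor

end CfsgLib.Disc
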