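import Mathlib
import Cfsg.Prelude.Def_Transfer

/-!
# Central automorphisms of extraspecial 2-groups are inner
-/

set_option autoImplicit false
set_option linter.all false
open scoped commutatorElement

namespace CfsgLib.EspAut

open Subgroup

theorem s5395 {E : Type*} [Group E] [Finite E] (hE : Cfsg.IsExtraspecial 2 E) (φ : E ≃* E) (hφ : ∀ x : E, φ x * x⁻¹ ∈ Subgroup.center E) :
    ∃ g : E, ∀ x : E, φ x = g * x * g⁻¹ := by
  classical
  have hcomm : commutator E = center E := hE.1.2.2
  have hcard : Nat.card (center E) = 2 := hE.2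
  have hk : ∀ x y : E, x * y * x⁻¹ * y⁻¹ ∈ center E := by
    intro x y
    rw [← hcomm]
    exact Subgroup.commutator_mem_commutator (mem_top x) (mem_top y)
  have hcen : ∀ z ∈ center E, ∀ x : E, x * z = z * x := fun z hz x => mem_center_iff.1 hz x
  -- the injective character of the centre
  have hZ : ∃ ψ : center E →* ℂˣ, Function.Injective ψ := by
    obtain ⟨c, hc⟩ : ∃ c : center E, c ≠ 1 := by
      haveI : Nontrivial (center E) := by
        rw [← Finite.one_lt_card_iff_nontrivial, hcard]; norm_num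
      exact exists_ne 1
    have htwo : ∀ z : center E, z = 1 ∨ z = c := by
      intro z
      by_contra hcon
      push Not at hcon
      have h1 : ({1, c, z} : Set (center E)).ncard = 3 := by
        rw [Set.ncard_eq_three]
        exact ⟨_, _, _, hc.symm, hcon.1.symm, hcon.2.symm, rfl⟩
      have h2 := Set.ncard_le_card ({1, c, z} : Set (center E))
      rw [h1, hcard] at h2
      omega
    have hcc : c * c = 1 := by
      rcases htwo (c * c) with h | h
      · exact h
      · exact absurd (mul_eq_left.1 h) hc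
    refine ⟨{ toFun := fun z => if z = 1 then 1 else -1, map_one' := by simp, map_mul' := ?_ }, ?_⟩
    · intro x y
      rcases htwo x with rfl | rfl <;> rcases htwo y with rfl | rfl <;> simp [hc, hcc]
    · intro x y hxy
      have hne : (1 : ℂˣ) ≠ -1 := by
        intro h
        have := congrArg Units.val h
        norm_num at this
      rcases htwo x with rfl | rfl <;> rcases htwo y with rfl | rfl
      · rfl
      · exfalso
        simp [hc] at hxy
      · exfalso
        simp [hc] at hxy
      · rfl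
  obtain ⟨ψ, hψ⟩ := hZ
  letI cg : CommGroup (E ⧸ center E) :=
    { (inferInstance : Group (E ⧸ center E)) with
      mul_comm := by
        intro a b
        obtain ⟨x, rfl⟩ := QuotientGroup.mk_surjective a
        obtain ⟨y, rfl⟩ := QuotientGroup.mk_surjective b
        rw [← QuotientGroup.mk_mul, ← QuotientGroup.mk_mul, QuotientGroup.eq]
        have h1 := hk y⁻¹ x⁻¹
        have e : (x * y)⁻¹ * (y * x) = y⁻¹ * x⁻¹ * y⁻¹⁻¹ * x⁻¹⁻¹ := by group
        rw [e]; exact h1 }
  have hle : Nat.card (E →* center E) ≤ Nat.card (E ⧸ center E) := by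
    have h1 : Nat.card ((E ⧸ center E) →* ℂˣ) = Nat.card (E ⧸ center E) :=
      CommGroup.card_monoidHom_of_hasEnoughRootsOfUnity (E ⧸ center E) ℂ
    rw [← h1]
    haveI : Finite ((E ⧸ center E) →* ℂˣ) := Nat.finite_of_card_ne_zero (by rw [h1]; exact Nat.card_pos.ne')
    have hkill : ∀ χ : E →* center E, ∀ x ∈ center E, (ψ.comp χ) x = 1 := by
      intro χ x hx
      rw [← hcomm] at hx
      exact Abelianization.commutator_subset_ker (ψ.comp χ) hx
    refine Nat.card_le_card_of_injective (fun χ : E →* center E => QuotientGroup.lift (center E) (ψ.comp χ) (hkill χ)) ?_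
    intro χ χ' h
    ext1 x
    have h2 := congrArg (fun F : (E ⧸ center E) →* ℂˣ => F (QuotientGroup.mk x)) h
    exact hψ h2
  have hkc : ∀ g x y : E, g * (x * y) * g⁻¹ * (x * y)⁻¹ = (g * x * g⁻¹ * x⁻¹) * (g * y * g⁻¹ * y⁻¹) := by
    intro g x y
    have h1 := hcen _ (hk g y) x
    calc g * (x * y) * g⁻¹ * (x * y)⁻¹ = (g * x * g⁻¹ * x⁻¹) * (x * (g * y * g⁻¹ * y⁻¹)) * x⁻¹ := by group
      _ = (g * x * g⁻¹ * x⁻¹) * ((g * y * g⁻¹ * y⁻¹) * x) * x⁻¹ := by rw [h1]
      _ = _ := by group
  let θ : E → (E →* center E) := fun g =>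
    { toFun := fun x => ⟨g * x * g⁻¹ * x⁻¹, hk g x⟩
      map_one' := by apply Subtype.ext; show g * 1 * g⁻¹ * 1⁻¹ = 1; group
      map_mul' := by intro x y; apply Subtype.ext; exact hkc g x y }
  have hθ : Function.Injective (fun q : E ⧸ center E => θ q.out) := by
    intro q r h
    have h1 : ∀ x : E, q.out * x * q.out⁻¹ * x⁻¹ = r.out * x * r.out⁻¹ * x⁻¹ := fun x =>
      congrArg Subtype.val (congrArg (fun F : E →* center E => F x) h)
    rw [← QuotientGroup.out_eq' q, ← QuotientGroup.out_eq' r, QuotientGroup.eq, mem_center_iff]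
    intro x
    have h2 := h1 x
    have h3 : q.out * x * q.out⁻¹ = r.out * x * r.out⁻¹ := mul_right_cancel h2
    calc x * (q.out⁻¹ * r.out) = q.out⁻¹ * (q.out * x * q.out⁻¹) * r.out := by group
      _ = q.out⁻¹ * (r.out * x * r.out⁻¹) * r.out := by rw [h3]
      _ = q.out⁻¹ * r.out * x := by group
  haveI : Finite (E →* center E) := Finite.of_injective (fun χ : E →* center E => (χ : E → center E)) DFunLike.coe_injective
  have hbij := hθ.bijective_of_nat_card_le hle
  have hφk : ∀ x y : E, φ (x * y) * (x * y)⁻¹ = (φ x * x⁻¹) * (φ y * y⁻¹) := by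
    intro x y
    have h1 := hcen _ (hφ y) x
    calc φ (x * y) * (x * y)⁻¹ = φ x * x⁻¹ * (x * (φ y * y⁻¹)) * x⁻¹ := by rw [map_mul]; group
      _ = φ x * x⁻¹ * ((φ y * y⁻¹) * x) * x⁻¹ := by rw [h1]
      _ = _ := by group
  let χ : E →* center E :=
    { toFun := fun x => ⟨φ x * x⁻¹, hφ x⟩
      map_one' := by apply Subtype.ext; show φ 1 * 1⁻¹ = 1; rw [map_one]; group
      map_mul' := by intro x y; apply Subtype.ext; exact hφk x y }
  obtain ⟨q, hq⟩ := hbij.2 χ
  refine ⟨q.out, fun x => ?_⟩
  have h1 : q.out * x * q.out⁻¹ * x⁻¹ = φ x * x⁻¹ := congrArg Subtype.val (congrArg (fun F : E →* center E => F x) hq)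
  exact (mul_right_cancel h1).symm

end CfsgLib.EspAut
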