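import Cfsg.Agent.Lib.PGrp
import Cfsg.Prelude.Def_KGroupFacts

/-!
# The automorphism group of an extraspecial 2-group of width at least 3 does not split over `Inn`
-/

set_option autoImplicit false

namespace CfsgLib.EspSplit
open Cfsg

section
variable {Q : Type*} [Group Q]

/-- the data: `z` central involution, squares and commutators in `{1, z}` -/
structure Dat (z : Q) : Prop where
  zz : z * z = 1
  z1 : z ≠ 1
  cen : ∀ x : Q, x * z = z * x
  mem : ∀ x : Q, x ∈ Subgroup.center Q → x = 1 ∨ x = z
  sq : ∀ x : Q, x * x = 1 ∨ x * x = z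
  com : ∀ x y : Q, x * y = y * x ∨ x * y = z * (y * x)

open Classical in
/-- the transvection map -/
noncomputable def T (u : Q) (x : Q) : Q := if x * u = u * x then x else x * u

variable {z : Q} (D : Dat z)

include D

theorem Dat.flip {x y : Q} (h : x * y = z * (y * x)) : y * x = z * (x * y) := by
  rw [h, ← mul_assoc, D.zz, one_mul]

theorem Dat.zc (x y : Q) : x * (z * y) = z * (x * y) := by
  rw [← mul_assoc, D.cen, mul_assoc]

theorem Dat.not_both {x y : Q} (h : x * y = y * x) (h' : x * y = z * (y * x)) : False := by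
  rw [h] at h'
  exact D.z1 (mul_eq_right.1 h'.symm)

theorem T_mul {u : Q} (hu : u * u = z) (x y : Q) : T u (x * y) = T u x * T u y := by
  unfold T
  rcases D.com x u with hx | hx <;> rcases D.com y u with hy | hy
  · have hxy : x * y * u = u * (x * y) := by rw [mul_assoc, hy, ← mul_assoc, hx, mul_assoc]
    rw [if_pos hx, if_pos hy, if_pos hxy]
  · have hy' : ¬ y * u = u * y := fun h => D.not_both h hy
    have hxy : ¬ x * y * u = u * (x * y) := by
      intro h
      rw [mul_assoc, hy, D.zc, ← mul_assoc x, hx, ← mul_assoc] at h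
      rw [← mul_assoc u x y, ← mul_assoc z] at h
      have : z = 1 := by
        have h2 : z * (u * x * y) = u * x * y := by rw [← mul_assoc, ← mul_assoc]; simpa [mul_assoc] using h
        exact mul_eq_right.1 h2
      exact D.z1 this
    rw [if_pos hx, if_neg hy', if_neg hxy, mul_assoc]
  · have hx' : ¬ x * u = u * x := fun h => D.not_both h hx
    have hxy : ¬ x * y * u = u * (x * y) := by
      intro h
      rw [mul_assoc, hy, ← mul_assoc x, hx] at h
      have : z = 1 := by
        have h2 : z * (u * x * y) = u * x * y := by simpa [mul_assoc] using h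
        exact mul_eq_right.1 h2
      exact D.z1 this
    rw [if_neg hx', if_pos hy, if_neg hxy, mul_assoc, hy, mul_assoc]
  · have hx' : ¬ x * u = u * x := fun h => D.not_both h hx
    have hy' : ¬ y * u = u * y := fun h => D.not_both h hy
    have hxy : x * y * u = u * (x * y) := by
      rw [mul_assoc, hy, D.zc, ← mul_assoc x, hx]
      rw [mul_assoc z, ← mul_assoc z, D.zz, one_mul, mul_assoc]
    rw [if_neg hx', if_neg hy', if_pos hxy]
    have h3 : x * u * (y * u) = x * (u * y) * u := by group
    rw [h3, D.flip hy]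
    have h4 : x * (z * (y * u)) * u = z * (x * y * (u * u)) := by
      rw [D.zc]; group
    rw [h4, hu, D.cen, ← mul_assoc, D.zz, one_mul]

theorem T_T {u : Q} (hu : u * u = z) (x : Q) : T u (T u x) = u * x * u⁻¹ := by
  unfold T
  rcases D.com x u with hx | hx
  · rw [if_pos hx, if_pos hx, ← hx, mul_inv_cancel_right]
  · have hx' : ¬ x * u = u * x := fun h => D.not_both h hx
    have hx2 : ¬ x * u * u = u * (x * u) := by
      intro h
      apply hx'
      have : x * u * u = u * x * u := by rw [h, mul_assoc]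
      exact mul_right_cancel this
    rw [if_neg hx', if_neg hx2, D.flip hx]
    have h1 : z * (x * u) * u⁻¹ = z * x := by group
    rw [h1, mul_assoc, hu, D.cen]

/-- `T u` as an automorphism -/
noncomputable def TA [Finite Q] {u : Q} (hu : u * u = z) : MulAut Q :=
  MulEquiv.ofBijective (MonoidHom.mk' (T u) (T_mul D hu)) (by
    rw [← Finite.injective_iff_bijective]
    intro a b hab
    have h1 : T u (T u a) = T u (T u b) := congrArg (T u) hab
    rw [T_T D hu, T_T D hu] at h1
    exact mul_left_cancel (mul_right_cancel h1))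

theorem TA_apply [Finite Q] {u : Q} (hu : u * u = z) (x : Q) : TA D hu x = T u x := rfl

theorem T_comm {u v : Q} (huv : u * v = v * u) (x : Q) : T u (T v x) = T v (T u x) := by
  unfold T
  rcases D.com x u with hx | hx <;> rcases D.com x v with hy | hy
  · rw [if_pos hy, if_pos hx, if_pos hy]
  · have hy' : ¬ x * v = v * x := fun h => D.not_both h hy
    rw [if_neg hy', if_pos hx, if_neg hy', if_pos]
    rw [mul_assoc, ← huv, ← mul_assoc, hx, mul_assoc]
  · have hx' : ¬ x * u = u * x := fun h => D.not_both h hx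
    rw [if_pos hy, if_neg hx', if_pos]
    rw [mul_assoc, huv, ← mul_assoc, hy, mul_assoc]
  · have hx' : ¬ x * u = u * x := fun h => D.not_both h hx
    have hy' : ¬ x * v = v * x := fun h => D.not_both h hy
    rw [if_neg hy', if_neg hx', if_neg, if_neg, mul_assoc, mul_assoc, huv]
    · intro h
      apply hy'
      have : x * v * u = v * x * u := by rw [mul_assoc, ← huv, ← mul_assoc, h, mul_assoc]
      exact mul_right_cancel this
    · intro h
      apply hx'
      have : x * u * v = u * x * v := by rw [mul_assoc, huv, ← mul_assoc, h, mul_assoc]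
      exact mul_right_cancel this


/-- the homomorphism `x ↦ [x, u]` to `{1, z}`, coded in `Bool`-like fashion: the centralizer has index at most two -/
theorem card_centralizer_le [Finite Q] (H : Subgroup Q) (u : Q) :
    Nat.card H ≤ 2 * Nat.card (H ⊓ Subgroup.centralizer ({u} : Set Q) : Subgroup Q) := by
  classical
  by_cases hex : ∃ h ∈ H, ¬ h * u = u * h
  · obtain ⟨h0, hh0, hne⟩ := hex
    have hne' : h0 * u = z * (u * h0) := (D.com h0 u).resolve_left hne
    -- injection H → Bool × (H ⊓ C)
    have key : ∀ h ∈ H, (if h * u = u * h then h else h0 * h) ∈ H ⊓ Subgroup.centralizer ({u} : Set Q) := by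
      intro h hh
      split_ifs with hc
      · exact ⟨hh, Subgroup.mem_centralizer_singleton_iff.2 hc⟩
      · refine ⟨H.mul_mem hh0 hh, Subgroup.mem_centralizer_singleton_iff.2 ?_⟩
        have hc' : h * u = z * (u * h) := (D.com h u).resolve_left hc
        rw [mul_assoc, hc', D.zc, ← mul_assoc h0, hne']
        rw [mul_assoc z, ← mul_assoc z, D.zz, one_mul, mul_assoc]
    let f : H → Bool × (H ⊓ Subgroup.centralizer ({u} : Set Q) : Subgroup Q) :=
      fun h => (decide ((h : Q) * u = u * h), ⟨_, key h h.2⟩)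
    have hf : Function.Injective f := by
      rintro ⟨a, ha⟩ ⟨b, hb⟩ hab
      simp only [f, Prod.mk.injEq, decide_eq_decide, Subtype.mk.injEq] at hab
      obtain ⟨h1, h2⟩ := hab
      apply Subtype.ext
      show a = b
      by_cases hc : a * u = u * a
      · rw [if_pos hc, if_pos (h1.1 hc)] at h2; exact h2
      · rw [if_neg hc, if_neg (fun h => hc (h1.2 h))] at h2; exact mul_left_cancel h2
    have := Nat.card_le_card_of_injective f hf
    rwa [Nat.card_prod, Nat.card_eq_fintype_card (α := Bool), Fintype.card_bool] at this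
  · push Not at hex
    have : H ⊓ Subgroup.centralizer ({u} : Set Q) = H :=
      inf_eq_left.2 (fun h hh => Subgroup.mem_centralizer_singleton_iff.2 (hex h hh))
    rw [this]
    have := Nat.card_pos (α := H)
    omega

/-- the final contradiction -/
theorem no_compl [Finite Q] {u₁ u₂ u₃ : Q} (h1 : u₁ * u₁ = z) (h2 : u₂ * u₂ = z) (h3 : u₃ * u₃ = z)
    (h12 : u₁ * u₂ = u₂ * u₁) (h13 : u₁ * u₃ = u₃ * u₁) (h23 : u₂ * u₃ = u₃ * u₂)
    (hn : ∀ u ∈ [u₁, u₂, u₃, u₁ * u₂, u₁ * u₃, u₂ * u₃, u₁ * u₂ * u₃], u ∉ Subgroup.center Q)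
    (L : Subgroup (MulAut Q)) : ¬ (Cfsg.Inn Q).IsComplement' L := by
  intro hL
  have hdisj : ∀ x ∈ Cfsg.Inn Q, x ∈ L → x = 1 := by
    intro x hx hxL
    have := hL.disjoint
    rw [Subgroup.disjoint_def] at this
    exact this hx hxL
  -- representatives
  have hrep : ∀ {u : Q} (hu : u * u = z), ∃ a : Q, MulAut.conj a * TA D hu ∈ L := by
    intro u hu
    obtain ⟨⟨⟨i, a, ha⟩, l⟩, hl⟩ := hL.2 (TA D hu)
    refine ⟨a⁻¹, ?_⟩
    have h6 : i * (l : MulAut Q) = TA D hu := hl
    rw [← h6, ← ha, map_inv, inv_mul_cancel_left]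
    exact l.2
  -- conj calculus
  have hswap : ∀ (φ : MulAut Q) (a : Q), φ * MulAut.conj a = MulAut.conj (φ a) * φ := by
    intro φ a
    ext x
    simp [MulAut.mul_apply, MulAut.conj_apply, map_mul]
  have hcen : ∀ a : Q, MulAut.conj a = 1 → a ∈ Subgroup.center Q := by
    intro a ha
    rw [Subgroup.mem_center_iff]
    intro x
    have := congrArg (fun φ : MulAut Q => φ x) ha
    simp only [MulAut.conj_apply, MulAut.one_apply] at this
    calc x * a = (a * x * a⁻¹) * a := by rw [this]
      _ = a * x := by group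
  have hzc : z ∈ Subgroup.center Q := by
    rw [Subgroup.mem_center_iff]; exact D.cen
  have hTT : ∀ {u : Q} (hu : u * u = z), TA D hu * TA D hu = MulAut.conj u := by
    intro u hu
    ext x
    exact T_T D hu x
  -- a does not commute with u
  have hself : ∀ {u : Q} (hu : u * u = z) (a : Q), u ∉ Subgroup.center Q → MulAut.conj a * TA D hu ∈ L → ¬ a * u = u * a := by
    intro u hu a huc ha hau
    have h5 : (MulAut.conj a * TA D hu) * (MulAut.conj a * TA D hu) = MulAut.conj (a * T u a * u) := by
      calc (MulAut.conj a * TA D hu) * (MulAut.conj a * TA D hu)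
          = MulAut.conj a * (TA D hu * MulAut.conj a) * TA D hu := by group
        _ = MulAut.conj a * MulAut.conj (TA D hu a) * (TA D hu * TA D hu) := by rw [hswap]; group
        _ = _ := by rw [hTT, TA_apply, map_mul, map_mul]
    have h6 := hdisj _ ⟨a * T u a * u, rfl⟩ (h5 ▸ L.mul_mem ha ha)
    have h7 := hcen _ h6
    have h8 : T u a = a := by unfold T; rw [if_pos hau]
    rw [h8] at h7
    apply huc
    rcases D.sq a with h9 | h9
    · rwa [h9, one_mul] at h7
    · rw [h9] at h7
      exact (Subgroup.mul_mem_cancel_left _ hzc).1 h7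
  -- two commuting transvections
  have hpair : ∀ {u v : Q} (hu : u * u = z) (hv : v * v = z) (huv : u * v = v * u) (a b : Q),
      MulAut.conj a * TA D hu ∈ L → MulAut.conj b * TA D hv ∈ L → v ∉ Subgroup.center Q → u * v ∉ Subgroup.center Q →
      a * v = v * a := by
    intro u v hu hv huv a b ha hb hvc huvc
    have hT : TA D hu * TA D hv = TA D hv * TA D hu := by
      ext x
      exact T_comm D huv x
    have e1 : (MulAut.conj a * TA D hu) * (MulAut.conj b * TA D hv) = MulAut.conj (a * T u b) * (TA D hu * TA D hv) := by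
      calc _ = MulAut.conj a * (TA D hu * MulAut.conj b) * TA D hv := by group
        _ = MulAut.conj a * MulAut.conj (TA D hu b) * (TA D hu * TA D hv) := by rw [hswap]; group
        _ = _ := by rw [TA_apply, map_mul]
    have e2 : (MulAut.conj b * TA D hv) * (MulAut.conj a * TA D hu) = MulAut.conj (b * T v a) * (TA D hv * TA D hu) := by
      calc _ = MulAut.conj b * (TA D hv * MulAut.conj a) * TA D hu := by group
        _ = MulAut.conj b * MulAut.conj (TA D hv a) * (TA D hv * TA D hu) := by rw [hswap]; group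
        _ = _ := by rw [TA_apply, map_mul]
    have e3 : (MulAut.conj a * TA D hu) * (MulAut.conj b * TA D hv) *
        ((MulAut.conj b * TA D hv) * (MulAut.conj a * TA D hu))⁻¹ = MulAut.conj (a * T u b * (b * T v a)⁻¹) := by
      rw [e1, e2, hT, map_mul (MulAut.conj) (a * T u b), map_inv (MulAut.conj)]; group
    have h6 := hdisj _ ⟨a * T u b * (b * T v a)⁻¹, rfl⟩
      (e3 ▸ L.mul_mem (L.mul_mem ha hb) (L.inv_mem (L.mul_mem hb ha)))
    have h7 := hcen _ h6
    -- `a * T u b = y * (b * T v a)` with `y` central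
    obtain ⟨y, hy⟩ : ∃ y, y = a * T u b * (b * T v a)⁻¹ := ⟨_, rfl⟩
    rw [← hy] at h7
    have h8 : a * T u b = y * (b * T v a) := by rw [hy]; group
    by_contra hav
    have hTva : T v a = a * v := by unfold T; rw [if_neg hav]
    rw [hTva] at h8
    have hyc := Subgroup.mem_center_iff.1 h7
    by_cases hbu : b * u = u * b
    · have hTub : T u b = b := by unfold T; rw [if_pos hbu]
      rw [hTub] at h8
      -- a b = y b a v  → v central
      apply hvc
      rcases D.com a b with h9 | h9
      · rw [h9] at h8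
        have : v = y⁻¹ := by
          have h11 : b * a = b * a * (y * v) := by
            calc b * a = y * (b * (a * v)) := h8
              _ = y * (b * a) * v := by group
              _ = b * a * (y * v) := by rw [← hyc]; group
          have h12 := mul_eq_left.1 h11.symm
          exact eq_inv_of_mul_eq_one_right h12
        rw [this]; exact inv_mem h7
      · rw [h9] at h8
        have : v = y⁻¹ * z := by
          have h11 : b * a * z = b * a * (y * v) := by
            calc b * a * z = z * (b * a) := D.cen _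
              _ = y * (b * (a * v)) := h8
              _ = y * (b * a) * v := by group
              _ = b * a * (y * v) := by rw [← hyc]; group
          have h12 := mul_left_cancel h11
          rw [h12]; group
        rw [this]; exact mul_mem (inv_mem h7) hzc
    · have hTub : T u b = b * u := by unfold T; rw [if_neg hbu]
      rw [hTub] at h8
      -- a b u = y b a v
      apply huvc
      have h13 : u = y * v ∨ u = z * (y * v) := by
        rcases D.com a b with h9 | h9
        · left
          have h10 : b * a * u = b * a * (y * v) := by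
            calc b * a * u = a * (b * u) := by rw [← h9]; group
              _ = y * (b * (a * v)) := h8
              _ = y * (b * a) * v := by group
              _ = b * a * (y * v) := by rw [← hyc]; group
          exact mul_left_cancel h10
        · right
          have h10 : z * (b * a * u) = b * a * (y * v) := by
            calc z * (b * a * u) = (z * (b * a)) * u := by group
              _ = a * (b * u) := by rw [← h9]; group
              _ = y * (b * (a * v)) := h8
              _ = y * (b * a) * v := by group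
              _ = b * a * (y * v) := by rw [← hyc]; group
          have h11 : b * a * u = b * a * (z * (y * v)) := by
            calc b * a * u = z * (z * (b * a * u)) := by rw [← mul_assoc z z, D.zz, one_mul]
              _ = z * (b * a * (y * v)) := by rw [h10]
              _ = _ := by rw [D.zc]
          exact mul_left_cancel h11
      rcases h13 with h13 | h13
      · rw [h13, mul_assoc, hv]; exact mul_mem h7 hzc
      · rw [h13, mul_assoc, mul_assoc, hv]; exact mul_mem hzc (mul_mem h7 hzc)
  simp only [List.mem_cons, List.not_mem_nil, or_false, forall_eq_or_imp, forall_eq] at hn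
  obtain ⟨n1, n2, n3, n12, n13, n23, n123⟩ := hn
  have h4 : (u₁ * u₂ * u₃) * (u₁ * u₂ * u₃) = z := by
    have e1 : (u₁ * u₂ * u₃) * (u₁ * u₂ * u₃) = (u₁ * u₁) * (u₂ * u₂) * (u₃ * u₃) := by
      calc (u₁ * u₂ * u₃) * (u₁ * u₂ * u₃) = u₁ * u₂ * (u₃ * u₁) * u₂ * u₃ := by group
        _ = u₁ * (u₂ * u₁) * (u₃ * u₂) * u₃ := by rw [← h13]; group
        _ = _ := by rw [← h12, ← h23]; group
    rw [e1, h1, h2, h3, D.zz, one_mul]
  have h14 : u₁ * (u₁ * u₂ * u₃) = (u₁ * u₂ * u₃) * u₁ := by
    calc u₁ * (u₁ * u₂ * u₃) = u₁ * (u₁ * u₂) * u₃ := by group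
      _ = u₁ * u₂ * (u₁ * u₃) := by
        calc u₁ * (u₁ * u₂) * u₃ = u₁ * (u₂ * u₁) * u₃ := by rw [h12]
          _ = _ := by group
      _ = _ := by rw [h13]; group
  obtain ⟨a, ha⟩ := hrep h1
  obtain ⟨b, hb⟩ := hrep h2
  obtain ⟨c, hc⟩ := hrep h3
  obtain ⟨d, hd⟩ := hrep h4
  have k2 := hpair h1 h2 h12 a b ha hb n2 n12
  have k3 := hpair h1 h3 h13 a c ha hc n3 n13
  have k4 := hpair h1 h4 h14 a d ha hd n123 (by
    intro h
    apply n23
    have e : u₁ * (u₁ * u₂ * u₃) = z * (u₂ * u₃) := by rw [← h1]; group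
    rw [e] at h
    exact (Subgroup.mul_mem_cancel_left _ hzc).1 h)
  refine hself h1 a n1 ha ?_
  have e5 : a * u₁ * (u₂ * u₃) = u₁ * a * (u₂ * u₃) := by
    calc a * u₁ * (u₂ * u₃) = a * (u₁ * u₂ * u₃) := by group
      _ = u₁ * u₂ * (u₃ * a) := by rw [k4]; group
      _ = u₁ * (u₂ * a) * u₃ := by rw [← k3]; group
      _ = _ := by rw [← k2]; group
  exact mul_right_cancel e5

end

/-- the theorem -/
theorem nonsplit {Q : Type*} [Group Q] [Finite Q] (n : ℕ) (hn : 3 ≤ n) (hQ : Cfsg.IsExtraspecial 2 Q)
    (hcard : Nat.card Q = 2 ^ (2 * n + 1)) (L : Subgroup (MulAut Q)) : ¬ (Cfsg.Inn Q).IsComplement' L := by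
  classical
  haveI : Fact (Nat.Prime 2) := ⟨Nat.prime_two⟩
  -- the central involution
  have hZ : Nat.card (Subgroup.center Q) = 2 := hQ.2
  obtain ⟨⟨z, hzc⟩, hz1⟩ : ∃ z : Subgroup.center Q, z ≠ 1 := by
    haveI : Nontrivial (Subgroup.center Q) := (Finite.one_lt_card_iff_nontrivial).1 (by rw [hZ]; norm_num)
    exact exists_ne 1
  have hz1' : z ≠ 1 := fun h => hz1 (Subtype.ext h)
  have hmem : ∀ x : Q, x ∈ Subgroup.center Q → x = 1 ∨ x = z := by
    intro x hx
    by_contra hcon
    push Not at hcon
    have h1 : ({1, ⟨z, hzc⟩, ⟨x, hx⟩} : Finset (Subgroup.center Q)).card = 3 := by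
      rw [Finset.card_insert_of_notMem, Finset.card_insert_of_notMem, Finset.card_singleton]
      · rw [Finset.mem_singleton]; intro h; exact hcon.2 (congrArg Subtype.val h).symm
      · rw [Finset.mem_insert, Finset.mem_singleton]
        rintro (h | h)
        · exact hz1' (congrArg Subtype.val h).symm
        · exact hcon.1 (congrArg Subtype.val h).symm
    haveI := Fintype.ofFinite (Subgroup.center Q)
    have h2 := Finset.card_le_univ ({1, ⟨z, hzc⟩, ⟨x, hx⟩} : Finset (Subgroup.center Q))
    rw [h1, ← Nat.card_eq_fintype_card, hZ] at h2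
    omega
  have hzz : z * z = 1 := by
    rcases hmem (z * z) (mul_mem hzc hzc) with h | h
    · exact h
    · exact absurd (mul_eq_left.1 h) hz1'
  have D : Dat z := by
    refine ⟨hzz, hz1', fun x => Subgroup.mem_center_iff.1 hzc x, hmem, ?_, ?_⟩
    · intro x
      have := CfsgLib.PGrp.esp_pow_mem hQ x
      rw [sq] at this
      exact hmem _ this
    · intro x y
      have h1 : x * y * x⁻¹ * y⁻¹ ∈ Subgroup.center Q := by
        rw [← hQ.1.2.2]
        exact Subgroup.commutator_mem_commutator (Subgroup.mem_top x) (Subgroup.mem_top y)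
      rcases hmem _ h1 with h2 | h2
      · left
        calc x * y = (x * y * x⁻¹ * y⁻¹) * (y * x) := by group
          _ = _ := by rw [h2, one_mul]
      · right
        calc x * y = (x * y * x⁻¹ * y⁻¹) * (y * x) := by group
          _ = _ := by rw [h2]
  -- centrality test
  have hcz : ∀ x : Q, x ≠ 1 → x ≠ z → x ∉ Subgroup.center Q := fun x h1 h2 h => (hmem x h).elim h1 h2
  -- first element
  obtain ⟨u₁, h1⟩ : ∃ u : Q, u * u = z := by
    by_contra hcon
    push Not at hcon
    apply CfsgLib.PGrp.esp_not_comm hQ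
    have hall : ∀ x : Q, x * x = 1 := fun x => (D.sq x).resolve_right (hcon x)
    constructor
    constructor
    intro a b
    have e := hall (a * b)
    have ea : a⁻¹ = a := inv_eq_of_mul_eq_one_left (hall a)
    have eb : b⁻¹ = b := inv_eq_of_mul_eq_one_left (hall b)
    calc a * b = (a * b)⁻¹ := (inv_eq_of_mul_eq_one_left e).symm
      _ = b * a := by rw [mul_inv_rev, ea, eb]
  have big : ∀ (H : Subgroup Q) (F : Finset Q), F.card < Nat.card H → ∃ x ∈ H, x ∉ F := by
    intro H F hF
    by_contra hcon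
    push Not at hcon
    haveI := Fintype.ofFinite H
    have : Nat.card H ≤ F.card := by
      rw [Nat.card_eq_fintype_card, ← Finset.card_univ]
      apply Finset.card_le_card_of_injOn (fun x : H => (x : Q)) (fun x _ => hcon x x.2)
      intro a _ b _ h
      exact Subtype.ext h
    omega
  have hc1 := card_centralizer_le D (⊤ : Subgroup Q) u₁
  rw [Subgroup.card_top, hcard, top_inf_eq] at hc1
  have hpow : 2 ^ 7 ≤ 2 ^ (2 * n + 1) := Nat.pow_le_pow_right (by norm_num) (by omega)
  -- second
  obtain ⟨x, hx, hxF⟩ := big (Subgroup.centralizer ({u₁} : Set Q)) {1, z, u₁, z * u₁} (by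
    have : ({1, z, u₁, z * u₁} : Finset Q).card ≤ 4 := Finset.card_le_four
    omega)
  rw [Subgroup.mem_centralizer_singleton_iff] at hx
  simp only [Finset.mem_insert, Finset.mem_singleton, not_or] at hxF
  obtain ⟨hx1, hx2, hx3, hx4⟩ := hxF
  obtain ⟨u₂, h2, h12, n2, n2z, n21, n21z⟩ : ∃ u₂ : Q, u₂ * u₂ = z ∧ u₁ * u₂ = u₂ * u₁ ∧ u₂ ≠ 1 ∧ u₂ ≠ z ∧ u₂ ≠ u₁ ∧ u₂ ≠ z * u₁ := by
    rcases D.sq x with h | h
    · refine ⟨x * u₁, ?_, ?_, ?_, ?_, ?_, ?_⟩
      · calc x * u₁ * (x * u₁) = x * (u₁ * x) * u₁ := by group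
          _ = (x * x) * (u₁ * u₁) := by rw [← hx]; group
          _ = z := by rw [h, h1, one_mul]
      · rw [← mul_assoc, ← hx]
      · intro h5
        apply hx4
        have : x = u₁⁻¹ := eq_inv_of_mul_eq_one_left h5
        rw [this, inv_eq_iff_mul_eq_one, D.zc, h1, hzz]
      · intro h5
        apply hx3
        rw [← h1] at h5
        exact mul_right_cancel h5
      · intro h5; exact hx1 (mul_eq_right.1 h5)
      · intro h5; exact hx2 (mul_right_cancel h5)
    · exact ⟨x, h, hx.symm, hx1, hx2, hx3, hx4⟩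
  -- third
  have hc2 := card_centralizer_le D (Subgroup.centralizer ({u₁} : Set Q)) u₂
  obtain ⟨y, hy, hyF⟩ := big (Subgroup.centralizer ({u₁} : Set Q) ⊓ Subgroup.centralizer ({u₂} : Set Q))
    {1, z, u₁, z * u₁, u₂, z * u₂, u₁ * u₂, z * (u₁ * u₂)} (by
    have : ({1, z, u₁, z * u₁, u₂, z * u₂, u₁ * u₂, z * (u₁ * u₂)} : Finset Q).card ≤ 8 :=
      (Finset.card_insert_le _ _).trans (Nat.succ_le_succ ((Finset.card_insert_le _ _).trans (Nat.succ_le_succ ((Finset.card_insert_le _ _).trans (Nat.succ_le_succ ((Finset.card_insert_le _ _).trans (Nat.succ_le_succ ((Finset.card_insert_le _ _).trans (Nat.succ_le_succ ((Finset.card_insert_le _ _).trans (Nat.succ_le_succ ((Finset.card_insert_le _ _).trans (Nat.succ_le_succ (Finset.card_singleton _).le))))))))))))) 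
    omega)
  rw [Subgroup.mem_inf, Subgroup.mem_centralizer_singleton_iff, Subgroup.mem_centralizer_singleton_iff] at hy
  obtain ⟨hyu1, hyu2⟩ := hy
  simp only [Finset.mem_insert, Finset.mem_singleton, not_or] at hyF
  obtain ⟨hy1, hy2, hy3, hy4, hy5, hy6, hy7, hy8⟩ := hyF
  obtain ⟨u₃, h3, h13, h23, m1, m2, m3, m4, m5, m6, m7, m8⟩ : ∃ u₃ : Q, u₃ * u₃ = z ∧ u₁ * u₃ = u₃ * u₁ ∧ u₂ * u₃ = u₃ * u₂ ∧
      u₃ ≠ 1 ∧ u₃ ≠ z ∧ u₃ ≠ u₁ ∧ u₃ ≠ z * u₁ ∧ u₃ ≠ u₂ ∧ u₃ ≠ z * u₂ ∧ u₃ ≠ u₁ * u₂ ∧ u₃ ≠ z * (u₁ * u₂) := by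
    rcases D.sq y with h | h
    · refine ⟨y * u₁, ?_, ?_, ?_, ?_, ?_, ?_, ?_, ?_, ?_, ?_, ?_⟩
      · calc y * u₁ * (y * u₁) = y * (u₁ * y) * u₁ := by group
          _ = (y * y) * (u₁ * u₁) := by rw [← hyu1]; group
          _ = z := by rw [h, h1, one_mul]
      · rw [← mul_assoc, ← hyu1]
      · calc u₂ * (y * u₁) = (u₂ * y) * u₁ := by group
          _ = y * (u₂ * u₁) := by rw [← hyu2]; group
          _ = _ := by rw [← h12]; group
      · intro h5
        apply hy4
        have : y = u₁⁻¹ := eq_inv_of_mul_eq_one_left h5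
        rw [this, inv_eq_iff_mul_eq_one, D.zc, h1, hzz]
      · intro h5
        apply hy3
        rw [← h1] at h5
        exact mul_right_cancel h5
      · intro h5; exact hy1 (mul_eq_right.1 h5)
      · intro h5; exact hy2 (mul_right_cancel h5)
      · intro h5
        apply hy8
        have : y = u₂ * u₁⁻¹ := by rw [← h5]; group
        rw [this]
        have e : u₁⁻¹ = z * u₁ := by rw [inv_eq_iff_mul_eq_one, D.zc, h1, hzz]
        rw [e, D.zc, h12]
      · intro h5
        apply hy7
        have : y = z * u₂ * u₁⁻¹ := by rw [← h5]; group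
        rw [this]
        have e : u₁⁻¹ = z * u₁ := by rw [inv_eq_iff_mul_eq_one, D.zc, h1, hzz]
        rw [e, D.zc, mul_assoc, ← mul_assoc, hzz, one_mul, h12]
      · intro h5
        apply hy5
        rw [h12] at h5
        exact mul_right_cancel h5
      · intro h5
        apply hy6
        rw [h12, ← mul_assoc] at h5
        exact mul_right_cancel h5
    · exact ⟨y, h, hyu1.symm, hyu2.symm, hy1, hy2, hy3, hy4, hy5, hy6, hy7, hy8⟩
  have n1 : u₁ ≠ 1 := by rintro rfl; rw [one_mul] at h1; exact hz1' h1.symm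
  have n1z : u₁ ≠ z := by intro h; rw [h, hzz] at h1; exact hz1' h1.symm
  -- inverse formulas
  have hinv : ∀ {u : Q}, u * u = z → ∀ v, v * u = 1 ∨ v * u = z → v = z * u ∨ v = u := by
    intro u hu v hv
    rcases hv with hv | hv
    · left
      have : v = u⁻¹ := eq_inv_of_mul_eq_one_left hv
      rw [this, inv_eq_iff_mul_eq_one, D.zc, hu, hzz]
    · right
      rw [← hu] at hv
      exact mul_right_cancel hv
  refine no_compl D h1 h2 h3 h12 h13 h23 ?_ L
  intro u hu hc
  simp only [List.mem_cons, List.not_mem_nil, or_false] at hu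
  have hc' := hmem u hc
  rcases hu with rfl | rfl | rfl | rfl | rfl | rfl | rfl
  · exact hc'.elim n1 n1z
  · exact hc'.elim n2 n2z
  · exact hc'.elim m1 m2
  · rw [h12] at hc'
    exact (hinv h1 _ hc').elim n21z n21
  · rw [h13] at hc'
    exact (hinv h1 _ hc').elim m4 m3
  · rw [h23] at hc'
    exact (hinv h2 _ hc').elim m6 m5
  · have hc2 : u₃ * (u₁ * u₂) = 1 ∨ u₃ * (u₁ * u₂) = z := by
      have e : u₃ * (u₁ * u₂) = u₁ * u₂ * u₃ := by
        calc u₃ * (u₁ * u₂) = (u₃ * u₁) * u₂ := by group
          _ = u₁ * (u₃ * u₂) := by rw [← h13]; group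
          _ = _ := by rw [← h23]; group
      rwa [e]
    -- (u₁u₂)² = 1, so u₃ = u₁u₂ or z u₁ u₂
    have e : (u₁ * u₂) * (u₁ * u₂) = 1 := by
      calc (u₁ * u₂) * (u₁ * u₂) = u₁ * (u₂ * u₁) * u₂ := by group
        _ = (u₁ * u₁) * (u₂ * u₂) := by rw [← h12]; group
        _ = 1 := by rw [h1, h2, hzz]
    have e' : (u₁ * u₂)⁻¹ = u₁ * u₂ := inv_eq_of_mul_eq_one_left e
    rcases hc2 with h | h
    · exact m7 (by rw [eq_inv_of_mul_eq_one_left h, e'])
    · apply m8
      calc u₃ = u₃ * (u₁ * u₂) * (u₁ * u₂)⁻¹ := by group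
        _ = _ := by rw [h, e']

end CfsgLib.EspSplit
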