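import Mathlib

namespace CfsgLib.FocIter
open Subgroup
open scoped IsMulCommutative

theorem step {G : Type*} [Group G] [Finite G] (H N : Subgroup G) (hN : N.Normal) (hHall : (Nat.card H).Coprime H.index)
    (hNH : N ⊔ H = ⊤) :
    ∃ N' : Subgroup G, N'.Normal ∧ N' ⊔ H = ⊤ ∧ N' ⊓ H = (N ⊓ H).focalSubgroup := by
  classical
  obtain ⟨K, hK⟩ : ∃ K : Subgroup G, K = N ⊓ H := ⟨_, rfl⟩
  rw [← hK]
  have hKN : K ≤ N := hK ▸ inf_le_left
  have hKH : K ≤ H := hK ▸ inf_le_right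
  have hidx : K.relIndex N = H.index := by
    have e1 : K.relIndex N * N.index = K.index := relIndex_mul_index hKN
    have e2 : K.relIndex H * H.index = K.index := relIndex_mul_index hKH
    have e3 : K.relIndex H = N.index := by
      rw [hK, inf_relIndex_right, ← relIndex_sup_right, sup_comm, hNH, relIndex_top_right]
    rw [e3, ← e1, mul_comm] at e2
    exact (Nat.eq_of_mul_eq_mul_right (Nat.pos_of_ne_zero N.index_ne_zero_of_finite) e2).symm
  let K' : Subgroup N := K.subgroupOf N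
  have hidx' : K'.index = H.index := hidx
  let φ : K' →* K ⧸ focalSubgroupOf K := (QuotientGroup.mk' (focalSubgroupOf K)).comp (subgroupOfEquivOfLe hKN).toMonoidHom
  let τ : N →* K ⧸ focalSubgroupOf K := MonoidHom.transfer φ
  have hτ : ∀ x : K', τ (x : N) = φ x ^ K'.index := by
    intro x
    have : Fintype (Quotient (MulAction.orbitRel (zpowers (x : N)) (N ⧸ K'))) := Fintype.ofFinite _
    show MonoidHom.transfer φ (x : N) = _
    rw [index_eq_sum_minimalPeriod K' x, ← Finset.prod_pow_eq_pow_sum,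
      MonoidHom.transfer_eq_prod_quotient_orbitRel_zpowers_quot]
    apply Finset.prod_congr rfl
    intro q _
    exact focalSubgroupOf.mk'_conj_eq K _ _ _
  have hcardA : Nat.card (K ⧸ focalSubgroupOf K) ∣ Nat.card H :=
    (card_quotient_dvd_card _).trans (card_dvd_of_le hKH)
  have hcopA : (Nat.card (K ⧸ focalSubgroupOf K)).Coprime H.index := Nat.Coprime.coprime_dvd_left hcardA hHall
  have hφ : ∀ (x : G) (hx : x ∈ K), φ ⟨⟨x, hKN hx⟩, hx⟩ = QuotientGroup.mk' (focalSubgroupOf K) ⟨x, hx⟩ := fun x hx => rfl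
  have hτK : ∀ (x : G) (hx : x ∈ K), τ ⟨x, hKN hx⟩ = (QuotientGroup.mk' (focalSubgroupOf K) ⟨x, hx⟩) ^ H.index := by
    intro x hx
    rw [← hφ x hx, ← hidx']
    exact hτ ⟨⟨x, hKN hx⟩, hx⟩
  have hτ1 : ∀ (x : G) (hx : x ∈ K), τ ⟨x, hKN hx⟩ = 1 ↔ x ∈ K.focalSubgroup := by
    intro x hx
    rw [hτK x hx]
    constructor
    · intro h
      have h2 := (powCoprime hcopA).injective (a₁ := QuotientGroup.mk' (focalSubgroupOf K) ⟨x, hx⟩) (a₂ := 1) (by
        simpa using h)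
      have h3 : (⟨x, hx⟩ : K) ∈ focalSubgroupOf K := (QuotientGroup.eq_one_iff _).1 h2
      exact h3
    · intro h
      have h3 : (⟨x, hx⟩ : K) ∈ focalSubgroupOf K := h
      have h4 : QuotientGroup.mk' (focalSubgroupOf K) ⟨x, hx⟩ = 1 := (QuotientGroup.eq_one_iff _).2 h3
      rw [h4, one_pow]
  have hsurj : ∀ y : K ⧸ focalSubgroupOf K, ∃ (x : G) (hx : x ∈ K), τ ⟨x, hKN hx⟩ = y := by
    intro y
    obtain ⟨z, hz⟩ := (powCoprime hcopA).surjective y
    obtain ⟨⟨x, hx⟩, rfl⟩ := QuotientGroup.mk'_surjective _ z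
    exact ⟨x, hx, by rw [hτK x hx]; exact hz⟩
  refine ⟨τ.ker.map N.subtype, ?_, ?_, ?_⟩
  · -- normality
    have hconjH : ∀ (g : G), g ∈ H → ∀ (x : N), τ ⟨g * x * g⁻¹, hN.conj_mem _ x.2 g⟩ = τ x := by
      intro g hg x
      let δ : N →* K ⧸ focalSubgroupOf K :=
        { toFun := fun x => τ ⟨g * x * g⁻¹, hN.conj_mem _ x.2 g⟩ * (τ x)⁻¹
          map_one' := by
            have : (⟨g * ((1 : N) : G) * g⁻¹, hN.conj_mem _ (1 : N).2 g⟩ : N) = 1 := Subtype.ext (by simp)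
            rw [this]; simp
          map_mul' := by
            intro a b
            have : (⟨g * ((a * b : N) : G) * g⁻¹, hN.conj_mem _ (a * b : N).2 g⟩ : N) =
              ⟨g * a * g⁻¹, hN.conj_mem _ a.2 g⟩ * ⟨g * b * g⁻¹, hN.conj_mem _ b.2 g⟩ := Subtype.ext (by simp)
            rw [this, map_mul, map_mul, mul_inv]
            exact mul_mul_mul_comm _ _ _ _ }
      have hδK : K' ≤ δ.ker := by
        intro y hy
        have hy' : (y : G) ∈ K := hy
        have hgy : g * y * g⁻¹ ∈ K := by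
          rw [hK]
          exact ⟨hN.conj_mem _ y.2 g, H.mul_mem (H.mul_mem hg (hKH hy')) (H.inv_mem hg)⟩
        rw [MonoidHom.mem_ker]
        show τ ⟨g * y * g⁻¹, _⟩ * (τ y)⁻¹ = 1
        rw [mul_inv_eq_one]
        have e1 := hτK _ hgy
        have e2 := hτK _ hy'
        have e3 := focalSubgroupOf.mk'_conj_eq K hy' g⁻¹ (by simpa using hgy)
        have e4 : (⟨g⁻¹⁻¹ * (y : G) * g⁻¹, by simpa using hgy⟩ : K) = ⟨g * y * g⁻¹, hgy⟩ := Subtype.ext (by simp)
        rw [e4] at e3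
        rw [e3] at e1
        exact e1.trans e2.symm
      have hδ1 : δ.ker.index ∣ H.index := by
        rw [← hidx']
        exact index_dvd_of_le hδK
      have hδ2 : δ.ker.index ∣ Nat.card (K ⧸ focalSubgroupOf K) := by
        rw [index_ker]
        exact card_subgroup_dvd_card _
      have hδ3 : δ.ker.index = 1 := Nat.eq_one_of_dvd_coprimes hcopA hδ2 hδ1
      have hδ4 : x ∈ δ.ker := by
        rw [index_eq_one.mp hδ3]; exact mem_top x
      have hδ5 : τ ⟨g * x * g⁻¹, hN.conj_mem _ x.2 g⟩ * (τ x)⁻¹ = 1 := hδ4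
      exact mul_inv_eq_one.mp hδ5
    constructor
    intro n hn g
    obtain ⟨x, hx, rfl⟩ := hn
    have hx' : τ x = 1 := hx
    have hg : g ∈ N ⊔ H := by rw [hNH]; exact mem_top g
    rw [mem_sup_of_normal_left] at hg
    obtain ⟨a, ha, b, hb, rfl⟩ := hg
    refine ⟨⟨a, ha⟩ * ⟨b * x * b⁻¹, hN.conj_mem _ x.2 b⟩ * ⟨a, ha⟩⁻¹, ?_, ?_⟩
    · show τ _ = 1
      rw [map_mul, map_mul, hconjH b hb x, hx', map_inv]; simp
    · simp [mul_assoc]
  · rw [eq_top_iff, ← hNH]
    refine sup_le ?_ le_sup_right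
    intro x hx
    obtain ⟨y, hy, hxy⟩ := hsurj (τ ⟨x, hx⟩)
    have h1 : x * y⁻¹ ∈ τ.ker.map N.subtype := by
      refine ⟨⟨x, hx⟩ * ⟨y, hKN hy⟩⁻¹, ?_, rfl⟩
      show τ _ = 1
      rw [map_mul, map_inv, hxy, mul_inv_cancel]
    have h2 : x = (x * y⁻¹) * y := by group
    rw [h2]
    exact mul_mem (mem_sup_left h1) (mem_sup_right (hKH hy))
  · ext x
    constructor
    · rintro ⟨⟨y, hy, rfl⟩, hx2⟩
      have hyK : (y : G) ∈ K := by rw [hK]; exact ⟨y.2, hx2⟩
      exact (hτ1 _ hyK).1 hy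
    · intro hx
      have hxK : x ∈ K := K.focalSubgroup_le hx
      exact ⟨⟨⟨x, hKN hxK⟩, (hτ1 _ hxK).2 hx, rfl⟩, hKH hxK⟩

theorem iter {G : Type*} [Group G] [Finite G] (H : Subgroup G) (hHall : (Nat.card H).Coprime H.index) (n : ℕ) :
    ∃ N : Subgroup G, N.Normal ∧ N ⊔ H = ⊤ ∧ N ⊓ H = (fun K : Subgroup G => Subgroup.focalSubgroup K)^[n] H := by
  induction n with
  | zero => exact ⟨⊤, inferInstance, by simp, by simp⟩
  | succ n ih =>
    obtain ⟨N, hN, h1, h2⟩ := ih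
    obtain ⟨N', hN', h3, h4⟩ := step H N hN hHall h1
    exact ⟨N', hN', h3, by rw [h4, h2, Function.iterate_succ_apply']⟩

theorem s0557 {G : Type*} [Group G] [Finite G] (H : Subgroup G) (hHall : (Nat.card H).Coprime H.index) (n : ℕ) (hfoc : (fun K : Subgroup G => Subgroup.focalSubgroup K)^[n] H = ⊥) : ∃ N : Subgroup G, N.Normal ∧ Subgroup.IsComplement' N H := by
  obtain ⟨N, hN, h1, h2⟩ := iter H hHall n
  rw [hfoc] at h2
  refine ⟨N, hN, isComplement'_of_disjoint_and_mul_eq_univ (disjoint_iff.mpr h2) ?_⟩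
  rw [← Subgroup.normal_mul, h1]; rfl

end CfsgLib.FocIter
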