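import Mathlib
import Cfsg.Agent.Lib.FrobThm

namespace CfsgLib.FrobFix
open scoped Pointwise

theorem norm_fixed {A F : Type*} [CommGroup A] [Group F] [Fintype F] (φ : F →* MulAut A) (a : A) (g : F) :
    φ g (∏ f : F, φ f a) = ∏ f : F, φ f a := by
  rw [map_prod]
  exact Fintype.prod_equiv (Equiv.mulLeft g) _ _ (fun f => by simp [map_mul])

theorem norm_fixed_sub {A F : Type*} [CommGroup A] [Group F] [Finite F] (φ : F →* MulAut A) (S : Subgroup F) [Fintype S] (a : A) (g : F) (hg : g ∈ S) :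
    φ g (∏ f : S, φ f a) = ∏ f : S, φ f a := by
  have := norm_fixed (φ.comp S.subtype) a (⟨g, hg⟩ : S)
  simpa using this

theorem main {A F : Type*} [CommGroup A] [Finite A] [Group F] [Finite F] (φ : F →* MulAut A) (H : Subgroup F)
    (hH : Cfsg.IsFrobeniusComplement H) (hcop : (Nat.card A).Coprime (Nat.card (Cfsg.frobeniusKernel H)))
    (hK : ∀ a : A, (∀ k ∈ Cfsg.frobeniusKernel H, φ k a = a) → a = 1)
    (hHf : ∀ a : A, (∀ h ∈ H, φ h a = a) → a = 1) (a : A) : a = 1 := by
  classical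
  haveI := Fintype.ofFinite F
  obtain ⟨K, hKe, hKn, hKc⟩ := FrobThm.frobenius_theorem H hH
  have hmemK : ∀ x : F, x ∈ K ↔ x ∈ Cfsg.frobeniusKernel H := fun x => by rw [← hKe]; rfl
  have hKH : K ⊓ H = ⊥ := disjoint_iff.mp hKc.disjoint
  -- the map K × H → F
  have h1 : ∏ f : F, φ f a = 1 := hK _ (fun k _ => norm_fixed φ a k)
  have h2 : ∏ f : K, φ f a = 1 := hK _ (fun k hk => norm_fixed_sub φ K a k ((hmemK k).2 hk))
  have h3 : ∀ b : A, ∏ f : H, φ f b = 1 := fun b => hHf _ (fun k hk => norm_fixed_sub φ H b k hk)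
  have h4 : (∏ f : F, φ f a) = (∏ f ∈ Finset.univ.filter (fun f : F => f ∈ K), φ f a) * ∏ f ∈ Finset.univ.filter (fun f : F => f ∉ K), φ f a :=
    (Finset.prod_filter_mul_prod_filter_not _ _ _).symm
  have h5 : (∏ f ∈ Finset.univ.filter (fun f : F => f ∈ K), φ f a) = ∏ f : K, φ f a := by
    rw [Finset.prod_subtype (Finset.univ.filter (fun f : F => f ∈ K)) (p := fun f => f ∈ K) (by simp)]
  have h6 : (∏ f ∈ Finset.univ.filter (fun f : F => f ∉ K), φ f a) =
      ∏ x ∈ (Finset.univ : Finset K) ×ˢ ((Finset.univ : Finset H).filter (fun h => h ≠ 1)), φ ((x.1 : F) * (x.2 : F) * (x.1 : F)⁻¹) a := by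
    symm
    refine Finset.prod_bij (fun x _ => (x.1 : F) * (x.2 : F) * (x.1 : F)⁻¹) ?_ ?_ ?_ ?_
    · rintro ⟨k, h⟩ hx
      simp only [Finset.mem_product, Finset.mem_univ, Finset.mem_filter, true_and] at hx ⊢
      intro hk
      have : (h : F) ∈ K := by
        have := hKn.conj_mem _ hk (k : F)⁻¹
        simpa [mul_assoc] using this
      have : (h : F) ∈ K ⊓ H := ⟨this, h.2⟩
      rw [hKH, Subgroup.mem_bot] at this
      exact hx (Subtype.ext this)
    · rintro ⟨k, h⟩ hx ⟨k', h'⟩ hx' e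
      simp only [Finset.mem_product, Finset.mem_univ, Finset.mem_filter, true_and] at hx hx' e
      have e1 : ((k' : F)⁻¹ * k)⁻¹ * (h' : F) * ((k' : F)⁻¹ * k) = h := by
        have : (h : F) = (k : F)⁻¹ * (k * h * (k : F)⁻¹) * k := by group
        rw [this, e]; group
      have e2 : (k' : F)⁻¹ * k ∈ H := FrobThm.mem_of_conj hH h'.2 (fun h0 => hx' (Subtype.ext h0)) (by rw [e1]; exact h.2)
      have e3 : (k' : F)⁻¹ * k ∈ K ⊓ H := ⟨K.mul_mem (K.inv_mem k'.2) k.2, e2⟩
      rw [hKH, Subgroup.mem_bot] at e3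
      have e4 : k = k' := Subtype.ext (inv_mul_eq_one.mp e3).symm
      subst e4
      rw [e3] at e1
      simp only [inv_one, one_mul, mul_one] at e1
      have e5 : h = h' := Subtype.ext e1.symm
      rw [e5]
    · intro f hf
      simp only [Finset.mem_filter, Finset.mem_univ, true_and] at hf
      rw [hmemK] at hf
      simp only [Cfsg.frobeniusKernel, Set.mem_setOf_eq, not_or, not_forall, not_not] at hf
      obtain ⟨hf1, g, hg⟩ := hf
      rw [FrobThm.mem_conj_iff] at hg
      obtain ⟨⟨k, h⟩, hkh⟩ := hKc.2 g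
      simp only at hkh
      have hm : (k : F)⁻¹ * f * k ∈ H := by
        have : (k : F)⁻¹ * f * k = h * (g⁻¹ * f * g) * (h : F)⁻¹ := by rw [← hkh]; group
        rw [this]
        exact H.mul_mem (H.mul_mem h.2 hg) (H.inv_mem h.2)
      refine ⟨(⟨k, k.2⟩, ⟨_, hm⟩), ?_, ?_⟩
      · simp only [Finset.mem_product, Finset.mem_univ, Finset.mem_filter, true_and]
        intro h0
        have h0' : (k : F)⁻¹ * f * k = 1 := congrArg Subtype.val h0
        apply hf1
        have : f = k * ((k : F)⁻¹ * f * k) * (k : F)⁻¹ := by group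
        rw [this, h0']; group
      · simp only
        group
    · intro x _
      rfl
  have h7 : ∀ k : K, (∏ h ∈ (Finset.univ : Finset H).filter (fun h => h ≠ 1), φ ((k : F) * (h : F) * (k : F)⁻¹) a) = a⁻¹ := by
    intro k
    have e1 := h3 (φ (k : F)⁻¹ a)
    rw [← Finset.mul_prod_erase Finset.univ _ (Finset.mem_univ (1 : H))] at e1
    have e2 : (Finset.univ : Finset H).erase 1 = (Finset.univ : Finset H).filter (fun h => h ≠ 1) := by
      ext x; simp
    rw [e2] at e1
    have e3 := congrArg (φ (k : F)) e1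
    rw [map_mul, map_one, map_prod] at e3
    have e4 : φ (k : F) (φ ((1 : H) : F) (φ (k : F)⁻¹ a)) = a := by
      simp
    rw [e4] at e3
    rw [← eq_inv_mul_iff_mul_eq, mul_one] at e3
    rw [← e3]
    refine Finset.prod_congr rfl (fun h _ => ?_)
    simp [map_mul]
  rw [Finset.prod_product] at h6
  simp only at h6
  rw [Finset.prod_congr rfl (fun k _ => h7 k), Finset.prod_const, Finset.card_univ] at h6
  rw [h4, h5, h2, one_mul, h6, inv_pow, inv_eq_one, ← Nat.card_eq_fintype_card] at h1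
  have hc : Nat.card (Cfsg.frobeniusKernel H) = Nat.card K := by rw [← hKe]; rfl
  rw [hc] at hcop
  have o1 : orderOf a ∣ Nat.card K := orderOf_dvd_of_pow_eq_one h1
  have o2 : orderOf a ∣ Nat.card A := orderOf_dvd_natCard a
  exact orderOf_eq_one_iff.mp (Nat.eq_one_of_dvd_coprimes hcop o2 o1)

theorem s0666 {G : Type*} [Group G] [Finite G] (V F : Subgroup G) (hVab : IsMulCommutative V) (hV1 : V ≠ ⊥) (hFV : F ≤ Subgroup.normalizer (V : Set G)) (H : Subgroup ↥F) (hH : Cfsg.IsFrobeniusComplement H) (hcop : (Nat.card V).Coprime (Nat.card (Cfsg.frobeniusKernel H))) (hCK : V ⊓ Subgroup.centralizer (Subtype.val '' Cfsg.frobeniusKernel H : Set G) = ⊥) : V ⊓ Subgroup.centralizer ((H.map F.subtype : Subgroup G) : Set G) ≠ ⊥ := by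
  intro hbot
  apply hV1
  letI : CommGroup V := { (inferInstance : Group V) with mul_comm := fun x y => hVab.is_comm.comm x y }
  let φ : F →* MulAut V := V.normalizerMonoidHom.comp (Subgroup.inclusion hFV)
  have hφ : ∀ (f : F) (v : V), ((φ f v : V) : G) = f * v * (f : G)⁻¹ := fun f v => rfl
  have hfix : ∀ (f : F) (v : V), φ f v = v ↔ (f : G) * v = v * f := by
    intro f v
    rw [← Subtype.val_inj, hφ]
    exact mul_inv_eq_iff_eq_mul
  rw [eq_bot_iff]
  intro v hv
  rw [Subgroup.mem_bot]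
  have := main φ H hH hcop ?_ ?_ ⟨v, hv⟩
  · exact congrArg Subtype.val this
  · intro a ha
    apply Subtype.ext
    have : (a : G) ∈ V ⊓ Subgroup.centralizer (Subtype.val '' Cfsg.frobeniusKernel H : Set G) := by
      refine Subgroup.mem_inf.2 ⟨a.2, Subgroup.mem_centralizer_iff.2 ?_⟩
      rintro _ ⟨f, hf, rfl⟩
      exact (hfix f a).1 (ha f hf)
    rw [hCK, Subgroup.mem_bot] at this
    exact this
  · intro a ha
    apply Subtype.ext
    have : (a : G) ∈ V ⊓ Subgroup.centralizer ((H.map F.subtype : Subgroup G) : Set G) := by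
      refine Subgroup.mem_inf.2 ⟨a.2, Subgroup.mem_centralizer_iff.2 ?_⟩
      rintro _ ⟨f, hf, rfl⟩
      exact (hfix f a).1 (ha f hf)
    rw [hbot, Subgroup.mem_bot] at this
    exact this

end CfsgLib.FrobFix
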