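import Mathlib
import Cfsg.Agent.Lib.FusionSimple
import Cfsg.Agent.Lib.FusionGroup

/-!
Simplicity of the fusion system of a group from a self-normalizing Sylow subgroup without
proper strongly closed subgroups; the group is given as a subgroup of an ambient group.
-/

set_option autoImplicit false

namespace CfsgLib.Fusion

open Cfsg Cfsg.FusionSystem

theorem conj_iff_of_le {A : Type*} [Group A] {S0 : Subgroup A} [Finite S0] {h : A} (hh : ∀ x ∈ S0, h * x * h⁻¹ ∈ S0) (x : A) :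
    x ∈ S0 ↔ h * x * h⁻¹ ∈ S0 := by
  refine ⟨hh x, fun hx => ?_⟩
  let f : S0 → S0 := fun y => ⟨h * y * h⁻¹, hh y y.2⟩
  have hf : Function.Injective f := by
    intro a b hab
    have h1 : h * (a : A) * h⁻¹ = h * b * h⁻¹ := congrArg Subtype.val hab
    exact Subtype.ext (mul_left_cancel (mul_right_cancel h1))
  obtain ⟨y, hy⟩ := (Finite.surjective_of_injective hf) ⟨_, hx⟩
  have h1 : h * (y : A) * h⁻¹ = h * x * h⁻¹ := congrArg Subtype.val hy
  rw [← mul_left_cancel (mul_right_cancel h1)]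
  exact y.2

theorem simple_fusion {A : Type*} [Group A] [Finite A] {p : ℕ} [Fact p.Prime] {G S0 : Subgroup A} (h0 : S0 ≤ G) {n : ℕ} (hn : 0 < n)
    (hcard : Nat.card S0 = p ^ n) (hG : (Nat.card G).factorization p = n)
    (hnorm : ∀ g ∈ G, (∀ x, x ∈ S0 ↔ g * x * g⁻¹ ∈ S0) → g ∈ S0)
    (hsc : ∀ T : Subgroup A, T ≤ S0 → T ≠ ⊥ → (∀ x ∈ T, ∀ k ∈ G, k * x * k⁻¹ ∈ S0 → k * x * k⁻¹ ∈ T) → T = S0)
    (S : Sylow p G) : (groupFusionSystem (S : Subgroup G)).IsSimple p := by
  classical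
  let P0 : Sylow p G := Sylow.ofCard (S0.subgroupOf G) (by
    rw [Nat.card_congr (Subgroup.subgroupOfEquivOfLe h0).toEquiv, hcard, hG])
  obtain ⟨c, hc⟩ := MulAction.exists_smul_eq G P0 S
  have hmem : ∀ x : G, x ∈ (S : Subgroup G) ↔ (c : A)⁻¹ * x * c ∈ S0 := by
    intro x
    rw [← hc, Sylow.coe_subgroup_smul, Subgroup.mem_pointwise_smul_iff_inv_smul_mem, ← map_inv, MulAut.smul_def,
      MulAut.conj_apply, inv_inv]
    exact Iff.rfl
  apply simple_of_inner_aut (groupFusionSystem_saturated p S)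
  · intro hS
    have h1 := S.card_eq_multiplicity
    have h2 : Nat.card (S : Subgroup G) = 1 := by rw [hS]; exact Subgroup.card_bot
    have h3 : Nat.card S = 1 := h2
    rw [h3, hG] at h1
    have h4 : 1 < p ^ n := Nat.one_lt_pow hn.ne' (Fact.out : p.Prime).one_lt
    omega
  · intro f hf
    rw [FMap_group_iff] at hf
    obtain ⟨-, h1, g, hg⟩ := hf
    refine ⟨g, ?_, hg⟩
    rw [hmem]
    apply hnorm _ (mul_mem (mul_mem (inv_mem c.2) g.2) c.2)
    apply conj_iff_of_le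
    intro x hx
    have hxG := h0 hx
    have hy : c * ⟨x, hxG⟩ * c⁻¹ ∈ (S : Subgroup G) := by
      rw [hmem]
      have e : (c : A)⁻¹ * ((c * ⟨x, hxG⟩ * c⁻¹ : G) : A) * c = x := by
        show (c : A)⁻¹ * (c * x * (c : A)⁻¹) * c = x
        group
      rw [e]; exact hx
    have h2 := h1 _ hy
    rw [hg _ hy, hmem] at h2
    have e : (c : A)⁻¹ * ((g * (c * ⟨x, hxG⟩ * c⁻¹) * g⁻¹ : G) : A) * c = (c : A)⁻¹ * g * c * x * ((c : A)⁻¹ * g * c)⁻¹ := by
      show (c : A)⁻¹ * (g * (c * x * (c : A)⁻¹) * (g : A)⁻¹) * c = _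
      group
    rw [e] at h2
    exact h2
  · intro T hT
    by_cases hT1 : T = ⊥
    · exact Or.inl hT1
    right
    let T0 : Subgroup A := (T.comap (MulAut.conj c).toMonoidHom).map G.subtype
    have hT0 : ∀ x : A, x ∈ T0 ↔ ∃ hx : x ∈ G, c * ⟨x, hx⟩ * c⁻¹ ∈ T := by
      intro x
      constructor
      · rintro ⟨y, hy, rfl⟩
        exact ⟨y.2, hy⟩
      · rintro ⟨hx, h⟩
        exact ⟨⟨x, hx⟩, h, rfl⟩
    have h1 : T0 = S0 := by
      apply hsc
      · intro x hx
        rw [hT0] at hx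
        obtain ⟨hx, h⟩ := hx
        have h2 := hT.1 h
        rw [hmem] at h2
        have e : (c : A)⁻¹ * ((c * ⟨x, hx⟩ * c⁻¹ : G) : A) * c = x := by
          show (c : A)⁻¹ * (c * x * (c : A)⁻¹) * c = x
          group
        rwa [e] at h2
      · intro hbot
        apply hT1
        rw [eq_bot_iff]
        intro y hy
        have h2 : ((c⁻¹ * y * c : G) : A) ∈ T0 := by
          rw [hT0]
          refine ⟨(c⁻¹ * y * c).2, ?_⟩
          have e : c * (⟨((c⁻¹ * y * c : G) : A), (c⁻¹ * y * c).2⟩ : G) * c⁻¹ = y := by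
            show c * (c⁻¹ * y * c) * c⁻¹ = y
            group
          rw [e]; exact hy
        rw [hbot, Subgroup.mem_bot] at h2
        have h3 : c⁻¹ * y * c = 1 := Subtype.ext h2
        rw [Subgroup.mem_bot]
        have e : y = c * (c⁻¹ * y * c) * c⁻¹ := by group
        rw [e, h3]; group
      · intro x hx k hk hkx
        rw [hT0] at hx ⊢
        obtain ⟨hxG, hxT⟩ := hx
        refine ⟨mul_mem (mul_mem hk hxG) (inv_mem hk), ?_⟩
        set X : G := c * ⟨x, hxG⟩ * c⁻¹ with hX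
        set K : G := c * ⟨k, hk⟩ * c⁻¹ with hK
        have e : c * (⟨k * x * k⁻¹, mul_mem (mul_mem hk hxG) (inv_mem hk)⟩ : G) * c⁻¹ = K * X * K⁻¹ := by
          have e1 : (⟨k * x * k⁻¹, mul_mem (mul_mem hk hxG) (inv_mem hk)⟩ : G) = ⟨k, hk⟩ * ⟨x, hxG⟩ * ⟨k, hk⟩⁻¹ := rfl
          rw [e1, hX, hK]; group
        have hKX : K * X * K⁻¹ ∈ (S : Subgroup G) := by
          rw [← e, hmem]
          have e2 : (c : A)⁻¹ * ((c * (⟨k * x * k⁻¹, mul_mem (mul_mem hk hxG) (inv_mem hk)⟩ : G) * c⁻¹ : G) : A) * c = k * x * k⁻¹ := by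
            show (c : A)⁻¹ * (c * (k * x * k⁻¹) * (c : A)⁻¹) * c = k * x * k⁻¹
            group
          rw [e2]; exact hkx
        rw [e]
        have hle : Subgroup.zpowers X ≤ T := by rw [Subgroup.zpowers_le]; exact hxT
        have hF : FMap (groupFusionSystem (S : Subgroup G)) (Subgroup.zpowers X) (fun y => K * y * K⁻¹) := by
          rw [FMap_group_iff]
          refine ⟨hle.trans hT.1, ?_, K, fun y _ => rfl⟩
          rintro y ⟨m, rfl⟩
          show K * X ^ m * K⁻¹ ∈ (S : Subgroup G)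
          rw [← conj_zpow]
          exact zpow_mem hKX m
        obtain ⟨φ, hφ, hφX⟩ := hF
        have h2 := hT.2 _ hle φ hφ ⟨X, Subgroup.mem_zpowers X⟩
        rw [hφX] at h2
        exact h2
    apply le_antisymm hT.1
    intro y hy
    rw [hmem, ← h1, hT0] at hy
    obtain ⟨hy1, hy2⟩ := hy
    have e : c * (⟨(c : A)⁻¹ * y * c, hy1⟩ : G) * c⁻¹ = y := by
      have e1 : (⟨(c : A)⁻¹ * y * c, hy1⟩ : G) = c⁻¹ * y * c := rfl
      rw [e1]; group
    rwa [e] at hy2

end CfsgLib.Fusion
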