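import Cfsg.Agent.Lib.FusionSolv2

/-!
Solvability of normal subsystems and factor systems.
-/
set_option autoImplicit false
set_option maxHeartbeats 400000

namespace CfsgLib.Fusion

open Cfsg Cfsg.FusionSystem

variable {Ω : Type*} [Group Ω] {S : Subgroup Ω}

theorem StronglyClosed.img_of_invariant {F : FusionSystem S} [Finite S] {T : Subgroup Ω}
    {E : FusionSystem T} (hE : E.IsInvariantIn F) {R : Subgroup Ω} (hR : E.StronglyClosed R)
    {a : Ω → Ω} (ha : FMap F T a) (haT : ∀ x ∈ T, a x ∈ T) : E.StronglyClosed (img R a) := by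
  obtain ⟨h1, h2, h3, h4⟩ := isInvariantIn_iff.1 hE
  have hTf : Finite T := finite_of_le h2.1
  obtain ⟨b, hb, hbT, hba, hab⟩ := FMap.exists_inv_aut ha haT
  rw [stronglyClosed_iff_map]
  refine ⟨img_le_iff.2 fun x hx => haT x (hR.1 hx), fun P f hf x hx hxR => ?_⟩
  have hPT := hf.le
  obtain ⟨u, hu, rfl⟩ := (ha.restrict hR.1).mem_img.1 hxR
  have hf1 : FMap E (img P b) (fun y => b (f (a y))) := h3 P f b _ hf hb hbT (by
    intro x hx
    show b (f (a (b x))) = _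
    rw [hab x (hPT hx)])
  have hu' : u ∈ img P b := by
    have : b (a u) = u := hba u (hR.1 hu)
    rw [← this]
    exact apply_mem_img hx
  have h5 : b (f (a u)) ∈ R := StronglyClosed.map_mem hR hf1 hu' hu
  have h6 := apply_mem_img (f := a) h5
  rwa [hab _ (hf.mapsTo hx)] at h6

theorem sc_sSup {F : FusionSystem S} [Finite S] {p : ℕ} [Fact p.Prime] (hS : IsPGroup p S)
    (hF : F.IsSaturated p) {A : Set (Subgroup Ω)} (hA : ∀ U ∈ A, F.StronglyClosed U) :
    F.StronglyClosed (sSup A) := by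
  have h1 := sSup_mem_of_sup (A := {W | F.StronglyClosed W ∧ W ≤ sSup A})
    ⟨⊥, IsNormal.stronglyClosed (IsNormal.bot F), bot_le⟩ (fun Q hQ => hQ.1.1)
    (fun Q₁ h₁ Q₂ h₂ => ⟨StronglyClosed.sup hS hF h₁.1 h₂.1, sup_le h₁.2 h₂.2⟩)
  have h2 : sSup {W | F.StronglyClosed W ∧ W ≤ sSup A} = sSup A := by
    apply le_antisymm h1.2
    apply sSup_le
    intro U hU
    exact le_sSup ⟨hA U hU, le_sSup hU⟩
  rw [← h2]
  exact h1.1

theorem solvTo_of_invariant {F : FusionSystem S} [Finite S] {p : ℕ} [Fact p.Prime] (hS : IsPGroup p S)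
    {T : Subgroup Ω} {E : FusionSystem T} (hEs : E.IsSaturated p) (hE : E.IsInvariantIn F)
    (h : SolvTo E T) : SolvTo F T := by
  have hTsc := hE.2.1
  have hTS := hTsc.1
  have hTf : Finite T := finite_of_le hTS
  have hTp : IsPGroup p T := hS.to_le hTS
  apply SolvTo.reach hTS SolvTo.bot bot_le
  intro R _ hRT hne hR
  have hRE : E.StronglyClosed R := StronglyClosed.of_sub hE.1 hR hRT
  -- a minimal extension
  obtain ⟨U, ⟨hU1, hU2, hU3⟩, hUmin⟩ : ∃ U, (E.StronglyClosed U ∧ R < U ∧ ∀ x ∈ U, ∀ y ∈ U, x * y * x⁻¹ * y⁻¹ ∈ R) ∧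
      ∀ W, (E.StronglyClosed W ∧ R < W ∧ ∀ x ∈ W, ∀ y ∈ W, x * y * x⁻¹ * y⁻¹ ∈ R) → Nat.card U ≤ Nat.card W := by
    obtain h1 | ⟨U, hU1, hU2, -, hU4⟩ := h.extend hTp hEs hRE
    · exact absurd (le_antisymm hRT h1) hne
    · classical
      have hex : ∃ n : ℕ, ∃ U, (E.StronglyClosed U ∧ R < U ∧ ∀ x ∈ U, ∀ y ∈ U, x * y * x⁻¹ * y⁻¹ ∈ R) ∧ Nat.card U = n :=
        ⟨_, U, ⟨hU1, hU2, hU4⟩, rfl⟩
      obtain ⟨U', hU', hn⟩ := Nat.find_spec hex
      refine ⟨U', hU', fun W hW => ?_⟩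
      rw [hn]
      exact Nat.find_min' hex ⟨W, hW, rfl⟩
  have hUT := hU1.1
  have hUf : Finite U := finite_of_le hUT
  let A : Set (Subgroup Ω) := {W | ∃ a, FMap F T a ∧ (∀ x ∈ T, a x ∈ T) ∧ W = img U a}
  have hA : ∀ W ∈ A, E.StronglyClosed W ∧ R < W ∧ (∀ x ∈ W, ∀ y ∈ W, x * y * x⁻¹ * y⁻¹ ∈ R) ∧
      Nat.card W = Nat.card U := by
    rintro W ⟨a, ha, haT, rfl⟩
    have haU := ha.restrict hUT
    have hcard := haU.card_img
    have hRimg : img R a = R := StronglyClosed.img_eq hR ha hRT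
    refine ⟨StronglyClosed.img_of_invariant hE hU1 ha haT, ?_, ?_, hcard⟩
    · refine lt_of_le_of_ne (by rw [← hRimg]; exact img_mono hU2.le) fun heq => ?_
      have h1 := card_lt_of_lt hU2
      rw [heq, hcard] at h1
      omega
    · intro x hx y hy
      obtain ⟨u, hu, rfl⟩ := haU.mem_img.1 hx
      obtain ⟨v, hv, rfl⟩ := haU.mem_img.1 hy
      rw [← haU.map_inv hu, ← haU.map_inv hv, ← haU.map_mul hu hv,
        ← haU.map_mul (U.mul_mem hu hv) (U.inv_mem hu),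
        ← haU.map_mul (U.mul_mem (U.mul_mem hu hv) (U.inv_mem hu)) (U.inv_mem hv)]
      exact StronglyClosed.map_mem hR ha (hRT (hU3 u hu v hv)) (hU3 u hu v hv)
  have hRn : ∀ s ∈ T, ∀ r ∈ R, s * r * s⁻¹ ∈ R := fun s hs r hr => StronglyClosed.conj_mem hRE hs hr
  have hcomm := comm_sSup hRn A (fun W hW => (hA W hW).1.1) (by
    intro W₁ hW₁ W₂ hW₂ x hx y hy
    by_cases heq : W₁ = W₂
    · subst heq
      exact (hA W₁ hW₁).2.2.1 x hx y hy
    · obtain ⟨a1, a2, a3, a4⟩ := hA W₁ hW₁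
      obtain ⟨b1, b2, b3, b4⟩ := hA W₂ hW₂
      have hsc : E.StronglyClosed (W₁ ⊓ W₂) := by
        rw [stronglyClosed_iff_map]
        exact ⟨inf_le_left.trans a1.1, fun P f hf z hz hzW =>
          ⟨StronglyClosed.map_mem a1 hf hz hzW.1, StronglyClosed.map_mem b1 hf hz hzW.2⟩⟩
      have hW₁f : Finite W₁ := finite_of_le a1.1
      have hW₂f : Finite W₂ := finite_of_le b1.1
      have hRle : R ≤ W₁ ⊓ W₂ := le_inf a2.le b2.le
      have hReq : R = W₁ ⊓ W₂ := by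
        by_contra hne2
        have h5 := hUmin (W₁ ⊓ W₂) ⟨hsc, lt_of_le_of_ne hRle hne2, fun z hz w hw => a3 z hz.1 w hw.1⟩
        have h6 : W₁ ⊓ W₂ = W₁ := eq_of_le_card inf_le_left (by rw [a4]; exact h5)
        have h7 : W₁ ⊓ W₂ = W₂ := eq_of_le_card inf_le_right (by rw [b4]; exact h5)
        exact heq (h6.symm.trans h7)
      rw [hReq]
      refine ⟨?_, ?_⟩
      · have e : x * y * x⁻¹ * y⁻¹ = x * (y * x⁻¹ * y⁻¹) := by group
        rw [e]
        exact W₁.mul_mem hx (StronglyClosed.conj_mem a1 (b1.1 hy) (W₁.inv_mem hx))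
      · exact W₂.mul_mem (StronglyClosed.conj_mem b1 (a1.1 hx) hy) (W₂.inv_mem hy))
  have hid : FMap F T (fun x => x) := (FMap.conj hTS S.one_mem).congr fun x _ => by simp
  have hUA : U ≤ sSup A := by
    apply le_sSup
    refine ⟨fun x => x, hid, fun x hx => hx, ?_⟩
    apply le_antisymm
    · intro x hx
      exact apply_mem_img (f := fun x => x) hx
    · rw [img_le_iff]; exact fun x hx => hx
  have hVsc : E.StronglyClosed (sSup A) := sc_sSup hTp hEs fun W hW => (hA W hW).1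
  refine ⟨sSup A, ?_, lt_of_lt_of_le hU2 hUA, hVsc.1, hcomm⟩
  apply stronglyClosed_of_invariant hE hVsc
  intro a ha haT
  let W : Subgroup Ω :=
    { carrier := {x | x ∈ T ∧ a x ∈ sSup A}
      mul_mem' := by
        rintro x y ⟨hx, hxa⟩ ⟨hy, hya⟩
        refine ⟨T.mul_mem hx hy, ?_⟩
        rw [ha.map_mul hx hy]
        exact Subgroup.mul_mem _ hxa hya
      one_mem' := ⟨T.one_mem, by rw [ha.map_one]; exact Subgroup.one_mem _⟩
      inv_mem' := by
        rintro x ⟨hx, hxa⟩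
        refine ⟨T.inv_mem hx, ?_⟩
        rw [ha.map_inv hx]
        exact Subgroup.inv_mem _ hxa }
  have hle : sSup A ≤ W := by
    apply sSup_le
    rintro _ ⟨b, hb, hbT, rfl⟩
    rw [img_le_iff]
    intro u hu
    refine ⟨hbT u (hUT hu), ?_⟩
    have hmem : img U (fun x => a (b x)) ∈ A := ⟨_, hb.comp ha hbT, fun x hx => haT _ (hbT x hx), rfl⟩
    exact (le_sSup hmem) (apply_mem_img (f := fun x => a (b x)) hu)
  intro x hx
  exact (hle hx).2

theorem imageAlong_sup_ker {Ω' : Type*} [Group Ω'] {S' : Subgroup Ω'} {F : FusionSystem S} {T : Subgroup Ω}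
    {θ : S →* Ω'} {E : FusionSystem S'} [Finite S] (h : Fac F T θ E) {P : Subgroup Ω} (hP : P ≤ S) :
    imageAlong θ (P ⊔ T) = imageAlong θ P := by
  have hTS := h.sc.1
  have hTf : Finite T := finite_of_le hTS
  have hn : P ≤ Subgroup.normalizer (T : Set Ω) := fun y hy =>
    mem_normalizer_of_conj_mem fun z hz => StronglyClosed.conj_mem h.sc (hP hy) hz
  ext y
  rw [mem_imageAlong (sup_le hP hTS), mem_imageAlong hP]
  constructor
  · rintro ⟨x, hx, rfl⟩
    obtain ⟨a, ha, b, hb, rfl⟩ := mem_sup_prod hn hx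
    refine ⟨a, ha, ?_⟩
    rw [tx_mul (hP ha) (hTS hb), (h.ker b (hTS hb)).2 hb, mul_one]
  · rintro ⟨x, hx, rfl⟩
    exact ⟨x, Subgroup.mem_sup_left hx, rfl⟩

theorem SolvTo.image {Ω' : Type*} [Group Ω'] {S' : Subgroup Ω'} {F : FusionSystem S} {T : Subgroup Ω}
    {θ : S →* Ω'} {E : FusionSystem S'} [Finite S] {p : ℕ} [Fact p.Prime] (hS : IsPGroup p S)
    (hF : F.IsSaturated p) (h : Fac F T θ E) {R : Subgroup Ω} (hR : SolvTo F R) :
    SolvTo E (imageAlong θ R) := by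
  induction hR with
  | bot =>
    have : imageAlong θ (⊥ : Subgroup Ω) = ⊥ := by
      rw [eq_bot_iff]
      intro y hy
      obtain ⟨x, hx, rfl⟩ := (mem_imageAlong bot_le).1 hy
      rw [Subgroup.mem_bot] at hx
      rw [hx, tx_one]
      exact Subgroup.one_mem _
    rw [this]
    exact SolvTo.bot
  | @step R U h1 h2 h3 h4 ih =>
    refine SolvTo.step ih ?_ ?_ ?_
    · rw [← imageAlong_sup_ker h h2.1]
      exact (h.stronglyClosed_image le_sup_right (sup_le h2.1 h.sc.1)).2 (StronglyClosed.sup hS hF h2 h.sc)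
    · intro y hy
      obtain ⟨x, hx, rfl⟩ := (mem_imageAlong (h3.trans h2.1)).1 hy
      exact (mem_imageAlong h2.1).2 ⟨x, h3 hx, rfl⟩
    · intro x' hx' y' hy'
      obtain ⟨x, hx, rfl⟩ := (mem_imageAlong h2.1).1 hx'
      obtain ⟨y, hy, rfl⟩ := (mem_imageAlong h2.1).1 hy'
      rw [← tx_comm (h2.1 hx) (h2.1 hy)]
      exact (mem_imageAlong (h3.trans h2.1)).2 ⟨_, h4 x hx y hy, rfl⟩

theorem SolvTo.pre {Ω' : Type*} [Group Ω'] {S' : Subgroup Ω'} {F : FusionSystem S} {T : Subgroup Ω}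
    {θ : S →* Ω'} {E : FusionSystem S'} [Finite S] (h : Fac F T θ E) (hT : SolvTo F T) {R : Subgroup Ω'}
    (hR : SolvTo E R) : SolvTo F (preimageAlong θ R) := by
  induction hR with
  | bot => rw [h.pre_bot]; exact hT
  | @step R U h1 h2 h3 h4 ih =>
    refine SolvTo.step ih ((h.stronglyClosed_pre h2.1).2 h2) (h.pre_mono h3) ?_
    intro x hx y hy
    rw [mem_preimageAlong] at hx hy ⊢
    refine ⟨S.mul_mem (S.mul_mem (S.mul_mem hx.1 hy.1) (S.inv_mem hx.1)) (S.inv_mem hy.1), ?_⟩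
    rw [tx_comm hx.1 hy.1]
    exact h4 _ hx.2 _ hy.2

end CfsgLib.Fusion
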