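import Cfsg.Agent.Lib.LinearGL
import Cfsg.Agent.Lib.IsomDecomp
import Cfsg.Prelude.Def_ClassicalGeometry

/-!
# Structure of `GL_n`: Borel subgroups, monomial matrices, parabolics
-/

namespace CfsgLib.GLStruct

open Module Cfsg

set_option linter.unusedSimpArgs false
set_option linter.unusedSectionVars false

variable {F : Type*} [Field F]

/-! ### The Borel subgroup -/

/-- Admissible entries. -/
def BP {n : ℕ} (i j : Fin n) (x : F) : Prop := (i < j → x = 0) ∧ (i = j → x ≠ 0)

lemma card_BP [Fintype F] {n : ℕ} (i j : Fin n) : Nat.card {x : F // BP i j x} =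
    if i < j then 1 else if i = j then Fintype.card F - 1 else Fintype.card F := by
  classical
  by_cases h : i < j
  · rw [if_pos h]
    have : {x : F // BP i j x} ≃ Unit :=
      { toFun := fun _ => ()
        invFun := fun _ => ⟨0, fun _ => rfl, fun h' => absurd h (h' ▸ lt_irrefl i)⟩
        left_inv := fun x => Subtype.ext (x.2.1 h).symm
        right_inv := fun _ => rfl }
    rw [Nat.card_congr this, Nat.card_unique]
  · rw [if_neg h]
    by_cases h' : i = j
    · rw [if_pos h']
      have e : {x : F // BP i j x} ≃ Fˣ :=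
        { toFun := fun x => Units.mk0 x.1 (x.2.2 h')
          invFun := fun u => ⟨u, fun h'' => absurd h'' h, fun _ => u.ne_zero⟩
          left_inv := fun x => rfl
          right_inv := fun u => by ext; rfl }
      rw [Nat.card_congr e, Nat.card_eq_fintype_card, Fintype.card_units]
    · rw [if_neg h']
      have e : {x : F // BP i j x} ≃ F :=
        { toFun := fun x => x.1
          invFun := fun u => ⟨u, fun h'' => absurd h'' h, fun h'' => absurd h'' h'⟩
          left_inv := fun x => rfl
          right_inv := fun u => rfl }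
      rw [Nat.card_congr e, Nat.card_eq_fintype_card]

/-- The Borel subgroup in coordinates. -/
noncomputable def borelEquiv (n : ℕ) :
    {g : GL (Fin n) F // ∀ i j : Fin n, i < j → (g : Matrix (Fin n) (Fin n) F) i j = 0} ≃
      (∀ i j : Fin n, {x : F // BP i j x}) where
  toFun g i j := ⟨(g.1 : Matrix (Fin n) (Fin n) F) i j, fun h => g.2 i j h, by
    rintro rfl h0
    have h1 : (g.1 : Matrix (Fin n) (Fin n) F).det = ∏ i, (g.1 : Matrix (Fin n) (Fin n) F) i i :=
      Matrix.det_of_lowerTriangular _ (fun a b hab => g.2 a b hab)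
    have h2 : IsUnit (g.1 : Matrix (Fin n) (Fin n) F).det :=
      (Matrix.isUnit_iff_isUnit_det _).mp g.1.isUnit
    rw [h1] at h2
    exact Finset.prod_ne_zero_iff.mp h2.ne_zero i (Finset.mem_univ i) h0⟩
  invFun f := ⟨Matrix.GeneralLinearGroup.mk'' (Matrix.of fun i j => (f i j).1) (by
      rw [Matrix.det_of_lowerTriangular (Matrix.of fun i j => (f i j).1)
        (fun a b hab => (f a b).2.1 hab)]
      exact IsUnit.mk0 _ (Finset.prod_ne_zero_iff.mpr fun i _ => (f i i).2.2 rfl)),
    fun i j h => (f i j).2.1 h⟩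
  left_inv g := by
    apply Subtype.ext
    apply Units.ext
    rfl
  right_inv f := rfl

theorem card_borel [Fintype F] (n : ℕ) :
    Nat.card {g : GL (Fin n) F // ∀ i j : Fin n, i < j → (g : Matrix (Fin n) (Fin n) F) i j = 0} =
      Fintype.card F ^ (n * (n - 1) / 2) * (Fintype.card F - 1) ^ n := by
  rw [Nat.card_congr (borelEquiv n), Nat.card_pi]
  have h1 : ∀ i : Fin n, Nat.card (∀ j : Fin n, {x : F // BP i j x}) =
      Fintype.card F ^ (i : ℕ) * (Fintype.card F - 1) := by
    intro i
    rw [Nat.card_pi]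
    simp only [card_BP]
    rw [Finset.prod_ite, Finset.prod_ite]
    have h2 : (Finset.univ.filter (fun j : Fin n => ¬ i < j)).filter (fun j => i = j) = {i} := by
      ext j
      simp only [Finset.mem_filter, Finset.mem_univ, true_and, Finset.mem_singleton]
      constructor
      · rintro ⟨_, h⟩; exact h.symm
      · rintro rfl; exact ⟨lt_irrefl _, rfl⟩
    have h3 : (Finset.univ.filter (fun j : Fin n => ¬ i < j)).filter (fun j => ¬ i = j) =
        Finset.Iio i := by
      ext j
      simp only [Finset.mem_filter, Finset.mem_univ, true_and, Finset.mem_Iio, not_lt]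
      constructor
      · rintro ⟨h1, h2⟩; exact lt_of_le_of_ne h1 (Ne.symm h2)
      · intro h; exact ⟨h.le, h.ne'⟩
    rw [h2, h3, Finset.prod_const_one, one_mul, Finset.prod_singleton, Finset.prod_const,
      Fin.card_Iio, mul_comm]
  rw [Finset.prod_congr rfl fun i _ => h1 i, Finset.prod_mul_distrib, Finset.prod_const,
    Finset.card_univ, Fintype.card_fin, Finset.prod_pow_eq_pow_sum,
    Fin.sum_univ_eq_sum_range (fun i => i) n, Finset.sum_range_id]

/-! ### Monomial matrices -/

lemma mem_diag_iff {n : ℕ} (g : GL (Fin n) F) :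
    g ∈ ((Units.map (Matrix.diagonalRingHom (Fin n) F).toMonoidHom).range :
      Subgroup (GL (Fin n) F)) ↔ ∃ d : Fin n → F, (g : Matrix (Fin n) (Fin n) F) =
        Matrix.diagonal d := by
  rw [MonoidHom.mem_range]
  constructor
  · rintro ⟨d, rfl⟩
    exact ⟨d, rfl⟩
  · rintro ⟨d, hd⟩
    have h1 : ∀ i, d i ≠ 0 := by
      have h2 : IsUnit (g : Matrix (Fin n) (Fin n) F).det :=
        (Matrix.isUnit_iff_isUnit_det _).mp g.isUnit
      rw [hd, Matrix.det_diagonal] at h2
      intro i
      exact Finset.prod_ne_zero_iff.mp h2.ne_zero i (Finset.mem_univ i)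
    refine ⟨⟨d, fun i => (d i)⁻¹, ?_, ?_⟩, ?_⟩
    · funext i; exact mul_inv_cancel₀ (h1 i)
    · funext i; exact inv_mul_cancel₀ (h1 i)
    · apply Units.ext
      exact hd.symm

lemma row_ne_zero {n : ℕ} (g : GL (Fin n) F) (i : Fin n) :
    ∃ j, (g : Matrix (Fin n) (Fin n) F) i j ≠ 0 := by
  by_contra hcon
  push Not at hcon
  have h2 : IsUnit (g : Matrix (Fin n) (Fin n) F).det :=
    (Matrix.isUnit_iff_isUnit_det _).mp g.isUnit
  rw [Matrix.det_eq_zero_of_row_eq_zero i hcon] at h2
  exact not_isUnit_zero h2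

theorem mem_normalizer_diag_iff (hF : ∃ a : F, a ≠ 0 ∧ a ≠ 1) (n : ℕ) (g : GL (Fin n) F) :
    g ∈ Subgroup.normalizer (((Units.map (Matrix.diagonalRingHom (Fin n) F).toMonoidHom).range :
      Subgroup (GL (Fin n) F)) : Set (GL (Fin n) F)) ↔
      ∀ i : Fin n, ∃! j : Fin n, (g : Matrix (Fin n) (Fin n) F) i j ≠ 0 := by
  rw [Subgroup.mem_normalizer_iff]
  constructor
  · intro h i
    obtain ⟨j, hj⟩ := row_ne_zero g i
    refine ⟨j, hj, fun k hk => ?_⟩
    by_contra hkj
    obtain ⟨a, ha0, ha1⟩ := hF
    have hmem : Units.map (Matrix.diagonalRingHom (Fin n) F).toMonoidHom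
      (⟨fun l => if l = j then a else 1, fun l => if l = j then a⁻¹ else 1,
        by funext l; by_cases hl : l = j <;> simp [hl, ha0],
        by funext l; by_cases hl : l = j <;> simp [hl, ha0]⟩ : (Fin n → F)ˣ) ∈
      ((Units.map (Matrix.diagonalRingHom (Fin n) F).toMonoidHom).range :
        Subgroup (GL (Fin n) F)) := ⟨_, rfl⟩
    have h1 := (h _).mp hmem
    rw [mem_diag_iff] at h1
    obtain ⟨d, hd⟩ := h1
    have h2 : (g : Matrix (Fin n) (Fin n) F) * Matrix.diagonal (fun l => if l = j then a else 1) =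
        Matrix.diagonal d * (g : Matrix (Fin n) (Fin n) F) := by
      rw [← hd]
      change (g : Matrix (Fin n) (Fin n) F) * Matrix.diagonal (fun l => if l = j then a else 1) =
        ((g : Matrix (Fin n) (Fin n) F) * Matrix.diagonal (fun l => if l = j then a else 1) *
        ((g⁻¹ : GL (Fin n) F) : Matrix (Fin n) (Fin n) F)) * (g : Matrix (Fin n) (Fin n) F)
      rw [Matrix.mul_assoc _ _ (g : Matrix (Fin n) (Fin n) F)]
      have h3 : ((g⁻¹ : GL (Fin n) F) : Matrix (Fin n) (Fin n) F) *
        (g : Matrix (Fin n) (Fin n) F) = 1 := Units.inv_mul g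
      rw [h3, Matrix.mul_one]
    have e1 := congrFun (congrFun h2 i) j
    have e2 := congrFun (congrFun h2 i) k
    rw [Matrix.mul_diagonal, Matrix.diagonal_mul] at e1 e2
    rw [if_pos rfl, mul_comm] at e1
    rw [if_neg hkj, mul_one] at e2
    have h4 := mul_right_cancel₀ hj e1
    have h5 : (1 : F) = d i := by
      apply mul_right_cancel₀ hk
      rw [one_mul]; exact e2
    exact ha1 (h4.trans h5.symm)
  · intro h
    choose π hπ hπu using h
    have hg : ∀ i j, (g : Matrix (Fin n) (Fin n) F) i j ≠ 0 ↔ j = π i := by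
      intro i j
      constructor
      · exact hπu i j
      · rintro rfl; exact hπ i
    have hg0 : ∀ i j, j ≠ π i → (g : Matrix (Fin n) (Fin n) F) i j = 0 := by
      intro i j hj
      by_contra hne
      exact hj ((hg i j).mp hne)
    have hinj : Function.Injective π := by
      intro a b hab
      by_contra hne
      have h2 : IsUnit (g : Matrix (Fin n) (Fin n) F).det :=
        (Matrix.isUnit_iff_isUnit_det _).mp g.isUnit
      have h3 : ((g : Matrix (Fin n) (Fin n) F).updateRow a
          ((g : Matrix (Fin n) (Fin n) F) a - ((g : Matrix (Fin n) (Fin n) F) a (π a) /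
            (g : Matrix (Fin n) (Fin n) F) b (π a)) • (g : Matrix (Fin n) (Fin n) F) b)).det = 0 := by
        apply Matrix.det_eq_zero_of_row_eq_zero a
        intro j
        rw [Matrix.updateRow_self, Pi.sub_apply, Pi.smul_apply, smul_eq_mul]
        by_cases hj : j = π a
        · subst hj
          rw [div_mul_cancel₀ _ ((hg b _).mpr hab), sub_self]
        · rw [hg0 a j hj, hg0 b j (by rw [← hab]; exact hj), mul_zero, sub_zero]
      rw [sub_eq_add_neg, ← neg_smul, Matrix.det_updateRow_add_smul_self _ hne] at h3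
      rw [h3] at h2
      exact not_isUnit_zero h2
    have hbij : Function.Bijective π := Finite.injective_iff_bijective.mp hinj
    have key : ∀ (d d' : Fin n → F), (∀ i, d (π i) = d' i) →
        (g : Matrix (Fin n) (Fin n) F) * Matrix.diagonal d =
        Matrix.diagonal d' * (g : Matrix (Fin n) (Fin n) F) := by
      intro d d' hd
      ext i j
      rw [Matrix.mul_diagonal, Matrix.diagonal_mul]
      by_cases hj : j = π i
      · rw [hj, hd, mul_comm]
      · rw [hg0 i j hj, zero_mul, mul_zero]
    have hgi : (g : Matrix (Fin n) (Fin n) F) * ((g⁻¹ : GL (Fin n) F) : Matrix (Fin n) (Fin n) F) =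
      1 := Units.mul_inv g
    have hig : ((g⁻¹ : GL (Fin n) F) : Matrix (Fin n) (Fin n) F) * (g : Matrix (Fin n) (Fin n) F) =
      1 := Units.inv_mul g
    intro x
    rw [mem_diag_iff, mem_diag_iff]
    have hx : ((g * x * g⁻¹ : GL (Fin n) F) : Matrix (Fin n) (Fin n) F) =
      (g : Matrix (Fin n) (Fin n) F) * (x : Matrix (Fin n) (Fin n) F) *
        ((g⁻¹ : GL (Fin n) F) : Matrix (Fin n) (Fin n) F) := rfl
    constructor
    · rintro ⟨d, hd⟩
      refine ⟨fun i => d (π i), ?_⟩
      rw [hx, hd, key d _ (fun i => rfl), Matrix.mul_assoc, hgi, Matrix.mul_one]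
    · rintro ⟨d', hd'⟩
      let e := Equiv.ofBijective π hbij
      refine ⟨fun j => d' (e.symm j), ?_⟩
      rw [hx] at hd'
      have h1 : (g : Matrix (Fin n) (Fin n) F) * (x : Matrix (Fin n) (Fin n) F) =
          Matrix.diagonal d' * (g : Matrix (Fin n) (Fin n) F) := by
        rw [← hd', Matrix.mul_assoc, hig, Matrix.mul_one]
      have h2 := key (fun j => d' (e.symm j)) d' (fun i => by
        change d' (e.symm (e i)) = d' i
        rw [Equiv.symm_apply_apply])
      calc (x : Matrix (Fin n) (Fin n) F) =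
          ((g⁻¹ : GL (Fin n) F) : Matrix (Fin n) (Fin n) F) *
            ((g : Matrix (Fin n) (Fin n) F) * (x : Matrix (Fin n) (Fin n) F)) := by
              rw [← Matrix.mul_assoc, hig, Matrix.one_mul]
        _ = _ := by rw [h1, ← h2, ← Matrix.mul_assoc, hig, Matrix.one_mul]

end CfsgLib.GLStruct
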