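import Cfsg.Agent.Lib.GLStruct
import Cfsg.Agent.Lib.Symp

/-!
# Structure of `GL_n`: parabolics
-/

namespace CfsgLib.GLStruct

open Module Cfsg
open Matrix (vecMulVec mulVec)

set_option linter.unusedSimpArgs false
set_option linter.unusedSectionVars false

variable {F : Type*} [Field F]

/-! ### Orders of maximal parabolics -/

section order

variable (n k : ℕ) (hk : k ≤ n)

/-- The block decomposition of the index set. -/
def eblk : Fin k ⊕ Fin (n - k) ≃ Fin n := finSumFinEquiv.trans (finCongr (by omega))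

lemma eblk_inl (i : Fin k) : (eblk n k hk (.inl i) : ℕ) = i := by
  simp [eblk]

lemma eblk_inr (i : Fin (n - k)) : (eblk n k hk (.inr i) : ℕ) = k + i := by
  simp [eblk]

lemma forall_ge_iff (p : Fin n → Prop) :
    (∀ i : Fin n, k ≤ (i : ℕ) → p i) ↔ ∀ j : Fin (n - k), p (eblk n k hk (.inr j)) := by
  constructor
  · intro h j
    apply h
    rw [eblk_inr]
    omega
  · intro h i hi
    obtain ⟨x, rfl⟩ := (eblk n k hk).surjective i
    rcases x with x | x
    · rw [eblk_inl] at hi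
      omega
    · exact h x

/-- Reindexing of `GL`. -/
noncomputable def eGL : GL (Fin k ⊕ Fin (n - k)) F ≃* GL (Fin n) F :=
  Units.mapEquiv (Matrix.reindexAlgEquiv F F (eblk n k hk)).toMulEquiv

lemma eGL_mulVec (M : GL (Fin k ⊕ Fin (n - k)) F) (v : Fin n → F) :
    (eGL n k hk M : Matrix (Fin n) (Fin n) F).mulVec v =
      fun i => M.val.mulVec (fun j => v (eblk n k hk j)) ((eblk n k hk).symm i) := by
  funext i
  change ∑ j, M.val ((eblk n k hk).symm i) ((eblk n k hk).symm j) * v j = _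
  rw [← Equiv.sum_comp (eblk n k hk)]
  apply Finset.sum_congr rfl
  intro j _
  rw [Equiv.symm_apply_apply]

lemma mem_par_iff (M : GL (Fin k ⊕ Fin (n - k)) F) :
    eGL n k hk M ∈ stabilizing (glToMat (Fin n) F) {v : Fin n → F | ∀ i : Fin n, k ≤ (i : ℕ) → v i = 0}
      ↔ (M : Matrix (Fin k ⊕ Fin (n - k)) (Fin k ⊕ Fin (n - k)) F).toBlocks₂₁ = 0 := by
  have h0 : eGL n k hk M ∈ stabilizing (glToMat (Fin n) F)
      {v : Fin n → F | ∀ i : Fin n, k ≤ (i : ℕ) → v i = 0} ↔
      ∀ w : Fin k ⊕ Fin (n - k) → F, (∀ j, w (.inr j) = 0) ↔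
        (∀ j, M.val.mulVec w (.inr j) = 0) := by
    constructor
    · intro h w
      have h1 := h (fun i => w ((eblk n k hk).symm i))
      simp only [Set.mem_setOf_eq, glToMat, Units.coeHom_apply, eGL_mulVec,
        forall_ge_iff n k hk, Equiv.symm_apply_apply] at h1
      exact h1
    · intro h v
      simp only [Set.mem_setOf_eq, glToMat, Units.coeHom_apply, eGL_mulVec,
        forall_ge_iff n k hk, Equiv.symm_apply_apply]
      exact h (fun j => v (eblk n k hk j))
  rw [h0]
  have hM : M.val = Matrix.fromBlocks M.val.toBlocks₁₁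
    M.val.toBlocks₁₂ M.val.toBlocks₂₁ M.val.toBlocks₂₂ :=
    (Matrix.fromBlocks_toBlocks _).symm
  constructor
  · intro h
    ext i j
    have h1 := (h (Pi.single (.inl j) 1)).mp (by intro l; simp)
    have h2 := h1 i
    rw [Matrix.mulVec_single_one] at h2
    exact h2
  · intro h w
    have hu : IsUnit M.val.det := (Matrix.isUnit_iff_isUnit_det _).mp M.isUnit
    rw [hM, h, Matrix.det_fromBlocks_zero₂₁, IsUnit.mul_iff] at hu
    have hD := hu.2
    have h1 : ∀ j, M.val.mulVec w (.inr j) =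
        (M.val.toBlocks₂₂).mulVec (fun l => w (.inr l)) j := by
      intro j
      rw [hM, Matrix.fromBlocks_mulVec, h]
      simp
      rfl
    simp only [h1]
    constructor
    · intro h2 j
      have : (fun l => w (.inr l)) = 0 := funext h2
      rw [this, Matrix.mulVec_zero]
      rfl
    · intro h2
      have h3 : (M.val.toBlocks₂₂).mulVec (fun l => w (.inr l)) = 0 := funext h2
      have h4 : (fun l => w (.inr l)) = 0 := by
        have h5 := Matrix.mulVec_injective_iff_isUnit.mpr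
          ((Matrix.isUnit_iff_isUnit_det _).mpr hD)
        apply h5
        rw [h3, Matrix.mulVec_zero]
      exact congrFun h4

/-- Block triangular invertible matrices. -/
noncomputable def parEquiv :
    {M : GL (Fin k ⊕ Fin (n - k)) F //
      (M : Matrix (Fin k ⊕ Fin (n - k)) (Fin k ⊕ Fin (n - k)) F).toBlocks₂₁ = 0} ≃
    (GL (Fin k) F × GL (Fin (n - k)) F) × Matrix (Fin k) (Fin (n - k)) F where
  toFun M := ((Matrix.GeneralLinearGroup.mk'' M.1.val.toBlocks₁₁ (by
      have hu : IsUnit M.1.val.det := (Matrix.isUnit_iff_isUnit_det _).mp M.1.isUnit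
      rw [← Matrix.fromBlocks_toBlocks M.1.val, M.2, Matrix.det_fromBlocks_zero₂₁,
        IsUnit.mul_iff] at hu
      exact hu.1),
    Matrix.GeneralLinearGroup.mk'' M.1.val.toBlocks₂₂ (by
      have hu : IsUnit M.1.val.det := (Matrix.isUnit_iff_isUnit_det _).mp M.1.isUnit
      rw [← Matrix.fromBlocks_toBlocks M.1.val, M.2, Matrix.det_fromBlocks_zero₂₁,
        IsUnit.mul_iff] at hu
      exact hu.2)), M.1.val.toBlocks₁₂)
  invFun x := ⟨Matrix.GeneralLinearGroup.mk'' (Matrix.fromBlocks x.1.1.val x.2 0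
      x.1.2.val) (by
    rw [Matrix.det_fromBlocks_zero₂₁]
    exact ((Matrix.isUnit_iff_isUnit_det _).mp x.1.1.isUnit).mul
      ((Matrix.isUnit_iff_isUnit_det _).mp x.1.2.isUnit)),
    Matrix.toBlocks_fromBlocks₂₁ _ _ _ _⟩
  left_inv M := by
    apply Subtype.ext
    apply Units.ext
    change Matrix.fromBlocks M.1.val.toBlocks₁₁ M.1.val.toBlocks₁₂ 0
      M.1.val.toBlocks₂₂ = M.1.val
    conv_rhs => rw [← Matrix.fromBlocks_toBlocks M.1.val, M.2]
  right_inv x := by
    rcases x with ⟨⟨A, D⟩, B⟩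
    refine Prod.ext (Prod.ext ?_ ?_) ?_
    · apply Units.ext
      exact Matrix.toBlocks_fromBlocks₁₁ _ _ _ _
    · apply Units.ext
      exact Matrix.toBlocks_fromBlocks₂₂ _ _ _ _
    · exact Matrix.toBlocks_fromBlocks₁₂ _ _ _ _

include hk in
theorem card_par [Fintype F] :
    Nat.card ↥(stabilizing (glToMat (Fin n) F)
      {v : Fin n → F | ∀ i : Fin n, k ≤ (i : ℕ) → v i = 0}) =
    Fintype.card F ^ (k * (n - k)) *
      (∏ i : Fin k, (Fintype.card F ^ k - Fintype.card F ^ (i : ℕ))) *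
      ∏ i : Fin (n - k), (Fintype.card F ^ (n - k) - Fintype.card F ^ (i : ℕ)) := by
  have e : {M : GL (Fin k ⊕ Fin (n - k)) F //
      (M : Matrix (Fin k ⊕ Fin (n - k)) (Fin k ⊕ Fin (n - k)) F).toBlocks₂₁ = 0} ≃
      ↥(stabilizing (glToMat (Fin n) F) {v : Fin n → F | ∀ i : Fin n, k ≤ (i : ℕ) → v i = 0}) :=
    (eGL n k hk).toEquiv.subtypeEquiv fun M => (mem_par_iff n k hk M).symm
  rw [← Nat.card_congr e, Nat.card_congr (parEquiv n k), Nat.card_prod, Nat.card_prod,
    Matrix.card_GL_field, Matrix.card_GL_field]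
  have h1 : Nat.card (Matrix (Fin k) (Fin (n - k)) F) = Fintype.card F ^ (k * (n - k)) := by
    change Nat.card (Fin k → Fin (n - k) → F) = _
    rw [Nat.card_fun, Nat.card_fun, Nat.card_fin, Nat.card_fin, Nat.card_eq_fintype_card,
      ← pow_mul, mul_comm]
  rw [h1]
  ring

end order

/-! ### Maximality of parabolics -/

section maximal

variable (n k : ℕ)

/-- The coordinate subspace. -/
def CW (F : Type*) [Field F] : Submodule F (Fin n → F) where
  carrier := {v : Fin n → F | ∀ i : Fin n, k ≤ (i : ℕ) → v i = 0}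
  add_mem' := by
    intro a b ha hb i hi
    rw [Pi.add_apply, ha i hi, hb i hi, add_zero]
  zero_mem' := by intro i _; rfl
  smul_mem' := by
    intro c a ha i hi
    rw [Pi.smul_apply, ha i hi, smul_zero]

lemma mem_CW {v : Fin n → F} : v ∈ CW n k F ↔ ∀ i : Fin n, k ≤ (i : ℕ) → v i = 0 := Iff.rfl

/-- The parabolic subgroup. -/
abbrev PW (F : Type*) [Field F] : Subgroup (GL (Fin n) F) :=
  stabilizing (glToMat (Fin n) F) {v : Fin n → F | ∀ i : Fin n, k ≤ (i : ℕ) → v i = 0}

lemma mem_PW {g : GL (Fin n) F} : g ∈ PW n k F ↔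
    ∀ v, v ∈ CW n k F ↔ g.val.mulVec v ∈ CW n k F := Iff.rfl

variable {n k}

/-- The matrix `1 + u fᵀ`. -/
noncomputable def tv (u f : Fin n → F) (h : 1 + f ⬝ᵥ u ≠ 0) : GL (Fin n) F :=
  Matrix.GeneralLinearGroup.mk'' (1 + vecMulVec u f) (by
    rw [Matrix.vecMulVec_eq Unit, Matrix.det_one_add_replicateCol_mul_replicateRow]
    exact IsUnit.mk0 _ h)

lemma tv_mulVec (u f : Fin n → F) (h : 1 + f ⬝ᵥ u ≠ 0) (v : Fin n → F) :
    (tv u f h).val.mulVec v = v + (f ⬝ᵥ v) • u := by
  change (1 + vecMulVec u f).mulVec v = _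
  rw [Matrix.add_mulVec, Matrix.one_mulVec, Matrix.vecMulVec_mulVec]
  congr 1
  funext i
  simp [mul_comm]

lemma mem_PW_of {g : GL (Fin n) F} (h : ∀ v ∈ CW n k F, g.val.mulVec v ∈ CW n k F) :
    g ∈ PW n k F := by
  rw [mem_PW]
  have h1 : Submodule.map (Matrix.toLin' g.val) (CW n k F) = CW n k F := by
    apply Submodule.eq_of_le_of_finrank_eq
    · rintro _ ⟨v, hv, rfl⟩
      rw [Matrix.toLin'_apply]
      exact h v hv
    · have hinj : Function.Injective (Matrix.toLin' g.val) := by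
        have := Matrix.mulVec_injective_iff_isUnit.mpr g.isUnit
        exact this
      exact (Submodule.equivMapOfInjective _ hinj (CW n k F)).symm.finrank_eq
  intro v
  constructor
  · exact h v
  · intro hv
    rw [← h1] at hv
    obtain ⟨w, hw, hwv⟩ := hv
    have hinj := Matrix.mulVec_injective_iff_isUnit.mpr g.isUnit
    have : w = v := hinj hwv
    rw [← this]
    exact hw

lemma tv_mem_left {u f : Fin n → F} (h : 1 + f ⬝ᵥ u ≠ 0) (hu : u ∈ CW n k F) :
    tv u f h ∈ PW n k F := by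
  apply mem_PW_of
  intro v hv
  rw [tv_mulVec]
  exact add_mem hv (Submodule.smul_mem _ _ hu)

lemma tv_mem_right {u f : Fin n → F} (h : 1 + f ⬝ᵥ u ≠ 0) (hf : ∀ v ∈ CW n k F, f ⬝ᵥ v = 0) :
    tv u f h ∈ PW n k F := by
  apply mem_PW_of
  intro v hv
  rw [tv_mulVec, hf v hv, zero_smul, add_zero]
  exact hv

lemma exists_functional {u v : Fin n → F} (hu : u ∉ CW n k F) (hv : v ∉ CW n k F) :
    ∃ f : Fin n → F, (∀ w ∈ CW n k F, f ⬝ᵥ w = 0) ∧ f ⬝ᵥ u = 1 ∧ f ⬝ᵥ v ≠ 0 := by
  rw [mem_CW] at hu hv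
  push Not at hu hv
  obtain ⟨i, hi, hui⟩ := hu
  obtain ⟨j, hj, hvj⟩ := hv
  by_cases hvi : v i = 0
  · by_cases huj : u j = 0
    · refine ⟨Pi.single i (u i)⁻¹ + Pi.single j 1, ?_, ?_, ?_⟩
      · intro w hw
        rw [add_dotProduct, single_dotProduct, single_dotProduct, hw i hi, hw j hj]
        simp
      · rw [add_dotProduct, single_dotProduct, single_dotProduct, huj, inv_mul_cancel₀ hui]
        simp
      · rw [add_dotProduct, single_dotProduct, single_dotProduct, hvi]
        simpa using hvj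
    · refine ⟨Pi.single j (u j)⁻¹, ?_, ?_, ?_⟩
      · intro w hw
        rw [single_dotProduct, hw j hj, mul_zero]
      · rw [single_dotProduct, inv_mul_cancel₀ huj]
      · rw [single_dotProduct]
        exact mul_ne_zero (inv_ne_zero huj) hvj
  · refine ⟨Pi.single i (u i)⁻¹, ?_, ?_, ?_⟩
    · intro w hw
      rw [single_dotProduct, hw i hi, mul_zero]
    · rw [single_dotProduct, inv_mul_cancel₀ hui]
    · rw [single_dotProduct]
      exact mul_ne_zero (inv_ne_zero hui) hvi

lemma exists_move {u v : Fin n → F} (hu : u ∉ CW n k F) (hv : v ∉ CW n k F) :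
    ∃ p ∈ PW n k F, p.val.mulVec u = v := by
  obtain ⟨f, hf, hfu, hfv⟩ := exists_functional hu hv
  have h : 1 + f ⬝ᵥ (v - u) ≠ 0 := by
    rw [dotProduct_sub, hfu]
    simpa using hfv
  refine ⟨tv (v - u) f h, tv_mem_right h hf, ?_⟩
  rw [tv_mulVec, hfu, one_smul, add_sub_cancel]

lemma CW_ne_top (hkn : k < n) : ∃ v : Fin n → F, v ∉ CW n k F := by
  refine ⟨Pi.single ⟨k, hkn⟩ 1, fun h => ?_⟩
  have := h ⟨k, hkn⟩ le_rfl
  rw [Pi.single_eq_same] at this
  exact one_ne_zero this

lemma CW_ne_bot (hk0 : 0 < k) (hkn : k < n) : ∃ v ∈ CW n k F, v ≠ 0 := by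
  refine ⟨Pi.single ⟨0, by omega⟩ 1, ?_, ?_⟩
  · intro i hi
    apply Pi.single_eq_of_ne
    intro h
    rw [h] at hi
    simp at hi
    omega
  · intro h
    have := congrFun h ⟨0, by omega⟩
    rw [Pi.single_eq_same] at this
    exact one_ne_zero this

lemma exists_dual_vec {u w : Fin n → F} (h : ¬ ∃ c : F, w = c • u) (hw : w ≠ 0) :
    ∃ f : Fin n → F, f ⬝ᵥ u = 0 ∧ f ⬝ᵥ w = 1 := by
  have h1 : w ∉ Submodule.span F {u} := by
    rw [Submodule.mem_span_singleton]
    rintro ⟨c, hc⟩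
    exact h ⟨c, hc.symm⟩
  obtain ⟨φ, hφ, hφ2⟩ := Submodule.exists_le_ker_of_notMem h1
  have h2 : ∀ v : Fin n → F, (fun i => φ (fun j => if i = j then 1 else 0)) ⬝ᵥ v = φ v := by
    intro v
    rw [LinearMap.pi_apply_eq_sum_univ φ v]
    apply Finset.sum_congr rfl
    intro i _
    rw [smul_eq_mul, mul_comm]
  refine ⟨(φ w)⁻¹ • (fun i => φ (fun j => if i = j then 1 else 0)), ?_, ?_⟩
  · rw [smul_dotProduct, h2]
    have : φ u = 0 := hφ2 (Submodule.mem_span_singleton_self u)
    rw [this, smul_zero]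
  · rw [smul_dotProduct, h2, smul_eq_mul, inv_mul_cancel₀ hφ]

/-- Invariant subspaces of a maximal parabolic. -/
lemma invariant_eq {U : Submodule F (Fin n → F)} (hU : ∀ p ∈ PW n k F, ∀ u ∈ U,
    p.val.mulVec u ∈ U) (hU0 : U ≠ ⊥) (hkn : k < n) : U = CW n k F ∨ U = ⊤ := by
  obtain ⟨u, hu, hu0⟩ := Submodule.exists_mem_ne_zero_of_ne_bot hU0
  have h1 : CW n k F ≤ U := by
    intro w hw
    by_cases hdep : ∃ c : F, u = c • w
    · obtain ⟨c, rfl⟩ := hdep
      have hc : c ≠ 0 := by
        rintro rfl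
        exact hu0 (zero_smul _ _)
      have := U.smul_mem c⁻¹ hu
      rwa [smul_smul, inv_mul_cancel₀ hc, one_smul] at this
    · obtain ⟨f, hf1, hf2⟩ := exists_dual_vec hdep hu0
      have h : 1 + f ⬝ᵥ w ≠ 0 := by rw [hf1, add_zero]; exact one_ne_zero
      have h2 := hU _ (tv_mem_left h hw) u hu
      rw [tv_mulVec, hf2, one_smul] at h2
      have h3 := U.sub_mem h2 hu
      rwa [add_sub_cancel_left] at h3
  by_cases h2 : U ≤ CW n k F
  · exact Or.inl (le_antisymm h2 h1)
  · right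
    obtain ⟨u', hu', hu'W⟩ := Set.not_subset.mp h2
    have h3 : ∀ v, v ∉ CW n k F → v ∈ U := by
      intro v hv
      obtain ⟨p, hp, hpv⟩ := exists_move (k := k) hu'W hv
      rw [← hpv]
      exact hU p hp u' hu'
    rw [eq_top_iff]
    intro v _
    by_cases hv : v ∈ CW n k F
    · exact h1 hv
    · exact h3 v hv

/-- Maximal parabolics are maximal. -/
theorem isCoatom_PW (hk0 : 0 < k) (hkn : k < n) : IsCoatom (PW n k F) := by
  obtain ⟨v₁, hv₁⟩ := CW_ne_top (F := F) hkn
  obtain ⟨w₁, hw₁, hw₁0⟩ := CW_ne_bot (F := F) hk0 hkn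
  constructor
  · intro h
    have hU : ∀ p ∈ PW n k F, ∀ u ∈ CW n k F, p.val.mulVec u ∈ CW n k F :=
      fun p hp u hu => (hp u).mp hu
    -- a transvection moving `w₁` out of `W`
    obtain ⟨f, hf1, hf2⟩ := exists_dual_vec (u := v₁) (w := w₁) (by
      rintro ⟨c, hc⟩
      rcases eq_or_ne c 0 with rfl | hc0
      · exact hw₁0 (by rw [hc, zero_smul])
      · apply hv₁
        have := (CW n k F).smul_mem c⁻¹ hw₁
        rwa [hc, smul_smul, inv_mul_cancel₀ hc0, one_smul] at this) hw₁0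
    have h2 : 1 + f ⬝ᵥ v₁ ≠ 0 := by rw [hf1, add_zero]; exact one_ne_zero
    have h3 : tv v₁ f h2 ∈ PW n k F := by rw [h]; trivial
    have h4 := hU _ h3 w₁ hw₁
    rw [tv_mulVec, hf2, one_smul] at h4
    have h5 := (CW n k F).sub_mem h4 hw₁
    rw [add_sub_cancel_left] at h5
    exact hv₁ h5
  · intro H hPH
    have hle := hPH.le
    obtain ⟨g, hgH, hgP⟩ := Set.exists_of_ssubset (SetLike.coe_ssubset_coe.mpr hPH)
    -- some element of `H` moves a vector outside `W` into `W`
    obtain ⟨h₀, hh₀, v₀, hv₀, hv₀W⟩ : ∃ h₀ ∈ H, ∃ v₀, v₀ ∉ CW n k F ∧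
        h₀.val.mulVec v₀ ∈ CW n k F := by
      have hgP' : ¬ ∀ v ∈ CW n k F, g.val.mulVec v ∈ CW n k F := fun h => hgP (mem_PW_of h)
      push Not at hgP'
      obtain ⟨w, hw, hgw⟩ := hgP'
      refine ⟨g⁻¹, H.inv_mem hgH, g.val.mulVec w, hgw, ?_⟩
      rw [Matrix.mulVec_mulVec]
      have : (g⁻¹).val * g.val = 1 := Units.inv_mul g
      rw [this, Matrix.one_mulVec]
      exact hw
    have hinto : ∀ u, ∃ h ∈ H, h.val.mulVec u ∈ CW n k F := by
      intro u
      by_cases hu : u ∈ CW n k F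
      · exact ⟨1, H.one_mem, by
          change (1 : Matrix (Fin n) (Fin n) F).mulVec u ∈ _
          rw [Matrix.one_mulVec]; exact hu⟩
      · obtain ⟨p, hp, hpu⟩ := exists_move (k := k) hu hv₀
        refine ⟨h₀ * p, H.mul_mem hh₀ (hle hp), ?_⟩
        change (h₀.val * p.val).mulVec u ∈ _
        rw [← Matrix.mulVec_mulVec, hpu]
        exact hv₀W
    -- all `1 + u fᵀ` lie in `H`
    have htv : ∀ (u f : Fin n → F) (h : 1 + f ⬝ᵥ u ≠ 0), tv u f h ∈ H := by
      intro u f h
      obtain ⟨x, hx, hxu⟩ := hinto u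
      have h1 : 1 + (Matrix.vecMul f (x⁻¹).val) ⬝ᵥ (x.val.mulVec u) ≠ 0 := by
        rw [← Matrix.dotProduct_mulVec, Matrix.mulVec_mulVec]
        have : (x⁻¹).val * x.val = 1 := Units.inv_mul x
        rw [this, Matrix.one_mulVec]
        exact h
      have h2 := hle (tv_mem_left h1 hxu)
      have h3 : tv u f h = x⁻¹ * tv (x.val.mulVec u) (Matrix.vecMul f (x⁻¹).val) h1 * x := by
        apply Units.ext
        apply CfsgLib.Symp.mulVec_injective_matrix
        intro v
        change (tv u f h).val.mulVec v = ((x⁻¹).val *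
          (tv (x.val.mulVec u) (Matrix.vecMul f (x⁻¹).val) h1).val * x.val).mulVec v
        rw [← Matrix.mulVec_mulVec, ← Matrix.mulVec_mulVec, tv_mulVec, tv_mulVec,
          Matrix.mulVec_add, Matrix.mulVec_smul, Matrix.mulVec_mulVec, Matrix.mulVec_mulVec,
          ← Matrix.dotProduct_mulVec, Matrix.mulVec_mulVec]
        have : (x⁻¹).val * x.val = 1 := Units.inv_mul x
        rw [this, Matrix.one_mulVec, Matrix.one_mulVec]
      rw [h3]
      exact H.mul_mem (H.mul_mem (H.inv_mem hx) h2) hx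
    rw [eq_top_iff]
    intro x _
    -- transvections and diagonal matrices
    have hdiag : ∀ y : GL (Fin n) F, (∃ d : Fin n → F, y.val = Matrix.diagonal d) → y ∈ H := by
      rintro y ⟨d, hd⟩
      apply hle
      apply mem_PW_of
      intro v hv i hi
      rw [hd, Matrix.mulVec_diagonal, hv i hi, mul_zero]
    have hn : Nontrivial (Fin n) := Fin.nontrivial_iff_two_le.mpr (by omega)
    have hSL : (Matrix.SpecialLinearGroup.toGL : Matrix.SpecialLinearGroup (Fin n) F →* GL (Fin n) F).range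
        ≤ H := by
      rw [MonoidHom.range_eq_map, ← CfsgLib.Linear.closure_transvections, MonoidHom.map_closure,
        Subgroup.closure_le]
      rintro _ ⟨_, ⟨i, j, hij, c, rfl⟩, rfl⟩
      have h1 : 1 + (Pi.single j c : Fin n → F) ⬝ᵥ (Pi.single i 1) ≠ 0 := by
        rw [single_dotProduct, Pi.single_eq_of_ne hij.symm, mul_zero, add_zero]
        exact one_ne_zero
      have h2 := htv (Pi.single i 1) (Pi.single j c) h1
      have h3 : Matrix.SpecialLinearGroup.toGL (Matrix.SpecialLinearGroup.transvection hij c) =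
          tv (Pi.single i 1) (Pi.single j c) h1 := by
        apply Units.ext
        change Matrix.transvection i j c = 1 + vecMulVec (Pi.single i 1) (Pi.single j c)
        rw [Matrix.transvection]
        congr 1
        ext a b
        rw [Matrix.vecMulVec_apply, Matrix.single_apply, Pi.single_apply, Pi.single_apply]
        by_cases ha : a = i
        · by_cases hb : b = j
          · simp [ha, hb]
          · simp [ha, hb, Ne.symm hb]
        · simp [ha, Ne.symm ha]
      rw [SetLike.mem_coe, h3]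
      exact h2
    obtain ⟨d, hd, hdet⟩ : ∃ d : GL (Fin n) F, (∃ e : Fin n → F, d.val = Matrix.diagonal e) ∧
        d.val.det = x.val.det := by
      have hdx : x.val.det ≠ 0 := ((Matrix.isUnit_iff_isUnit_det _).mp x.isUnit).ne_zero
      have h1 : (Matrix.diagonal (Function.update (1 : Fin n → F) ⟨0, by omega⟩ x.val.det)).det =
          x.val.det := by
        rw [Matrix.det_diagonal, Finset.prod_update_of_mem (Finset.mem_univ _)]
        simp
      refine ⟨Matrix.GeneralLinearGroup.mk'' (Matrix.diagonal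
        (Function.update (1 : Fin n → F) ⟨0, by omega⟩ x.val.det)) (by
          rw [h1]; exact IsUnit.mk0 _ hdx), ⟨_, rfl⟩, h1⟩
    have h4 : d⁻¹ * x ∈ (Matrix.SpecialLinearGroup.toGL :
        Matrix.SpecialLinearGroup (Fin n) F →* GL (Fin n) F).range := by
      rw [CfsgLib.Linear.range_toGL_eq_ker_det, MonoidHom.mem_ker, _root_.map_mul, _root_.map_inv,
        inv_mul_eq_one]
      apply Units.ext
      exact hdet
    have h5 := H.mul_mem (hdiag d hd) (hSL h4)
    rwa [mul_inv_cancel_left] at h5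

end maximal

end CfsgLib.GLStruct
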