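import Cfsg.Agent.Lib.GLStruct2

/-!
# Structure of `GL_n`: parabolics II
-/

namespace CfsgLib.GLStruct

open Module Cfsg
open Matrix (vecMulVec mulVec)

set_option linter.unusedSimpArgs false
set_option linter.unusedSectionVars false

variable {F : Type*} [Field F] {n k : ℕ}

lemma inv_mulVec_mulVec (g : GL (Fin n) F) (v : Fin n → F) :
    (g⁻¹).val.mulVec (g.val.mulVec v) = v := by
  rw [Matrix.mulVec_mulVec, show (g⁻¹).val * g.val = 1 from Units.inv_mul g, Matrix.one_mulVec]

lemma mulVec_inv_mulVec (g : GL (Fin n) F) (v : Fin n → F) :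
    g.val.mulVec ((g⁻¹).val.mulVec v) = v := by
  rw [Matrix.mulVec_mulVec, show g.val * (g⁻¹).val = 1 from Units.mul_inv g, Matrix.one_mulVec]

theorem PW_not_conj (hk0 : 0 < k) (hkn : k < n) (l : ℕ) (hl0 : 0 < l) (hln : l < n) (h2 : k ≠ l)
    (g : GL (Fin n) F) : (PW n k F).map (MulAut.conj g).toMonoidHom ≠ PW n l F := by
  intro h
  set U := Submodule.map (Matrix.toLin' g.val) (CW n k F) with hU
  have hinj : Function.Injective (Matrix.toLin' g.val) :=
    Matrix.mulVec_injective_iff_isUnit.mpr g.isUnit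
  have hfr : finrank F U = finrank F (CW n k F) :=
    (Submodule.equivMapOfInjective _ hinj (CW n k F)).symm.finrank_eq
  have hinv : ∀ p ∈ PW n l F, ∀ u ∈ U, p.val.mulVec u ∈ U := by
    intro p hp u hu
    rw [← h] at hp
    obtain ⟨p', hp', rfl⟩ := hp
    obtain ⟨w, hw, rfl⟩ := hu
    refine ⟨p'.val.mulVec w, (hp' w).mp hw, ?_⟩
    rw [Matrix.toLin'_apply, Matrix.toLin'_apply]
    change g.val.mulVec (p'.val.mulVec w) = (g.val * p'.val * (g⁻¹).val).mulVec (g.val.mulVec w)
    rw [← Matrix.mulVec_mulVec, inv_mulVec_mulVec, ← Matrix.mulVec_mulVec]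
  have hfk : ∀ m, m ≤ n → finrank F (CW n m F) = m := by
    intro m hm
    have e : CW n m F ≃ₗ[F] (Fin m → F) :=
      { toFun := fun v i => v.1 (eblk n m hm (.inl i))
        map_add' := fun _ _ => rfl
        map_smul' := fun _ _ => rfl
        invFun := fun w => ⟨fun i => Sum.elim w (fun _ => 0) ((eblk n m hm).symm i), by
          rw [mem_CW, forall_ge_iff n m hm]
          intro j
          rw [Equiv.symm_apply_apply]
          rfl⟩
        left_inv := fun v => by
          apply Subtype.ext
          funext i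
          obtain ⟨x, rfl⟩ := (eblk n m hm).surjective i
          change Sum.elim _ _ ((eblk n m hm).symm (eblk n m hm x)) = _
          rw [Equiv.symm_apply_apply]
          rcases x with x | x
          · rfl
          · exact (v.2 _ (by rw [eblk_inr]; omega)).symm
        right_inv := fun w => by
          funext i
          change Sum.elim w (fun _ => 0) ((eblk n m hm).symm (eblk n m hm (.inl i))) = w i
          rw [Equiv.symm_apply_apply]
          rfl }
    rw [e.finrank_eq, Module.finrank_fintype_fun_eq_card, Fintype.card_fin]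
  have hU0 : U ≠ ⊥ := by
    intro h0
    rw [h0, finrank_bot, hfk k hkn.le] at hfr
    omega
  rcases invariant_eq hinv hU0 hln with h3 | h3
  · rw [h3, hfk l hln.le, hfk k hkn.le] at hfr
    exact h2 hfr.symm
  · rw [h3, finrank_top, Module.finrank_fintype_fun_eq_card, Fintype.card_fin, hfk k hkn.le] at hfr
    omega

/-- The reversed inverse transpose. -/
noncomputable def invTHom (F : Type*) [Field F] (n : ℕ) : GL (Fin n) F →* GL (Fin n) F where
  toFun g := Matrix.GeneralLinearGroup.mk'' ((g⁻¹).val.transpose.submatrix Fin.rev Fin.rev) (by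
    have h1 : ((g⁻¹).val.transpose.submatrix (Fin.revPerm : Equiv.Perm (Fin n))
      (Fin.revPerm : Equiv.Perm (Fin n))).det = (g⁻¹).val.det := by
      rw [Matrix.det_submatrix_equiv_self, Matrix.det_transpose]
    change IsUnit ((g⁻¹).val.transpose.submatrix (Fin.revPerm : Equiv.Perm (Fin n))
      (Fin.revPerm : Equiv.Perm (Fin n))).det
    rw [h1]
    exact (Matrix.isUnit_iff_isUnit_det _).mp (g⁻¹).isUnit)
  map_one' := by
    apply Units.ext
    change ((1 : GL (Fin n) F)⁻¹).val.transpose.submatrix Fin.rev Fin.rev = 1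
    rw [inv_one]
    change (1 : Matrix (Fin n) (Fin n) F).transpose.submatrix Fin.rev Fin.rev = 1
    rw [Matrix.transpose_one]
    exact Matrix.submatrix_one_equiv (Fin.revPerm : Equiv.Perm (Fin n))
  map_mul' g h := by
    apply Units.ext
    change ((g * h)⁻¹).val.transpose.submatrix Fin.rev Fin.rev =
      (g⁻¹).val.transpose.submatrix Fin.rev Fin.rev * (h⁻¹).val.transpose.submatrix Fin.rev Fin.rev
    rw [_root_.mul_inv_rev]
    change ((h⁻¹).val * (g⁻¹).val).transpose.submatrix Fin.rev Fin.rev = _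
    rw [Matrix.transpose_mul]
    exact (Matrix.submatrix_mul_equiv _ _ Fin.rev (Fin.revPerm : Equiv.Perm (Fin n)) Fin.rev).symm

lemma invTHom_val (g : GL (Fin n) F) :
    (invTHom F n g).val = (g⁻¹).val.transpose.submatrix Fin.rev Fin.rev := rfl

lemma invTHom_invTHom (g : GL (Fin n) F) : invTHom F n (invTHom F n g) = g := by
  apply Units.ext
  rw [invTHom_val, ← _root_.map_inv, invTHom_val, inv_inv]
  ext i j
  simp [Matrix.submatrix_apply]

/-- The automorphism. -/
noncomputable def invT (F : Type*) [Field F] (n : ℕ) : GL (Fin n) F ≃* GL (Fin n) F :=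
  MonoidHom.toMulEquiv (invTHom F n) (invTHom F n) (MonoidHom.ext invTHom_invTHom)
    (MonoidHom.ext invTHom_invTHom)

lemma invT_mem (hk : k ≤ n) {g : GL (Fin n) F} (hg : g ∈ PW n k F) :
    invTHom F n g ∈ PW n (n - k) F := by
  have hg' := (PW n k F).inv_mem hg
  have hz : ∀ a b : Fin n, k ≤ (a : ℕ) → (b : ℕ) < k → (g⁻¹).val a b = 0 := by
    intro a b ha hb
    have h1 : (Pi.single b 1 : Fin n → F) ∈ CW n k F := by
      intro i hi
      apply Pi.single_eq_of_ne
      rintro rfl
      omega
    have h2 := (hg' _).mp h1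
    have h3 := h2 a ha
    change ((g⁻¹).val.mulVec (Pi.single b 1)) a = 0 at h3
    rw [Matrix.mulVec_single_one] at h3
    exact h3
  apply mem_PW_of
  intro v hv i hi
  rw [invTHom_val]
  change ∑ j, (g⁻¹).val (Fin.rev j) (Fin.rev i) * v j = 0
  apply Finset.sum_eq_zero
  intro j _
  by_cases hj : n - k ≤ (j : ℕ)
  · rw [hv j hj, mul_zero]
  · rw [hz, zero_mul]
    · rw [Fin.val_rev]; omega
    · rw [Fin.val_rev]; omega

/-- Opposite parabolics are isomorphic. -/
theorem PW_equiv (hk : k ≤ n) : Nonempty (PW n k F ≃* PW n (n - k) F) := by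
  have h : (PW n k F).map (invT F n).toMonoidHom = PW n (n - k) F := by
    ext g
    rw [Subgroup.mem_map]
    constructor
    · rintro ⟨x, hx, rfl⟩
      exact invT_mem hk hx
    · intro hg
      refine ⟨invTHom F n g, ?_, invTHom_invTHom g⟩
      have := invT_mem (Nat.sub_le n k) hg
      rwa [Nat.sub_sub_self hk] at this
  exact ⟨((invT F n).subgroupMap (PW n k F)).trans (MulEquiv.subgroupCongr h)⟩

/-! ### A lemma on primitive groups -/

theorem primitive_quotient {G X : Type*} [Group G] [Finite G] [MulAction G X] [FaithfulSMul G X]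
    (hprim : MulAction.IsPreprimitive G X) (x : X) (A : Subgroup G)
    (hA : A ≤ MulAction.stabilizer G x) (hAn : (A.subgroupOf (MulAction.stabilizer G x)).Normal)
    (hgen : Subgroup.normalClosure (A : Set G) = ⊤) (K : Subgroup G) [K.Normal] (hK : K ≠ ⊥) :
    ∃ (B : Subgroup A) (_ : B.Normal), Nonempty (G ⧸ K ≃* A ⧸ B) := by
  -- `K` is transitive
  have hKt : ∀ g : G, ∃ k ∈ K, k • x = g • x := by
    have htr : MulAction.IsPretransitive K X := by
      have hfix : MulAction.fixedPoints K X ≠ Set.univ := by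
        intro hf
        apply hK
        rw [eq_bot_iff]
        intro k hk
        rw [Subgroup.mem_bot]
        apply FaithfulSMul.eq_of_smul_eq_smul (α := X)
        intro y
        rw [one_smul]
        have : y ∈ MulAction.fixedPoints K X := by rw [hf]; trivial
        exact this ⟨k, hk⟩
      exact MulAction.IsQuasiPreprimitive.isPretransitive_of_normal hfix
    intro g
    obtain ⟨k, hk⟩ := htr.exists_smul_eq x (g • x)
    exact ⟨k, k.2, hk⟩
  -- `A K` is normal
  have hnorm : (A ⊔ K).Normal := by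
    refine ⟨fun y hy g => ?_⟩
    obtain ⟨k, hk, hkx⟩ := hKt g
    have hs : k⁻¹ * g ∈ MulAction.stabilizer G x := by
      rw [MulAction.mem_stabilizer_iff, mul_smul, ← hkx, inv_smul_smul]
    have h1 : ∀ z ∈ A ⊔ K, (k⁻¹ * g) * z * (k⁻¹ * g)⁻¹ ∈ A ⊔ K := by
      intro z hz
      obtain ⟨a, ha, b, hb, rfl⟩ := Subgroup.mem_sup_of_normal_right.mp hz
      have h2 : (k⁻¹ * g) * (a * b) * (k⁻¹ * g)⁻¹ =
          ((k⁻¹ * g) * a * (k⁻¹ * g)⁻¹) * ((k⁻¹ * g) * b * (k⁻¹ * g)⁻¹) := by group
      rw [h2]
      apply Subgroup.mul_mem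
      · apply (le_sup_left : A ≤ A ⊔ K)
        have h3 := hAn.conj_mem ⟨a, hA ha⟩ ha ⟨k⁻¹ * g, hs⟩
        exact h3
      · exact (le_sup_right : K ≤ A ⊔ K) (Subgroup.Normal.conj_mem inferInstance b hb _)
    have h4 := h1 y hy
    have hk' : k ∈ A ⊔ K := (le_sup_right : K ≤ A ⊔ K) hk
    have h5 : g * y * g⁻¹ = k * ((k⁻¹ * g) * y * (k⁻¹ * g)⁻¹) * k⁻¹ := by group
    rw [h5]
    exact Subgroup.mul_mem _ (Subgroup.mul_mem _ hk' h4) (Subgroup.inv_mem _ hk')
  have htop : A ⊔ K = ⊤ := by
    rw [eq_top_iff, ← hgen]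
    exact Subgroup.normalClosure_le_normal (fun a ha => (le_sup_left : A ≤ A ⊔ K) ha)
  let f : A →* G ⧸ K := (QuotientGroup.mk' K).comp A.subtype
  have hf : Function.Surjective f := by
    intro y
    obtain ⟨g, rfl⟩ := QuotientGroup.mk'_surjective K y
    have hg : g ∈ A ⊔ K := by rw [htop]; trivial
    obtain ⟨a, ha, b, hb, rfl⟩ := Subgroup.mem_sup_of_normal_right.mp hg
    refine ⟨⟨a, ha⟩, ?_⟩
    change ((a : G) : G ⧸ K) = ((a * b : G) : G ⧸ K)
    rw [QuotientGroup.eq, inv_mul_cancel_left]
    exact hb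
  exact ⟨f.ker, inferInstance, ⟨(QuotientGroup.quotientKerEquivOfSurjective f hf).symm⟩⟩

/-! ### The Levi subgroup of the Siegel parabolic -/

/-- The embedding of `GL_m`. -/
noncomputable def leviHom (m : ℕ) (F : Type*) [Field F] :
    GL (Fin m) F →* Matrix.symplecticGroup (Fin m) F where
  toFun X := ⟨Matrix.fromBlocks X.val 0 0 (X⁻¹).val.transpose, by
    rw [SymplecticGroup.mem_iff, Matrix.fromBlocks_transpose, Matrix.J, Matrix.fromBlocks_multiply,
      Matrix.fromBlocks_multiply]
    have h1 : X.val * (X⁻¹).val = 1 := Units.mul_inv X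
    have h2 : (X⁻¹).val.transpose * X.val.transpose = 1 := by
      rw [← Matrix.transpose_mul, h1, Matrix.transpose_one]
    simp only [Matrix.mul_zero, Matrix.zero_mul, Matrix.mul_one, Matrix.mul_neg, zero_add, add_zero,
      Matrix.neg_mul, Matrix.transpose_zero, Matrix.transpose_transpose, neg_zero, h1, h2]⟩
  map_one' := by
    apply Subtype.ext
    change Matrix.fromBlocks (1 : Matrix (Fin m) (Fin m) F) 0 0 ((1 : GL (Fin m) F)⁻¹).val.transpose = 1
    rw [inv_one]
    change Matrix.fromBlocks (1 : Matrix (Fin m) (Fin m) F) 0 0 (1 : Matrix (Fin m) (Fin m) F).transpose = 1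
    rw [Matrix.transpose_one, Matrix.fromBlocks_one]
  map_mul' X Y := by
    apply Subtype.ext
    change Matrix.fromBlocks (X.val * Y.val) 0 0 ((X * Y)⁻¹).val.transpose =
      Matrix.fromBlocks X.val 0 0 (X⁻¹).val.transpose * Matrix.fromBlocks Y.val 0 0 (Y⁻¹).val.transpose
    rw [_root_.mul_inv_rev, Matrix.fromBlocks_multiply]
    change Matrix.fromBlocks (X.val * Y.val) 0 0 ((Y⁻¹).val * (X⁻¹).val).transpose = _
    rw [Matrix.transpose_mul]
    simp

theorem levi_equiv (m : ℕ) : Nonempty
    (↥(stabilizing (spToMat m F) {v : Fin m ⊕ Fin m → F | ∀ i : Fin m, v (Sum.inr i) = 0} ⊓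
      stabilizing (spToMat m F) {v : Fin m ⊕ Fin m → F | ∀ i : Fin m, v (Sum.inl i) = 0}) ≃*
      GL (Fin m) F) := by
  have hinj : Function.Injective (leviHom m F) := by
    intro X Y h
    apply Units.ext
    have h1 := congrArg (fun z : Matrix.symplecticGroup (Fin m) F => z.1.toBlocks₁₁) h
    exact h1
  have hrange : (leviHom m F).range =
      stabilizing (spToMat m F) {v : Fin m ⊕ Fin m → F | ∀ i : Fin m, v (Sum.inr i) = 0} ⊓
      stabilizing (spToMat m F) {v : Fin m ⊕ Fin m → F | ∀ i : Fin m, v (Sum.inl i) = 0} := by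
    ext A
    constructor
    · rintro ⟨X, rfl⟩
      have hX := Matrix.mulVec_injective_iff_isUnit.mpr X.isUnit
      have hX' : Function.Injective ((X⁻¹).val.transpose.mulVec) :=
        Matrix.mulVec_injective_iff_isUnit.mpr (by
          rw [Matrix.isUnit_transpose]
          exact (X⁻¹).isUnit)
      constructor
      · intro v
        change (∀ i, v (Sum.inr i) = 0) ↔ ∀ i, (Matrix.fromBlocks X.val 0 0
          (X⁻¹).val.transpose).mulVec v (Sum.inr i) = 0
        rw [Matrix.fromBlocks_mulVec]
        simp only [Matrix.zero_mulVec, zero_add, Sum.elim_inr]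
        constructor
        · intro h i
          have : v ∘ Sum.inr = 0 := funext h
          rw [this, Matrix.mulVec_zero]; rfl
        · intro h i
          have h1 : v ∘ Sum.inr = 0 := by
            apply hX'
            rw [Matrix.mulVec_zero]
            exact funext h
          exact congrFun h1 i
      · intro v
        change (∀ i, v (Sum.inl i) = 0) ↔ ∀ i, (Matrix.fromBlocks X.val 0 0
          (X⁻¹).val.transpose).mulVec v (Sum.inl i) = 0
        rw [Matrix.fromBlocks_mulVec]
        simp only [Matrix.zero_mulVec, add_zero, Sum.elim_inl]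
        constructor
        · intro h i
          have : v ∘ Sum.inl = 0 := funext h
          rw [this, Matrix.mulVec_zero]; rfl
        · intro h i
          have h1 : v ∘ Sum.inl = 0 := by
            apply hX
            rw [Matrix.mulVec_zero]
            exact funext h
          exact congrFun h1 i
    · rintro ⟨h1, h2⟩
      have h21 : A.1.toBlocks₂₁ = 0 := by
        ext i j
        have h3 := (h1 (Pi.single (Sum.inl j) 1)).mp (by intro l; simp)
        have h4 := h3 i
        change A.1.mulVec (Pi.single (Sum.inl j) 1) (Sum.inr i) = 0 at h4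
        rw [Matrix.mulVec_single_one] at h4
        exact h4
      have h12 : A.1.toBlocks₁₂ = 0 := by
        ext i j
        have h3 := (h2 (Pi.single (Sum.inr j) 1)).mp (by intro l; simp)
        have h4 := h3 i
        change A.1.mulVec (Pi.single (Sum.inr j) 1) (Sum.inl i) = 0 at h4
        rw [Matrix.mulVec_single_one] at h4
        exact h4
      have hA : A.1 = Matrix.fromBlocks A.1.toBlocks₁₁ 0 0 A.1.toBlocks₂₂ := by
        conv_lhs => rw [← Matrix.fromBlocks_toBlocks A.1, h12, h21]
      have h3 := SymplecticGroup.mem_iff.mp A.2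
      rw [hA, Matrix.fromBlocks_transpose, Matrix.J, Matrix.fromBlocks_multiply,
        Matrix.fromBlocks_multiply] at h3
      have h4 := congrArg Matrix.toBlocks₂₁ h3
      rw [Matrix.toBlocks_fromBlocks₂₁, Matrix.toBlocks_fromBlocks₂₁] at h4
      simp at h4
      have h5 : A.1.toBlocks₁₁ * A.1.toBlocks₂₂.transpose = 1 := by
        have := congrArg Matrix.transpose h4
        rwa [Matrix.transpose_mul, Matrix.transpose_transpose, Matrix.transpose_one] at this
      have h6 := mul_eq_one_comm.mp h5
      refine ⟨⟨A.1.toBlocks₁₁, A.1.toBlocks₂₂.transpose, h5, h6⟩, ?_⟩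
      apply Subtype.ext
      change Matrix.fromBlocks A.1.toBlocks₁₁ 0 0 A.1.toBlocks₂₂.transpose.transpose = A.1
      rw [Matrix.transpose_transpose, ← hA]
  exact ⟨(MulEquiv.subgroupCongr hrange.symm).trans ((MonoidHom.ofInjective hinj).symm)⟩

end CfsgLib.GLStruct
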