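import Cfsg.Agent.Lib.GLf6
import Cfsg.Agent.Lib.Quat
set_option autoImplicit false
set_option linter.style.haveILetI false
set_option linter.unusedSectionVars false

/-! Sylow subgroups of `SL₂` and `PSL₂`. -/

namespace CfsgLib.GL2a
open Matrix Cfsg

variable {F : Type*} [Field F] [Fintype F]

/-- odd primes different from the characteristic: Sylow subgroups lie in tori -/
theorem sylow_torus' (l : ℕ) [Fact l.Prime] (hl : l ≠ 2) (P : Sylow l (S2 F)) (hdvd : l ∣ (Fintype.card F - 1) * (Fintype.card F + 1)) :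
    ∃ g : S2 F, ¬ IsScal (g : M2 F) ∧ (g : M2 F).trace ^ 2 ≠ 4 ∧ g ∈ P ∧ (P : Subgroup (S2 F)) ≤ TT g := by
  classical
  have hlp := (Fact.out : l.Prime)
  have hcop : l.Coprime (Fintype.card F) := by
    rw [hlp.coprime_iff_not_dvd]
    intro h
    rcases hlp.dvd_mul.mp hdvd with h1 | h1
    · have := Nat.dvd_sub h h1
      rw [Nat.sub_sub_self (Fintype.card_pos)] at this
      exact hlp.one_lt.ne' (Nat.dvd_one.mp this)
    · have := (Nat.dvd_add_right h).mp h1
      exact hlp.one_lt.ne' (Nat.dvd_one.mp this)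
  have hPne : Nontrivial P := by
    have hd : l ∣ Nat.card (S2 F) := by rw [card_S2', mul_assoc]; exact Dvd.dvd.mul_left hdvd _
    have : l ∣ Nat.card P := P.dvd_card_of_dvd_card hd
    have : 1 < Nat.card P := lt_of_lt_of_le hlp.one_lt (Nat.le_of_dvd Nat.card_pos this)
    exact Finite.one_lt_card_iff_nontrivial.mp this
  have hZ : Nontrivial (Subgroup.center P) := P.isPGroup'.center_nontrivial
  obtain ⟨⟨⟨x, hxP⟩, hxZ⟩, hx1⟩ := exists_ne (1 : Subgroup.center P)
  have hx1' : x ≠ 1 := by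
    intro h; apply hx1; exact Subtype.ext (Subtype.ext h)
  have hPT : (P : Subgroup (S2 F)) ≤ TT x := by
    intro y hy
    rw [mem_TT_comm]
    have := Subgroup.mem_center_iff.mp hxZ ⟨y, hy⟩
    exact (congrArg Subtype.val this).symm
  have hdvdT : Nat.card P ∣ Nat.card (TT x) := Subgroup.card_dvd_of_le hPT
  have hs : ¬ IsScal (x : M2 F) := by
    intro hs
    rcases scal_sl' hs with h | h
    · exact hx1' h
    · obtain ⟨k, hk⟩ := P.isPGroup' ⟨x, hxP⟩
      have hk' : x ^ l ^ k = 1 := congrArg Subtype.val hk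
      have hodd' : Odd (l ^ k) := (hlp.odd_of_ne_two hl).pow
      rw [h, hodd'.neg_one_pow] at hk'
      exact hx1' (h.trans hk')
  refine ⟨x, hs, ?_, hxP, hPT⟩
  intro ht
  have hlP : l ∣ Nat.card P := P.dvd_card_of_dvd_card (by rw [card_S2', mul_assoc]; exact Dvd.dvd.mul_left hdvd _)
  by_cases h2 : (2 : F) = 0
  · rw [card_TT_par_even h2 hs ht] at hdvdT
    exact hlp.one_lt.ne' (Nat.Coprime.eq_one_of_dvd hcop (hlP.trans hdvdT))
  · rw [card_TT_par h2 hs ht] at hdvdT
    rcases hlp.dvd_mul.mp (hlP.trans hdvdT) with h | h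
    · exact hl ((Nat.prime_dvd_prime_iff_eq hlp Nat.prime_two).mp h)
    · exact hlp.one_lt.ne' (Nat.Coprime.eq_one_of_dvd hcop h)

omit [Fintype F] in
theorem sylow_cyclic [Finite F] (p : ℕ) [Fact p.Prime] [CharP F p] (r : ℕ) [hr' : Fact r.Prime] (hr : r ≠ 2) (hrp : r ≠ p) (R : Sylow r (S2 F)) :
    IsCyclic (R : Subgroup (S2 F)) := by
  classical
  haveI := Fintype.ofFinite F
  by_cases hd : r ∣ (Fintype.card F - 1) * (Fintype.card F + 1)
  · obtain ⟨g, hs, ht, -, hle⟩ := sylow_torus' r hr R hd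
    haveI := tor_cyclic g hs ht
    exact isCyclic_of_injective (Subgroup.inclusion hle) (Subgroup.inclusion_injective hle)
  · have h1 : ¬ r ∣ Nat.card (S2 F) := by
      rw [card_S2', mul_assoc]
      intro h
      rcases hr'.out.dvd_mul.mp h with h2 | h2
      · obtain ⟨n, hn, hcard⟩ := FiniteField.card F p
        rw [hcard] at h2
        exact hrp ((Nat.prime_dvd_prime_iff_eq hr'.out hn).mp (hr'.out.dvd_of_dvd_pow h2))
      · exact hd h2
    have h3 : Nat.card (R : Subgroup (S2 F)) = 1 := by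
      have := R.card_eq_multiplicity
      rwa [Nat.factorization_eq_zero_of_not_dvd h1, pow_zero] at this
    haveI : Subsingleton (R : Subgroup (S2 F)) := (Nat.card_eq_one_iff_unique.mp h3).1
    infer_instance

/-- an involution of `SL₂` is `-1` -/
theorem invol_eq (h2 : (2 : F) ≠ 0) {x : S2 F} (h : orderOf x = 2) : x = -1 := by
  have h1 : x * x = 1 := by
    have h3 := pow_orderOf_eq_one x
    rw [h, _root_.sq] at h3; exact h3
  rcases sl_sq_one h2 h1 with h3 | h3
  · rw [h3, orderOf_one] at h; omega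
  · exact h3

/-- 2-subgroups of `SL₂` -/
theorem two_sub {H : Subgroup (S2 F)} (h2 : (2 : F) ≠ 0) (hH : IsPGroup 2 H) :
    IsCyclic H ∨ ∃ n : ℕ, Nonempty (H ≃* QuaternionGroup (2 ^ n)) := by
  have := CfsgLib.Quat.unique_subgroup 2 hH (by
    have key : ∀ K : Subgroup H, Nat.card K = 2 → ∃ x : H, (x : S2 F) = -1 ∧ K = Subgroup.zpowers x := by
      intro K hK
      haveI : Fact (Nat.Prime 2) := ⟨Nat.prime_two⟩
      obtain ⟨x, hx⟩ := exists_prime_orderOf_dvd_card' (G := K) 2 (by rw [hK])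
      refine ⟨(x : H), ?_, ?_⟩
      · apply invol_eq h2
        rw [Subgroup.orderOf_coe, Subgroup.orderOf_coe]; exact hx
      · symm
        apply Subgroup.eq_of_le_of_card_ge
        · rw [Subgroup.zpowers_le]; exact x.2
        · rw [hK, Nat.card_zpowers, Subgroup.orderOf_coe, hx]
    intro A B hA hB
    obtain ⟨x, hx, hAx⟩ := key A hA
    obtain ⟨y, hy, hBy⟩ := key B hB
    rw [hAx, hBy, Subtype.ext (hx.trans hy.symm)])
  rcases this with h | ⟨-, h⟩
  · exact Or.inl h
  · exact Or.inr h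

theorem quat_pos {H : Type*} [Group H] {n : ℕ} (e : H ≃* QuaternionGroup (2 ^ n)) (hnc : ∃ x y : H, x * y ≠ y * x) : 1 ≤ n := by
  by_contra h0
  have h0 : n = 0 := by omega
  subst h0
  obtain ⟨x, y, hxy⟩ := hnc
  apply hxy
  apply e.injective
  rw [map_mul, map_mul]
  have : ∀ a b : QuaternionGroup (2 ^ 0), a * b = b * a := by decide
  exact this _ _

theorem syl2_quat (h2 : (2 : F) ≠ 0) (P : Sylow 2 (S2 F)) : ∃ k : ℕ, 1 ≤ k ∧ Nonempty ((P : Subgroup (S2 F)) ≃* QuaternionGroup (2 ^ k)) := by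
  obtain ⟨i, h⟩ := exists_S2D h2 P
  obtain ⟨w, hw, hwT, hwi, hww⟩ := h.exists_w
  have hnc : ∃ x y : (P : Subgroup (S2 F)), x * y ≠ y * x := by
    refine ⟨⟨i, h.mem⟩, ⟨w, hw⟩, fun hc => hwT ?_⟩
    rw [mem_TT_comm]
    exact congrArg Subtype.val hc
  rcases two_sub h2 P.isPGroup' with hc | ⟨n, ⟨e⟩⟩
  · obtain ⟨x, y, hxy⟩ := hnc
    haveI := hc
    letI := IsCyclic.commGroup (α := (P : Subgroup (S2 F)))
    exact absurd (mul_comm x y) hxy
  · exact ⟨n, quat_pos e hnc, ⟨e⟩⟩

theorem two_pow_val {n a k : ℕ} (h : n.factorization 2 = k) (hn : n ≠ 0) : n.factorization 2 = a ↔ 2 ^ a ∣ n ∧ ¬ 2 ^ (a + 1) ∣ n := by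
  rw [Nat.Prime.pow_dvd_iff_le_factorization Nat.prime_two hn, Nat.Prime.pow_dvd_iff_le_factorization Nat.prime_two hn]
  omega

theorem card_syl2_eight (h2 : (2 : F) ≠ 0) (hq : Fintype.card F % 8 = 3 ∨ Fintype.card F % 8 = 5) (S : Sylow 2 (S2 F)) : Nat.card S = 8 := by
  classical
  obtain ⟨q, hF⟩ : ∃ q, Fintype.card F = q := ⟨_, rfl⟩
  rw [hF] at hq
  have hcS : Nat.card (S2 F) = 8 * (q * ((q - 1) * (q + 1) / 8)) := by
    rw [card_S2', hF]
    have : 8 ∣ (q - 1) * (q + 1) := by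
      rcases hq with h | h
      · obtain ⟨m, hm⟩ : ∃ m, q = 8 * m + 3 := ⟨q / 8, by omega⟩
        subst hm
        exact ⟨(4 * m + 1) * (2 * m + 1), by rw [show 8 * m + 3 - 1 = 8 * m + 2 by omega]; ring⟩
      · obtain ⟨m, hm⟩ : ∃ m, q = 8 * m + 5 := ⟨q / 8, by omega⟩
        subst hm
        exact ⟨(2 * m + 1) * (4 * m + 3), by rw [show 8 * m + 5 - 1 = 8 * m + 4 by omega]; ring⟩
    rw [mul_left_comm, Nat.mul_div_cancel' this, mul_assoc]
  have hodd : Odd (q * ((q - 1) * (q + 1) / 8)) := by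
    rcases hq with h | h
    · obtain ⟨m, hm⟩ : ∃ m, q = 8 * m + 3 := ⟨q / 8, by omega⟩
      have : (q - 1) * (q + 1) / 8 = (4 * m + 1) * (2 * m + 1) := by
        subst hm
        apply Nat.div_eq_of_eq_mul_right (by norm_num)
        rw [show 8 * m + 3 - 1 = 8 * m + 2 by omega]; ring
      rw [this, Nat.odd_mul, Nat.odd_mul, Nat.odd_iff, Nat.odd_iff, Nat.odd_iff]
      omega
    · obtain ⟨m, hm⟩ : ∃ m, q = 8 * m + 5 := ⟨q / 8, by omega⟩
      have : (q - 1) * (q + 1) / 8 = (2 * m + 1) * (4 * m + 3) := by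
        subst hm
        apply Nat.div_eq_of_eq_mul_right (by norm_num)
        rw [show 8 * m + 5 - 1 = 8 * m + 4 by omega]; ring
      rw [this, Nat.odd_mul, Nat.odd_mul, Nat.odd_iff, Nat.odd_iff, Nat.odd_iff]
      omega
  have h1 := S.card_eq_multiplicity
  have h3 : (Nat.card (S2 F)).factorization 2 = 3 := by
    rw [hcS, Nat.factorization_mul (by norm_num) (by intro h; rw [h] at hodd; exact absurd hodd (by decide)), show Nat.factorization 8 = Nat.factorization (2 ^ 3) by norm_num]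
    rw [Finsupp.add_apply, Nat.Prime.factorization_pow Nat.prime_two, Finsupp.single_eq_same,
      Nat.factorization_eq_zero_of_not_dvd (by rwa [← even_iff_two_dvd, Nat.not_even_iff_odd])]
  rw [h3] at h1
  simpa using h1

theorem klein_of (q : ℕ) (hF : Fintype.card F = q) (hq : q % 8 = 3 ∨ q % 8 = 5) (P : Sylow 2 (PS F)) : IsKleinFour (P : Subgroup (PS F)) := by
  classical
  have h2 : (2 : F) ≠ 0 := two_ne_of_odd (by rw [hF, Nat.odd_iff]; omega)
  haveI : Fact (Nat.Prime 2) := ⟨Nat.prime_two⟩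
  let S : Sylow 2 (S2 F) := default
  obtain ⟨k, hk, ⟨e⟩⟩ := syl2_quat h2 S
  -- card of S
  have hcS : Nat.card (S2 F) = 8 * (q * ((q - 1) * (q + 1) / 8)) := by
    rw [card_S2', hF]
    have : 8 ∣ (q - 1) * (q + 1) := by
      rcases hq with h | h
      · obtain ⟨m, hm⟩ : ∃ m, q = 8 * m + 3 := ⟨q / 8, by omega⟩
        subst hm
        exact ⟨(4 * m + 1) * (2 * m + 1), by rw [show 8 * m + 3 - 1 = 8 * m + 2 by omega]; ring⟩
      · obtain ⟨m, hm⟩ : ∃ m, q = 8 * m + 5 := ⟨q / 8, by omega⟩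
        subst hm
        exact ⟨(2 * m + 1) * (4 * m + 3), by rw [show 8 * m + 5 - 1 = 8 * m + 4 by omega]; ring⟩
    rw [mul_left_comm, Nat.mul_div_cancel' this, mul_assoc]
  have hodd : Odd (q * ((q - 1) * (q + 1) / 8)) := by
    rcases hq with h | h
    · obtain ⟨m, hm⟩ : ∃ m, q = 8 * m + 3 := ⟨q / 8, by omega⟩
      have : (q - 1) * (q + 1) / 8 = (4 * m + 1) * (2 * m + 1) := by
        subst hm
        apply Nat.div_eq_of_eq_mul_right (by norm_num)
        rw [show 8 * m + 3 - 1 = 8 * m + 2 by omega]; ring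
      rw [this, Nat.odd_mul, Nat.odd_mul, Nat.odd_iff, Nat.odd_iff, Nat.odd_iff]
      omega
    · obtain ⟨m, hm⟩ : ∃ m, q = 8 * m + 5 := ⟨q / 8, by omega⟩
      have : (q - 1) * (q + 1) / 8 = (2 * m + 1) * (4 * m + 3) := by
        subst hm
        apply Nat.div_eq_of_eq_mul_right (by norm_num)
        rw [show 8 * m + 5 - 1 = 8 * m + 4 by omega]; ring
      rw [this, Nat.odd_mul, Nat.odd_mul, Nat.odd_iff, Nat.odd_iff, Nat.odd_iff]
      omega
  have hcS8 : Nat.card (S : Subgroup (S2 F)) = 8 := by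
    have h1 := S.card_eq_multiplicity
    have h3 : (Nat.card (S2 F)).factorization 2 = 3 := by
      rw [hcS, Nat.factorization_mul (by norm_num) (by intro h; rw [h] at hodd; exact absurd hodd (by decide)), show Nat.factorization 8 = Nat.factorization (2 ^ 3) by norm_num]
      rw [Finsupp.add_apply, Nat.Prime.factorization_pow Nat.prime_two, Finsupp.single_eq_same,
        Nat.factorization_eq_zero_of_not_dvd (by rwa [← even_iff_two_dvd, Nat.not_even_iff_odd])]
    rw [h3] at h1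
    simpa using h1
  have hcP : Nat.card (P : Subgroup (PS F)) = 4 := by
    have h1 := P.card_eq_multiplicity
    have h4 : 2 * Nat.card (PS F) = 2 * (4 * (q * ((q - 1) * (q + 1) / 8))) := by
      have := CfsgLib.SL2.gcd_mul_card_PSL2 (F := F)
      rw [(gcd_of_odd h2).1] at this
      rw [this, ← card_S2', hcS]; ring
    have h5 : Nat.card (PS F) = 4 * (q * ((q - 1) * (q + 1) / 8)) := by omega
    have h3 : (Nat.card (PS F)).factorization 2 = 2 := by
      rw [h5, Nat.factorization_mul (by norm_num) (by intro h; rw [h] at hodd; exact absurd hodd (by decide)), show Nat.factorization 4 = Nat.factorization (2 ^ 2) by norm_num]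
      rw [Finsupp.add_apply, Nat.Prime.factorization_pow Nat.prime_two, Finsupp.single_eq_same,
        Nat.factorization_eq_zero_of_not_dvd (by rwa [← even_iff_two_dvd, Nat.not_even_iff_odd])]
    rw [h3] at h1
    simpa using h1
  have hk1 : k = 1 := by
    have h1 : Nat.card (S : Subgroup (S2 F)) = Nat.card (QuaternionGroup (2 ^ k)) := Nat.card_congr e.toEquiv
    rw [hcS8] at h1
    haveI : NeZero (2 ^ k) := ⟨by positivity⟩
    rw [Nat.card_eq_fintype_card, QuaternionGroup.card] at h1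
    have : 2 ^ k = 2 ^ 1 := by omega
    exact Nat.pow_right_injective le_rfl this
  subst hk1
  -- squares in S are ±1
  have hsq : ∀ x ∈ (S : Subgroup (S2 F)), x * x = 1 ∨ x * x = -1 := by
    intro x hx
    apply sl_sq_one h2
    have h8 : ∀ y : QuaternionGroup (2 ^ 1), y ^ 4 = 1 := by decide
    have h9 : (⟨x, hx⟩ : (S : Subgroup (S2 F))) ^ 4 = 1 := by
      apply e.injective; rw [map_pow, map_one]; exact h8 _
    have h10 : x ^ 4 = 1 := congrArg Subtype.val h9
    calc x * x * (x * x) = x ^ 4 := by simp only [pow_succ, pow_zero, one_mul, mul_assoc]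
      _ = 1 := h10
  have hmap := S.coe_mapSurjective (f := pr) pr_surj
  have e2 : (P : Subgroup (PS F)) ≃* ((S.mapSurjective (f := pr) pr_surj : Sylow 2 (PS F)) : Subgroup (PS F)) := P.equiv _
  have hexp : ∀ x : (P : Subgroup (PS F)), x ^ 2 = 1 := by
    intro x
    apply e2.injective
    rw [map_pow, map_one]
    obtain ⟨y, hy⟩ := e2 x
    apply Subtype.ext
    change y ^ 2 = 1
    rw [hmap] at hy
    obtain ⟨z, hz, rfl⟩ := hy
    rw [← map_pow, pr_eq_one', _root_.sq]
    exact hsq z hz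
  refine ⟨hcP, ?_⟩
  haveI : Nontrivial (P : Subgroup (PS F)) := Finite.one_lt_card_iff_nontrivial.mp (by rw [hcP]; norm_num)
  have h1 : Monoid.exponent (P : Subgroup (PS F)) ∣ 2 := Monoid.exponent_dvd_of_forall_pow_eq_one hexp
  rcases (Nat.dvd_prime Nat.prime_two).mp h1 with h3 | h3
  · rw [Monoid.exp_eq_one_iff] at h3
    exact absurd h3 (not_subsingleton _)
  · exact h3

end CfsgLib.GL2a
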