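import Cfsg.Agent.Lib.GLi2
import Cfsg.Agent.Lib.GLf7
import Cfsg.Agent.Lib.GLe5
import Cfsg.Agent.Lib.Cover3
set_option autoImplicit false
set_option linter.style.haveILetI false
set_option linter.unusedSectionVars false

/-! McKay's equality for `SL₂`, odd `q`. -/

namespace CfsgLib.GL2a
open Matrix Cfsg
open scoped ComplexConjugate

universe u v

/-- degrees divide the index of an abelian normal subgroup -/
theorem deg_dvd_ab {N : Type u} [Group N] [Finite N] (A : Subgroup N) [A.Normal] (hA : ∀ a ∈ A, ∀ b ∈ A, a * b = b * a)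
    (χ : IrrCharacter N) {d : ℕ} (hd : (χ : N → ℂ) 1 = d) : d ∣ A.index := by
  classical
  haveI := Fintype.ofFinite N
  haveI := Fintype.ofFinite A
  have hres := CfsgLib.CharBasic.IsCharacter.restrict (CfsgLib.CharBasic.IsIrrCharacter.isCharacter χ.2) A
  have hne : (fun n : A => (χ : N → ℂ) n) ≠ 0 := by
    intro h
    have := congrFun h 1
    simp only [Pi.zero_apply, OneMemClass.coe_one] at this
    exact CfsgLib.CharBasic.IsIrrCharacter.one_ne_zero χ.2 this
  obtain ⟨ϑ, hϑ⟩ := CfsgLib.CharClifford.exists_constituent hres hne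
  obtain ⟨e, he, hei⟩ := CfsgLib.Cover3.degree_ratio' ϑ.2 χ.2 hϑ
  rw [CfsgLib.CharBasic.IsIrrCharacter.degree_one_of_comm ϑ.2 (fun a b => Subtype.ext (hA a a.2 b b.2)), mul_one, hd] at he
  rwa [show d = e by exact_mod_cast he]

theorem count_all {N : Type u} [Group N] [Finite N] (P : ℕ → Prop) (h : ∀ χ : IrrCharacter N, P (charDegree (χ : N → ℂ))) :
    Nat.card {ψ : IrrCharacter N // P (charDegree (ψ : N → ℂ))} = Nat.card (ConjClasses N) := by
  rw [← CfsgLib.CharBasic.card_irr]
  exact Nat.card_congr (Equiv.subtypeUnivEquiv h)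

theorem count_ab {N : Type u} [Group N] [Finite N] (A : Subgroup N) [A.Normal] (hA : ∀ a ∈ A, ∀ b ∈ A, a * b = b * a)
    (l : ℕ) (hi : ¬ l ∣ A.index) : Nat.card {ψ : IrrCharacter N // ¬ l ∣ charDegree (ψ : N → ℂ)} = Nat.card (ConjClasses N) := by
  apply count_all (fun d => ¬ l ∣ d)
  intro χ h
  obtain ⟨d, hd⟩ := CfsgLib.CharBasic.IsCharacter.exists_nat (CfsgLib.CharBasic.IsIrrCharacter.isCharacter χ.2)
  rw [cdeg_eq hd] at h
  exact hi (h.trans (deg_dvd_ab A hA χ hd))

/-- abelian Sylow subgroups -/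
theorem count_norm_ab {G : Type u} [Group G] [Finite G] (l : ℕ) [hl : Fact l.Prime] (S : Sylow l G) (hS : ∀ a ∈ S, ∀ b ∈ S, a * b = b * a) :
    Nat.card {ψ : IrrCharacter (Subgroup.normalizer ((S : Subgroup G) : Set G)) // ¬ l ∣ charDegree (ψ : Subgroup.normalizer ((S : Subgroup G) : Set G) → ℂ)} =
      Nat.card (ConjClasses (Subgroup.normalizer ((S : Subgroup G) : Set G))) := by
  haveI : ((S : Subgroup G).subgroupOf (Subgroup.normalizer ((S : Subgroup G) : Set G))).Normal := Subgroup.normal_in_normalizer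
  refine count_ab ((S : Subgroup G).subgroupOf (Subgroup.normalizer ((S : Subgroup G) : Set G))) ?_ l ?_
  · intro a ha b hb
    exact Subtype.ext (hS a ha b hb)
  · intro h
    exact S.not_dvd_index (h.trans (by
      have := Subgroup.relIndex_mul_index (H := (S : Subgroup G)) Subgroup.le_normalizer
      rw [← this]; exact Dvd.intro _ rfl))

theorem classes_iso {G : Type u} {H : Type v} [Group G] [Group H] [Finite G] (e : G ≃* H) : Nat.card (ConjClasses G) = Nat.card (ConjClasses H) := by
  haveI : Finite H := Finite.of_equiv G e.toEquiv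
  rw [← CfsgLib.CharBasic.card_irr, ← CfsgLib.CharBasic.card_irr]
  exact Nat.card_congr (CfsgLib.CharBasic.irrCongr e.symm)

theorem count_top {G : Type u} [Group G] [Finite G] (P : ℕ → Prop) (N : Subgroup G) (hN : N = ⊤) :
    Nat.card {χ : IrrCharacter G // P (charDegree (χ : G → ℂ))} = Nat.card {ψ : IrrCharacter N // P (charDegree (ψ : N → ℂ))} := by
  subst hN
  refine Nat.card_congr ((CfsgLib.CharBasic.irrCongr (Subgroup.topEquiv (G := G))).subtypeEquiv ?_)
  intro χ
  have : charDegree ((CfsgLib.CharBasic.irrCongr (Subgroup.topEquiv (G := G)) χ : IrrCharacter _) : (⊤ : Subgroup G) → ℂ) = charDegree (χ : G → ℂ) := by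
    simp [charDegree]
  rw [this]

variable {F : Type u} [Field F] [Fintype F]

/-- the unipotent Sylow subgroup -/
theorem exists_sylow_p (p : ℕ) [Fact p.Prime] [CharP F p] : ∃ S₀ : Sylow p (S2 F), (∀ a ∈ S₀, ∀ b ∈ S₀, a * b = b * a) ∧
    Subgroup.normalizer ((S₀ : Subgroup (S2 F)) : Set (S2 F)) = BS F := by
  classical
  have hp := (Fact.out : p.Prime)
  have hinj : Function.Injective (upS : Multiplicative F →* S2 F) := by
    intro x y hxy
    have := congrArg (fun g : S2 F => (g : M2 F) 0 1) hxy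
    exact this
  have hmem : ∀ g : S2 F, g ∈ (upS : Multiplicative F →* S2 F).range ↔ (g : M2 F) 1 0 = 0 ∧ (g : M2 F) 0 0 = 1 ∧ (g : M2 F) 1 1 = 1 := by
    intro g
    constructor
    · rintro ⟨x, rfl⟩
      exact ⟨rfl, rfl, rfl⟩
    · rintro ⟨h1, h3, h4⟩
      refine ⟨Multiplicative.ofAdd ((g : M2 F) 0 1), ?_⟩
      apply sl_ext
      apply ext4
      · exact h3.symm
      · rfl
      · exact h1.symm
      · exact h4.symm
  have hcard : Nat.card (upS : Multiplicative F →* S2 F).range = Fintype.card F := by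
    change Nat.card (Set.range (upS : Multiplicative F →* S2 F)) = _
    rw [← Nat.card_congr (Equiv.ofInjective _ hinj), Nat.card_congr (Multiplicative.toAdd (α := F)), Nat.card_eq_fintype_card]
  obtain ⟨n, hn0, hq⟩ := FiniteField.card F p
  have hpq : p ∣ Fintype.card F := by rw [hq]; exact dvd_pow_self _ n.pos.ne'
  have h2q := two_le_q (F := F)
  have hpp : ¬ p ∣ Fintype.card F + 1 := by
    intro h; exact hp.one_lt.ne' (Nat.dvd_one.mp ((Nat.dvd_add_right hpq).mp h))
  have hpm : ¬ p ∣ Fintype.card F - 1 := by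
    intro h
    have := Nat.dvd_sub hpq h
    rw [Nat.sub_sub_self (Fintype.card_pos)] at this
    exact hp.one_lt.ne' (Nat.dvd_one.mp this)
  have hfac : (Nat.card (S2 F)).factorization p = n := by
    rw [card_S2', Nat.factorization_mul (Nat.mul_ne_zero (by omega) (by omega)) (by omega), Nat.factorization_mul (by omega) (by omega),
      Finsupp.add_apply, Finsupp.add_apply, Nat.factorization_eq_zero_of_not_dvd hpp, Nat.factorization_eq_zero_of_not_dvd hpm, hq,
      Nat.Prime.factorization_pow hp, Finsupp.single_eq_same]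
    simp
  refine ⟨Sylow.ofCard (upS : Multiplicative F →* S2 F).range (by rw [hcard, hfac, hq]), ?_, ?_⟩
  · rintro _ ⟨a, rfl⟩ _ ⟨b, rfl⟩
    rw [← map_mul, ← map_mul, mul_comm]
  · apply le_antisymm
    · intro g hg
      have h1 : g * uS * g⁻¹ ∈ (upS : Multiplicative F →* S2 F).range := (Subgroup.mem_normalizer_iff.mp hg uS).mp ⟨Multiplicative.ofAdd 1, rfl⟩
      obtain ⟨h3, h4, h5⟩ := (hmem _).mp h1
      have h6 : (mem_upSL g).1 = (mem_upSL g).1 := rfl
      have hmul : ((g * uS * g⁻¹ : S2 F) : M2 F) * (g : M2 F) = (g : M2 F) * (uS : S2 F) := by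
        rw [← Matrix.SpecialLinearGroup.coe_mul, ← Matrix.SpecialLinearGroup.coe_mul, inv_mul_cancel_right]
      have e00 := congrFun (congrFun hmul 1) 0
      have e11 := congrFun (congrFun hmul 1) 1
      rw [mul_e11, mul_e11, h3, h5, uS_coe] at e11
      apply (mem_upSL g).mpr
      simp at e11
      exact e11
    · intro g hg
      have h10 : (g : M2 F) 1 0 = 0 := (mem_upSL g).mp hg
      have hdet := sl_det g
      rw [det_e, h10] at hdet
      have key : ∀ g : S2 F, (g : M2 F) 1 0 = 0 → ∀ x ∈ (upS : Multiplicative F →* S2 F).range, g * x * g⁻¹ ∈ (upS : Multiplicative F →* S2 F).range := by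
        intro g h10 x hx
        obtain ⟨h1, h3, h4⟩ := (hmem x).mp hx
        have hdet := sl_det g
        rw [det_e, h10] at hdet
        rw [hmem]
        have hi : ((g⁻¹ : S2 F) : M2 F) = !![(g : M2 F) 1 1, -(g : M2 F) 0 1; -(g : M2 F) 1 0, (g : M2 F) 0 0] := by
          rw [Matrix.SpecialLinearGroup.coe_inv, Matrix.adjugate_fin_two]
        rw [Matrix.SpecialLinearGroup.coe_mul, Matrix.SpecialLinearGroup.coe_mul, hi]
        refine ⟨?_, ?_, ?_⟩
        · simp only [mul_e10, mul_e11, mul_e00, mul_e01, h10, h1, h3, h4]; simp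
        · simp only [mul_e10, mul_e11, mul_e00, mul_e01, h10, h1, h3, h4]
          simp
          linear_combination hdet
        · simp only [mul_e10, mul_e11, mul_e00, mul_e01, h10, h1, h3, h4]
          simp
          linear_combination hdet
      apply Subgroup.mem_normalizer_iff.mpr
      intro x
      refine ⟨fun hx => key g h10 x hx, fun hx => ?_⟩
      have hgi : ((g⁻¹ : S2 F) : M2 F) 1 0 = 0 := (mem_upSL _).mp (inv_mem hg)
      have := key g⁻¹ hgi _ hx
      simpa [mul_assoc] using this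

/-- the defining characteristic -/
theorem sylow_p_data (h2 : (2 : F) ≠ 0) (p : ℕ) [Fact p.Prime] [CharP F p] (S : Sylow p (S2 F)) : (∀ a ∈ S, ∀ b ∈ S, a * b = b * a) ∧
    Nat.card (ConjClasses (Subgroup.normalizer ((S : Subgroup (S2 F)) : Set (S2 F)))) = Fintype.card F + 3 := by
  obtain ⟨S₀, h1, h3⟩ := exists_sylow_p (F := F) p
  obtain ⟨g, hg⟩ := MulAction.exists_smul_eq (S2 F) S₀ S
  have hS : (S : Subgroup (S2 F)) = (S₀ : Subgroup (S2 F)).map (MulAut.conj g).toMonoidHom := by
    rw [← hg, Sylow.coe_subgroup_smul]; rfl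
  constructor
  · intro a ha b hb
    have ha' : a ∈ (S : Subgroup (S2 F)) := ha
    have hb' : b ∈ (S : Subgroup (S2 F)) := hb
    rw [hS] at ha' hb'
    obtain ⟨x, hx, rfl⟩ := ha'
    obtain ⟨y, hy, rfl⟩ := hb'
    rw [← map_mul, h1 x hx y hy, map_mul]
  · have h4 : Subgroup.normalizer ((S : Subgroup (S2 F)) : Set (S2 F)) = (BS F).map (MulAut.conj g).toMonoidHom := by
      rw [hS, ← h3]
      exact (Subgroup.map_normalizer_eq_of_bijective (S₀ : Subgroup (S2 F)) (MulAut.conj g).bijective).symm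
    rw [h4, ← classes_BS h2]
    exact (classes_iso ((BS F).equivMapOfInjective (MulAut.conj g).toMonoidHom (MulAut.conj g).injective)).symm

end CfsgLib.GL2a
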