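import Cfsg.Agent.Lib.GLi3
set_option autoImplicit false
set_option linter.style.haveILetI false
set_option linter.unusedSectionVars false

/-! McKay's equality for `SL₂`, odd `q`. -/

namespace CfsgLib.GL2a
open Matrix Cfsg CfsgLib.CharBasic
open scoped ComplexConjugate commutatorElement

universe u v

/-- a central commutator of order two lies in the kernel of characters of odd degree -/
theorem odd_ker {N : Type u} [Group N] [Finite N] (χ : IrrCharacter N) {z : N} (hz : z ∈ Subgroup.center N) (hzz : z * z = 1)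
    {a b : N} (hab : z = a * b * a⁻¹ * b⁻¹) {d : ℕ} (hd : (χ : N → ℂ) 1 = d) (hodd : Odd d) : (χ : N → ℂ) z = (χ : N → ℂ) 1 := by
  haveI := Fintype.ofFinite N
  have hn := IsIrrCharacter.norm_of_mem_center χ.2 hz
  obtain ⟨χ, n, ρ, hρ, rfl⟩ := χ
  simp only at hn hd ⊢
  have hd' : d = n := by
    rw [Representation.char_one] at hd
    simpa using hd.symm
  subst hd'
  rw [Representation.char_one] at hn
  have h3 : ‖ρ.character z‖ = Module.finrank ℂ (Fin d → ℂ) := by rw [hn]; simp
  obtain ⟨ω, hω⟩ := (norm_character_eq_iff ρ z).mp h3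
  have hdet : LinearMap.det (ρ z) = 1 := by
    rw [hab, map_mul, map_mul, map_mul, map_mul, map_mul, map_mul]
    have e1 : LinearMap.det (ρ a) * LinearMap.det (ρ a⁻¹) = 1 := by rw [← map_mul, ← map_mul, mul_inv_cancel, map_one, map_one]
    have e2 : LinearMap.det (ρ b) * LinearMap.det (ρ b⁻¹) = 1 := by rw [← map_mul, ← map_mul, mul_inv_cancel, map_one, map_one]
    calc _ = (LinearMap.det (ρ a) * LinearMap.det (ρ a⁻¹)) * (LinearMap.det (ρ b) * LinearMap.det (ρ b⁻¹)) := by ring
      _ = 1 := by rw [e1, e2, one_mul]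
  rw [hω, LinearMap.det_smul, LinearMap.det_id, mul_one] at hdet
  have hfr : Module.finrank ℂ (Fin d → ℂ) = d := by simp
  rw [hfr] at hdet
  have hsq : ω * ω = 1 := by
    have h5 : ρ z * ρ z = 1 := by rw [← map_mul, hzz, map_one]
    have hd0 : 0 < d := hodd.pos
    have h6 := congrArg (fun f : (Fin d → ℂ) →ₗ[ℂ] (Fin d → ℂ) => f (fun _ => 1) ⟨0, hd0⟩) h5
    rw [hω] at h6
    simpa [Module.End.mul_apply] using h6
  have hω1 : ω = 1 := by
    obtain ⟨k, hk⟩ := hodd
    rw [hk, pow_succ, pow_mul, _root_.sq, hsq, one_pow, one_mul] at hdet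
    exact hdet
  rw [hω1, one_smul] at hω
  unfold Representation.character
  rw [hω, map_one]
  rfl

theorem sum_cdeg_sq (N : Type u) [Group N] [Finite N] [Fintype (IrrCharacter N)] : ∑ χ : IrrCharacter N, charDegree (χ : N → ℂ) ^ 2 = Nat.card N := by
  have h := sum_irr_one_sq N
  have h1 : ∀ χ : IrrCharacter N, (χ : N → ℂ) 1 = (charDegree (χ : N → ℂ) : ℂ) := by
    intro χ
    obtain ⟨d, hd⟩ := IsCharacter.exists_nat (IsIrrCharacter.isCharacter χ.2)
    rw [cdeg_eq hd, hd]
  simp only [h1] at h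
  have h3 : ((∑ χ : IrrCharacter N, charDegree (χ : N → ℂ) ^ 2 : ℕ) : ℂ) = (Nat.card N : ℂ) := by
    push_cast
    rw [← h]
    apply Finset.sum_congr _ (fun _ _ => rfl)
    ext x; simp
  exact_mod_cast h3

theorem cdeg_dvd {N : Type u} [Group N] [Finite N] (A : Subgroup N) [A.Normal] (hA : ∀ a ∈ A, ∀ b ∈ A, a * b = b * a) (χ : IrrCharacter N) :
    charDegree (χ : N → ℂ) ∣ A.index := by
  obtain ⟨d, hd⟩ := IsCharacter.exists_nat (IsIrrCharacter.isCharacter χ.2)
  rw [cdeg_eq hd]
  exact deg_dvd_ab A hA χ hd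

/-- groups with an abelian subgroup of index 2 -/
theorem count_idx2 {N : Type u} [Group N] [Finite N] (A : Subgroup N) (hA : ∀ a ∈ A, ∀ b ∈ A, a * b = b * a) (hi : A.index = 2) {n : ℕ}
    (hk : Nat.card (ConjClasses N) = n + 3) (hc : Nat.card N = 4 * n) : Nat.card {ψ : IrrCharacter N // ¬ 2 ∣ charDegree (ψ : N → ℂ)} = 4 := by
  classical
  haveI : A.Normal := Subgroup.normal_of_index_eq_two hi
  haveI : Fintype (IrrCharacter N) := Fintype.ofFinite _
  have hd : ∀ χ : IrrCharacter N, charDegree (χ : N → ℂ) = 1 ∨ charDegree (χ : N → ℂ) = 2 := by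
    intro χ
    have := cdeg_dvd A hA χ
    rw [hi] at this
    exact (Nat.dvd_prime Nat.prime_two).mp this
  have h1 := sum_cdeg_sq N
  rw [hc] at h1
  have h2 : ∑ _χ : IrrCharacter N, 1 = n + 3 := by
    rw [Finset.sum_const, Finset.card_univ, ← Nat.card_eq_fintype_card, card_irr, hk]; simp
  have h3 : ∑ χ : IrrCharacter N, (3 * (if ¬ 2 ∣ charDegree (χ : N → ℂ) then 1 else 0) + charDegree (χ : N → ℂ) ^ 2) = ∑ _χ : IrrCharacter N, 4 * 1 := by
    apply Finset.sum_congr rfl
    intro χ _
    rcases hd χ with h | h <;> rw [h] <;> norm_num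
  rw [Finset.sum_add_distrib, ← Finset.mul_sum, ← Finset.mul_sum, h1, h2, ← Finset.card_filter] at h3
  rw [Nat.card_eq_fintype_card, Fintype.card_subtype]
  omega

/-- non-abelian groups of order 12 with an abelian normal subgroup of index 3 -/
theorem classes_12 {M : Type u} [Group M] [Finite M] (V : Subgroup M) [V.Normal] (hV : ∀ a ∈ V, ∀ b ∈ V, a * b = b * a) (hi : V.index = 3)
    (hc : Nat.card M = 12) (hne : ∃ a b : M, a * b ≠ b * a) : Nat.card (IrrCharacter M) = 4 := by
  classical
  haveI : Fintype (IrrCharacter M) := Fintype.ofFinite _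
  have hd : ∀ χ : IrrCharacter M, charDegree (χ : M → ℂ) = 1 ∨ charDegree (χ : M → ℂ) = 3 := by
    intro χ
    have := cdeg_dvd V hV χ
    rw [hi] at this
    exact (Nat.dvd_prime Nat.prime_three).mp this
  have h1 := sum_cdeg_sq M
  rw [hc] at h1
  set b := (Finset.univ.filter (fun χ : IrrCharacter M => charDegree (χ : M → ℂ) = 3)).card with hb
  have h3 : ∑ χ : IrrCharacter M, charDegree (χ : M → ℂ) ^ 2 = ∑ χ : IrrCharacter M, (1 + 8 * (if charDegree (χ : M → ℂ) = 3 then 1 else 0)) := by
    apply Finset.sum_congr rfl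
    intro χ _
    rcases hd χ with h | h <;> rw [h] <;> norm_num
  rw [h1, Finset.sum_add_distrib, ← Finset.mul_sum, ← Finset.card_filter, ← hb, Finset.sum_const, Finset.card_univ, ← Nat.card_eq_fintype_card, smul_eq_mul, mul_one] at h3
  have hpos : 0 < Nat.card (IrrCharacter M) := by
    rw [card_irr]; exact Nat.card_pos
  have hb0 : b ≠ 0 := by
    intro h0
    have hc12 : Nat.card (IrrCharacter M) = 12 := by omega
    rw [hb, Finset.card_eq_zero] at h0
    have hlin : ∀ χ : IrrCharacter M, (χ : M → ℂ) 1 = 1 := by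
      intro χ
      obtain ⟨d, hd'⟩ := IsCharacter.exists_nat (IsIrrCharacter.isCharacter χ.2)
      rcases hd χ with h | h
      · rw [cdeg_eq hd'] at h; rw [hd', h]; simp
      · have : χ ∈ Finset.univ.filter (fun χ : IrrCharacter M => charDegree (χ : M → ℂ) = 3) := by simp [h]
        rw [h0] at this
        exact absurd this (Finset.notMem_empty _)
    have h4 := card_linear M
    rw [Nat.card_congr (Equiv.subtypeUnivEquiv hlin)] at h4
    have h5 : (commutator M).index = Nat.card M := by
      rw [← h4, hc12, hc]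
    have h6 : commutator M = ⊥ := by
      have h7 := (commutator M).card_mul_index
      rw [h5] at h7
      have : Nat.card (commutator M) = 1 := by
        have hM : 0 < Nat.card M := Nat.card_pos
        exact Nat.eq_of_mul_eq_mul_right hM (by rw [h7, one_mul])
      exact Subgroup.card_eq_one.mp this
    obtain ⟨a, b, hab⟩ := hne
    apply hab
    have : ⁅a, b⁆ ∈ commutator M := Subgroup.commutator_mem_commutator (Subgroup.mem_top a) (Subgroup.mem_top b)
    rw [h6, Subgroup.mem_bot, commutatorElement_eq_one_iff_mul_comm] at this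
    exact this
  omega

variable {F : Type u} [Field F] [Fintype F]
variable {S : Sylow 2 (S2 F)} {i : S2 F}

theorem S2D.count_big (h : S2D S i) (h8 : 8 ∣ Nat.card (TT i)) :
    Nat.card {ψ : IrrCharacter (Subgroup.normalizer ((S : Subgroup (S2 F)) : Set (S2 F))) // ¬ 2 ∣ charDegree (ψ : Subgroup.normalizer ((S : Subgroup (S2 F)) : Set (S2 F)) → ℂ)} = 4 := by
  rw [h.norm_big h8]
  obtain ⟨w, hw, hwT, hwi, hww⟩ := h.exists_w
  set A : Subgroup (S : Subgroup (S2 F)) := (TT i).subgroupOf (S : Subgroup (S2 F)) with hA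
  have hmA : ∀ x : (S : Subgroup (S2 F)), x ∈ A ↔ (x : S2 F) ∈ TT i := fun x => Subgroup.mem_subgroupOf
  have hab : ∀ a ∈ A, ∀ b ∈ A, a * b = b * a := by
    intro a ha b hb
    exact Subtype.ext (TT_comm h.ns ((hmA a).mp ha) ((hmA b).mp hb))
  have hmul : ∀ b : S2 F, b * i * b⁻¹ = i⁻¹ → b * w ∈ TT i := by
    intro b hb
    rw [mem_TT_comm]
    have h3 : b * i⁻¹ * b⁻¹ = i := by
      have := congrArg (fun y => y⁻¹) hb
      simp only [_root_.mul_inv_rev, inv_inv] at this
      rw [← mul_assoc] at this; exact this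
    have h4 : (b * w) * i * (b * w)⁻¹ = i := by
      calc (b * w) * i * (b * w)⁻¹ = b * (w * i * w⁻¹) * b⁻¹ := by group
        _ = i := by rw [hwi, h3]
    rw [mul_inv_eq_iff_eq_mul] at h4
    exact h4.symm
  have hidx : A.index = 2 := by
    rw [Subgroup.index_eq_two_iff]
    refine ⟨⟨w, hw⟩, fun b => ?_⟩
    rw [hmA, hmA]
    by_cases hb : (b : S2 F) ∈ TT i
    · right
      refine ⟨hb, fun hbw => hwT ?_⟩
      have := mul_mem (inv_mem hb) hbw
      rwa [Subgroup.coe_mul, inv_mul_cancel_left] at this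
    · left
      refine ⟨?_, hb⟩
      rcases h.act b b.2 with h1 | h1
      · exact absurd h1 hb
      · exact hmul b h1
  have hz : (⟨-1, h.neg_mem⟩ : (S : Subgroup (S2 F))) ∈ A := (hmA _).mpr (neg_one_mem_TT i)
  have hz1 : (⟨-1, h.neg_mem⟩ : (S : Subgroup (S2 F))) ≠ 1 := fun e => neg_one_ne h.h2 (congrArg Subtype.val e)
  have hzz : (⟨-1, h.neg_mem⟩ : (S : Subgroup (S2 F))) * ⟨-1, h.neg_mem⟩ = 1 := by apply Subtype.ext; simp
  have heven : 2 ∣ Nat.card A := by
    have ho : orderOf (⟨_, hz⟩ : A) = 2 := by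
      apply orderOf_eq_prime
      · rw [_root_.sq]; exact Subtype.ext hzz
      · intro e; exact hz1 (congrArg Subtype.val e)
    have h9 := orderOf_dvd_natCard (⟨_, hz⟩ : A)
    rwa [ho] at h9
  obtain ⟨n, hn⟩ := heven
  have hcl := dic_classes A hab hn hidx ⟨-1, h.neg_mem⟩ hz hz1 (by
    intro a ha haa
    have : (a : S2 F) * a = 1 := congrArg Subtype.val haa
    rcases sl_sq_one h.h2 this with h1 | h1
    · left; exact Subtype.ext h1
    · right; exact Subtype.ext h1) hzz (by
    intro g hg
    rw [hmA] at hg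
    rcases h.act g g.2 with h1 | h1
    · exact absurd h1 hg
    · refine ⟨fun c hc => ?_, ?_⟩
      · exact Subtype.ext (inv_act h.ns h1 ((hmA c).mp hc))
      · exact Subtype.ext (w_sq h.ns h.h2 h1))
  refine count_idx2 A hab hidx hcl ?_
  have := A.card_mul_index
  rw [hn, hidx] at this; omega

theorem S2D.count_small (h : S2D S i) (h8 : ¬ 8 ∣ Nat.card (TT i)) (hc8 : Nat.card S = 8) :
    Nat.card {ψ : IrrCharacter (Subgroup.normalizer ((S : Subgroup (S2 F)) : Set (S2 F))) // ¬ 2 ∣ charDegree (ψ : Subgroup.normalizer ((S : Subgroup (S2 F)) : Set (S2 F)) → ℂ)} = 4 := by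
  classical
  obtain ⟨u, hu, w, hw, hwT, hwi, hww, hui, huw, huS, hall⟩ := h.norm_small h8
  have hcN := h.card_small h8
  set N := Subgroup.normalizer ((S : Subgroup (S2 F)) : Set (S2 F)) with hN
  have hSN : (S : Subgroup (S2 F)) ≤ N := Subgroup.le_normalizer
  set z : N := ⟨-1, hSN h.neg_mem⟩ with hz
  have hzc : z ∈ Subgroup.center N := by
    rw [Subgroup.mem_center_iff]
    intro g
    apply Subtype.ext
    change (g : S2 F) * -1 = -1 * g
    simp
  have hzz : z * z = 1 := by apply Subtype.ext; change (-1 : S2 F) * -1 = 1; simp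
  have hz1 : z ≠ 1 := fun e => neg_one_ne h.h2 (congrArg Subtype.val e)
  have ho : orderOf z = 2 := orderOf_eq_prime (by rw [_root_.sq]; exact hzz) hz1
  set D : Subgroup N := Subgroup.zpowers z with hD
  have hDc : D ≤ Subgroup.center N := by rw [hD, Subgroup.zpowers_le]; exact hzc
  haveI : D.Normal := ⟨fun d hd g => by
    have := Subgroup.mem_center_iff.mp (hDc hd) g
    rw [this, mul_inv_cancel_right]; exact hd⟩
  have hmD : ∀ x : N, x ∈ D ↔ x = 1 ∨ x = z := by
    intro x
    constructor
    · intro hx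
      obtain ⟨k, hk⟩ := Subgroup.mem_zpowers_iff.mp hx
      rcases Int.even_or_odd' k with ⟨m, hm | hm⟩
      · left
        rw [← hk, hm, _root_.zpow_mul, zpow_ofNat, _root_.sq, hzz, _root_.one_zpow]
      · right
        rw [← hk, hm, _root_.zpow_add, _root_.zpow_mul, zpow_ofNat, _root_.sq, hzz, _root_.one_zpow, zpow_one, one_mul]
    · rintro (rfl | rfl)
      · exact one_mem _
      · exact Subgroup.mem_zpowers _
  have hcD : Nat.card D = 2 := by rw [hD, Nat.card_zpowers, ho]
  have hcM : Nat.card (N ⧸ D) = 12 := by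
    have := D.card_eq_card_quotient_mul_card_subgroup
    rw [hcN, hc8, hcD] at this; omega
  -- the four-group
  set V0 : Subgroup N := (S : Subgroup (S2 F)).subgroupOf N with hV0
  haveI : V0.Normal := Subgroup.normal_in_normalizer
  set V : Subgroup (N ⧸ D) := V0.map (QuotientGroup.mk' D) with hV
  haveI : V.Normal := Subgroup.Normal.map inferInstance _ (QuotientGroup.mk'_surjective D)
  have hDV : D ≤ V0 := by
    rw [hD, Subgroup.zpowers_le, hV0, Subgroup.mem_subgroupOf]; exact h.neg_mem
  have hV0i : V0.index = 3 := by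
    have h1 := Subgroup.card_mul_index V0
    have h3 : Nat.card V0 = 8 := by
      rw [← hc8]; exact Nat.card_congr (Subgroup.subgroupOfEquivOfLe hSN).toEquiv
    rw [h3, hcN, hc8] at h1; omega
  have hVi : V.index = 3 := by
    rw [hV, Subgroup.index_map_eq V0 (QuotientGroup.mk'_surjective D) (by rw [QuotientGroup.ker_mk']; exact hDV), hV0i]
  -- the elements i, w of N
  set i' : N := ⟨i, hSN h.mem⟩ with hi'
  set w' : N := ⟨w, hSN hw⟩ with hw'
  have hinv : i⁻¹ = -i := h.inv
  have hwinv : w⁻¹ = -w := by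
    apply inv_eq_of_mul_eq_one_right; rw [mul_neg, hww]; simp
  have hVab : ∀ a ∈ V, ∀ b ∈ V, a * b = b * a := by
    rintro _ ⟨a, ha, rfl⟩ _ ⟨b, hb, rfl⟩
    rw [← map_mul, ← map_mul]
    apply (QuotientGroup.mk'_eq_mk' D).mpr
    have ha' : (a : S2 F) ∈ S := ha
    have hb' : (b : S2 F) ∈ S := hb
    have hsq : ∀ s ∈ S, s⁻¹ = s ∨ s⁻¹ = -s := by
      intro s hs
      have hss : s * s = 1 ∨ s * s = -1 := by
        rcases h.small_S h8 hw hwi hs with e | e | e | e | e | e | e | e
        · left; rw [e]; simp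
        · left; rw [e]; simp
        · right; rw [e]; exact h.sq
        · right; rw [e, neg_mul_neg]; exact h.sq
        · right; rw [e]; exact hww
        · right; rw [e, neg_mul_neg]; exact hww
        · right; rw [e]
          calc i * w * (i * w) = i * (w * i * w⁻¹) * (w * w) := by group
            _ = -1 := by rw [hwi, mul_inv_cancel, hww, one_mul]
        · right; rw [e, neg_mul_neg]
          calc i * w * (i * w) = i * (w * i * w⁻¹) * (w * w) := by group
            _ = -1 := by rw [hwi, mul_inv_cancel, hww, one_mul]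
      rcases hss with e | e
      · left; exact inv_eq_of_mul_eq_one_right e
      · right; apply inv_eq_of_mul_eq_one_right; rw [mul_neg, e, neg_neg]
    have key : (a : S2 F) * b = b * a ∨ (a : S2 F) * b = -(b * a) := by
      have e0 := _root_.mul_inv_rev (a : S2 F) b
      rcases hsq _ (mul_mem ha' hb') with e | e <;> rcases hsq _ ha' with f | f <;> rcases hsq _ hb' with g | g <;>
        rw [e, f, g] at e0
      · left; exact e0
      · right; rw [e0, neg_mul]
      · right; rw [e0, mul_neg]
      · left; rw [e0, neg_mul_neg]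
      · right; rw [← e0, neg_neg]
      · left; rw [neg_mul, neg_inj] at e0; exact e0
      · left; rw [mul_neg, neg_inj] at e0; exact e0
      · right; rw [neg_mul_neg] at e0; rw [← e0, neg_neg]
    rcases key with e | e
    · exact ⟨1, one_mem _, by rw [mul_one]; exact Subtype.ext e⟩
    · refine ⟨z, Subgroup.mem_zpowers _, ?_⟩
      apply Subtype.ext
      change (a : S2 F) * b * -1 = b * a
      rw [e]; simp
  have hne : ∃ a b : N ⧸ D, a * b ≠ b * a := by
    refine ⟨QuotientGroup.mk' D ⟨u, hu⟩, QuotientGroup.mk' D i', fun e => ?_⟩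
    rw [← map_mul, ← map_mul] at e
    obtain ⟨y, hy, hy'⟩ := (QuotientGroup.mk'_eq_mk' D).mp e
    have h3 : u * i = w * u := by rw [← hui]; group
    rcases (hmD y).mp hy with rfl | rfl
    · have h4 : u * i * 1 = i * u := congrArg Subtype.val hy'
      rw [mul_one, h3] at h4
      apply hwT
      rw [mul_right_cancel h4]; exact TT_self i
    · have h4 : u * i * -1 = i * u := congrArg Subtype.val hy'
      rw [h3] at h4
      have h5 : w = -i := by
        have : w * u = -(i * u) := by rw [← h4]; simp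
        rw [← neg_mul] at this
        exact mul_right_cancel this
      apply hwT
      rw [h5, ← neg_one_mul]; exact mul_mem (neg_one_mem_TT i) (TT_self i)
  have hM := classes_12 V hVab hVi hcM hne
  rw [← hM]
  symm
  refine Nat.card_congr ((irrQuotientEquiv D).trans (Equiv.subtypeEquivRight ?_))
  intro χ
  obtain ⟨d, hd⟩ := IsCharacter.exists_nat (IsIrrCharacter.isCharacter χ.2)
  rw [cdeg_eq hd]
  constructor
  · intro hk
    have h1 : ∀ n ∈ D, (χ : N → ℂ) n = (χ : N → ℂ) 1 := hk
    obtain ⟨ψ, hψ, he⟩ := IsIrrCharacter.exists_quotient χ.2 D h1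
    have h3 := deg_dvd_ab V hVab ⟨ψ, hψ⟩ (d := d) (by
      have := congrFun he 1
      rw [Function.comp_apply, map_one] at this
      change ψ 1 = _
      rw [← this, hd])
    rw [hVi] at h3
    intro h4
    have := h4.trans h3
    omega
  · intro hodd n hn
    rcases (hmD n).mp hn with rfl | rfl
    · rfl
    · apply odd_ker χ hzc hzz (a := i') (b := w') _ hd (by rw [← Nat.not_even_iff_odd, even_iff_two_dvd]; exact hodd)
      apply Subtype.ext
      change (-1 : S2 F) = i * w * i⁻¹ * w⁻¹
      have h7 : i * w * i⁻¹ * w⁻¹ = i * (w * i * w⁻¹)⁻¹ := by group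
      rw [h7, hwi, inv_inv, h.sq]

end CfsgLib.GL2a
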