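import Cfsg.Agent.Lib.GLi4
import Cfsg.Agent.Lib.GLi1
set_option autoImplicit false
set_option linter.style.haveILetI false
set_option linter.unusedSectionVars false

/-! McKay's equality for `SL₂`, odd `q`. -/

namespace CfsgLib.GL2a
open Matrix Cfsg CfsgLib.CharBasic
open scoped ComplexConjugate

universe u v
variable {F : Type u} [Field F] [Fintype F] [DecidableEq F]

theorem cdeg_o (h2 : (2 : F) ≠ 0) (χ : IrrCharacter (S2 F)) : charDegree (χ : S2 F → ℂ) = o0 h2 χ + (Fintype.card F - 1) / 2 * (o1 h2 χ + o2 h2 χ) := by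
  apply cdeg_eq
  rw [o_one h2 χ]
  push_cast
  rw [half_m h2]

theorem count_S2 (h2 : (2 : F) ≠ 0) (P : ℕ → Prop) [DecidablePred P] : Nat.card {χ : IrrCharacter (S2 F) // P (charDegree (χ : S2 F → ℂ))} =
    ((if P 1 then 1 else 0) + (if P (Fintype.card F) then 1 else 0) + ((Fintype.card F - 3) / 2 * (if P (Fintype.card F + 1) then 1 else 0) +
      2 * (if P ((Fintype.card F + 1) / 2) then 1 else 0))) + ((Fintype.card F - 1) / 2 * (if P (Fintype.card F - 1) then 1 else 0) + 2 * (if P ((Fintype.card F - 1) / 2) then 1 else 0)) := by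
  classical
  set q := Fintype.card F with hq
  set m := (q - 1) / 2 with hm
  have hodd := odd_card h2
  have h3 := card_q_ge h2
  rw [← hq] at hodd h3
  set f : ℕ → ℕ → ℕ → ℕ := fun a b c => if P (a + m * (b + c)) then 1 else 0 with hf
  have hK := K_props h2 f
  have h1 : Nat.card {χ : IrrCharacter (S2 F) // P (charDegree (χ : S2 F → ℂ))} = ∑ χ : IrrCharacter (S2 F), f (o0 h2 χ) (o1 h2 χ) (o2 h2 χ) := by
    rw [Nat.card_eq_fintype_card, Fintype.card_subtype, Finset.card_filter]
    apply Finset.sum_congr rfl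
    intro χ _
    rw [cdeg_o h2 χ]
  have hA := card_AR_odd (F := F) h2
  rw [← hq] at hA
  have hA' : (AR (F := F)).card = (q - 3) / 2 := by omega
  have hC := card_cuspO (F := F) h2
  rw [← hq, ← hm] at hC
  simp only [Nat.card_eq_fintype_card, Fintype.card_subtype] at hC
  obtain ⟨c1, c2, c3⟩ := hC
  have hco : ∀ χ : IrrCharacter (S2 F), χ ∈ (KK h2)ᶜ ↔ (o0 h2 χ = 0 ∧ o1 h2 χ = 1 ∧ o2 h2 χ = 1) ∨ (o0 h2 χ = 0 ∧ o1 h2 χ = 1 ∧ o2 h2 χ = 0) ∨ (o0 h2 χ = 0 ∧ o1 h2 χ = 0 ∧ o2 h2 χ = 1) := by
    intro χ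
    rw [Finset.mem_compl]
    constructor
    · intro h
      rcases classify_odd h2 χ with h' | ⟨h0, h' | h' | h'⟩
      · exact absurd h' h
      · exact Or.inr (Or.inl ⟨h0, h'.1, h'.2⟩)
      · exact Or.inr (Or.inr ⟨h0, h'.1, h'.2⟩)
      · exact Or.inl ⟨h0, h'.1, h'.2⟩
    · intro h hK
      have t := o_t (F := F) h2
      have s := o_S (F := F) h2
      have hH := H_spec (F := F) h2
      have h0 : o0 h2 χ = 0 := by rcases h with h | h | h <;> exact h.1
      rcases (mem_KK h2 χ).mp hK with h' | h' | h' | h' | h'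
      · rw [h', t.1] at h0; omega
      · rw [h', s.1] at h0; omega
      · obtain ⟨α, rfl⟩ := (mem_AR χ).mp h'
        rw [(o_R h2 α).1] at h0; omega
      · rw [h', hH.2.1.1] at h0; omega
      · rw [h', hH.2.2.1.1] at h0; omega
  have hsplit : ∑ χ ∈ (KK h2)ᶜ, f (o0 h2 χ) (o1 h2 χ) (o2 h2 χ) = m * f 0 1 1 + (f 0 1 0 + f 0 0 1) := by
    have e : (KK h2)ᶜ = (Finset.univ.filter (fun χ : IrrCharacter (S2 F) => o0 h2 χ = 0 ∧ o1 h2 χ = 1 ∧ o2 h2 χ = 1)) ∪
        ((Finset.univ.filter (fun χ : IrrCharacter (S2 F) => o0 h2 χ = 0 ∧ o1 h2 χ = 1 ∧ o2 h2 χ = 0)) ∪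
        (Finset.univ.filter (fun χ : IrrCharacter (S2 F) => o0 h2 χ = 0 ∧ o1 h2 χ = 0 ∧ o2 h2 χ = 1))) := by
      ext χ
      rw [hco χ]
      simp
    rw [e, Finset.sum_union, Finset.sum_union]
    · congr 1
      · rw [Finset.sum_congr rfl (g := fun _ => f 0 1 1) (by
          intro χ hχ; obtain ⟨a, b, c⟩ := (Finset.mem_filter.mp hχ).2; rw [a, b, c])]
        rw [Finset.sum_const, c1, smul_eq_mul]
      · congr 1
        · rw [Finset.sum_congr rfl (g := fun _ => f 0 1 0) (by
            intro χ hχ; obtain ⟨a, b, c⟩ := (Finset.mem_filter.mp hχ).2; rw [a, b, c])]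
          rw [Finset.sum_const, c2, smul_eq_mul, one_mul]
        · rw [Finset.sum_congr rfl (g := fun _ => f 0 0 1) (by
            intro χ hχ; obtain ⟨a, b, c⟩ := (Finset.mem_filter.mp hχ).2; rw [a, b, c])]
          rw [Finset.sum_const, c3, smul_eq_mul, one_mul]
    · rw [Finset.disjoint_left]
      intro χ h1 h2'
      have a := (Finset.mem_filter.mp h1).2
      have b := (Finset.mem_filter.mp h2').2
      omega
    · rw [Finset.disjoint_left]
      intro χ h1 h2'
      have a := (Finset.mem_filter.mp h1).2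
      rcases Finset.mem_union.mp h2' with h | h
      · have b := (Finset.mem_filter.mp h).2; omega
      · have b := (Finset.mem_filter.mp h).2; omega
  have e1 : f 1 0 0 = if P 1 then 1 else 0 := by simp [hf]
  have e2 : f 1 1 1 = if P q then 1 else 0 := by
    have : 1 + m * (1 + 1) = q := by omega
    simp only [hf]; rw [this]
  have e3 : f 2 1 1 = if P (q + 1) then 1 else 0 := by
    have : 2 + m * (1 + 1) = q + 1 := by omega
    simp only [hf]; rw [this]
  have e4 : f 1 1 0 = if P ((q + 1) / 2) then 1 else 0 := by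
    have : 1 + m * (1 + 0) = (q + 1) / 2 := by omega
    simp only [hf]; rw [this]
  have e5 : f 1 0 1 = if P ((q + 1) / 2) then 1 else 0 := by
    have : 1 + m * (0 + 1) = (q + 1) / 2 := by omega
    simp only [hf]; rw [this]
  have e6 : f 0 1 1 = if P (q - 1) then 1 else 0 := by
    have : 0 + m * (1 + 1) = q - 1 := by omega
    simp only [hf]; rw [this]
  have e7 : f 0 1 0 = if P m then 1 else 0 := by
    have : 0 + m * (1 + 0) = m := by omega
    simp only [hf]; rw [this]
  have e8 : f 0 0 1 = if P m then 1 else 0 := by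
    have : 0 + m * (0 + 1) = m := by omega
    simp only [hf]; rw [this]
  rw [h1, ← Finset.sum_add_sum_compl (KK h2), hK, hsplit, hA', e1, e2, e3, e6]
  have e45 : f 1 1 0 + f 1 0 1 = 2 * if P ((q + 1) / 2) then 1 else 0 := by rw [two_mul]; exact congrArg₂ _ e4 e5
  have e78 : f 0 1 0 + f 0 0 1 = 2 * if P m then 1 else 0 := by rw [two_mul]; exact congrArg₂ _ e7 e8
  rw [e45, e78]

/-- McKay's equality for `SL₂(q)`, odd `q` -/
theorem mckay_SL2 (hodd : Odd (Fintype.card F)) (l : ℕ) [hlf : Fact l.Prime] (S : Sylow l (S2 F)) :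
    Nat.card {χ : IrrCharacter (S2 F) // ¬ l ∣ charDegree (χ : S2 F → ℂ)} =
      Nat.card {ψ : IrrCharacter (Subgroup.normalizer ((S : Subgroup (S2 F)) : Set (S2 F))) // ¬ l ∣ charDegree (ψ : Subgroup.normalizer ((S : Subgroup (S2 F)) : Set (S2 F)) → ℂ)} := by
  classical
  have h2 := two_ne_of_odd hodd
  have hl := hlf.out
  have hq3 := card_q_ge h2
  have hcount := count_S2 h2 (fun d => ¬ l ∣ d)
  have hq2 : Fintype.card F % 2 = 1 := Nat.odd_iff.mp hodd
  have h1 : ¬ l ∣ 1 := fun h => hl.one_lt.ne' (Nat.dvd_one.mp h)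
  by_cases hlq : l ∣ Fintype.card F
  · -- defining characteristic
    obtain ⟨p, hchar⟩ := CharP.exists F
    haveI := hchar
    haveI hpf : Fact p.Prime := ⟨CharP.char_is_prime F p⟩
    obtain ⟨n, -, hcard⟩ := FiniteField.card F p
    have hlp : l = p := by
      rw [hcard] at hlq
      exact (Nat.prime_dvd_prime_iff_eq hl hpf.out).mp (hl.dvd_of_dvd_pow hlq)
    subst hlp
    have hpp : ¬ l ∣ Fintype.card F + 1 := by
      intro h; exact h1 ((Nat.dvd_add_right hlq).mp h)
    have hpm : ¬ l ∣ Fintype.card F - 1 := by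
      intro h
      have := Nat.dvd_sub hlq h
      rw [Nat.sub_sub_self (by omega)] at this
      exact h1 this
    have hhp : ¬ l ∣ (Fintype.card F + 1) / 2 := fun h => hpp (h.trans ⟨2, by omega⟩)
    have hhm : ¬ l ∣ (Fintype.card F - 1) / 2 := fun h => hpm (h.trans ⟨2, by omega⟩)
    obtain ⟨hab, hcl⟩ := sylow_p_data h2 l S
    rw [count_norm_ab l S hab, hcl, hcount, if_pos h1, if_neg (not_not.mpr hlq), if_pos hpp, if_pos hhp, if_pos hpm, if_pos hhm]
    omega
  · by_cases hl2 : l = 2
    · subst hl2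
      obtain ⟨i, h⟩ := exists_S2D h2 S
      obtain ⟨hT3, hT1, hT4, -, -⟩ := card_TT_zero h2 h.sq
      have hR : Nat.card {ψ : IrrCharacter (Subgroup.normalizer ((S : Subgroup (S2 F)) : Set (S2 F))) // ¬ 2 ∣ charDegree (ψ : Subgroup.normalizer ((S : Subgroup (S2 F)) : Set (S2 F)) → ℂ)} = 4 := by
        by_cases h8 : 8 ∣ Nat.card (TT i)
        · exact h.count_big h8
        · apply h.count_small h8
          have hq : Fintype.card F % 8 = 3 ∨ Fintype.card F % 8 = 5 := by
            by_cases h4 : Fintype.card F % 4 = 3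
            · rw [hT3 h4] at h8; omega
            · rw [hT1 h4] at h8; omega
          exact card_syl2_eight h2 hq S
      have k1 : 2 ∣ Fintype.card F + 1 := by omega
      have k3 : 2 ∣ Fintype.card F - 1 := by omega
      rw [hR, hcount, if_pos h1, if_pos hlq, if_neg (not_not.mpr k1), if_neg (not_not.mpr k3)]
      by_cases h4 : Fintype.card F % 4 = 3
      · have k4 : 2 ∣ (Fintype.card F + 1) / 2 := by omega
        have k5 : ¬ 2 ∣ (Fintype.card F - 1) / 2 := by omega
        rw [if_neg (not_not.mpr k4), if_pos k5]; simp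
      · have k4 : ¬ 2 ∣ (Fintype.card F + 1) / 2 := by omega
        have k5 : 2 ∣ (Fintype.card F - 1) / 2 := by omega
        rw [if_pos k4, if_neg (not_not.mpr k5)]; simp
    · by_cases hd : l ∣ (Fintype.card F - 1) * (Fintype.card F + 1)
      · have hnot : ¬ (l ∣ Fintype.card F - 1 ∧ l ∣ Fintype.card F + 1) := by
          rintro ⟨h1, h3⟩
          have := Nat.dvd_sub h3 h1
          have e : Fintype.card F + 1 - (Fintype.card F - 1) = 2 := by omega
          rw [e] at this
          exact hl2 ((Nat.prime_dvd_prime_iff_eq hl Nat.prime_two).mp this)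
        have hlP : l ∣ Nat.card S := S.dvd_card_of_dvd_card (by rw [card_S2', mul_assoc]; exact Dvd.dvd.mul_left hd _)
        obtain ⟨g, hs, ht, hgP, hPT⟩ := sylow_torus' l hl2 S hd
        obtain ⟨hC, hN⟩ := sub_torus hs ht h2 _ hPT hgP
        have hab : ∀ a ∈ S, ∀ b ∈ S, a * b = b * a := fun a ha b hb => TT_comm hs (hPT ha) (hPT hb)
        have hlT := hlP.trans (Subgroup.card_dvd_of_le hPT)
        have hdd : ∀ {a : ℕ}, l ∣ 2 * a → l ∣ a := fun {a} h => by
          rcases hl.dvd_mul.mp h with h' | h'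
          · exact absurd ((Nat.prime_dvd_prime_iff_eq hl Nat.prime_two).mp h') hl2
          · exact h'
        rw [count_norm_ab l S hab, hN, hcount, if_pos h1, if_pos hlq]
        by_cases ha : Aniso (g : M2 F)
        · have hT : Nat.card (TT g) = Fintype.card F + 1 := card_TT_aniso ha
          rw [hT] at hlT
          have hpm : ¬ l ∣ Fintype.card F - 1 := fun h => hnot ⟨h, hlT⟩
          have hhp : l ∣ (Fintype.card F + 1) / 2 := hdd (by rw [show 2 * ((Fintype.card F + 1) / 2) = Fintype.card F + 1 by omega]; exact hlT)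
          have hhm : ¬ l ∣ (Fintype.card F - 1) / 2 := fun h => hpm (h.trans ⟨2, by omega⟩)
          rw [if_neg (not_not.mpr hlT), if_neg (not_not.mpr hhp), if_pos hpm, if_pos hhm,
            (cases_norm hs ht h2 (n := (Fintype.card F + 1) / 2) (by rw [hT]; omega)).2]
          omega
        · have hT : Nat.card (TT g) = Fintype.card F - 1 := card_TT_split hs ht ha
          rw [hT] at hlT
          have hpp : ¬ l ∣ Fintype.card F + 1 := fun h => hnot ⟨hlT, h⟩
          have hhm : l ∣ (Fintype.card F - 1) / 2 := hdd (by rw [show 2 * ((Fintype.card F - 1) / 2) = Fintype.card F - 1 by omega]; exact hlT)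
          have hhp : ¬ l ∣ (Fintype.card F + 1) / 2 := fun h => hpp (h.trans ⟨2, by omega⟩)
          rw [if_pos hpp, if_pos hhp, if_neg (not_not.mpr hlT), if_neg (not_not.mpr hhm),
            (cases_norm hs ht h2 (n := (Fintype.card F - 1) / 2) (by rw [hT]; omega)).2]
          omega
      · -- trivial Sylow
        have hS1 : ¬ l ∣ Nat.card (S2 F) := by
          rw [card_S2', mul_assoc]
          intro h
          rcases hl.dvd_mul.mp h with h | h
          · exact hlq h
          · exact hd h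
        have hS : (S : Subgroup (S2 F)) = ⊥ := by
          have := S.card_eq_multiplicity
          rw [Nat.factorization_eq_zero_of_not_dvd hS1, pow_zero] at this
          exact Subgroup.card_eq_one.mp this
        have hN : Subgroup.normalizer ((S : Subgroup (S2 F)) : Set (S2 F)) = ⊤ := by
          rw [hS]; exact Subgroup.normalizer_eq_top_iff.mpr inferInstance
        exact count_top (fun d => ¬ l ∣ d) _ hN

end CfsgLib.GL2a
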