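import Cfsg.Agent.Lib.GLg1
import Cfsg.Agent.Lib.GLi1
set_option autoImplicit false
set_option linter.style.haveILetI false
set_option linter.unusedSectionVars false

/-! Recognition of `SL₂(3)`. -/

namespace CfsgLib.Rec23
open CfsgLib.Quat

universe u v

/-- recognition of the generalized quaternion group, with generators -/
theorem quaternion_spec {G : Type*} [Group G] [Finite G] {m : ℕ} {a x : G} (hm : m ≠ 0) (ha : orderOf a = 2 * m) (hx : x ^ 2 = a ^ m) (hxa : x * a * x⁻¹ = a⁻¹)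
    (hnot : x ∉ Subgroup.zpowers a) (hcard : Nat.card G = 4 * m) : ∃ e : QuaternionGroup m ≃* G, e (.a 1) = a ∧ e (.xa 0) = x := by
  classical
  haveI : NeZero m := ⟨hm⟩
  have ha' : a ^ (2 * m) = 1 := by rw [← ha]; exact pow_orderOf_eq_one a
  set φ := pz (2 * m) a ha' with hφ
  let f : QuaternionGroup m →* G :=
    { toFun := fun q => match q with
        | .a i => φ i
        | .xa i => x * φ i
      map_one' := pz_zero
      map_mul' := by
        rintro (i | i) (j | j)
        · exact pz_add i j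
        · change x * φ (j - i) = φ i * (x * φ j)
          rw [← mul_assoc, pz_mul_x hxa, mul_assoc, ← pz_add]
          congr 2; ring
        · change x * φ (i + j) = x * φ i * φ j
          rw [mul_assoc, ← pz_add]
        · change φ ((m : ZMod (2 * m)) + j - i) = x * φ i * (x * φ j)
          have : x * φ i * (x * φ j) = x * (φ i * x) * φ j := by simp only [mul_assoc]
          rw [this, pz_mul_x hxa, ← mul_assoc, ← pow_two, hx, ← pz_natCast (n := 2 * m) (ha := ha') m, ← pz_add, ← pz_add]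
          congr 1; ring }
  have hinj : Function.Injective f := by
    rw [injective_iff_map_eq_one]
    rintro (i | i) h
    · have h : φ i = 1 := h
      rw [pz_inj ha h]; rfl
    · exfalso
      have h : x * φ i = 1 := h
      apply hnot
      have : x = (φ i)⁻¹ := eq_inv_of_mul_eq_one_left h
      rw [this]
      exact inv_mem (pz_mem i)
  haveI : Finite (QuaternionGroup m) := Finite.of_injective f hinj
  have hbij : Function.Bijective f := by
    apply (Nat.bijective_iff_injective_and_card f).mpr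
    refine ⟨hinj, ?_⟩
    rw [hcard, Nat.card_eq_fintype_card, QuaternionGroup.card]
  refine ⟨MulEquiv.ofBijective f hbij, ?_, ?_⟩
  · change φ 1 = a
    have := pz_natCast (n := 2 * m) (ha := ha') 1
    rw [Nat.cast_one, pow_one] at this
    exact this
  · change x * φ 0 = x
    rw [hφ, pz_zero, mul_one]

/-- gluing two split extensions -/
theorem glue {X : Type u} {Y : Type v} [Group X] [Group Y] (N : Subgroup X) (N' : Subgroup Y) [N.Normal] [N'.Normal] (f : N ≃* N') (u : X) (u' : Y)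
    (hu : ∀ k : ℤ, u ^ k ∈ N → u ^ k = 1) (hu' : ∀ k : ℤ, u' ^ k ∈ N' → u' ^ k = 1) (ho : orderOf u = orderOf u')
    (hX : ∀ x : X, ∃ n : N, ∃ k : ℤ, x = n * u ^ k) (hY : ∀ y : Y, ∃ n : N', ∃ k : ℤ, y = n * u' ^ k)
    (hc : ∀ n m : N, (m : X) = u * n * u⁻¹ → (f m : Y) = u' * f n * u'⁻¹) : Nonempty (X ≃* Y) := by
  classical
  have hcz : ∀ k : ℤ, ∀ n m : N, (m : X) = u ^ k * n * (u ^ k)⁻¹ → (f m : Y) = u' ^ k * f n * (u' ^ k)⁻¹ := by
    have hnat : ∀ k : ℕ, ∀ n m : N, (m : X) = u ^ k * n * (u ^ k)⁻¹ → (f m : Y) = u' ^ k * f n * (u' ^ k)⁻¹ := by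
      intro k
      induction k with
      | zero =>
        intro n m h
        have : m = n := by apply Subtype.ext; rw [h]; simp
        rw [this]; simp
      | succ k ih =>
        intro n m h
        have hmid : u ^ k * n * (u ^ k)⁻¹ ∈ N := Subgroup.Normal.conj_mem inferInstance _ n.2 _
        have h1 := ih n ⟨_, hmid⟩ rfl
        have h3 := hc ⟨_, hmid⟩ m (by rw [h]; simp only [pow_succ']; group)
        rw [h3, h1]; simp only [pow_succ']; group
    intro k
    obtain ⟨k, rfl | rfl⟩ := k.eq_nat_or_neg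
    · intro n m h
      rw [zpow_natCast] at h ⊢
      exact hnat k n m h
    · intro n m h
      rw [zpow_neg, zpow_natCast] at h ⊢
      have h1 := hnat k m n (by rw [h]; group)
      rw [h1]; group
  -- well-definedness
  have hpow : ∀ k l : ℤ, u ^ k = u ^ l → u' ^ k = u' ^ l := by
    intro k l h
    have h1 : u ^ (k - l) = 1 := by rw [zpow_sub, h, mul_inv_cancel]
    have h3 : u' ^ (k - l) = 1 := by
      rw [← orderOf_dvd_iff_zpow_eq_one] at h1 ⊢
      rwa [← ho]
    rw [zpow_sub] at h3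
    exact mul_inv_eq_one.mp h3
  have hwd : ∀ (n m : N) (k l : ℤ), (n : X) * u ^ k = m * u ^ l → (f n : Y) * u' ^ k = f m * u' ^ l := by
    intro n m k l h
    have h1 : ((m⁻¹ * n : N) : X) = u ^ (l - k) := by
      rw [Subgroup.coe_mul, Subgroup.coe_inv, zpow_sub]
      have : (m : X)⁻¹ * n = (m : X)⁻¹ * (n * u ^ k) * (u ^ k)⁻¹ := by group
      rw [this, h]; group
    have h3 : u ^ (l - k) = 1 := hu _ (by rw [← h1]; exact (m⁻¹ * n).2)
    have h4 : n = m := by
      rw [h3] at h1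
      have : m⁻¹ * n = 1 := Subtype.ext h1
      exact (inv_mul_eq_one.mp this).symm
    have h5 : u ^ k = u ^ l := by rw [h4] at h; exact mul_left_cancel h
    rw [h4, hpow k l h5]
  have hwd' : ∀ (n m : N) (k l : ℤ), (f n : Y) * u' ^ k = f m * u' ^ l → (n : X) * u ^ k = m * u ^ l := by
    intro n m k l h
    have h1 : ((f (m⁻¹ * n) : N') : Y) = u' ^ (l - k) := by
      rw [map_mul, map_inv, Subgroup.coe_mul, Subgroup.coe_inv, zpow_sub]
      have : (f m : Y)⁻¹ * f n = (f m : Y)⁻¹ * (f n * u' ^ k) * (u' ^ k)⁻¹ := by group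
      rw [this, h]; group
    have h3 : u' ^ (l - k) = 1 := hu' _ (by rw [← h1]; exact (f (m⁻¹ * n)).2)
    have h4 : n = m := by
      rw [h3] at h1
      have : f (m⁻¹ * n) = 1 := Subtype.ext h1
      rw [EmbeddingLike.map_eq_one_iff] at this
      exact (inv_mul_eq_one.mp this).symm
    have h5 : u' ^ k = u' ^ l := by rw [h4] at h; exact mul_left_cancel h
    have h6 : u ^ k = u ^ l := by
      have h1 : u' ^ (k - l) = 1 := by rw [zpow_sub, h5, mul_inv_cancel]
      have h3 : u ^ (k - l) = 1 := by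
        rw [← orderOf_dvd_iff_zpow_eq_one] at h1 ⊢
        rwa [ho]
      rw [zpow_sub] at h3
      exact mul_inv_eq_one.mp h3
    rw [h4, h6]
  choose nn kk hnk using hX
  let F : X → Y := fun x => (f (nn x) : Y) * u' ^ (kk x)
  have hF : ∀ (n : N) (k : ℤ), F ((n : X) * u ^ k) = (f n : Y) * u' ^ k := by
    intro n k
    exact hwd _ _ _ _ (hnk ((n : X) * u ^ k)).symm
  have hmul : ∀ x y, F (x * y) = F x * F y := by
    intro x y
    have hmid : u ^ (kk x) * (nn y : X) * (u ^ (kk x))⁻¹ ∈ N := Subgroup.Normal.conj_mem inferInstance _ (nn y).2 _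
    have h1 : x * y = ((nn x * ⟨_, hmid⟩ : N) : X) * u ^ (kk x + kk y) := by
      rw [Subgroup.coe_mul, zpow_add]
      nth_rewrite 1 [hnk x, hnk y]
      group
    rw [h1, hF, map_mul, Subgroup.coe_mul, hcz (kk x) (nn y) ⟨_, hmid⟩ rfl, zpow_add]
    change _ = (f (nn x) : Y) * u' ^ (kk x) * ((f (nn y) : Y) * u' ^ (kk y))
    group
  have hinj : Function.Injective F := by
    intro x y h
    have := hwd' (nn x) (nn y) (kk x) (kk y) h
    rw [← hnk x, ← hnk y] at this
    exact this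
  have hsurj : Function.Surjective F := by
    intro y
    obtain ⟨n, k, rfl⟩ := hY y
    refine ⟨((f.symm n : N) : X) * u ^ k, ?_⟩
    rw [hF, MulEquiv.apply_symm_apply]
  exact ⟨MulEquiv.ofBijective (MonoidHom.mk' F hmul) ⟨hinj, hsurj⟩⟩

theorem q8_triple : ∀ i j k : QuaternionGroup 2, i * i ≠ 1 → j ≠ i → j ≠ i⁻¹ → j * j ≠ 1 → k * k ≠ 1 → k ≠ i → k ≠ i⁻¹ → k ≠ j → k ≠ j⁻¹ → (k = i * j ∨ k⁻¹ = i⁻¹ * j⁻¹) := by
  decide

theorem q8_rel : ∀ i j : QuaternionGroup 2, i * i ≠ 1 → j * j ≠ 1 → j ≠ i → j ≠ i⁻¹ → (j * i * j⁻¹ = i⁻¹ ∧ j ^ 2 = i ^ 2 ∧ i ^ 4 = 1 ∧ i ^ 2 ≠ 1 ∧ i⁻¹ * i⁻¹ ≠ 1) := by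
  decide

theorem q8_central : ∀ i : QuaternionGroup 2, i * i = 1 → ∀ j : QuaternionGroup 2, j * j = 1 → i ≠ 1 → j ≠ 1 → i = j := by
  decide

/-- data for an automorphism of order 3 -/
theorem q8_data (σ : QuaternionGroup 2 ≃* QuaternionGroup 2) (h3 : ∀ x, σ (σ (σ x)) = x) (hne : ∃ x, σ x ≠ x) :
    ∃ i j : QuaternionGroup 2, i * i ≠ 1 ∧ j * j ≠ 1 ∧ j ≠ i ∧ j ≠ i⁻¹ ∧ σ i = j ∧ σ j = i * j := by
  obtain ⟨i, hi⟩ := hne
  have hii : i * i ≠ 1 := by
    intro h
    apply hi
    by_cases h1 : i = 1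
    · rw [h1, map_one]
    · apply q8_central _ _ _ h _ h1
      · rw [← map_mul, h, map_one]
      · intro h4; apply h1; exact (EmbeddingLike.map_eq_one_iff).mp h4
  have hjj : σ i * σ i ≠ 1 := by
    rw [← map_mul]; intro h; exact hii ((EmbeddingLike.map_eq_one_iff).mp h)
  have hkk : σ (σ i) * σ (σ i) ≠ 1 := by
    rw [← map_mul]; intro h; exact hjj ((EmbeddingLike.map_eq_one_iff).mp h)
  have hj2 : σ i ≠ i⁻¹ := by
    intro h
    have h1 : σ (σ i) = i := by rw [h, map_inv, h, inv_inv]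
    have := h3 i
    rw [h1] at this
    exact hi this
  have hk1 : σ (σ i) ≠ i := by
    intro h
    have := h3 i
    rw [h] at this; exact hi this
  have hk2 : σ (σ i) ≠ i⁻¹ := by
    intro h
    have h1 := h3 i
    rw [h, map_inv] at h1
    exact hj2 (inv_eq_iff_eq_inv.mp h1)
  have hk3 : σ (σ i) ≠ σ i := fun h => hi (σ.injective h)
  have hk4 : σ (σ i) ≠ (σ i)⁻¹ := by
    intro h
    rw [← map_inv] at h
    exact hj2 (σ.injective h)
  rcases q8_triple i (σ i) (σ (σ i)) hii hi hj2 hjj hkk hk1 hk2 hk3 hk4 with h | h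
  · exact ⟨i, σ i, hii, hjj, hi, hj2, rfl, h⟩
  · refine ⟨i⁻¹, (σ i)⁻¹, (q8_rel i (σ i) hii hjj hi hj2).2.2.2.2, ?_, ?_, ?_, by rw [map_inv], by rw [map_inv]; exact h⟩
    · intro h4
      apply hjj
      have := congrArg (fun x => x⁻¹) h4
      simpa using this
    · intro h4; exact hi (inv_injective h4)
    · intro h4; apply hj2; rw [← inv_inv (σ i), h4, inv_inv]

/-- splitting data of `SL₂(3)` type -/
structure Dat (X : Type u) [Group X] (N : Subgroup X) (u : X) : Prop where
  normal : N.Normal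
  iso : Nonempty (N ≃* QuaternionGroup 2)
  u3 : u ^ 3 = 1
  u1 : u ≠ 1
  gen : ∀ x : X, ∃ n : N, ∃ k : ℤ, x = n * u ^ k
  act : ∃ n ∈ N, u * n * u⁻¹ ≠ n

theorem Dat.order {X : Type u} [Group X] {N : Subgroup X} {u : X} (h : Dat X N u) : orderOf u = 3 :=
  haveI : Fact (Nat.Prime 3) := ⟨Nat.prime_three⟩
  orderOf_eq_prime h.u3 h.u1

theorem Dat.inter {X : Type u} [Group X] {N : Subgroup X} {u : X} (h : Dat X N u) (k : ℤ) (hk : u ^ k ∈ N) : u ^ k = 1 := by
  obtain ⟨e⟩ := h.iso
  have h8 : ∀ y : QuaternionGroup 2, y ^ 4 = 1 := by decide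
  have h1 : (⟨u ^ k, hk⟩ : N) ^ 4 = 1 := by
    apply e.injective; rw [map_pow, map_one]; exact h8 _
  have h3 : (u ^ k) ^ 4 = 1 := congrArg Subtype.val h1
  have h4 : (u ^ k) ^ 3 = 1 := by
    rw [← zpow_natCast, ← zpow_mul, mul_comm, zpow_mul, zpow_natCast, h.u3, one_zpow]
  calc u ^ k = (u ^ k) ^ 4 * ((u ^ k) ^ 3)⁻¹ := by group
    _ = 1 := by rw [h3, h4]; simp

theorem Dat.data {X : Type u} [Group X] {N : Subgroup X} {u : X} (h : Dat X N u) :
    ∃ e : QuaternionGroup 2 ≃* N, u * (e (.a 1) : X) * u⁻¹ = e (.xa 0) ∧ u * (e (.xa 0) : X) * u⁻¹ = e (.a 1 * .xa 0) := by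
  haveI := h.normal
  obtain ⟨e⟩ := h.iso
  haveI : Finite N := Finite.of_equiv _ e.symm.toEquiv
  set s : N ≃* N := (MulAut.conjNormal u : MulAut N) with hs
  have hsv : ∀ n : N, ((s n : N) : X) = u * n * u⁻¹ := fun n => MulAut.conjNormal_apply u n
  set σ : QuaternionGroup 2 ≃* QuaternionGroup 2 := (e.symm.trans s).trans e with hσ
  have hσe : ∀ n : N, σ (e n) = e (s n) := fun n => by
    change e (s (e.symm (e n))) = _
    rw [MulEquiv.symm_apply_apply]
  obtain ⟨i, j, hii, hjj, hji, hji', hi, hj⟩ := q8_data σ (by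
    intro x
    obtain ⟨n, rfl⟩ := e.surjective x
    rw [hσe, hσe, hσe]
    congr 1
    apply Subtype.ext
    rw [hsv, hsv, hsv]
    have h3 : u * u * u = 1 := by rw [← h.u3]; simp [pow_succ]
    calc u * (u * (u * (n : X) * u⁻¹) * u⁻¹) * u⁻¹ = (u * u * u) * n * (u * u * u)⁻¹ := by simp only [mul_inv_rev, mul_assoc]
      _ = n := by rw [h3]; simp) (by
    obtain ⟨n, hn, hne⟩ := h.act
    refine ⟨e ⟨n, hn⟩, fun h1 => hne ?_⟩
    rw [hσe] at h1
    have := congrArg Subtype.val (e.injective h1)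
    rw [hsv] at this; exact this)
  obtain ⟨r1, r2, r3, r4, -⟩ := q8_rel i j hii hjj hji hji'
  obtain ⟨ε, hε1, hε2⟩ := quaternion_spec (G := QuaternionGroup 2) (m := 2) (a := i) (x := j) (by norm_num) (by
      have : orderOf i = 2 ^ (1 + 1) := orderOf_eq_prime_pow (by simpa using r4) (by simpa using r3)
      rw [this]; norm_num) r2 r1 (by
      intro hmem
      obtain ⟨k, hk⟩ := Subgroup.mem_zpowers_iff.mp hmem
      have hz : ∀ k : ℤ, i ^ k = 1 ∨ i ^ k = i ∨ i ^ k = i ^ 2 ∨ i ^ k = i ^ 3 := by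
        intro k
        have hk0 := Int.emod_nonneg k (show (4 : ℤ) ≠ 0 by norm_num)
        have hk4 := Int.emod_lt_of_pos k (show (0 : ℤ) < 4 by norm_num)
        have hdiv := Int.emod_add_mul_ediv k 4
        have : i ^ k = i ^ (k % 4) := by
          rw [← hdiv, zpow_add, zpow_mul]
          have : i ^ (4 : ℤ) = 1 := by exact_mod_cast r3
          rw [this, one_zpow, mul_one]
          rw [hdiv]
        rw [this]
        generalize k % 4 = l at hk0 hk4
        interval_cases l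
        · left; simp
        · right; left; simp
        · right; right; left; rfl
        · right; right; right; rfl
      rcases hz k with h1 | h1 | h1 | h1
      · rw [h1] at hk; rw [← hk] at hjj; exact hjj (by simp)
      · rw [h1] at hk; exact hji hk.symm
      · rw [h1] at hk
        apply hjj
        rw [← hk]
        calc i ^ 2 * i ^ 2 = i ^ 4 := by group
          _ = 1 := r3
      · rw [h1] at hk
        apply hji'
        rw [← hk]
        exact eq_inv_of_mul_eq_one_left (by calc i ^ 3 * i = i ^ 4 := by group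
          _ = 1 := r3)) (by
      rw [Nat.card_eq_fintype_card, QuaternionGroup.card])
  refine ⟨ε.trans e.symm, ?_, ?_⟩
  · change u * ((e.symm (ε (.a 1)) : N) : X) * u⁻¹ = e.symm (ε (.xa 0))
    rw [hε1, hε2, ← hi]
    change _ = ((e.symm (e (s (e.symm i))) : N) : X)
    rw [MulEquiv.symm_apply_apply, hsv]
  · change u * ((e.symm (ε (.xa 0)) : N) : X) * u⁻¹ = e.symm (ε (.a 1 * .xa 0))
    rw [map_mul, hε1, hε2, ← hj]
    change _ = ((e.symm (e (s (e.symm j))) : N) : X)
    rw [MulEquiv.symm_apply_apply, hsv]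

theorem q8_gen : ∀ q : QuaternionGroup 2, ∃ k l : Fin 4, q = (.xa 0) ^ (k : ℕ) * (.a 1) ^ (l : ℕ) := by
  decide

/-- two groups of `SL₂(3)` type are isomorphic -/
theorem Dat.unique {X : Type u} [Group X] {N : Subgroup X} {u : X} (h : Dat X N u) {Y : Type v} [Group Y] {N' : Subgroup Y} {u' : Y} (h' : Dat Y N' u') :
    Nonempty (X ≃* Y) := by
  haveI := h.normal
  haveI := h'.normal
  obtain ⟨e, e1, e2⟩ := h.data
  obtain ⟨e', e1', e2'⟩ := h'.data
  refine glue N N' (e.symm.trans e') u u' h.inter h'.inter (h.order.trans h'.order.symm) h.gen h'.gen ?_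
  -- compatibility
  have key : ∀ q : QuaternionGroup 2, ∀ r : QuaternionGroup 2, (e r : X) = u * e q * u⁻¹ → (e' r : Y) = u' * e' q * u'⁻¹ := by
    set s : N ≃* N := (MulAut.conjNormal u : MulAut N) with hs
    have hsv : ∀ n : N, ((s n : N) : X) = u * n * u⁻¹ := fun n => MulAut.conjNormal_apply u n
    set s' : N' ≃* N' := (MulAut.conjNormal u' : MulAut N') with hs'
    have hsv' : ∀ n : N', ((s' n : N') : Y) = u' * n * u'⁻¹ := fun n => MulAut.conjNormal_apply u' n
    have hg : ∀ q : QuaternionGroup 2, e.symm (s (e q)) = e'.symm (s' (e' q)) := by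
      have g1 : e.symm (s (e (.a 1))) = e'.symm (s' (e' (.a 1))) := by
        have h1 : s (e (.a 1)) = e (.xa 0) := Subtype.ext (by rw [hsv]; exact e1)
        have h2 : s' (e' (.a 1)) = e' (.xa 0) := Subtype.ext (by rw [hsv']; exact e1')
        rw [h1, h2, MulEquiv.symm_apply_apply, MulEquiv.symm_apply_apply]
      have g2 : e.symm (s (e (.xa 0))) = e'.symm (s' (e' (.xa 0))) := by
        have h1 : s (e (.xa 0)) = e (.a 1 * .xa 0) := Subtype.ext (by rw [hsv]; exact e2)
        have h2 : s' (e' (.xa 0)) = e' (.a 1 * .xa 0) := Subtype.ext (by rw [hsv']; exact e2')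
        rw [h1, h2, MulEquiv.symm_apply_apply, MulEquiv.symm_apply_apply]
      intro q
      obtain ⟨k, l, hkl⟩ := q8_gen q
      rw [hkl]
      simp only [map_mul, map_pow]
      rw [g1, g2]
    intro q r hr
    have h1 : e r = s (e q) := Subtype.ext (by rw [hsv]; exact hr)
    have h2 : r = e.symm (s (e q)) := by rw [← h1, MulEquiv.symm_apply_apply]
    rw [hg q] at h2
    rw [h2, MulEquiv.apply_symm_apply, hsv']
  intro n m hm
  obtain ⟨q, rfl⟩ := e.surjective n
  obtain ⟨r, rfl⟩ := e.surjective m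
  change (e' (e.symm (e r)) : Y) = u' * (e' (e.symm (e q)) : Y) * u'⁻¹
  rw [MulEquiv.symm_apply_apply, MulEquiv.symm_apply_apply]
  exact key q r hm

end CfsgLib.Rec23
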