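import Cfsg.Agent.Lib.GLj2
set_option autoImplicit false
set_option linter.style.haveILetI false
set_option linter.unusedSectionVars false

/-! Recognition of `SL₂(3)`. -/

namespace CfsgLib.Rec23
open CfsgLib.Quat CfsgLib.GL2a Matrix

universe u v

theorem gen_of_card {X : Type u} [Group X] [Finite X] (N : Subgroup X) [N.Normal] (hi : N.index = 3) (u : X) (hu : u ∉ N) :
    ∀ x : X, ∃ n : N, ∃ k : ℤ, x = n * u ^ k := by
  intro x
  have hc : Nat.card (X ⧸ N) = 3 := hi
  haveI : Fact (Nat.Prime 3) := ⟨Nat.prime_three⟩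
  have hg := zpowers_eq_top_of_prime_card hc (g := (QuotientGroup.mk' N u)) (by
    intro h; exact hu ((QuotientGroup.eq_one_iff u).mp h))
  obtain ⟨k, hk⟩ := Subgroup.mem_zpowers_iff.mp (show QuotientGroup.mk' N x ∈ Subgroup.zpowers (QuotientGroup.mk' N u) by rw [hg]; trivial)
  rw [← map_zpow] at hk
  have h1 := (QuotientGroup.mk'_eq_mk' N).mp hk
  obtain ⟨z, hz, hzx⟩ := h1
  refine ⟨⟨u ^ k * z * (u ^ k)⁻¹, Subgroup.Normal.conj_mem inferInstance _ hz _⟩, k, ?_⟩
  rw [← hzx]; simp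

theorem three_smul : (3 : ℕ) • (1 : ZMod 3) = 0 := by decide

theorem dat_sl23 : ∃ (N : Subgroup (S2 (ZMod 3))) (u : S2 (ZMod 3)), Dat (S2 (ZMod 3)) N u := by
  haveI : Fact (Nat.Prime 3) := ⟨Nat.prime_three⟩
  obtain ⟨h2, S, i, u, w, h, hn, hc, hw, hwT, hwi, hww, hui, huw, huS, -, hiso⟩ := sl23 (F := ZMod 3) (by simp)
  haveI := hn
  have hcX : Nat.card (S2 (ZMod 3)) = 24 := by
    rw [card_S2']; simp
  have hidx : (S : Subgroup (S2 (ZMod 3))).index = 3 := by
    have h1 := (S : Subgroup (S2 (ZMod 3))).card_mul_index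
    have hc' : Nat.card (S : Subgroup (S2 (ZMod 3))) = 8 := hc
    rw [hc', hcX] at h1; omega
  set t : S2 (ZMod 3) := upS (Multiplicative.ofAdd 1) with ht
  have ht3 : t ^ 3 = 1 := by
    rw [ht, ← map_pow]
    have : (Multiplicative.ofAdd (1 : ZMod 3)) ^ 3 = 1 := by
      apply Multiplicative.toAdd.injective
      rw [toAdd_pow, toAdd_ofAdd, toAdd_one]
      exact three_smul
    rw [this, map_one]
  have ht1 : t ≠ 1 := by
    intro h
    have := congrArg (fun g : S2 (ZMod 3) => (g : M2 (ZMod 3)) 0 1) h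
    have h3 : (t : M2 (ZMod 3)) 0 1 = 1 := rfl
    simp only [h3] at this
    simp at this
  have htS : t ∉ (S : Subgroup (S2 (ZMod 3))) := by
    intro hm
    have h1 : orderOf t = 3 := orderOf_eq_prime ht3 ht1
    have h3 : orderOf t ∣ 8 := by
      have := orderOf_dvd_natCard (⟨t, hm⟩ : (S : Subgroup (S2 (ZMod 3))))
      rw [Subgroup.orderOf_mk] at this
      rwa [show Nat.card (S : Subgroup (S2 (ZMod 3))) = 8 from hc] at this
    rw [h1] at h3; omega
  refine ⟨S, t, hn, hiso, ht3, ht1, gen_of_card _ hidx t htS, ?_⟩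
  by_contra hcon
  push Not at hcon
  have h1 : t ∈ Subgroup.centralizer ((S : Subgroup (S2 (ZMod 3))) : Set (S2 (ZMod 3))) := by
    rw [Subgroup.mem_centralizer_iff]
    intro n hn'
    have := hcon n hn'
    rw [mul_inv_eq_iff_eq_mul] at this
    exact this.symm
  rw [h.cent, mem_center_iff_isScal] at h1
  rcases scal_sl' h1 with h3 | h3
  · exact ht1 h3
  · apply htS; rw [h3]; exact h.neg_mem

/-- recognition -/
theorem Dat.iso_sl23 {X : Type u} [Group X] {N : Subgroup X} {u : X} (h : Dat X N u) : Nonempty (X ≃* Matrix.SpecialLinearGroup (Fin 2) (ZMod 3)) := by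
  obtain ⟨N', u', h'⟩ := dat_sl23
  exact h.unique h'

end CfsgLib.Rec23
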