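import Cfsg.Agent.Lib.GLj3
set_option autoImplicit false
set_option linter.style.haveILetI false
set_option linter.unusedSectionVars false

/-! Odd automorphisms of cyclic and quaternion 2-groups. -/

namespace CfsgLib.Rec23
open CfsgLib.Quat

universe u v

variable {G : Type u} [Group G]

/-- conjugation action on a normalized subgroup -/
theorem cent_of_hom [Finite G] {Q : Subgroup G} {g : G} (hg : g ∈ Subgroup.normalizer (Q : Set G)) :
    (Q.normalizerMonoidHom ⟨g, hg⟩ = 1) ↔ g ∈ Subgroup.centralizer (Q : Set G) := by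
  have h := Subgroup.normalizerMonoidHom_ker (H := Q)
  rw [← MonoidHom.mem_ker, h, Subgroup.mem_subgroupOf]

theorem hom_order [Finite G] {Q : Subgroup G} {g : G} (hg : g ∈ Subgroup.normalizer (Q : Set G)) : orderOf (Q.normalizerMonoidHom ⟨g, hg⟩) ∣ orderOf g := by
  have := orderOf_map_dvd Q.normalizerMonoidHom (⟨g, hg⟩ : Subgroup.normalizer (Q : Set G))
  rwa [Subgroup.orderOf_mk] at this

theorem cyc_cent [Finite G] {Q : Subgroup G} (hQ : IsPGroup 2 Q) (hc : IsCyclic Q) {g : G} (hg : g ∈ Subgroup.normalizer (Q : Set G)) (ho : Odd (orderOf g)) :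
    g ∈ Subgroup.centralizer (Q : Set G) := by
  haveI : Fact (Nat.Prime 2) := ⟨Nat.prime_two⟩
  haveI := hc
  rw [← cent_of_hom hg, ← orderOf_eq_one_iff]
  have h1 := hom_order hg
  have h2 : orderOf (Q.normalizerMonoidHom ⟨g, hg⟩) ∣ Nat.card (MulAut Q) := orderOf_dvd_natCard _
  rw [IsCyclic.card_mulAut] at h2
  obtain ⟨k, hk⟩ := hQ.exists_card_eq
  rw [hk] at h2
  have h3 : ∃ j, Nat.totient (2 ^ k) = 2 ^ j := by
    rcases Nat.eq_zero_or_pos k with h0 | h0
    · exact ⟨0, by rw [h0]; simp⟩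
    · exact ⟨k - 1, by rw [Nat.totient_prime_pow Nat.prime_two h0]; simp⟩
  obtain ⟨j, hj⟩ := h3
  rw [hj] at h2
  have h4 : Nat.Coprime (orderOf g) (2 ^ j) := Nat.Coprime.pow_right j (Nat.coprime_two_right.mpr ho)
  exact Nat.eq_one_of_dvd_coprimes h4 h1 h2

/-- evaluation of an endomorphism of `Q₈` -/
def ev (a b q : QuaternionGroup 2) : QuaternionGroup 2 := match q with
  | .a k => a ^ k.val
  | .xa k => b * a ^ k.val

theorem q8_norm : ∀ q : QuaternionGroup 2, ev (.a 1) (.xa 0) q = q := by decide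

theorem ev_iter : ∀ a b : QuaternionGroup 2, a * a ≠ 1 → b * b ≠ 1 → b ≠ a → b ≠ a⁻¹ → ∀ q, (ev a b)^[12] q = q := by
  decide +kernel

theorem q8_aut (σ : MulAut (QuaternionGroup 2)) : σ ^ 12 = 1 := by
  have hev : ∀ q, σ q = ev (σ (.a 1)) (σ (.xa 0)) q := by
    intro q
    conv_lhs => rw [← q8_norm q]
    rcases q with k | k
    · change σ ((.a 1) ^ k.val) = σ (.a 1) ^ k.val
      rw [map_pow]
    · change σ ((.xa 0) * (.a 1) ^ k.val) = σ (.xa 0) * σ (.a 1) ^ k.val
      rw [map_mul, map_pow]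
  have hfun : (σ : QuaternionGroup 2 → QuaternionGroup 2) = ev (σ (.a 1)) (σ (.xa 0)) := funext hev
  have h1 : ∀ n : ℕ, ∀ q, (σ ^ n) q = (ev (σ (.a 1)) (σ (.xa 0)))^[n] q := by
    intro n
    induction n with
    | zero => intro q; rfl
    | succ n ih =>
      intro q
      rw [pow_succ, MulAut.mul_apply, ih, Function.iterate_succ_apply, ← hev]
  ext q
  rw [h1]
  rw [MulAut.one_apply]
  have c1 : ((.a 1 : QuaternionGroup 2)) * .a 1 ≠ 1 := by decide
  have c2 : ((.xa 0 : QuaternionGroup 2)) * .xa 0 ≠ 1 := by decide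
  have c3 : (.xa 0 : QuaternionGroup 2) ≠ .a 1 := by decide
  have c4 : (.xa 0 : QuaternionGroup 2) ≠ (.a 1)⁻¹ := by decide
  apply ev_iter
  · rw [← map_mul]; intro h; exact c1 ((EmbeddingLike.map_eq_one_iff).mp h)
  · rw [← map_mul]; intro h; exact c2 ((EmbeddingLike.map_eq_one_iff).mp h)
  · intro h; exact c3 (σ.injective h)
  · intro h; rw [← map_inv] at h; exact c4 (σ.injective h)

theorem cube_cent [Finite G] {Q : Subgroup G} (e : Q ≃* QuaternionGroup 2) {g : G} (hg : g ∈ Subgroup.normalizer (Q : Set G)) (ho : Odd (orderOf g)) :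
    g ^ 3 ∈ Subgroup.centralizer (Q : Set G) ∧ (¬ 3 ∣ orderOf g → g ∈ Subgroup.centralizer (Q : Set G)) := by
  have h12 : (Q.normalizerMonoidHom ⟨g, hg⟩) ^ 12 = 1 := by
    have h1 := q8_aut (MulAut.congr e (Q.normalizerMonoidHom ⟨g, hg⟩))
    rw [← map_pow] at h1
    exact (EmbeddingLike.map_eq_one_iff).mp h1
  have h1 := hom_order hg
  have h2 := orderOf_dvd_of_pow_eq_one h12
  have hodd : Odd (orderOf (Q.normalizerMonoidHom ⟨g, hg⟩)) := ho.of_dvd_nat h1
  have h3 : orderOf (Q.normalizerMonoidHom ⟨g, hg⟩) ∣ 3 := by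
    have hc : Nat.Coprime (orderOf (Q.normalizerMonoidHom ⟨g, hg⟩)) 4 := by
      have : (4 : ℕ) = 2 ^ 2 := by norm_num
      rw [this]; exact Nat.Coprime.pow_right 2 (Nat.coprime_two_right.mpr hodd)
    exact hc.dvd_of_dvd_mul_left (by norm_num; exact h2)
  constructor
  · rw [← cent_of_hom (pow_mem hg 3)]
    have h4 := orderOf_dvd_iff_pow_eq_one.mp h3
    rw [← map_pow] at h4
    exact h4
  · intro h5
    rw [← cent_of_hom hg, ← orderOf_eq_one_iff]
    rcases (Nat.dvd_prime Nat.prime_three).mp h3 with h6 | h6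
    · exact h6
    · rw [h6] at h1; exact absurd h1 h5

/-- odd automorphisms of large quaternion groups are trivial -/
theorem big_cent [Finite G] {Q : Subgroup G} {k : ℕ} (hk : 2 ≤ k) (e : Q ≃* QuaternionGroup (2 ^ k)) (hQ : IsPGroup 2 Q) {g : G} (hg : g ∈ Subgroup.normalizer (Q : Set G)) (ho : Odd (orderOf g)) :
    g ∈ Subgroup.centralizer (Q : Set G) := by
  haveI : NeZero (2 ^ k) := ⟨by positivity⟩
  set c : Q := e.symm (.a 1) with hc
  have hoc : orderOf (c : G) = 2 * 2 ^ k := by
    rw [Subgroup.orderOf_coe, hc, MulEquiv.orderOf_eq, QuaternionGroup.orderOf_a_one]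
  have hmem : ∀ y : G, y ∈ Q → orderOf y = 2 * 2 ^ k → y ∈ Subgroup.zpowers (c : G) := by
    intro y hy hoy
    rcases hey : e ⟨y, hy⟩ with i | i
    · have h1 : (⟨y, hy⟩ : Q) = c ^ i.val := by
        apply e.injective
        rw [hey, map_pow, hc, MulEquiv.apply_symm_apply, QuaternionGroup.a_one_pow, ZMod.natCast_val, ZMod.cast_id]
      have h2 : y = (c : G) ^ i.val := congrArg Subtype.val h1
      rw [h2]; exact Subgroup.pow_mem _ (Subgroup.mem_zpowers _) _
    · exfalso
      have h1 : orderOf (⟨y, hy⟩ : Q) = 4 := by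
        rw [← MulEquiv.orderOf_eq e, hey, QuaternionGroup.orderOf_xa]
      rw [Subgroup.orderOf_mk, hoy] at h1
      have h4 : 2 ^ 2 ≤ 2 ^ k := Nat.pow_le_pow_right (by norm_num) hk
      omega
  have hgc : g * c * g⁻¹ ∈ Subgroup.zpowers (c : G) := by
    apply hmem
    · exact (Subgroup.mem_normalizer_iff.mp hg _).mp c.2
    · rw [← MulAut.conj_apply, MulEquiv.orderOf_eq, hoc]
  have hCP : IsPGroup 2 (Subgroup.zpowers (c : G)) := by
    apply hQ.to_le
    rw [Subgroup.zpowers_le]; exact c.2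
  have hgN : g ∈ Subgroup.normalizer ((Subgroup.zpowers (c : G) : Subgroup G) : Set G) := by
    have hle : (Subgroup.zpowers (c : G)).map (MulAut.conj g).toMonoidHom ≤ Subgroup.zpowers (c : G) := by
      rw [MonoidHom.map_zpowers, Subgroup.zpowers_le]; exact hgc
    have heq : (Subgroup.zpowers (c : G)).map (MulAut.conj g).toMonoidHom = Subgroup.zpowers (c : G) := by
      apply Subgroup.eq_of_le_of_card_ge hle
      exact (Nat.card_congr ((Subgroup.zpowers (c : G)).equivMapOfInjective _ (MulAut.conj g).injective).toEquiv).le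
    rw [Subgroup.mem_normalizer_iff]
    intro x
    constructor
    · intro hx; exact hle ⟨x, hx, rfl⟩
    · intro hx
      rw [← heq] at hx
      obtain ⟨y, hy, hyx⟩ := hx
      have : y = x := by
        have h1 : g * y * g⁻¹ = g * x * g⁻¹ := hyx
        exact mul_left_cancel (mul_right_cancel h1)
      rw [← this]; exact hy
  have hcent := cyc_cent hCP inferInstance hgN ho
  have hcc : ∀ y ∈ Subgroup.zpowers (c : G), y * g = g * y := fun y hy => Subgroup.mem_centralizer_iff.mp hcent y hy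
  -- the other generator
  set x : Q := e.symm (.xa 0) with hx
  have hd : g * x * g⁻¹ * (x : G)⁻¹ ∈ Subgroup.zpowers (c : G) := by
    have hyQ : g * x * g⁻¹ ∈ Q := (Subgroup.mem_normalizer_iff.mp hg _).mp x.2
    rcases hey : e ⟨_, hyQ⟩ with i | i
    · exfalso
      have h1 : (⟨_, hyQ⟩ : Q) = c ^ i.val := by
        apply e.injective
        rw [hey, map_pow, hc, MulEquiv.apply_symm_apply, QuaternionGroup.a_one_pow, ZMod.natCast_val, ZMod.cast_id]
      have h2 : g * x * g⁻¹ = (c : G) ^ i.val := congrArg Subtype.val h1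
      have h3 := hcc ((c : G) ^ i.val) (Subgroup.pow_mem _ (Subgroup.mem_zpowers _) _)
      have h4 : (x : G) = (c : G) ^ i.val := by
        have : (x : G) = g⁻¹ * (g * x * g⁻¹) * g := by group
        rw [this, h2, mul_assoc, h3]; group
      have h5 : x = c ^ i.val := Subtype.ext h4
      have h6 := congrArg e h5
      rw [hx, map_pow, hc, MulEquiv.apply_symm_apply, MulEquiv.apply_symm_apply, QuaternionGroup.a_one_pow] at h6
      exact absurd h6 (by simp)
    · have h1 : (⟨_, hyQ⟩ : Q) * x⁻¹ = e.symm (.a (-i)) := by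
        apply e.injective
        rw [map_mul, map_inv, hey, hx, MulEquiv.apply_symm_apply, MulEquiv.apply_symm_apply]
        rw [mul_inv_eq_iff_eq_mul]
        rw [QuaternionGroup.a_mul_xa]
        simp
      have h2 : e.symm (.a (-i)) = c ^ (-i).val := by
        apply e.injective
        rw [MulEquiv.apply_symm_apply, map_pow, hc, MulEquiv.apply_symm_apply, QuaternionGroup.a_one_pow, ZMod.natCast_val, ZMod.cast_id]
      rw [h2] at h1
      have h3 : g * x * g⁻¹ * (x : G)⁻¹ = (c : G) ^ (-i).val := congrArg Subtype.val h1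
      rw [h3]; exact Subgroup.pow_mem _ (Subgroup.mem_zpowers _) _
  set d := g * x * g⁻¹ * (x : G)⁻¹ with hdd
  have hgx : g * x * g⁻¹ = d * x := by rw [hdd]; group
  have hdg := hcc d hd
  have hpow : ∀ m : ℕ, g ^ m * x * (g ^ m)⁻¹ = d ^ m * x := by
    intro m
    induction m with
    | zero => simp
    | succ m ih =>
      have hcomm : g * d ^ m = d ^ m * g := (Commute.pow_left (show Commute d g from hdg) m).symm
      calc g ^ (m + 1) * x * (g ^ (m + 1))⁻¹ = g * (g ^ m * x * (g ^ m)⁻¹) * g⁻¹ := by rw [pow_succ']; group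
        _ = g * (d ^ m * x) * g⁻¹ := by rw [ih]
        _ = (g * d ^ m) * x * g⁻¹ := by group
        _ = d ^ m * (g * x * g⁻¹) := by rw [hcomm]; group
        _ = d ^ (m + 1) * x := by rw [hgx, pow_succ]; group
  have hd1 : d = 1 := by
    have h1 := hpow (orderOf g)
    rw [pow_orderOf_eq_one, one_mul, inv_one, mul_one] at h1
    have h2 : d ^ orderOf g = 1 := by
      have := h1.symm
      exact mul_eq_right.mp this
    obtain ⟨j, hj⟩ := hCP ⟨d, hd⟩
    have h3 : d ^ 2 ^ j = 1 := congrArg Subtype.val hj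
    have h4 : Nat.Coprime (orderOf g) (2 ^ j) := Nat.Coprime.pow_right j (Nat.coprime_two_right.mpr ho)
    have h5 := Nat.eq_one_of_dvd_coprimes h4 (orderOf_dvd_of_pow_eq_one h2) (orderOf_dvd_of_pow_eq_one h3)
    exact orderOf_eq_one_iff.mp h5
  have hxg : (x : G) * g = g * x := by
    rw [hd1, one_mul, mul_inv_eq_iff_eq_mul] at hgx
    exact hgx.symm
  rw [Subgroup.mem_centralizer_iff]
  intro y hy
  have hcg : (c : G) * g = g * c := hcc _ (Subgroup.mem_zpowers _)
  rcases hey : e ⟨y, hy⟩ with i | i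
  · have h1 : (⟨y, hy⟩ : Q) = c ^ i.val := by
      apply e.injective
      rw [hey, map_pow, hc, MulEquiv.apply_symm_apply, QuaternionGroup.a_one_pow, ZMod.natCast_val, ZMod.cast_id]
    have h2 : y = (c : G) ^ i.val := congrArg Subtype.val h1
    rw [h2]; exact Commute.pow_left (show Commute (c : G) g from hcg) _
  · have h1 : (⟨y, hy⟩ : Q) = x * c ^ i.val := by
      apply e.injective
      rw [hey, map_mul, map_pow, hc, hx, MulEquiv.apply_symm_apply, MulEquiv.apply_symm_apply, QuaternionGroup.a_one_pow, QuaternionGroup.xa_mul_a, ZMod.natCast_val, ZMod.cast_id, zero_add]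
    have h2 : y = (x : G) * (c : G) ^ i.val := congrArg Subtype.val h1
    rw [h2]
    exact Commute.mul_left (show Commute (x : G) g from hxg) (Commute.pow_left (show Commute (c : G) g from hcg) _)

end CfsgLib.Rec23
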