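import Cfsg.Agent.Lib.GLj4
import Cfsg.Agent.Lib.NPC
import Cfsg.Agent.Lib.H6SPE4
set_option autoImplicit false
set_option linter.style.haveILetI false
set_option linter.unusedSectionVars false

/-! Sections isomorphic to `SL₂(3)`. -/

namespace CfsgLib.Rec23
open CfsgLib.Quat

universe u v

variable {G : Type u} [Group G]

theorem section_sl23 [Finite G] (Q : Subgroup G) (e : Q ≃* QuaternionGroup 2) (g : G) (hg : g ∈ Subgroup.normalizer (Q : Set G)) (ho : Odd (orderOf g))
    (hnc : g ∉ Subgroup.centralizer (Q : Set G)) :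
    ∃ _ : ((Subgroup.zpowers (g ^ 3)).subgroupOf (Q ⊔ Subgroup.zpowers g)).Normal,
      Nonempty ((↥(Q ⊔ Subgroup.zpowers g) ⧸ (Subgroup.zpowers (g ^ 3)).subgroupOf (Q ⊔ Subgroup.zpowers g)) ≃* Matrix.SpecialLinearGroup (Fin 2) (ZMod 3)) := by
  obtain ⟨h3, -⟩ := cube_cent e hg ho
  set H := Q ⊔ Subgroup.zpowers g with hH
  set K := Subgroup.zpowers (g ^ 3) with hK
  have hQH : Q ≤ H := le_sup_left
  have hgH : g ∈ H := Subgroup.mem_sup_right (Subgroup.mem_zpowers g)
  have hHN : H ≤ Subgroup.normalizer (Q : Set G) := sup_le Subgroup.le_normalizer (by rw [Subgroup.zpowers_le]; exact hg)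
  have hHC : H ≤ Subgroup.centralizer ({g ^ 3} : Set G) := by
    apply sup_le
    · intro q hq
      rw [Subgroup.mem_centralizer_singleton_iff]
      exact Subgroup.mem_centralizer_iff.mp h3 q hq
    · rw [Subgroup.zpowers_le, Subgroup.mem_centralizer_singleton_iff]
      exact (pow_mul_comm' g 3).symm
  have hcomm : ∀ h ∈ H, ∀ k ∈ K, h * k = k * h := by
    intro h hh k hk
    obtain ⟨j, rfl⟩ := Subgroup.mem_zpowers_iff.mp hk
    have h1 : Commute h (g ^ 3) := Subgroup.mem_centralizer_singleton_iff.mp (hHC hh)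
    exact Commute.zpow_right h1 j
  have hKn : (K.subgroupOf H).Normal := ⟨fun k hk h => by
    have h1 : h * k = k * h := Subtype.ext (hcomm h h.2 k hk)
    rw [h1, mul_inv_cancel_right]; exact hk⟩
  refine ⟨hKn, ?_⟩
  have hQp : ∀ q ∈ Q, q ^ 4 = 1 := by
    intro q hq
    have h8 : ∀ y : QuaternionGroup 2, y ^ 4 = 1 := by decide
    have h1 : (⟨q, hq⟩ : Q) ^ 4 = 1 := by
      apply e.injective; rw [map_pow, map_one]; exact h8 _
    exact congrArg Subtype.val h1
  have hQK : ∀ q ∈ Q, q ∈ K → q = 1 := by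
    intro q hq hqK
    have h1 : orderOf q ∣ 4 := orderOf_dvd_of_pow_eq_one (hQp q hq)
    have h4 : orderOf q ∣ orderOf g := by
      have hle : K ≤ Subgroup.zpowers g := by
        rw [hK, Subgroup.zpowers_le]; exact Subgroup.pow_mem _ (Subgroup.mem_zpowers g) 3
      have := Subgroup.orderOf_dvd_natCard (Subgroup.zpowers g) (hle hqK)
      rwa [Nat.card_zpowers] at this
    have hc : Nat.Coprime (orderOf g) 4 := by
      have : (4 : ℕ) = 2 ^ 2 := by norm_num
      rw [this]; exact Nat.Coprime.pow_right 2 (Nat.coprime_two_right.mpr ho)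
    exact orderOf_eq_one_iff.mp (Nat.eq_one_of_dvd_coprimes hc h4 h1)
  haveI hQn : (Q.subgroupOf H).Normal := ⟨fun q hq h => (Subgroup.mem_normalizer_iff.mp (hHN h.2) _).mp hq⟩
  set π := QuotientGroup.mk' (K.subgroupOf H) with hπ
  have hπ1 : ∀ x : H, π x = 1 ↔ (x : G) ∈ K := by
    intro x
    rw [hπ, QuotientGroup.mk'_apply, QuotientGroup.eq_one_iff, Subgroup.mem_subgroupOf]
  set N : Subgroup (H ⧸ K.subgroupOf H) := (Q.subgroupOf H).map π with hN
  have hu : Dat (H ⧸ K.subgroupOf H) N (π ⟨g, hgH⟩) := by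
    refine ⟨Subgroup.Normal.map hQn π (QuotientGroup.mk'_surjective _), ?_, ?_, ?_, ?_, ?_⟩
    · -- the isomorphism
      let f : Q →* N := ((π.comp (Subgroup.inclusion hQH)).codRestrict N (fun q => ⟨_, q.2, rfl⟩))
      have hf : Function.Bijective f := by
        constructor
        · rw [injective_iff_map_eq_one]
          intro q hq
          have h1 : π (Subgroup.inclusion hQH q) = 1 := congrArg Subtype.val hq
          rw [hπ1] at h1
          exact Subtype.ext (hQK q q.2 h1)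
        · rintro ⟨_, x, hx, rfl⟩
          exact ⟨⟨x, hx⟩, rfl⟩
      exact ⟨(MulEquiv.ofBijective f hf).symm.trans e⟩
    · rw [← map_pow, hπ1]
      exact Subgroup.mem_zpowers _
    · intro h
      rw [hπ1] at h
      apply hnc
      have : K ≤ Subgroup.centralizer (Q : Set G) := by rw [hK, Subgroup.zpowers_le]; exact h3
      exact this h
    · intro x
      obtain ⟨⟨x, hx⟩, rfl⟩ := QuotientGroup.mk'_surjective _ x
      obtain ⟨q, hq, t, ht, hqt⟩ : ∃ q ∈ Q, ∃ t ∈ Subgroup.zpowers g, q * t = x := by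
        have h1 : x ∈ Q ⊔ Subgroup.zpowers g := hx
        rw [sup_comm] at h1
        rw [← SetLike.mem_coe, Subgroup.coe_mul_of_left_le_normalizer_right (Subgroup.zpowers g) Q (by rw [Subgroup.zpowers_le]; exact hg)] at h1
        obtain ⟨t, ht, q, hq, hqt⟩ := h1
        refine ⟨t * q * t⁻¹, (Subgroup.mem_normalizer_iff.mp (hHN (Subgroup.mem_sup_right ht)) q).mp hq, t, ht, ?_⟩
        rw [← hqt]; simp
      obtain ⟨k, rfl⟩ := Subgroup.mem_zpowers_iff.mp ht
      refine ⟨⟨π ⟨q, hQH hq⟩, ⟨⟨q, hQH hq⟩, hq, rfl⟩⟩, k, ?_⟩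
      change π _ = π _ * (π _) ^ k
      rw [← map_zpow, ← map_mul]
      congr 1
      exact Subtype.ext hqt.symm
    · -- action
      obtain ⟨q, hq, hne⟩ : ∃ q ∈ Q, g * q * g⁻¹ ≠ q := by
        by_contra hcon
        push Not at hcon
        apply hnc
        rw [Subgroup.mem_centralizer_iff]
        intro q hq
        have := hcon q hq
        rw [mul_inv_eq_iff_eq_mul] at this
        exact this.symm
      refine ⟨π ⟨q, hQH hq⟩, ⟨_, hq, rfl⟩, fun h => hne ?_⟩
      rw [← map_inv, ← map_mul, ← map_mul, ← mul_inv_eq_one, ← map_inv, ← map_mul, hπ1] at h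
      have h1 : g * q * g⁻¹ * q⁻¹ = 1 := hQK _ (mul_mem ((Subgroup.mem_normalizer_iff.mp hg _).mp hq) (inv_mem hq)) h
      exact mul_inv_eq_one.mp h1
  exact hu.iso_sl23

/-- 2-groups with a unique involution -/
theorem cases_uniq [Finite G] {Q : Subgroup G} (hQ : IsPGroup 2 Q) (hu : ∀ x ∈ Q, ∀ y ∈ Q, orderOf x = 2 → orderOf y = 2 → x = y) {g : G} (hg : g ∈ Subgroup.normalizer (Q : Set G)) (ho : Odd (orderOf g))
    (hnc : g ∉ Subgroup.centralizer (Q : Set G)) : Nonempty (Q ≃* QuaternionGroup 2) := by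
  haveI : Fact (Nat.Prime 2) := ⟨Nat.prime_two⟩
  have huq := unique_subgroup 2 hQ (by
    have key : ∀ K : Subgroup Q, Nat.card K = 2 → ∃ x : Q, orderOf x = 2 ∧ K = Subgroup.zpowers x := by
      intro K hK
      obtain ⟨x, hx⟩ := exists_prime_orderOf_dvd_card' (G := K) 2 (by rw [hK])
      refine ⟨(x : Q), by rw [Subgroup.orderOf_coe, hx], ?_⟩
      symm
      apply Subgroup.eq_of_le_of_card_ge
      · rw [Subgroup.zpowers_le]; exact x.2
      · rw [hK, Nat.card_zpowers, Subgroup.orderOf_coe, hx]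
    intro A B hA hB
    obtain ⟨x, hx, rfl⟩ := key A hA
    obtain ⟨y, hy, rfl⟩ := key B hB
    have : x = y := Subtype.ext (hu x x.2 y y.2 (by rw [Subgroup.orderOf_coe, hx]) (by rw [Subgroup.orderOf_coe, hy]))
    rw [this])
  rcases huq with hc | ⟨-, k, ⟨e⟩⟩
  · exact absurd (cyc_cent hQ hc hg ho) hnc
  · rcases Nat.lt_or_ge 1 k with h1 | h1
    · exact absurd (big_cent h1 e hQ hg ho) hnc
    · rcases Nat.eq_zero_or_pos k with h0 | h0
      · subst h0
        haveI : IsCyclic (QuaternionGroup (2 ^ 0)) := QuaternionGroup.quaternionGroup_one_isCyclic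
        have hc : IsCyclic Q := isCyclic_of_surjective e.symm e.symm.surjective
        exact absurd (cyc_cent hQ hc hg ho) hnc
      · obtain rfl : k = 1 := by omega
        exact ⟨e⟩

end CfsgLib.Rec23
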