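import Cfsg.Agent.Lib.GLj5
import Cfsg.Agent.Lib.GLi1
set_option autoImplicit false
set_option linter.style.haveILetI false
set_option linter.unusedSectionVars false

/-! `p`-elements of `SL₂` normalizing `p'`-subgroups. -/

namespace CfsgLib.Rec23
open CfsgLib.Quat CfsgLib.GL2a Matrix

universe u v

/-- an invariant Sylow subgroup -/
theorem exists_inv {G : Type u} [Group G] [Finite G] (p : ℕ) [hp : Fact p.Prime] (R : Subgroup G) (hR : (Nat.card R).Coprime p) (a : G) (ha : IsPGroup p (Subgroup.zpowers a))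
    (haR : a ∈ Subgroup.normalizer (R : Set G)) (r : ℕ) [hr : Fact r.Prime] (hd : r ∣ Nat.card R) :
    ∃ P : Subgroup G, IsPGroup r P ∧ P ≠ ⊥ ∧ a ∈ Subgroup.normalizer (P : Set G) := by
  have hle : Subgroup.zpowers a ≤ Subgroup.normalizer (R : Set G) := by rw [Subgroup.zpowers_le]; exact haR
  let f : Subgroup.zpowers a →* MulAut R := (R.normalizerMonoidHom).comp (Subgroup.inclusion hle)
  letI : MulAction (Subgroup.zpowers a) (Sylow r R) := MulAction.compHom (Sylow r R) f
  obtain ⟨P, hP⟩ := ha.nonempty_fixed_point_of_prime_not_dvd_card (Sylow r R) (by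
    intro h
    have P0 : Sylow r R := default
    have h1 : p ∣ Nat.card R := (h.trans P0.card_dvd_index).trans (Subgroup.index_dvd_card _)
    have := Nat.Coprime.eq_one_of_dvd (hR.symm) h1
    exact hp.out.one_lt.ne' this)
  refine ⟨(P : Subgroup R).map R.subtype, P.isPGroup'.map _, ?_, ?_⟩
  · intro h
    have h1 : r ∣ Nat.card P := P.dvd_card_of_dvd_card hd
    have h3 : (P : Subgroup R) = ⊥ := by
      rw [Subgroup.map_eq_bot_iff_of_injective _ R.subtype_injective] at h
      exact h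
    have h4 : Nat.card P = 1 := by
      change Nat.card (P : Subgroup R) = 1
      rw [h3]; simp
    rw [h4] at h1
    exact hr.out.one_lt.ne' (Nat.dvd_one.mp h1)
  · -- invariance
    have hfix : ∀ z : Subgroup.zpowers a, f z • P = P := fun z => hP z
    have key : ∀ z ∈ Subgroup.zpowers a, ∀ x ∈ (P : Subgroup R).map R.subtype, z * x * z⁻¹ ∈ (P : Subgroup R).map R.subtype := by
      rintro z hz _ ⟨x, hx, rfl⟩
      have h1 := hfix ⟨z, hz⟩
      have h3 : f ⟨z, hz⟩ • x ∈ f ⟨z, hz⟩ • P := by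
        have h4 := Subgroup.smul_mem_pointwise_smul x (f ⟨z, hz⟩) (P : Subgroup R) hx
        exact h4
      rw [h1] at h3
      refine ⟨_, h3, ?_⟩
      rfl
    rw [Subgroup.mem_normalizer_iff]
    intro x
    refine ⟨key a (Subgroup.mem_zpowers a) x, fun h => ?_⟩
    have := key a⁻¹ (inv_mem (Subgroup.mem_zpowers a)) _ h
    simpa [mul_assoc] using this

variable {F : Type u} [Field F] [Fintype F]

theorem main_3740 {p : ℕ} [hp : Fact p.Prime] [CharP F p] (hp2 : p ≠ 2) (a : S2 F) (ha : IsPGroup p ↥(Subgroup.zpowers a)) (R : Subgroup (S2 F))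
    (hR : (Nat.card R).Coprime p) (haR : a ∈ Subgroup.normalizer (R : Set (S2 F))) (hnt : ⁅R, Subgroup.zpowers a⁆ ≠ ⊥) :
    p = 3 ∧ Nonempty (↥R ≃* QuaternionGroup 2) ∧ Nonempty (↥(R ⊔ Subgroup.zpowers a) ≃* Matrix.SpecialLinearGroup (Fin 2) (ZMod 3)) := by
  classical
  haveI : Fact (Nat.Prime 2) := ⟨Nat.prime_two⟩
  have h2 : (2 : F) ≠ 0 := by
    intro h0
    apply hp2
    have : p ∣ 2 := (CharP.cast_eq_zero_iff F p 2).mp (by exact_mod_cast h0)
    exact (Nat.prime_dvd_prime_iff_eq hp.out Nat.prime_two).mp this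
  obtain ⟨n, hn0, hq⟩ := FiniteField.card F p
  have hpq : p ∣ Fintype.card F := by rw [hq]; exact dvd_pow_self _ n.pos.ne'
  have hq2 : 2 ≤ Fintype.card F := Fintype.one_lt_card
  have hpp : ¬ p ∣ Fintype.card F + 1 := by
    intro h; exact hp.out.one_lt.ne' (Nat.dvd_one.mp ((Nat.dvd_add_right hpq).mp h))
  have hpm : ¬ p ∣ Fintype.card F - 1 := by
    intro h
    have := Nat.dvd_sub hpq h
    rw [Nat.sub_sub_self (Fintype.card_pos)] at this
    exact hp.out.one_lt.ne' (Nat.dvd_one.mp this)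
  obtain ⟨k, hk⟩ : ∃ k, orderOf a = p ^ k := by
    obtain ⟨k, hk⟩ := ha.exists_card_eq
    exact ⟨k, by rw [← Nat.card_zpowers, hk]⟩
  have hoa : Odd (orderOf a) := by rw [hk]; exact (hp.out.odd_of_ne_two hp2).pow
  have hnc : a ∉ Subgroup.centralizer (R : Set (S2 F)) := by
    intro h
    apply hnt
    rw [Subgroup.commutator_eq_bot_iff_le_centralizer, Subgroup.le_centralizer_iff, Subgroup.zpowers_le]
    exact h
  have ha1 : a ≠ 1 := by rintro rfl; exact hnc (one_mem _)
  -- p does not divide the order of tori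
  have htor : ∀ g : S2 F, ¬ IsScal (g : M2 F) → (g : M2 F).trace ^ 2 ≠ 4 → ¬ p ∣ Nat.card (TT g) := by
    intro g hs ht
    by_cases han : Aniso (g : M2 F)
    · rw [card_TT_aniso han]; exact hpp
    · rw [card_TT_split hs ht han]; exact hpm
  have hnottor : ∀ g : S2 F, ¬ IsScal (g : M2 F) → (g : M2 F).trace ^ 2 ≠ 4 → ∀ H : Subgroup (S2 F), Nat.card H = Nat.card (TT g) ∨ Nat.card H = 2 * Nat.card (TT g) → a ∉ H := by
    intro g hs ht H hH haH
    have h1 := Subgroup.orderOf_dvd_natCard H haH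
    have h3 := htor g hs ht
    rw [hk] at h1
    rcases Nat.eq_zero_or_pos k with h0 | h0
    · rw [h0, pow_zero] at hk
      exact ha1 (orderOf_eq_one_iff.mp hk)
    · have h4 : p ∣ Nat.card H := (dvd_pow_self p h0.ne').trans h1
      rcases hH with h | h
      · rw [h] at h4; exact h3 h4
      · rw [h] at h4
        rcases hp.out.dvd_mul.mp h4 with h5 | h5
        · exact hp2 ((Nat.prime_dvd_prime_iff_eq hp.out Nat.prime_two).mp h5)
        · exact h3 h5
  have haS : ¬ IsScal (a : M2 F) := by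
    intro h
    rcases scal_sl' h with h | h
    · exact ha1 h
    · rw [h] at hoa
      have : orderOf (-1 : S2 F) = 2 := orderOf_eq_prime (by rw [_root_.sq]; simp) (neg_one_ne h2)
      rw [this] at hoa; exact absurd hoa (by decide)
  have hat : (a : M2 F).trace ^ 2 = 4 := by
    by_contra h
    exact hnottor a haS h (TT a) (Or.inl rfl) (TT_self a)
  have hap : a ^ p = 1 := by
    have h1 := pr_pow_par p hat
    rw [← map_pow, pr_eq_one'] at h1
    rcases h1 with h | h
    · exact h
    · exfalso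
      have h3 : orderOf (a ^ p) = 2 := by
        rw [h]; exact orderOf_eq_prime (by rw [_root_.sq]; simp) (neg_one_ne h2)
      have h4 : 2 ∣ orderOf a := by
        have h5 : orderOf (a ^ p) ∣ orderOf a := orderOf_pow_dvd p
        rwa [h3] at h5
      rw [Nat.odd_iff] at hoa; omega
  -- R is a 2-group
  have hR2 : IsPGroup 2 R := by
    rw [IsPGroup.iff_card]
    refine ⟨(Nat.card R).primeFactorsList.length, ?_⟩
    apply Nat.eq_prime_pow_of_unique_prime_dvd Nat.card_pos.ne'
    intro r hr hrd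
    by_contra hr2
    haveI : Fact r.Prime := ⟨hr⟩
    obtain ⟨P, hP, hPne, haP⟩ := exists_inv p R hR a ha haR r hrd
    have hPnt : Nontrivial P := (Subgroup.nontrivial_iff_ne_bot P).mpr hPne
    haveI := hP.center_nontrivial
    obtain ⟨⟨⟨x, hxP⟩, hxZ⟩, hx1⟩ := exists_ne (1 : Subgroup.center P)
    have hx1' : x ≠ 1 := by
      intro h; apply hx1; exact Subtype.ext (Subtype.ext h)
    have hPT : P ≤ TT x := by
      intro y hy
      rw [mem_TT_comm]
      have := Subgroup.mem_center_iff.mp hxZ ⟨y, hy⟩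
      exact (congrArg Subtype.val this).symm
    obtain ⟨j, hj⟩ := hP ⟨x, hxP⟩
    have hj' : x ^ r ^ j = 1 := congrArg Subtype.val hj
    have hs : ¬ IsScal (x : M2 F) := by
      intro hs
      rcases scal_sl' hs with h | h
      · exact hx1' h
      · have hodd' : Odd (r ^ j) := (hr.odd_of_ne_two hr2).pow
        rw [h, hodd'.neg_one_pow] at hj'
        exact neg_one_ne h2 hj'
    have hrp : r ≠ p := by
      rintro rfl
      exact hr.one_lt.ne' (Nat.Coprime.eq_one_of_dvd hR.symm hrd)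
    have ht : (x : M2 F).trace ^ 2 ≠ 4 := by
      intro ht
      have h1 : orderOf x ∣ Nat.card (TT x) := Subgroup.orderOf_dvd_natCard _ (TT_self x)
      rw [card_TT_par h2 hs ht] at h1
      obtain ⟨m, -, hm⟩ := (Nat.dvd_prime_pow hr).mp (orderOf_dvd_of_pow_eq_one hj')
      have hm0 : m ≠ 0 := by
        rintro rfl
        rw [pow_zero] at hm; exact hx1' (orderOf_eq_one_iff.mp hm)
      have h3 : r ∣ 2 * Fintype.card F := by
        rw [hm] at h1; exact (dvd_pow_self r hm0).trans h1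
      rcases hr.dvd_mul.mp h3 with h4 | h4
      · exact hr2 ((Nat.prime_dvd_prime_iff_eq hr Nat.prime_two).mp h4)
      · rw [hq] at h4
        exact hrp ((Nat.prime_dvd_prime_iff_eq hr hp.out).mp (hr.dvd_of_dvd_pow h4))
    have hN := (sub_torus hs ht h2 P hPT hxP).2
    rw [hN] at haP
    have hTe : 2 ∣ Nat.card (TT x) := by
      have : orderOf (-1 : S2 F) = 2 := orderOf_eq_prime (by rw [_root_.sq]; simp) (neg_one_ne h2)
      have h9 := Subgroup.orderOf_dvd_natCard (TT x) (neg_one_mem_TT x)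
      rwa [this] at h9
    obtain ⟨m, hm⟩ := hTe
    exact hnottor x hs ht _ (Or.inr (cases_norm hs ht h2 hm).1) haP
  obtain ⟨e⟩ := cases_uniq hR2 (fun x _ y _ hx hy => (invol_eq h2 hx).trans (invol_eq h2 hy).symm) haR hoa hnc
  have h3a : 3 ∣ orderOf a := by
    by_contra h
    exact hnc ((cube_cent e haR hoa).2 h)
  have hp3 : p = 3 := by
    rw [hk] at h3a
    exact ((Nat.prime_dvd_prime_iff_eq Nat.prime_three hp.out).mp (Nat.prime_three.dvd_of_dvd_pow h3a)).symm
  refine ⟨hp3, ⟨e⟩, ?_⟩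
  obtain ⟨hK, ⟨iso⟩⟩ := section_sl23 R e a haR hoa hnc
  have hbot : (Subgroup.zpowers (a ^ 3)).subgroupOf (R ⊔ Subgroup.zpowers a) = ⊥ := by
    have : a ^ 3 = 1 := by rw [← hp3]; exact hap
    rw [this, Subgroup.zpowers_one_eq_bot, Subgroup.bot_subgroupOf]
  exact ⟨(QuotientGroup.quotientBot.symm.trans (QuotientGroup.quotientMulEquivOfEq hbot.symm)).trans iso⟩

end CfsgLib.Rec23
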