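import Mathlib
import Cfsg.Agent.Lib.GolayCnt

/-!
Orbits of stabilisers in `M24` on octads and sextets through Schreier trees.
-/

set_option autoImplicit false

namespace CfsgLib.Golay

open Cfsg
open scoped Pointwise

/-! ### The invariant -/

def sq (X S : Finset (Finset GolayPt)) : ℕ := ∑ x ∈ X, ∑ s ∈ S, (x ∩ s).card ^ 2

theorem sum_smul_fam (g : Equiv.Perm GolayPt) (Y : Finset (Finset GolayPt)) (f : Finset GolayPt → ℕ) :
    ∑ u ∈ g • Y, f u = ∑ u ∈ Y, f (g • u) := by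
  have : g • Y = Y.image (fun u => g • u) := rfl
  rw [this, Finset.sum_image]
  intro a _ b _ hab
  exact (MulAction.injective g) hab

theorem sq_smul (g : Equiv.Perm GolayPt) (X S : Finset (Finset GolayPt)) : sq (g • X) (g • S) = sq X S := by
  rw [sq, sum_smul_fam, sq]
  apply Finset.sum_congr rfl
  intro u _
  rw [sum_smul_fam]
  apply Finset.sum_congr rfl
  intro t _
  rw [inter_smul_card]

theorem sq_comm (X S : Finset (Finset GolayPt)) : sq X S = sq S X := by
  rw [sq, sq, Finset.sum_comm]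
  apply Finset.sum_congr rfl
  intro s _
  apply Finset.sum_congr rfl
  intro x _
  rw [Finset.inter_comm]

theorem smul_single (g : Equiv.Perm GolayPt) (o : Finset GolayPt) :
    g • ({o} : Finset (Finset GolayPt)) = {g • o} := by
  ext x
  rw [Finset.mem_smul_finset]
  simp [eq_comm]

def sqL (l l' : List ℕ) : ℕ := (l.map fun a => (l'.map fun b => pop (Nat.land a b) ^ 2).sum).sum

theorem sq_explicit {l l' : List ℕ} (h : l.all (fun m => Nat.blt m (2 ^ 24)) = true)
    (h' : l'.all (fun m => Nat.blt m (2 ^ 24)) = true) (hnd : l.Nodup) (hnd' : l'.Nodup)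
    (n : ℕ) (hn : sqL l l' = n) :
    sq (l.map toFS).toFinset (l'.map toFS).toFinset = n := by
  have g : ∀ l : List ℕ, l.all (fun m => Nat.blt m (2 ^ 24)) = true → l.Nodup →
      (∀ a ∈ l, a < 2 ^ 24) ∧ (l.map toFS).Nodup := by
    intro l h hnd
    rw [List.all_eq_true] at h
    have h24 : ∀ m ∈ l, m < 2 ^ 24 := fun m hm => Nat.le_of_ble_eq_true (h m hm)
    exact ⟨h24, List.Nodup.map_on (fun m hm n hn h => toFS_inj (h24 m hm) (h24 n hn) h) hnd⟩
  obtain ⟨g1, g2⟩ := g l h hnd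
  obtain ⟨g3, g4⟩ := g l' h' hnd'
  rw [sq, List.sum_toFinset _ g2, ← hn, List.map_map, sqL]
  congr 1
  apply List.map_congr_left
  intro a ha
  show ∑ t ∈ (l'.map toFS).toFinset, (toFS a ∩ t).card ^ 2 = _
  rw [List.sum_toFinset _ g4, List.map_map]
  congr 1
  apply List.map_congr_left
  intro b hb
  show (toFS a ∩ toFS b).card ^ 2 = _
  have h3 : (toFS a ∩ toFS b).card = pop (Nat.land a b) := by
    rw [← toFS_land, card_toFS (lt_of_le_of_lt Nat.and_le_left (g1 a ha))]; rfl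
  rw [h3]

/-! ### Trees on octads -/

def oE (T m : ℕ) : ℕ := Nat.land (Nat.shiftRight T (Nat.mul 24 (Nat.land m 4095))) 0xffffff
def oPar (T m : ℕ) : ℕ := enc (Nat.land (oE T m) 4095)
def oK (T m : ℕ) : ℕ := Nat.land (Nat.shiftRight (oE T m) 12) 7
def oDep (T m : ℕ) : ℕ := Nat.land (Nat.shiftRight (oE T m) 15) 31
def oCl (T m : ℕ) : ℕ := Nat.land (Nat.shiftRight (oE T m) 20) 7

def oStep (T n : ℕ) (gens root : ℕ → ℕ) (m : ℕ) : Bool :=
  or (not (Nat.beq (pop m) 8)) (and (Nat.blt (oCl T m) n) (or (Nat.beq m (root (oCl T m)))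
    (and (Nat.beq (pop (oPar T m)) 8) (and (Nat.beq (act (gens (oK T m)) (oPar T m)) m)
      (and (Nat.blt (oDep T (oPar T m)) (oDep T m)) (Nat.beq (oCl T (oPar T m)) (oCl T m)))))))

theorem oct_tree {T n : ℕ} {gens root : ℕ → ℕ} {x0 : Finset (Finset GolayPt)}
    (hg : ∀ k, ∃ g ∈ M24, Packs (gens k) g ∧ g • x0 = x0)
    (h : allC (oStep T n gens root) rows 0 = true) :
    ∀ o ∈ octads, oCl T (mask o) < n ∧ ∃ g ∈ M24, g • x0 = x0 ∧ g • toFS (root (oCl T (mask o))) = o := by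
  have key : ∀ d, ∀ o ∈ octads, oDep T (mask o) = d → oCl T (mask o) < n ∧
      ∃ g ∈ M24, g • x0 = x0 ∧ g • toFS (root (oCl T (mask o))) = o := by
    intro d
    induction d using Nat.strong_induction_on with
    | _ d ih =>
      intro o ho hd
      have h1 := forall_code _ h ho.1
      have ho' := mem_octads_iff.mp ho
      rw [oStep, ho'.2, Nat.beq_refl, Bool.not_true, Bool.false_or, Bool.and_eq_true, Bool.or_eq_true] at h1
      obtain ⟨h0, h1⟩ := h1
      refine ⟨Nat.le_of_ble_eq_true h0, ?_⟩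
      rcases h1 with h1 | h1
      · refine ⟨1, one_mem _, one_smul _ _, ?_⟩
        rw [one_smul, ← Nat.eq_of_beq_eq_true h1, toFS_mask]
      · simp only [Bool.and_eq_true, Nat.beq_eq] at h1
        obtain ⟨h2, h3, h4, h5⟩ := h1
        have h4' : oDep T (oPar T (mask o)) < oDep T (mask o) := Nat.le_of_ble_eq_true h4
        have hIn : InC (oPar T (mask o)) :=
          InC_enc (j := Nat.land (oE T (mask o)) 4095) (lt_of_le_of_lt Nat.and_le_right (by norm_num))
        have hpo : toFS (oPar T (mask o)) ∈ octads :=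
          ⟨hIn.2, by rw [card_toFS hIn.1]; exact h2⟩
        have hmo : mask (toFS (oPar T (mask o))) = oPar T (mask o) := mask_toFS hIn.1
        obtain ⟨-, g, hgM, hg1, hg2⟩ := ih _ (by rw [← hd]; exact h4') _ hpo (by rw [hmo])
        rw [hmo, h5] at hg2
        obtain ⟨k, hk, hkP, hk0⟩ := hg (oK T (mask o))
        refine ⟨k * g, mul_mem hk hgM, by rw [← smul_smul, hg1, hk0], ?_⟩
        rw [← smul_smul, hg2, ← toFS_mask (k • _), hkP.mask_smul, hmo, h3, toFS_mask]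
  intro o ho
  exact key _ o ho rfl

/-! ### Trees on sextets -/

def syn (m : ℕ) : ℕ := Nat.shiftRight (Nat.xor m (enc (Nat.land m 4095))) 12
def sE (T m : ℕ) : ℕ := Nat.land (Nat.shiftRight T (Nat.mul 36 (syn m))) 0xfffffffff
def sPar (T m : ℕ) : ℕ := Nat.land (sE T m) 0xffffff
def sK (T m : ℕ) : ℕ := Nat.land (Nat.shiftRight (sE T m) 24) 7
def sDep (T m : ℕ) : ℕ := Nat.land (Nat.shiftRight (sE T m) 27) 31
def sCl (T m : ℕ) : ℕ := Nat.land (Nat.shiftRight (sE T m) 32) 7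

def sStep (T n : ℕ) (gens root : ℕ → ℕ) (m : ℕ) : Bool :=
  and (Nat.blt (sCl T m) n) (or (Nat.beq m (root (sCl T m)))
    (and (and (Nat.beq (pop (sPar T m)) 4) (Nat.beq (Nat.land (sPar T m) 1) 1))
      (and (isCode (Nat.xor (act (gens (sK T m)) (sPar T m)) m))
      (and (Nat.blt (sDep T (sPar T m)) (sDep T m)) (Nat.beq (sCl T (sPar T m)) (sCl T m))))))

theorem forall_tetrad {p : ℕ → Bool} (h : cntK (fun m => not (p m)) 3 ix1 1 = 0) {t : Finset GolayPt}
    (ht : t.card = 4) (h0 : pt 0 ∈ t) : p (mask t) = true := by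
  have e0 : (1 : ℕ) = mask {pt 0} := by decide +kernel
  rw [show cntK (fun m => not (p m)) 3 ix1 1 = cntK (fun m => not (p m)) 3 ix1 (mask {pt 0}) by rw [← e0],
    cntK_spec _ ix1 3 {pt 0} (by decide) (by decide), ix1_eq, Finset.card_eq_zero,
    Finset.filter_eq_empty_iff] at h
  have htu : ({pt 0} ∪ t \ {pt 0} : Finset GolayPt) = t := by
    rw [Finset.union_sdiff_of_subset]; simpa using h0
  have h1 := h (x := t \ {pt 0}) (by
    rw [Finset.mem_powersetCard]
    refine ⟨?_, ?_⟩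
    · intro x hx
      rw [Finset.mem_sdiff] at hx
      exact Finset.mem_compl.mpr hx.2
    · rw [Finset.card_sdiff_of_subset (by simpa using h0), ht, Finset.card_singleton])
  rw [htu] at h1
  simpa using h1

theorem pt0_mem_iff {m : ℕ} : pt 0 ∈ toFS m ↔ Nat.land m 1 = 1 := by
  rw [mem_toFS, idx_pt (by norm_num), Nat.testBit_zero]
  have : Nat.land m 1 = m % 2 := Nat.and_one_is_mod m
  rw [this]; simp

theorem sext_tree {T n : ℕ} {gens root : ℕ → ℕ} {x0 : Finset (Finset GolayPt)}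
    (hg : ∀ k, ∃ g ∈ M24, Packs (gens k) g ∧ g • x0 = x0)
    (h : cntK (fun m => not (sStep T n gens root m)) 3 ix1 1 = 0) :
    ∀ t : Finset GolayPt, t.card = 4 → pt 0 ∈ t → sCl T (mask t) < n ∧
      ∃ g ∈ M24, g • x0 = x0 ∧ g • sext (toFS (root (sCl T (mask t)))) = sext t := by
  have key : ∀ d, ∀ t : Finset GolayPt, t.card = 4 → pt 0 ∈ t → sDep T (mask t) = d → sCl T (mask t) < n ∧
      ∃ g ∈ M24, g • x0 = x0 ∧ g • sext (toFS (root (sCl T (mask t)))) = sext t := by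
    intro d
    induction d using Nat.strong_induction_on with
    | _ d ih =>
      intro t ht ht0 hd
      have h1 := forall_tetrad h ht ht0
      rw [sStep, Bool.and_eq_true, Bool.or_eq_true] at h1
      obtain ⟨h0, h1⟩ := h1
      refine ⟨Nat.le_of_ble_eq_true h0, ?_⟩
      rcases h1 with h1 | h1
      · refine ⟨1, one_mem _, one_smul _ _, ?_⟩
        rw [one_smul, ← Nat.eq_of_beq_eq_true h1, toFS_mask]
      · simp only [Bool.and_eq_true, Nat.beq_eq] at h1
        obtain ⟨⟨h2, h2'⟩, h3, h4, h5⟩ := h1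
        have h4' : sDep T (sPar T (mask t)) < sDep T (mask t) := Nat.le_of_ble_eq_true h4
        have hlt : sPar T (mask t) < 2 ^ 24 := lt_of_le_of_lt Nat.and_le_right (by norm_num)
        have hpo : (toFS (sPar T (mask t))).card = 4 := by rw [card_toFS hlt]; exact h2
        have hmo : mask (toFS (sPar T (mask t))) = sPar T (mask t) := mask_toFS hlt
        have hp0 : pt 0 ∈ toFS (sPar T (mask t)) := pt0_mem_iff.mpr h2'
        obtain ⟨-, g, hgM, hg1, hg2⟩ := ih _ (by rw [← hd]; exact h4') _ hpo hp0 (by rw [hmo])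
        rw [hmo, h5] at hg2
        obtain ⟨k, hk, hkP, hk0⟩ := hg (sK T (mask t))
        refine ⟨k * g, mul_mem hk hgM, by rw [← smul_smul, hg1, hk0], ?_⟩
        rw [← smul_smul, hg2, smul_sext hk hpo, sext_eq_iff (by rw [card_smul', hpo]) ht, hkP.mask_smul, hmo]
        exact h3
  intro t ht ht0
  exact key _ t ht ht0 rfl

theorem sextet_count' (Φ : Finset (Finset GolayPt) → Prop) (p : ℕ → Bool)
    (h : ∀ t : Finset GolayPt, t.card = 4 → pt 0 ∈ t → (Φ (sext t) ↔ p (mask t) = true)) :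
    {X | X ∈ sextets ∧ Φ X}.ncard = cntK p 3 ix1 1 := by
  have e0 : (1 : ℕ) = mask {pt 0} := by decide +kernel
  rw [show cntK p 3 ix1 1 = cntK p 3 ix1 (mask {pt 0}) by rw [← e0],
    cntK_spec p ix1 3 {pt 0} (by decide) (by decide), ix1_eq, ← Set.ncard_coe_finset]
  symm
  have hc : ∀ u : Finset GolayPt, u ⊆ {pt 0}ᶜ → u.card = 3 → ({pt 0} ∪ u : Finset GolayPt).card = 4 := by
    intro u hu hc
    rw [Finset.card_union_of_disjoint, hc, Finset.card_singleton]
    rw [Finset.disjoint_left]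
    intro x hx hxu
    exact Finset.mem_compl.mp (hu hxu) hx
  apply Set.ncard_congr (fun u _ => sext ({pt 0} ∪ u))
  · intro u hu
    rw [Finset.mem_coe, Finset.mem_filter, Finset.mem_powersetCard] at hu
    exact ⟨sext_mem (hc u hu.1.1 hu.1.2), (h _ (hc u hu.1.1 hu.1.2) (by simp)).mpr hu.2⟩
  · intro u v hu hv huv
    rw [Finset.mem_coe, Finset.mem_filter, Finset.mem_powersetCard] at hu hv
    have h1 : ({pt 0} ∪ u : Finset GolayPt) = {pt 0} ∪ v := by
      by_contra hne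
      have h2 := sextet_disjoint (sext_mem (hc u hu.1.1 hu.1.2)) (self_mem_sext _)
        (by rw [huv]; exact self_mem_sext _) hne
      rw [Finset.disjoint_left] at h2
      exact h2 (a := pt 0) (by simp) (by simp)
    have h3 : ∀ w : Finset GolayPt, w ⊆ {pt 0}ᶜ → ({pt 0} ∪ w : Finset GolayPt) \ {pt 0} = w := by
      intro w hw
      ext x
      simp only [Finset.mem_sdiff, Finset.mem_union, Finset.mem_singleton]
      constructor
      · rintro ⟨h4 | h4, h5⟩
        · exact absurd h4 h5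
        · exact h4
      · intro h4
        exact ⟨Or.inr h4, fun h5 => Finset.mem_compl.mp (hw h4) (Finset.mem_singleton.mpr h5)⟩
    rw [← h3 u hu.1.1, h1, h3 v hv.1.1]
  · rintro X ⟨hX, hz⟩
    obtain ⟨t, ht, h0⟩ := sextet_covers hX (pt 0)
    have hXt := sextet_eq_sext hX ht
    have ht4 : t.card = 4 := hX.2.1 t ht
    have htu : ({pt 0} ∪ t \ {pt 0} : Finset GolayPt) = t := by
      rw [Finset.union_sdiff_of_subset]; simpa using h0
    refine ⟨t \ {pt 0}, ?_, ?_⟩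
    · rw [Finset.mem_coe, Finset.mem_filter, Finset.mem_powersetCard, htu]
      refine ⟨⟨?_, ?_⟩, ?_⟩
      · intro x hx
        rw [Finset.mem_sdiff] at hx
        exact Finset.mem_compl.mpr hx.2
      · rw [Finset.card_sdiff_of_subset (by simpa using h0), ht4, Finset.card_singleton]
      · rw [← h t ht4 h0, ← hXt]; exact hz
    · show sext ({pt 0} ∪ t \ {pt 0}) = X
      rw [htu, ← hXt]

/-! ### From the base object to all objects -/

section
variable {α β : Type*} [MulAction (Equiv.Perm GolayPt) α] [MulAction (Equiv.Perm GolayPt) β]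

/-- data of a pair of homogeneous sets with an invariant separating the orbits on pairs -/
structure PairData (A : Set α) (B : Set β) (φ : α → β → ℕ) : Prop where
  inv : ∀ g ∈ M24, ∀ a b, φ (g • a) (g • b) = φ a b
  trA : ∀ a ∈ A, ∀ a' ∈ A, ∃ g ∈ M24, g • a = a'
  stA : ∀ g ∈ M24, ∀ a ∈ A, g • a ∈ A
  stB : ∀ g ∈ M24, ∀ b ∈ B, g • b ∈ B
  tr : ∀ a ∈ A, ∀ b ∈ B, ∀ b' ∈ B, φ a b = φ a b' → ∃ g ∈ M24, g • a = a ∧ g • b = b'

theorem PairData.of_base {A : Set α} {B : Set β} {φ : α → β → ℕ}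
    (inv : ∀ g ∈ M24, ∀ a b, φ (g • a) (g • b) = φ a b)
    (trA : ∀ a ∈ A, ∀ a' ∈ A, ∃ g ∈ M24, g • a = a')
    (stA : ∀ g ∈ M24, ∀ a ∈ A, g • a ∈ A)
    (stB : ∀ g ∈ M24, ∀ b ∈ B, g • b ∈ B) {a0 : α} (ha0 : a0 ∈ A)
    (tr : ∀ b ∈ B, ∀ b' ∈ B, φ a0 b = φ a0 b' → ∃ g ∈ M24, g • a0 = a0 ∧ g • b = b') : PairData A B φ := by
  refine ⟨inv, trA, stA, stB, ?_⟩
  intro a ha b hb b' hb' h
  obtain ⟨k, hk, hka⟩ := trA a ha a0 ha0
  have h1 : φ a0 (k • b) = φ a0 (k • b') := by rw [← hka, inv k hk, inv k hk, h]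
  obtain ⟨g, hg, hg1, hg2⟩ := tr _ (stB k hk b hb) _ (stB k hk b' hb') h1
  refine ⟨k⁻¹ * (g * k), mul_mem (inv_mem hk) (mul_mem hg hk), ?_, ?_⟩
  · rw [← smul_smul, ← smul_smul, hka, hg1, ← hka, inv_smul_smul]
  · rw [← smul_smul, ← smul_smul, hg2, inv_smul_smul]

theorem PairData.swap {A : Set α} {B : Set β} {φ : α → β → ℕ} (D : PairData A B φ)
    (trB : ∀ b ∈ B, ∀ b' ∈ B, ∃ g ∈ M24, g • b = b') : PairData B A (fun b a => φ a b) := by
  refine ⟨fun g hg b a => D.inv g hg a b, trB, D.stB, D.stA, ?_⟩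
  intro b hb a ha a' ha' h
  obtain ⟨k, hk, hka⟩ := D.trA a ha a' ha'
  have h1 : φ a' (k • b) = φ a' b := by
    rw [← hka, D.inv k hk]; rw [hka]; exact h
  obtain ⟨g, hg, hg1, hg2⟩ := D.tr a' ha' _ (D.stB k hk b hb) b hb h1
  refine ⟨g * k, mul_mem hg hk, ?_, ?_⟩
  · rw [← smul_smul, hg2]
  · rw [← smul_smul, hka, hg1]

/-- orbits of stabilisers are the level sets of the invariant -/
theorem PairData.orbit_eq {A : Set α} {B : Set β} {φ : α → β → ℕ} (D : PairData A B φ) {a : α} (ha : a ∈ A)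
    {b : β} (hb : b ∈ B) :
    MulAction.orbit ↥(MulAction.stabilizer Cfsg.M24 a) b = {b' | b' ∈ B ∧ φ a b' = φ a b} := by
  ext b'
  constructor
  · rintro ⟨⟨⟨g, hg⟩, hs⟩, rfl⟩
    have hs' : g • a = a := hs
    refine ⟨D.stB g hg b hb, ?_⟩
    show φ a (g • b) = φ a b
    conv_lhs => rw [← hs', D.inv g hg]
  · rintro ⟨hb', h⟩
    obtain ⟨g, hg, h1, h2⟩ := D.tr a ha b hb b' hb' h.symm
    exact ⟨⟨⟨g, hg⟩, h1⟩, h2⟩

theorem PairData.ncard_eq {A : Set α} {B : Set β} {φ : α → β → ℕ} (D : PairData A B φ) {a a' : α} (ha : a ∈ A)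
    (ha' : a' ∈ A) (z : ℕ) : {b | b ∈ B ∧ φ a b = z}.ncard = {b | b ∈ B ∧ φ a' b = z}.ncard := by
  obtain ⟨k, hk, hka⟩ := D.trA a ha a' ha'
  have : {b | b ∈ B ∧ φ a' b = z} = k • {b | b ∈ B ∧ φ a b = z} := by
    ext b
    rw [Set.mem_smul_set_iff_inv_smul_mem]
    show _ ↔ k⁻¹ • b ∈ B ∧ φ a (k⁻¹ • b) = z
    have h1 : φ a (k⁻¹ • b) = φ a' b := by
      rw [← D.inv k hk, hka, smul_inv_smul]
    rw [h1]
    apply and_congr_left'
    exact ⟨fun h => D.stB _ (inv_mem hk) _ h, fun h => by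
      have := D.stB k hk _ h
      rwa [smul_inv_smul] at this⟩
  rw [this, Set.ncard_smul_set]

/-- double counting -/
theorem PairData.double {A : Set α} {B : Set β} {φ : α → β → ℕ} (D : PairData A B φ)
    (trB : ∀ b ∈ B, ∀ b' ∈ B, ∃ g ∈ M24, g • b = b') [Finite α] [Finite β] {a : α} (ha : a ∈ A) {b : β} (hb : b ∈ B)
    (z : ℕ) : A.ncard * {b | b ∈ B ∧ φ a b = z}.ncard = B.ncard * {a | a ∈ A ∧ φ a b = z}.ncard := by
  classical
  haveI := Fintype.ofFinite α
  haveI := Fintype.ofFinite β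
  have h1 := Finset.sum_card_bipartiteAbove_eq_sum_card_bipartiteBelow (s := A.toFinset) (t := B.toFinset)
    (fun a b => φ a b = z)
  have h2 : ∀ a' ∈ A.toFinset, (Finset.bipartiteAbove (fun a b => φ a b = z) B.toFinset a').card =
      {b | b ∈ B ∧ φ a b = z}.ncard := by
    intro a' ha'
    rw [Set.mem_toFinset] at ha'
    rw [D.ncard_eq ha ha' z, ← Set.ncard_coe_finset]
    congr 1
    ext b'
    rw [Finset.mem_coe, Finset.mem_bipartiteAbove, Set.mem_toFinset]
    rfl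
  have h3 : ∀ b' ∈ B.toFinset, (Finset.bipartiteBelow (fun a b => φ a b = z) A.toFinset b').card =
      {a | a ∈ A ∧ φ a b = z}.ncard := by
    intro b' hb'
    rw [Set.mem_toFinset] at hb'
    rw [(D.swap trB).ncard_eq hb hb' z, ← Set.ncard_coe_finset]
    congr 1
    ext a'
    rw [Finset.mem_coe, Finset.mem_bipartiteBelow, Set.mem_toFinset]
    rfl
  rw [Finset.sum_congr rfl h2, Finset.sum_congr rfl h3, Finset.sum_const, Finset.sum_const, smul_eq_mul,
    smul_eq_mul] at h1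
  rw [Set.ncard_eq_toFinset_card' A, Set.ncard_eq_toFinset_card' B]
  exact h1

end

theorem octads_st : ∀ g ∈ M24, ∀ o ∈ octads, g • o ∈ octads := fun _ hg _ ho => (smul_mem_octads hg).mpr ho
theorem octads_tr : ∀ o ∈ octads, ∀ o' ∈ octads, ∃ g ∈ M24, g • o = o' := fun _ ho _ ho' => octads_transitive ho ho'
theorem trios_st : ∀ g ∈ M24, ∀ o ∈ trios, g • o ∈ trios := fun _ hg _ ho => smul_mem_trios hg ho
theorem trios_tr : ∀ o ∈ trios, ∀ o' ∈ trios, ∃ g ∈ M24, g • o = o' := fun _ ho _ ho' => trios_transitive ho ho'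
theorem sextets_st : ∀ g ∈ M24, ∀ o ∈ sextets, g • o ∈ sextets := fun _ hg _ ho => smul_mem_sextets hg ho
theorem sextets_tr : ∀ o ∈ sextets, ∀ o' ∈ sextets, ∃ g ∈ M24, g • o = o' := by
  intro S hS S' hS'
  obtain ⟨t, ht, -⟩ := sextet_covers hS (pt 0)
  obtain ⟨u, hu, -⟩ := sextet_covers hS' (pt 0)
  have ht4 : t.card = 4 := hS.2.1 t ht
  have hu4 : u.card = 4 := hS'.2.1 u hu
  obtain ⟨l, hl, hl4, hlt⟩ := exists_list_of_le_card (s := t) (n := 4) (by omega)
  obtain ⟨l', hl', hl4', hlt'⟩ := exists_list_of_le_card (s := u) (n := 4) (by omega)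
  obtain ⟨g, hg, hgl⟩ := trans_list hl hl' (by rw [hl4, hl4']) (by omega)
  have e1 : l.toFinset = t := by
    apply Finset.eq_of_subset_of_card_le
    · intro x hx; exact hlt x (List.mem_toFinset.mp hx)
    · rw [List.toFinset_card_of_nodup hl, hl4, ht4]
  have e2 : l'.toFinset = u := by
    apply Finset.eq_of_subset_of_card_le
    · intro x hx; exact hlt' x (List.mem_toFinset.mp hx)
    · rw [List.toFinset_card_of_nodup hl', hl4', hu4]
  refine ⟨g, hg, ?_⟩
  rw [sextet_eq_sext hS ht, sextet_eq_sext hS' hu, smul_sext hg ht4]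
  congr 1
  rw [← e1, ← e2, ← hgl]
  ext x
  rw [Finset.mem_smul_finset, List.mem_toFinset, List.mem_map]
  constructor
  · rintro ⟨y, hy, rfl⟩; exact ⟨y, List.mem_toFinset.mp hy, rfl⟩
  · rintro ⟨y, hy, rfl⟩; exact ⟨y, List.mem_toFinset.mpr hy, rfl⟩

end CfsgLib.Golay
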