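import Mathlib
import Cfsg.Agent.Lib.GolayOrb
import Cfsg.Agent.Lib.GolayDod

/-!
Invariant subspaces of the binary permutation module of `M24`.
-/

set_option autoImplicit false

namespace CfsgLib.Golay

open Cfsg
open scoped Pointwise

theorem word_smul (σ : Equiv.Perm GolayPt) (s : Finset GolayPt) :
    (fun p => word s (σ.symm p)) = word (σ • s) := by
  funext p
  have h : σ.symm p ∈ s ↔ p ∈ σ • s := by
    have h1 := mem_smul_iff (g := σ) (s := s) (p := σ.symm p)
    rw [Equiv.apply_symm_apply] at h1
    exact h1.symm
  simp only [word, h]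

theorem word_univ : word (Finset.univ) = fun _ => (1 : ZMod 2) := by funext p; simp [word]
theorem word_empty : word ∅ = (0 : GolayPt → ZMod 2) := by funext p; simp [word]

theorem all_dod {d : Finset GolayPt} (hd : d ∈ dodecads) {d' : Finset GolayPt} (hd' : d' ∈ dodecads) :
    ∃ g ∈ M24, g • d = d' := by
  obtain ⟨g, hg, h, -⟩ := dod_trans hd hd' (l := []) (l' := []) (by simp) (by simp) (by simp) (by simp) rfl (by simp)
  exact ⟨g, hg, h⟩

section
variable (W : Submodule (ZMod 2) (GolayPt → ZMod 2))
  (hW : ∀ σ ∈ M24, ∀ w ∈ W, (fun p => w (σ.symm p)) ∈ W)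

include hW in
theorem inv_word {σ : Equiv.Perm GolayPt} (hσ : σ ∈ M24) {s : Finset GolayPt} (h : word s ∈ W) :
    word (σ • s) ∈ W := by
  rw [← word_smul]; exact hW σ hσ _ h

theorem sd_word {s t : Finset GolayPt} (hs : word s ∈ W) (ht : word t ∈ W) : word (symmDiff s t) ∈ W := by
  rw [← word_add]; exact add_mem hs ht

theorem code_le (h : ∀ o ∈ octads, word o ∈ W) : golayCode ≤ W := by
  have key : ∀ (rs : List ℕ), (∀ r ∈ rs, word (toFS r) ∈ W) → ∀ j acc, word (toFS acc) ∈ W →
      word (toFS (encL rs j acc)) ∈ W := by
    intro rs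
    induction rs with
    | nil => intro _ j acc h; exact h
    | cons r rs ih =>
      intro hrs j acc h1
      have h1' : Nat.land j 1 = j % 2 := Nat.and_one_is_mod j
      have h3 : Nat.mul r (Nat.land j 1) = r * (j % 2) := by rw [← h1']; rfl
      rw [encL, h3]
      rcases Nat.mod_two_eq_zero_or_one j with hj | hj
      · rw [hj, Nat.mul_zero]
        have : Nat.xor acc 0 = acc := Nat.xor_zero acc
        rw [this]
        exact ih (fun r hr => hrs r (List.mem_cons_of_mem _ hr)) _ _ h1
      · rw [hj, Nat.mul_one]
        apply ih (fun r hr => hrs r (List.mem_cons_of_mem _ hr))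
        show word (toFS (acc ^^^ r)) ∈ W
        rw [toFS_xor]
        exact sd_word W h1 (hrs r (List.mem_cons_self ..))
  intro w hw
  have h1 := isCode_of_mem hw
  rw [isCode_iff, enc_eq_encL (lt_of_le_of_lt Nat.and_le_right (by norm_num))] at h1
  have h2 := key rows (fun r hr => h _ (by
    rw [mem_octads_iff, mask_toFS (row_lt hr)]
    have key : rows.all (fun r => and (isCode r) (Nat.beq (pop r) 8)) = true := by decide +kernel
    rw [List.all_eq_true] at key
    have := key r hr
    rw [Bool.and_eq_true] at this
    exact ⟨this.1, Nat.eq_of_beq_eq_true this.2⟩)) (mask (support₂ w) &&& 4095) 0 (by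
      rw [toFS_zero, word_empty]; exact zero_mem _)
  rw [h1, toFS_mask, word_support₂] at h2
  exact h2

include hW in
/-- a non-trivial code word in an invariant subspace -/
theorem code_le_of_word {s : Finset GolayPt} (hs : s ∈ supports (golayCode : Set (GolayPt → ZMod 2)))
    (h0 : s ≠ ∅) (h1 : s ≠ Finset.univ) (h : word s ∈ W) : golayCode ≤ W := by
  have hoct : ∀ o ∈ octads, word o ∈ W → golayCode ≤ W := by
    intro o ho h
    apply code_le
    intro o' ho'
    obtain ⟨g, hg, rfl⟩ := octads_transitive ho ho'
    exact inv_word W hW hg h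
  have hex : ∃ o ∈ octads, ∃ o' ∈ octads, symmDiff o o' ∈ octads := by
    refine ⟨O0, O0_mem, toFS 0x5a1007, ?_, ?_⟩
    · rw [mem_octads_iff, mask_toFS (by norm_num)]; decide +kernel
    · rw [mem_octads_iff, mask_xor, mask_O0, mask_toFS (by norm_num)]; decide +kernel
  rcases supports_card hs with hc | hc | hc | hc | hc
  · exact absurd (Finset.card_eq_zero.mp hc) h0
  · exact hoct s ⟨hs, hc⟩ h
  · -- dodecad
    have hd : s ∈ dodecads := ⟨hs, hc⟩
    have hD : ∀ d ∈ dodecads, word d ∈ W := by
      intro d hd'
      obtain ⟨g, hg, rfl⟩ := all_dod hd hd'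
      exact inv_word W hW hg h
    have h2 : toFS 0xc0f0be ∈ dodecads := by rw [mem_dodecads_iff, mask_toFS (by norm_num)]; decide +kernel
    have h3 : symmDiff D0 (toFS 0xc0f0be) ∈ octads := by
      rw [mem_octads_iff, mask_xor, mask_D0, mask_toFS (by norm_num)]; decide +kernel
    exact hoct _ h3 (sd_word W (hD _ D0_mem) (hD _ h2))
  · -- complement of an octad
    have hcc : sᶜ ∈ octads := by
      refine ⟨?_, ?_⟩
      · rw [mem_supports_iff, mask_compl']
        rw [mem_supports_iff] at hs
        exact isCode_xor (by decide +kernel) hs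
      · rw [Finset.card_compl, hc]; rfl
    have hall : ∀ o ∈ octads, word oᶜ ∈ W := by
      intro o ho
      obtain ⟨g, hg, hgo⟩ := octads_transitive hcc ho
      rw [← hgo, ← smul_compl, compl_compl]
      exact inv_word W hW hg h
    obtain ⟨o, ho, o', ho', h3⟩ := hex
    apply hoct _ h3
    have h4 := sd_word W (hall o ho) (hall o' ho')
    have h5 : symmDiff oᶜ o'ᶜ = symmDiff o o' := compl_symmDiff_compl _ _
    rwa [h5] at h4
  · exfalso
    apply h1
    rw [← Finset.card_eq_iff_eq_univ, hc]; rfl

include hW in
theorem inv_sub_code (hle : W ≤ golayCode) : W = ⊥ ∨ W = Submodule.span (ZMod 2) {fun _ => (1 : ZMod 2)} ∨ W = golayCode := by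
  by_cases h : ∃ s, s ≠ ∅ ∧ s ≠ Finset.univ ∧ word s ∈ W
  · obtain ⟨s, h0, h1, hs⟩ := h
    right; right
    apply le_antisymm hle
    exact code_le_of_word W hW (mem_supports.mpr (hle hs)) h0 h1 hs
  · push Not at h
    have hsub : ∀ w ∈ W, w = 0 ∨ w = fun _ => 1 := by
      intro w hw
      by_contra hc
      push Not at hc
      apply h (support₂ w)
      · rw [Finset.nonempty_iff_ne_empty]
        intro h0; apply hc.1; rw [← word_support₂ w, h0, word_empty]
      · intro h0; apply hc.2; rw [← word_support₂ w, h0, word_univ]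
      · rw [word_support₂]; exact hw
    by_cases h1 : (fun _ => (1 : ZMod 2)) ∈ W
    · right; left
      apply le_antisymm
      · intro w hw
        rcases hsub w hw with rfl | rfl
        · exact zero_mem _
        · exact Submodule.subset_span rfl
      · rw [Submodule.span_le]
        rintro x rfl; exact h1
    · left
      rw [eq_bot_iff]
      intro w hw
      rcases hsub w hw with rfl | rfl
      · exact zero_mem _
      · exact absurd hw h1

end

/-- every word outside the code is congruent to one of weight at most four -/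
theorem exists_leader (V : Submodule (ZMod 2) (GolayPt → ZMod 2)) (hV : golayCode ≤ V) :
    ∀ (n : ℕ) (s : Finset GolayPt), s.card = n → word s ∈ V → word s ∉ golayCode →
      ∃ t : Finset GolayPt, t.card ≤ 4 ∧ word t ∈ V ∧ word t ∉ golayCode ∧ word (symmDiff s t) ∈ golayCode := by
  intro n
  induction n using Nat.strong_induction_on with
  | _ n ih =>
    intro s hn hsV hsG
    by_cases h4 : s.card ≤ 4
    · exact ⟨s, h4, hsV, hsG, by rw [symmDiff_self]; show word ∅ ∈ _; rw [word_empty]; exact zero_mem _⟩
    · push Not at h4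
      obtain ⟨u, hus, hu5⟩ := Finset.exists_subset_card_eq (show 5 ≤ s.card by omega)
      obtain ⟨o, ho, huo⟩ := octad_through_five hu5
      have hoG : word o ∈ golayCode := mem_supports.mp ho.1
      have h5 : 5 ≤ (s ∩ o).card := by
        rw [← hu5]; exact Finset.card_le_card (Finset.subset_inter hus huo)
      have hc := card_symmDiff' s o
      rw [card_octad ho] at hc
      have hlt : (symmDiff s o).card < n := by omega
      have hV' : word (symmDiff s o) ∈ V := by rw [← word_add]; exact add_mem hsV (hV hoG)
      have hG' : word (symmDiff s o) ∉ golayCode := by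
        rw [← word_add]
        intro h
        apply hsG
        have := add_mem h hoG
        rw [add_assoc] at this
        have e : word o + word o = 0 := by funext p; exact CharTwo.add_self_eq_zero _
        rwa [e, add_zero] at this
      obtain ⟨t, ht1, ht2, ht3, ht4⟩ := ih _ hlt _ rfl hV' hG'
      refine ⟨t, ht1, ht2, ht3, ?_⟩
      have e : symmDiff s t = symmDiff (symmDiff (symmDiff s o) t) o := by
        rw [symmDiff_assoc s o t, symmDiff_comm o t, ← symmDiff_assoc s t o, symmDiff_assoc (symmDiff s t) o o,
          symmDiff_self, symmDiff_bot]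
      rw [e, ← word_add]
      exact add_mem ht4 hoG

end CfsgLib.Golay
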