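import Mathlib
import Cfsg.Agent.Lib.GolayTrio
import Cfsg.Agent.Lib.GolayOct

/-!
Quartets of a dodecad.
-/

set_option autoImplicit false

namespace CfsgLib.Golay

open Cfsg
open scoped Pointwise

def hexT : List ℕ := [0x8ea003, 0x13e005, 0x27c00a, 0x34200f, 0x159013, 0x4f8014, 0x67016, 0xc12017, 0x21b01c, 0xa58025, 0x2b2026, 0x1f0029, 0x91a02a, 0xce02c, 0x45102e, 0x82402f, 0x64a032, 0x436038, 0x843039, 0xa903a, 0x50803d, 0x45a049, 0xa205d, 0x84805e, 0xb067, 0x6c071, 0x152074, 0x21007b, 0x572082, 0xd3085, 0x839086, 0x44c087, 0x63008d, 0x85e090, 0x42b091, 0xb4093, 0x960095, 0x18a096, 0x2c8099, 0xa2209a, 0x2610a3, 0xc680a8, 0x1d0a9, 0x4820ab, 0x1230ac, 0x3380b0, 0x2060b5, 0x1440ba, 0x8900bc, 0x26a0c4, 0x1280cb, 0x160ce, 0x710d8, 0x8320e1, 0xd80e2, 0x4200f6, 0x87210c, 0x9810f, 0x46011b, 0x56123, 0x168126, 0x22a129, 0x31135, 0x3a152, 0x4b18a, 0x250196, 0x112199, 0x2c19c, 0x41a1a4, 0xe21b0, 0x8081b3, 0x401ed, 0x6920d, 0x272211, 0xe21b,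 0x13021e, 0x438223, 0x82a234, 0xc0237, 0x6226a, 0xba288, 0x85028b, 0x44229c, 0x14a2a1, 0x742a4, 0x2082ae, 0x132b2, 0x182d5, 0x58338, 0x22387, 0x42a40e, 0x838419, 0xd241a, 0x7b420, 0x122433, 0x1c436, 0x26043c, 0x70447, 0x21a483, 0x66489, 0x15848c, 0x149f, 0xa84a5, 0x8424a6, 0x4504b1, 0xa4f8, 0x4a515, 0x305aa, 0x1262d, 0x68692, 0x3380b, 0x228817, 0x16a818, 0x5481d, 0x462825, 0x9a831, 0x870832, 0x3886c, 0x80a88d, 0xe088e, 0x41889a, 0x2e8a2, 0x1108a7, 0x2528a8, 0x498b4, 0x428d3, 0x293e, 0x78981, 0x5aa06, 0x20ab9, 0x48c2b, 0x32c94]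

def L432 : List ℕ := [0x42574b95ed24ceaa99d69307180801, 0x425d7a15ed94e2ab317521a0718041, 0x4269574a112cdac5aad7219e718801, 0x426abb106794e26a32ee2aa0d78801, 0x426ceaca1124cecb9a8b2a86d78041, 0x426f6590672cda672ab4931f180041, 0x42d2e995af25ce6aaa960b06014232, 0x42dd5a04402ddec49ad3229a71c232, 0x42e76490672ddeaa1aae0b1a014612, 0x42e93715af0dc06b3135228471c612, 0x42ea9b10670dc0a732742984f6c232, 0x42ed4a844025cec9a9c92986f6c612, 0x4392b995af9522cb2af509a0200ce4, 0x43976b84022d1e64b2b3929b180ce4, 0x43a754ca112d1eabb2cb099a201c64, 0x43ab7b0402952269a9692b20f69c64, 0x43ac9aca110d04a59a772b00f68ce4, 0x43af3595af0d04ca99369281181c64, 0x44d75b90e32a5e6a2ace931b088801, 0x44dd6a4a302a5ecbaaab219a338041, 0x44e8b715af9260aab2f621a2338801, 0x44eb4b4a302246c599d72a8ef68801, 0x44ed7a90e392606731742aa2f68041, 0x44eee595af2246ab1a95930f088041, 0x451369ca302b9aa5b2b7099e010ce4, 0x45169b95ed0b80cb1a759285088ce4, 0x45277495ed93a0caa97609a2011c64,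 0x452b3b4a300b80ab992b2b04d79c64, 0x452cba844093a064aaf32b22d78ce4, 0x452f5584402b9a69b2c9929f089c64, 0x45537990e395a2ca196e0aa0013da5, 0x45573b90e30d80c7293491851835e5, 0x455cba044095a2a99ae9232033b5e5, 0x4566e4ca11258665b2970a8e0135e5, 0x4568974a110d806baa6b230433bda5, 0x456f4584402586a4b1d3918f183da5, 0x459349ca30254e6bb1cb0a86203da5, 0x4596eb8402254ea9b289918708b5e5, 0x459d3a4a300d4465a937230071b5e5, 0x45a6b490679560c71af40aa22035e5, 0x45a97704029560a49973232271bda5, 0x45ae9590670d44ca2a6e918108bda5, 0x45d35990e32adaa71ad40b1e204232, 0x45dc9a15ed0ac46ab276228033c232, 0x45e74495ed22c66b29d50b0e204612, 0x45e96704022adac99aa9229e33c612, 0x45eaeb040222c6c4aa93298ed7c232, 0x45ed3a90e30ac4aa312e2980d7c612, 0x4a175b3cad84e2aa31d719a4720801, 0x4a1d6abcad1cceab99748309190041, 0x4a28bbc2511cceca9ace7a88d28801, 0x4a2b470c877cda65aaf6830b190801, 0x4a2d75c2517cdac72a95198a720041, 0x4a2eea0c8784e26b32ab7aa4d28041, 0x4ad0e9bda585a2ca2ab709a40110e3,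 0x4add4a84407d8a6432f3829b1910e3, 0x4ae77442517d8aaab28e099a011c83, 0x4ae88bc2510d80a71a757b045690e3, 0x4aeb373da50d80cb99148285191c83, 0x4aef5a044085a269a9c87b24569c83, 0x4b90b9bda51d4e6baad40b08204a30, 0x4b977b04027d4ac41a931a9a724a30, 0x4ba7440c877d4aab1aeb0b1a204650, 0x4ba96b84021d4ec9a968798856c650, 0x4bad35bda50d446a31171a80724650, 0x4bae8a0c870d44a5b276798056ca30, 0x4cd74b42327a0acaaaee199a438801, 0x4cdd7a8ce47a0a6b2a8b831b288041, 0x4ce95b8ce4822465b1d67aa2568801, 0x4ceab73da51a08aa1ad7830f288801, 0x4cece5bda58224abb2b419a2438041, 0x4cef6a42321a08c719757a8e568041, 0x4d1169c2321dce6ab16e0a880115af, 0x4d173b42320dc06729151b047234af, 0x4d1cba84401dcea9b2c8818928b4af, 0x4d26e40c8785e4c59ab60aa20134af, 0x4d2a870c870dc0cb2a6b81852895af, 0x4d2d55844085e4a419d31b227215af, 0x4d51798ce47b9aa59a960b0a014a30, 0x4d568b3cad0b806bb2741a8443ca30, 0x4d67643cad1b886a29770b0e014650, 0x4d693b8ce40b80ab310b7984d2c650, 0x4d6d4584407b9ac99ae81a8a43c650,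 0x4d6eba04401b88c42ad3798ed2ca30, 0x4d9149c2327adaa732f5098a2010e3, 0x4d9c8abcad0ac4ca1a7782812890e3, 0x4da7543cad82e4cba9d409a2201c83, 0x4da8eb840282e4642ab37b22d290e3, 0x4dab7704027ada69b288828b289c83, 0x4daf3a42320ac4aa990e7b00d29c83, 0x4dd1598ce48522cb19cb0aa42015af, 0x4dd6eb04028522a99aa81b2443b4af, 0x4ddd3a8ce40d04c5a91681811934af, 0x4de6b442511d086732d50a8e2034af, 0x4deb6704021d08a43173818f1915af, 0x4dec85c2510d046aaa6e1b004395af, 0x5a135b34af15c06732931a82724232, 0x5a1c9988201dcecaaad46988f2c232, 0x5a27470c8715c0ab32a96982f2c612, 0x5a296ab4af1dce69a92e130800c612, 0x5a2aea0c876ddea49a76130a00c232, 0x5a2d3488206ddeca19d51a8a724612, 0x5a514bb5e51580c71ab392831810e3, 0x5a5c89882095a26a2af56b205790e3, 0x5a67574a111580ab9a886b02579c83, 0x5a68eaca116d8aa43277119e0090e3, 0x5a6b7a35e595a2c9a90e11a0009c83, 0x5a6f3408206d8a6ab1d4929f181c83, 0x5b916b88011cceaab13491891815ed, 0x5b937b080194e2aa19151b20723cad, 0x5ba89aca111cce6bb2c81288103cad,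 0x5baa8a0c8794e2cb1ae912a01015ed, 0x5bad54ca1114c2642a971b007215ed, 0x5baf440c8714c2c4aab69181183cad, 0x5cd15b8ce41380cb2a8991830895ed, 0x5cd34b4a3013806baaa81b0243bcad, 0x5ce97a8ce493a0c4991612a200bcad, 0x5ceb6a4a301b88643137128e0095ed, 0x5cec84882093a0aa9af41b224395ed, 0x5cee9408201b88aa32d5918f08bcad, 0x5d109bb5e51d4ea99ace9309088402, 0x5d133b4a306d4ac429d7199e720402, 0x5d1d69ca301d4ecb99286a88578022, 0x5d26870c87956064b2f66aa2578402, 0x5d2d74b5e59560a7311319a2720022, 0x5d2ee40c876d4a6b2a69931f088022, 0x5d513b8ce46d1e64a9d6930b180402, 0x5d528b34af9522a9b2ee19a0438402, 0x5d5d798ce495226b31096aa0f28022, 0x5d66974a111d08c41ad76a8ef28402, 0x5d6ce4ca116d1ecbaa68198a438022, 0x5d6f6434af1d08a71933930f180022, 0x5d90eb88016a5e6a3275928b0890e3, 0x5d9d49ca301242a41ab76b00f290e3, 0x5da777080192606aa9146b22f29c83, 0x5da88ab4af9260c72af311a21010e3, 0x5dab3a4a306a5eabb1c8118a101c83, 0x5daf5434af1242c99a8e9281089c83, 0x5dd2eb08016a0aca9a741a9e43c232,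 0x5ddd598ce41202a4b296698057c232, 0x5de76708011a08ca2935698e57c612, 0x5de93a8ce46a0aab19c9131e104612, 0x5dea9a35e51a08672ad3130e104232, 0x5ded44b5e5120269b2ae1a8043c612, 0x72136ab4af0504c59af38283190ce4, 0x721699802285226b2ab76b24f28ce4, 0x722775c2510504aa9ac96b02f29c64, 0x722b3480226d1e6bb176828b191c64, 0x722cbbc2516d1ea4b275018a208ce4, 0x722f5b34af8522c9a92b01a4209c64, 0x72517a35e5054465b2d3228271ca30, 0x7256898022254ecbaa96698657ca30, 0x72676590670544aa32e8698257c650, 0x72693400226d4acb1977229e71c650, 0x726d4bb5e5254e69a90b030620c650, 0x726ebb10676d4aa41a74031e20ca30, 0x72d15a004184e2ab193723247195ed, 0x72d34a804124ceabb1168187193cad, 0x72e974425104c264aad5230471bcad, 0x72eb64906704c2c42af481851915ed, 0x72ec8bc25124ce6ab28902861115ed, 0x72ee9b106784e2ca1aa802a4113cad, 0x74d16a423202c46aaae923023395ed, 0x74d37a90e302c4ca2ac8818328bcad, 0x74e894002282e4ab9ab6232233bcad, 0x74ea84802222c6ab3297818f2895ed, 0x74ed5b90e382e4c4193402a22095ed,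 0x74ef4b423222c664b115028e20bcad, 0x7512ba80416a0a6b3277829f288ce4, 0x751769c2320202a49af56b04578ce4, 0x752755804182246ba9366b22579c64, 0x752b74b5e50202c99acb8285289c64, 0x752c9bb5e58224c5aab301a2110ce4, 0x752f3b42326a0aaab169019e111c64, 0x7550ba00416a5ecb9a76228a33ca30, 0x75577990e30242a432d46984f2ca30, 0x75674580412246cb2917698ef2c650, 0x75696434af024269b2eb228433c650, 0x756d3b90e36a5eaa1968030a114650, 0x756e8b34af224665aa93030e114a30, 0x75913a42326ddec4a975218a718440, 0x75928ab4af25cea99a8b8307288440, 0x759749c23225ceca99096a86f28820, 0x75a695906785e46432b46aa2f28440, 0x75a95434af85e4a5b13321a2718820, 0x75aab490676dde6a2a68830b288820, 0x75d09a35e585a2a9b2ab21a4338440, 0x75d33a90e36d8a642974831f190440, 0x75d75990e385a26a31286aa4578820, 0x75e685c2512586c49a956a8e578440, 0x75e8b442516d8acaaa69219e338820, 0x75eb44b5e52586a59913830f190820, 0x9a17471c838a606ab2d76aa4f28801, 0x9a1d75c6503a46cb1ab46a88f28041, 0x9a295b34af3a46a59aee8b09090801,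 0x9a2abbc6506a5eca29d6398a320801, 0x9a2cea1c836a5e6ba9758b0b090041, 0x9a2f6ab4af8a60a7328b39a4320041, 0x9a575746123a08ca1af66a86578801, 0x9a5d659c648a246bb2956aa0578041, 0x9a68bb1c646a0a6aa9d78b1f280801, 0x9a6b4bb5e58a24a5b2ce39a0418801, 0x9a6d7a35e53a08a71aab8b07280041, 0x9a6eeac6126a0acb2974399e418041, 0x9ad1649c648ba0ca9a970aa40115ed, 0x9ad37446503b886a32b60a86013cad, 0x9ae89b1c640b80cba9158985093cad, 0x9aea8bc6500b806b29343b044195ed, 0x9aed5a04403b88a432e989870915ed, 0x9aef4a84408ba0a49ac83b2441bcad, 0x9b9154c6123ac66b32f40a882015ed, 0x9b93441c838ae4cb9ad50aa0203cad, 0x9ba97b04023ac6a4b2a88989283cad, 0x9bab6b84028ae4a41a893b203215ed, 0x9bac8a1c830ac4caa93789812815ed, 0x9bae9ac6120ac46a29163b00323cad, 0x9d1174b5e53d8665aaae0b08014a11, 0x9d12e41c836d8aaa99770b1e014251, 0x9d16871c830d80abb135698457ca11, 0x9d1d5584403d86c4aae8698857c251, 0x9d2a9bb5e50d8067310b3a84324251, 0x9d2eba84406d8ac419c93a9e324a11, 0x9d50e4c6126ddeaa3176098a011067,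 0x9d536434af8de4c5aa8e09a0010c87, 0x9d569746120dc0ab19146b04f28c87, 0x9d5d4584408de4642ac96b20f29067, 0x9d688b34af0dc0c7192b8a85281067, 0x9d6cba04406dde64b1c88a8b280c87, 0x9d90b49c646d1eab99d50b0a204a11, 0x9d935434af3d08672aeb0b06204251, 0x9d977704023d08c42aa96986f2ca11, 0x9d9c959c640d04aab1176980f2c251, 0x9daaeb84026d1ec499683a8a41c251, 0x9dae8ab4af0d0465b12e3a8041ca11, 0x9dd144b5e58d60c72acb09a4201067, 0x9dd2b446506d4aab31d4099e200c87, 0x9dd76704028d6064aa886b24578c87, 0x9ddc85c6500d44aa19366b00579067, 0x9de8eb04026d4a6431698a9f091067, 0x9dec9a35e50d44c5990e8a81090c87, 0xa212bbc6501380ab1ab37b02d28ce4, 0xa2176abcad8ba0c4aa7711a4008ce4, 0xa2275b3cad1380cb99698a83091c64, 0xa22b75c6507b9aa9b136118a009c64, 0xa22c9988207b9a65b2f58a8b090ce4, 0xa22f3488208ba06aaacb7b24d29c64, 0xa25157461215c06b297323027195af, 0xa256eac61225ce69b116128600b4af, 0xa25d3408208de4a59ad5232071b4af, 0xa266bb106715c0c72aa889832834af, 0xa26b6590678de4c41a6e12a00095af,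 0xa26c89882025ceaab1cb89872815af, 0xa2d1373da58d60a4b2d721a4718402, 0xa2d28bc650254ec999d67a86568402, 0xa2dd7446507d4acb2933219a718022, 0xa2e69b10677d4a642aee8b1b090402, 0xa2ece9bda5254eab99098b07090022, 0xa2ef6490678d606732687aa4568022, 0xa3936b88018a2465aa757b20568ce4, 0xa3969ac6127a0aab32f3119a100ce4, 0xa3a77b08017a0a6ab12b8a9b281c64, 0xa3ab35bda58a24cbaac911a0101c64, 0xa3acb9bda51202c49ab78a81280ce4, 0xa3af54c6121202a999767b00569c64, 0xa4d0b73da515806bb2a9228233ca11, 0xa4d35b90e31580a73168798256c251, 0xa4d77a90e37d8aa4192e131a00ca11, 0xa4dc9408207d8aca9aeb229a33c251, 0xa4eae5bda5258664a917130e00c251, 0xa4ee8488202586c5a9d5798e56ca11, 0xa5509746127adac9aaf6218a338402, 0xa5533b90e38ae46432ce7aa0d28402, 0xa55d643cad8ae4abb26921a0338022, 0xa5668b3cad22c6a499d78b0f280402, 0xa56d7990e37ada6729288b0b280022, 0xa56ee4c61222c6cb19137a8ed28022, 0xa5917708017cdac59935228a71ca11, 0xa592eb880124cecaa90b7986d2c251, 0xa5968abcad24ce6ba9c91306104a11,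 0xa59d543cad14c264b177228071c251, 0xa5aa9590677cdaa71ae8130a104251, 0xa5aeb4906714c2a432ae7980d2ca11, 0xa5d16708018a60aa9a6b23243395af, 0xa5d73a90e38a60c71ac812a41034af, 0xa5dcb44650124269aab6230033b4af, 0xa5e6eb08012246a5b115898f0934af, 0xa5ea85c65022466b31d3128e1015af, 0xa5ed5990e31242c4296e89810915af, 0xaa13471c831580cba9738183193da5, 0xaa16ea1c8385a2c9993712a400b5e5, 0xaa1d3488203d86a5b2f481891935e5, 0xaa26bbc2511580672a893b023235e5, 0xaa2975c2513d8664b26e128800bda5, 0xaa2e99882085a2aa19cb3b24323da5, 0xaa50bb1c641380abb2932982d7ca30, 0xaa577a15ed3b88642a76130600ca30, 0xaa674b95ed13806b31683a8241c650, 0xaa69659c642b9aa99917131e00c650, 0xaa6d3408203b88ca2aeb2986d7c650, 0xaa6e8988202b9ac59ad43a9e41ca30, 0xaad09b1c64852269b1d72aa4f68402, 0xaad33715af3d08a41af68307190402, 0xaadd649c642d1e6ba913831b190022, 0xaae68bc2512d1ec4aace399a418402, 0xaaed7442513d08c71a692a86f68022, 0xaaeee995af8522ab312839a4418022, 0xab917b08013a46c5aa742988f6ca30,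 0xab968a1c832a5eab9ad3131a104a30, 0xaba76b88012a5eca190b3a9a324650, 0xaba93595af3a466b2ae81308104650, 0xabad441c831242a9b1772980f6c650, 0xabaeb995af12426432963a80324a30, 0xacd14b423215c0a719692b02f69067, 0xacd2b715af15c0cb1a888283288c87, 0xacd76a42322ddea4b10e119a008c87, 0xacdc8488202dde6a32cb829b289067, 0xace8e595af85e4c4293611a2009067, 0xacec94082085e465a9d42b22f68c87, 0xad113b42323ac6c49aee2a88d78402, 0xad12871c832ada69aad7831f288402, 0xad1d7495ed3ac6ab1a688309288022, 0xad269b95ed82e4a431d639a2320402, 0xad2ce41c8382e46bb1332aa2d78022, 0xad2f69c2322adac72909399e320022, 0xad937708013a08aa326b818728bda5, 0xad973a42323a086732e912861035e5, 0xad9cb49c641202c9aa97818128b5e5, 0xada6eb88018224a599343b2241b5e5, 0xada8959c648224cb99d312a2103da5, 0xadaf49c232120264a96e3b0041bda5, 0xadd0eb080184e26a292b2b24d79067, 0xadd36708012cda65b114829f190c87, 0xadd69a15ed84e2cb29c811a4100c87, 0xaddd4495ed14c2c419768281191067, 0xade885c2512cdaa732c9119e101067,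 0xadecb4425114c2a49a8e2b00d78c87, 0xb21375c65005446a29d31b02723da5, 0xb2173480228d60a71a971b247235e5, 0xb21cbbc6501d4e69b134028820b5e5, 0xb226ea0c870544c5aae989830935e5, 0xb2289980221d4eabb16e8989093da5, 0xb22f470c878d60c49a6b02a420bda5, 0xb250eac61202c4aa1af32b02d790e3, 0xb25d4b95ed8ae4c42a7501a02090e3, 0xb2677a15ed02c4ca99c88a83281c83, 0xb2688980222ada6732b78a9f2810e3, 0xb26b3400228ae46baa8e2b20d79c83, 0xb26f5746122adaa9b114019e209c83, 0xb2d14a80418a60672a772b24f690e3, 0xb2dc8bc6502a5eaa32b3019a1110e3, 0xb2e75a00412a5e6bb10e8a9b091c83, 0xb2e8e995af0242c41af58a850910e3, 0xb2eb7446500242a999d42b04f69c83, 0xb2ef3715af8a60caaa8801a4111c83, 0xb3909ac6121dcec999742a88f68440, 0xb3933595af8de4a4329519a0720440, 0xb39754c6122ddeca2913199a720820, 0xb3a68a0c872dde64aaab8b1b280440, 0xb3a8b995af1dceaa99288b09280820, 0xb3ab440c878de465b2692aa0f68820, 0xb4d17a8ce40504a5b1c92982f6ca11, 0xb4d2e595af05046ab2e81a8243c251, 0xb4d68480222d1ecb9aae1a9a43ca11,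 0xb4dd5b8ce42d1ea4990b031a20c251, 0xb4ea9400221d08c72977298ef6c251, 0xb4eeb715af1d08642935030e20ca11, 0xb510ba80411ccecba92e2988d7ca11, 0xb5135580412cdac719171a9e724251, 0xb5177495ed04c26431d51a84724a11, 0xb51c9b95ed1cce6aa9680308114251, 0xb52ae40c8704c2a4b2eb2984d7c251, 0xb52e870c872cdaa59aa9031e114a11, 0xb5534580418a24ab9a6e1b2043bda5, 0xb556e4c612020269aaf41b0443b5e5, 0xb55d3b8ce48a24c59a8902a01135e5, 0xb566ba00411a08a73137898f2835e5, 0xb569798ce40202c4a9cb8985283da5, 0xb56e9746121a086a3173028e113da5, 0xb5d13a8ce48ba064b28b2aa4d78440, 0xb5d285c6502b9ac9aab4199e438440, 0xb5d74495ed8ba0aab26819a4438820, 0xb5e69a15ed1b88a419758b0f090440, 0xb5e9598ce42b9a65a9098b1f090820, 0xb5eab446501b88ca19332a8ed78820, 0xba12ea1c8302c4aab2d37982d2c232, 0xba1d5b3cad3ac664aa74030820c232, 0xba276abcad02c46a31c93a82324612, 0xba293480223ac6cb2aae7988d2c612, 0xba2a9980227adac71a963a8a324232, 0xba2d471c837adaa99935030a20c612, 0xba51659c640504caa9d391831815af,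 0xba573400223d08a732b691871834af, 0xba5cbb1c649522c9991502a020b4af, 0xba66eaca11050465aac83b0241b4af, 0xba6a8980229522ab196e3b204195af, 0xba6d574a113d0864326b02862095af, 0xbad35a00413a08c72a76798656c232, 0xbadc9b1c647a0aaa9a93031a114232, 0xbae74a80417a0acb192e3a9a41c612, 0xbae9649c640202a9b1d5798456c612, 0xbaeae9bda5020264b2d43a8441c232, 0xbaed373da53a086a2aa90306114612, 0xbb9135bda53d86a49ab49309180440, 0xbb928a1c8395a269b1757aa0568440, 0xbb97441c837d8a6aa933931b180820, 0xbba69aca117d8ac42a8b399a320440, 0xbba954ca113d86c59a687a88568820, 0xbbaab9bda595a2aa310939a0320820, 0xbcd0e5bda50544ca1ac99283089067, 0xbcd36a4a300544a599c87b02568c87, 0xbcd69400227d4a6b328e929b088c87, 0xbcdd4b4a307d4aa4312b019a209067, 0xbce884802295606729767b22569067, 0xbcecb73da59560c4a91401a2208c87, 0xbd115580413a46ab326e91890895af, 0xbd16e41c830242c9aad5918508b4af, 0xbd1d3b4a303a4665b2a802881134af, 0xbd26ba80419260a719163b223234af, 0xbd2b69ca3002426429cb3b043215af,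 0xbd2c871c839260ca997302a21115af, 0xbd514580417cda673136928b181067, 0xbd52ba004194e26b290e7b20d28c87, 0xbd57643cad04c2c499d49285180c87, 0xbd5c8b3cad94e2ca296901a0111067, 0xbd68e4ca1104c2a41acb7b04d29067, 0xbd6c974a117cdaa5b288018a110c87, 0xbd90959c647b9a69aa95930b088440, 0xbd933a4a303b88c41aab7a86d28440, 0xbd97543cad3b88aa1a699307088820, 0xbda68abcad93a0a4b17439a2418440, 0xbda8b49c6493a06ab1137aa2d28820, 0xbdab49ca307b9ac5a928398a418820]

def isHex (h : ℕ) : Bool := hexT.any fun o => Nat.beq (Nat.land o 0x7a0bf) h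

theorem hexT_chk : hexT.all (fun o => and (isCode o) (and (Nat.beq (pop o) 8) (Nat.beq (pop (Nat.land o 0x7a0bf)) 6))) = true := by
  decide +kernel

theorem hexT_lt : ∀ o ∈ hexT, o < 2 ^ 24 := by decide +kernel

theorem hexT_all : allC (fun o => or (not (and (Nat.beq (pop o) 8) (Nat.beq (pop (Nat.land o 0x7a0bf)) 6))) (isHex (Nat.land o 0x7a0bf))) rows 0 = true := by
  decide +kernel

theorem land_D0 (s : Finset GolayPt) : Nat.land (mask s) 0x7a0bf = mask (s ∩ D0) := by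
  rw [mask_inter, mask_D0]; rfl

theorem mem_hexads_iff {h : Finset GolayPt} : h ∈ hexadsOn D0 ↔ isHex (mask h) = true := by
  constructor
  · rintro ⟨h6, o, ho, rfl⟩
    have h1 := forall_code _ hexT_all ho.1
    rw [mem_octads_iff] at ho
    simp only [Bool.or_eq_true, Bool.not_eq_true', land_D0] at h1
    rcases h1 with h1 | h1
    · exfalso
      rw [ho.2, ← card_eq_pop, h6] at h1
      exact Bool.noConfusion h1
    · exact h1
  · intro h1
    rw [isHex, List.any_eq_true] at h1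
    obtain ⟨o, ho, he⟩ := h1
    have h2 := List.all_eq_true.mp hexT_chk o ho
    simp only [Bool.and_eq_true] at h2
    obtain ⟨c1, c2, c3⟩ := h2
    have holt := hexT_lt o ho
    have he' : Nat.land o 0x7a0bf = mask h := Nat.eq_of_beq_eq_true he
    have h3 : toFS o ∩ D0 = h := by
      rw [D0, ← toFS_land]
      have : o &&& 0x7a0bf = mask h := he'
      rw [this, toFS_mask]
    refine ⟨?_, toFS o, ?_, h3⟩
    · rw [card_eq_pop, ← he']; exact Nat.eq_of_beq_eq_true c3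
    · rw [mem_octads_iff, mask_toFS holt]; exact ⟨c1, Nat.eq_of_beq_eq_true c2⟩

theorem smul_mem_hexads {g : Equiv.Perm GolayPt} (hg : g ∈ M24) {d h : Finset GolayPt} (hh : h ∈ hexadsOn d) : g • h ∈ hexadsOn (g • d) := by
  obtain ⟨h6, o, ho, rfl⟩ := hh
  exact ⟨by rw [card_smul', h6], g • o, (smul_mem_octads hg).mpr ho, (smul_inter' _ _ _).symm⟩

theorem smul_mem_quartets {g : Equiv.Perm GolayPt} (hg : g ∈ M24) {d : Finset GolayPt} {Q : Finset (Finset GolayPt)}
    (hQ : Q ∈ quartets d) : g • Q ∈ quartets (g • d) := by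
  refine ⟨?_, ?_, ?_⟩
  · rw [Finset.card_smul_finset]; exact hQ.1
  · intro t ht
    rw [← smul_inv_smul g t, mem_smul_fam] at ht
    rw [← smul_inv_smul g t]
    exact ⟨by rw [card_smul']; exact (hQ.2.1 _ ht).1, Finset.smul_finset_subset_smul_finset_iff.mpr (hQ.2.1 _ ht).2⟩
  · intro t ht u hu hne
    rw [← smul_inv_smul g t, mem_smul_fam] at ht
    rw [← smul_inv_smul g u, mem_smul_fam] at hu
    have := hQ.2.2 _ ht _ hu (fun h => hne (smul_left_cancel _ h))
    rw [← smul_inv_smul g t, ← smul_inv_smul g u, ← smul_union']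
    exact smul_mem_hexads hg this

theorem mem_quartets_smul {g : Equiv.Perm GolayPt} (hg : g ∈ M24) {d d' : Finset GolayPt} (hd : g • d = d') {Q : Finset (Finset GolayPt)} :
    g • Q ∈ quartets d' ↔ Q ∈ quartets d := by
  constructor
  · intro h
    have h1 := smul_mem_quartets (inv_mem hg) h
    rw [inv_smul_smul, ← hd, inv_smul_smul] at h1
    exact h1
  · intro h
    rw [← hd]; exact smul_mem_quartets hg h

theorem quartet_disjoint {d : Finset GolayPt} {Q : Finset (Finset GolayPt)} (hQ : Q ∈ quartets d) {t u : Finset GolayPt} (ht : t ∈ Q)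
    (hu : u ∈ Q) (h : t ≠ u) : Disjoint t u := by
  have h1 := (hQ.2.2 t ht u hu h).1
  have h2 := Finset.card_union_add_card_inter t u
  rw [h1, (hQ.2.1 t ht).1, (hQ.2.1 u hu).1] at h2
  rw [Finset.disjoint_iff_inter_eq_empty, ← Finset.card_eq_zero]
  omega

def t0 : Finset GolayPt := toFS 7
def u0 : Finset GolayPt := toFS 0x98
def v0 : Finset GolayPt := toFS 0xa020
def w0 : Finset GolayPt := toFS 0x70000

/-- the base quartet -/
def Q0 : Finset (Finset GolayPt) := {t0, u0, v0, w0}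

/-- a hexad of `D0` through the five base points -/
theorem hexad_base {h : Finset GolayPt} (hh : h ∈ hexadsOn D0) (h5 : ∀ p ∈ [pt 0, pt 1, pt 2, pt 3, pt 4], p ∈ h) : h = toFS 0x9f := by
  obtain ⟨-, o, ho, rfl⟩ := hh
  have h1 : o = O0 := eq_O0 ho (by
    intro p hp
    simp only [Finset.mem_insert, Finset.mem_singleton] at hp
    have := h5 p (by simpa using hp)
    exact (Finset.mem_inter.mp this).1)
  rw [h1, O0, D0, ← toFS_land]; rfl

theorem card_three_list {t : Finset GolayPt} (ht : t.card = 3) : ∃ a b c, [a, b, c].Nodup ∧ t = {a, b, c} := by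
  obtain ⟨a, b, c, hab, hac, hbc, h⟩ := Finset.card_eq_three.mp ht
  exact ⟨a, b, c, by simp [hab, hac, hbc], h⟩

theorem smul_three (g : Equiv.Perm GolayPt) (a b c : GolayPt) : g • ({a, b, c} : Finset GolayPt) = {g a, g b, g c} := by
  rw [Finset.smul_finset_insert, Finset.smul_finset_insert, Finset.smul_finset_singleton]; rfl

theorem t0_eq : t0 = {pt 0, pt 1, pt 2} := by decide +kernel
theorem u0_eq : u0 = {pt 3, pt 4, pt 7} := by decide +kernel

/-- normalization of a pair of triples -/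
theorem norm_pair {d : Finset GolayPt} (hd : d ∈ dodecads) {t u : Finset GolayPt} (ht : t.card = 3) (hu : u.card = 3)
    (htu : Disjoint t u) (hh : t ∪ u ∈ hexadsOn d) : ∃ g ∈ M24, g • d = D0 ∧ g • t = t0 ∧ g • u = u0 := by
  obtain ⟨a, b, c, habc, rfl⟩ := card_three_list ht
  obtain ⟨x, y, z, hxyz, rfl⟩ := card_three_list hu
  have hsub : ∀ p ∈ ({a, b, c} ∪ {x, y, z} : Finset GolayPt), p ∈ d := by
    obtain ⟨-, o, -, ho⟩ := hh
    intro p hp
    rw [← ho] at hp
    exact (Finset.mem_inter.mp hp).2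
  have hdj := Finset.disjoint_left.mp htu
  have nd : [a, b, c, x, y].Nodup := by
    simp only [List.nodup_cons, List.mem_cons, List.not_mem_nil, or_false, not_or, List.nodup_nil, and_true, not_false_eq_true] at habc hxyz ⊢
    have q1 : ∀ p ∈ ({a, b, c} : Finset GolayPt), p ≠ x ∧ p ≠ y := fun p hp =>
      ⟨fun h => hdj hp (by simp [h]), fun h => hdj hp (by simp [h])⟩
    have qa := q1 a (by simp)
    have qb := q1 b (by simp)
    have qc := q1 c (by simp)
    exact ⟨⟨habc.1.1, habc.1.2, qa.1, qa.2⟩, ⟨habc.2, qb.1, qb.2⟩, ⟨qc.1, qc.2⟩, hxyz.1.1⟩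
  obtain ⟨g, hg, hgd, hgl⟩ := dod_trans hd D0_mem nd (l' := [pt 0, pt 1, pt 2, pt 3, pt 4]) (by decide)
    (by
      intro p hp
      apply hsub
      simp only [List.mem_cons, List.not_mem_nil, or_false] at hp
      simp only [Finset.mem_union, Finset.mem_insert, Finset.mem_singleton]
      tauto) mem_D0_base rfl (by norm_num)
  simp only [List.map_cons, List.map_nil, List.cons.injEq, and_true] at hgl
  obtain ⟨ga, gb, gc, gx, gy⟩ := hgl
  have h1 : g • ({a, b, c} : Finset GolayPt) = t0 := by rw [smul_three, ga, gb, gc, t0_eq]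
  refine ⟨g, hg, hgd, h1, ?_⟩
  have h2 := smul_mem_hexads hg hh
  rw [hgd] at h2
  have h3 := hexad_base h2 (by
    intro p hp
    rw [smul_union', smul_three, smul_three, ga, gb, gc, gx, gy]
    simp only [List.mem_cons, List.not_mem_nil, or_false] at hp
    simp only [Finset.mem_union, Finset.mem_insert, Finset.mem_singleton]
    tauto)
  have h4 : g • ({x, y, z} : Finset GolayPt) = (g • ({a, b, c} ∪ {x, y, z} : Finset GolayPt)) \ t0 := by
    rw [← h1, ← smul_sdiff']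
    congr 1
    rw [Finset.union_sdiff_left, Finset.sdiff_eq_self_of_disjoint htu.symm]
  rw [h4, h3]
  decide +kernel

theorem base_third_chk : allC (fun o => or (not (and (Nat.beq (pop o) 8) (and (Nat.beq (pop (Nat.land o 0x7a0bf)) 6) (Nat.beq (Nat.land o 7) 7))))
    (or (not (isHex (Nat.lor 0x98 (Nat.xor 7 (Nat.land o 0x7a0bf)))))
      (or (Nat.beq (Nat.xor 7 (Nat.land o 0x7a0bf)) 0xa020) (or (Nat.beq (Nat.xor 7 (Nat.land o 0x7a0bf)) 0x70000)
        (not (Nat.beq (Nat.land 0x98 (Nat.xor 7 (Nat.land o 0x7a0bf))) 0)))))) rows 0 = true := by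
  decide +kernel

/-- the triples forming hexads with both base triples -/
theorem base_third {v : Finset GolayPt} (h1 : t0 ∪ v ∈ hexadsOn D0) (d1 : Disjoint t0 v) (h2 : u0 ∪ v ∈ hexadsOn D0) (d2 : Disjoint u0 v) :
    v = v0 ∨ v = w0 := by
  obtain ⟨h6, o, ho, hoe⟩ := h1
  have hc := forall_code _ base_third_chk ho.1
  have ho2 := (mem_octads_iff.mp ho).2
  have e1 : Nat.land (mask o) 0x7a0bf = mask (t0 ∪ v) := by rw [land_D0, hoe]
  have e2 : Nat.xor 7 (mask (t0 ∪ v)) = mask v := by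
    have e3 : symmDiff t0 (t0 ∪ v) = v := by
      ext p
      have : p ∈ t0 → p ∉ v := fun hp => (Finset.disjoint_left.mp d1) hp
      simp only [Finset.mem_symmDiff, Finset.mem_union]
      tauto
    have e4 : (7 : ℕ) = mask t0 := (mask_toFS (by norm_num)).symm
    conv_rhs => rw [← e3, mask_xor]
    rw [e4]; rfl
  have e5 : Nat.land (mask o) 7 = 7 := by
    have e4 : (7 : ℕ) = mask t0 := (mask_toFS (by norm_num)).symm
    have e6 : t0 ⊆ o := by
      intro p hp
      have : p ∈ o ∩ D0 := by rw [hoe]; exact Finset.mem_union_left _ hp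
      exact (Finset.mem_inter.mp this).1
    conv_lhs => rw [e4]
    show mask o &&& mask t0 = 7
    rw [← mask_inter, Finset.inter_eq_right.mpr e6, ← e4]
  have e7 : Nat.lor 0x98 (mask v) = mask (u0 ∪ v) := by
    have e4 : (0x98 : ℕ) = mask u0 := (mask_toFS (by norm_num)).symm
    rw [mask_union, ← e4]; rfl
  have e8 : Nat.land 0x98 (mask v) = 0 := by
    have e4 : (0x98 : ℕ) = mask u0 := (mask_toFS (by norm_num)).symm
    rw [e4]
    show mask u0 &&& mask v = 0
    rw [← mask_inter, Finset.disjoint_iff_inter_eq_empty.mp d2, mask_empty]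
  rw [e1, e2, e5, e7, e8, mem_hexads_iff.mp h2, ho2, ← card_eq_pop, h6] at hc
  simp only [Nat.beq_refl, Bool.and_self, Bool.not_true, Bool.false_or, Bool.or_false, Bool.or_eq_true, Nat.beq_eq] at hc
  rcases hc with hc | hc
  · left; rw [← toFS_mask v, hc]; rfl
  · right; rw [← toFS_mask v, hc]; rfl

theorem Q0_card : Q0.card = 4 := by decide +kernel

theorem eq_Q0 {Q : Finset (Finset GolayPt)} (hQ : Q ∈ quartets D0) (ht : t0 ∈ Q) (hu : u0 ∈ Q) : Q = Q0 := by
  apply Finset.eq_of_subset_of_card_le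
  · intro v hv
    have htu : t0 ≠ u0 := by decide +kernel
    by_cases h1 : v = t0
    · rw [h1]; simp [Q0]
    by_cases h2 : v = u0
    · rw [h2]; simp [Q0]
    rcases base_third (hQ.2.2 t0 ht v hv (Ne.symm h1)) (quartet_disjoint hQ ht hv (Ne.symm h1)) (hQ.2.2 u0 hu v hv (Ne.symm h2))
      (quartet_disjoint hQ hu hv (Ne.symm h2)) with h | h
    · rw [h]; simp [Q0]
    · rw [h]; simp [Q0]
  · rw [Q0_card, hQ.1]

theorem mem_Q0 {t : Finset GolayPt} : t ∈ Q0 ↔ t = t0 ∨ t = u0 ∨ t = v0 ∨ t = w0 := by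
  simp only [Q0, Finset.mem_insert, Finset.mem_singleton]

theorem Q0_mem : Q0 ∈ quartets D0 := by
  have key : ∀ a ∈ [7, 0x98, 0xa020, 0x70000], pop a = 3 ∧ a &&& 0x7a0bf = a ∧ ∀ b ∈ [7, 0x98, 0xa020, 0x70000], a ≠ b → isHex (a ||| b) = true := by
    decide +kernel
  have mem : ∀ {t}, t ∈ Q0 → ∃ a ∈ [7, 0x98, 0xa020, 0x70000], a < 2 ^ 24 ∧ t = toFS a := by
    intro t ht
    rcases mem_Q0.mp ht with rfl | rfl | rfl | rfl
    · exact ⟨7, by simp, by norm_num, rfl⟩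
    · exact ⟨0x98, by simp, by norm_num, rfl⟩
    · exact ⟨0xa020, by simp, by norm_num, rfl⟩
    · exact ⟨0x70000, by simp, by norm_num, rfl⟩
  refine ⟨Q0_card, ?_, ?_⟩
  · intro t ht
    obtain ⟨a, ha, hlt, rfl⟩ := mem ht
    refine ⟨by rw [card_toFS hlt]; exact (key a ha).1, ?_⟩
    rw [← Finset.inter_eq_left, D0, ← toFS_land, (key a ha).2.1]
  · intro t ht u hu hne
    obtain ⟨a, ha, hlt, rfl⟩ := mem ht
    obtain ⟨b, hb, hlt', rfl⟩ := mem hu
    rw [mem_hexads_iff, mask_union, mask_toFS hlt, mask_toFS hlt']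
    exact (key a ha).2.2 b hb (fun h => hne (by rw [h]))

theorem norm_quartet {d : Finset GolayPt} (hd : d ∈ dodecads) {Q : Finset (Finset GolayPt)} (hQ : Q ∈ quartets d) {t u : Finset GolayPt}
    (ht : t ∈ Q) (hu : u ∈ Q) (hne : t ≠ u) : ∃ g ∈ M24, g • d = D0 ∧ g • t = t0 ∧ g • u = u0 ∧ g • Q = Q0 := by
  obtain ⟨g, hg, h1, h2, h3⟩ := norm_pair hd (hQ.2.1 t ht).1 (hQ.2.1 u hu).1 (quartet_disjoint hQ ht hu hne) (hQ.2.2 t ht u hu hne)
  refine ⟨g, hg, h1, h2, h3, ?_⟩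
  apply eq_Q0 ((mem_quartets_smul hg h1).mpr hQ)
  · rw [← h2]; exact mem_smul_fam.mpr ht
  · rw [← h3]; exact mem_smul_fam.mpr hu

theorem norm_quartet' {d : Finset GolayPt} (hd : d ∈ dodecads) {Q : Finset (Finset GolayPt)} (hQ : Q ∈ quartets d) :
    ∃ g ∈ M24, g • d = D0 ∧ g • Q = Q0 := by
  obtain ⟨t, ht, u, hu, hne⟩ := Finset.one_lt_card.mp (by rw [hQ.1]; norm_num : 1 < Q.card)
  obtain ⟨g, hg, h1, -, -, h4⟩ := norm_quartet hd hQ ht hu hne
  exact ⟨g, hg, h1, h4⟩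

theorem quartets_trans {d : Finset GolayPt} (hd : d ∈ dodecads) {Q Q' : Finset (Finset GolayPt)} (hQ : Q ∈ quartets d) (hQ' : Q' ∈ quartets d) :
    ∃ g ∈ M24, g • d = d ∧ g • Q = Q' := by
  obtain ⟨g, hg, h1, h2⟩ := norm_quartet' hd hQ
  obtain ⟨k, hk, h3, h4⟩ := norm_quartet' hd hQ'
  exact ⟨k⁻¹ * g, M24_mul (inv_mem hk) hg, by rw [mul_smul, h1, inv_smul_eq_iff, h3], by rw [mul_smul, h2, inv_smul_eq_iff, h4]⟩

/-- the pair stabilizer -/
def K1 : Subgroup (Equiv.Perm GolayPt) :=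
  PSd D0 [] ⊓ (MulAction.stabilizer (Equiv.Perm GolayPt) t0 ⊓ MulAction.stabilizer (Equiv.Perm GolayPt) u0)

/-- the quartet stabilizer -/
def KQ : Subgroup (Equiv.Perm GolayPt) := PSd D0 [] ⊓ MulAction.stabilizer (Equiv.Perm GolayPt) Q0

theorem K1_t0 : ∀ g ∈ K1, g • t0 = t0 := fun _ hg => hg.2.1
theorem K1_u0 : ∀ g ∈ K1, g • u0 = u0 := fun _ hg => hg.2.2
theorem mem_t0 {p : GolayPt} : p ∈ t0 ↔ p = pt 0 ∨ p = pt 1 ∨ p = pt 2 := by
  rw [t0_eq]; simp
theorem mem_u0 {p : GolayPt} : p ∈ u0 ↔ p = pt 3 ∨ p = pt 4 ∨ p = pt 7 := by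
  rw [u0_eq]; simp

theorem card_K1 : Nat.card K1 = 36 := by
  let φ : K1 →* Equiv.Perm ↥t0 × Equiv.Perm ↥u0 := (res t0 K1 K1_t0).prod (res u0 K1 K1_u0)
  have hinj : Function.Injective φ := by
    rw [injective_iff_map_eq_one]
    intro g hg
    have hg1 : res t0 K1 K1_t0 g = 1 := congrArg Prod.fst hg
    have hg2 : res u0 K1 K1_u0 g = 1 := congrArg Prod.snd hg
    apply Subtype.ext
    apply dod_unique D0_mem g.2.1.1 g.2.1.2.1 (l := [pt 0, pt 1, pt 2, pt 3, pt 4]) (by decide) mem_D0_base rfl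
    have e1 : ∀ x (hx : x ∈ t0), (g : Equiv.Perm GolayPt) x = x := fun x hx =>
      congrArg (fun f : Equiv.Perm ↥t0 => ((f ⟨x, hx⟩ : ↥t0) : GolayPt)) hg1
    have e2 : ∀ x (hx : x ∈ u0), (g : Equiv.Perm GolayPt) x = x := fun x hx =>
      congrArg (fun f : Equiv.Perm ↥u0 => ((f ⟨x, hx⟩ : ↥u0) : GolayPt)) hg2
    intro p hp
    simp only [List.mem_cons, List.not_mem_nil, or_false] at hp
    rcases hp with rfl | rfl | rfl | rfl | rfl
    · exact e1 _ (by rw [t0_eq]; simp)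
    · exact e1 _ (by rw [t0_eq]; simp)
    · exact e1 _ (by rw [t0_eq]; simp)
    · exact e2 _ (by rw [u0_eq]; simp)
    · exact e2 _ (by rw [u0_eq]; simp)
  have hsurj : Function.Surjective φ := by
    rintro ⟨σ, τ⟩
    have m0 : pt 0 ∈ t0 := by rw [t0_eq]; simp
    have m1 : pt 1 ∈ t0 := by rw [t0_eq]; simp
    have m2 : pt 2 ∈ t0 := by rw [t0_eq]; simp
    have m3 : pt 3 ∈ u0 := by rw [u0_eq]; simp
    have m4 : pt 4 ∈ u0 := by rw [u0_eq]; simp
    have m7 : pt 7 ∈ u0 := by rw [u0_eq]; simp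
    have htD : ∀ x ∈ t0, x ∈ D0 := by decide +kernel
    have huD : ∀ x ∈ u0, x ∈ D0 := by decide +kernel
    have htO : ∀ x ∈ t0, x ∈ O0 := by decide +kernel
    have huO : ∀ x ∈ u0, x ∈ O0 := by decide +kernel
    have hdj : ∀ x ∈ t0, x ∉ u0 := by decide +kernel
    set a := σ ⟨pt 0, m0⟩ with ha
    set b := σ ⟨pt 1, m1⟩ with hb
    set c := σ ⟨pt 2, m2⟩ with hc
    set x := τ ⟨pt 3, m3⟩ with hx
    set y := τ ⟨pt 4, m4⟩ with hy
    have nab : (a : GolayPt) ≠ b := fun h => absurd (congrArg Subtype.val (σ.injective (Subtype.ext h))) (show ¬ _ from by simp only; decide)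
    have nac : (a : GolayPt) ≠ c := fun h => absurd (congrArg Subtype.val (σ.injective (Subtype.ext h))) (show ¬ _ from by simp only; decide)
    have nbc : (b : GolayPt) ≠ c := fun h => absurd (congrArg Subtype.val (σ.injective (Subtype.ext h))) (show ¬ _ from by simp only; decide)
    have nxy : (x : GolayPt) ≠ y := fun h => absurd (congrArg Subtype.val (τ.injective (Subtype.ext h))) (show ¬ _ from by simp only; decide)
    have n : ∀ (p : ↥t0) (q : ↥u0), (p : GolayPt) ≠ q := fun p q h => hdj p p.2 (h ▸ q.2)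
    have nd : [(a : GolayPt), b, c, x, y].Nodup := by
      simp only [List.nodup_cons, List.mem_cons, List.not_mem_nil, or_false, not_or, List.nodup_nil, and_true, not_false_eq_true]
      exact ⟨⟨nab, nac, n a x, n a y⟩, ⟨nbc, n b x, n b y⟩, ⟨n c x, n c y⟩, nxy⟩
    have hld : ∀ p ∈ [(a : GolayPt), b, c, x, y], p ∈ D0 := by
      intro p hp
      simp only [List.mem_cons, List.not_mem_nil, or_false] at hp
      rcases hp with rfl | rfl | rfl | rfl | rfl
      · exact htD _ a.2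
      · exact htD _ b.2
      · exact htD _ c.2
      · exact huD _ x.2
      · exact huD _ y.2
    have hlO : ∀ p ∈ [(a : GolayPt), b, c, x, y], p ∈ O0 := by
      intro p hp
      simp only [List.mem_cons, List.not_mem_nil, or_false] at hp
      rcases hp with rfl | rfl | rfl | rfl | rfl
      · exact htO _ a.2
      · exact htO _ b.2
      · exact htO _ c.2
      · exact huO _ x.2
      · exact huO _ y.2
    obtain ⟨g, hg, hgd, hgl⟩ := dod_trans D0_mem D0_mem (l := [pt 0, pt 1, pt 2, pt 3, pt 4]) (by decide) nd mem_D0_base hld rfl (by norm_num)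
    simp only [List.map_cons, List.map_nil, List.cons.injEq, and_true] at hgl
    obtain ⟨g0, g1, g2, g3, g4⟩ := hgl
    have hgt : g • t0 = t0 := by
      apply Finset.eq_of_subset_of_card_le
      · rw [t0_eq, smul_three, g0, g1, g2, ← t0_eq]
        intro p hp
        simp only [Finset.mem_insert, Finset.mem_singleton] at hp
        rcases hp with rfl | rfl | rfl
        · exact a.2
        · exact b.2
        · exact c.2
      · rw [card_smul']
    have hgO : g • O0 = O0 := by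
      apply eq_of_list ((smul_mem_octads hg).mpr O0_mem) O0_mem nd rfl _ hlO
      have : ∀ p ∈ [pt 0, pt 1, pt 2, pt 3, pt 4], g p ∈ g • O0 := by
        intro p hp
        apply mem_smul_iff.mpr
        revert p; decide +kernel
      intro p hp
      simp only [List.mem_cons, List.not_mem_nil, or_false] at hp
      rcases hp with rfl | rfl | rfl | rfl | rfl
      · rw [← g0]; exact this _ (by simp)
      · rw [← g1]; exact this _ (by simp)
      · rw [← g2]; exact this _ (by simp)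
      · rw [← g3]; exact this _ (by simp)
      · rw [← g4]; exact this _ (by simp)
    have hgu : g • u0 = u0 := by
      have e : u0 = (O0 ∩ D0) \ t0 := by decide +kernel
      rw [e, smul_sdiff', smul_inter', hgO, hgd, hgt]
    refine ⟨⟨g, ⟨hg, hgd, by simp⟩, hgt, hgu⟩, ?_⟩
    apply Prod.ext
    · show res t0 K1 K1_t0 _ = σ
      ext1 p
      apply Subtype.ext
      rw [res_apply]
      have hp' : (p : GolayPt) = pt 0 ∨ (p : GolayPt) = pt 1 ∨ (p : GolayPt) = pt 2 := mem_t0.mp p.2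
      rcases hp' with h | h | h
      · have : p = ⟨pt 0, m0⟩ := Subtype.ext h
        rw [this]; exact g0
      · have : p = ⟨pt 1, m1⟩ := Subtype.ext h
        rw [this]; exact g1
      · have : p = ⟨pt 2, m2⟩ := Subtype.ext h
        rw [this]; exact g2
    · show res u0 K1 K1_u0 _ = τ
      have h3 : (g (pt 3)) = τ ⟨pt 3, m3⟩ := g3
      have h4 : (g (pt 4)) = τ ⟨pt 4, m4⟩ := g4
      have h7 : (g (pt 7)) = τ ⟨pt 7, m7⟩ := by
        have e1 : g (pt 7) ∈ u0 := by rw [← hgu]; exact mem_smul_iff.mpr m7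
        obtain ⟨r, hr⟩ := τ.surjective ⟨g (pt 7), e1⟩
        have hr' : (r : GolayPt) = pt 3 ∨ (r : GolayPt) = pt 4 ∨ (r : GolayPt) = pt 7 := mem_u0.mp r.2
        rcases hr' with h | h | h
        · exfalso
          have : r = ⟨pt 3, m3⟩ := Subtype.ext h
          rw [this] at hr
          have h5 : g (pt 3) = g (pt 7) := by rw [h3, hr]
          exact absurd (g.injective h5) (by decide)
        · exfalso
          have : r = ⟨pt 4, m4⟩ := Subtype.ext h
          rw [this] at hr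
          have h5 : g (pt 4) = g (pt 7) := by rw [h4, hr]
          exact absurd (g.injective h5) (by decide)
        · have : r = ⟨pt 7, m7⟩ := Subtype.ext h
          rw [this] at hr
          rw [hr]
      ext1 p
      apply Subtype.ext
      rw [res_apply]
      have hp' : (p : GolayPt) = pt 3 ∨ (p : GolayPt) = pt 4 ∨ (p : GolayPt) = pt 7 := mem_u0.mp p.2
      rcases hp' with h | h | h
      · have : p = ⟨pt 3, m3⟩ := Subtype.ext h
        rw [this]; exact h3
      · have : p = ⟨pt 4, m4⟩ := Subtype.ext h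
        rw [this]; exact h4
      · have : p = ⟨pt 7, m7⟩ := Subtype.ext h
        rw [this]; exact h7
  rw [Nat.card_congr (Equiv.ofBijective φ ⟨hinj, hsurj⟩), Nat.card_prod, Nat.card_perm, Nat.card_perm, Nat.card_eq_fintype_card,
    Nat.card_eq_fintype_card, Fintype.card_coe, Fintype.card_coe]
  have e1 : t0.card = 3 := by decide +kernel
  have e2 : u0.card = 3 := by decide +kernel
  rw [e1, e2]; rfl

theorem t0_ne_u0 : t0 ≠ u0 := by decide +kernel

theorem card_KQ : Nat.card KQ = 432 := by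
  have h1 := card_eq_of_orbit KQ K1 (t0, u0) (↑(Q0.offDiag) : Set (Finset GolayPt × Finset GolayPt)) (fun g => by
    constructor
    · rintro ⟨hg, h1, h2⟩
      have h1' : g • t0 = t0 := h1
      have h2' : g • u0 = u0 := h2
      refine ⟨⟨hg, ?_⟩, ?_⟩
      · apply eq_Q0 ((mem_quartets_smul hg.1 hg.2.1).mpr Q0_mem)
        · rw [← h1']; exact mem_smul_fam.mpr (mem_Q0.mpr (Or.inl rfl))
        · rw [← h2']; exact mem_smul_fam.mpr (mem_Q0.mpr (Or.inr (Or.inl rfl)))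
      · show (g • t0, g • u0) = (t0, u0)
        rw [h1', h2']
    · rintro ⟨hg, h⟩
      have h' : (g • t0, g • u0) = (t0, u0) := h
      rw [Prod.mk.injEq] at h'
      exact ⟨hg.1, h'.1, h'.2⟩) (fun y => by
    rw [Finset.mem_coe, Finset.mem_offDiag]
    constructor
    · rintro ⟨hy1, hy2, hne⟩
      obtain ⟨g, hg, h1, h2, h3, h4⟩ := norm_quartet D0_mem Q0_mem hy1 hy2 hne
      refine ⟨g⁻¹, ⟨⟨inv_mem hg, by rw [inv_smul_eq_iff, h1], by simp⟩, ?_⟩, ?_⟩
      · show g⁻¹ • Q0 = Q0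
        rw [inv_smul_eq_iff, h4]
      · show (g⁻¹ • t0, g⁻¹ • u0) = y
        rw [inv_smul_eq_iff.mpr h2.symm, inv_smul_eq_iff.mpr h3.symm]
    · rintro ⟨g, hg, rfl⟩
      have hgQ : g • Q0 = Q0 := hg.2
      show g • t0 ∈ Q0 ∧ g • u0 ∈ Q0 ∧ g • t0 ≠ g • u0
      rw [← hgQ]
      exact ⟨mem_smul_fam.mpr (mem_Q0.mpr (Or.inl rfl)), mem_smul_fam.mpr (mem_Q0.mpr (Or.inr (Or.inl rfl))), fun h => t0_ne_u0 (smul_left_cancel _ h)⟩)
  rw [card_K1, Set.ncard_coe_finset, Finset.offDiag_card, Q0_card] at h1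
  omega

theorem ncard_quartets_base : (quartets D0).ncard = 220 := by
  have h1 := card_eq_of_orbit (PSd D0 []) KQ Q0 (quartets D0) (fun g => Iff.rfl) (fun y => by
    constructor
    · intro hy
      obtain ⟨g, hg, h1, h2⟩ := quartets_trans D0_mem Q0_mem hy
      exact ⟨g, ⟨hg, h1, by simp⟩, h2⟩
    · rintro ⟨g, hg, rfl⟩
      exact (mem_quartets_smul hg.1 hg.2.1).mpr Q0_mem)
  rw [card_PSd_nil D0_mem, card_KQ] at h1
  omega

end CfsgLib.Golay
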