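import Mathlib
import Cfsg.Agent.Lib.CharClifford
import Cfsg.Agent.Lib.SZ

/-! Averaging characters over a normal subgroup; elements of coprime order in a coset. -/

namespace CfsgLib.St

open CfsgLib.CharBasic CfsgLib.CharInd CfsgLib.CharClifford Cfsg ComplexConjugate
open scoped Classical
set_option linter.style.haveILetI false

variable {P : Type*} [Group P] [Fintype P]

/-- the average of a function over the cosets of a subgroup -/
noncomputable def avg (N : Subgroup P) (f : P → ℂ) (x : P) : ℂ :=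
  (Nat.card N : ℂ)⁻¹ * ∑ u : P, if u ∈ N then f (x * u) else 0

theorem avg_add (N : Subgroup P) (f g : P → ℂ) : avg N (f + g) = avg N f + avg N g := by
  funext x
  have h : ∀ u : P, (if u ∈ N then (f + g) (x * u) else 0) =
      (if u ∈ N then f (x * u) else 0) + (if u ∈ N then g (x * u) else 0) := by
    intro u
    split_ifs <;> simp
  unfold avg
  rw [Finset.sum_congr rfl (fun u _ => h u), Finset.sum_add_distrib, mul_add]
  rfl

theorem avg_smul (N : Subgroup P) (c : ℂ) (f : P → ℂ) : avg N (c • f) = c • avg N f := by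
  funext x
  have h : ∀ u : P, (if u ∈ N then (c • f) (x * u) else 0) = c * (if u ∈ N then f (x * u) else 0) := by
    intro u
    split_ifs <;> simp
  rw [Pi.smul_apply, smul_eq_mul]
  unfold avg
  rw [Finset.sum_congr rfl (fun u _ => h u), ← Finset.mul_sum]
  ring

theorem avg_sum {ι : Type*} (N : Subgroup P) (s : Finset ι) (f : ι → P → ℂ) :
    avg N (∑ i ∈ s, f i) = ∑ i ∈ s, avg N (f i) := by
  classical
  induction s using Finset.induction_on with
  | empty =>
    rw [Finset.sum_empty, Finset.sum_empty]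
    funext x
    unfold avg
    simp
  | insert a s ha ih => rw [Finset.sum_insert ha, Finset.sum_insert ha, avg_add, ih]

theorem avg_irr (N : Subgroup P) [hN : N.Normal] {ψ : P → ℂ} (hψ : IsIrrCharacter P ψ) :
    avg N ψ = ψ ∨ avg N ψ = 0 := by
  obtain ⟨n, ρ, hρ, rfl⟩ := hψ
  obtain ⟨f, hf⟩ : ∃ f : P → ℂ, ∀ x, f x = if x ∈ N then (Nat.card N : ℂ)⁻¹ else 0 := ⟨_, fun _ => rfl⟩
  have hfc : IsClassFunction P f := by
    intro g h
    rw [hf, hf]
    congr 1
    apply propext
    exact ⟨fun h1 => by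
      have := hN.conj_mem _ h1 h⁻¹
      rwa [show h⁻¹ * (h * g * h⁻¹) * h⁻¹⁻¹ = g by group] at this, fun h1 => hN.conj_mem _ h1 h⟩
  obtain ⟨c, hc⟩ : ∃ c : ℂ, ∑ g, f g • ρ g = c • (LinearMap.id : (Fin n → ℂ) →ₗ[ℂ] (Fin n → ℂ)) :=
    ⟨_, sum_smul_of_irreducible hρ hfc⟩
  have hNne : (Nat.card N : ℂ) ≠ 0 := by
    have : 0 < Nat.card N := Nat.card_pos
    exact_mod_cast this.ne'
  have hsum : ∑ g : P, f g = 1 := by
    have h1 : ∑ g : P, f g = ∑ g : P, (Nat.card N : ℂ)⁻¹ * (if g ∈ N then 1 else 0) :=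
      Finset.sum_congr rfl (fun g _ => by rw [hf]; split_ifs <;> simp)
    rw [h1, ← Finset.mul_sum, Finset.sum_boole]
    have h2 : (Finset.univ.filter (fun g : P => g ∈ N)).card = Nat.card N := by
      rw [Nat.card_eq_fintype_card, Fintype.card_subtype]
    rw [h2, inv_mul_cancel₀ hNne]
  -- invariance of the average
  have hinv : ∀ h ∈ N, (∑ g, f g • ρ g) ∘ₗ ρ h = ∑ g, f g • ρ g := by
    intro h hh
    have h1 : (∑ g, f g • ρ g) ∘ₗ ρ h = ∑ g, f g • ρ (g * h) := by
      ext v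
      simp [LinearMap.sum_apply, map_mul]
    rw [h1]
    refine Fintype.sum_equiv (Equiv.mulRight h) _ _ (fun g => ?_)
    simp only [Equiv.coe_mulRight]
    congr 1
    rw [hf, hf]
    congr 1
    apply propext
    exact ⟨fun h2 => N.mul_mem h2 hh, fun h2 => by
      have := N.mul_mem h2 (N.inv_mem hh)
      rwa [mul_inv_cancel_right] at this⟩
  have hid : (∑ g, f g • ρ g) ∘ₗ (∑ g, f g • ρ g) = ∑ g, f g • ρ g := by
    have h1 : ∀ T : (Fin n → ℂ) →ₗ[ℂ] (Fin n → ℂ), T ∘ₗ (∑ h, f h • ρ h) = ∑ h, f h • (T ∘ₗ ρ h) := by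
      intro T
      apply LinearMap.ext
      intro v
      rw [LinearMap.comp_apply, LinearMap.sum_apply, map_sum, LinearMap.sum_apply]
      refine Finset.sum_congr rfl (fun h _ => ?_)
      rw [LinearMap.smul_apply, map_smul, LinearMap.smul_apply, LinearMap.comp_apply]
    rw [h1]
    have h2 : ∀ h : P, f h • ((∑ g, f g • ρ g) ∘ₗ ρ h) = f h • (∑ g, f g • ρ g) := by
      intro h
      by_cases hh : h ∈ N
      · rw [hinv h hh]
      · rw [hf h, if_neg hh, zero_smul, zero_smul]
    rw [Finset.sum_congr rfl (fun h _ => h2 h), ← Finset.sum_smul, hsum, one_smul]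
  have hav : ∀ x, avg N ρ.character x = c * ρ.character x := by
    intro x
    have h1 : ρ x ∘ₗ (∑ g, f g • ρ g) = ∑ g, f g • ρ (x * g) := by
      ext v
      simp [LinearMap.sum_apply, map_mul]
    have h2 : LinearMap.trace ℂ (Fin n → ℂ) (ρ x ∘ₗ (∑ g, f g • ρ g)) = c * ρ.character x := by
      rw [hc]
      have : ρ x ∘ₗ (c • LinearMap.id) = c • ρ x := by ext v; simp
      rw [this, map_smul, smul_eq_mul]
      rfl
    rw [← h2, h1, map_sum]
    unfold avg
    rw [Finset.mul_sum]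
    refine Finset.sum_congr rfl (fun g _ => ?_)
    rw [map_smul, smul_eq_mul, hf]
    by_cases hg : g ∈ N
    · rw [if_pos hg, if_pos hg]; rfl
    · rw [if_neg hg, if_neg hg]; simp
  rw [hc] at hid
  have hne : Nontrivial (Fin n → ℂ) := by
    by_contra h
    rw [not_nontrivial_iff_subsingleton] at h
    have h1 := finrank_ne_zero_of_irreducible hρ
    apply h1
    have h2 : Module.finrank ℂ (Fin n → ℂ) = 0 := Module.finrank_zero_of_subsingleton
    exact_mod_cast h2
  obtain ⟨v, hv⟩ := exists_ne (0 : Fin n → ℂ)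
  have hcc : c * c = c := by
    have h1 := congrArg (fun T : (Fin n → ℂ) →ₗ[ℂ] (Fin n → ℂ) => T v) hid
    simp only [LinearMap.comp_apply, LinearMap.smul_apply, LinearMap.id_apply, map_smul, smul_smul] at h1
    exact smul_left_injective ℂ hv h1
  have hc01 : c = 1 ∨ c = 0 := by
    have : c * (c - 1) = 0 := by rw [mul_sub, hcc, mul_one, sub_self]
    rcases mul_eq_zero.1 this with h | h
    · exact Or.inr h
    · exact Or.inl (sub_eq_zero.1 h)
  rcases hc01 with rfl | rfl
  · left; funext x; rw [hav, one_mul]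
  · right; funext x; rw [hav, zero_mul]; rfl

/-- the average of a character over a normal subgroup is a character -/
theorem avg_isCharacter (N : Subgroup P) [N.Normal] {χ : P → ℂ} (hχ : IsCharacter P χ) :
    IsCharacter P (avg N χ) := by
  obtain ⟨m, rfl⟩ := IsCharacter.exists_nat_coeff hχ
  rw [avg_sum]
  apply IsCharacter.sum
  intro ψ _
  rw [avg_smul]
  rcases avg_irr N ψ.2 with h | h
  · rw [h]; exact IsCharacter.nsmul (irr_isCharacter ψ) _
  · rw [h, smul_zero]; exact isCharacter_zero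

/-- a character of the degree of one of its constituents is equal to it -/
theorem eq_of_inner {χ ψ : P → ℂ} (hψ : IsCharacter P ψ) (hχ : IsIrrCharacter P χ)
    (h : classInner ψ χ ≠ 0) (h1 : ψ 1 = χ 1) : ψ = χ :=
  (constituent_degree_le hψ hχ h).2 (by rw [h1])

end CfsgLib.St

namespace CfsgLib.St

open Pointwise

/-- elements of order prime to `p` in a coset of a normal `p`-subgroup, first form -/
theorem conj_mul_aux {E : Type*} [Group E] [Finite E] {p : ℕ} [hp : Fact p.Prime] (N : Subgroup E) [N.Normal]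
    (hN : IsPGroup p N) {s u : E} (hs : ¬ p ∣ orderOf s) (hu : u ∈ N) (hsu : ¬ p ∣ orderOf (s * u))
    (hE : N ⊔ Subgroup.zpowers s = ⊤) : ∃ v ∈ N, s * u = v * s * v⁻¹ := by
  obtain ⟨k, hk⟩ := IsPGroup.iff_card.1 hN
  have hcop : ∀ t : E, ¬ p ∣ orderOf t → (Nat.card N).Coprime (Nat.card (Subgroup.zpowers t)) := by
    intro t ht
    rw [hk, Nat.card_zpowers]
    exact Nat.Coprime.pow_left k ((Nat.Prime.coprime_iff_not_dvd hp.out).2 ht)
  have hcard : ∀ t : E, ¬ p ∣ orderOf t → N ⊔ Subgroup.zpowers t = ⊤ → Nat.card (Subgroup.zpowers t) = N.index := by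
    intro t ht htop
    rw [← SZ.card_map_mk_of_coprime N _ (hcop t ht)]
    have h1 : (Subgroup.zpowers t).map (QuotientGroup.mk' N) = ⊤ := by
      rw [eq_top_iff, ← Subgroup.map_top_of_surjective (QuotientGroup.mk' N) (QuotientGroup.mk'_surjective N), ← htop,
        Subgroup.map_sup, sup_le_iff]
      refine ⟨?_, le_rfl⟩
      rw [Subgroup.map_le_iff_le_comap]
      intro x hx
      have : QuotientGroup.mk' N x = 1 := (QuotientGroup.eq_one_iff x).2 hx
      rw [Subgroup.mem_comap, this]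
      exact one_mem _
    rw [h1, Subgroup.card_top]
    rfl
  have htop2 : N ⊔ Subgroup.zpowers (s * u) = ⊤ := by
    rw [eq_top_iff, ← hE, sup_le_iff]
    refine ⟨le_sup_left, ?_⟩
    rw [Subgroup.zpowers_le]
    have h1 : s * u * u⁻¹ ∈ N ⊔ Subgroup.zpowers (s * u) :=
      mul_mem (Subgroup.mem_sup_right (Subgroup.mem_zpowers _)) (Subgroup.mem_sup_left (inv_mem hu))
    rwa [mul_inv_cancel_right] at h1
  have hidx : (Nat.card N).Coprime N.index := by
    rw [← hcard s hs hE]
    exact hcop s hs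
  haveI : Group.IsNilpotent N := IsPGroup.isNilpotent hN
  obtain ⟨v, hv, hvs⟩ := SZ.conj_of_solvable_left N hidx inferInstance (Subgroup.zpowers s) (Subgroup.zpowers (s * u))
    (hcard s hs hE) (hcard _ hsu htop2)
  refine ⟨v, hv, ?_⟩
  have h1 : v * s * v⁻¹ ∈ Subgroup.zpowers (s * u) := by
    rw [← hvs]
    exact SZ.conj_mem_conj (Subgroup.mem_zpowers s)
  have h2 : (s * u)⁻¹ * (v * s * v⁻¹) ∈ N ⊓ Subgroup.zpowers (s * u) := by
    refine Subgroup.mem_inf.2 ⟨?_, mul_mem (inv_mem (Subgroup.mem_zpowers _)) h1⟩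
    rw [← QuotientGroup.eq_one_iff]
    have e1 : ((u : E) : E ⧸ N) = 1 := (QuotientGroup.eq_one_iff u).2 hu
    have e2 : ((v : E) : E ⧸ N) = 1 := (QuotientGroup.eq_one_iff v).2 hv
    rw [QuotientGroup.mk_mul, QuotientGroup.mk_inv, QuotientGroup.mk_mul, QuotientGroup.mk_mul, QuotientGroup.mk_mul,
      QuotientGroup.mk_inv, e1, e2]
    simp
  have h3 : N ⊓ Subgroup.zpowers (s * u) = ⊥ := (Subgroup.disjoint_of_coprime_natCard (hcop _ hsu)).eq_bot
  rw [h3] at h2
  exact inv_mul_eq_one.1 h2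

/-- elements of order prime to `p` in a coset of a normalised `p`-subgroup -/
theorem conj_mul {G : Type*} [Group G] [Finite G] {p : ℕ} [hp : Fact p.Prime] {N : Subgroup G}
    (hN : IsPGroup p N) {s u : G} (hsN : s ∈ Subgroup.normalizer (N : Set G)) (hs : ¬ p ∣ orderOf s) (hu : u ∈ N)
    (hsu : ¬ p ∣ orderOf (s * u)) : ∃ v ∈ N, s * u = v * s * v⁻¹ := by
  obtain ⟨E, hE⟩ : ∃ E, E = N ⊔ Subgroup.zpowers s := ⟨_, rfl⟩
  have hNE : N ≤ E := by rw [hE]; exact le_sup_left
  have hsE : s ∈ E := by rw [hE]; exact Subgroup.mem_sup_right (Subgroup.mem_zpowers s)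
  have hEn : E ≤ Subgroup.normalizer (N : Set G) := by
    rw [hE]
    exact sup_le Subgroup.le_normalizer (by rw [Subgroup.zpowers_le]; exact hsN)
  haveI : (N.subgroupOf E).Normal := by
    refine ⟨fun n hn g => ?_⟩
    exact ((Subgroup.mem_normalizer_iff.mp (hEn g.2)) n).mp hn
  obtain ⟨v, hv, h⟩ := conj_mul_aux (E := E) (N.subgroupOf E) (hN.comap_subtype)
    (s := ⟨s, hsE⟩) (u := ⟨u, hNE hu⟩) (by rwa [Subgroup.orderOf_mk]) hu (by
      have : (⟨s, hsE⟩ : E) * ⟨u, hNE hu⟩ = ⟨s * u, mul_mem hsE (hNE hu)⟩ := rfl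
      rw [this, Subgroup.orderOf_mk]; exact hsu) (by
      rw [eq_top_iff]
      rintro ⟨x, hx⟩ _
      have h1 : E ≤ (N.subgroupOf E ⊔ Subgroup.zpowers (⟨s, hsE⟩ : E)).map E.subtype := by
        rw [Subgroup.map_sup, Subgroup.map_subgroupOf_eq_of_le hNE, MonoidHom.map_zpowers, Subgroup.subtype_apply]
        exact hE.le
      obtain ⟨y, hy, he⟩ := h1 hx
      have : y = ⟨x, hx⟩ := Subtype.ext he
      rwa [← this])
  exact ⟨v, hv, congrArg Subtype.val h⟩

end CfsgLib.St
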