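import Mathlib
import Cfsg.Agent.Lib.BNP1

/-! Operators of the generic Hecke algebra on the functions on a Coxeter group. -/

namespace CfsgLib.Hecke

open CfsgLib.BNP
open scoped Classical
set_option linter.style.haveILetI false
set_option linter.unusedSectionVars false

variable {W ι : Type*} [Group W] {σ : ι → W} (H : ExSys σ) {K : Type*} [CommRing K] (t : K)

/-- left multiplication by `T_i` -/
noncomputable def lam (σ : ι → W) (t : K) (i : ι) : (W → K) →ₗ[K] (W → K) where
  toFun f v := if len σ (σ i * v) < len σ v then (t - 1) * f v + f (σ i * v) else t * f (σ i * v)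
  map_add' f g := by
    funext v
    simp only [Pi.add_apply]
    split_ifs <;> ring
  map_smul' c f := by
    funext v
    simp only [Pi.smul_apply, smul_eq_mul, RingHom.id_apply]
    split_ifs <;> ring

/-- right multiplication by `T_i` -/
noncomputable def rho (σ : ι → W) (t : K) (i : ι) : (W → K) →ₗ[K] (W → K) where
  toFun f v := if len σ (v * σ i) < len σ v then (t - 1) * f v + f (v * σ i) else t * f (v * σ i)
  map_add' f g := by
    funext v
    simp only [Pi.add_apply]
    split_ifs <;> ring
  map_smul' c f := by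
    funext v
    simp only [Pi.smul_apply, smul_eq_mul, RingHom.id_apply]
    split_ifs <;> ring

theorem lam_apply (i : ι) (f : W → K) (v : W) : lam σ t i f v =
    if len σ (σ i * v) < len σ v then (t - 1) * f v + f (σ i * v) else t * f (σ i * v) := rfl

theorem rho_apply (i : ι) (f : W → K) (v : W) : rho σ t i f v =
    if len σ (v * σ i) < len σ v then (t - 1) * f v + f (v * σ i) else t * f (v * σ i) := rfl

/-- composition with the inversion -/
def inve : (W → K) →ₗ[K] (W → K) where
  toFun f v := f v⁻¹
  map_add' _ _ := rfl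
  map_smul' _ _ := rfl

theorem inve_apply (f : W → K) (v : W) : inve f v = f v⁻¹ := rfl

theorem inve_inve (f : W → K) : inve (inve f) = f := by
  funext v
  rw [inve_apply, inve_apply, inv_inv]

include H in
theorem inve_lam (i : ι) (f : W → K) : inve (lam σ t i f) = rho σ t i (inve f) := by
  funext v
  rw [inve_apply, lam_apply, rho_apply, inve_apply, inve_apply, mul_inv_rev, H.inv_σ, H.len_inv]
  have h : len σ (σ i * v⁻¹) = len σ (v * σ i) := by
    rw [← H.len_inv, mul_inv_rev, inv_inv, H.inv_σ]
  rw [h]

include H in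
theorem inve_rho (i : ι) (f : W → K) : inve (rho σ t i f) = lam σ t i (inve f) := by
  have h := inve_lam H t i (inve f)
  rw [inve_inve] at h
  rw [← h, inve_inve]

include H in
/-- left and right multiplications commute -/
theorem lam_rho (i j : ι) (f : W → K) : lam σ t i (rho σ t j f) = rho σ t j (lam σ t i f) := by
  funext v
  have e1 : σ i * v * σ j = σ i * (v * σ j) := mul_assoc _ _ _
  have a1 := H.lt_or_gt i v
  have a2 := H.lt_or_gt' j v
  have a3 := H.lt_or_gt' j (σ i * v)
  have a4 := H.lt_or_gt i (v * σ j)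
  rw [e1] at a3
  rw [lam_apply, rho_apply, rho_apply, rho_apply, lam_apply, lam_apply, e1]
  by_cases hx : σ i * v = v * σ j
  · have e2 : σ i * (v * σ j) = v := by rw [← hx, H.σ_mul_σ_mul]
    rw [e2, hx]
  · -- the generic case
    have h1 : (len σ (σ i * v) < len σ v ↔ len σ (σ i * (v * σ j)) < len σ (v * σ j)) ∧
        (len σ (v * σ j) < len σ v ↔ len σ (σ i * (v * σ j)) < len σ (σ i * v)) := by
      rcases a1 with b1 | b1 <;> rcases a2 with b2 | b2
      · have h2 : ¬ len σ (σ i * v * σ j) < len σ v + 2 := fun h => hx (H.fold i j v (by omega) (by omega) h)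
        rw [e1] at h2
        omega
      · omega
      · omega
      · have h2 : ¬ (len σ (σ i * (v * σ j)) = len σ v) := by
          intro h
          apply hx
          have h3 := H.fold i j (σ i * v) (by rw [H.σ_mul_σ_mul]; omega) (by rw [e1]; omega)
            (by rw [H.σ_mul_σ_mul]; omega)
          rw [H.σ_mul_σ_mul] at h3
          calc σ i * v = σ i * v * σ j * σ j := by rw [H.mul_σ_mul_σ]
            _ = v * σ j := by rw [← h3]
        omega
    by_cases hP : len σ (σ i * v) < len σ v <;> by_cases hQ : len σ (v * σ j) < len σ v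
    · rw [if_pos hP, if_pos hQ, if_pos (h1.2.1 hQ), if_pos hQ, if_pos hP, if_pos (h1.1.1 hP)]
      ring
    · rw [if_pos hP, if_neg hQ, if_neg (fun h => hQ (h1.2.2 h)), if_neg hQ, if_pos (h1.1.1 hP)]
      ring
    · rw [if_neg hP, if_pos (h1.2.1 hQ), if_pos hQ, if_neg hP, if_neg (fun h => hP (h1.1.2 h))]
      ring
    · rw [if_neg hP, if_neg (fun h => hQ (h1.2.2 h)), if_neg hQ, if_neg (fun h => hP (h1.1.2 h))]

include H in
/-- the quadratic relation -/
theorem lam_lam (i : ι) (f : W → K) : lam σ t i (lam σ t i f) = (t - 1) • lam σ t i f + t • f := by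
  funext v
  have a1 := H.lt_or_gt i v
  simp only [Pi.add_apply, Pi.smul_apply, smul_eq_mul]
  rw [lam_apply, lam_apply, lam_apply, H.σ_mul_σ_mul]
  rcases a1 with h | h
  · have p1 : ¬ len σ (σ i * v) < len σ v := by omega
    have p2 : len σ v < len σ (σ i * v) := by omega
    simp only [p1, p2, if_true, if_false]
    ring
  · have p1 : len σ (σ i * v) < len σ v := by omega
    have p2 : ¬ len σ v < len σ (σ i * v) := by omega
    simp only [p1, p2, if_true, if_false]

include H in
theorem rho_rho (i : ι) (f : W → K) : rho σ t i (rho σ t i f) = (t - 1) • rho σ t i f + t • f := by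
  have h := lam_lam H t i (inve f)
  have h2 := congrArg inve h
  rw [inve_lam H, inve_lam H, map_add, map_smul, map_smul, inve_lam H, inve_inve] at h2
  exact h2

/-- basis vectors -/
noncomputable def e (w : W) : W → K := Pi.single w 1

theorem e_apply (w v : W) : (e w : W → K) v = if v = w then 1 else 0 := by
  unfold e
  rw [Pi.single_apply]

theorem inve_e (w : W) : inve (e w : W → K) = e w⁻¹ := by
  funext v
  rw [inve_apply, e_apply, e_apply]
  congr 1
  apply propext
  exact ⟨fun h => by rw [← h, inv_inv], fun h => by rw [h, inv_inv]⟩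

include H in
theorem lam_e {i : ι} {w : W} (h : len σ w < len σ (σ i * w)) : lam σ t i (e w) = e (σ i * w) := by
  funext v
  rw [lam_apply, e_apply, e_apply, e_apply]
  have h2 : (σ i * v = w) ↔ v = σ i * w := by
    constructor
    · intro h3; rw [← h3, H.σ_mul_σ_mul]
    · intro h3; rw [h3, H.σ_mul_σ_mul]
  by_cases h3 : v = σ i * w
  · rw [if_pos (h2.2 h3), if_pos h3, h3, H.σ_mul_σ_mul, if_pos h, if_neg (by
      intro h4; rw [h4] at h; omega)]
    ring
  · rw [if_neg (fun h4 => h3 (h2.1 h4)), if_neg h3]
    by_cases h4 : v = w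
    · rw [h4, if_neg (by omega)]
      ring
    · rw [if_neg h4]
      split_ifs <;> ring

include H in
theorem rho_e {i : ι} {w : W} (h : len σ w < len σ (w * σ i)) : rho σ t i (e w) = e (w * σ i) := by
  have h1 : len σ w⁻¹ < len σ (σ i * w⁻¹) := by
    rw [H.len_inv, ← H.len_inv (σ i * w⁻¹), mul_inv_rev, inv_inv, H.inv_σ]
    exact h
  have h2 := congrArg inve (lam_e H t h1)
  rw [inve_lam H, inve_e, inv_inv, inve_e, mul_inv_rev, inv_inv, H.inv_σ] at h2
  exact h2

/-- product of left multiplications -/
noncomputable def lamW (σ : ι → W) (t : K) : List ι → (W → K) →ₗ[K] (W → K)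
  | [] => LinearMap.id
  | i :: l => lam σ t i ∘ₗ lamW σ t l

/-- product of right multiplications -/
noncomputable def rhoW (σ : ι → W) (t : K) : List ι → (W → K) →ₗ[K] (W → K)
  | [] => LinearMap.id
  | i :: l => rhoW σ t l ∘ₗ rho σ t i

include H in
theorem lamW_e {l : List ι} (h : Red σ l) : lamW σ t l (e 1) = e (wd σ l) := by
  induction l with
  | nil => rfl
  | cons i l ih =>
    have h1 := H.Red_tail h
    change lam σ t i (lamW σ t l (e 1)) = _
    rw [ih h1, lam_e H t, wd_cons]
    have h2 : len σ (wd σ (i :: l)) = l.length + 1 := h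
    have h3 : len σ (wd σ l) = l.length := h1
    rw [wd_cons] at h2
    omega

include H in
theorem rhoW_e {l : List ι} {w : W} (h : len σ (w * wd σ l) = len σ w + l.length) : rhoW σ t l (e w) = e (w * wd σ l) := by
  induction l generalizing w with
  | nil => rw [wd_nil, mul_one]; rfl
  | cons i l ih =>
    change rhoW σ t l (rho σ t i (e w)) = _
    rw [wd_cons, ← mul_assoc, List.length_cons] at h
    have h2 := H.len_mul_le (w * σ i) (wd σ l)
    have h3 := len_wd_le (σ := σ) l
    have h4 := H.lt_or_gt' i w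
    rw [rho_e H t (by omega), ih (by omega), wd_cons, mul_assoc]

include H in
theorem lamW_rho (l : List ι) (j : ι) (f : W → K) : lamW σ t l (rho σ t j f) = rho σ t j (lamW σ t l f) := by
  induction l with
  | nil => rfl
  | cons i l ih =>
    change lam σ t i (lamW σ t l (rho σ t j f)) = rho σ t j (lam σ t i (lamW σ t l f))
    rw [ih, lam_rho H]

theorem comm_rhoW {T : (W → K) →ₗ[K] (W → K)} (hT : ∀ j f, T (rho σ t j f) = rho σ t j (T f)) (l : List ι) (f : W → K) :
    T (rhoW σ t l f) = rhoW σ t l (T f) := by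
  induction l generalizing f with
  | nil => rfl
  | cons i l ih =>
    change T (rhoW σ t l (rho σ t i f)) = rhoW σ t l (rho σ t i (T f))
    rw [ih, hT]

include H in
/-- an operator commuting with the right multiplications is determined by its value at the identity -/
theorem eq_of_comm [Finite W] {S T : (W → K) →ₗ[K] (W → K)} (hS : ∀ j f, S (rho σ t j f) = rho σ t j (S f))
    (hT : ∀ j f, T (rho σ t j f) = rho σ t j (T f)) (h : S (e 1) = T (e 1)) : S = T := by
  haveI := Fintype.ofFinite W
  apply LinearMap.pi_ext'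
  intro w
  apply LinearMap.ext_ring
  obtain ⟨l, hl, hw⟩ := H.exists_red w
  have h1 : (e w : W → K) = rhoW σ t l (e 1) := by
    rw [rhoW_e H t, hw, one_mul]
    rw [hw, one_mul, H.len_one, zero_add]
    exact hl.symm
  change S (e w) = T (e w)
  rw [h1, comm_rhoW t hS, comm_rhoW t hT, h]

/-- `T_w` on the left -/
noncomputable def lamE (H : ExSys σ) (t : K) (w : W) : (W → K) →ₗ[K] (W → K) := lamW σ t (H.exists_red w).choose

theorem lamE_e (w : W) : lamE H t w (e 1) = e w := by
  have h := (H.exists_red w).choose_spec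
  unfold lamE
  rw [lamW_e H t, h.2]
  unfold Red
  rw [h.2, h.1]

theorem lamE_rho (w : W) (j : ι) (f : W → K) : lamE H t w (rho σ t j f) = rho σ t j (lamE H t w f) :=
  lamW_rho H t _ j f

theorem lamE_one [Finite W] : lamE H t (1 : W) = LinearMap.id := by
  apply eq_of_comm H t (lamE_rho H t 1) (fun _ _ => rfl)
  rw [lamE_e]; rfl

theorem lamE_mul [Finite W] {i : ι} {w : W} (h : len σ w < len σ (σ i * w)) (f : W → K) :
    lamE H t (σ i * w) f = lam σ t i (lamE H t w f) := by
  have h1 : lamE H t (σ i * w) = lam σ t i ∘ₗ lamE H t w := by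
    apply eq_of_comm H t (lamE_rho H t _)
    · intro j f
      rw [LinearMap.comp_apply, LinearMap.comp_apply, lamE_rho, lam_rho H]
    · rw [LinearMap.comp_apply, lamE_e, lamE_e, lam_e H t h]
  rw [h1]
  rfl

/-- `T_{w⁻¹}` on the right -/
noncomputable def rhoE (H : ExSys σ) (t : K) (w : W) : (W → K) →ₗ[K] (W → K) := inve ∘ₗ lamE H t w ∘ₗ inve

theorem rhoE_apply (w : W) (f : W → K) : rhoE H t w f = inve (lamE H t w (inve f)) := rfl

theorem rhoE_mul [Finite W] {i : ι} {w : W} (h : len σ w < len σ (σ i * w)) (f : W → K) :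
    rhoE H t (σ i * w) f = rho σ t i (rhoE H t w f) := by
  rw [rhoE_apply, lamE_mul H t h, inve_lam H, rhoE_apply]

theorem rhoE_lam (w : W) (j : ι) (f : W → K) : rhoE H t w (lam σ t j f) = lam σ t j (rhoE H t w f) := by
  rw [rhoE_apply, inve_lam H, lamE_rho, inve_rho H, rhoE_apply]

/-- `f ↦ T_w f T_{w⁻¹}` -/
noncomputable def Ph (H : ExSys σ) (t : K) (w : W) : (W → K) →ₗ[K] (W → K) := lamE H t w ∘ₗ rhoE H t w

theorem Ph_apply (w : W) (f : W → K) : Ph H t w f = lamE H t w (rhoE H t w f) := rfl

theorem Ph_mul [Finite W] {i : ι} {w : W} (h : len σ w < len σ (σ i * w)) (f : W → K) :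
    Ph H t (σ i * w) f = lam σ t i (rho σ t i (Ph H t w f)) := by
  rw [Ph_apply, lamE_mul H t h, rhoE_mul H t h, lamE_rho, Ph_apply]

theorem Ph_one [Finite W] (f : W → K) : Ph H t 1 f = f := by
  rw [Ph_apply, rhoE_apply, lamE_one]
  exact inve_inve f

/-- the Casimir operator -/
noncomputable def cas [Fintype W] (H : ExSys σ) (t : K) : (W → K) →ₗ[K] (W → K) :=
  ∑ w : W, t ^ (Finset.univ.sup (len σ) - len σ w) • Ph H t w

theorem cas_apply [Fintype W] (f : W → K) : cas H t f = ∑ w : W, t ^ (Finset.univ.sup (len σ) - len σ w) • Ph H t w f := by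
  unfold cas
  rw [LinearMap.sum_apply]
  rfl

theorem cas_central [Fintype W] (i : ι) (f : W → K) : lam σ t i (cas H t f) = rho σ t i (cas H t f) := by
  rw [← sub_eq_zero, cas_apply, map_sum, map_sum, ← Finset.sum_sub_distrib]
  refine Finset.sum_involution (fun w _ => σ i * w) ?_ ?_ (fun _ _ => Finset.mem_univ _) (fun w _ => H.σ_mul_σ_mul i w)
  · have key : ∀ w : W, len σ w < len σ (σ i * w) →
        (lam σ t i (t ^ (Finset.univ.sup (len σ) - len σ w) • Ph H t w f) -
          rho σ t i (t ^ (Finset.univ.sup (len σ) - len σ w) • Ph H t w f)) +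
        (lam σ t i (t ^ (Finset.univ.sup (len σ) - len σ (σ i * w)) • Ph H t (σ i * w) f) -
          rho σ t i (t ^ (Finset.univ.sup (len σ) - len σ (σ i * w)) • Ph H t (σ i * w) f)) = 0 := by
      intro w h
      have hle : len σ (σ i * w) ≤ Finset.univ.sup (len σ) := Finset.le_sup (f := len σ) (Finset.mem_univ _)
      have h1 := H.lt_or_gt i w
      obtain ⟨m, hm⟩ : ∃ m, m = Finset.univ.sup (len σ) - len σ (σ i * w) := ⟨_, rfl⟩
      have hm' : Finset.univ.sup (len σ) - len σ w = m + 1 := by omega
      rw [hm', ← hm, Ph_mul H t h, map_smul, map_smul, map_smul, map_smul, lam_lam H,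
        ← lam_rho H, rho_rho H]
      simp only [map_add, map_smul, smul_add, smul_smul]
      rw [pow_succ]
      module
    intro w _
    rcases H.lt_or_gt i w with h | h
    · exact key w (by omega)
    · have h2 := key (σ i * w) (by rw [H.σ_mul_σ_mul]; omega)
      rw [H.σ_mul_σ_mul, add_comm] at h2
      exact h2
  · intro w _ _ h
    have := H.len_ne i w
    rw [h] at this
    exact this rfl

end CfsgLib.Hecke
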