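import Mathlib
import Cfsg.Agent.Lib.H2Hk1

/-! The rank of the Casimir operator of a Hecke algebra does not depend on the parameter. -/

namespace CfsgLib.Hecke

open CfsgLib.BNP Polynomial
open scoped Classical
set_option linter.style.haveILetI false
set_option linter.unusedSectionVars false

variable {W ι : Type*} [Group W] {σ : ι → W} (H : ExSys σ) {K : Type*} [CommRing K] (t : K)

theorem comm_lamW {T : (W → K) →ₗ[K] (W → K)} (hT : ∀ j f, T (lam σ t j f) = lam σ t j (T f)) (l : List ι) (f : W → K) :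
    T (lamW σ t l f) = lamW σ t l (T f) := by
  induction l with
  | nil => rfl
  | cons i l ih =>
    change T (lam σ t i (lamW σ t l f)) = lam σ t i (lamW σ t l (T f))
    rw [hT, ih]

include H in
theorem comm_inveW {T : (W → K) →ₗ[K] (W → K)} (hT : ∀ j f, T (rho σ t j f) = rho σ t j (T f)) (l : List ι) (f : W → K) :
    T (inve (lamW σ t l (inve f))) = inve (lamW σ t l (inve (T f))) := by
  induction l with
  | nil =>
    change T (inve (inve f)) = inve (inve (T f))
    rw [inve_inve, inve_inve]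
  | cons i l ih =>
    change T (inve (lam σ t i (lamW σ t l (inve f)))) = inve (lam σ t i (lamW σ t l (inve (T f))))
    rw [inve_lam H, inve_lam H, hT, ih]

theorem comm_Ph {T : (W → K) →ₗ[K] (W → K)} (hT : ∀ j f, T (lam σ t j f) = lam σ t j (T f))
    (hT' : ∀ j f, T (rho σ t j f) = rho σ t j (T f)) (w : W) (f : W → K) : T (Ph H t w f) = Ph H t w (T f) := by
  rw [Ph_apply, Ph_apply, rhoE_apply, rhoE_apply]
  unfold lamE
  rw [comm_lamW t hT, comm_inveW H t hT']

theorem comm_cas [Fintype W] {T : (W → K) →ₗ[K] (W → K)} (hT : ∀ j f, T (lam σ t j f) = lam σ t j (T f))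
    (hT' : ∀ j f, T (rho σ t j f) = rho σ t j (T f)) (f : W → K) : T (cas H t f) = cas H t (T f) := by
  rw [cas_apply, cas_apply, map_sum]
  refine Finset.sum_congr rfl (fun w _ => ?_)
  rw [map_smul, comm_Ph H t hT hT']

/-- if `1` is in the image of the Casimir operator then the image is the centre -/
theorem mem_range_cas [Fintype W] {y : W → K} (hy : cas H t y = e 1) {v : W → K}
    (hv : ∀ i, lam σ t i v = rho σ t i v) : ∃ u, cas H t u = v := by
  obtain ⟨T, hT⟩ : ∃ T : (W → K) →ₗ[K] (W → K), T = ∑ w : W, v w • lamE H t w := ⟨_, rfl⟩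
  have hTa : ∀ f, T f = ∑ w : W, v w • lamE H t w f := by
    intro f
    rw [hT, LinearMap.sum_apply]
    rfl
  have h1 : T (e 1) = v := by
    rw [hTa]
    funext x
    rw [Finset.sum_apply, Finset.sum_eq_single x]
    · rw [lamE_e, Pi.smul_apply, e_apply, if_pos rfl, smul_eq_mul, mul_one]
    · intro w _ hw
      rw [lamE_e, Pi.smul_apply, e_apply, if_neg (fun h => hw h.symm), smul_zero]
    · intro h; exact absurd (Finset.mem_univ _) h
  have hr : ∀ j f, T (rho σ t j f) = rho σ t j (T f) := by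
    intro j f
    rw [hTa, hTa, map_sum]
    refine Finset.sum_congr rfl (fun w _ => ?_)
    rw [lamE_rho, map_smul]
  have hl : ∀ j f, T (lam σ t j f) = lam σ t j (T f) := by
    intro j f
    have h2 : T ∘ₗ lam σ t j = lam σ t j ∘ₗ T := by
      apply eq_of_comm H t
      · intro i f
        rw [LinearMap.comp_apply, LinearMap.comp_apply, lam_rho H, hr]
      · intro i f
        rw [LinearMap.comp_apply, LinearMap.comp_apply, hr, lam_rho H]
      · rw [LinearMap.comp_apply, LinearMap.comp_apply, h1, hv j]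
        have h3 : len σ (1 : W) < len σ (σ j * 1) := by
          rw [mul_one, H.len_one, H.len_σ]; omega
        have h4 : len σ (1 : W) < len σ (1 * σ j) := by
          rw [one_mul, H.len_one, H.len_σ]; omega
        rw [lam_e H t h3, mul_one, show e (σ j) = rho σ t j (e 1) by rw [rho_e H t h4, one_mul], hr, h1]
    exact LinearMap.congr_fun h2 f
  exact ⟨T y, by rw [← comm_cas H t hl hr, hy, h1]⟩

/-- the commutator map -/
noncomputable def cm (σ : ι → W) (t : K) : (W → K) →ₗ[K] (ι × W → K) where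
  toFun f x := lam σ t x.1 f x.2 - rho σ t x.1 f x.2
  map_add' f g := by
    funext x
    simp only [map_add, Pi.add_apply]
    ring
  map_smul' c f := by
    funext x
    simp only [map_smul, Pi.smul_apply, smul_eq_mul, RingHom.id_apply]
    ring

theorem cm_apply (f : W → K) (x : ι × W) : cm σ t f x = lam σ t x.1 f x.2 - rho σ t x.1 f x.2 := rfl

theorem cm_eq_zero {f : W → K} : cm σ t f = 0 ↔ ∀ i, lam σ t i f = rho σ t i f := by
  constructor
  · intro h i
    funext v
    have := congrFun h (i, v)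
    rw [cm_apply] at this
    exact sub_eq_zero.1 this
  · intro h
    funext x
    rw [cm_apply, h x.1, sub_self]
    rfl

theorem cm_cas [Fintype W] (f : W → K) : cm σ t (cas H t f) = 0 :=
  (cm_eq_zero t).2 (fun i => cas_central H t i f)

section nat
variable {K' : Type*} [CommRing K'] (φ : K →+* K')

theorem nat_lam (i : ι) (f : W → K) : φ ∘ (lam σ t i f) = lam σ (φ t) i (φ ∘ f) := by
  funext v
  simp only [Function.comp_apply, lam_apply]
  split_ifs <;> simp

theorem nat_rho (i : ι) (f : W → K) : φ ∘ (rho σ t i f) = rho σ (φ t) i (φ ∘ f) := by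
  funext v
  simp only [Function.comp_apply, rho_apply]
  split_ifs <;> simp

theorem nat_inve (f : W → K) : φ ∘ (inve f) = inve (φ ∘ f) := rfl

theorem nat_lamW (l : List ι) (f : W → K) : φ ∘ (lamW σ t l f) = lamW σ (φ t) l (φ ∘ f) := by
  induction l with
  | nil => rfl
  | cons i l ih =>
    change φ ∘ (lam σ t i (lamW σ t l f)) = lam σ (φ t) i (lamW σ (φ t) l (φ ∘ f))
    rw [nat_lam, ih]

theorem nat_Ph (w : W) (f : W → K) : φ ∘ (Ph H t w f) = Ph H (φ t) w (φ ∘ f) := by
  rw [Ph_apply, Ph_apply, rhoE_apply, rhoE_apply]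
  unfold lamE
  rw [nat_lamW, nat_inve, nat_lamW, nat_inve]

theorem nat_cas [Fintype W] (f : W → K) : φ ∘ (cas H t f) = cas H (φ t) (φ ∘ f) := by
  rw [cas_apply, cas_apply]
  funext v
  rw [Function.comp_apply, Finset.sum_apply, Finset.sum_apply, map_sum]
  refine Finset.sum_congr rfl (fun w _ => ?_)
  rw [Pi.smul_apply, Pi.smul_apply, smul_eq_mul, smul_eq_mul, map_mul, map_pow, ← nat_Ph]
  rfl

theorem nat_cm (f : W → K) : φ ∘ (cm σ t f) = cm σ (φ t) (φ ∘ f) := by
  funext x
  rw [Function.comp_apply, cm_apply, cm_apply, map_sub, ← nat_lam, ← nat_rho]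
  rfl

end nat

section rank

theorem exists_minor {m n : Type*} [Fintype m] [Fintype n] (A : Matrix m n ℂ) :
    ∃ (P : Matrix (Fin A.rank) m ℂ) (Q : Matrix n (Fin A.rank) ℂ), P * A * Q = 1 := by
  obtain ⟨R, hR⟩ : ∃ R, R = LinearMap.range (Matrix.mulVecLin A) := ⟨_, rfl⟩
  have hfr : Module.finrank ℂ R = A.rank := by rw [hR]; rfl
  let b : Module.Basis (Fin A.rank) ℂ R := (Module.finBasis ℂ R).reindex (finCongr hfr)
  have h1 : ∀ i, ∃ x : n → ℂ, A.mulVec x = b i := by
    intro i
    obtain ⟨x, hx⟩ := hR.le (b i).2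
    exact ⟨x, hx⟩
  choose x hx using h1
  have hinj : Function.Injective (R.subtype ∘ₗ (b.equivFun.symm : (Fin A.rank → ℂ) →ₗ[ℂ] R)) := by
    intro a c h
    exact b.equivFun.symm.injective (Subtype.ext h)
  obtain ⟨g, hg⟩ := LinearMap.exists_leftInverse_of_injective _ (LinearMap.ker_eq_bot.2 hinj)
  refine ⟨LinearMap.toMatrix' g, Matrix.of (fun j i => x i j), ?_⟩
  have hQ : ∀ i, (Matrix.of (fun j i => x i j) : Matrix n (Fin A.rank) ℂ).mulVec (Pi.single i 1) = x i := by
    intro i
    funext j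
    rw [Matrix.mulVec_single_one]
    rfl
  rw [← Matrix.toLin'.injective.eq_iff]
  apply LinearMap.pi_ext'
  intro i
  apply LinearMap.ext_ring
  rw [Matrix.toLin'_one]
  simp only [LinearMap.comp_apply, LinearMap.single_apply, LinearMap.id_apply]
  rw [Matrix.toLin'_mul, Matrix.toLin'_mul, LinearMap.comp_apply, LinearMap.comp_apply, Matrix.toLin'_toMatrix',
    Matrix.toLin'_apply, Matrix.toLin'_apply, hQ, hx]
  have h3 := LinearMap.congr_fun hg (Pi.single i 1)
  rw [LinearMap.comp_apply, LinearMap.comp_apply, LinearMap.id_apply] at h3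
  rw [← h3]
  congr 1
  change _ = ((b.equivFun.symm (Pi.single i 1) : R) : m → ℂ)
  have h4 : b.equivFun.symm (Pi.single i 1) = b i := by
    rw [Module.Basis.equivFun_symm_apply]
    rw [Finset.sum_eq_single i]
    · simp
    · intro j _ hj
      rw [Pi.single_eq_of_ne hj, zero_smul]
    · intro h; exact absurd (Finset.mem_univ _) h
  rw [h4]

theorem exists_poly {m n : Type*} [Fintype m] [Fintype n] (A : Matrix m n ℂ[X]) (t0 : ℂ) :
    ∃ d : ℂ[X], d ≠ 0 ∧ ∀ t : ℂ, d.eval t ≠ 0 → (A.map (evalRingHom t0)).rank ≤ (A.map (evalRingHom t)).rank := by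
  obtain ⟨P, Q, h⟩ := exists_minor (A.map (evalRingHom t0))
  have h1 : ∀ t : ℂ, (P.map C * A * Q.map C).map (evalRingHom t) = P * A.map (evalRingHom t) * Q := by
    intro t
    rw [Matrix.map_mul, Matrix.map_mul]
    congr 2
    · ext i j
      rw [Matrix.map_apply, Matrix.map_apply]
      exact eval_C
    · ext i j
      rw [Matrix.map_apply, Matrix.map_apply]
      exact eval_C
  refine ⟨(P.map C * A * Q.map C).det, ?_, ?_⟩
  · intro h0
    have h2 := congrArg (evalRingHom t0) h0
    rw [RingHom.map_det, map_zero] at h2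
    change ((P.map C * A * Q.map C).map (evalRingHom t0)).det = 0 at h2
    rw [h1, h, Matrix.det_one] at h2
    exact one_ne_zero h2
  · intro t ht
    have h2 : (P * A.map (evalRingHom t) * Q).det ≠ 0 := by
      rw [← h1]
      change ((evalRingHom t).mapMatrix (P.map C * A * Q.map C)).det ≠ 0
      rw [← RingHom.map_det]
      exact ht
    have h3 : (P * A.map (evalRingHom t) * Q).rank = (A.map (evalRingHom t0)).rank := by
      rw [Matrix.rank_of_isUnit _ ((Matrix.isUnit_iff_isUnit_det _).2 (isUnit_iff_ne_zero.2 h2)), Fintype.card_fin]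
    rw [← h3]
    exact (Matrix.rank_mul_le_left _ _).trans (Matrix.rank_mul_le_right _ _)

variable [Fintype W] [Fintype ι]

theorem map_cas (t0 : ℂ) : (LinearMap.toMatrix' (cas H (X : ℂ[X]))).map (evalRingHom t0) = LinearMap.toMatrix' (cas H t0) := by
  ext i j
  rw [Matrix.map_apply, LinearMap.toMatrix'_apply, LinearMap.toMatrix'_apply]
  have h1 := congrFun (nat_cas H (X : ℂ[X]) (evalRingHom t0) (Pi.single j 1)) i
  rw [Function.comp_apply] at h1
  rw [h1]
  have h2 : (evalRingHom t0) (X : ℂ[X]) = t0 := by simp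
  have h3 : (evalRingHom t0) ∘ (Pi.single j 1 : W → ℂ[X]) = Pi.single j 1 := by
    funext k
    rw [Function.comp_apply, Pi.single_apply, Pi.single_apply]
    split_ifs <;> simp
  rw [h2, h3]

theorem map_cm (t0 : ℂ) : (LinearMap.toMatrix' (cm σ (X : ℂ[X]))).map (evalRingHom t0) = LinearMap.toMatrix' (cm σ t0) := by
  ext i j
  rw [Matrix.map_apply, LinearMap.toMatrix'_apply, LinearMap.toMatrix'_apply]
  have h1 := congrFun (nat_cm (σ := σ) (X : ℂ[X]) (evalRingHom t0) (Pi.single j 1)) i
  rw [Function.comp_apply] at h1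
  rw [h1]
  have h2 : (evalRingHom t0) (X : ℂ[X]) = t0 := by simp
  have h3 : (evalRingHom t0) ∘ (Pi.single j 1 : W → ℂ[X]) = Pi.single j 1 := by
    funext k
    rw [Function.comp_apply, Pi.single_apply, Pi.single_apply]
    split_ifs <;> simp
  rw [h2, h3]

theorem rank_toMatrix' {m n : Type*} [Fintype m] [Fintype n] (f : (n → ℂ) →ₗ[ℂ] (m → ℂ)) :
    (LinearMap.toMatrix' f).rank = Module.finrank ℂ (LinearMap.range f) := by
  have h : Matrix.mulVecLin (LinearMap.toMatrix' f) = f := by
    apply LinearMap.ext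
    intro x
    rw [Matrix.mulVecLin_apply, LinearMap.toMatrix'_mulVec]
  unfold Matrix.rank
  rw [h]

/-- the rank of the Casimir operator is the same at all separable parameters -/
theorem rank_cas {t0 t1 : ℂ} (h0 : ∃ y, cas H t0 y = e 1) (h1 : ∃ y, cas H t1 y = e 1) :
    Module.finrank ℂ (LinearMap.range (cas H t0)) = Module.finrank ℂ (LinearMap.range (cas H t1)) := by
  have hle : ∀ t : ℂ, Module.finrank ℂ (LinearMap.range (cas H t)) + Module.finrank ℂ (LinearMap.range (cm σ t)) ≤
      Fintype.card W := by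
    intro t
    have h2 := LinearMap.finrank_range_add_finrank_ker (cm σ t)
    rw [Module.finrank_fintype_fun_eq_card] at h2
    have h3 : Module.finrank ℂ (LinearMap.range (cas H t)) ≤ Module.finrank ℂ (LinearMap.ker (cm σ t)) := by
      apply Submodule.finrank_mono
      rintro _ ⟨f, rfl⟩
      exact cm_cas H t f
    omega
  have heq : ∀ t : ℂ, (∃ y, cas H t y = e 1) →
      Module.finrank ℂ (LinearMap.range (cas H t)) + Module.finrank ℂ (LinearMap.range (cm σ t)) = Fintype.card W := by
    rintro t ⟨y, hy⟩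
    have h2 := LinearMap.finrank_range_add_finrank_ker (cm σ t)
    rw [Module.finrank_fintype_fun_eq_card] at h2
    have h3 : LinearMap.ker (cm σ t) = LinearMap.range (cas H t) := by
      apply le_antisymm
      · intro v hv
        obtain ⟨u, hu⟩ := mem_range_cas H t hy ((cm_eq_zero t).1 hv)
        exact ⟨u, hu⟩
      · rintro _ ⟨f, rfl⟩
        exact cm_cas H t f
    rw [h3] at h2
    omega
  obtain ⟨d1, hd1, e1⟩ := exists_poly (LinearMap.toMatrix' (cas H (X : ℂ[X]))) t0
  obtain ⟨d2, hd2, e2⟩ := exists_poly (LinearMap.toMatrix' (cas H (X : ℂ[X]))) t1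
  obtain ⟨d3, hd3, e3⟩ := exists_poly (LinearMap.toMatrix' (cm σ (X : ℂ[X]))) t0
  obtain ⟨d4, hd4, e4⟩ := exists_poly (LinearMap.toMatrix' (cm σ (X : ℂ[X]))) t1
  have hd : d1 * d2 * d3 * d4 ≠ 0 := mul_ne_zero (mul_ne_zero (mul_ne_zero hd1 hd2) hd3) hd4
  obtain ⟨t, ht⟩ : ∃ t : ℂ, (d1 * d2 * d3 * d4).eval t ≠ 0 := by
    by_contra hcon
    push Not at hcon
    apply hd
    apply Polynomial.funext
    intro r
    rw [hcon r, eval_zero]
  rw [eval_mul, eval_mul, eval_mul] at ht
  have g4 := right_ne_zero_of_mul ht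
  have g3 := right_ne_zero_of_mul (left_ne_zero_of_mul ht)
  have g2 := right_ne_zero_of_mul (left_ne_zero_of_mul (left_ne_zero_of_mul ht))
  have g1 := left_ne_zero_of_mul (left_ne_zero_of_mul (left_ne_zero_of_mul ht))
  have f1 := e1 t g1
  have f2 := e2 t g2
  have f3 := e3 t g3
  have f4 := e4 t g4
  simp only [map_cas, map_cm, rank_toMatrix'] at f1 f2 f3 f4
  have k := hle t
  have k0 := heq t0 h0
  have k1 := heq t1 h1
  omega

end rank

end CfsgLib.Hecke
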