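import Mathlib
import Cfsg.Agent.Lib.BNP6

/-! Alternating sums over standard parabolic subgroups in a group with a Bruhat decomposition. -/

namespace CfsgLib.St

open CfsgLib.BNP

/-- a group with a Bruhat decomposition and a family of standard parabolic subgroups -/
structure BD (G W ι : Type*) [Group G] [Group W] where
  B : Subgroup G
  C : W → Set G
  σ : ι → W
  ex : ExSys σ
  C_one : C 1 = (B : Set G)
  cover : ∀ g, ∃ w, g ∈ C w
  uniq : ∀ {w w' : W} {g : G}, g ∈ C w → g ∈ C w' → w = w'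
  inv : ∀ {w : W} {g : G}, g ∈ C w → g⁻¹ ∈ C w⁻¹
  trans : ∀ {w : W} {g h : G}, g ∈ C w → h ∈ C w → ∃ b ∈ B, ∃ b' ∈ B, h = b * g * b'
  mulR : ∀ {w : W} {g b : G}, b ∈ B → g ∈ C w → g * b ∈ C w
  mulL : ∀ {w : W} {g b : G}, b ∈ B → g ∈ C w → b * g ∈ C w
  dec : ∀ {w w' : W} {g : G}, g ∈ C (w * w') → ∃ x ∈ C w, ∃ y ∈ C w', g = x * y
  step : ∀ {w : W} {i : ι} {x y : G}, x ∈ C w → y ∈ C (σ i) → x * y ∈ C (w * σ i) ∨ x * y ∈ C w
  mul : ∀ {w : W} {i : ι} {x y : G}, len σ w ≤ len σ (w * σ i) → x ∈ C w → y ∈ C (σ i) →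
    x * y ∈ C (w * σ i)
  nonempty : ∀ w, (C w).Nonempty
  parG : Set ι → Subgroup G
  mem_parG : ∀ {K : Set ι} {w : W} {g : G}, g ∈ C w → (g ∈ parG K ↔ w ∈ par σ K)

namespace BD

variable {G W ι : Type*} [Group G] [Group W] (S : BD G W ι)

/-- `d` has no right descents in `K` -/
def RMin (K : Set ι) (d : W) : Prop := ∀ k ∈ K, len S.σ d < len S.σ (d * S.σ k)

/-- `d` has no left descents in `K` -/
def LMin (K : Set ι) (d : W) : Prop := ∀ k ∈ K, len S.σ d < len S.σ (S.σ k * d)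

/-- the Weyl group element of the double coset of `g` -/
noncomputable def wt (g : G) : W := (S.cover g).choose

theorem mem_C_wt (g : G) : g ∈ S.C (S.wt g) := (S.cover g).choose_spec

theorem mem_C_iff {w : W} {g : G} : g ∈ S.C w ↔ S.wt g = w :=
  ⟨fun h => S.uniq (S.mem_C_wt g) h, fun h => h ▸ S.mem_C_wt g⟩

theorem mem_parG_iff {K : Set ι} {g : G} : g ∈ S.parG K ↔ S.wt g ∈ par S.σ K := S.mem_parG (S.mem_C_wt g)

theorem mem_B_iff {g : G} : g ∈ S.B ↔ S.wt g = 1 := by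
  rw [← S.mem_C_iff, S.C_one]; rfl

theorem wt_mulR {g b : G} (hb : b ∈ S.B) : S.wt (g * b) = S.wt g :=
  S.mem_C_iff.1 (S.mulR hb (S.mem_C_wt g))

theorem wt_mulL {g b : G} (hb : b ∈ S.B) : S.wt (b * g) = S.wt g :=
  S.mem_C_iff.1 (S.mulL hb (S.mem_C_wt g))

theorem wt_inv (g : G) : S.wt g⁻¹ = (S.wt g)⁻¹ := S.mem_C_iff.1 (S.inv (S.mem_C_wt g))

theorem B_le_parG (K : Set ι) : S.B ≤ S.parG K := by
  intro b hb
  rw [S.mem_parG_iff, S.mem_B_iff.1 hb]
  exact one_mem _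

theorem parG_mono {K L : Set ι} (h : K ⊆ L) : S.parG K ≤ S.parG L := by
  intro b hb
  rw [S.mem_parG_iff] at hb ⊢
  exact par_mono h hb

theorem parG_empty : S.parG ∅ = S.B := by
  ext g
  rw [S.mem_parG_iff, S.mem_B_iff]
  constructor
  · intro h
    obtain ⟨l, h1, h2⟩ := S.ex.toInvSys.exists_word_of_mem_par h
    cases l with
    | nil => rw [← h2]; rfl
    | cons i l => exact absurd (h1 i (by simp)) (by simp)
  · intro h; rw [h]; exact one_mem _

theorem parG_univ : S.parG Set.univ = ⊤ := by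
  rw [eq_top_iff]
  intro g _
  rw [S.mem_parG_iff]
  obtain ⟨l, hl⟩ := S.ex.gen (S.wt g)
  rw [← hl]
  exact wd_mem_par (fun _ _ => trivial)

theorem mul_of_len {w u : W} (h : len S.σ (w * u) = len S.σ w + len S.σ u) {x y : G}
    (hx : x ∈ S.C w) (hy : y ∈ S.C u) : x * y ∈ S.C (w * u) := by
  obtain ⟨n, hn⟩ : ∃ n, n = len S.σ u := ⟨_, rfl⟩
  induction n generalizing u y with
  | zero =>
    have hu : u = 1 := S.ex.len_eq_zero.1 hn.symm
    subst hu
    rw [S.C_one] at hy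
    rw [mul_one]
    exact S.mulR hy hx
  | succ n ih =>
    have hu : u ≠ 1 := by
      rintro rfl
      rw [S.ex.len_one] at hn
      omega
    obtain ⟨i, hi⟩ := S.ex.exists_right hu
    obtain ⟨v, hv⟩ : ∃ v, v = u * S.σ i := ⟨_, rfl⟩
    have hu' : u = v * S.σ i := by rw [hv, S.ex.mul_σ_mul_σ]
    rw [← hv] at hi
    rw [hu'] at hy
    obtain ⟨y1, hy1, y2, hy2, rfl⟩ := S.dec hy
    have h1 : len S.σ (w * u) ≤ len S.σ (w * v) + 1 := by
      rw [hu', ← mul_assoc]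
      exact S.ex.len_mul_σ_le i _
    have h2 := S.ex.len_mul_le w v
    have h3 := ih (u := v) (by omega) hy1 (by omega)
    rw [← mul_assoc, hu', ← mul_assoc]
    refine S.mul ?_ h3 hy2
    rw [mul_assoc, ← hu']
    omega

theorem wt_mul_of_len {x y : G} (h : len S.σ (S.wt x * S.wt y) = len S.σ (S.wt x) + len S.σ (S.wt y)) :
    S.wt (x * y) = S.wt x * S.wt y :=
  S.mem_C_iff.1 (S.mul_of_len h (S.mem_C_wt x) (S.mem_C_wt y))

/-- right multiplication by an element of `P_K` changes the Weyl element inside its coset of `W_K` -/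
theorem wt_mul_par {K : Set ι} {x y : G} (hy : y ∈ S.parG K) :
    ∃ v ∈ par S.σ K, S.wt (x * y) = S.wt x * v := by
  rw [S.mem_parG_iff] at hy
  obtain ⟨l, h1, h2⟩ := S.ex.toInvSys.exists_word_of_mem_par hy
  have key : ∀ (l : List ι) (y : G), (∀ i ∈ l, i ∈ K) → wd S.σ l = S.wt y →
      ∃ v ∈ par S.σ K, S.wt (x * y) = S.wt x * v := by
    intro l
    induction l using List.reverseRecOn with
    | nil =>
      intro y _ h
      rw [wd_nil] at h
      exact ⟨1, one_mem _, by rw [S.wt_mulR (S.mem_B_iff.2 h.symm), mul_one]⟩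
    | append_singleton l i ih =>
      intro y hl h
      have hy := S.mem_C_wt y
      rw [← h, wd_concat] at hy
      obtain ⟨y1, hy1, y2, hy2, rfl⟩ := S.dec hy
      obtain ⟨v, hv, h3⟩ := ih y1 (fun j hj => hl j (by simp [hj])) (S.mem_C_iff.1 hy1).symm
      rcases S.step (S.mem_C_wt (x * y1)) hy2 with h4 | h4
      · refine ⟨v * S.σ i, mul_mem hv (σ_mem_par (hl i (by simp))), ?_⟩
        rw [← mul_assoc, S.mem_C_iff.1 h4, h3, mul_assoc]
      · exact ⟨v, hv, by rw [← mul_assoc, S.mem_C_iff.1 h4, h3]⟩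
  exact key l y h1 h2

theorem wt_par_mul {K : Set ι} {x y : G} (hy : y ∈ S.parG K) :
    ∃ v ∈ par S.σ K, S.wt (y * x) = v * S.wt x := by
  obtain ⟨v, hv, h⟩ := S.wt_mul_par (x := x⁻¹) (inv_mem hy)
  rw [← mul_inv_rev, S.wt_inv, S.wt_inv] at h
  refine ⟨v⁻¹, inv_mem hv, ?_⟩
  rw [← inv_inj, h, mul_inv_rev, inv_inv]

/-- a minimal coset representative `d` -/
theorem wt_mul_RMin {K : Set ι} {x y : G} (hx : S.RMin K (S.wt x)) (hy : y ∈ S.parG K) :
    S.wt (x * y) = S.wt x * S.wt y := by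
  rw [S.mem_parG_iff] at hy
  exact S.wt_mul_of_len (S.ex.len_mul_of_localMin hx hy)

theorem exists_RMin (K : Set ι) (g : G) : ∃ t, S.RMin K (S.wt t) ∧ t⁻¹ * g ∈ S.parG K := by
  obtain ⟨d, u, hu, h1, h2⟩ := S.ex.exists_globalMin K (S.wt g)
  have hg := S.mem_C_wt g
  rw [h1] at hg
  obtain ⟨x, hx, y, hy, rfl⟩ := S.dec hg
  refine ⟨x, ?_, ?_⟩
  · rw [S.mem_C_iff.1 hx]
    exact S.ex.localMin_of_globalMin h2
  · rw [inv_mul_cancel_left, S.mem_parG hy]
    exact hu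

theorem RMin_unique {K : Set ι} {t t' : G} (ht : S.RMin K (S.wt t)) (ht' : S.RMin K (S.wt t'))
    (h : t⁻¹ * t' ∈ S.parG K) : t⁻¹ * t' ∈ S.B := by
  have h1 := S.wt_mul_RMin ht h
  rw [mul_inv_cancel_left] at h1
  have h2 : S.wt t = S.wt t' := by
    apply S.ex.localMin_unique ht ht'
    rw [h1, inv_mul_cancel_left]
    exact S.mem_parG_iff.1 h
  rw [S.mem_B_iff]
  rw [h2] at h1
  simpa using h1

/-- for `b ∈ B` and `t` minimal in its coset, `t⁻¹ b t ∈ P_K` forces `t⁻¹ b t ∈ B` -/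
theorem conj_mem_B {K : Set ι} {t b : G} (ht : S.RMin K (S.wt t)) (hb : b ∈ S.B)
    (h : t⁻¹ * b * t ∈ S.parG K) : t⁻¹ * b * t ∈ S.B := by
  have h1 : t⁻¹ * (b * t) ∈ S.parG K := by rwa [← mul_assoc]
  rw [mul_assoc]
  refine S.RMin_unique ht ?_ h1
  rwa [S.wt_mulL hb]

/-- `d` with no left descents in `K` and no right descents in `L` is unique in `W_K d W_L` -/
theorem bimin_exists (K L : Set ι) (w : W) :
    ∃ u ∈ par S.σ K, ∃ v ∈ par S.σ L, (S.LMin K (u * w * v) ∧ S.RMin L (u * w * v)) ∧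
      ∀ u' ∈ par S.σ K, ∀ v' ∈ par S.σ L, len S.σ (u * w * v) ≤ len S.σ (u' * w * v') := by
  classical
  have hex : ∃ n, ∃ u ∈ par S.σ K, ∃ v ∈ par S.σ L, len S.σ (u * w * v) = n :=
    ⟨_, 1, one_mem _, 1, one_mem _, rfl⟩
  obtain ⟨u, hu, v, hv, hn⟩ := Nat.find_spec hex
  have hmin : ∀ u' ∈ par S.σ K, ∀ v' ∈ par S.σ L, len S.σ (u * w * v) ≤ len S.σ (u' * w * v') := by
    intro u' hu' v' hv'
    rw [hn]
    exact Nat.find_min' hex ⟨u', hu', v', hv', rfl⟩
  refine ⟨u, hu, v, hv, ⟨?_, ?_⟩, hmin⟩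
  · intro k hk
    have h1 := hmin (S.σ k * u) (mul_mem (σ_mem_par hk) hu) v hv
    have h2 := S.ex.len_ne k (u * w * v)
    rw [show S.σ k * u * w * v = S.σ k * (u * w * v) by group] at h1
    omega
  · intro k hk
    have h1 := hmin u hu (v * S.σ k) (mul_mem hv (σ_mem_par hk))
    have h2 := S.ex.len_ne' k (u * w * v)
    rw [← mul_assoc] at h1
    omega

theorem bimin_unique_aux {K L : Set ι} {m d : W}
    (hm : ∀ u' ∈ par S.σ K, ∀ v' ∈ par S.σ L, len S.σ m ≤ len S.σ (u' * m * v'))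
    (hd1 : S.LMin K d) (hd2 : S.RMin L d) {u v : W} (hu : u ∈ par S.σ K) (hv : v ∈ par S.σ L)
    (h : d = u * m * v) : d = m := by
  obtain ⟨lu, a1, a2, rfl⟩ := S.ex.mem_par_iff.1 hu
  obtain ⟨lv, b1, b2, rfl⟩ := S.ex.mem_par_iff.1 hv
  obtain ⟨lm, m1, rfl⟩ := S.ex.exists_Red m
  obtain ⟨l', c1, c2, c3⟩ := S.ex.exists_sublist_red (lu ++ (lm ++ lv))
  obtain ⟨a, r, rfl, ha, hr⟩ := List.sublist_append_iff.1 c1
  obtain ⟨b, c, rfl, hb, hc⟩ := List.sublist_append_iff.1 hr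
  have haK : ∀ i ∈ a, i ∈ K := fun i hi => a1 i (ha.subset hi)
  have hcL : ∀ i ∈ c, i ∈ L := fun i hi => b1 i (hc.subset hi)
  rw [wd_append, wd_append, wd_append, wd_append] at c3
  have e : wd S.σ b = ((wd S.σ a)⁻¹ * wd S.σ lu) * wd S.σ lm * (wd S.σ lv * (wd S.σ c)⁻¹) := by
    have : wd S.σ a * (wd S.σ b * wd S.σ c) = wd S.σ lu * (wd S.σ lm * wd S.σ lv) := c3
    calc wd S.σ b = (wd S.σ a)⁻¹ * (wd S.σ a * (wd S.σ b * wd S.σ c)) * (wd S.σ c)⁻¹ := by group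
      _ = _ := by rw [this]; group
  have h1 := hm ((wd S.σ a)⁻¹ * wd S.σ lu) (mul_mem (inv_mem (wd_mem_par haK)) hu)
    (wd S.σ lv * (wd S.σ c)⁻¹) (mul_mem hv (inv_mem (wd_mem_par hcL)))
  rw [← e] at h1
  have h2 : len S.σ (wd S.σ b) ≤ b.length := len_wd_le b
  have h3 : b = lm := hb.eq_of_length (le_antisymm hb.length_le (by
    have : len S.σ (wd S.σ lm) = lm.length := m1
    omega))
  subst h3
  have hd : d = wd S.σ (a ++ (b ++ c)) := by
    rw [h, wd_append, wd_append]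
    rw [← mul_assoc] at c3
    rw [mul_assoc, ← c3, mul_assoc]
  have ha0 : a = [] := by
    rcases a with _ | ⟨i, a⟩
    · rfl
    · exfalso
      have h4 := hd1 i (haK i (by simp))
      have h5 : S.σ i * d = wd S.σ (a ++ (b ++ c)) := by
        rw [hd, List.cons_append, wd_cons, ← mul_assoc, S.ex.sq, one_mul]
      rw [h5, hd] at h4
      have h6 : len S.σ (wd S.σ (i :: a ++ (b ++ c))) = (i :: a ++ (b ++ c)).length := c2
      have h7 : len S.σ (wd S.σ (a ++ (b ++ c))) ≤ (a ++ (b ++ c)).length := len_wd_le _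
      rw [h6] at h4
      simp at h4 h7
      omega
  subst ha0
  have hc0 : c = [] := by
    rcases List.eq_nil_or_concat c with rfl | ⟨c', i, rfl⟩
    · rfl
    · exfalso
      have h4 := hd2 i (hcL i (by simp))
      have h5 : d * S.σ i = wd S.σ (b ++ c') := by
        rw [hd, List.nil_append, List.concat_eq_append, ← List.append_assoc, wd_concat, S.ex.mul_σ_mul_σ]
      rw [h5, hd] at h4
      have h6 : len S.σ (wd S.σ ([] ++ (b ++ c'.concat i))) = ([] ++ (b ++ c'.concat i)).length := c2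
      have h7 : len S.σ (wd S.σ (b ++ c')) ≤ (b ++ c').length := len_wd_le _
      rw [h6] at h4
      simp at h4 h7
      omega
  subst hc0
  rw [hd]
  simp

theorem bimin_unique {K L : Set ι} {d d' : W} (hd1 : S.LMin K d) (hd2 : S.RMin L d)
    (hd1' : S.LMin K d') (hd2' : S.RMin L d') {u v : W} (hu : u ∈ par S.σ K) (hv : v ∈ par S.σ L)
    (h : d' = u * d * v) : d = d' := by
  obtain ⟨a, ha, b, hb, ⟨h1, h2⟩, h3⟩ := S.bimin_exists K L d
  have hm : ∀ u' ∈ par S.σ K, ∀ v' ∈ par S.σ L, len S.σ (a * d * b) ≤ len S.σ (u' * (a * d * b) * v') := by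
    intro u' hu' v' hv'
    have := h3 (u' * a) (mul_mem hu' ha) (b * v') (mul_mem hb hv')
    rwa [show u' * a * d * (b * v') = u' * (a * d * b) * v' by group] at this
  have e1 := S.bimin_unique_aux hm hd1 hd2 (inv_mem ha) (inv_mem hb) (by group)
  have e2 := S.bimin_unique_aux hm hd1' hd2' (mul_mem hu (inv_mem ha)) (mul_mem (inv_mem hb) hv)
    (by rw [h]; group)
  rw [e2, ← e1]

end BD

end CfsgLib.St
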