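import Mathlib
import Cfsg.Agent.Lib.H2St1

/-! Alternating sums over standard parabolic subgroups: the restriction to `B` and inner products. -/

namespace CfsgLib.St

open CfsgLib.BNP
open scoped Classical

namespace BD

variable {G W ι : Type*} [Group G] [Group W] [Fintype G] (S : BD G W ι)

/-- the number of `g ∈ P_J` with `x ∈ g P_K g⁻¹` -/
noncomputable def nn (J K : Set ι) (x : G) : ℂ :=
  ∑ g : G, if g ∈ S.parG J ∧ g⁻¹ * x * g ∈ S.parG K then 1 else 0

/-- the alternating sum over the subsets of `J` -/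
noncomputable def st (J : Finset ι) (x : G) : ℂ :=
  ∑ K ∈ J.powerset, (-1 : ℂ) ^ K.card * ((Nat.card (S.parG ↑K) : ℂ)⁻¹ * S.nn ↑J ↑K x)

/-- an element of `W_J` without right ascents in `J` -/
def Mx (J : Set ι) (z : W) : Prop := z ∈ par S.σ J ∧ ∀ k ∈ J, len S.σ (z * S.σ k) < len S.σ z

theorem card_ne {H : Subgroup G} : (Nat.card H : ℂ) ≠ 0 := by
  have : 0 < Nat.card H := Nat.card_pos
  exact_mod_cast this.ne'

theorem sum_mem (H : Subgroup G) : (∑ g : G, if g ∈ H then (1 : ℂ) else 0) = Nat.card H := by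
  rw [Finset.sum_boole, Nat.card_eq_fintype_card]
  congr 1
  rw [Fintype.card_subtype]

theorem sum_mem_left (H : Subgroup G) (a : G) : (∑ g : G, if a * g ∈ H then (1 : ℂ) else 0) = Nat.card H := by
  rw [← sum_mem H]
  exact Fintype.sum_equiv (Equiv.mulLeft a) _ _ (fun g => rfl)

/-- the number of minimal elements in a coset of `P_K` -/
theorem count_RMin (K : Set ι) (g : G) :
    (∑ t : G, if S.RMin K (S.wt t) ∧ t⁻¹ * g ∈ S.parG K then (1 : ℂ) else 0) = Nat.card S.B := by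
  obtain ⟨t0, h0, h1⟩ := S.exists_RMin K g
  rw [← sum_mem_left S.B t0⁻¹]
  refine Finset.sum_congr rfl (fun t _ => ?_)
  congr 1
  apply propext
  constructor
  · rintro ⟨h2, h3⟩
    apply S.RMin_unique h0 h2
    have := mul_mem h1 (inv_mem h3)
    rwa [show t0⁻¹ * g * (t⁻¹ * g)⁻¹ = t0⁻¹ * t by group] at this
  · intro h2
    have h3 : t = t0 * (t0⁻¹ * t) := by group
    constructor
    · rw [h3, S.wt_mulR h2]; exact h0
    · have := mul_mem (S.B_le_parG K (inv_mem h2)) h1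
      rwa [show (t0⁻¹ * t)⁻¹ * (t0⁻¹ * g) = t⁻¹ * g by group] at this

theorem sum_RMin {J K : Set ι} (hKJ : K ⊆ J) (f : G → ℂ) (hf : ∀ g p, p ∈ S.parG K → f (g * p) = f g) :
    (Nat.card S.B : ℂ) * ∑ g : G, (if g ∈ S.parG J then f g else 0) =
      Nat.card (S.parG K) * ∑ g : G, (if g ∈ S.parG J ∧ S.RMin K (S.wt g) then f g else 0) := by
  have hPK := S.parG_mono hKJ
  have h1 : ∀ t : G, (Nat.card (S.parG K) : ℂ) * (if t ∈ S.parG J ∧ S.RMin K (S.wt t) then f t else 0) =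
      ∑ g : G, (if t ∈ S.parG J ∧ S.RMin K (S.wt t) ∧ t⁻¹ * g ∈ S.parG K then f g else 0) := by
    intro t
    by_cases ht : t ∈ S.parG J ∧ S.RMin K (S.wt t)
    · rw [if_pos ht, ← sum_mem_left (S.parG K) t⁻¹, Finset.sum_mul]
      refine Finset.sum_congr rfl (fun g _ => ?_)
      by_cases hg : t⁻¹ * g ∈ S.parG K
      · rw [if_pos hg, if_pos ⟨ht.1, ht.2, hg⟩, one_mul]
        have := hf t _ hg
        rw [mul_inv_cancel_left] at this
        exact this.symm
      · rw [if_neg hg, if_neg (fun h => hg h.2.2), zero_mul]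
    · rw [if_neg ht, mul_zero]
      refine (Finset.sum_eq_zero (fun g _ => ?_)).symm
      rw [if_neg (fun h => ht ⟨h.1, h.2.1⟩)]
  rw [Finset.mul_sum, Finset.mul_sum, Finset.sum_congr rfl (fun t _ => h1 t), Finset.sum_comm]
  refine Finset.sum_congr rfl (fun g _ => ?_)
  by_cases hg : g ∈ S.parG J
  · rw [if_pos hg, ← S.count_RMin K g, Finset.sum_mul]
    refine Finset.sum_congr rfl (fun t _ => ?_)
    by_cases h : S.RMin K (S.wt t) ∧ t⁻¹ * g ∈ S.parG K
    · have := mul_mem hg (inv_mem (hPK h.2))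
      rw [show g * (t⁻¹ * g)⁻¹ = t by group] at this
      rw [if_pos h, if_pos ⟨this, h⟩, one_mul]
    · rw [if_neg h, if_neg (fun h' => h h'.2), zero_mul]
  · rw [if_neg hg, mul_zero]
    refine (Finset.sum_eq_zero (fun t _ => ?_)).symm
    rw [if_neg]
    rintro ⟨h1, _, h3⟩
    apply hg
    have := mul_mem h1 (hPK h3)
    rwa [mul_inv_cancel_left] at this

theorem nn_B {J K : Set ι} (hKJ : K ⊆ J) {b : G} (hb : b ∈ S.B) :
    (Nat.card (S.parG K) : ℂ)⁻¹ * S.nn J K b = (Nat.card S.B : ℂ)⁻¹ *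
      ∑ g : G, (if (S.wt g ∈ par S.σ J ∧ g⁻¹ * b * g ∈ S.B) ∧ S.RMin K (S.wt g) then 1 else 0) := by
  have h1 := S.sum_RMin hKJ (fun g => if g⁻¹ * b * g ∈ S.parG K then (1 : ℂ) else 0) (by
    intro g p hp
    congr 1
    apply propext
    constructor
    · intro h
      have := mul_mem (mul_mem hp h) (inv_mem hp)
      rwa [show p * ((g * p)⁻¹ * b * (g * p)) * p⁻¹ = g⁻¹ * b * g by group] at this
    · intro h
      have := mul_mem (mul_mem (inv_mem hp) h) hp
      rwa [show p⁻¹ * (g⁻¹ * b * g) * p = (g * p)⁻¹ * b * (g * p) by group] at this)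
  have h2 : S.nn J K b = ∑ g : G, (if g ∈ S.parG J then (if g⁻¹ * b * g ∈ S.parG K then (1 : ℂ) else 0) else 0) := by
    unfold nn
    refine Finset.sum_congr rfl (fun g _ => ?_)
    rw [ite_and]
  have h3 : ∑ g : G, (if g ∈ S.parG J ∧ S.RMin K (S.wt g) then (if g⁻¹ * b * g ∈ S.parG K then (1 : ℂ) else 0) else 0)
      = ∑ g : G, (if (S.wt g ∈ par S.σ J ∧ g⁻¹ * b * g ∈ S.B) ∧ S.RMin K (S.wt g) then 1 else 0) := by
    refine Finset.sum_congr rfl (fun g _ => ?_)
    rw [← ite_and]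
    congr 1
    apply propext
    constructor
    · rintro ⟨⟨h4, h5⟩, h6⟩
      exact ⟨⟨S.mem_parG_iff.1 h4, S.conj_mem_B h5 hb h6⟩, h5⟩
    · rintro ⟨⟨h4, h5⟩, h6⟩
      exact ⟨⟨S.mem_parG_iff.2 h4, h6⟩, S.B_le_parG K h5⟩
  rw [h2]
  rw [h3] at h1
  have hB := card_ne (H := S.B)
  have hK := card_ne (H := S.parG K)
  field_simp
  linear_combination h1

/-- `Σ_{K ⊆ J, K ⊆ A} (-1)^|K| = [J ∩ A = ∅]` -/
theorem alt_sum (J : Finset ι) (p : ι → Prop) (q : Finset ι → Prop) [DecidablePred q]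
    (hq : ∀ K, q K ↔ ∀ k ∈ K, p k) (r : Prop) [Decidable r] (hr : r ↔ ∀ k ∈ J, ¬ p k) :
    (∑ K ∈ J.powerset, (-1 : ℂ) ^ K.card * (if q K then 1 else 0)) = if r then 1 else 0 := by
  have h1 : (∑ K ∈ J.powerset, (-1 : ℂ) ^ K.card * (if q K then 1 else 0)) =
      ∑ K ∈ (J.filter p).powerset, (-1 : ℂ) ^ K.card := by
    rw [← Finset.sum_filter_add_sum_filter_not J.powerset q]
    rw [Finset.sum_congr rfl (g := fun K => (-1 : ℂ) ^ K.card) (s₁ := J.powerset.filter q)
      (s₂ := J.powerset.filter q) (fun K hK => by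
        rw [if_pos (Finset.mem_filter.1 hK).2, mul_one]),
      Finset.sum_eq_zero (s := J.powerset.filter (fun K => ¬ q K)) (fun K hK => by
        rw [if_neg (Finset.mem_filter.1 hK).2, mul_zero]), add_zero]
    refine Finset.sum_congr ?_ (fun _ _ => rfl)
    ext K
    rw [Finset.mem_filter, Finset.mem_powerset, Finset.mem_powerset, Finset.subset_iff, Finset.subset_iff, hq]
    constructor
    · rintro ⟨h2, h3⟩ k hk
      exact Finset.mem_filter.2 ⟨h2 hk, h3 k hk⟩
    · intro h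
      exact ⟨fun k hk => (Finset.mem_filter.1 (h hk)).1, fun k hk => (Finset.mem_filter.1 (h hk)).2⟩
  rw [h1]
  have h2 := Finset.sum_powerset_neg_one_pow_card (x := J.filter p)
  have h3 : (∑ K ∈ (J.filter p).powerset, (-1 : ℂ) ^ K.card) =
      ((∑ K ∈ (J.filter p).powerset, (-1 : ℤ) ^ K.card : ℤ) : ℂ) := by push_cast; rfl
  rw [h3, h2]
  by_cases h : r
  · rw [if_pos h, if_pos]
    · simp
    · rw [Finset.filter_eq_empty_iff]; exact fun {k} hk => hr.1 h k hk
  · rw [if_neg h, if_neg]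
    · simp
    · rw [Finset.filter_eq_empty_iff]
      intro h'
      exact h (hr.2 (fun k hk => h' hk))

/-- the restriction of the alternating sum to `B` -/
theorem st_B (J : Finset ι) {b : G} (hb : b ∈ S.B) :
    S.st J b = (Nat.card S.B : ℂ)⁻¹ *
      ∑ g : G, (if S.Mx ↑J (S.wt g) ∧ g⁻¹ * b * g ∈ S.B then 1 else 0) := by
  unfold st
  have h1 : ∀ K ∈ J.powerset, (-1 : ℂ) ^ K.card * ((Nat.card (S.parG ↑K) : ℂ)⁻¹ * S.nn ↑J ↑K b) =
      (Nat.card S.B : ℂ)⁻¹ * ∑ g : G, (if S.wt g ∈ par S.σ ↑J ∧ g⁻¹ * b * g ∈ S.B then 1 else 0) *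
        ((-1 : ℂ) ^ K.card * (if S.RMin ↑K (S.wt g) then 1 else 0)) := by
    intro K hK
    rw [S.nn_B (by exact_mod_cast Finset.mem_powerset.1 hK) hb]
    rw [mul_left_comm]
    congr 1
    rw [Finset.mul_sum]
    refine Finset.sum_congr rfl (fun g _ => ?_)
    rw [mul_left_comm]
    congr 1
    rw [ite_and]
    by_cases h : S.wt g ∈ par S.σ ↑J ∧ g⁻¹ * b * g ∈ S.B
    · rw [if_pos h, if_pos h, one_mul]
    · rw [if_neg h, if_neg h, zero_mul]
  rw [Finset.sum_congr rfl h1, ← Finset.mul_sum, Finset.sum_comm]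
  congr 1
  refine Finset.sum_congr rfl (fun g _ => ?_)
  rw [← Finset.mul_sum, alt_sum J (fun k => len S.σ (S.wt g) < len S.σ (S.wt g * S.σ k)) _
    (fun K => by unfold RMin; simp only [Finset.mem_coe])
    (∀ k ∈ J, ¬ len S.σ (S.wt g) < len S.σ (S.wt g * S.σ k)) Iff.rfl]
  by_cases h : S.wt g ∈ par S.σ ↑J ∧ g⁻¹ * b * g ∈ S.B
  · rw [if_pos h, one_mul]
    congr 1
    apply propext
    constructor
    · intro h2
      refine ⟨⟨h.1, fun k hk => ?_⟩, h.2⟩
      have h3 := h2 k (by exact_mod_cast hk)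
      have h4 := S.ex.len_ne' k (S.wt g)
      omega
    · rintro ⟨h2, h3⟩ k hk
      have h5 := h2.2 k (by exact_mod_cast hk)
      omega
  · rw [if_neg h, zero_mul, if_neg]
    rintro ⟨h2, h3⟩
    exact h ⟨h2.1, h3⟩

section double
variable [Fintype W]

/-- sums over double cosets -/
theorem sum_double {J K L : Set ι} (hK : K ⊆ J) (hL : L ⊆ J) :
    (∑ x : G, if x ∈ S.parG K then S.nn J L x else 0) = (Nat.card (S.parG K) : ℂ) * Nat.card (S.parG L) *
      ∑ d : W, (if (d ∈ par S.σ J ∧ S.LMin K d) ∧ S.RMin L d then 1 else 0) := by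
  have hPK := S.parG_mono hK
  have hPL := S.parG_mono hL
  choose t ht using fun d => S.nonempty d
  -- pointwise identity
  have key : ∀ g ∈ S.parG J, (∑ x : G, if x ∈ S.parG K ∧ g⁻¹ * x * g ∈ S.parG L then (1 : ℂ) else 0) =
      ∑ d : W, (if (d ∈ par S.σ J ∧ S.LMin K d) ∧ S.RMin L d then
        (∑ p : G, if p ∈ S.parG K ∧ (p * t d)⁻¹ * g ∈ S.parG L then (1 : ℂ) else 0) else 0) := by
    intro g hg
    obtain ⟨u, hu, v, hv, ⟨h1, h2⟩, -⟩ := S.bimin_exists K L (S.wt g)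
    obtain ⟨d, hd⟩ : ∃ d, d = u * S.wt g * v := ⟨_, rfl⟩
    rw [← hd] at h1 h2
    have hdJ : d ∈ par S.σ J := by
      rw [hd]
      exact mul_mem (mul_mem (par_mono hK hu) (S.mem_parG_iff.1 hg)) (par_mono hL hv)
    -- `g = p0 t_d p0'`
    have hwg : S.wt g = u⁻¹ * (d * v⁻¹) := by rw [hd]; group
    have hg1 := S.mem_C_wt g
    rw [hwg] at hg1
    obtain ⟨x, hx, yz, hyz, hg2⟩ := S.dec hg1
    obtain ⟨y, hy, z, hz, rfl⟩ := S.dec hyz
    obtain ⟨b, hb, b', hb', rfl⟩ := S.trans (ht d) hy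
    have hp0 : x * b ∈ S.parG K := mul_mem ((S.mem_parG hx).2 (inv_mem hu)) (S.B_le_parG K hb)
    have hp1 : b' * z ∈ S.parG L := mul_mem (S.B_le_parG L hb') ((S.mem_parG hz).2 (inv_mem hv))
    have hg3 : g = (x * b) * t d * (b' * z) := by rw [hg2]; group
    generalize x * b = p0 at hp0 hg3
    generalize b' * z = p1 at hp1 hg3
    rw [Finset.sum_eq_single d]
    · rw [if_pos ⟨⟨hdJ, h1⟩, h2⟩]
      refine Fintype.sum_equiv (Equiv.mulRight p0) _ _ (fun x => ?_)
      simp only [Equiv.coe_mulRight]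
      congr 1
      apply propext
      have e : (x * p0 * t d)⁻¹ * g = p1 * (g⁻¹ * x * g)⁻¹ := by
        have : p0 * t d = g * p1⁻¹ := by rw [hg3]; group
        rw [mul_assoc x, this]
        group
      rw [e]
      constructor
      · rintro ⟨h3, h4⟩
        exact ⟨mul_mem h3 hp0, mul_mem hp1 (inv_mem h4)⟩
      · rintro ⟨h3, h4⟩
        constructor
        · have := mul_mem h3 (inv_mem hp0)
          rwa [mul_inv_cancel_right] at this
        · have := mul_mem (inv_mem h4) hp1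
          rwa [show (p1 * (g⁻¹ * x * g)⁻¹)⁻¹ * p1 = g⁻¹ * x * g by group] at this
    · intro d' _ hne
      by_cases hd' : (d' ∈ par S.σ J ∧ S.LMin K d') ∧ S.RMin L d'
      · rw [if_pos hd']
        refine Finset.sum_eq_zero (fun p _ => ?_)
        rw [if_neg]
        rintro ⟨h3, h4⟩
        apply hne
        obtain ⟨u', hu', h5⟩ := S.wt_par_mul (x := t d' * ((p * t d')⁻¹ * g)) h3
        obtain ⟨v', hv', h6⟩ := S.wt_mul_par (x := t d') h4
        rw [h6, S.mem_C_iff.1 (ht d'), show p * (t d' * ((p * t d')⁻¹ * g)) = g by group] at h5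
        refine S.bimin_unique hd'.1.2 hd'.2 h1 h2 (u := u * u') (v := v' * v) (mul_mem hu hu') (mul_mem hv' hv) ?_
        rw [hd, h5]
        group
      · rw [if_neg hd']
    · intro h
      exact absurd (Finset.mem_univ _) h
  have h1 : (∑ x : G, if x ∈ S.parG K then S.nn J L x else 0) =
      ∑ g : G, if g ∈ S.parG J then (∑ x : G, if x ∈ S.parG K ∧ g⁻¹ * x * g ∈ S.parG L then (1 : ℂ) else 0) else 0 := by
    have e1 : ∀ x : G, (if x ∈ S.parG K then S.nn J L x else 0) =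
        ∑ g : G, (if x ∈ S.parG K ∧ g ∈ S.parG J ∧ g⁻¹ * x * g ∈ S.parG L then (1 : ℂ) else 0) := by
      intro x
      by_cases hx : x ∈ S.parG K
      · rw [if_pos hx]
        unfold nn
        refine Finset.sum_congr rfl (fun g _ => ?_)
        simp only [hx, true_and]
      · rw [if_neg hx]
        refine (Finset.sum_eq_zero (fun g _ => ?_)).symm
        rw [if_neg (fun h => hx h.1)]
    rw [Finset.sum_congr rfl (fun x _ => e1 x), Finset.sum_comm]
    refine Finset.sum_congr rfl (fun g _ => ?_)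
    by_cases hg : g ∈ S.parG J
    · rw [if_pos hg]
      refine Finset.sum_congr rfl (fun x _ => ?_)
      simp only [hg, true_and]
    · rw [if_neg hg]
      refine Finset.sum_eq_zero (fun x _ => ?_)
      rw [if_neg (fun h => hg h.2.1)]
  rw [h1]
  have h2 : ∀ g : G, (if g ∈ S.parG J then (∑ x : G, if x ∈ S.parG K ∧ g⁻¹ * x * g ∈ S.parG L then (1 : ℂ) else 0) else 0) =
      ∑ d : W, (if (d ∈ par S.σ J ∧ S.LMin K d) ∧ S.RMin L d then
        (∑ p : G, if p ∈ S.parG K ∧ (p * t d)⁻¹ * g ∈ S.parG L then (1 : ℂ) else 0) else 0) := by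
    intro g
    by_cases hg : g ∈ S.parG J
    · rw [if_pos hg, key g hg]
    · rw [if_neg hg]
      refine (Finset.sum_eq_zero (fun d _ => ?_)).symm
      by_cases hd : (d ∈ par S.σ J ∧ S.LMin K d) ∧ S.RMin L d
      · rw [if_pos hd]
        refine Finset.sum_eq_zero (fun p _ => ?_)
        rw [if_neg]
        rintro ⟨h3, h4⟩
        apply hg
        have htJ : t d ∈ S.parG J := (S.mem_parG (ht d)).2 hd.1.1
        have := mul_mem (mul_mem (hPK h3) htJ) (hPL h4)
        rwa [mul_inv_cancel_left] at this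
      · rw [if_neg hd]
  rw [Finset.sum_congr rfl (fun g _ => h2 g), Finset.sum_comm, Finset.mul_sum]
  refine Finset.sum_congr rfl (fun d _ => ?_)
  by_cases hd : (d ∈ par S.σ J ∧ S.LMin K d) ∧ S.RMin L d
  · simp only [if_pos hd, mul_one]
    rw [Finset.sum_comm]
    have h3 : ∀ p : G, (∑ g : G, if p ∈ S.parG K ∧ (p * t d)⁻¹ * g ∈ S.parG L then (1 : ℂ) else 0) =
        (if p ∈ S.parG K then 1 else 0) * Nat.card (S.parG L) := by
      intro p
      by_cases hp : p ∈ S.parG K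
      · rw [if_pos hp, one_mul, ← sum_mem_left (S.parG L) (p * t d)⁻¹]
        refine Finset.sum_congr rfl (fun g _ => ?_)
        simp only [hp, true_and]
      · rw [if_neg hp, zero_mul]
        refine Finset.sum_eq_zero (fun g _ => ?_)
        rw [if_neg (fun h => hp h.1)]
    rw [Finset.sum_congr rfl (fun p _ => h3 p), ← Finset.sum_mul, sum_mem]
  · simp only [if_neg hd, Finset.sum_const_zero, mul_zero]

theorem sum_st {J : Finset ι} {K : Set ι} (hK : K ⊆ ↑J) :
    (∑ x : G, if x ∈ S.parG K then S.st J x else 0) = (Nat.card (S.parG K) : ℂ) *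
      ∑ d : W, (if S.LMin K d ∧ S.Mx ↑J d then 1 else 0) := by
  have h1 : (∑ x : G, if x ∈ S.parG K then S.st J x else 0) =
      ∑ L ∈ J.powerset, (-1 : ℂ) ^ L.card * ((Nat.card (S.parG ↑L) : ℂ)⁻¹ *
        ∑ x : G, if x ∈ S.parG K then S.nn ↑J ↑L x else 0) := by
    have e1 : ∀ x : G, (if x ∈ S.parG K then S.st J x else 0) =
        ∑ L ∈ J.powerset, (-1 : ℂ) ^ L.card * ((Nat.card (S.parG ↑L) : ℂ)⁻¹ *
          if x ∈ S.parG K then S.nn ↑J ↑L x else 0) := by
      intro x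
      by_cases hx : x ∈ S.parG K
      · simp only [if_pos hx]; rfl
      · simp only [if_neg hx, mul_zero, Finset.sum_const_zero]
    rw [Finset.sum_congr rfl (fun x _ => e1 x), Finset.sum_comm]
    refine Finset.sum_congr rfl (fun L _ => ?_)
    rw [← Finset.mul_sum, ← Finset.mul_sum]
  rw [h1]
  have h2 : ∀ L ∈ J.powerset, (-1 : ℂ) ^ L.card * ((Nat.card (S.parG ↑L) : ℂ)⁻¹ *
      ∑ x : G, if x ∈ S.parG K then S.nn ↑J ↑L x else 0) =
      (Nat.card (S.parG K) : ℂ) * ∑ d : W, (if d ∈ par S.σ ↑J ∧ S.LMin K d then 1 else 0) *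
        ((-1 : ℂ) ^ L.card * (if S.RMin ↑L d then 1 else 0)) := by
    intro L hL
    rw [S.sum_double hK (by exact_mod_cast Finset.mem_powerset.1 hL)]
    have hne := card_ne (H := S.parG ↑L)
    have e2 : (Nat.card (S.parG ↑L) : ℂ)⁻¹ * ((Nat.card (S.parG K) : ℂ) * Nat.card (S.parG ↑L) *
        ∑ d : W, (if (d ∈ par S.σ ↑J ∧ S.LMin K d) ∧ S.RMin ↑L d then 1 else 0)) =
        (Nat.card (S.parG K) : ℂ) * ∑ d : W, (if (d ∈ par S.σ ↑J ∧ S.LMin K d) ∧ S.RMin ↑L d then 1 else 0) := by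
      field_simp
    rw [e2, mul_left_comm]
    congr 1
    rw [Finset.mul_sum]
    refine Finset.sum_congr rfl (fun d _ => ?_)
    rw [mul_left_comm]
    congr 1
    rw [ite_and]
    by_cases h : d ∈ par S.σ ↑J ∧ S.LMin K d
    · rw [if_pos h, if_pos h, one_mul]
    · rw [if_neg h, if_neg h, zero_mul]
  rw [Finset.sum_congr rfl h2, ← Finset.mul_sum, Finset.sum_comm]
  congr 1
  refine Finset.sum_congr rfl (fun d _ => ?_)
  rw [← Finset.mul_sum, alt_sum J (fun k => len S.σ d < len S.σ (d * S.σ k)) _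
    (fun K => by unfold RMin; simp only [Finset.mem_coe])
    (∀ k ∈ J, ¬ len S.σ d < len S.σ (d * S.σ k)) Iff.rfl]
  by_cases h : d ∈ par S.σ ↑J ∧ S.LMin K d
  · rw [if_pos h, one_mul]
    congr 1
    apply propext
    constructor
    · intro h2
      refine ⟨h.2, h.1, fun k hk => ?_⟩
      have h3 := h2 k (by exact_mod_cast hk)
      have h4 := S.ex.len_ne' k d
      omega
    · rintro ⟨h2, h3⟩ k hk
      have h5 := h3.2 k (by exact_mod_cast hk)
      omega
  · rw [if_neg h, zero_mul, if_neg]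
    rintro ⟨h2, h3⟩
    exact h ⟨h3.1, h2⟩

end double

end BD

end CfsgLib.St
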