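import Mathlib
import Cfsg.Agent.Lib.H2Hk2
import Cfsg.Agent.Lib.H2St2

/-! The Casimir operator at the parameters `1` and `q`. -/

namespace CfsgLib.Hecke

open CfsgLib.BNP
open scoped Classical
set_option linter.style.haveILetI false
set_option linter.unusedSectionVars false

variable {W ι : Type*} [Group W] {σ : ι → W} (H : ExSys σ)

section one
variable [Fintype W]

theorem lam_one (i : ι) (f : W → ℂ) (v : W) : lam σ (1 : ℂ) i f v = f (σ i * v) := by
  rw [lam_apply]
  split_ifs <;> ring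

include H in
theorem lamW_one (l : List ι) (f : W → ℂ) (v : W) : lamW σ (1 : ℂ) l f v = f ((wd σ l)⁻¹ * v) := by
  induction l generalizing v with
  | nil =>
    rw [wd_nil, inv_one, one_mul]
    rfl
  | cons i l ih =>
    change lam σ 1 i (lamW σ 1 l f) v = _
    rw [lam_one, ih, wd_cons, mul_inv_rev, H.inv_σ, mul_assoc]

theorem lamE_param_one (w : W) (f : W → ℂ) (v : W) : lamE H (1 : ℂ) w f v = f (w⁻¹ * v) := by
  unfold lamE
  rw [lamW_one H, (H.exists_red w).choose_spec.2]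

theorem Ph_param_one (w : W) (f : W → ℂ) (v : W) : Ph H (1 : ℂ) w f v = f (w⁻¹ * v * w) := by
  rw [Ph_apply, lamE_param_one, rhoE_apply, inve_apply, lamE_param_one, inve_apply]
  congr 1
  group

theorem cas_param_one (f : W → ℂ) (v : W) : cas H (1 : ℂ) f v = ∑ w : W, f (w⁻¹ * v * w) := by
  rw [cas_apply, Finset.sum_apply]
  refine Finset.sum_congr rfl (fun w _ => ?_)
  rw [Pi.smul_apply, one_pow, one_smul, Ph_param_one]

theorem exists_cas_one : ∃ y, cas H (1 : ℂ) y = e 1 := by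
  refine ⟨(Fintype.card W : ℂ)⁻¹ • e 1, ?_⟩
  funext v
  rw [cas_param_one, e_apply]
  have hne : (Fintype.card W : ℂ) ≠ 0 := by exact_mod_cast Fintype.card_ne_zero
  have h1 : ∀ w : W, ((Fintype.card W : ℂ)⁻¹ • (e 1 : W → ℂ)) (w⁻¹ * v * w) = (Fintype.card W : ℂ)⁻¹ * (if v = 1 then 1 else 0) := by
    intro w
    rw [Pi.smul_apply, smul_eq_mul, e_apply]
    congr 2
    apply propext
    constructor
    · intro h
      have : v = w * (w⁻¹ * v * w) * w⁻¹ := by group
      rw [this, h]; group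
    · rintro rfl; group
  rw [Finset.sum_congr rfl (fun w _ => h1 w), Finset.sum_const, Finset.card_univ, nsmul_eq_mul, mul_inv_cancel_left₀ hne]

theorem finrank_cas_one : Module.finrank ℂ (LinearMap.range (cas H (1 : ℂ))) = Nat.card (ConjClasses W) := by
  obtain ⟨γ, hγ⟩ : ∃ γ : (ConjClasses W → ℂ) →ₗ[ℂ] (W → ℂ), ∀ g v, γ g v = g (ConjClasses.mk v) :=
    ⟨{ toFun := fun g v => g (ConjClasses.mk v), map_add' := fun _ _ => rfl, map_smul' := fun _ _ => rfl }, fun _ _ => rfl⟩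
  have hinj : Function.Injective γ := by
    intro g g' h
    funext c
    obtain ⟨v, rfl⟩ := ConjClasses.mk_surjective c
    rw [← hγ g v, ← hγ g' v, h]
  have hne : (Fintype.card W : ℂ) ≠ 0 := by exact_mod_cast Fintype.card_ne_zero
  have hr : LinearMap.range (cas H (1 : ℂ)) = LinearMap.range γ := by
    apply le_antisymm
    · rintro _ ⟨f, rfl⟩
      have hc : ∀ a b : W, IsConj a b → cas H (1 : ℂ) f a = cas H (1 : ℂ) f b := by
        intro a b hab
        obtain ⟨c, hc⟩ := isConj_iff.1 hab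
        rw [cas_param_one, cas_param_one, ← hc]
        refine Fintype.sum_equiv (Equiv.mulLeft c) _ _ (fun w => ?_)
        simp only [Equiv.coe_mulLeft]
        congr 1
        group
      refine ⟨fun c => Quotient.lift (cas H (1 : ℂ) f) hc c, ?_⟩
      funext v
      rw [hγ]
      rfl
    · rintro _ ⟨g, rfl⟩
      refine ⟨(Fintype.card W : ℂ)⁻¹ • γ g, ?_⟩
      funext v
      rw [cas_param_one, hγ]
      have h1 : ∀ w : W, ((Fintype.card W : ℂ)⁻¹ • γ g) (w⁻¹ * v * w) = (Fintype.card W : ℂ)⁻¹ * g (ConjClasses.mk v) := by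
        intro w
        rw [Pi.smul_apply, smul_eq_mul, hγ]
        congr 2
        rw [ConjClasses.mk_eq_mk_iff_isConj]
        exact isConj_iff.2 ⟨w, by group⟩
      rw [Finset.sum_congr rfl (fun w _ => h1 w), Finset.sum_const, Finset.card_univ, nsmul_eq_mul, mul_inv_cancel_left₀ hne]
  rw [hr, LinearMap.finrank_range_of_inj hinj, Module.finrank_fintype_fun_eq_card, Nat.card_eq_fintype_card]

end one

end CfsgLib.Hecke

namespace CfsgLib.St.BD

open CfsgLib.BNP CfsgLib.Hecke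
open scoped Classical
set_option linter.style.haveILetI false
set_option linter.unusedSectionVars false

variable {G : Type*} [Group G] [Fintype G] {W : Type*} [Group W] {ι : Type*} (S : BD G W ι)

/-- sum over a double coset -/
noncomputable def sC (w : W) (f : G → ℂ) : ℂ := ∑ y : G, if S.wt y = w then f y else 0

/-- sum over `B` -/
noncomputable def sB (f : G → ℂ) : ℂ := ∑ b : G, if b ∈ S.B then f b else 0

theorem wt_eq_of_mem {w : W} {x y : G} (hx : S.wt x = w) (hy : S.wt y = w) : ∃ b ∈ S.B, ∃ b' ∈ S.B, y = b * x * b' :=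
  S.trans (S.mem_C_iff.2 hx) (S.mem_C_iff.2 hy)

variable {q : ℕ} (hq : ∀ w, Nat.card (S.C w) = Nat.card S.B * q ^ len S.σ w)

include hq in
theorem sC_const (w : W) (c : ℂ) : S.sC w (fun _ => c) = Nat.card S.B * q ^ len S.σ w * c := by
  unfold sC
  have h1 : (∑ y : G, if S.wt y = w then c else 0) = (∑ y : G, if S.wt y = w then (1 : ℂ) else 0) * c := by
    rw [Finset.sum_mul]
    refine Finset.sum_congr rfl (fun y _ => ?_)
    split_ifs <;> simp
  rw [h1]
  congr 1
  rw [Finset.sum_boole]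
  have h2 : (Finset.univ.filter (fun y : G => S.wt y = w)).card = Nat.card (S.C w) := by
    rw [Nat.card_eq_fintype_card, ← Set.toFinset_card]
    congr 1
    ext y
    rw [Finset.mem_filter, Set.mem_toFinset, S.mem_C_iff]
    simp
  rw [h2, hq]
  push_cast
  ring

theorem sB_const (c : ℂ) : S.sB (fun _ => c) = Nat.card S.B * c := by
  unfold sB
  rw [← sum_mem, Finset.sum_mul]
  refine Finset.sum_congr rfl (fun y _ => ?_)
  split_ifs <;> simp

theorem sC_congr {w : W} {f f' : G → ℂ} (h : ∀ y, S.wt y = w → f y = f' y) : S.sC w f = S.sC w f' := by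
  unfold sC
  refine Finset.sum_congr rfl (fun y _ => ?_)
  by_cases hy : S.wt y = w
  · rw [if_pos hy, if_pos hy, h y hy]
  · rw [if_neg hy, if_neg hy]

theorem sB_congr {f f' : G → ℂ} (h : ∀ y, y ∈ S.B → f y = f' y) : S.sB f = S.sB f' := by
  unfold sB
  refine Finset.sum_congr rfl (fun y _ => ?_)
  by_cases hy : y ∈ S.B
  · rw [if_pos hy, if_pos hy, h y hy]
  · rw [if_neg hy, if_neg hy]

theorem sC_mul (w : W) (c : ℂ) (f : G → ℂ) : S.sC w (fun y => c * f y) = c * S.sC w f := by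
  unfold sC
  rw [Finset.mul_sum]
  refine Finset.sum_congr rfl (fun y _ => ?_)
  split_ifs <;> simp

theorem sB_mul (c : ℂ) (f : G → ℂ) : S.sB (fun y => c * f y) = c * S.sB f := by
  unfold sB
  rw [Finset.mul_sum]
  refine Finset.sum_congr rfl (fun y _ => ?_)
  split_ifs <;> simp

theorem sB_mulR (f : G → ℂ) {c : G} (hc : c ∈ S.B) : S.sB (fun b => f (b * c)) = S.sB f := by
  unfold sB
  refine Fintype.sum_equiv (Equiv.mulRight c) _ _ (fun b => ?_)
  have h : (Equiv.mulRight c) b = b * c := rfl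
  rw [h]
  by_cases hb : b ∈ S.B
  · rw [if_pos hb, if_pos (mul_mem hb hc)]
  · rw [if_neg hb, if_neg (fun h => hb (by
      have := mul_mem h (inv_mem hc)
      rwa [mul_inv_cancel_right] at this))]

theorem sB_mulL (f : G → ℂ) {c : G} (hc : c ∈ S.B) : S.sB (fun b => f (c * b)) = S.sB f := by
  unfold sB
  refine Fintype.sum_equiv (Equiv.mulLeft c) _ _ (fun b => ?_)
  have h : (Equiv.mulLeft c) b = c * b := rfl
  rw [h]
  by_cases hb : b ∈ S.B
  · rw [if_pos hb, if_pos (mul_mem hc hb)]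
  · rw [if_neg hb, if_neg (fun h => hb (by
      have := mul_mem (inv_mem hc) h
      rwa [inv_mul_cancel_left] at this))]

theorem sB_inv (f : G → ℂ) : S.sB (fun b => f b⁻¹) = S.sB f := by
  unfold sB
  refine Fintype.sum_equiv (Equiv.inv G) _ _ (fun b => ?_)
  have h : (Equiv.inv G) b = b⁻¹ := rfl
  rw [h, inv_mem_iff]

theorem sC_mulR (w : W) (f : G → ℂ) {c : G} (hc : c ∈ S.B) : S.sC w (fun b => f (b * c)) = S.sC w f := by
  unfold sC
  refine Fintype.sum_equiv (Equiv.mulRight c) _ _ (fun b => ?_)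
  have h : (Equiv.mulRight c) b = b * c := rfl
  rw [h, S.wt_mulR hc]

theorem sC_mulL (w : W) (f : G → ℂ) {c : G} (hc : c ∈ S.B) : S.sC w (fun b => f (c * b)) = S.sC w f := by
  unfold sC
  refine Fintype.sum_equiv (Equiv.mulLeft c) _ _ (fun b => ?_)
  have h : (Equiv.mulLeft c) b = c * b := rfl
  rw [h, S.wt_mulL hc]

theorem sC_inv (w : W) (f : G → ℂ) : S.sC w (fun b => f b⁻¹) = S.sC w⁻¹ f := by
  unfold sC
  refine Fintype.sum_equiv (Equiv.inv G) _ _ (fun b => ?_)
  have h : (Equiv.inv G) b = b⁻¹ := rfl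
  rw [h, S.wt_inv]
  congr 1
  exact propext inv_inj.symm

theorem sC_one (f : G → ℂ) : S.sC 1 f = S.sB f := by
  unfold sC sB
  refine Finset.sum_congr rfl (fun y _ => ?_)
  simp only [S.mem_B_iff]

theorem sC_sB_comm (w : W) (f : G → G → ℂ) : S.sC w (fun y => S.sB (fun b => f y b)) = S.sB (fun b => S.sC w (fun y => f y b)) := by
  unfold sC sB
  have h1 : ∀ y : G, (if S.wt y = w then ∑ b : G, (if b ∈ S.B then f y b else 0) else 0) =
      ∑ b : G, if S.wt y = w then (if b ∈ S.B then f y b else 0) else 0 := by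
    intro y
    split_ifs <;> simp
  have h2 : ∀ b : G, (if b ∈ S.B then ∑ y : G, (if S.wt y = w then f y b else 0) else 0) =
      ∑ y : G, if b ∈ S.B then (if S.wt y = w then f y b else 0) else 0 := by
    intro b
    split_ifs <;> simp
  rw [Finset.sum_congr rfl (fun y _ => h1 y), Finset.sum_congr rfl (fun b _ => h2 b), Finset.sum_comm]
  refine Finset.sum_congr rfl (fun b _ => Finset.sum_congr rfl (fun y _ => ?_))
  split_ifs <;> rfl

include hq in
theorem q_ne [Fintype W] (w : W) : (q : ℂ) ^ len S.σ w ≠ 0 := by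
  intro h
  have h1 := hq w
  obtain ⟨x, hx⟩ := S.nonempty w
  haveI : Nonempty (S.C w) := ⟨⟨x, hx⟩⟩
  have h2 : Nat.card (S.C w) ≠ 0 := Nat.card_pos.ne'
  have h3 : q ^ len S.σ w = 0 := by exact_mod_cast h
  rw [h3, mul_zero] at h1
  exact h2 h1

include hq in
/-- sum of a right `B`-invariant function over a double coset -/
theorem sC_eq {f : G → ℂ} (hf : ∀ y b, b ∈ S.B → f (y * b) = f y) {w : W} {g : G} (hg : S.wt g = w) :
    S.sC w f = q ^ len S.σ w * S.sB (fun b => f (b * g)) := by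
  have hB := card_ne (H := S.B)
  apply mul_left_cancel₀ hB
  have h1 : S.sC w (fun y => S.sB (fun b => f (b * y))) = Nat.card S.B * S.sC w f := by
    rw [S.sC_sB_comm, S.sB_congr (f' := fun _ => S.sC w f) (fun b hb => S.sC_mulL w f hb), S.sB_const]
  rw [← h1, S.sC_congr (f' := fun _ => S.sB (fun b => f (b * g))) (fun y hy => ?_), S.sC_const hq, mul_assoc]
  obtain ⟨b, hb, b', hb', rfl⟩ := S.wt_eq_of_mem hg hy
  rw [← S.sB_mulR (fun c => f (c * g)) hb]
  apply S.sB_congr
  intro c _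
  rw [show c * (b * g * b') = c * b * g * b' by group, hf _ _ hb']

/-- a function on `W` as a function on `G` -/
noncomputable def th (f : W → ℂ) (x : G) : ℂ := f (S.wt x)

theorem th_mulR (f : W → ℂ) {x b : G} (hb : b ∈ S.B) : S.th f (x * b) = S.th f x := by
  unfold th; rw [S.wt_mulR hb]

theorem th_mulL (f : W → ℂ) {x b : G} (hb : b ∈ S.B) : S.th f (b * x) = S.th f x := by
  unfold th; rw [S.wt_mulL hb]

theorem wt_σ_mul {v : W} {i : ι} (h : len S.σ v < len S.σ (S.σ i * v)) {x y : G} (hy : S.wt y = S.σ i) (hx : S.wt x = v) :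
    S.wt (y * x) = S.σ i * v := by
  have h1 : len S.σ (x⁻¹ |> S.wt) ≤ len S.σ (S.wt x⁻¹ * S.σ i) := by
    rw [S.wt_inv, hx, S.ex.len_inv, ← S.ex.len_inv (v⁻¹ * S.σ i), mul_inv_rev, inv_inv, S.ex.inv_σ]
    omega
  have h2 : y⁻¹ ∈ S.C (S.σ i) := by
    have := S.inv (S.mem_C_iff.2 hy)
    rwa [S.ex.inv_σ] at this
  have h3 := S.mul h1 (S.mem_C_wt x⁻¹) h2
  have h4 := S.mem_C_iff.1 h3
  rw [← mul_inv_rev, S.wt_inv, S.wt_inv, hx] at h4
  rw [← inv_inj, h4, mul_inv_rev, S.ex.inv_σ]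

theorem wt_σ_step {i : ι} {x y : G} (hy : S.wt y = S.σ i) :
    S.wt (y * x) = S.σ i * S.wt x ∨ S.wt (y * x) = S.wt x := by
  have h2 : y⁻¹ ∈ S.C (S.σ i) := by
    have := S.inv (S.mem_C_iff.2 hy)
    rwa [S.ex.inv_σ] at this
  rcases S.step (S.mem_C_wt x⁻¹) h2 with h3 | h3
  · left
    have h4 := S.mem_C_iff.1 h3
    rw [← mul_inv_rev, S.wt_inv, S.wt_inv] at h4
    rw [← inv_inj, h4, mul_inv_rev, S.ex.inv_σ]
  · right
    have h4 := S.mem_C_iff.1 h3
    rw [← mul_inv_rev, S.wt_inv, S.wt_inv] at h4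
    exact inv_inj.1 h4

include hq in
theorem th_lam (i : ι) (f : W → ℂ) (x : G) :
    S.th (lam S.σ (q : ℂ) i f) x = (Nat.card S.B : ℂ)⁻¹ * S.sC (S.σ i) (fun y => S.th f (y⁻¹ * x)) := by
  have hB := card_ne (H := S.B)
  rw [eq_inv_mul_iff_mul_eq₀ hB]
  have hσ : len S.σ (S.σ i) = 1 := S.ex.len_σ i
  have hinv : ∀ y, S.wt y = S.σ i → S.wt y⁻¹ = S.σ i := fun y hy => by rw [S.wt_inv, hy, S.ex.inv_σ]
  unfold th
  rw [lam_apply]
  rcases S.ex.lt_or_gt i (S.wt x) with h | h
  · rw [if_neg (by omega), S.sC_congr (f' := fun _ => f (S.σ i * S.wt x)) (fun y hy => ?_), S.sC_const hq, hσ, pow_one]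
    · ring
    · rw [S.wt_σ_mul (by omega) (hinv y hy) rfl]
  · rw [if_pos (by omega)]
    -- decomposition of `x`
    obtain ⟨v, hv⟩ : ∃ v, v = S.σ i * S.wt x := ⟨_, rfl⟩
    have hxv : S.wt x = S.σ i * v := by rw [hv, S.ex.σ_mul_σ_mul]
    have hx := S.mem_C_wt x
    rw [hxv] at hx
    obtain ⟨y0, hy0, z0, hz0, rfl⟩ := S.dec hx
    have hlv : len S.σ v < len S.σ (S.σ i * v) := by rw [← hxv, hv]; omega
    have hne : v ≠ S.σ i * v := by
      intro h'
      rw [← h'] at hlv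
      omega
    rw [S.mem_C_iff] at hy0 hz0
    have key : ∀ y, S.wt y = S.σ i → f (S.wt (y⁻¹ * (y0 * z0))) =
        f (S.σ i * v) + (if y0⁻¹ * y ∈ S.B then f v - f (S.σ i * v) else 0) := by
      intro y hy
      by_cases hb : y0⁻¹ * y ∈ S.B
      · rw [if_pos hb, show y⁻¹ * (y0 * z0) = (y0⁻¹ * y)⁻¹ * z0 by group, S.wt_mulL (inv_mem hb), hz0]
        ring
      · rw [if_neg hb, add_zero]
        congr 1
        have h1 : S.wt (y⁻¹ * y0) = S.σ i := by
          rcases S.wt_σ_step (x := y0) (hinv y hy) with h2 | h2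
          · exfalso
            apply hb
            rw [hy0, S.ex.sq i] at h2
            have h3 := S.mem_B_iff.2 h2
            have h4 := inv_mem h3
            rwa [mul_inv_rev, inv_inv] at h4
          · rw [h2, hy0]
        rw [← mul_assoc]
        exact S.wt_σ_mul hlv h1 hz0
    rw [S.sC_congr (f' := fun y => f (S.σ i * v) + (if y0⁻¹ * y ∈ S.B then f v - f (S.σ i * v) else 0)) key]
    have hadd : S.sC (S.σ i) (fun y => f (S.σ i * v) + (if y0⁻¹ * y ∈ S.B then f v - f (S.σ i * v) else 0)) =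
        S.sC (S.σ i) (fun _ => f (S.σ i * v)) + S.sC (S.σ i) (fun y => if y0⁻¹ * y ∈ S.B then f v - f (S.σ i * v) else 0) := by
      unfold sC
      rw [← Finset.sum_add_distrib]
      refine Finset.sum_congr rfl (fun y _ => ?_)
      split_ifs <;> ring
    rw [hadd, S.sC_const hq, hσ, pow_one]
    have hlast : S.sC (S.σ i) (fun y => if y0⁻¹ * y ∈ S.B then f v - f (S.σ i * v) else 0) =
        Nat.card S.B * (f v - f (S.σ i * v)) := by
      rw [← sum_mem_left S.B y0⁻¹, Finset.sum_mul]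
      unfold sC
      refine Finset.sum_congr rfl (fun y _ => ?_)
      beta_reduce
      by_cases hb : y0⁻¹ * y ∈ S.B
      · have hy : S.wt y = S.σ i := by
          have := S.wt_mulR (g := y0) hb
          rwa [mul_inv_cancel_left, hy0] at this
        rw [if_pos hy, if_pos hb, if_pos hb, one_mul]
      · rw [if_neg hb, if_neg hb, zero_mul, ite_self]
    rw [hlast, hxv, S.ex.σ_mul_σ_mul]
    ring

include hq in
theorem sC_sC [Fintype W] {i : ι} {w : W} (h : len S.σ w < len S.σ (S.σ i * w)) {f : G → ℂ}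
    (hf : ∀ y b, b ∈ S.B → f (y * b) = f y) :
    S.sC (S.σ i) (fun y => S.sC w (fun z => f (y * z))) = Nat.card S.B * S.sC (S.σ i * w) f := by
  obtain ⟨g, hg⟩ := S.nonempty (S.σ i)
  obtain ⟨k, hk⟩ := S.nonempty w
  rw [S.mem_C_iff] at hg hk
  have hl : len S.σ (S.σ i * w) = len S.σ w + 1 := by
    rcases S.ex.lt_or_gt i w with h1 | h1 <;> omega
  have e1 : S.sC (S.σ i) (fun y => S.sC w (fun z => f (y * z))) =
      q ^ len S.σ w * S.sC (S.σ i) (fun y => S.sB (fun b => f (y * (b * k)))) := by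
    rw [← S.sC_mul]
    apply S.sC_congr
    intro y _
    exact S.sC_eq hq (f := fun z => f (y * z)) (fun z b hb => by rw [← mul_assoc, hf _ _ hb]) hk
  have e2 : S.sC (S.σ i) (fun y => S.sB (fun b => f (y * (b * k)))) =
      q * S.sB (fun b1 => S.sB (fun b => f (b1 * g * (b * k)))) := by
    have := S.sC_eq hq (f := fun y => S.sB (fun b => f (y * (b * k)))) (fun y c hc => by
      rw [← S.sB_mulL (fun b => f (y * (b * k))) hc]
      apply S.sB_congr
      intro b _
      congr 1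
      group) hg
    rw [this, S.ex.len_σ, pow_one]
  have e3 : S.sB (fun b1 => S.sB (fun b => f (b1 * g * (b * k)))) = S.sB (fun b => S.sB (fun b1 => f (b1 * (g * (b * k))))) := by
    unfold sB
    have h1 : ∀ b1 : G, (if b1 ∈ S.B then ∑ b : G, (if b ∈ S.B then f (b1 * g * (b * k)) else 0) else 0) =
        ∑ b : G, if b1 ∈ S.B then (if b ∈ S.B then f (b1 * g * (b * k)) else 0) else 0 := by
      intro b1
      split_ifs <;> simp
    have h2 : ∀ b : G, (if b ∈ S.B then ∑ b1 : G, (if b1 ∈ S.B then f (b1 * (g * (b * k))) else 0) else 0) =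
        ∑ b1 : G, if b ∈ S.B then (if b1 ∈ S.B then f (b1 * (g * (b * k))) else 0) else 0 := by
      intro b
      split_ifs <;> simp
    rw [Finset.sum_congr rfl (fun b1 _ => h1 b1), Finset.sum_congr rfl (fun b _ => h2 b), Finset.sum_comm]
    refine Finset.sum_congr rfl (fun b _ => Finset.sum_congr rfl (fun b1 _ => ?_))
    rw [← mul_assoc b1 g]
    split_ifs <;> rfl
  have e4 : S.sB (fun b => S.sB (fun b1 => f (b1 * (g * (b * k))))) = Nat.card S.B * (((q : ℂ) ^ len S.σ (S.σ i * w))⁻¹ * S.sC (S.σ i * w) f) := by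
    rw [← S.sB_const]
    apply S.sB_congr
    intro b hb
    have h5 : S.wt (g * (b * k)) = S.σ i * w := by
      apply S.wt_σ_mul h hg
      rw [S.wt_mulL hb, hk]
    rw [S.sC_eq hq hf h5, inv_mul_cancel_left₀ (S.q_ne hq _)]
  rw [e1, e2, e3, e4, hl]
  have h6 := S.q_ne hq (S.σ i * w)
  rw [hl] at h6
  rw [pow_succ] at h6 ⊢
  rw [show ((q : ℂ) ^ len S.σ w * (q * (Nat.card S.B * (((q : ℂ) ^ len S.σ w * q)⁻¹ * S.sC (S.σ i * w) f)))) =
    Nat.card S.B * (((q : ℂ) ^ len S.σ w * q) * (((q : ℂ) ^ len S.σ w * q)⁻¹ * S.sC (S.σ i * w) f)) by ring,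
    mul_inv_cancel_left₀ h6]

include hq in
/-- left multiplication by `T_w` as a convolution -/
theorem th_lamE [Fintype W] (w : W) (f : W → ℂ) (x : G) :
    S.th (lamE S.ex (q : ℂ) w f) x = (Nat.card S.B : ℂ)⁻¹ * S.sC w (fun y => S.th f (y⁻¹ * x)) := by
  have hB := card_ne (H := S.B)
  obtain ⟨n, hn⟩ : ∃ n, n = len S.σ w := ⟨_, rfl⟩
  induction n generalizing w x with
  | zero =>
    have hw : w = 1 := S.ex.len_eq_zero.1 hn.symm
    subst hw
    rw [lamE_one, S.sC_one, S.sB_congr (f' := fun _ => S.th f x) (fun b hb => S.th_mulL f (inv_mem hb)), S.sB_const,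
      inv_mul_cancel_left₀ hB]
    rfl
  | succ n ih =>
    have hw : w ≠ 1 := by
      rintro rfl
      rw [S.ex.len_one] at hn
      omega
    obtain ⟨i, hi⟩ := S.ex.exists_left hw
    obtain ⟨v, hv⟩ : ∃ v, v = S.σ i * w := ⟨_, rfl⟩
    have hwv : w = S.σ i * v := by rw [hv, S.ex.σ_mul_σ_mul]
    rw [← hv] at hi
    have hlt : len S.σ v < len S.σ (S.σ i * v) := by rw [← hwv]; omega
    have h1 : lamE S.ex (q : ℂ) w f = lam S.σ (q : ℂ) i (lamE S.ex (q : ℂ) v f) := by
      rw [hwv, lamE_mul S.ex _ hlt]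
    rw [h1, S.th_lam hq]
    congr 1
    have h2 : S.sC (S.σ i) (fun y => S.th (lamE S.ex (q : ℂ) v f) (y⁻¹ * x)) =
        S.sC (S.σ i) (fun y => (Nat.card S.B : ℂ)⁻¹ * S.sC v (fun z => S.th f ((y * z)⁻¹ * x))) := by
      apply S.sC_congr
      intro y _
      rw [ih v (y⁻¹ * x) (by omega)]
      congr 1
      apply S.sC_congr
      intro z _
      congr 1
      group
    rw [h2, S.sC_mul, S.sC_sC hq hlt (f := fun u => S.th f (u⁻¹ * x)) (fun y b hb => by
      rw [mul_inv_rev, mul_assoc, S.th_mulL f (inv_mem hb)]), inv_mul_cancel_left₀ hB, ← hwv]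

include hq in
theorem th_rhoE [Fintype W] (w : W) (f : W → ℂ) (x : G) :
    S.th (rhoE S.ex (q : ℂ) w f) x = (Nat.card S.B : ℂ)⁻¹ * S.sC w (fun y => S.th f (x * y)) := by
  have h1 : ∀ (g : W → ℂ) (x : G), S.th (inve g) x = S.th g x⁻¹ := by
    intro g x
    unfold th
    rw [inve_apply, S.wt_inv]
  rw [rhoE_apply, h1, S.th_lamE hq]
  congr 1
  apply S.sC_congr
  intro y _
  rw [h1, mul_inv_rev, inv_inv, inv_inv]

include hq in
theorem th_Ph [Fintype W] (w : W) (f : W → ℂ) (x : G) :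
    S.th (Ph S.ex (q : ℂ) w f) x = (Nat.card S.B : ℂ)⁻¹ * ((Nat.card S.B : ℂ)⁻¹ * S.sC w (fun y => S.sC w (fun z => S.th f (y⁻¹ * x * z)))) := by
  rw [Ph_apply, S.th_lamE hq]
  congr 1
  rw [← S.sC_mul]
  apply S.sC_congr
  intro y _
  rw [S.th_rhoE hq]

end CfsgLib.St.BD
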