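import Mathlib
import Cfsg.Agent.Lib.H2St2
import Cfsg.Agent.Lib.CharClifford

/-! The Steinberg characters of the standard parabolic subgroups. -/

namespace CfsgLib.St

open CfsgLib.BNP CfsgLib CfsgLib.CharBasic CfsgLib.CharInd Cfsg ComplexConjugate
open scoped Classical

namespace BD

variable {G W ι : Type*} [Group G] [Group W] [Fintype G] (S : BD G W ι)

/-- uniqueness of the elements without right ascents -/
def Uq : Prop := ∀ (J : Set ι) (z z' : W), S.Mx J z → S.Mx J z' → z = z'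

variable {S}

omit [Fintype G] in
theorem Uq.left (hU : S.Uq) {J : Set ι} {z : W} (hz : S.Mx J z) {k : ι} (hk : k ∈ J) :
    len S.σ (S.σ k * z) < len S.σ z := by
  by_contra h
  have h1 := S.ex.len_ne k z
  have h2 : S.Mx J (S.σ k * z) := by
    refine ⟨mul_mem (σ_mem_par hk) hz.1, fun t ht => ?_⟩
    have h3 := hz.2 t ht
    rw [mul_assoc]
    have h4 := S.ex.len_σ_mul_le k (z * S.σ t)
    omega
  have h3 := hU J _ _ hz h2
  apply h1
  rw [← h3]

omit [Fintype G] in
theorem exists_Mx [Fintype W] (J : Set ι) : ∃ z, S.Mx J z := by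
  obtain ⟨z, hz, hmax⟩ := Finset.exists_max_image (Finset.univ.filter fun z : W => z ∈ par S.σ J)
    (fun z => len S.σ z) ⟨1, by simp [one_mem]⟩
  rw [Finset.mem_filter] at hz
  refine ⟨z, hz.2, fun k hk => ?_⟩
  have h1 := hmax (z * S.σ k) (by
    rw [Finset.mem_filter]
    exact ⟨Finset.mem_univ _, mul_mem hz.2 (σ_mem_par hk)⟩)
  have h2 := S.ex.len_ne' k z
  omega

theorem Uq.sum_st [Fintype W] (hU : S.Uq) {J : Finset ι} {K : Set ι} (hK : K ⊆ ↑J) :
    (∑ x : G, if x ∈ S.parG K then S.st J x else 0) = (Nat.card (S.parG K) : ℂ) *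
      (if K = ∅ then 1 else 0) := by
  rw [S.sum_st hK]
  congr 1
  obtain ⟨z, hz⟩ := exists_Mx (S := S) (↑J : Set ι)
  by_cases h : K = ∅
  · subst h
    rw [if_pos rfl, Finset.sum_eq_single z]
    · rw [if_pos]
      exact ⟨fun k hk => absurd hk (by simp), hz⟩
    · intro d _ hd
      rw [if_neg]
      rintro ⟨_, h2⟩
      exact hd (hU _ _ _ h2 hz)
    · intro h; exact absurd (Finset.mem_univ _) h
  · rw [if_neg h]
    refine Finset.sum_eq_zero (fun d _ => ?_)
    rw [if_neg]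
    rintro ⟨h1, h2⟩
    obtain ⟨k, hk⟩ := Set.nonempty_iff_ne_empty.2 h
    have h3 := h1 k hk
    have h4 := hU.left h2 (hK hk)
    omega

/-- the value of the alternating sum on `B` -/
theorem Uq.st_B (hU : S.Uq) {J : Finset ι} {n : G} (hn : S.Mx ↑J (S.wt n)) {b : G} (hb : b ∈ S.B) :
    (Nat.card ↥(S.B ⊓ S.B.map (MulAut.conj n).toMonoidHom) : ℂ) * S.st J b =
      ∑ c : G, (if c ∈ S.B ∧ c⁻¹ * b * c ∈ S.B ⊓ S.B.map (MulAut.conj n).toMonoidHom then 1 else 0) := by
  set Q := S.B ⊓ S.B.map (MulAut.conj n).toMonoidHom with hQ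
  have hQm : ∀ x, x ∈ Q ↔ x ∈ S.B ∧ n⁻¹ * x * n ∈ S.B := by
    intro x
    rw [hQ, Subgroup.mem_inf, Subgroup.mem_map]
    constructor
    · rintro ⟨h1, y, hy, rfl⟩
      refine ⟨h1, ?_⟩
      have e : n⁻¹ * (MulAut.conj n).toMonoidHom y * n = y := by
        change n⁻¹ * (n * y * n⁻¹) * n = y
        group
      rwa [e]
    · rintro ⟨h1, h2⟩
      refine ⟨h1, _, h2, ?_⟩
      change n * (n⁻¹ * x * n) * n⁻¹ = x
      group
  rw [S.st_B J hb]
  -- count pairs
  have key : (Nat.card Q : ℂ) * ∑ g : G, (if S.Mx ↑J (S.wt g) ∧ g⁻¹ * b * g ∈ S.B then (1 : ℂ) else 0) =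
      (Nat.card S.B : ℂ) * ∑ c : G, (if c ∈ S.B ∧ c⁻¹ * b * c ∈ Q then 1 else 0) := by
    have h1 : ∀ c : G, (Nat.card S.B : ℂ) * (if c ∈ S.B ∧ c⁻¹ * b * c ∈ Q then 1 else 0) =
        ∑ g : G, (if (c ∈ S.B ∧ (c * n)⁻¹ * g ∈ S.B) ∧ g⁻¹ * b * g ∈ S.B then 1 else 0) := by
      intro c
      by_cases hc : c ∈ S.B
      · rw [← sum_mem_left S.B (c * n)⁻¹, Finset.sum_mul]
        refine Finset.sum_congr rfl (fun g _ => ?_)
        by_cases hg : (c * n)⁻¹ * g ∈ S.B
        · rw [if_pos hg, one_mul]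
          congr 1
          apply propext
          have h2 : c⁻¹ * b * c ∈ S.B := mul_mem (mul_mem (inv_mem hc) hb) hc
          have e : g⁻¹ * b * g = ((c * n)⁻¹ * g)⁻¹ * (n⁻¹ * (c⁻¹ * b * c) * n) * ((c * n)⁻¹ * g) := by group
          constructor
          · rintro ⟨_, h3⟩
            refine ⟨⟨hc, hg⟩, ?_⟩
            rw [e]
            exact mul_mem (mul_mem (inv_mem hg) ((hQm _).1 h3).2) hg
          · rintro ⟨_, h3⟩
            refine ⟨hc, (hQm _).2 ⟨h2, ?_⟩⟩
            have := mul_mem (mul_mem hg h3) (inv_mem hg)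
            rw [e] at this
            rwa [show (c * n)⁻¹ * g * (((c * n)⁻¹ * g)⁻¹ * (n⁻¹ * (c⁻¹ * b * c) * n) * ((c * n)⁻¹ * g)) *
              ((c * n)⁻¹ * g)⁻¹ = n⁻¹ * (c⁻¹ * b * c) * n by group] at this
        · rw [if_neg hg, zero_mul, if_neg (fun h => hg h.1.2)]
      · rw [if_neg (fun h => hc h.1), mul_zero]
        refine (Finset.sum_eq_zero (fun g _ => ?_)).symm
        rw [if_neg (fun h => hc h.1.1)]
    rw [Finset.mul_sum, Finset.mul_sum, Finset.sum_congr rfl (fun c _ => h1 c), Finset.sum_comm]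
    refine Finset.sum_congr rfl (fun g _ => ?_)
    by_cases hg : g⁻¹ * b * g ∈ S.B
    · simp only [hg, and_true]
      by_cases hm : S.Mx ↑J (S.wt g)
      · rw [if_pos hm, mul_one]
        have h2 : S.wt g = S.wt n := hU _ _ _ hm hn
        obtain ⟨c0, hc0, b0, hb0, h3⟩ := S.trans (S.mem_C_wt n) (by rw [← h2]; exact S.mem_C_wt g)
        rw [← sum_mem_left Q c0⁻¹]
        refine Finset.sum_congr rfl (fun c _ => ?_)
        congr 1
        apply propext
        rw [hQm]
        have e1 : (c * n)⁻¹ * g = (n⁻¹ * (c0⁻¹ * c) * n)⁻¹ * b0 := by rw [h3]; group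
        constructor
        · rintro ⟨h4, h5⟩
          refine ⟨by have := mul_mem hc0 h4; rwa [mul_inv_cancel_left] at this, ?_⟩
          rw [e1]
          exact mul_mem (inv_mem h5) hb0
        · rintro ⟨h4, h5⟩
          refine ⟨mul_mem (inv_mem hc0) h4, ?_⟩
          rw [e1] at h5
          have := mul_mem hb0 (inv_mem h5)
          rwa [show b0 * ((n⁻¹ * (c0⁻¹ * c) * n)⁻¹ * b0)⁻¹ = n⁻¹ * (c0⁻¹ * c) * n by group] at this
      · rw [if_neg hm, mul_zero]
        refine (Finset.sum_eq_zero (fun c _ => ?_)).symm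
        rw [if_neg]
        rintro ⟨h4, h5⟩
        apply hm
        have h6 : S.wt g = S.wt n := by
          have h7 : g = c * (n * ((c * n)⁻¹ * g)) := by group
          rw [h7, S.wt_mulL h4, S.wt_mulR h5]
        rw [h6]; exact hn
    · simp only [hg, and_false, if_false, mul_zero, Finset.sum_const_zero]
  have hB := card_ne (H := S.B)
  rw [mul_left_comm, key, inv_mul_cancel_left₀ hB]

/-- the degree -/
theorem Uq.st_one (hU : S.Uq) {J : Finset ι} {n : G} (hn : S.Mx ↑J (S.wt n)) :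
    (Nat.card ↥(S.B ⊓ S.B.map (MulAut.conj n).toMonoidHom) : ℂ) * S.st J 1 = Nat.card S.B := by
  rw [hU.st_B hn (one_mem _), ← sum_mem S.B]
  refine Finset.sum_congr rfl (fun c _ => ?_)
  congr 1
  apply propext
  constructor
  · exact fun h => h.1
  · intro h
    refine ⟨h, ?_⟩
    rw [mul_one, inv_mul_cancel]
    exact one_mem _

variable (S)

theorem nn_conj {J K : Set ι} (x : G) {g : G} (hg : g ∈ S.parG J) : S.nn J K (g * x * g⁻¹) = S.nn J K x := by
  unfold nn
  refine Fintype.sum_equiv (Equiv.mulLeft g⁻¹) _ _ (fun y => ?_)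
  simp only [Equiv.coe_mulLeft]
  congr 1
  apply propext
  have e : (g⁻¹ * y)⁻¹ * x * (g⁻¹ * y) = y⁻¹ * (g * x * g⁻¹) * y := by group
  rw [e]
  constructor
  · rintro ⟨h1, h2⟩
    exact ⟨mul_mem (inv_mem hg) h1, h2⟩
  · rintro ⟨h1, h2⟩
    refine ⟨?_, h2⟩
    have := mul_mem hg h1
    rwa [mul_inv_cancel_left] at this

theorem st_conj {J : Finset ι} (x : G) {g : G} (hg : g ∈ S.parG ↑J) : S.st J (g * x * g⁻¹) = S.st J x := by
  unfold st
  refine Finset.sum_congr rfl (fun K _ => ?_)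
  rw [S.nn_conj x hg]

theorem nn_real (J K : Set ι) (x : G) : conj (S.nn J K x) = S.nn J K x := by
  unfold nn
  rw [map_sum]
  refine Finset.sum_congr rfl (fun g _ => ?_)
  split_ifs <;> simp

theorem st_real (J : Finset ι) (x : G) : conj (S.st J x) = S.st J x := by
  unfold st
  rw [map_sum]
  refine Finset.sum_congr rfl (fun K _ => ?_)
  rw [map_mul, map_mul, nn_real, map_pow, map_neg, map_one, map_inv₀, map_natCast]

/-- `nn` as a permutation character of `P_J` -/
theorem nn_eq_indFun {J K : Set ι} [Fintype ↥(S.parG J)] (hKJ : K ⊆ J) (x : ↥(S.parG J)) :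
    (Nat.card (S.parG K) : ℂ)⁻¹ * S.nn J K x =
      indFun ((S.parG K).subgroupOf (S.parG J)) (fun _ => 1) x := by
  have hle := S.parG_mono hKJ
  rw [indFun_apply]
  have h1 : Nat.card ↥((S.parG K).subgroupOf (S.parG J)) = Nat.card (S.parG K) :=
    Nat.card_congr (Subgroup.subgroupOfEquivOfLe hle).toEquiv
  rw [h1]
  congr 1
  unfold nn
  rw [← Finset.sum_filter_add_sum_filter_not Finset.univ (fun g => g ∈ S.parG J),
    Finset.sum_eq_zero (s := Finset.univ.filter fun g => ¬ g ∈ S.parG J) (fun g hg => by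
      rw [if_neg (fun h => (Finset.mem_filter.1 hg).2 h.1)]), add_zero]
  rw [← Finset.sum_subtype_eq_sum_filter, Finset.subtype_univ]
  refine Finset.sum_congr (by ext; simp) (fun g _ => ?_)
  by_cases h : (g : G)⁻¹ * x * g ∈ S.parG K
  · rw [if_pos ⟨g.2, h⟩, ext_of_mem (H := (S.parG K).subgroupOf (S.parG J)) (Subgroup.mem_subgroupOf.2 h)]
  · rw [if_neg (fun h' => h h'.2), ext_of_not_mem]
    exact h

theorem st_gen (J : Finset ι) : IsGeneralizedCharacter ↥(S.parG ↑J) (fun x => S.st J x) := by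
  have h : (fun x : ↥(S.parG ↑J) => S.st J x) =
      ∑ K ∈ J.powerset, ((((-1 : ℤ) ^ K.card : ℤ) : ℂ)) •
        indFun ((S.parG ↑K).subgroupOf (S.parG ↑J)) (fun _ => 1) := by
    funext x
    rw [Finset.sum_apply]
    unfold st
    refine Finset.sum_congr rfl (fun K hK => ?_)
    rw [S.nn_eq_indFun (by exact_mod_cast Finset.mem_powerset.1 hK)]
    rw [Pi.smul_apply, smul_eq_mul]
    push_cast
    rfl
  rw [h]
  apply IsGeneralizedCharacter.sum
  intro K _
  apply IsGeneralizedCharacter.zsmul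
  exact IsCharacter.isGeneralized (isCharacter_indFun _ (IsIrrCharacter.isCharacter isIrr_one'))

/-- inner product of a class function on `P_J` with `St_J` -/
theorem inner_st {J : Finset ι} [Fintype ↥(S.parG (↑J : Set ι))] {f : ↥(S.parG (↑J : Set ι)) → ℂ}
    (hf : IsClassFunction _ f) :
    classInner f (fun x => S.st J x) = ∑ K ∈ J.powerset, (-1 : ℂ) ^ K.card *
      ((Nat.card (S.parG ↑K) : ℂ)⁻¹ * ∑ x : ↥(S.parG (↑J : Set ι)), if (x : G) ∈ S.parG ↑K then f x else 0) := by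
  have h : (fun x : ↥(S.parG ↑J) => S.st J x) =
      ∑ K ∈ J.powerset, ((-1 : ℂ) ^ K.card) •
        indFun ((S.parG ↑K).subgroupOf (S.parG ↑J)) (fun _ => 1) := by
    funext x
    rw [Finset.sum_apply]
    unfold st
    refine Finset.sum_congr rfl (fun K hK => ?_)
    rw [S.nn_eq_indFun (by exact_mod_cast Finset.mem_powerset.1 hK)]
    rw [Pi.smul_apply, smul_eq_mul]
  rw [h, classInner_sum_right]
  refine Finset.sum_congr rfl (fun K hK => ?_)
  rw [classInner_smul_right, map_pow, map_neg, map_one]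
  congr 1
  rw [frobenius' _ _ hf]
  have hle := S.parG_mono (K := (↑K : Set ι)) (L := (↑J : Set ι)) (by exact_mod_cast Finset.mem_powerset.1 hK)
  have h1 : Nat.card ↥((S.parG ↑K).subgroupOf (S.parG ↑J)) = Nat.card (S.parG ↑K) :=
    Nat.card_congr (Subgroup.subgroupOfEquivOfLe hle).toEquiv
  unfold classInner
  rw [h1]
  congr 1
  rw [← Finset.sum_filter]
  have h2 : (Finset.univ.filter fun x : ↥(S.parG (↑J : Set ι)) => (x : G) ∈ S.parG ↑K) =
      Finset.univ.filter (fun x => x ∈ (S.parG ↑K).subgroupOf (S.parG ↑J)) := by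
    ext x; simp [Subgroup.mem_subgroupOf]
  rw [h2, ← Finset.sum_subtype_eq_sum_filter, Finset.subtype_univ]
  refine Finset.sum_congr rfl (fun x _ => ?_)
  simp

theorem sum_parG (H : Subgroup G) [Fintype ↥H] (f : G → ℂ) :
    ∑ x : ↥H, f x = ∑ x : G, if x ∈ H then f x else 0 := by
  rw [← Finset.sum_filter, ← Finset.sum_subtype_eq_sum_filter, Finset.subtype_univ]

variable {S}

theorem Uq.norm [Fintype W] (hU : S.Uq) (J : Finset ι) [Fintype ↥(S.parG (↑J : Set ι))] :
    classInner (fun x : ↥(S.parG (↑J : Set ι)) => S.st J x) (fun x => S.st J x) = 1 := by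
  rw [S.inner_st (IsGeneralizedCharacter.isClassFunction (S.st_gen J))]
  have h1 : ∀ K ∈ J.powerset, (-1 : ℂ) ^ K.card * ((Nat.card (S.parG ↑K) : ℂ)⁻¹ *
      ∑ x : ↥(S.parG (↑J : Set ι)), if (x : G) ∈ S.parG ↑K then S.st J x else 0) =
      if K = ∅ then 1 else 0 := by
    intro K hK
    have hKJ : (↑K : Set ι) ⊆ ↑J := by exact_mod_cast Finset.mem_powerset.1 hK
    have hle := S.parG_mono hKJ
    rw [sum_parG (S.parG ↑J) (fun x => if x ∈ S.parG ↑K then S.st J x else 0)]
    have h2 : (∑ x : G, if x ∈ S.parG (↑J : Set ι) then (if x ∈ S.parG ↑K then S.st J x else 0) else 0) =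
        ∑ x : G, if x ∈ S.parG ↑K then S.st J x else 0 := by
      refine Finset.sum_congr rfl (fun x _ => ?_)
      by_cases h : x ∈ S.parG ↑K
      · rw [if_pos h, if_pos (hle h)]
      · rw [if_neg h, ite_self]
    rw [h2, hU.sum_st hKJ]
    rw [inv_mul_cancel_left₀ card_ne]
    by_cases h : K = ∅
    · subst h; simp
    · rw [if_neg h, if_neg, mul_zero]
      exact_mod_cast h
  rw [Finset.sum_congr rfl h1, Finset.sum_ite_eq' J.powerset ∅ (fun _ => (1 : ℂ)), if_pos (Finset.empty_mem_powerset J)]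

theorem Uq.st_one_pos [Fintype W] (hU : S.Uq) (J : Finset ι) : ∃ m : ℝ, 0 < m ∧ S.st J 1 = m := by
  obtain ⟨z, hz⟩ := exists_Mx (S := S) (↑J : Set ι)
  obtain ⟨n, hn⟩ := S.nonempty z
  have h := hU.st_one (J := J) (n := n) (by rw [S.mem_C_iff.1 hn]; exact hz)
  have h1 := card_ne (H := S.B ⊓ S.B.map (MulAut.conj n).toMonoidHom)
  refine ⟨Nat.card S.B / Nat.card ↥(S.B ⊓ S.B.map (MulAut.conj n).toMonoidHom), ?_, ?_⟩
  · have h2 : (0 : ℝ) < Nat.card S.B := by exact_mod_cast Nat.card_pos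
    have h3 : (0 : ℝ) < Nat.card ↥(S.B ⊓ S.B.map (MulAut.conj n).toMonoidHom) := by exact_mod_cast Nat.card_pos
    positivity
  · push_cast
    rw [eq_div_iff h1, mul_comm, h]

/-- the Steinberg character of `P_J` is irreducible -/
theorem Uq.irr [Fintype W] (hU : S.Uq) (J : Finset ι) : IsIrrCharacter ↥(S.parG ↑J) (fun x => S.st J x) := by
  obtain ⟨m, hm, h1⟩ := hU.st_one_pos J
  refine IsGeneralizedCharacter.irr_of_pos (S.st_gen J) (hU.norm J) ?_
  have : S.st J ((1 : ↥(S.parG (↑J : Set ι))) : G) = m := h1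
  rw [this]
  simpa using hm

end BD

end CfsgLib.St
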