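import Mathlib
import Cfsg.Agent.Lib.H2St3
import Cfsg.Agent.Lib.CHO3
import Cfsg.Prelude.Def_ParabolicCharacters

/-! Parabolic subgroups of Chevalley groups: data for the Steinberg character. -/

namespace CfsgLib.Chev
open Cfsg.Lie Matrix CfsgLib.BNP

namespace GD
variable {D : ChevalleyDatum} (M : GD D)

/-- the positive roots in the span of the fundamental roots in `J` -/
def PhiJ (J : Set (Fin D.rank)) : Set ℕ := {r | r ∈ PosS D ∧ ∀ i : Fin D.rank, i ∉ J → M.a i r = 0}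

/-- the positive roots not in the span of the fundamental roots in `J` -/
def RadJ (J : Set (Fin D.rank)) : Set ℕ := {r | r ∈ PosS D ∧ ∃ i : Fin D.rank, i ∉ J ∧ M.a i r ≠ 0}

theorem mem_Phi_or_Rad (J : Set (Fin D.rank)) {r : ℕ} (hr : r ∈ PosS D) : r ∈ M.PhiJ J ∨ r ∈ M.RadJ J := by
  by_cases h : ∃ i : Fin D.rank, i ∉ J ∧ M.a i r ≠ 0
  · exact Or.inr ⟨hr, h⟩
  · refine Or.inl ⟨hr, fun i hi => ?_⟩
    by_contra h'
    exact h ⟨i, hi, h'⟩

theorem refl_RadJ (J : Set (Fin D.rank)) {j : Fin D.rank} (hj : j ∈ J) {s : ℕ} (hs' : s < D.nroots)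
    (hs : s ∈ M.RadJ J) : D.reflectRoot j s ∈ M.RadJ J := by
  obtain ⟨hs, i, hi, hne⟩ := hs
  have hij : (i : ℕ) ≠ j := by
    intro h
    exact hi (by rw [Fin.ext h]; exact hj)
  refine ⟨M.N.refl_pos j.2 hs' hs ?_, i, hi, ?_⟩
  · rintro rfl
    rw [M.a_simple i.2 j.2, if_neg hij] at hne
    exact hne rfl
  · rw [M.a_refl j.2 i.2 hs', if_neg hij, sub_zero]
    exact hne

theorem rl_RadJ (J : Set (Fin D.rank)) {l : List (Fin D.rank)} (hl : ∀ i ∈ l, i ∈ J) {s : ℕ} (hs' : s < D.nroots)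
    (hs : s ∈ M.RadJ J) : rl D (wv l) s ∈ M.RadJ J := by
  induction l with
  | nil => exact hs
  | cons i l ih =>
    rw [wv_cons, rl_cons]
    exact M.refl_RadJ J (hl i (by simp)) (M.rl_lt (Wd_wv D l) hs') (ih (fun j hj => hl j (by simp [hj])))

/-- coordinates outside `J` are unchanged by `W_J` -/
theorem rl_a_out (J : Set (Fin D.rank)) {l : List (Fin D.rank)} (hl : ∀ i ∈ l, i ∈ J) {s : ℕ} (hs' : s < D.nroots)
    {i : Fin D.rank} (hi : i ∉ J) : M.a i (rl D (wv l) s) = M.a i s := by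
  induction l with
  | nil => rfl
  | cons j l ih =>
    have hij : (i : ℕ) ≠ j := by
      intro h
      exact hi (by rw [Fin.ext h]; exact hl j (by simp))
    rw [wv_cons, rl_cons, M.a_refl j.2 i.2 (M.rl_lt (Wd_wv D l) hs'), if_neg hij, sub_zero]
    exact ih (fun j hj => hl j (by simp [hj]))

/-- if a word makes the fundamental roots in `J` negative then it makes all of `Φ_J⁺` negative -/
theorem all_neg_J (J : Set (Fin D.rank)) {l : List (Fin D.rank)}
    (h : ∀ j ∈ J, rl D (wv l) (D.simple j) ∉ PosS D) {s : ℕ} (hs' : s < D.nroots) (hs : s ∈ M.PhiJ J) :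
    rl D (wv l) s ∉ PosS D := by
  intro h1
  have h2 := M.L_pos' (M.rl_lt (Wd_wv D l) hs') h1
  rw [M.rl_L (Wd_wv D l) hs'] at h2
  have h3 : ∑ i ∈ Finset.range D.rank, M.a i s * M.L (rl D (wv l) (D.simple i)) ≤ 0 := by
    apply Finset.sum_nonpos
    intro i hi
    have hi := Finset.mem_range.mp hi
    by_cases hiJ : (⟨i, hi⟩ : Fin D.rank) ∈ J
    · have h4 := M.L_neg' (M.rl_lt (Wd_wv D l) (M.N.simple_lt i hi)) (Nat.lt_of_not_le (h ⟨i, hi⟩ hiJ))
      have h5 := M.nonneg s hs' hs.1 i hi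
      nlinarith
    · have := hs.2 ⟨i, hi⟩ hiJ
      simp only at this
      rw [this, zero_mul]
  omega

end GD

namespace CG
variable {D : ChevalleyDatum} {F : Type*} [Field F] (M : CG D F)

include M in
theorem pos_trans {r s k : ℕ} (hr : r < D.nroots) (hs : s < D.nroots) (hrP : r ∈ PosS D) (hsP : s ∈ PosS D)
    (hk : k < D.nroots) {i j : ℕ} (hi : 1 ≤ i) (hj : 1 ≤ j) (hc : M.Cmb r s k i j) : k ∈ PosS D :=
  (M.act_Ici (m := D.nroots / 2) hr hrP le_rfl s hsP hs).2 k hk i j hi hj hc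

include M in
theorem act_RadJ (J : Set (Fin D.rank)) {r : ℕ} (hr : r < D.nroots) (hr' : r ∈ PosS D) :
    M.Act r (M.RadJ J) := by
  rintro s ⟨hs, i, hi, hne⟩ hs'
  refine ⟨M.a_pos_ne_neg hr hs' hr' hs, fun k hk a b ha hb hc => ?_⟩
  refine ⟨M.pos_trans hr hs' hr' hs hk ha hb hc, i, hi, ?_⟩
  rw [hc i i.2]
  have h1 := M.nonneg r hr hr' i i.2
  have h2 := M.nonneg s hs' hs i i.2
  have ha' : (1 : ℤ) ≤ a := by exact_mod_cast ha
  have hb' : (1 : ℤ) ≤ b := by exact_mod_cast hb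
  have h3 : 0 < M.a i s := lt_of_le_of_ne h2 hne.symm
  have h4 : 0 < (b : ℤ) * M.a i s := by positivity
  have h5 : 0 ≤ (a : ℤ) * M.a i r := by positivity
  omega

theorem parabolic_eq (K : Set (Fin D.rank)) :
    (D.parabolicSubgroup F (Fin.val '' K)).subgroupOf (D.group F) = M.bnp.parabolic (M.niG '' K) := by
  have h1 : (M.bnp.parabolic (M.niG '' K)).map (D.group F).subtype = D.parabolicSubgroup F (Fin.val '' K) := by
    unfold Cfsg.BNPair.parabolic ChevalleyDatum.parabolicSubgroup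
    rw [Subgroup.map_sup, MonoidHom.map_closure]
    congr 1
    · change ((D.borelSubgroup F).subgroupOf (D.group F)).map (D.group F).subtype = _
      rw [Subgroup.map_subgroupOf_eq_of_le M.B_le_G]
    · congr 1
      ext g
      constructor
      · rintro ⟨_, ⟨j, hj, rfl⟩, rfl⟩
        exact ⟨j, ⟨j, hj, rfl⟩, j.2, M.coe_ng _ _⟩
      · rintro ⟨_, ⟨j, hj, rfl⟩, _, h⟩
        exact ⟨_, ⟨j, hj, rfl⟩, (M.eq_ng.mp h).symm⟩
  rw [← h1]
  exact Subgroup.comap_map_eq_self_of_injective (D.group F).subtype_injective _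

theorem par_sW (K : Set (Fin D.rank)) : par M.sW K = par (BNP.sg M.bnp) (idx M.bnp (M.niG '' K)) := by
  have h : idx M.bnp (M.niG '' K) = M.eS '' K := by
    ext s
    constructor
    · rintro ⟨i, hi, h⟩
      exact ⟨i, hi, Subtype.ext h⟩
    · rintro ⟨i, hi, rfl⟩
      exact ⟨i, hi, rfl⟩
  rw [h]
  unfold par sW
  rw [Set.image_comp]

theorem niG_subset (K : Set (Fin D.rank)) : M.niG '' K ⊆ M.bnp.S := by
  rintro _ ⟨i, _, rfl⟩
  exact M.niG_mem_S i

/-- the Bruhat decomposition of a Chevalley group -/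
noncomputable def bd : St.BD ↥(D.group F) (Weyl M.bnp) (Fin D.rank) where
  B := M.bnp.B
  C := C M.bnp
  σ := M.sW
  ex := M.exW
  C_one := C_one
  cover := exists_mem_C
  uniq := eq_of_mem_C
  inv := inv_mem_C
  trans := by
    intro w g h hg hh
    obtain ⟨n, rfl⟩ := cls_surj w
    rw [mem_C_cls] at hg hh
    obtain ⟨b, hb, b', hb', rfl⟩ := hg
    obtain ⟨c, hc, c', hc', rfl⟩ := hh
    exact ⟨c * b⁻¹, mul_mem hc (inv_mem hb), b'⁻¹ * c', mul_mem (inv_mem hb') hc', by group⟩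
  mulR := mul_right_mem_C
  mulL := mul_left_mem_C
  dec := exists_mul_of_mem_C
  step := fun hx hy => step' hx hy
  mul := by
    intro w i x y h hx hy
    refine mul_mem_C_of_le' (s := M.eS i) ?_ hx hy
    rw [← len_comp (BNP.sg M.bnp) M.eS, ← len_comp (BNP.sg M.bnp) M.eS]
    exact h
  nonempty := C_nonempty
  parG := fun K => (D.parabolicSubgroup F (Fin.val '' K)).subgroupOf (D.group F)
  mem_parG := by
    intro K w g hg
    rw [M.parabolic_eq, mem_parabolic_iff (M.niG_subset K) hg, M.par_sW]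

theorem bd_σ : M.bd.σ = M.sW := rfl
theorem bd_B : M.bd.B = (D.borelSubgroup F).subgroupOf (D.group F) := rfl

/-- fundamental roots made negative by an element without right ascents in `J` -/
theorem neg_of_Mx {J : Set (Fin D.rank)} {z : Weyl M.bnp} (hz : M.bd.Mx J z) {l : List (Fin D.rank)}
    (hl : wd M.sW l = z) {j : Fin D.rank} (hj : j ∈ J) : rl D (wv l) (D.simple j) ∉ PosS D := by
  obtain ⟨l0, h1, h2⟩ := M.exW.exists_red_concat (hz.2 j hj)
  have h3 := M.pos_of_red h1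
  have h4 : rl D (wv l) (D.simple j) = rl D (wv (l0 ++ [j])) (D.simple j) := by
    apply M.rl_eq_of_prod_rf _ (M.N.simple_lt j j.2)
    rw [← M.wd_eq_iff, hl, h2]
  rw [h4, wv_append, rl_append]
  change rl D (wv l0) (D.reflectRoot j (D.simple j)) ∉ PosS D
  rw [M.N.refl_simple j.2, M.rl_neg (Wd_wv D l0) (M.N.simple_lt j j.2)]
  intro h5
  exact M.a_pos_ne_neg (M.rl_lt (Wd_wv D l0) (M.N.simple_lt j j.2))
    (M.N.neg_lt (M.rl_lt (Wd_wv D l0) (M.N.simple_lt j j.2))) h3 h5 rfl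

include M in
theorem pos_or (l : List (Fin D.rank)) {s : ℕ} (hs : s < D.nroots) (h : rl D (wv l) s ∉ PosS D) :
    rl D (wv l) (D.neg s) ∈ PosS D := by
  rw [M.rl_neg (Wd_wv D l) hs]
  exact M.neg_mem_PosS (M.rl_lt (Wd_wv D l) hs) (GD.notPos_iff.1 h)

theorem a_neg_out {J : Set (Fin D.rank)} {s : ℕ} (hs : s < D.nroots)
    (h : ∀ i : Fin D.rank, i ∉ J → M.a i s = 0) (i : Fin D.rank) (hi : i ∉ J) : M.a i (D.neg s) = 0 := by
  rw [M.a_neg i.2 hs, h i hi, neg_zero]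

theorem uq : M.bd.Uq := by
  intro J z z' hz hz'
  obtain ⟨l, hlJ, hl⟩ := M.exW.toInvSys.exists_word_of_mem_par hz.1
  obtain ⟨l', hlJ', hl'⟩ := M.exW.toInvSys.exists_word_of_mem_par hz'.1
  have hlrJ : ∀ i ∈ l.reverse, i ∈ J := fun i hi => hlJ i (by simpa using hi)
  have key : z⁻¹ * z' = 1 := by
    by_contra hne
    obtain ⟨j, hj, h1, h2⟩ := M.exW.exists_right_mem_par (mul_mem (inv_mem hz.1) hz'.1) hne
    -- then `z⁻¹ z'` makes `j` negative
    have h3 : rl D (wv (l.reverse ++ l')) (D.simple j) ∉ PosS D := by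
      have hw : wd M.sW (l.reverse ++ l') = z⁻¹ * z' := by
        rw [wd_append, M.exW.wd_reverse]
        have hl2 : wd M.sW l = z := hl
        have hl2' : wd M.sW l' = z' := hl'
        rw [hl2, hl2']
      obtain ⟨l0, h4, h5⟩ := M.exW.exists_red_concat (w := z⁻¹ * z') (i := j) (by omega)
      have h6 := M.pos_of_red h4
      have h7 : rl D (wv (l.reverse ++ l')) (D.simple j) = rl D (wv (l0 ++ [j])) (D.simple j) := by
        apply M.rl_eq_of_prod_rf _ (M.N.simple_lt j j.2)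
        rw [← M.wd_eq_iff, hw, h5]
      rw [h7, wv_append, rl_append]
      change rl D (wv l0) (D.reflectRoot j (D.simple j)) ∉ PosS D
      rw [M.N.refl_simple j.2, M.rl_neg (Wd_wv D l0) (M.N.simple_lt j j.2)]
      intro h8
      exact M.a_pos_ne_neg (M.rl_lt (Wd_wv D l0) (M.N.simple_lt j j.2))
        (M.N.neg_lt (M.rl_lt (Wd_wv D l0) (M.N.simple_lt j j.2))) h6 h8 rfl
    apply h3
    have hjl := M.N.simple_lt j j.2
    -- β
    obtain ⟨β, hβ⟩ : ∃ β, β = rl D (wv l') (D.simple j) := ⟨_, rfl⟩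
    have hβl : β < D.nroots := by rw [hβ]; exact M.rl_lt (Wd_wv D l') hjl
    have hβn : β ∉ PosS D := by rw [hβ]; exact M.neg_of_Mx hz' hl' hj
    have hβo : ∀ i : Fin D.rank, i ∉ J → M.a i β = 0 := by
      intro i hi
      rw [hβ, M.rl_a_out J hlJ' hjl hi, M.a_simple i.2 j.2, if_neg]
      intro h; exact hi (by rw [Fin.ext h]; exact hj)
    have hγ : D.neg β ∈ PosS D := M.neg_mem_PosS hβl (GD.notPos_iff.1 hβn)
    have hγl := M.N.neg_lt hβl
    have hδl := M.rl_lt (Wd_wv D l.reverse) hγl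
    have hrev : rl D (wv l) (rl D (wv l.reverse) (D.neg β)) = D.neg β := by
      have := M.rl_reverse (l := wv l.reverse) (Wd_wv D _) hγl
      rwa [← wv_reverse, List.reverse_reverse] at this
    have hδ : rl D (wv l.reverse) (D.neg β) ∉ PosS D := by
      intro h
      have h9 : rl D (wv l.reverse) (D.neg β) ∈ M.PhiJ J := by
        refine ⟨h, fun i hi => ?_⟩
        rw [M.rl_a_out J hlrJ hγl hi]
        exact M.a_neg_out hβl hβo i hi
      have h10 := M.all_neg_J J (l := l) (fun j hj => M.neg_of_Mx hz hl hj) hδl h9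
      rw [hrev] at h10
      exact h10 hγ
    have h11 := M.pos_or l.reverse hγl hδ
    rw [M.N.neg_neg hβl] at h11
    rw [wv_append, rl_append, ← hβ]
    exact h11
  exact inv_mul_eq_one.1 key

/-- the unipotent radical of `P_J` -/
def UJ (J : Set (Fin D.rank)) : Subgroup (GL D.Idx F) := XS D F (M.RadJ J)

theorem UJ_le_U (J : Set (Fin D.rank)) : M.UJ J ≤ D.posUnipotent F := by
  rw [M.U_eq]
  exact XS_mono D F (fun s hs _ => hs.1)

theorem U_norm_UJ (J : Set (Fin D.rank)) :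
    D.posUnipotent F ≤ Subgroup.normalizer (M.UJ J : Set (GL D.Idx F)) := by
  rw [M.U_eq]
  conv_lhs => unfold XS
  rw [Subgroup.closure_le]
  rintro g ⟨r, t, hr, hr', rfl⟩
  exact M.xg_norm hr' (M.act_RadJ J hr' hr) t

theorem B_norm_UJ (J : Set (Fin D.rank)) :
    D.borelSubgroup F ≤ Subgroup.normalizer (M.UJ J : Set (GL D.Idx F)) :=
  sup_le (M.U_norm_UJ J) (M.diag_norm _)

theorem ni_norm_UJ {J : Set (Fin D.rank)} {j : Fin D.rank} (hj : j ∈ J) :
    ni D F j ∈ Subgroup.normalizer (M.UJ J : Set (GL D.Idx F)) :=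
  M.ni_norm j.2 (fun _ hs hs' => M.refl_RadJ J hj hs' hs)

theorem P_norm_UJ (J : Set (Fin D.rank)) :
    D.parabolicSubgroup F (Fin.val '' J) ≤ Subgroup.normalizer (M.UJ J : Set (GL D.Idx F)) := by
  refine sup_le (M.B_norm_UJ J) ?_
  rw [Subgroup.closure_le]
  rintro g ⟨_, ⟨j, hj, rfl⟩, _, h⟩
  rw [M.eq_ng.mp h]
  exact M.ni_norm_UJ hj

theorem nl_norm_UJ {J : Set (Fin D.rank)} {l : List (Fin D.rank)} (hl : ∀ i ∈ l, i ∈ J) :
    nl D F (wv l) ∈ Subgroup.normalizer (M.UJ J : Set (GL D.Idx F)) := by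
  induction l with
  | nil => exact one_mem _
  | cons i l ih =>
    rw [wv_cons, nl_cons]
    exact mul_mem (M.ni_norm_UJ (hl i (by simp))) (ih (fun j hj => hl j (by simp [hj])))

/-- `U = U^J U_J` -/
theorem mem_U_J (J : Set (Fin D.rank)) {g : GL D.Idx F} (hg : g ∈ D.posUnipotent F) :
    ∃ x ∈ XS D F (M.PhiJ J), ∃ u ∈ M.UJ J, g = x * u := by
  have h1 : D.posUnipotent F ≤ XS D F (M.PhiJ J) ⊔ M.UJ J := by
    rw [M.U_eq]
    conv_lhs => unfold XS
    rw [Subgroup.closure_le]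
    rintro g ⟨r, t, hr, hr', rfl⟩
    rcases M.mem_Phi_or_Rad J hr with h | h
    · exact Subgroup.mem_sup_left (xg_mem_XS D h hr' t)
    · exact Subgroup.mem_sup_right (xg_mem_XS D h hr' t)
  have h2 : XS D F (M.PhiJ J) ≤ Subgroup.normalizer (M.UJ J : Set (GL D.Idx F)) := by
    refine le_trans ?_ (M.U_norm_UJ J)
    rw [M.U_eq]
    exact XS_mono D F (fun s hs _ => hs.1)
  have h3 := h1 hg
  rw [← SetLike.mem_coe, Subgroup.coe_mul_of_left_le_normalizer_right _ _ h2] at h3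
  obtain ⟨x, hx, u, hu, rfl⟩ := h3
  exact ⟨x, hx, u, hu, rfl⟩

/-- the intersection of `B` with its conjugate under the longest element of `W_J` -/
theorem B_inf_conj {J : Set (Fin D.rank)} {l : List (Fin D.rank)} (hlJ : ∀ i ∈ l, i ∈ J)
    (hz : M.bd.Mx J (wd M.sW l)) {g : GL D.Idx F} :
    (g ∈ D.borelSubgroup F ∧ (nl D F (wv l))⁻¹ * g * nl D F (wv l) ∈ D.borelSubgroup F) ↔
      ∃ u ∈ M.UJ J, ∃ h ∈ D.diagonalSubgroup F, g = u * h := by
  have hnN := M.nl_norm_UJ (F := F) hlJ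
  constructor
  · rintro ⟨h1, h2⟩
    obtain ⟨u, hu, h, hh, he⟩ := M.mem_B.mp h2
    obtain ⟨x, hx, u', hu', rfl⟩ := M.mem_U_J J hu
    have e1 : g = (nl D F (wv l) * x * (nl D F (wv l))⁻¹) * ((nl D F (wv l) * u' * (nl D F (wv l))⁻¹) *
        (nl D F (wv l) * h * (nl D F (wv l))⁻¹)) := by
      have : g = nl D F (wv l) * ((nl D F (wv l))⁻¹ * g * nl D F (wv l)) * (nl D F (wv l))⁻¹ := by group
      rw [this, he]; group
    have hxV : nl D F (wv l) * x * (nl D F (wv l))⁻¹ ∈ D.negUnipotent F := by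
      rw [M.V_eq]
      refine M.nl_conj_XS (Wd_wv D l) (fun s hs hs' => ?_) hx
      exact GD.notPos_iff.1 (M.all_neg_J J (l := l) (fun j hj => M.neg_of_Mx hz rfl hj) hs' hs)
    have hu2 : nl D F (wv l) * u' * (nl D F (wv l))⁻¹ ∈ M.UJ J :=
      ((Subgroup.mem_normalizer_iff.mp hnN) u').mp hu'
    have hh2 := M.nl_norm_H (F := F) (Wd_wv D l) hh
    have h3 : nl D F (wv l) * x * (nl D F (wv l))⁻¹ = 1 := by
      have h4 : nl D F (wv l) * x * (nl D F (wv l))⁻¹ ∈ D.borelSubgroup F := by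
        have h5 : (nl D F (wv l) * u' * (nl D F (wv l))⁻¹) * (nl D F (wv l) * h * (nl D F (wv l))⁻¹) ∈
            D.borelSubgroup F := mul_mem (GD.U_le_B (M.UJ_le_U J hu2)) (GD.H_le_B hh2)
        have := mul_mem h1 (inv_mem h5)
        rw [e1, mul_inv_cancel_right] at this
        exact this
      have h6 : nl D F (wv l) * x * (nl D F (wv l))⁻¹ ∈ D.borelSubgroup F ⊓ D.negUnipotent F := ⟨h4, hxV⟩
      rw [M.B_inf_V] at h6
      exact h6
    rw [h3, one_mul] at e1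
    exact ⟨_, hu2, _, hh2, e1⟩
  · rintro ⟨u, hu, h, hh, rfl⟩
    refine ⟨mul_mem (GD.U_le_B (M.UJ_le_U J hu)) (GD.H_le_B hh), ?_⟩
    have hnN' := inv_mem hnN
    have h1 : (nl D F (wv l))⁻¹ * u * nl D F (wv l) ∈ M.UJ J := by
      have := ((Subgroup.mem_normalizer_iff.mp hnN') u).mp hu
      rwa [inv_inv] at this
    have h2 : (nl D F (wv l))⁻¹ * h * nl D F (wv l) ∈ D.diagonalSubgroup F := by
      have h3 := inv_mem (M.mono_le_norm (F := F) (M.nl_mem (Wd_wv D l)))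
      have := ((Subgroup.mem_normalizer_iff.mp h3) h).mp hh
      rwa [inv_inv] at this
    have e : (nl D F (wv l))⁻¹ * (u * h) * nl D F (wv l) =
        ((nl D F (wv l))⁻¹ * u * nl D F (wv l)) * ((nl D F (wv l))⁻¹ * h * nl D F (wv l)) := by group
    rw [e]
    exact mul_mem (GD.U_le_B (M.UJ_le_U J h1)) (GD.H_le_B h2)

end CG

end CfsgLib.Chev
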