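import Mathlib
import Cfsg.Agent.Lib.H2St4
import Cfsg.Agent.Lib.CHO4
import Cfsg.Agent.Lib.BrauerInd4

/-! The Steinberg character of a Chevalley group. -/

namespace CfsgLib.Chev
open Cfsg.Lie Matrix CfsgLib.BNP CfsgLib.CharInd
open scoped Classical
set_option linter.style.haveILetI false
set_option linter.unusedSectionVars false

namespace CG
variable {D : ChevalleyDatum} {F : Type*} [Field F] (M : CG D F) [Fintype ↥(D.group F)]

theorem fixedPoint_eq {G : Type*} [Group G] [Fintype G] (H : Subgroup G) (g : G) :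
    Cfsg.fixedPointCharacter H g = (Nat.card H : ℂ)⁻¹ * ∑ x : G, if x⁻¹ * g * x ∈ H then 1 else 0 := by
  have h1 : Cfsg.fixedPointCharacter H g = Cfsg.indFun H (fun _ => 1) g := by
    rw [← BrauerInd4.permZ_cast]
    unfold Cfsg.fixedPointCharacter BrauerInd4.permZ
    norm_cast
  rw [h1, indFun_apply]
  congr 1
  refine Finset.sum_congr rfl (fun x _ => ?_)
  by_cases hx : x⁻¹ * g * x ∈ H
  · rw [ext_of_mem hx, if_pos hx]
  · rw [ext_of_not_mem hx, if_neg hx]

theorem steinberg_eq (g : ↥(D.group F)) :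
    D.steinbergCharacter F g = M.bd.st Finset.univ g := by
  unfold ChevalleyDatum.steinbergCharacter St.BD.st
  symm
  refine Finset.sum_bij (fun K _ => K.map Fin.valEmbedding) ?_ ?_ ?_ ?_
  · intro K _
    rw [Finset.mem_powerset]
    intro j hj
    rw [Finset.mem_map] at hj
    obtain ⟨i, _, rfl⟩ := hj
    exact Finset.mem_range.2 i.2
  · intro K _ K' _ h
    exact Finset.map_injective _ h
  · intro J hJ
    rw [Finset.mem_powerset] at hJ
    refine ⟨Finset.univ.filter (fun i : Fin D.rank => (i : ℕ) ∈ J), by simp, ?_⟩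
    ext j
    rw [Finset.mem_map]
    constructor
    · rintro ⟨i, hi, rfl⟩
      exact (Finset.mem_filter.1 hi).2
    · intro hj
      exact ⟨⟨j, Finset.mem_range.1 (hJ hj)⟩, Finset.mem_filter.2 ⟨Finset.mem_univ _, hj⟩, rfl⟩
  · intro K _
    rw [Finset.card_map]
    congr 1
    rw [fixedPoint_eq]
    have h1 : D.parabolicIn F (K.map Fin.valEmbedding) = M.bd.parG ↑K := by
      unfold ChevalleyDatum.parabolicIn
      change _ = (D.parabolicSubgroup F (Fin.val '' (↑K : Set (Fin D.rank)))).subgroupOf (D.group F)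
      rw [Finset.coe_map]
      rfl
    rw [h1]
    congr 1
    unfold St.BD.nn
    refine Finset.sum_congr rfl (fun x _ => ?_)
    congr 1
    apply propext
    rw [Finset.coe_univ, M.bd.parG_univ]
    simp

omit [Fintype ↥(D.group F)] in
/-- a representative of the longest element of `W_J` -/
theorem exists_nJ [Finite ↥(D.group F)] (J : Set (Fin D.rank)) : ∃ l : List (Fin D.rank), (∀ i ∈ l, i ∈ J) ∧ M.bd.Mx J (wd M.sW l) := by
  haveI : Finite M.bnp.N := inferInstance
  haveI : Finite (Weyl M.bnp) := Quotient.finite _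
  haveI := Fintype.ofFinite (Weyl M.bnp)
  obtain ⟨z, hz⟩ := St.BD.exists_Mx (S := M.bd) J
  obtain ⟨l, hl, rfl⟩ := M.exW.toInvSys.exists_word_of_mem_par hz.1
  exact ⟨l, hl, hz⟩

/-- the element of the group for a word -/
noncomputable def nG (l : List (Fin D.rank)) : ↥(D.group F) := ⟨nl D F (wv l), M.N_le_G (M.nl_mem (Wd_wv D l))⟩

omit [Fintype ↥(D.group F)] in
theorem wt_nG (l : List (Fin D.rank)) : M.bd.wt (M.nG l) = wd M.sW l := by
  rw [← M.bd.mem_C_iff]
  change M.nG l ∈ C M.bnp (wd M.sW l)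
  rw [M.wd_sW]
  exact self_mem_C _

/-- `U_J H` as a subgroup -/
def UJH (J : Set (Fin D.rank)) : Subgroup (GL D.Idx F) := M.UJ J ⊔ D.diagonalSubgroup F

omit [Fintype ↥(D.group F)] in
theorem mem_UJH (J : Set (Fin D.rank)) {g : GL D.Idx F} :
    g ∈ M.UJH J ↔ ∃ u ∈ M.UJ J, ∃ h ∈ D.diagonalSubgroup F, g = u * h := by
  unfold UJH
  have h2 : D.diagonalSubgroup F ≤ Subgroup.normalizer (M.UJ J : Set (GL D.Idx F)) := M.diag_norm _
  rw [← SetLike.mem_coe, Subgroup.coe_mul_of_right_le_normalizer_left _ _ h2]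
  constructor
  · rintro ⟨u, hu, h, hh, rfl⟩
    exact ⟨u, hu, h, hh, rfl⟩
  · rintro ⟨u, hu, h, hh, rfl⟩
    exact ⟨u, hu, h, hh, rfl⟩

omit [Fintype ↥(D.group F)] in
theorem card_UJH (J : Set (Fin D.rank)) : Nat.card (M.UJH J) = Nat.card (M.UJ J) * Nat.card (D.diagonalSubgroup F) := by
  rw [← Nat.card_prod]
  refine (Nat.card_congr (Equiv.ofBijective (fun p : M.UJ J × D.diagonalSubgroup F =>
    (⟨(p.1 : GL D.Idx F) * p.2, (M.mem_UJH J).2 ⟨_, p.1.2, _, p.2.2, rfl⟩⟩ : M.UJH J)) ⟨?_, ?_⟩)).symm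
  · rintro ⟨⟨u, hu⟩, ⟨h, hh⟩⟩ ⟨⟨u', hu'⟩, ⟨h', hh'⟩⟩ he
    have h1 : u * h = u' * h' := congrArg Subtype.val he
    have h2 : u'⁻¹ * u = h' * h⁻¹ := by
      rw [eq_mul_inv_iff_mul_eq, mul_assoc, h1, inv_mul_cancel_left]
    have h3 : u'⁻¹ * u ∈ D.posUnipotent F ⊓ D.diagonalSubgroup F :=
      ⟨(D.posUnipotent F).mul_mem ((D.posUnipotent F).inv_mem (M.UJ_le_U J hu')) (M.UJ_le_U J hu), by
        rw [h2]; exact (D.diagonalSubgroup F).mul_mem hh' ((D.diagonalSubgroup F).inv_mem hh)⟩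
    rw [M.U_inf_H] at h3
    have h4 : u'⁻¹ * u = 1 := h3
    have h5 : u' = u := inv_mul_eq_one.1 h4
    subst h5
    have h6 : h = h' := mul_left_cancel h1
    subst h6
    rfl
  · rintro ⟨g, hg⟩
    obtain ⟨u, hu, h, hh, rfl⟩ := (M.mem_UJH J).1 hg
    exact ⟨(⟨u, hu⟩, ⟨h, hh⟩), rfl⟩

omit [Fintype ↥(D.group F)] in
theorem UJH_le_B (J : Set (Fin D.rank)) : M.UJH J ≤ D.borelSubgroup F :=
  sup_le ((M.UJ_le_U J).trans GD.U_le_B) GD.H_le_B

omit [Fintype ↥(D.group F)] in
/-- `B ∩ w_J B w_J⁻¹ = U_J H` -/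
theorem Q_eq {J : Set (Fin D.rank)} {l : List (Fin D.rank)} (hlJ : ∀ i ∈ l, i ∈ J)
    (hz : M.bd.Mx J (wd M.sW l)) :
    M.bd.B ⊓ M.bd.B.map (MulAut.conj (M.nG l)).toMonoidHom = (M.UJH J).subgroupOf (D.group F) := by
  ext g
  rw [Subgroup.mem_subgroupOf, M.mem_UJH, ← M.B_inf_conj hlJ hz, Subgroup.mem_inf, Subgroup.mem_map]
  constructor
  · rintro ⟨h1, y, hy, rfl⟩
    refine ⟨h1, ?_⟩
    have e : (nl D F (wv l))⁻¹ * ((MulAut.conj (M.nG l)).toMonoidHom y : ↥(D.group F)) * nl D F (wv l) = (y : GL D.Idx F) := by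
      change (nl D F (wv l))⁻¹ * (nl D F (wv l) * (y : GL D.Idx F) * (nl D F (wv l))⁻¹) * nl D F (wv l) = _
      group
    rw [e]
    exact hy
  · rintro ⟨h1, h2⟩
    refine ⟨h1, (M.nG l)⁻¹ * g * M.nG l, h2, ?_⟩
    change M.nG l * ((M.nG l)⁻¹ * g * M.nG l) * (M.nG l)⁻¹ = g
    group

theorem st_B_eq {J : Finset (Fin D.rank)} {b : ↥(D.group F)} (hb : (b : GL D.Idx F) ∈ D.borelSubgroup F) :
    (Nat.card (M.UJH ↑J) : ℂ) * M.bd.st J b =
      ∑ c : ↥(D.group F), (if (c : GL D.Idx F) ∈ D.borelSubgroup F ∧ ((c⁻¹ * b * c : ↥(D.group F)) : GL D.Idx F) ∈ M.UJH ↑J then 1 else 0) := by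
  obtain ⟨l, hl, hz⟩ := M.exists_nJ (↑J : Set (Fin D.rank))
  have h := M.uq.st_B (J := J) (n := M.nG l) (by rw [M.wt_nG]; exact hz) (b := b) hb
  rw [M.Q_eq hl hz] at h
  have h1 : Nat.card ((M.UJH (↑J : Set (Fin D.rank))).subgroupOf (D.group F)) = Nat.card (M.UJH (↑J : Set (Fin D.rank))) :=
    Nat.card_congr (Subgroup.subgroupOfEquivOfLe ((M.UJH_le_B _).trans M.B_le_G)).toEquiv
  rw [h1] at h
  rw [h]
  rfl

theorem UJ_pos (J : Set (Fin D.rank)) [Finite F] : (Nat.card (M.UJ J) : ℂ) ≠ 0 := by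
  have : 0 < Nat.card (M.UJ J) := Nat.card_pos
  exact_mod_cast this.ne'

/-- values on `U` -/
theorem st_U [Finite F] (J : Finset (Fin D.rank)) {u : ↥(D.group F)} (hu : (u : GL D.Idx F) ∈ D.posUnipotent F) :
    (Nat.card (M.UJ ↑J) : ℂ) * M.bd.st J u =
      if (u : GL D.Idx F) ∈ M.UJ ↑J then (Nat.card (D.posUnipotent F) : ℂ) else 0 := by
  have h := M.st_B_eq (J := J) (b := u) (GD.U_le_B hu)
  rw [M.card_UJH] at h
  have hH : (Nat.card (D.diagonalSubgroup F) : ℂ) ≠ 0 := by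
    have : 0 < Nat.card (D.diagonalSubgroup F) := Nat.card_pos
    exact_mod_cast this.ne'
  -- for `c ∈ B` the condition is `u ∈ U_J`
  have h2 : (∑ c : ↥(D.group F), (if (c : GL D.Idx F) ∈ D.borelSubgroup F ∧
      ((c⁻¹ * u * c : ↥(D.group F)) : GL D.Idx F) ∈ M.UJH ↑J then (1 : ℂ) else 0)) =
      ∑ c : ↥(D.group F), (if c ∈ (D.borelSubgroup F).subgroupOf (D.group F) then
        (if (u : GL D.Idx F) ∈ M.UJ ↑J then 1 else 0) else 0) := by
    refine Finset.sum_congr rfl (fun c _ => ?_)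
    by_cases hc : (c : GL D.Idx F) ∈ D.borelSubgroup F
    · have hc' : c ∈ (D.borelSubgroup F).subgroupOf (D.group F) := hc
      rw [if_pos hc']
      congr 1
      apply propext
      have hcn := inv_mem (M.B_norm_UJ (J := (↑J : Set (Fin D.rank))) hc)
      have hcn2 : (c : GL D.Idx F)⁻¹ ∈ Subgroup.normalizer (D.posUnipotent F : Set (GL D.Idx F)) := by
        apply inv_mem
        obtain ⟨a, ha, b, hb, he⟩ := M.mem_B.mp hc
        rw [he]
        exact mul_mem (Subgroup.le_normalizer ha) (M.H_norm_U hb)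
      have e : ((c⁻¹ * u * c : ↥(D.group F)) : GL D.Idx F) = (c : GL D.Idx F)⁻¹ * u * (c : GL D.Idx F)⁻¹⁻¹ := by
        rw [inv_inv]; rfl
      have hU2 : (c : GL D.Idx F)⁻¹ * u * (c : GL D.Idx F)⁻¹⁻¹ ∈ D.posUnipotent F :=
        ((Subgroup.mem_normalizer_iff.mp hcn2) _).mp hu
      rw [e]
      constructor
      · rintro ⟨_, h3⟩
        obtain ⟨a, ha, b, hb, he⟩ := (M.mem_UJH _).1 h3
        have h4 : b = 1 := by
          have h5 : b ∈ D.posUnipotent F ⊓ D.diagonalSubgroup F := by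
            refine ⟨?_, hb⟩
            have h6 : b = a⁻¹ * (a * b) := by group
            rw [h6, ← he]
            exact (D.posUnipotent F).mul_mem ((D.posUnipotent F).inv_mem (M.UJ_le_U _ ha)) hU2
          rw [M.U_inf_H] at h5
          exact h5
        rw [h4, mul_one] at he
        rw [← he] at ha
        exact ((Subgroup.mem_normalizer_iff.mp hcn) _).mpr ha
      · intro h3
        exact ⟨hc, (M.mem_UJH _).2 ⟨_, ((Subgroup.mem_normalizer_iff.mp hcn) _).mp h3, 1, one_mem _, by rw [mul_one]⟩⟩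
    · have hc' : c ∉ (D.borelSubgroup F).subgroupOf (D.group F) := hc
      rw [if_neg hc', if_neg (fun h' => hc h'.1)]
  rw [h2] at h
  have h3 : (∑ c : ↥(D.group F), (if c ∈ (D.borelSubgroup F).subgroupOf (D.group F) then
        (if (u : GL D.Idx F) ∈ M.UJ ↑J then (1 : ℂ) else 0) else 0)) =
      (Nat.card (D.borelSubgroup F) : ℂ) * (if (u : GL D.Idx F) ∈ M.UJ ↑J then 1 else 0) := by
    have h4 := St.BD.sum_mem ((D.borelSubgroup F).subgroupOf (D.group F))
    have h5 : Nat.card ((D.borelSubgroup F).subgroupOf (D.group F)) = Nat.card (D.borelSubgroup F) :=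
      Nat.card_congr (Subgroup.subgroupOfEquivOfLe M.B_le_G).toEquiv
    rw [h5] at h4
    rw [← h4, Finset.sum_mul]
    refine Finset.sum_congr rfl (fun c _ => ?_)
    split_ifs <;> simp
  rw [h3, M.card_B] at h
  push_cast at h
  have h6 : (Nat.card (D.diagonalSubgroup F) : ℂ) * ((Nat.card (M.UJ ↑J) : ℂ) * M.bd.st J u) =
      (Nat.card (D.diagonalSubgroup F) : ℂ) * ((Nat.card (D.posUnipotent F) : ℂ) * (if (u : GL D.Idx F) ∈ M.UJ ↑J then 1 else 0)) := by
    linear_combination h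
  rw [mul_left_cancel₀ hH h6]
  split_ifs <;> simp

theorem st_one_eq [Finite F] (J : Finset (Fin D.rank)) :
    (Nat.card (M.UJ ↑J) : ℂ) * M.bd.st J 1 = Nat.card (D.posUnipotent F) := by
  have h := M.st_U J (u := 1) (one_mem _)
  rwa [if_pos (show ((1 : ↥(D.group F)) : GL D.Idx F) ∈ M.UJ ↑J from one_mem (M.UJ ↑J))] at h

omit [Fintype ↥(D.group F)] in
theorem UJ_univ : M.UJ Set.univ = (⊥ : Subgroup (GL D.Idx F)) := by
  unfold UJ XS
  rw [Subgroup.closure_eq_bot_iff]
  rintro g ⟨r, t, hr, hr', rfl⟩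
  obtain ⟨_, i, hi, _⟩ := hr
  exact absurd (Set.mem_univ i) hi

include M in
theorem steinberg_one [Finite F] : D.steinbergCharacter F 1 = Nat.card (D.posUnipotent F) := by
  have h := M.st_one_eq Finset.univ
  rw [Finset.coe_univ, M.UJ_univ, ← M.steinberg_eq] at h
  simpa using h

include M in
theorem steinberg_irr : Cfsg.IsIrrCharacter ↥(D.group F) (D.steinbergCharacter F) := by
  haveI : Finite M.bnp.N := inferInstance
  haveI : Finite (Weyl M.bnp) := Quotient.finite _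
  haveI := Fintype.ofFinite (Weyl M.bnp)
  have h := M.uq.irr Finset.univ
  have htop : M.bd.parG ↑(Finset.univ : Finset (Fin D.rank)) = ⊤ := by
    rw [Finset.coe_univ, M.bd.parG_univ]
  have h2 := CharBasic.IsIrrCharacter.comp_equiv h
    ((Subgroup.topEquiv (G := ↥(D.group F))).symm.trans (MulEquiv.subgroupCongr htop.symm))
  convert h2 using 1
  funext g
  rw [M.steinberg_eq]
  rfl

include M in
/-- the restriction of the Steinberg character to `B` -/
theorem steinberg_B (b : ↥((D.borelSubgroup F).subgroupOf (D.group F))) :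
    D.steinbergCharacter F ((((D.borelSubgroup F).subgroupOf (D.group F)).subtype) b) =
      Cfsg.fixedPointCharacter (((D.diagonalSubgroup F).subgroupOf (D.group F)).subgroupOf ((D.borelSubgroup F).subgroupOf (D.group F))) b := by
  have h := M.st_B_eq (J := Finset.univ) (b := (b : ↥(D.group F))) b.2
  have hU : M.UJH ↑(Finset.univ : Finset (Fin D.rank)) = D.diagonalSubgroup F := by
    unfold UJH
    rw [Finset.coe_univ, M.UJ_univ, bot_sup_eq]
  rw [hU] at h
  rw [M.steinberg_eq, fixedPoint_eq]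
  have hc : Nat.card ↥(((D.diagonalSubgroup F).subgroupOf (D.group F)).subgroupOf ((D.borelSubgroup F).subgroupOf (D.group F))) =
      Nat.card (D.diagonalSubgroup F) := by
    have h1 : (D.diagonalSubgroup F).subgroupOf (D.group F) ≤ (D.borelSubgroup F).subgroupOf (D.group F) := by
      intro x hx
      exact GD.H_le_B (show (x : GL D.Idx F) ∈ _ from hx)
    rw [Nat.card_congr (Subgroup.subgroupOfEquivOfLe h1).toEquiv,
      Nat.card_congr (Subgroup.subgroupOfEquivOfLe M.H_le_G).toEquiv]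
  have hne : (Nat.card ↥(((D.diagonalSubgroup F).subgroupOf (D.group F)).subgroupOf ((D.borelSubgroup F).subgroupOf (D.group F))) : ℂ) ≠ 0 := by
    have : 0 < Nat.card ↥(((D.diagonalSubgroup F).subgroupOf (D.group F)).subgroupOf ((D.borelSubgroup F).subgroupOf (D.group F))) :=
      Nat.card_pos
    exact_mod_cast this.ne'
  rw [eq_inv_mul_iff_mul_eq₀ hne, hc]
  rw [Subgroup.subtype_apply, h]
  rw [← Finset.sum_filter_add_sum_filter_not Finset.univ (fun c : ↥(D.group F) => c ∈ (D.borelSubgroup F).subgroupOf (D.group F)),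
    Finset.sum_eq_zero (s := Finset.univ.filter fun c : ↥(D.group F) => ¬ c ∈ (D.borelSubgroup F).subgroupOf (D.group F))
      (fun c hc => by rw [if_neg (fun h' => (Finset.mem_filter.1 hc).2 h'.1)]), add_zero]
  rw [← Finset.sum_subtype_eq_sum_filter, Finset.subtype_univ]
  refine Finset.sum_congr (by ext; simp) (fun c _ => ?_)
  have hcB : (((c : ↥((D.borelSubgroup F).subgroupOf (D.group F))) : ↥(D.group F)) : GL D.Idx F) ∈ D.borelSubgroup F := c.2
  congr 1
  apply propext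
  constructor
  · rintro ⟨_, h1⟩
    exact h1
  · intro h1
    exact ⟨hcB, h1⟩

end CG

end CfsgLib.Chev
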