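import Mathlib
import Cfsg.Agent.Lib.H2St5
import Cfsg.Agent.Lib.ChevCD
import Cfsg.Agent.Lib.BlockDefect
import Cfsg.Agent.S2326

/-! Values of the Steinberg character of a Chevalley group. -/

namespace CfsgLib.Chev
open Cfsg.Lie Matrix CfsgLib.BNP CfsgLib.CharInd CfsgLib.CharBasic CfsgLib.Block
open scoped Classical
set_option linter.style.haveILetI false
set_option linter.unusedSectionVars false

/-- the order of `U` is the `p`-part of the order of the group -/
theorem card_U_eq {D : ChevalleyDatum} {F : Type*} [Field F] [Fintype F] (p : ℕ) [Fact p.Prime] [CharP F p]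
    (hD : D ∈ [chevG2, chevB2, chevD4, chevF4, chevE6, chevE7, chevE8]) :
    Nat.card (D.posUnipotent F) = p ^ (Nat.card ↥(D.group F)).factorization p := by
  obtain ⟨M⟩ := exists_cg hD F
  obtain ⟨P, hP⟩ := Cfsg.Agent.S2326.result (F := F) p D hD
  have h1 := Sylow.card_eq_multiplicity P
  rw [hP] at h1
  rw [← h1]
  exact (Nat.card_congr (Subgroup.subgroupOfEquivOfLe M.U_le_G).toEquiv).symm

theorem charDegree_steinberg {D : ChevalleyDatum} {F : Type*} [Field F] [Fintype F]
    (hD : D ∈ [chevG2, chevB2, chevD4, chevF4, chevE6, chevE7, chevE8]) :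
    Cfsg.charDegree (D.steinbergCharacter F) = Nat.card (D.posUnipotent F) := by
  obtain ⟨M⟩ := exists_cg hD F
  haveI : Fintype ↥(D.group F) := Fintype.ofFinite _
  have h1 := one_eq_charDegree (IsIrrCharacter.isCharacter (M.steinberg_irr))
  rw [M.steinberg_one] at h1
  exact_mod_cast h1.symm

theorem steinberg_zero {D : ChevalleyDatum} {F : Type*} [Field F] [Fintype F] (p : ℕ) [hp : Fact p.Prime] [CharP F p]
    (hD : D ∈ [chevG2, chevB2, chevD4, chevF4, chevE6, chevE7, chevE8]) {g : ↥(D.group F)} (hg : p ∣ orderOf g) :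
    D.steinbergCharacter F g = 0 := by
  obtain ⟨N⟩ := exists_cg hD F
  haveI : Fintype ↥(D.group F) := Fintype.ofFinite _
  obtain ⟨M, hM⟩ := exists_isPModular hp.out
  refine vanish_of_inS_singleton hM ⟨_, N.steinberg_irr⟩ (inS_eB_singleton hM _ ?_) hg
  change _ ≤ (Cfsg.charDegree (D.steinbergCharacter F)).factorization p
  rw [charDegree_steinberg hD, card_U_eq p hD, hp.out.factorization_pow]
  simp

end CfsgLib.Chev
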