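import Mathlib
import Cfsg.Agent.Lib.H2St6
import Cfsg.Agent.Lib.H2Avg

/-! The Steinberg character and unipotent elements. -/

namespace CfsgLib.Chev
open Cfsg.Lie Matrix CfsgLib.BNP CfsgLib.CharInd CfsgLib.CharBasic CfsgLib.Block
open scoped Classical
set_option linter.style.haveILetI false
set_option linter.unusedSectionVars false

namespace CG
variable {D : ChevalleyDatum} {F : Type*} [Field F] (M : CG D F) [Fintype ↥(D.group F)]

/-- `U_J` in the group -/
def NJ (J : Set (Fin D.rank)) : Subgroup ↥(D.group F) := (M.UJ J).subgroupOf (D.group F)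

theorem card_NJ (J : Set (Fin D.rank)) : Nat.card (M.NJ J) = Nat.card (M.UJ J) :=
  Nat.card_congr (Subgroup.subgroupOfEquivOfLe ((M.UJ_le_U J).trans M.U_le_G)).toEquiv

theorem NJ_le_B (J : Set (Fin D.rank)) : M.NJ J ≤ M.bd.B := by
  intro x hx
  exact GD.U_le_B (M.UJ_le_U J (show (x : GL D.Idx F) ∈ M.UJ J from hx))

theorem NJ_norm (J : Set (Fin D.rank)) : M.bd.parG J ≤ Subgroup.normalizer (M.NJ J : Set ↥(D.group F)) := by
  intro x hx
  have h := M.P_norm_UJ J (show (x : GL D.Idx F) ∈ D.parabolicSubgroup F (Fin.val '' J) from hx)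
  rw [Subgroup.mem_normalizer_iff]
  intro y
  exact (Subgroup.mem_normalizer_iff.mp h) (y : GL D.Idx F)

/-- Truncation of the Steinberg character to a parabolic subgroup -/
theorem st_trunc [Finite F] (J : Finset (Fin D.rank)) {x : ↥(D.group F)} (hx : x ∈ M.bd.parG ↑J) :
    (Nat.card (M.UJ ↑J) : ℂ) * M.bd.st J x =
      ∑ u : ↥(D.group F), if u ∈ M.NJ ↑J then D.steinbergCharacter F (x * u) else 0 := by
  haveI : Finite M.bnp.N := inferInstance
  haveI : Finite (Weyl M.bnp) := Quotient.finite _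
  haveI := Fintype.ofFinite (Weyl M.bnp)
  obtain ⟨H, hH⟩ : ∃ H, H = M.bd.parG (↑J : Set (Fin D.rank)) := ⟨_, rfl⟩
  have hNH : M.NJ ↑J ≤ H := by rw [hH]; exact (M.NJ_le_B _).trans (M.bd.B_le_parG _)
  haveI hn : ((M.NJ ↑J).subgroupOf H).Normal := by
    refine ⟨fun n hn g => ?_⟩
    exact ((Subgroup.mem_normalizer_iff.mp (M.NJ_norm ↑J (by rw [← hH]; exact g.2))) n).mp hn
  have hcN : Nat.card ((M.NJ ↑J).subgroupOf H) = Nat.card (M.UJ ↑J) := by
    rw [Nat.card_congr (Subgroup.subgroupOfEquivOfLe hNH).toEquiv, M.card_NJ]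
  have hUJ0 := M.UJ_pos (↑J : Set (Fin D.rank))
  have hUJne : (Nat.card (M.UJ ↑J) : ℂ) ≠ 0 := hUJ0
  -- the average
  have hav : ∀ y : ↥H, St.avg ((M.NJ ↑J).subgroupOf H) (fun z : ↥H => D.steinbergCharacter F z) y =
      (Nat.card (M.UJ ↑J) : ℂ)⁻¹ * ∑ u : ↥(D.group F), if u ∈ M.NJ ↑J then D.steinbergCharacter F (y * u) else 0 := by
    intro y
    unfold St.avg
    rw [hcN]
    congr 1
    have h1 := St.BD.sum_parG H (fun u => if u ∈ M.NJ ↑J then D.steinbergCharacter F (y * u) else 0)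
    have h2 : (∑ u : ↥(D.group F), if u ∈ H then (if u ∈ M.NJ ↑J then D.steinbergCharacter F (y * u) else 0) else 0) =
        ∑ u : ↥(D.group F), if u ∈ M.NJ ↑J then D.steinbergCharacter F (y * u) else 0 := by
      refine Finset.sum_congr rfl (fun u _ => ?_)
      by_cases hu : u ∈ M.NJ ↑J
      · rw [if_pos hu, if_pos (hNH hu)]
      · rw [if_neg hu, ite_self]
    rw [← h2, ← h1]
    rfl
  have hchar : Cfsg.IsCharacter ↥H (St.avg ((M.NJ ↑J).subgroupOf H) (fun z : ↥H => D.steinbergCharacter F z)) := by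
    apply St.avg_isCharacter
    exact IsCharacter.restrict (IsIrrCharacter.isCharacter M.steinberg_irr) H
  have hirr : Cfsg.IsIrrCharacter ↥H (fun z : ↥H => M.bd.st J z) := by
    subst hH
    exact M.uq.irr J
  -- the degree
  have hU1 : ∀ u : ↥(D.group F), u ∈ M.NJ ↑J → u ≠ 1 → D.steinbergCharacter F u = 0 := by
    intro u hu hu1
    have h1 := M.st_U Finset.univ (u := u) (M.UJ_le_U _ (show (u : GL D.Idx F) ∈ M.UJ ↑J from hu))
    rw [Finset.coe_univ, M.UJ_univ] at h1
    rw [if_neg (by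
      intro h2
      exact hu1 (Subtype.ext (Subgroup.mem_bot.1 h2))), ← M.steinberg_eq] at h1
    simpa using h1
  have hdeg : St.avg ((M.NJ ↑J).subgroupOf H) (fun z : ↥H => D.steinbergCharacter F z) 1 = M.bd.st J 1 := by
    rw [hav 1]
    have h1 : (∑ u : ↥(D.group F), if u ∈ M.NJ ↑J then D.steinbergCharacter F (((1 : ↥H) : ↥(D.group F)) * u) else 0) =
        D.steinbergCharacter F 1 := by
      rw [Finset.sum_eq_single 1]
      · rw [if_pos (one_mem _), Subgroup.coe_one, one_mul]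
      · intro u _ hu
        by_cases h : u ∈ M.NJ ↑J
        · rw [if_pos h, Subgroup.coe_one, one_mul, hU1 u h hu]
        · rw [if_neg h]
      · intro h; exact absurd (Finset.mem_univ _) h
    rw [h1, M.steinberg_one, ← M.st_one_eq J, inv_mul_cancel_left₀ hUJne]
  -- the inner product
  have hin : Cfsg.classInner (St.avg ((M.NJ ↑J).subgroupOf H) (fun z : ↥H => D.steinbergCharacter F z))
      (fun z : ↥H => M.bd.st J z) = 1 := by
    subst hH
    rw [M.bd.inner_st (IsCharacter.isClassFunction hchar)]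
    have h1 : ∀ K ∈ J.powerset, (-1 : ℂ) ^ K.card * ((Nat.card (M.bd.parG ↑K) : ℂ)⁻¹ *
        ∑ y : ↥(M.bd.parG (↑J : Set (Fin D.rank))), if (y : ↥(D.group F)) ∈ M.bd.parG ↑K then
          St.avg ((M.NJ ↑J).subgroupOf (M.bd.parG ↑J)) (fun z => D.steinbergCharacter F z) y else 0) =
        if K = ∅ then 1 else 0 := by
      intro K hK
      have hKJ : (↑K : Set (Fin D.rank)) ⊆ ↑J := by exact_mod_cast Finset.mem_powerset.1 hK
      have hle := M.bd.parG_mono hKJ
      have e1 : (∑ y : ↥(M.bd.parG (↑J : Set (Fin D.rank))), if (y : ↥(D.group F)) ∈ M.bd.parG ↑K then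
          St.avg ((M.NJ ↑J).subgroupOf (M.bd.parG ↑J)) (fun z => D.steinbergCharacter F z) y else 0) =
          ∑ y : ↥(D.group F), if y ∈ M.bd.parG ↑K then M.bd.st Finset.univ y else 0 := by
        have e2 : (∑ y : ↥(M.bd.parG (↑J : Set (Fin D.rank))), if (y : ↥(D.group F)) ∈ M.bd.parG ↑K then
          St.avg ((M.NJ ↑J).subgroupOf (M.bd.parG ↑J)) (fun z => D.steinbergCharacter F z) y else 0) =
          ∑ y : ↥(M.bd.parG (↑J : Set (Fin D.rank))), (fun y : ↥(D.group F) => if y ∈ M.bd.parG ↑K then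
            (Nat.card (M.UJ ↑J) : ℂ)⁻¹ * (∑ u : ↥(D.group F), if u ∈ M.NJ ↑J then D.steinbergCharacter F (y * u) else 0)
            else 0) y := by
          refine Finset.sum_congr rfl (fun y _ => ?_)
          rw [hav y]
        rw [e2, St.BD.sum_parG (M.bd.parG (↑J : Set (Fin D.rank))) (fun y : ↥(D.group F) => if y ∈ M.bd.parG ↑K then
            (Nat.card (M.UJ ↑J) : ℂ)⁻¹ * (∑ u : ↥(D.group F), if u ∈ M.NJ ↑J then D.steinbergCharacter F (y * u) else 0)
            else 0)]
        have e3 : ∀ y : ↥(D.group F), (if y ∈ M.bd.parG (↑J : Set (Fin D.rank)) then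
            (if y ∈ M.bd.parG ↑K then (Nat.card (M.UJ ↑J) : ℂ)⁻¹ *
              (∑ u : ↥(D.group F), if u ∈ M.NJ ↑J then D.steinbergCharacter F (y * u) else 0) else 0) else 0) =
            (Nat.card (M.UJ ↑J) : ℂ)⁻¹ * ∑ u : ↥(D.group F), if u ∈ M.NJ ↑J then
              (if y ∈ M.bd.parG ↑K then D.steinbergCharacter F (y * u) else 0) else 0 := by
          intro y
          by_cases hy : y ∈ M.bd.parG ↑K
          · simp only [if_pos hy, if_pos (hle hy)]
          · simp only [if_neg hy, ite_self, Finset.sum_const_zero, mul_zero]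
        rw [Finset.sum_congr rfl (fun y _ => e3 y), ← Finset.mul_sum, Finset.sum_comm]
        have e4 : ∀ u : ↥(D.group F), (∑ y : ↥(D.group F), if u ∈ M.NJ ↑J then
            (if y ∈ M.bd.parG ↑K then D.steinbergCharacter F (y * u) else 0) else 0) =
            (if u ∈ M.NJ ↑J then 1 else 0) * ∑ y : ↥(D.group F), if y ∈ M.bd.parG ↑K then M.bd.st Finset.univ y else 0 := by
          intro u
          by_cases hu : u ∈ M.NJ ↑J
          · simp only [if_pos hu, one_mul]
            have huK : u ∈ M.bd.parG ↑K := M.bd.B_le_parG _ (M.NJ_le_B _ hu)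
            refine Fintype.sum_equiv (Equiv.mulRight u) _ _ (fun y => ?_)
            simp only [Equiv.coe_mulRight]
            rw [← M.steinberg_eq]
            congr 1
            apply propext
            exact ⟨fun h => mul_mem h huK, fun h => by
              have := mul_mem h (inv_mem huK)
              rwa [mul_inv_cancel_right] at this⟩
          · simp only [if_neg hu, zero_mul, Finset.sum_const_zero]
        rw [Finset.sum_congr rfl (fun u _ => e4 u), ← Finset.sum_mul, St.BD.sum_mem, M.card_NJ,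
          inv_mul_cancel_left₀ hUJne]
      rw [e1, M.uq.sum_st (J := Finset.univ) (K := ↑K) (by simp)]
      rw [inv_mul_cancel_left₀ St.BD.card_ne]
      by_cases h : K = ∅
      · subst h; simp
      · rw [if_neg h, if_neg, mul_zero]
        exact_mod_cast h
    rw [Finset.sum_congr rfl h1, Finset.sum_ite_eq' J.powerset ∅ (fun _ => (1 : ℂ)), if_pos (Finset.empty_mem_powerset J)]
  have hfin := St.eq_of_inner hchar hirr (by rw [hin]; exact one_ne_zero) hdeg
  have h := congrFun hfin ⟨x, by rw [hH]; exact hx⟩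
  rw [hav] at h
  change _ = M.bd.st J x at h
  rw [← h, mul_inv_cancel_left₀ hUJne]

section chars
variable [Fintype F] (p : ℕ) [hp : Fact p.Prime] [CharP F p]
  (hD : D ∈ [chevG2, chevB2, chevD4, chevF4, chevE6, chevE7, chevE8])

include hD
omit [Fintype ↥(D.group F)] in
/-- every `p`-element of `P_J` is conjugate in `P_J` to an element of `U` -/
theorem exists_conj_U (J : Set (Fin D.rank)) {x : ↥(D.group F)} (hx : x ∈ M.bd.parG J)
    (hk : ∃ k, orderOf x = p ^ k) : ∃ g ∈ M.bd.parG J, ((g⁻¹ * x * g : ↥(D.group F)) : GL D.Idx F) ∈ D.posUnipotent F := by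
  obtain ⟨P, hP⟩ := Cfsg.Agent.S2326.result (F := F) p D hD
  have hle : (P : Subgroup ↥(D.group F)) ≤ M.bd.parG J := by
    rw [hP]
    intro y hy
    exact M.bd.B_le_parG J (GD.U_le_B (show (y : GL D.Idx F) ∈ D.posUnipotent F from hy))
  have hpg : IsPGroup p (Subgroup.zpowers (⟨x, hx⟩ : M.bd.parG J)) := by
    obtain ⟨k, hk⟩ := hk
    apply IsPGroup.of_card (n := k)
    rw [Nat.card_zpowers, Subgroup.orderOf_mk, hk]
  obtain ⟨Q, hQ⟩ := hpg.exists_le_sylow
  obtain ⟨g, hg⟩ := MulAction.exists_smul_eq ↥(M.bd.parG J) Q (P.subtype hle)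
  refine ⟨(g : ↥(D.group F))⁻¹, inv_mem g.2, ?_⟩
  have h1 : g * ⟨x, hx⟩ * g⁻¹ ∈ (P.subtype hle : Sylow p _) := by
    rw [← hg]
    exact Subgroup.smul_mem_pointwise_smul _ (MulAut.conj g) _ (hQ (Subgroup.mem_zpowers _))
  have h2 : (g : ↥(D.group F)) * x * (g : ↥(D.group F))⁻¹ ∈ (P : Subgroup ↥(D.group F)) := h1
  rw [hP] at h2
  rw [inv_inv]
  exact h2

/-- values of `St_J` at `p`-elements -/
theorem st_unip (J : Finset (Fin D.rank)) {x : ↥(D.group F)} (hx : x ∈ M.bd.parG ↑J)
    (hk : ∃ k, orderOf x = p ^ k) :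
    (Nat.card (M.UJ ↑J) : ℂ) * M.bd.st J x = if x ∈ M.NJ ↑J then (Nat.card (D.posUnipotent F) : ℂ) else 0 := by
  obtain ⟨g, hg, h⟩ := M.exists_conj_U p hD (↑J) hx hk
  have h1 := M.bd.st_conj (J := J) (g⁻¹ * x * g) hg
  rw [show g * (g⁻¹ * x * g) * g⁻¹ = x by group] at h1
  rw [h1, M.st_U J h]
  congr 1
  apply propext
  have h2 := inv_mem (M.NJ_norm ↑J hg)
  have h3 := (Subgroup.mem_normalizer_iff.mp h2) x
  rw [inv_inv] at h3
  exact h3.symm

/-- summing over `p`-elements -/
theorem sum_unip (J : Finset (Fin D.rank)) :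
    (∑ x : ↥(D.group F), if x ∈ M.bd.parG ↑J ∧ ∃ k, orderOf x = p ^ k then M.bd.st J x else 0) =
      Nat.card (D.posUnipotent F) := by
  have hne := M.UJ_pos (↑J : Set (Fin D.rank))
  apply mul_left_cancel₀ hne
  rw [Finset.mul_sum]
  have h1 : ∀ x : ↥(D.group F), (Nat.card (M.UJ ↑J) : ℂ) *
      (if x ∈ M.bd.parG ↑J ∧ ∃ k, orderOf x = p ^ k then M.bd.st J x else 0) =
      (if x ∈ M.NJ ↑J then 1 else 0) * (Nat.card (D.posUnipotent F) : ℂ) := by
    intro x
    by_cases hx : x ∈ M.bd.parG ↑J ∧ ∃ k, orderOf x = p ^ k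
    · rw [if_pos hx, M.st_unip p hD J hx.1 hx.2]
      split_ifs <;> simp
    · rw [if_neg hx, mul_zero, if_neg, zero_mul]
      intro hxN
      apply hx
      refine ⟨M.bd.B_le_parG _ (M.NJ_le_B _ hxN), ?_⟩
      have hpU : IsPGroup p (D.posUnipotent F) := by
        apply IsPGroup.of_card (n := (Nat.card ↥(D.group F)).factorization p)
        exact card_U_eq p hD
      obtain ⟨k, hk⟩ := (IsPGroup.iff_orderOf.1 hpU) ⟨(x : GL D.Idx F), M.UJ_le_U _ (show (x : GL D.Idx F) ∈ M.UJ ↑J from hxN)⟩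
      refine ⟨k, ?_⟩
      rw [← hk, Subgroup.orderOf_mk]
      exact (Subgroup.orderOf_mk _ _).symm
  rw [Finset.sum_congr rfl (fun x _ => h1 x), ← Finset.sum_mul, St.BD.sum_mem, M.card_NJ]

omit hD in
omit [CharP F p] hp [Fintype F] in
theorem sum_nn_unip {J K : Set (Fin D.rank)} (hKJ : K ⊆ J) :
    (∑ x : ↥(D.group F), if x ∈ M.bd.parG J ∧ ∃ k, orderOf x = p ^ k then M.bd.nn J K x else 0) =
      (Nat.card (M.bd.parG J) : ℂ) *
        ∑ x : ↥(D.group F), if x ∈ M.bd.parG K ∧ ∃ k, orderOf x = p ^ k then 1 else 0 := by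
  have hle := M.bd.parG_mono hKJ
  have h1 : ∀ x : ↥(D.group F), (if x ∈ M.bd.parG J ∧ ∃ k, orderOf x = p ^ k then M.bd.nn J K x else 0) =
      ∑ g : ↥(D.group F), if g ∈ M.bd.parG J then
        (if g⁻¹ * x * g ∈ M.bd.parG K ∧ ∃ k, orderOf x = p ^ k then 1 else 0) else 0 := by
    intro x
    by_cases hx : x ∈ M.bd.parG J ∧ ∃ k, orderOf x = p ^ k
    · rw [if_pos hx]
      unfold St.BD.nn
      refine Finset.sum_congr rfl (fun g _ => ?_)
      rw [ite_and]
      simp only [hx.2, and_true]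
    · rw [if_neg hx]
      refine (Finset.sum_eq_zero (fun g _ => ?_)).symm
      by_cases hg : g ∈ M.bd.parG J
      · rw [if_pos hg, if_neg]
        rintro ⟨h2, h3⟩
        apply hx
        refine ⟨?_, h3⟩
        have := mul_mem (mul_mem hg (hle h2)) (inv_mem hg)
        rwa [show g * (g⁻¹ * x * g) * g⁻¹ = x by group] at this
      · rw [if_neg hg]
  rw [Finset.sum_congr rfl (fun x _ => h1 x), Finset.sum_comm, ← St.BD.sum_mem, Finset.sum_mul]
  refine Finset.sum_congr rfl (fun g _ => ?_)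
  by_cases hg : g ∈ M.bd.parG J
  · simp only [if_pos hg, one_mul]
    refine Fintype.sum_equiv (MulAut.conj g⁻¹).toEquiv _ _ (fun x => ?_)
    have e : (MulAut.conj g⁻¹).toEquiv x = g⁻¹ * x * g := by
      change g⁻¹ * x * g⁻¹⁻¹ = _
      rw [inv_inv]
    rw [e]
    have e2 : orderOf (g⁻¹ * x * g) = orderOf x := by
      have := orderOf_injective (MulAut.conj g⁻¹).toMonoidHom (MulAut.conj g⁻¹).injective x
      rw [← this]
      congr 1
    rw [e2]
  · simp only [if_neg hg, zero_mul, Finset.sum_const_zero]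

include M in
/-- the number of unipotent elements -/
theorem card_unip : (∑ x : ↥(D.group F), if ∃ k, orderOf x = p ^ k then (1 : ℂ) else 0) =
    (Nat.card (D.posUnipotent F) : ℂ) ^ 2 := by
  obtain ⟨f, hf⟩ : ∃ f : Finset (Fin D.rank) → ℂ, ∀ K, f K = (Nat.card (M.bd.parG ↑K) : ℂ)⁻¹ *
      ∑ x : ↥(D.group F), if x ∈ M.bd.parG ↑K ∧ ∃ k, orderOf x = p ^ k then 1 else 0 := ⟨_, fun _ => rfl⟩
  -- the basic relation
  have h1 : ∀ J : Finset (Fin D.rank), (∑ K ∈ J.powerset, (-1 : ℂ) ^ K.card * f K) =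
      (Nat.card (M.bd.parG ↑J) : ℂ)⁻¹ * Nat.card (D.posUnipotent F) := by
    intro J
    have hJne := St.BD.card_ne (H := M.bd.parG (↑J : Set (Fin D.rank)))
    rw [← M.sum_unip p hD J]
    have h2 : (∑ x : ↥(D.group F), if x ∈ M.bd.parG ↑J ∧ ∃ k, orderOf x = p ^ k then M.bd.st J x else 0) =
        ∑ K ∈ J.powerset, (-1 : ℂ) ^ K.card * ((Nat.card (M.bd.parG ↑K) : ℂ)⁻¹ *
          ∑ x : ↥(D.group F), if x ∈ M.bd.parG ↑J ∧ ∃ k, orderOf x = p ^ k then M.bd.nn ↑J ↑K x else 0) := by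
      have e1 : ∀ x : ↥(D.group F), (if x ∈ M.bd.parG ↑J ∧ ∃ k, orderOf x = p ^ k then M.bd.st J x else 0) =
          ∑ K ∈ J.powerset, (-1 : ℂ) ^ K.card * ((Nat.card (M.bd.parG ↑K) : ℂ)⁻¹ *
            if x ∈ M.bd.parG ↑J ∧ ∃ k, orderOf x = p ^ k then M.bd.nn ↑J ↑K x else 0) := by
        intro x
        by_cases hx : x ∈ M.bd.parG ↑J ∧ ∃ k, orderOf x = p ^ k
        · simp only [if_pos hx]; rfl
        · simp only [if_neg hx, mul_zero, Finset.sum_const_zero]
      rw [Finset.sum_congr rfl (fun x _ => e1 x), Finset.sum_comm]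
      refine Finset.sum_congr rfl (fun K _ => ?_)
      rw [← Finset.mul_sum, ← Finset.mul_sum]
    rw [h2, Finset.mul_sum]
    refine Finset.sum_congr rfl (fun K hK => ?_)
    rw [M.sum_nn_unip p (by exact_mod_cast Finset.mem_powerset.1 hK), hf]
    field_simp
  -- inversion
  have h2 : (∑ J : Finset (Fin D.rank), (-1 : ℂ) ^ J.card * ∑ K ∈ J.powerset, (-1 : ℂ) ^ K.card * f K) =
      f Finset.univ := by
    have e1 : ∀ J : Finset (Fin D.rank), (-1 : ℂ) ^ J.card * (∑ K ∈ J.powerset, (-1 : ℂ) ^ K.card * f K) =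
        ∑ K : Finset (Fin D.rank), (-1 : ℂ) ^ K.card * f K * ((-1 : ℂ) ^ J.card * if K ⊆ J then 1 else 0) := by
      intro J
      rw [Finset.mul_sum, ← Finset.sum_filter_add_sum_filter_not Finset.univ (fun K => K ⊆ J),
        Finset.sum_eq_zero (s := Finset.univ.filter fun K : Finset (Fin D.rank) => ¬ K ⊆ J) (fun K hK => by
          rw [if_neg (Finset.mem_filter.1 hK).2]; ring), add_zero]
      refine Finset.sum_congr (by ext; simp) (fun K hK => ?_)
      rw [if_pos (Finset.mem_filter.1 hK).2]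
      ring
    rw [Finset.sum_congr rfl (fun J _ => e1 J), Finset.sum_comm]
    rw [Finset.sum_eq_single Finset.univ]
    · rw [← Finset.mul_sum, Finset.sum_eq_single Finset.univ]
      · rw [if_pos (Finset.Subset.refl _), mul_one]
        have : (-1 : ℂ) ^ (Finset.univ : Finset (Fin D.rank)).card * (-1 : ℂ) ^ (Finset.univ : Finset (Fin D.rank)).card = 1 := by
          rw [← mul_pow]; simp
        linear_combination (f Finset.univ) * this
      · intro J _ hJ
        rw [if_neg, mul_zero]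
        intro h
        exact hJ (Finset.univ_subset_iff.1 h)
      · intro h; exact absurd (Finset.mem_univ _) h
    · intro K _ hK
      rw [← Finset.mul_sum]
      have e2 : (∑ J : Finset (Fin D.rank), (-1 : ℂ) ^ J.card * (if K ⊆ J then (1 : ℂ) else 0)) = 0 := by
        have e3 : (∑ J : Finset (Fin D.rank), (-1 : ℂ) ^ J.card * (if K ⊆ J then (1 : ℂ) else 0)) =
            ∑ J : Finset (Fin D.rank), (-1 : ℂ) ^ (Jᶜ).card * (if K ⊆ Jᶜ then (1 : ℂ) else 0) :=
          (Fintype.sum_equiv (Equiv.ofBijective (fun J : Finset (Fin D.rank) => Jᶜ) (compl_bijective)) _ _ (fun J => rfl)).symm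
        rw [e3]
        have e4 : ∀ J : Finset (Fin D.rank), (-1 : ℂ) ^ (Jᶜ).card * (if K ⊆ Jᶜ then (1 : ℂ) else 0) =
            (-1 : ℂ) ^ (Fintype.card (Fin D.rank)) * ((-1 : ℂ) ^ J.card * (if ∀ k ∈ J, k ∉ K then 1 else 0)) := by
          intro J
          have e5 : (-1 : ℂ) ^ (Jᶜ).card = (-1 : ℂ) ^ (Fintype.card (Fin D.rank)) * (-1 : ℂ) ^ J.card := by
            have h5 : (Jᶜ).card + J.card = Fintype.card (Fin D.rank) := by
              rw [add_comm, Finset.card_add_card_compl]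
            rw [← h5, pow_add, mul_assoc, ← mul_pow]
            simp
          rw [e5, mul_assoc]
          congr 3
          apply propext
          constructor
          · intro h k hk hkK
            exact (Finset.mem_compl.1 (h hkK)) hk
          · intro h k hk
            exact Finset.mem_compl.2 (fun hkJ => h k hkJ hk)
        rw [Finset.sum_congr rfl (fun J _ => e4 J), ← Finset.mul_sum]
        have e6 := St.BD.alt_sum (Finset.univ : Finset (Fin D.rank)) (fun k => k ∉ K) (fun J => ∀ k ∈ J, k ∉ K)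
          (fun J => Iff.rfl) (∀ k ∈ (Finset.univ : Finset (Fin D.rank)), ¬ k ∉ K) Iff.rfl
        rw [Finset.powerset_univ] at e6
        rw [e6, if_neg, mul_zero]
        intro h
        apply hK
        ext k
        simp only [Finset.mem_univ, iff_true]
        exact not_not.1 (h k (Finset.mem_univ _))
      rw [e2, mul_zero]
    · intro h; exact absurd (Finset.mem_univ _) h
  -- the degree of the Steinberg character
  have h3 : (Nat.card ↥(D.group F) : ℂ) * ∑ J : Finset (Fin D.rank), (-1 : ℂ) ^ J.card * (Nat.card (M.bd.parG ↑J) : ℂ)⁻¹ =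
      Nat.card (D.posUnipotent F) := by
    rw [← M.steinberg_one, M.steinberg_eq]
    unfold St.BD.st
    rw [Finset.mul_sum, Finset.powerset_univ]
    refine Finset.sum_congr rfl (fun K _ => ?_)
    have e1 : M.bd.nn ↑(Finset.univ : Finset (Fin D.rank)) ↑K 1 = Nat.card ↥(D.group F) := by
      unfold St.BD.nn
      have e2 : ∀ g : ↥(D.group F), (if g ∈ M.bd.parG ↑(Finset.univ : Finset (Fin D.rank)) ∧ g⁻¹ * 1 * g ∈ M.bd.parG ↑K then (1 : ℂ) else 0) = 1 := by
        intro g
        rw [if_pos]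
        rw [Finset.coe_univ, M.bd.parG_univ]
        refine ⟨Subgroup.mem_top _, ?_⟩
        rw [mul_one, inv_mul_cancel]
        exact one_mem _
      rw [Finset.sum_congr rfl (fun g _ => e2 g)]
      simp [Nat.card_eq_fintype_card]
    rw [e1]
    ring
  have h4 : (Nat.card ↥(D.group F) : ℂ) * f Finset.univ = ∑ x : ↥(D.group F), if ∃ k, orderOf x = p ^ k then (1 : ℂ) else 0 := by
    rw [hf, Finset.coe_univ, M.bd.parG_univ, Subgroup.card_top]
    have hG : (Nat.card ↥(D.group F) : ℂ) ≠ 0 := card_ne_zero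
    rw [mul_inv_cancel_left₀ hG]
    refine Finset.sum_congr rfl (fun x _ => ?_)
    simp
  rw [← h4, ← h2, Finset.sum_congr rfl (fun J _ => by rw [h1 J])]
  have e : (∑ J : Finset (Fin D.rank), (-1 : ℂ) ^ J.card * ((Nat.card (M.bd.parG ↑J) : ℂ)⁻¹ * Nat.card (D.posUnipotent F))) =
      (∑ J : Finset (Fin D.rank), (-1 : ℂ) ^ J.card * (Nat.card (M.bd.parG ↑J) : ℂ)⁻¹) * Nat.card (D.posUnipotent F) := by
    rw [Finset.sum_mul]
    exact Finset.sum_congr rfl (fun J _ => by ring)
  rw [e, ← mul_assoc, h3, sq]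

end chars

end CG

end CfsgLib.Chev
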