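import Mathlib
import Cfsg.Agent.Lib.H2St7

/-! The values of the Steinberg character at semisimple elements. -/

namespace CfsgLib.Chev
open Cfsg.Lie Matrix CfsgLib.BNP CfsgLib.CharInd CfsgLib.CharBasic CfsgLib.Block
open scoped Classical
set_option linter.style.haveILetI false
set_option linter.unusedSectionVars false

theorem card_centralizer_conj {G : Type*} [Group G] (g c : G) :
    Nat.card (Subgroup.centralizer ({c⁻¹ * g * c} : Set G)) = Nat.card (Subgroup.centralizer ({g} : Set G)) := by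
  refine Nat.card_congr (Equiv.ofBijective
    (fun x : Subgroup.centralizer ({c⁻¹ * g * c} : Set G) => (⟨c * x * c⁻¹, ?_⟩ : Subgroup.centralizer ({g} : Set G))) ⟨?_, ?_⟩)
  · have h := Subgroup.mem_centralizer_singleton_iff.1 x.2
    rw [Subgroup.mem_centralizer_singleton_iff]
    calc c * x * c⁻¹ * g = c * (x * (c⁻¹ * g * c)) * c⁻¹ := by group
      _ = c * ((c⁻¹ * g * c) * x) * c⁻¹ := by rw [h]
      _ = g * (c * x * c⁻¹) := by group
  · intro x y h
    have h1 : c * (x : G) * c⁻¹ = c * y * c⁻¹ := congrArg Subtype.val h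
    exact Subtype.ext (by simpa using h1)
  · rintro ⟨y, hy⟩
    refine ⟨⟨c⁻¹ * y * c, ?_⟩, ?_⟩
    · have h := Subgroup.mem_centralizer_singleton_iff.1 hy
      rw [Subgroup.mem_centralizer_singleton_iff]
      calc c⁻¹ * y * c * (c⁻¹ * g * c) = c⁻¹ * (y * g) * c := by group
        _ = c⁻¹ * (g * y) * c := by rw [h]
        _ = c⁻¹ * g * c * (c⁻¹ * y * c) := by group
    · apply Subtype.ext
      change c * (c⁻¹ * y * c) * c⁻¹ = y
      group

namespace CG
variable {D : ChevalleyDatum} {F : Type*} [Field F] (M : CG D F) [Fintype ↥(D.group F)]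

/-- `St_J` at an element with no conjugate in a smaller parabolic subgroup -/
theorem st_min (J : Finset (Fin D.rank)) {s : ↥(D.group F)} (hs : s ∈ M.bd.parG ↑J)
    (hmin : ∀ K : Finset (Fin D.rank), K ⊂ J → ∀ c : ↥(D.group F), c⁻¹ * s * c ∉ M.bd.parG ↑K) :
    M.bd.st J s = (-1 : ℂ) ^ J.card := by
  unfold St.BD.st
  rw [Finset.sum_eq_single J]
  · have h1 : M.bd.nn ↑J ↑J s = Nat.card (M.bd.parG (↑J : Set (Fin D.rank))) := by
      rw [← St.BD.sum_mem]
      unfold St.BD.nn
      refine Finset.sum_congr rfl (fun g _ => ?_)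
      congr 1
      apply propext
      exact ⟨fun h => h.1, fun h => ⟨h, mul_mem (mul_mem (inv_mem h) hs) h⟩⟩
    rw [h1, inv_mul_cancel₀ St.BD.card_ne, mul_one]
  · intro K hK hne
    have h1 : M.bd.nn ↑J ↑K s = 0 := by
      unfold St.BD.nn
      refine Finset.sum_eq_zero (fun g _ => ?_)
      rw [if_neg]
      rintro ⟨_, h⟩
      exact hmin K (Finset.ssubset_iff_subset_ne.2 ⟨Finset.mem_powerset.1 hK, hne⟩) g h
    rw [h1]; ring
  · intro h
    exact absurd (Finset.mem_powerset_self J) h

section chars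
variable [Fintype F] (p : ℕ) [hp : Fact p.Prime] [CharP F p]
  (hD : D ∈ [chevG2, chevB2, chevD4, chevF4, chevE6, chevE7, chevE8])
include hD

include M in
theorem isPGroup_NJ (J : Set (Fin D.rank)) : IsPGroup p (M.NJ J) := by
  have hpU : IsPGroup p (D.posUnipotent F) := by
    apply IsPGroup.of_card (n := (Nat.card ↥(D.group F)).factorization p)
    exact card_U_eq p hD
  intro x
  obtain ⟨k, hk⟩ := hpU ⟨((x : ↥(D.group F)) : GL D.Idx F), M.UJ_le_U _ x.2⟩
  refine ⟨k, ?_⟩
  apply Subtype.ext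
  apply Subtype.ext
  have h := congrArg Subtype.val hk
  exact h

theorem steinberg_ss_aux (J : Finset (Fin D.rank)) {s : ↥(D.group F)} (hs : s ∈ M.bd.parG ↑J)
    (hsp : ¬ p ∣ orderOf s) :
    D.steinbergCharacter F s = Nat.card ↥(M.NJ ↑J ⊓ Subgroup.centralizer {s}) * M.bd.st J s := by
  have hpN := M.isPGroup_NJ p hD ↑J
  have hsn := M.NJ_norm ↑J hs
  have hcl := IsCharacter.isClassFunction (IsIrrCharacter.isCharacter M.steinberg_irr)
  obtain ⟨good, hgood⟩ : ∃ good : ℂ, good = ∑ u : ↥(D.group F), if u ∈ M.NJ ↑J ∧ ¬ p ∣ orderOf (s * u) then 1 else 0 := ⟨_, rfl⟩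
  have h1 : (Nat.card (M.UJ ↑J) : ℂ) * M.bd.st J s = good * D.steinbergCharacter F s := by
    rw [M.st_trunc J hs, hgood, Finset.sum_mul]
    refine Finset.sum_congr rfl (fun u _ => ?_)
    by_cases hu : u ∈ M.NJ ↑J
    · by_cases hsu : p ∣ orderOf (s * u)
      · rw [if_pos hu, if_neg (fun h => h.2 hsu), zero_mul, steinberg_zero p hD hsu]
      · rw [if_pos hu, if_pos ⟨hu, hsu⟩, one_mul]
        obtain ⟨v, _, hv⟩ := St.conj_mul hpN hsn hsp hu hsu
        rw [hv, hcl s v]
    · rw [if_neg hu, if_neg (fun h => hu h.1), zero_mul]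
  have h2 : (Nat.card (M.UJ ↑J) : ℂ) = good * Nat.card ↥(M.NJ ↑J ⊓ Subgroup.centralizer {s}) := by
    rw [← M.card_NJ, ← St.BD.sum_mem, hgood, Finset.sum_mul]
    have e1 : ∀ v : ↥(D.group F), (if v ∈ M.NJ ↑J then (1 : ℂ) else 0) =
        ∑ u : ↥(D.group F), if v ∈ M.NJ ↑J ∧ s * u = v * s * v⁻¹ then 1 else 0 := by
      intro v
      by_cases hv : v ∈ M.NJ ↑J
      · rw [if_pos hv, Finset.sum_eq_single (s⁻¹ * (v * s * v⁻¹))]
        · rw [if_pos ⟨hv, by group⟩]
        · intro u _ hu
          rw [if_neg]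
          rintro ⟨_, h⟩
          exact hu (by rw [← h]; group)
        · intro h; exact absurd (Finset.mem_univ _) h
      · rw [if_neg hv]
        refine (Finset.sum_eq_zero (fun u _ => ?_)).symm
        rw [if_neg (fun h => hv h.1)]
    rw [Finset.sum_congr rfl (fun v _ => e1 v), Finset.sum_comm]
    refine Finset.sum_congr rfl (fun u _ => ?_)
    by_cases hu : u ∈ M.NJ ↑J ∧ ¬ p ∣ orderOf (s * u)
    · rw [if_pos hu, one_mul]
      obtain ⟨v0, hv0, h0⟩ := St.conj_mul hpN hsn hsp hu.1 hu.2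
      rw [← St.BD.sum_mem_left _ v0⁻¹]
      refine Finset.sum_congr rfl (fun v _ => ?_)
      congr 1
      apply propext
      rw [Subgroup.mem_inf, Subgroup.mem_centralizer_singleton_iff]
      constructor
      · rintro ⟨h3, h4⟩
        refine ⟨mul_mem (inv_mem hv0) h3, ?_⟩
        rw [h0] at h4
        calc v0⁻¹ * v * s = v0⁻¹ * (v * s * v⁻¹) * v := by group
          _ = v0⁻¹ * (v0 * s * v0⁻¹) * v := by rw [h4]
          _ = s * (v0⁻¹ * v) := by group
      · rintro ⟨h3, h4⟩
        refine ⟨by have := mul_mem hv0 h3; rwa [mul_inv_cancel_left] at this, ?_⟩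
        rw [h0]
        calc v0 * s * v0⁻¹ = v0 * (s * (v0⁻¹ * v)) * v⁻¹ := by group
          _ = v0 * (v0⁻¹ * v * s) * v⁻¹ := by rw [h4]
          _ = v * s * v⁻¹ := by group
    · rw [if_neg hu, zero_mul]
      refine Finset.sum_eq_zero (fun v _ => ?_)
      rw [if_neg]
      rintro ⟨h3, h4⟩
      apply hu
      constructor
      · have h5 : s⁻¹ * v * s ∈ M.NJ ↑J := by
          have := ((Subgroup.mem_normalizer_iff.mp (inv_mem hsn)) v).mp h3
          rwa [inv_inv] at this
        have h6 : u = s⁻¹ * v * s * v⁻¹ := by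
          have : u = s⁻¹ * (s * u) := by group
          rw [this, h4]; group
        rw [h6]
        exact mul_mem h5 (inv_mem h3)
      · rw [h4]
        have h7 : orderOf (v * s * v⁻¹) = orderOf s := orderOf_injective (MulAut.conj v).toMonoidHom (MulAut.conj v).injective s
        rw [h7]
        exact hsp
  have h3 := M.UJ_pos (↑J : Set (Fin D.rank))
  have hg0 : good ≠ 0 := by
    rintro h
    rw [h2, h, zero_mul] at h3
    exact h3 rfl
  apply mul_left_cancel₀ hg0
  rw [← h1, h2]
  ring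

include M in
theorem steinberg_ss (g : ↥(D.group F)) (hg : ¬ p ∣ orderOf g) :
    ∃ a : ℕ, a = (Nat.card ↥(Subgroup.centralizer ({g} : Set ↥(D.group F)))).factorization p ∧
      (D.steinbergCharacter F g = (p : ℂ) ^ a ∨ D.steinbergCharacter F g = -(p : ℂ) ^ a) := by
  -- minimal parabolic
  have hex : ∃ n, ∃ J : Finset (Fin D.rank), J.card = n ∧ ∃ c : ↥(D.group F), c⁻¹ * g * c ∈ M.bd.parG ↑J :=
    ⟨_, Finset.univ, rfl, 1, by rw [Finset.coe_univ, M.bd.parG_univ]; trivial⟩
  obtain ⟨J, hJn, c, hc⟩ := Nat.find_spec hex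
  have hmin : ∀ K : Finset (Fin D.rank), K ⊂ J → ∀ d : ↥(D.group F), d⁻¹ * (c⁻¹ * g * c) * d ∉ M.bd.parG ↑K := by
    intro K hK d h
    have h1 : K.card < J.card := Finset.card_lt_card hK
    rw [hJn] at h1
    exact Nat.find_min hex h1 ⟨K, rfl, c * d, by rwa [show (c * d)⁻¹ * g * (c * d) = d⁻¹ * (c⁻¹ * g * c) * d by group]⟩
  obtain ⟨s, hs⟩ : ∃ s, s = c⁻¹ * g * c := ⟨_, rfl⟩
  rw [← hs] at hc hmin
  have hcl := IsCharacter.isClassFunction (IsIrrCharacter.isCharacter M.steinberg_irr)
  have hgs : g = c * s * c⁻¹ := by rw [hs]; group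
  have hSg : D.steinbergCharacter F g = D.steinbergCharacter F s := by rw [hgs, hcl s c]
  have hos : ¬ p ∣ orderOf s := by
    have h7 : orderOf g = orderOf s := by
      rw [hgs]
      exact orderOf_injective (MulAut.conj c).toMonoidHom (MulAut.conj c).injective s
    rwa [← h7]
  have hcc : Nat.card ↥(Subgroup.centralizer ({g} : Set ↥(D.group F))) = Nat.card ↥(Subgroup.centralizer ({s} : Set ↥(D.group F))) := by
    rw [hs, card_centralizer_conj]
  have hval := M.steinberg_ss_aux p hD J hc hos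
  rw [M.st_min J hc hmin] at hval
  have hpN := M.isPGroup_NJ p hD ↑J
  obtain ⟨a, ha⟩ := IsPGroup.iff_card.1 (hpN.to_le (inf_le_left : M.NJ ↑J ⊓ Subgroup.centralizer {s} ≤ M.NJ ↑J))
  rw [ha] at hval
  refine ⟨a, ?_, ?_⟩
  · rw [hcc]
    apply le_antisymm
    · have h1 : p ^ a ∣ Nat.card ↥(Subgroup.centralizer ({s} : Set ↥(D.group F))) := by
        rw [← ha]
        exact Subgroup.card_dvd_of_le inf_le_right
      exact (hp.out.pow_dvd_iff_le_factorization Nat.card_pos.ne').mp h1
    · -- integrality of the central character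
      have hint := IsIrrCharacter.isIntegral_central M.steinberg_irr s
      have hC := card_isConj_mul_card_centralizer s
      obtain ⟨n, hn⟩ : ∃ n, n = (Nat.card ↥(D.group F)).factorization p := ⟨_, rfl⟩
      have hU : Nat.card (D.posUnipotent F) = p ^ n := by rw [hn]; exact card_U_eq p hD
      rw [M.steinberg_one, hU, hval] at hint
      have hpp : 0 < p := hp.out.pos
      have hint2 : IsIntegral ℤ (((Nat.card {x : ↥(D.group F) // IsConj s x} * p ^ a : ℕ) : ℂ) / ((p ^ n : ℕ) : ℂ)) := by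
        rcases Nat.even_or_odd J.card with h | h
        · rw [h.neg_one_pow, mul_one] at hint
          push_cast at hint ⊢
          exact hint
        · rw [h.neg_one_pow] at hint
          have h3 := hint.neg
          push_cast at h3 ⊢
          convert h3 using 1
          ring
      have h4 := dvd_of_isIntegral_div (pow_pos hpp n).ne' hint2
      have h5 : p ^ n * Nat.card ↥(Subgroup.centralizer ({s} : Set ↥(D.group F))) ∣ Nat.card ↥(D.group F) * p ^ a := by
        rw [← hC]
        have := Nat.mul_dvd_mul_right h4 (Nat.card ↥(Subgroup.centralizer ({s} : Set ↥(D.group F))))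
        convert this using 1
        ring
      have hG0 : Nat.card ↥(D.group F) ≠ 0 := Nat.card_pos.ne'
      have hC0 : Nat.card ↥(Subgroup.centralizer ({s} : Set ↥(D.group F))) ≠ 0 := Nat.card_pos.ne'
      have h6 := (Nat.factorization_le_iff_dvd (mul_ne_zero (pow_pos hpp n).ne' hC0)
        (mul_ne_zero hG0 (pow_pos hpp a).ne')).2 h5
      have h7 := h6 p
      rw [Nat.factorization_mul (pow_pos hpp n).ne' hC0, Nat.factorization_mul hG0 (pow_pos hpp a).ne',
        hp.out.factorization_pow, hp.out.factorization_pow] at h7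
      simp only [Finsupp.add_apply, Finsupp.single_eq_same] at h7
      omega
  · rw [hSg, hval]
    rcases Nat.even_or_odd J.card with h | h
    · left; rw [h.neg_one_pow]; push_cast; ring
    · right; rw [h.neg_one_pow]; push_cast; ring

end chars

end CG

end CfsgLib.Chev
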