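import Mathlib
import Cfsg.Agent.Lib.H2St8

/-! The only irreducible character of `p`-defect zero of a Chevalley group is the Steinberg character. -/

namespace CfsgLib.St

open CfsgLib.CharBasic CfsgLib.CharInd CfsgLib.CharClifford Cfsg ComplexConjugate
open scoped Classical
set_option linter.style.haveILetI false

/-- an exponent giving the `p'`-part of every element -/
theorem exists_exp (G : Type*) [Group G] [Finite G] (p : ℕ) [hp : Fact p.Prime] :
    ∃ e : ℕ, (∀ g : G, ¬ p ∣ orderOf (g ^ e)) ∧ (∀ g : G, ¬ p ∣ orderOf g → g ^ e = g) ∧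
      (∀ g : G, (∃ k, orderOf g = p ^ k) → g ^ e = 1) := by
  obtain ⟨n, hn⟩ : ∃ n, n = Nat.card G := ⟨_, rfl⟩
  have hn0 : n ≠ 0 := by rw [hn]; exact Nat.card_pos.ne'
  obtain ⟨a, ha⟩ : ∃ a, a = n.factorization p := ⟨_, rfl⟩
  obtain ⟨k, hk⟩ : ∃ k, n = p ^ a * k := by
    rw [ha]; exact (Nat.ordProj_dvd n p)
  have hpk : ¬ p ∣ k := by
    have h1 := Nat.not_dvd_ordCompl hp.out hn0
    have h2 : n / p ^ n.factorization p = k := by
      rw [← ha, hk, Nat.mul_div_cancel_left _ (pow_pos hp.out.pos a)]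
    rwa [h2] at h1
  have hcop : (p ^ a).Coprime k := Nat.Coprime.pow_left a ((Nat.Prime.coprime_iff_not_dvd hp.out).2 hpk)
  obtain ⟨e, he1, he2⟩ := Nat.chineseRemainder hcop 0 1
  have hpe : p ^ a ∣ e := (Nat.modEq_zero_iff_dvd).1 he1
  have hord : ∀ g : G, orderOf g ∣ n := fun g => by rw [hn]; exact orderOf_dvd_natCard g
  refine ⟨e, ?_, ?_, ?_⟩
  · intro g h
    have h1 : orderOf (g ^ e) ∣ k := by
      apply orderOf_dvd_of_pow_eq_one
      obtain ⟨c, hc⟩ := hpe
      rw [← pow_mul, hc, show p ^ a * c * k = n * c by rw [hk]; ring, pow_mul]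
      rw [orderOf_dvd_iff_pow_eq_one.1 (hord g), one_pow]
    exact hpk (h.trans h1)
  · intro g hg
    have h1 : orderOf g ∣ k := by
      have h2 : (orderOf g).Coprime (p ^ a) :=
        (Nat.Coprime.pow_left a ((Nat.Prime.coprime_iff_not_dvd hp.out).2 hg)).symm
      exact h2.dvd_of_dvd_mul_left (by rw [← hk]; exact hord g)
    have h3 : e ≡ 1 [MOD orderOf g] := he2.of_dvd h1
    have h4 := (pow_eq_pow_iff_modEq (x := g)).2 h3
    rwa [pow_one] at h4
  · rintro g ⟨j, hj⟩
    rw [← orderOf_dvd_iff_pow_eq_one]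
    refine dvd_trans ?_ hpe
    have h1 := hord g
    rw [hj] at h1 ⊢
    rw [ha]
    exact pow_dvd_pow p ((hp.out.pow_dvd_iff_le_factorization hn0).1 h1)

theorem mul_pow_norm {G : Type*} [Group G] {N : Subgroup G} {x : G} (hx : x ∈ Subgroup.normalizer (N : Set G)) {u : G}
    (hu : u ∈ N) (m : ℕ) : ∃ v ∈ N, (x * u) ^ m = x ^ m * v := by
  induction m with
  | zero => exact ⟨1, one_mem _, by simp⟩
  | succ m ih =>
    obtain ⟨v, hv, h⟩ := ih
    have h1 : x⁻¹ * v * x ∈ N := by
      have := ((Subgroup.mem_normalizer_iff.mp (inv_mem hx)) v).mp hv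
      rwa [inv_inv] at this
    refine ⟨x⁻¹ * v * x * u, mul_mem h1 hu, ?_⟩
    rw [pow_succ, h, pow_succ]
    group

/-- class functions and conjugates -/
theorem sum_conj_class {G : Type*} [Group G] [Fintype G] {f : G → ℂ} (hf : ∀ g h : G, f (h * g * h⁻¹) = f g)
    (φ : G → ℂ) : (∑ g : G, f g * ∑ h : G, φ (h⁻¹ * g * h)) = (Nat.card G : ℂ) * ∑ g : G, f g * φ g := by
  have h1 : ∀ g : G, f g * ∑ h : G, φ (h⁻¹ * g * h) = ∑ h : G, f g * φ (h⁻¹ * g * h) := fun g => Finset.mul_sum _ _ _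
  rw [Finset.sum_congr rfl (fun g _ => h1 g), Finset.sum_comm]
  have h2 : ∀ h : G, (∑ g : G, f g * φ (h⁻¹ * g * h)) = ∑ g : G, f g * φ g := by
    intro h
    refine Fintype.sum_equiv (MulAut.conj h⁻¹).toEquiv _ _ (fun g => ?_)
    have e : (MulAut.conj h⁻¹).toEquiv g = h⁻¹ * g * h := by
      change h⁻¹ * g * h⁻¹⁻¹ = _
      rw [inv_inv]
    rw [e, show h⁻¹ * g * h = h⁻¹ * g * h⁻¹⁻¹ by rw [inv_inv], hf]
  rw [Finset.sum_congr rfl (fun h _ => h2 h), Finset.sum_const, Finset.card_univ, nsmul_eq_mul,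
    Nat.card_eq_fintype_card]

namespace BD
variable {G : Type*} [Group G] [Fintype G] {W : Type*} [Group W] {ι : Type*} [Fintype ι] (S : BD G W ι)

/-- the alternating sum of the induced characters of the `st_J` is trivial -/
theorem sum_ind_st (g : G) : (∑ J : Finset ι, (-1 : ℂ) ^ J.card * ((Nat.card (S.parG ↑J) : ℂ)⁻¹ *
    ∑ h : G, if h⁻¹ * g * h ∈ S.parG ↑J then S.st J (h⁻¹ * g * h) else 0)) = 1 := by
  have h1 : ∀ J : Finset ι, (Nat.card (S.parG ↑J) : ℂ)⁻¹ *
      (∑ h : G, if h⁻¹ * g * h ∈ S.parG ↑J then S.st J (h⁻¹ * g * h) else 0) =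
      ∑ K ∈ J.powerset, (-1 : ℂ) ^ K.card * ((Nat.card (S.parG ↑K) : ℂ)⁻¹ * S.nn Set.univ ↑K g) := by
    intro J
    have h2 : ∀ h : G, (if h⁻¹ * g * h ∈ S.parG ↑J then S.st J (h⁻¹ * g * h) else 0) =
        ∑ K ∈ J.powerset, (-1 : ℂ) ^ K.card * ((Nat.card (S.parG ↑K) : ℂ)⁻¹ *
          if h⁻¹ * g * h ∈ S.parG ↑J then S.nn ↑J ↑K (h⁻¹ * g * h) else 0) := by
      intro h
      by_cases hh : h⁻¹ * g * h ∈ S.parG ↑J
      · simp only [if_pos hh]; rfl
      · simp only [if_neg hh, mul_zero, Finset.sum_const_zero]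
    rw [Finset.sum_congr rfl (fun h _ => h2 h), Finset.sum_comm, Finset.mul_sum]
    refine Finset.sum_congr rfl (fun K hK => ?_)
    rw [← Finset.mul_sum, ← Finset.mul_sum, mul_left_comm]
    congr 1
    rw [mul_left_comm]
    congr 1
    have hKJ : (K : Set ι) ⊆ ↑J := by exact_mod_cast Finset.mem_powerset.1 hK
    have hle := S.parG_mono hKJ
    have h3 : ∀ h : G, (if h⁻¹ * g * h ∈ S.parG ↑J then S.nn ↑J ↑K (h⁻¹ * g * h) else 0) =
        ∑ k : G, if k ∈ S.parG ↑J then (if (h * k)⁻¹ * g * (h * k) ∈ S.parG ↑K then 1 else 0) else 0 := by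
      intro h
      have e : ∀ k : G, (h * k)⁻¹ * g * (h * k) = k⁻¹ * (h⁻¹ * g * h) * k := fun k => by group
      by_cases hh : h⁻¹ * g * h ∈ S.parG ↑J
      · rw [if_pos hh]
        unfold nn
        refine Finset.sum_congr rfl (fun k _ => ?_)
        rw [e, ite_and]
      · rw [if_neg hh]
        refine (Finset.sum_eq_zero (fun k _ => ?_)).symm
        by_cases hk : k ∈ S.parG ↑J
        · rw [if_pos hk, if_neg]
          intro h4
          apply hh
          rw [e] at h4
          have := mul_mem (mul_mem hk (hle h4)) (inv_mem hk)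
          rwa [show k * (k⁻¹ * (h⁻¹ * g * h) * k) * k⁻¹ = h⁻¹ * g * h by group] at this
        · rw [if_neg hk]
    rw [Finset.sum_congr rfl (fun h _ => h3 h), Finset.sum_comm]
    have h5 : ∀ k : G, (∑ h : G, if k ∈ S.parG ↑J then (if (h * k)⁻¹ * g * (h * k) ∈ S.parG ↑K then (1 : ℂ) else 0) else 0) =
        (if k ∈ S.parG ↑J then 1 else 0) * S.nn Set.univ ↑K g := by
      intro k
      by_cases hk : k ∈ S.parG ↑J
      · simp only [if_pos hk, one_mul]
        unfold nn
        refine Fintype.sum_equiv (Equiv.mulRight k) _ _ (fun h => ?_)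
        simp only [Equiv.coe_mulRight, S.parG_univ, Subgroup.mem_top, true_and]
      · simp only [if_neg hk, zero_mul, Finset.sum_const_zero]
    rw [Finset.sum_congr rfl (fun k _ => h5 k), ← Finset.sum_mul, sum_mem, inv_mul_cancel_left₀ card_ne]
  have h6 : (∑ J : Finset ι, (-1 : ℂ) ^ J.card * ((Nat.card (S.parG ↑J) : ℂ)⁻¹ *
      ∑ h : G, if h⁻¹ * g * h ∈ S.parG ↑J then S.st J (h⁻¹ * g * h) else 0)) =
      ∑ J : Finset ι, ∑ K : Finset ι, if K ⊆ J then (-1 : ℂ) ^ J.card *
        ((-1 : ℂ) ^ K.card * ((Nat.card (S.parG ↑K) : ℂ)⁻¹ * S.nn Set.univ ↑K g)) else 0 := by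
    refine Finset.sum_congr rfl (fun J _ => ?_)
    rw [h1, Finset.mul_sum, ← Finset.sum_filter]
    refine Finset.sum_congr ?_ (fun _ _ => rfl)
    ext K
    simp
  rw [h6, Finset.sum_comm]
  rw [Finset.sum_eq_single Finset.univ]
  · rw [Finset.sum_eq_single Finset.univ]
    · rw [if_pos (Finset.Subset.refl _)]
      have h7 : S.nn Set.univ ↑(Finset.univ : Finset ι) g = Nat.card (S.parG ↑(Finset.univ : Finset ι)) := by
        rw [← sum_mem]
        unfold nn
        refine Finset.sum_congr rfl (fun k _ => ?_)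
        rw [Finset.coe_univ, S.parG_univ]
        simp
      rw [h7, inv_mul_cancel₀ card_ne, mul_one, ← pow_add, ← two_mul, pow_mul]
      simp
    · intro J _ hJ
      rw [if_neg]
      intro h
      exact hJ (Finset.univ_subset_iff.1 h)
    · intro h; exact absurd (Finset.mem_univ _) h
  · intro K _ hK
    have h8 : ∀ J : Finset ι, (if K ⊆ J then (-1 : ℂ) ^ J.card *
        ((-1 : ℂ) ^ K.card * ((Nat.card (S.parG ↑K) : ℂ)⁻¹ * S.nn Set.univ ↑K g)) else 0) =
        (if K ⊆ J then (-1 : ℂ) ^ J.card else 0) *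
        ((-1 : ℂ) ^ K.card * ((Nat.card (S.parG ↑K) : ℂ)⁻¹ * S.nn Set.univ ↑K g)) := by
      intro J
      split_ifs <;> simp
    rw [Finset.sum_congr rfl (fun J _ => h8 J), ← Finset.sum_mul]
    have h9 : (∑ J : Finset ι, if K ⊆ J then (-1 : ℂ) ^ J.card else 0) = 0 := by
      have h10 := alt_sum (Finset.univ : Finset ι) (fun i => i ∉ K) (fun L => ∀ k ∈ L, k ∉ K) (fun L => Iff.rfl)
        (K = Finset.univ) (by
          constructor
          · rintro rfl i _; simp
          · intro h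
            ext i
            simpa using h i (Finset.mem_univ i))
      rw [if_neg hK] at h10
      have h11 : (∑ J : Finset ι, if K ⊆ J then (-1 : ℂ) ^ J.card else 0) =
          (-1 : ℂ) ^ (Finset.univ : Finset ι).card * ∑ L ∈ (Finset.univ : Finset ι).powerset,
            (-1 : ℂ) ^ L.card * (if ∀ k ∈ L, k ∉ K then 1 else 0) := by
        rw [Finset.powerset_univ, Finset.mul_sum]
        refine Fintype.sum_equiv (Equiv.mk (fun J : Finset ι => Jᶜ) (fun J => Jᶜ) (fun J => compl_compl J) (fun J => compl_compl J)) _ _ (fun J => ?_)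
        simp only [Equiv.coe_fn_mk, Finset.mem_compl]
        have e1 : (∀ k, k ∉ J → k ∉ K) ↔ K ⊆ J := by
          constructor
          · intro h k hk
            by_contra h'
            exact h k h' hk
          · intro h k hk hk'
            exact hk (h hk')
        by_cases h : K ⊆ J
        · rw [if_pos h, if_pos (e1.2 h), mul_one, Finset.card_compl, ← pow_add]
          have hle : J.card ≤ Fintype.card ι := Finset.card_le_univ J
          rw [← Finset.card_univ] at hle ⊢
          have : (Finset.univ : Finset ι).card + ((Finset.univ : Finset ι).card - J.card) =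
              J.card + 2 * ((Finset.univ : Finset ι).card - J.card) := by omega
          rw [this, pow_add, pow_mul]
          simp
        · rw [if_neg h, if_neg (fun h' => h (e1.1 h')), mul_zero, mul_zero]
      rw [h11, h10, mul_zero]
    rw [h9, zero_mul]
  · intro h; exact absurd (Finset.mem_univ _) h

end BD

end CfsgLib.St

namespace CfsgLib.Chev
open Cfsg.Lie Matrix CfsgLib.BNP CfsgLib.CharInd CfsgLib.CharBasic CfsgLib.Block ComplexConjugate
open scoped Classical
set_option linter.style.haveILetI false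
set_option linter.unusedSectionVars false

namespace CG
variable {D : ChevalleyDatum} {F : Type*} [Field F] (M : CG D F) [Fintype ↥(D.group F)]
variable [Fintype F] (p : ℕ) [hp : Fact p.Prime] [CharP F p]
  (hD : D ∈ [chevG2, chevB2, chevD4, chevF4, chevE6, chevE7, chevE8])

include M in
/-- a normal subgroup containing `U` is the whole group -/
theorem top_of_U_le (K : Subgroup ↥(D.group F)) [hK : K.Normal]
    (hU : ∀ x : ↥(D.group F), (x : GL D.Idx F) ∈ D.posUnipotent F → x ∈ K) : K = ⊤ := by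
  obtain ⟨n, hn, h⟩ := M.exists_n0 (F := F)
  have hnG := M.N_le_G hn
  have h1 : D.posUnipotent F ≤ K.map (D.group F).subtype := by
    intro x hx
    exact ⟨⟨x, M.U_le_G hx⟩, hU ⟨x, M.U_le_G hx⟩ hx, rfl⟩
  have h2 : D.negUnipotent F ≤ K.map (D.group F).subtype := by
    intro y hy
    have h3 : n⁻¹ * y * n ∈ D.posUnipotent F := by
      rw [h]
      rwa [show n * (n⁻¹ * y * n) * n⁻¹ = y by group]
    have h4 := hK.conj_mem _ (hU ⟨n⁻¹ * y * n, M.U_le_G h3⟩ h3) ⟨n, hnG⟩
    refine ⟨_, h4, ?_⟩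
    change n * (n⁻¹ * y * n) * n⁻¹ = y
    group
  have h5 : D.group F ≤ K.map (D.group F).subtype := M.UV_eq.ge.trans (sup_le h1 h2)
  rw [eq_top_iff]
  intro x _
  obtain ⟨y, hy, he⟩ := h5 x.2
  have : y = x := Subtype.ext he
  rwa [← this]

include M hD in
theorem eq_steinberg {χ : ↥(D.group F) → ℂ} (hχ : Cfsg.IsIrrCharacter ↥(D.group F) χ)
    (h0 : ∀ g, p ∣ orderOf g → χ g = 0) : χ = D.steinbergCharacter F := by
  obtain ⟨e, he1, he2, he3⟩ := St.exists_exp ↥(D.group F) p
  have hcl := IsCharacter.isClassFunction (IsIrrCharacter.isCharacter M.steinberg_irr)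
  have hclχ := IsCharacter.isClassFunction (IsIrrCharacter.isCharacter hχ)
  obtain ⟨θ, hθ⟩ : ∃ θ : ↥(D.group F) → ℂ, ∀ g, θ g = χ (g ^ e) / D.steinbergCharacter F (g ^ e) := ⟨_, fun _ => rfl⟩
  have hStne : ∀ g : ↥(D.group F), ¬ p ∣ orderOf g → D.steinbergCharacter F g ≠ 0 := by
    intro g hg
    obtain ⟨a, -, h⟩ := M.steinberg_ss p hD g hg
    have hp0 : (p : ℂ) ≠ 0 := by exact_mod_cast hp.out.ne_zero
    rcases h with h | h
    · rw [h]; exact pow_ne_zero _ hp0
    · rw [h]; exact neg_ne_zero.2 (pow_ne_zero _ hp0)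
  -- factorisation
  have hfac : ∀ g, χ g = θ g * D.steinbergCharacter F g := by
    intro g
    by_cases hg : p ∣ orderOf g
    · rw [h0 g hg, steinberg_zero p hD hg, mul_zero]
    · rw [hθ, he2 g hg, div_mul_cancel₀ _ (hStne g hg)]
  have hθc : ∀ g h : ↥(D.group F), θ (h * g * h⁻¹) = θ g := by
    intro g h
    rw [hθ, hθ, conj_pow, hcl, hclχ]
  have hθc' : ∀ g h : ↥(D.group F), θ (h⁻¹ * g * h) = θ g := by
    intro g h
    have := hθc g h⁻¹
    rwa [inv_inv] at this
  -- invariance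
  have hinv : ∀ (J : Finset (Fin D.rank)) (x u : ↥(D.group F)), x ∈ M.bd.parG ↑J → u ∈ M.NJ ↑J → θ (x * u) = θ x := by
    intro J x u hx hu
    obtain ⟨v, hv, h⟩ := St.mul_pow_norm (M.NJ_norm ↑J hx) hu e
    have h1 := he1 (x * u)
    have h2 := he1 x
    rw [h] at h1
    obtain ⟨w, _, hw⟩ := St.conj_mul (M.isPGroup_NJ p hD ↑J) (pow_mem (M.NJ_norm ↑J hx) e) h2 hv h1
    rw [hθ, hθ, h, hw, hcl, hclχ]
  -- truncation
  have htr : ∀ (J : Finset (Fin D.rank)) (x : ↥(D.group F)), x ∈ M.bd.parG ↑J →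
      (Nat.card (M.UJ ↑J) : ℂ) * (θ x * M.bd.st J x) = ∑ u : ↥(D.group F), if u ∈ M.NJ ↑J then χ (x * u) else 0 := by
    intro J x hx
    rw [mul_left_comm, M.st_trunc J hx, Finset.mul_sum]
    refine Finset.sum_congr rfl (fun u _ => ?_)
    by_cases hu : u ∈ M.NJ ↑J
    · rw [if_pos hu, if_pos hu, hfac, hinv J x u hx hu]
    · rw [if_neg hu, if_neg hu, mul_zero]
  have hchar : ∀ J : Finset (Fin D.rank), Cfsg.IsCharacter ↥(M.bd.parG (↑J : Set (Fin D.rank)))
      (fun x => θ x * M.bd.st J x) := by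
    intro J
    obtain ⟨H, hH⟩ : ∃ H, H = M.bd.parG (↑J : Set (Fin D.rank)) := ⟨_, rfl⟩
    rw [← hH]
    have hNH : M.NJ ↑J ≤ H := by rw [hH]; exact (M.NJ_le_B _).trans (M.bd.B_le_parG _)
    haveI hn : ((M.NJ ↑J).subgroupOf H).Normal := by
      refine ⟨fun n hn g => ?_⟩
      exact ((Subgroup.mem_normalizer_iff.mp (M.NJ_norm ↑J (by rw [← hH]; exact g.2))) n).mp hn
    have hcN : Nat.card ((M.NJ ↑J).subgroupOf H) = Nat.card (M.UJ ↑J) := by
      rw [Nat.card_congr (Subgroup.subgroupOfEquivOfLe hNH).toEquiv, M.card_NJ]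
    have hUJne := M.UJ_pos (↑J : Set (Fin D.rank))
    have h1 := St.avg_isCharacter ((M.NJ ↑J).subgroupOf H) (IsCharacter.restrict (IsIrrCharacter.isCharacter hχ) H)
    have h2 : St.avg ((M.NJ ↑J).subgroupOf H) (fun z : ↥H => χ z) = fun x : ↥H => θ x * M.bd.st J x := by
      funext y
      apply mul_left_cancel₀ hUJne
      rw [htr J y (by rw [← hH]; exact y.2)]
      unfold St.avg
      rw [hcN, mul_inv_cancel_left₀ hUJne]
      have h1 := St.BD.sum_parG H (fun u => if u ∈ M.NJ ↑J then χ (y * u) else 0)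
      have h2 : (∑ u : ↥(D.group F), if u ∈ H then (if u ∈ M.NJ ↑J then χ (y * u) else 0) else 0) =
          ∑ u : ↥(D.group F), if u ∈ M.NJ ↑J then χ (y * u) else 0 := by
        refine Finset.sum_congr rfl (fun u _ => ?_)
        by_cases hu : u ∈ M.NJ ↑J
        · rw [if_pos hu, if_pos (hNH hu)]
        · rw [if_neg hu, ite_self]
      rw [← h2, ← h1]
      rfl
    rw [← h2]
    exact h1
  -- the dual
  have hdual : ∀ g, θ g = ∑ J : Finset (Fin D.rank), (-1 : ℂ) ^ J.card *
      ((Nat.card (M.bd.parG ↑J) : ℂ)⁻¹ * ∑ h : ↥(D.group F), if h⁻¹ * g * h ∈ M.bd.parG ↑J then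
        θ (h⁻¹ * g * h) * M.bd.st J (h⁻¹ * g * h) else 0) := by
    intro g
    have h1 := M.bd.sum_ind_st g
    have h2 := congrArg (fun z => θ g * z) h1
    simp only [mul_one] at h2
    rw [← h2, Finset.mul_sum]
    refine Finset.sum_congr rfl (fun J _ => ?_)
    rw [mul_left_comm]
    congr 1
    rw [mul_left_comm]
    congr 1
    rw [Finset.mul_sum]
    refine Finset.sum_congr rfl (fun h _ => ?_)
    rw [mul_ite, mul_zero, hθc']
  have hgen : Cfsg.IsGeneralizedCharacter ↥(D.group F) θ := by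
    have h : θ = ∑ J : Finset (Fin D.rank), ((((-1 : ℤ) ^ J.card : ℤ) : ℂ)) •
        Cfsg.indFun (M.bd.parG (↑J : Set (Fin D.rank))) (fun x => θ x * M.bd.st J x) := by
      funext g
      rw [hdual g, Finset.sum_apply]
      refine Finset.sum_congr rfl (fun J _ => ?_)
      rw [Pi.smul_apply, smul_eq_mul, indFun_apply]
      push_cast
      congr 2
      refine Finset.sum_congr rfl (fun h _ => ?_)
      by_cases hh : h⁻¹ * g * h ∈ M.bd.parG ↑J
      · rw [if_pos hh, ext_of_mem hh]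
      · rw [if_neg hh, ext_of_not_mem hh]
    rw [h]
    apply IsGeneralizedCharacter.sum
    intro J _
    apply IsGeneralizedCharacter.zsmul
    exact IsCharacter.isGeneralized (isCharacter_indFun _ (hchar J))
  -- norm
  have hcG : (Nat.card ↥(D.group F) : ℂ) ≠ 0 := by exact_mod_cast Nat.card_pos.ne'
  have hcc : ∀ g h : ↥(D.group F), conj (θ (h * g * h⁻¹)) = conj (θ g) := fun g h => by rw [hθc]
  have hsumθ : (∑ g : ↥(D.group F), θ g * conj (θ g)) = ∑ g : ↥(D.group F), χ g * conj (χ g) := by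
    have e1 : ∀ J : Finset (Fin D.rank), (∑ g : ↥(D.group F), conj (θ g) * ∑ h : ↥(D.group F),
        (if h⁻¹ * g * h ∈ M.bd.parG ↑J then θ (h⁻¹ * g * h) * M.bd.st J (h⁻¹ * g * h) else 0)) =
        ∑ g : ↥(D.group F), (conj (θ g) * χ g) * ∑ h : ↥(D.group F), (if h⁻¹ * g * h ∈ M.bd.parG ↑J then 1 else 0) := by
      intro J
      rw [St.sum_conj_class hcc (fun y => if y ∈ M.bd.parG ↑J then θ y * M.bd.st J y else 0),
        St.sum_conj_class (f := fun g => conj (θ g) * χ g) (fun g h => by rw [hθc, hclχ])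
          (fun y => if y ∈ M.bd.parG ↑J then (1 : ℂ) else 0)]
      congr 1
      have hUJne := M.UJ_pos (↑J : Set (Fin D.rank))
      apply mul_left_cancel₀ hUJne
      rw [Finset.mul_sum]
      have e2 : ∀ g : ↥(D.group F), (Nat.card (M.UJ ↑J) : ℂ) * (conj (θ g) *
          if g ∈ M.bd.parG ↑J then θ g * M.bd.st J g else 0) =
          ∑ u : ↥(D.group F), if u ∈ M.NJ ↑J then (if g * u ∈ M.bd.parG ↑J then conj (θ (g * u)) * χ (g * u) else 0) else 0 := by
        intro g
        by_cases hg : g ∈ M.bd.parG ↑J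
        · rw [if_pos hg, mul_left_comm, htr J g hg, Finset.mul_sum]
          refine Finset.sum_congr rfl (fun u _ => ?_)
          by_cases hu : u ∈ M.NJ ↑J
          · rw [if_pos hu, if_pos hu, if_pos (mul_mem hg (M.bd.B_le_parG _ (M.NJ_le_B _ hu))), hinv J g u hg hu]
          · rw [if_neg hu, if_neg hu, mul_zero]
        · rw [if_neg hg, mul_zero, mul_zero]
          refine (Finset.sum_eq_zero (fun u _ => ?_)).symm
          by_cases hu : u ∈ M.NJ ↑J
          · rw [if_pos hu, if_neg]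
            intro h
            apply hg
            have := mul_mem h (inv_mem (M.bd.B_le_parG _ (M.NJ_le_B _ hu)))
            rwa [mul_inv_cancel_right] at this
          · rw [if_neg hu]
      rw [Finset.sum_congr rfl (fun g _ => e2 g), Finset.sum_comm]
      have e3 : ∀ u : ↥(D.group F), (∑ g : ↥(D.group F), if u ∈ M.NJ ↑J then
          (if g * u ∈ M.bd.parG ↑J then conj (θ (g * u)) * χ (g * u) else 0) else 0) =
          (if u ∈ M.NJ ↑J then 1 else 0) * ∑ g : ↥(D.group F), (conj (θ g) * χ g) * (if g ∈ M.bd.parG ↑J then 1 else 0) := by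
        intro u
        by_cases hu : u ∈ M.NJ ↑J
        · simp only [if_pos hu, one_mul]
          refine Fintype.sum_equiv (Equiv.mulRight u) _ _ (fun g => ?_)
          have h' : (Equiv.mulRight u) g = g * u := rfl
          rw [h']
          by_cases h : g * u ∈ M.bd.parG ↑J
          · rw [if_pos h, if_pos h, mul_one]
          · rw [if_neg h, if_neg h, mul_zero]
        · simp only [if_neg hu, zero_mul, Finset.sum_const_zero]
      rw [Finset.sum_congr rfl (fun u _ => e3 u), ← Finset.sum_mul, St.BD.sum_mem, M.card_NJ]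
    have e4 : (∑ g : ↥(D.group F), θ g * conj (θ g)) = ∑ J : Finset (Fin D.rank), (-1 : ℂ) ^ J.card *
        ((Nat.card (M.bd.parG ↑J) : ℂ)⁻¹ * ∑ g : ↥(D.group F), conj (θ g) * ∑ h : ↥(D.group F),
        (if h⁻¹ * g * h ∈ M.bd.parG ↑J then θ (h⁻¹ * g * h) * M.bd.st J (h⁻¹ * g * h) else 0)) := by
      have e5 : ∀ g : ↥(D.group F), θ g * conj (θ g) = ∑ J : Finset (Fin D.rank), (-1 : ℂ) ^ J.card *
          ((Nat.card (M.bd.parG ↑J) : ℂ)⁻¹ * (conj (θ g) * ∑ h : ↥(D.group F),
          (if h⁻¹ * g * h ∈ M.bd.parG ↑J then θ (h⁻¹ * g * h) * M.bd.st J (h⁻¹ * g * h) else 0))) := by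
        intro g
        have h1 := congrArg (fun z => conj (θ g) * z) (hdual g)
        simp only [Finset.mul_sum _ _ (conj (θ g))] at h1
        rw [mul_comm, h1]
        refine Finset.sum_congr rfl (fun J _ => ?_)
        rw [mul_left_comm]
        congr 1
        rw [mul_left_comm]
      rw [Finset.sum_congr rfl (fun g _ => e5 g), Finset.sum_comm]
      refine Finset.sum_congr rfl (fun J _ => ?_)
      rw [Finset.mul_sum, Finset.mul_sum]
    rw [e4, Finset.sum_congr rfl (fun J _ => by rw [e1 J])]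
    have e6 : ∀ J : Finset (Fin D.rank), (-1 : ℂ) ^ J.card * ((Nat.card (M.bd.parG ↑J) : ℂ)⁻¹ *
        ∑ g : ↥(D.group F), (conj (θ g) * χ g) * ∑ h : ↥(D.group F), (if h⁻¹ * g * h ∈ M.bd.parG ↑J then 1 else 0)) =
        ∑ g : ↥(D.group F), (conj (θ g) * χ g) * ((-1 : ℂ) ^ J.card * ((Nat.card (M.bd.parG ↑J) : ℂ)⁻¹ * M.bd.nn Set.univ ↑J g)) := by
      intro J
      rw [Finset.mul_sum, Finset.mul_sum]
      refine Finset.sum_congr rfl (fun g _ => ?_)
      unfold St.BD.nn
      simp only [M.bd.parG_univ, Subgroup.mem_top, true_and]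
      ring
    rw [Finset.sum_congr rfl (fun J _ => e6 J), Finset.sum_comm]
    refine Finset.sum_congr rfl (fun g _ => ?_)
    rw [← Finset.mul_sum]
    have e7 : (∑ J : Finset (Fin D.rank), (-1 : ℂ) ^ J.card * ((Nat.card (M.bd.parG ↑J) : ℂ)⁻¹ * M.bd.nn Set.univ ↑J g)) =
        D.steinbergCharacter F g := by
      rw [M.steinberg_eq]
      unfold St.BD.st
      rw [Finset.powerset_univ]
      refine Finset.sum_congr rfl (fun J _ => ?_)
      rw [Finset.coe_univ]
    have e8 : conj (D.steinbergCharacter F g) = D.steinbergCharacter F g := by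
      rw [M.steinberg_eq]
      exact M.bd.st_real _ _
    rw [e7, hfac g, map_mul, e8]
    ring
  have hnorm : Cfsg.classInner θ θ = 1 := by
    have h1 : Cfsg.classInner χ χ = 1 := IsIrrCharacter.inner_self hχ
    unfold Cfsg.classInner at h1 ⊢
    rw [hsumθ]
    exact h1
  -- positivity
  have hθ1 : θ 1 = χ 1 / Nat.card (D.posUnipotent F) := by
    rw [hθ, one_pow, M.steinberg_one]
  obtain ⟨n, hn, hn1⟩ := IsIrrCharacter.exists_pos hχ
  have hUpos : 0 < Nat.card (D.posUnipotent F) := Nat.card_pos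
  have hirr : Cfsg.IsIrrCharacter ↥(D.group F) θ := by
    refine IsGeneralizedCharacter.irr_of_pos hgen hnorm ?_
    rw [hθ1, hn1]
    have h1 : ((n : ℂ) / (Nat.card (D.posUnipotent F) : ℂ)) = (((n : ℝ) / (Nat.card (D.posUnipotent F) : ℝ) : ℝ) : ℂ) := by
      push_cast; rfl
    rw [h1, Complex.ofReal_re]
    have h2 : (0 : ℝ) < n := by exact_mod_cast hn
    have h3 : (0 : ℝ) < Nat.card (D.posUnipotent F) := by exact_mod_cast hUpos
    positivity
  have hcθ := IsIrrCharacter.isCharacter hirr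
  haveI := charKer_normal hcθ
  have htop := M.top_of_U_le (charKer hcθ) (by
    intro x hx
    rw [mem_charKer, hθ, hθ, one_pow, he3 x]
    have hpU : IsPGroup p (D.posUnipotent F) := by
      apply IsPGroup.of_card (n := (Nat.card ↥(D.group F)).factorization p)
      exact card_U_eq p hD
    obtain ⟨k, hk⟩ := (IsPGroup.iff_orderOf.1 hpU) ⟨(x : GL D.Idx F), hx⟩
    refine ⟨k, ?_⟩
    rw [← hk, Subgroup.orderOf_mk]
    exact (Subgroup.orderOf_mk _ _).symm)
  have hconst : ∀ g, θ g = θ 1 := by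
    intro g
    have : g ∈ charKer hcθ := by rw [htop]; trivial
    exact this
  obtain ⟨m, hm, hm1⟩ := IsIrrCharacter.exists_pos hirr
  have hm2 : (m : ℂ) * m = 1 := by
    unfold Cfsg.classInner at hnorm
    rw [Finset.sum_congr rfl (fun g _ => by rw [hconst g]), Finset.sum_const, Finset.card_univ, nsmul_eq_mul,
      ← Nat.card_eq_fintype_card, hm1, inv_mul_cancel_left₀ hcG] at hnorm
    simpa using hnorm
  have hm3 : m = 1 := by
    have : m * m = 1 := by exact_mod_cast hm2
    exact Nat.eq_one_of_mul_eq_one_left this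
  funext g
  rw [hfac g, hconst g, hm1, hm3]
  simp

end CG

end CfsgLib.Chev
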