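import Mathlib
import Cfsg.Agent.Lib.H2Hk3
import Cfsg.Agent.Lib.H2St9

/-! The rank of the Casimir operator at the parameter `q`. -/

namespace CfsgLib.St.BD

open CfsgLib.BNP CfsgLib.Hecke CfsgLib.CharBasic CfsgLib.CharInd Cfsg ComplexConjugate
open scoped Classical
set_option linter.style.haveILetI false
set_option linter.unusedSectionVars false

variable {G : Type*} [Group G] [Fintype G] {W : Type*} [Group W] {ι : Type*} (S : BD G W ι)

theorem sum_split [Fintype W] (f : G → ℂ) : (∑ g : G, f g) = ∑ w : W, S.sC w f := by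
  unfold sC
  rw [Finset.sum_comm]
  refine Finset.sum_congr rfl (fun g _ => ?_)
  rw [Finset.sum_ite_eq]
  simp

theorem sum_sB_comm (f : G → G → ℂ) : (∑ x : G, S.sB (fun b => f x b)) = S.sB (fun b => ∑ x : G, f x b) := by
  unfold sB
  rw [Finset.sum_comm]
  refine Finset.sum_congr rfl (fun b _ => ?_)
  split_ifs <;> simp

/-- summation over a conjugacy action -/
noncomputable def al (f : W → ℂ) (x : G) : ℂ := ∑ g : G, S.th f (g⁻¹ * x * g)

theorem al_class (f : W → ℂ) : IsClassFunction G (S.al f) := by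
  intro x h
  unfold al
  refine Fintype.sum_equiv (Equiv.mulLeft h⁻¹) _ _ (fun g => ?_)
  simp only [Equiv.coe_mulLeft]
  congr 1
  group

theorem sum_al (f : W → ℂ) {φ : G → ℂ} (hφ : IsClassFunction G φ) :
    (∑ x : G, S.al f x * φ x) = (Nat.card G : ℂ) * ∑ x : G, S.th f x * φ x := by
  have h1 := St.sum_conj_class hφ (S.th f)
  rw [show (∑ x : G, S.th f x * φ x) = ∑ x : G, φ x * S.th f x from Finset.sum_congr rfl (fun x _ => mul_comm _ _), ← h1]
  refine Finset.sum_congr rfl (fun x _ => ?_)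
  rw [mul_comm]
  rfl

/-- two-sided sum -/
noncomputable def bb (φ : G → ℂ) (x : G) : ℂ := S.sB (fun b => S.sB (fun b' => φ (b * x * b')))

theorem sum_th_bb (g : W → ℂ) (φ : G → ℂ) :
    (∑ x : G, S.th g x * S.bb φ x) = (Nat.card S.B : ℂ) * (Nat.card S.B * ∑ x : G, S.th g x * φ x) := by
  unfold bb
  have h1 : ∀ x : G, S.th g x * S.sB (fun b => S.sB (fun b' => φ (b * x * b'))) =
      S.sB (fun b => S.sB (fun b' => S.th g (b * x * b') * φ (b * x * b'))) := by
    intro x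
    rw [← S.sB_mul]
    apply S.sB_congr
    intro b hb
    rw [← S.sB_mul]
    apply S.sB_congr
    intro b' hb'
    rw [S.th_mulR g hb', S.th_mulL g hb]
  rw [Finset.sum_congr rfl (fun x _ => h1 x), S.sum_sB_comm, ← S.sB_const]
  apply S.sB_congr
  intro b hb
  rw [S.sum_sB_comm, ← S.sB_const]
  apply S.sB_congr
  intro b' hb'
  refine Fintype.sum_equiv ((Equiv.mulLeft b).trans (Equiv.mulRight b')) _ _ (fun x => ?_)
  rfl

variable {q : ℕ} (hq : ∀ w, Nat.card (S.C w) = Nat.card S.B * q ^ len S.σ w) [Fintype W]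

/-- the Casimir operator as an average over the group -/
theorem th_cas (hq : ∀ w, Nat.card (S.C w) = Nat.card S.B * q ^ len S.σ w) (hq0 : (q : ℂ) ≠ 0) :
    ∃ κ : ℂ, κ ≠ 0 ∧ ∀ (f : W → ℂ) (x : G), S.th (cas S.ex (q : ℂ) f) x = κ * S.bb (S.al f) x := by
  have hB := card_ne (H := S.B)
  obtain ⟨N, hN⟩ : ∃ N, N = Finset.univ.sup (len S.σ) := ⟨_, rfl⟩
  refine ⟨(q : ℂ) ^ N * ((Nat.card S.B : ℂ)⁻¹ * ((Nat.card S.B : ℂ)⁻¹ * (Nat.card S.B : ℂ)⁻¹)),
    mul_ne_zero (pow_ne_zero _ hq0) (mul_ne_zero (inv_ne_zero hB) (mul_ne_zero (inv_ne_zero hB) (inv_ne_zero hB))), ?_⟩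
  intro f x
  -- the kernel
  obtain ⟨T, hT⟩ : ∃ T : W → ℂ, ∀ w, T w = S.sC w (fun y => S.sC w (fun z => S.th f (y⁻¹ * x * z))) := ⟨_, fun _ => rfl⟩
  have h1 : S.th (cas S.ex (q : ℂ) f) x = ∑ w : W, (q : ℂ) ^ (N - len S.σ w) *
      ((Nat.card S.B : ℂ)⁻¹ * ((Nat.card S.B : ℂ)⁻¹ * T w)) := by
    unfold th
    rw [cas_apply, Finset.sum_apply]
    refine Finset.sum_congr rfl (fun w _ => ?_)
    rw [Pi.smul_apply, smul_eq_mul, hT, ← S.th_Ph hq, hN]
    rfl
  have h2 : S.bb (S.al f) x = ∑ g : G, S.sB (fun b => S.sB (fun b' => S.th f ((b * g)⁻¹ * x * (b' * g)))) := by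
    unfold bb al
    have e1 : ∀ b : G, S.sB (fun b' => ∑ g : G, S.th f (g⁻¹ * (b * x * b') * g)) =
        ∑ g : G, S.sB (fun b' => S.th f (g⁻¹ * (b * x * b') * g)) := by
      intro b
      rw [S.sum_sB_comm]
    rw [S.sB_congr (fun b _ => e1 b), ← S.sum_sB_comm]
    refine Finset.sum_congr rfl (fun g _ => ?_)
    rw [← S.sB_inv]
    apply S.sB_congr
    intro b _
    apply S.sB_congr
    intro b' _
    congr 1
    group
  have h3 : ∀ g : G, S.sB (fun b => S.sB (fun b' => S.th f ((b * g)⁻¹ * x * (b' * g)))) =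
      ((q : ℂ) ^ len S.σ (S.wt g))⁻¹ * (((q : ℂ) ^ len S.σ (S.wt g))⁻¹ * T (S.wt g)) := by
    intro g
    have hqw := pow_ne_zero (len S.σ (S.wt g)) hq0
    rw [eq_inv_mul_iff_mul_eq₀ hqw, ← S.sB_mul]
    have e2 : ∀ b : G, (q : ℂ) ^ len S.σ (S.wt g) * S.sB (fun b' => S.th f ((b * g)⁻¹ * x * (b' * g))) =
        S.sC (S.wt g) (fun z => S.th f ((b * g)⁻¹ * x * z)) := by
      intro b
      rw [S.sC_eq hq (f := fun z => S.th f ((b * g)⁻¹ * x * z)) (fun z c hc => by
        rw [← mul_assoc, S.th_mulR f hc]) rfl]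
    rw [S.sB_congr (fun b _ => e2 b), eq_inv_mul_iff_mul_eq₀ hqw, hT,
      S.sC_eq hq (f := fun y => S.sC (S.wt g) (fun z => S.th f (y⁻¹ * x * z))) (fun y c hc => by
        apply S.sC_congr
        intro z _
        rw [mul_inv_rev, mul_assoc, mul_assoc, S.th_mulL f (inv_mem hc), mul_assoc]) rfl]
  rw [h1, h2, S.sum_split, Finset.mul_sum]
  refine Finset.sum_congr rfl (fun w _ => ?_)
  rw [S.sC_congr (f' := fun _ => ((q : ℂ) ^ len S.σ w)⁻¹ * (((q : ℂ) ^ len S.σ w)⁻¹ * T w)) (fun g hg => by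
    rw [h3 g, hg]), S.sC_const hq]
  have hqw := pow_ne_zero (len S.σ w) hq0
  have hNw : (q : ℂ) ^ N = (q : ℂ) ^ (N - len S.σ w) * (q : ℂ) ^ len S.σ w := by
    rw [← pow_add]
    congr 1
    have hle : len S.σ w ≤ N := by rw [hN]; exact Finset.le_sup (f := len S.σ) (Finset.mem_univ _)
    omega
  rw [hNw]
  field_simp

theorem th_inj {f g : W → ℂ} (h : ∀ x, S.th f x = S.th g x) : f = g := by
  funext w
  obtain ⟨x, hx⟩ := S.nonempty w
  have h1 := h x
  unfold th at h1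
  rwa [S.mem_C_iff.1 hx] at h1

theorem al_one (f : W → ℂ) : S.al f 1 = (Nat.card G : ℂ) * f 1 := by
  unfold al th
  rw [Finset.sum_congr rfl (fun g _ => by rw [mul_one, inv_mul_cancel, S.mem_B_iff.1 (one_mem S.B)]), Finset.sum_const,
    Finset.card_univ, nsmul_eq_mul, Nat.card_eq_fintype_card]

/-- the kernel of the Casimir operator -/
theorem al_eq_zero (hq : ∀ w, Nat.card (S.C w) = Nat.card S.B * q ^ len S.σ w) (hq0 : (q : ℂ) ≠ 0) {f : W → ℂ}
    (hf : cas S.ex (q : ℂ) f = 0) : S.al f = 0 := by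
  obtain ⟨κ, hκ, h⟩ := S.th_cas hq hq0
  have h1 : ∀ x, S.bb (S.al f) x = 0 := by
    intro x
    have h2 := h f x
    rw [hf] at h2
    have h3 : S.th (0 : W → ℂ) x = 0 := rfl
    rw [h3] at h2
    exact (mul_eq_zero.1 h2.symm).resolve_left hκ
  have hB := card_ne (H := S.B)
  have hcf : IsClassFunction G (fun x => conj (S.al f x)) := by
    intro x g
    change conj (S.al f (g * x * g⁻¹)) = conj (S.al f x)
    rw [S.al_class f x g]
  -- conj of `al f` is `al (conj f)`
  have hconj : ∀ x, conj (S.al f x) = S.al (fun w => conj (f w)) x := by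
    intro x
    unfold al
    rw [map_sum]
    rfl
  have h2 : (∑ x : G, S.al f x * conj (S.al f x)) = 0 := by
    have h3 : (∑ x : G, S.al f x * conj (S.al f x)) = ∑ x : G, S.al (fun w => conj (f w)) x * S.al f x := by
      refine Finset.sum_congr rfl (fun x _ => ?_)
      rw [hconj, mul_comm]
    rw [h3, S.sum_al _ (S.al_class f)]
    have h4 := S.sum_th_bb (fun w => conj (f w)) (S.al f)
    rw [Finset.sum_congr rfl (fun x _ => by rw [h1 x, mul_zero]), Finset.sum_const_zero] at h4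
    have h5 := (mul_eq_zero.1 ((mul_eq_zero.1 h4.symm).resolve_left hB)).resolve_left hB
    rw [h5, mul_zero]
  funext x
  have h3 : (∑ x : G, Complex.normSq (S.al f x)) = 0 := by
    have : ((∑ x : G, Complex.normSq (S.al f x) : ℝ) : ℂ) = 0 := by
      rw [← h2]
      push_cast
      refine Finset.sum_congr rfl (fun x _ => ?_)
      rw [Complex.mul_conj]
    exact_mod_cast this
  rw [Finset.sum_eq_zero_iff_of_nonneg (fun x _ => Complex.normSq_nonneg _)] at h3
  exact Complex.normSq_eq_zero.1 (h3 x (Finset.mem_univ x))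

/-- the identity is in the image of the Casimir operator -/
theorem exists_cas_q (hq : ∀ w, Nat.card (S.C w) = Nat.card S.B * q ^ len S.σ w) (hq0 : (q : ℂ) ≠ 0) :
    ∃ y, cas S.ex (q : ℂ) y = e 1 := by
  by_contra hcon
  have hB := card_ne (H := S.B)
  have hnot : (e 1 : W → ℂ) ∉ LinearMap.range (cas S.ex (q : ℂ)) := by
    rintro ⟨y, hy⟩
    exact hcon ⟨y, hy⟩
  obtain ⟨ℓ, h1, h2⟩ := Submodule.exists_dual_map_eq_bot_of_notMem hnot inferInstance
  have h3 : ∀ f : W → ℂ, ℓ (cas S.ex (q : ℂ) f) = 0 := by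
    intro f
    have : ℓ (cas S.ex (q : ℂ) f) ∈ (LinearMap.range (cas S.ex (q : ℂ))).map ℓ := ⟨_, ⟨f, rfl⟩, rfl⟩
    rw [h2] at this
    simpa using this
  have h4 : ∀ f : W → ℂ, ℓ f = ∑ w : W, f w * ℓ (e w) := by
    intro f
    have h5 : f = ∑ w : W, f w • (e w : W → ℂ) := by
      funext v
      rw [Finset.sum_apply, Finset.sum_eq_single v]
      · rw [Pi.smul_apply, e_apply, if_pos rfl, smul_eq_mul, mul_one]
      · intro w _ hw
        rw [Pi.smul_apply, e_apply, if_neg (fun h => hw h.symm), smul_zero]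
      · intro h; exact absurd (Finset.mem_univ _) h
    conv_lhs => rw [h5]
    rw [map_sum]
    refine Finset.sum_congr rfl (fun w _ => ?_)
    rw [map_smul, smul_eq_mul]
  obtain ⟨c, hc⟩ : ∃ c : W → ℂ, ∀ w, c w = ℓ (e w) * (Nat.card S.B * (q : ℂ) ^ len S.σ w)⁻¹ := ⟨_, fun _ => rfl⟩
  have hform : ∀ f : W → ℂ, ℓ f = ∑ x : G, S.th c x * S.th f x := by
    intro f
    rw [h4, S.sum_split]
    refine Finset.sum_congr rfl (fun w _ => ?_)
    rw [S.sC_congr (f' := fun _ => c w * f w) (fun x hx => by unfold th; rw [hx]), S.sC_const hq, hc]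
    have hqw := pow_ne_zero (len S.σ w) hq0
    field_simp
  obtain ⟨κ, hκ, h⟩ := S.th_cas hq hq0
  have h5 : ∀ f g : W → ℂ, (∑ x : G, S.th g x * S.th (cas S.ex (q : ℂ) f) x) =
      κ * ((Nat.card S.B : ℂ) * (Nat.card S.B * ((Nat.card G : ℂ)⁻¹ * ∑ x : G, S.al g x * S.al f x))) := by
    intro f g
    have hG : (Nat.card G : ℂ) ≠ 0 := card_ne_zero
    rw [S.sum_al g (S.al_class f), inv_mul_cancel_left₀ hG, ← S.sum_th_bb, Finset.mul_sum]
    refine Finset.sum_congr rfl (fun x _ => ?_)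
    rw [h f x]
    ring
  have h6 : cas S.ex (q : ℂ) c = 0 := by
    -- test against the conjugate
    have h7 : ∀ g : W → ℂ, (∑ x : G, S.th g x * S.th (cas S.ex (q : ℂ) c) x) = 0 := by
      intro g
      have h8 := hform (cas S.ex (q : ℂ) g)
      rw [h3 g, h5 g c] at h8
      rw [h5 c g, h8]
      congr 4
      refine Finset.sum_congr rfl (fun x _ => ?_)
      rw [mul_comm]
    have h9 := h7 (fun w => conj (cas S.ex (q : ℂ) c w))
    funext w
    obtain ⟨x, hx⟩ := S.nonempty w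
    rw [S.mem_C_iff] at hx
    have h10 : (∑ x : G, Complex.normSq (S.th (cas S.ex (q : ℂ) c) x)) = 0 := by
      have : ((∑ x : G, Complex.normSq (S.th (cas S.ex (q : ℂ) c) x) : ℝ) : ℂ) = 0 := by
        rw [← h9]
        push_cast
        refine Finset.sum_congr rfl (fun x _ => ?_)
        rw [← Complex.mul_conj, mul_comm]
        rfl
      exact_mod_cast this
    rw [Finset.sum_eq_zero_iff_of_nonneg (fun x _ => Complex.normSq_nonneg _)] at h10
    have h11 := Complex.normSq_eq_zero.1 (h10 x (Finset.mem_univ x))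
    unfold th at h11
    rw [hx] at h11
    exact h11
  have h7 := congrFun (S.al_eq_zero hq hq0 h6) 1
  rw [S.al_one] at h7
  have hG : (Nat.card G : ℂ) ≠ 0 := card_ne_zero
  have h8 : c 1 = 0 := (mul_eq_zero.1 h7).resolve_left hG
  rw [hc, S.ex.len_one, pow_zero, mul_one] at h8
  exact h1 ((mul_eq_zero.1 h8).resolve_right (inv_ne_zero hB))

/-- `B`-sums of a non-constituent vanish -/
theorem sB_eq_zero (χ : IrrCharacter G) (h0 : S.sB (fun b => (χ : G → ℂ) b) = 0) (x : G) :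
    S.sB (fun b => (χ : G → ℂ) (x * b)) = 0 := by
  have hχ1 : (χ : G → ℂ) 1 ≠ 0 := by
    obtain ⟨n, hn, hn1⟩ := IsIrrCharacter.exists_pos χ.2
    rw [hn1]
    exact_mod_cast hn.ne'
  have hcl : IsClassFunction G (fun x => conj ((χ : G → ℂ) x)) := by
    intro x g
    change conj ((χ : G → ℂ) (g * x * g⁻¹)) = conj ((χ : G → ℂ) x)
    rw [irr_isClassFunction χ x g]
  -- the sum of squares
  have h1 : ∀ b : G, (∑ x : G, conj ((χ : G → ℂ) x) * (χ : G → ℂ) (x * b)) =
      (∑ x : G, conj ((χ : G → ℂ) x) * (χ : G → ℂ) x) * (χ : G → ℂ) b / (χ : G → ℂ) 1 := by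
    intro b
    exact IsIrrCharacter.sum_sum_mul χ.2 hcl b
  have h2 : (∑ x : G, S.sB (fun b => (χ : G → ℂ) (x * b)) * conj (S.sB (fun b => (χ : G → ℂ) (x * b)))) = 0 := by
    have e1 : ∀ x : G, conj (S.sB (fun b => (χ : G → ℂ) (x * b))) = S.sB (fun c => conj ((χ : G → ℂ) (x * c))) := by
      intro x
      unfold sB
      rw [map_sum]
      refine Finset.sum_congr rfl (fun b _ => ?_)
      split_ifs
      · rfl
      · exact map_zero _
    have e2 : ∀ x : G, S.sB (fun b => (χ : G → ℂ) (x * b)) * conj (S.sB (fun b => (χ : G → ℂ) (x * b))) =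
        S.sB (fun c => S.sB (fun b => conj ((χ : G → ℂ) (x * c)) * (χ : G → ℂ) (x * c * b))) := by
      intro x
      rw [e1, mul_comm, mul_comm, ← S.sB_mul]
      apply S.sB_congr
      intro c hc
      rw [S.sB_mul, mul_comm]
      congr 1
      rw [← S.sB_mulL (fun b => (χ : G → ℂ) (x * b)) hc]
      apply S.sB_congr
      intro b _
      rw [mul_assoc]
    rw [Finset.sum_congr rfl (fun x _ => e2 x), S.sum_sB_comm]
    have e3 : ∀ c : G, (∑ x : G, S.sB (fun b => conj ((χ : G → ℂ) (x * c)) * (χ : G → ℂ) (x * c * b))) = 0 := by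
      intro c
      rw [S.sum_sB_comm]
      have e4 : ∀ b : G, (∑ x : G, conj ((χ : G → ℂ) (x * c)) * (χ : G → ℂ) (x * c * b)) =
          ((∑ x : G, conj ((χ : G → ℂ) x) * (χ : G → ℂ) x) / (χ : G → ℂ) 1) * (χ : G → ℂ) b := by
        intro b
        rw [show ((∑ x : G, conj ((χ : G → ℂ) x) * (χ : G → ℂ) x) / (χ : G → ℂ) 1) * (χ : G → ℂ) b =
          (∑ x : G, conj ((χ : G → ℂ) x) * (χ : G → ℂ) x) * (χ : G → ℂ) b / (χ : G → ℂ) 1 by ring, ← h1 b]
        exact Fintype.sum_equiv (Equiv.mulRight c) _ _ (fun x => rfl)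
      rw [S.sB_congr (fun b _ => e4 b), S.sB_mul, h0, mul_zero]
    rw [S.sB_congr (fun c _ => e3 c), S.sB_const, mul_zero]
  have h10 : (∑ x : G, Complex.normSq (S.sB (fun b => (χ : G → ℂ) (x * b)))) = 0 := by
    have : ((∑ x : G, Complex.normSq (S.sB (fun b => (χ : G → ℂ) (x * b))) : ℝ) : ℂ) = 0 := by
      rw [← h2]
      push_cast
      refine Finset.sum_congr rfl (fun x _ => ?_)
      rw [← Complex.mul_conj]
    exact_mod_cast this
  rw [Finset.sum_eq_zero_iff_of_nonneg (fun x _ => Complex.normSq_nonneg _)] at h10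
  exact Complex.normSq_eq_zero.1 (h10 x (Finset.mem_univ x))

/-- pairing with the irreducible characters -/
noncomputable def ga : (W → ℂ) →ₗ[ℂ] ({χ : IrrCharacter G // S.sB (fun b => (χ : G → ℂ) b) ≠ 0} → ℂ) where
  toFun f χ := ∑ x : G, S.th f x * (χ.1 : G → ℂ) x
  map_add' f g := by
    funext χ
    rw [Pi.add_apply, ← Finset.sum_add_distrib]
    refine Finset.sum_congr rfl (fun x _ => ?_)
    rw [← add_mul]
    rfl
  map_smul' c f := by
    funext χ
    rw [Pi.smul_apply, RingHom.id_apply, smul_eq_mul, Finset.mul_sum]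
    refine Finset.sum_congr rfl (fun x _ => ?_)
    rw [← mul_assoc]
    rfl

theorem ga_apply (f : W → ℂ) (χ : {χ : IrrCharacter G // S.sB (fun b => (χ : G → ℂ) b) ≠ 0}) :
    S.ga f χ = ∑ x : G, S.th f x * (χ.1 : G → ℂ) x := rfl

theorem ker_ga (hq : ∀ w, Nat.card (S.C w) = Nat.card S.B * q ^ len S.σ w) (hq0 : (q : ℂ) ≠ 0) :
    LinearMap.ker (cas S.ex (q : ℂ)) = LinearMap.ker S.ga := by
  have hB := card_ne (H := S.B)
  have hG : (Nat.card G : ℂ) ≠ 0 := card_ne_zero
  ext f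
  rw [LinearMap.mem_ker, LinearMap.mem_ker]
  constructor
  · intro h
    have h1 := S.al_eq_zero hq hq0 h
    funext χ
    rw [ga_apply]
    have h2 := S.sum_al f (irr_isClassFunction χ.1)
    rw [h1] at h2
    have h3 : (∑ x : G, (0 : G → ℂ) x * (χ.1 : G → ℂ) x) = 0 :=
      Finset.sum_eq_zero (fun x _ => by rw [Pi.zero_apply, zero_mul])
    rw [h3] at h2
    exact (mul_eq_zero.1 h2.symm).resolve_left hG
  · intro h
    have h1 : S.al f = 0 := by
      apply eq_zero_of_sum_mul (S.al_class f)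
      intro χ
      rw [S.sum_al f (irr_isClassFunction χ)]
      by_cases hχ : S.sB (fun b => (χ : G → ℂ) b) = 0
      · have h2 : (Nat.card S.B : ℂ) * ∑ x : G, S.th f x * (χ : G → ℂ) x = 0 := by
          rw [← S.sB_const]
          have e1 : ∀ b, b ∈ S.B → (∑ x : G, S.th f x * (χ : G → ℂ) x) = ∑ x : G, S.th f x * (χ : G → ℂ) (x * b) := by
            intro b hb
            rw [← Equiv.sum_comp (Equiv.mulRight b)]
            refine Finset.sum_congr rfl (fun x _ => ?_)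
            simp only [Equiv.coe_mulRight]
            rw [S.th_mulR f hb]
          rw [S.sB_congr e1, ← S.sum_sB_comm]
          refine Finset.sum_eq_zero (fun x _ => ?_)
          rw [S.sB_mul, S.sB_eq_zero χ hχ, mul_zero]
        rw [(mul_eq_zero.1 h2).resolve_left hB, mul_zero]
      · have h2 := congrFun h ⟨χ, hχ⟩
        rw [ga_apply] at h2
        rw [h2, Pi.zero_apply, mul_zero]
    obtain ⟨κ, hκ, hc⟩ := S.th_cas hq hq0
    apply S.th_inj
    intro x
    rw [hc f x, h1]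
    change κ * S.sB (fun _ => S.sB (fun _ => (0 : ℂ))) = 0
    rw [S.sB_const, S.sB_const]
    ring

theorem ga_surj (hq : ∀ w, Nat.card (S.C w) = Nat.card S.B * q ^ len S.σ w) (hq0 : (q : ℂ) ≠ 0) :
    Function.Surjective S.ga := by
  have hB := card_ne (H := S.B)
  have hG : (Nat.card G : ℂ) ≠ 0 := card_ne_zero
  rw [← LinearMap.range_eq_top]
  by_contra hcon
  obtain ⟨ℓ, h1, h2⟩ := Submodule.exists_dual_map_eq_bot_of_lt_top (lt_top_iff_ne_top.2 hcon) inferInstance
  have h3 : ∀ f : W → ℂ, ℓ (S.ga f) = 0 := by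
    intro f
    have : ℓ (S.ga f) ∈ (LinearMap.range S.ga).map ℓ := ⟨_, ⟨f, rfl⟩, rfl⟩
    rw [h2] at this
    simpa using this
  obtain ⟨I, hI⟩ : ∃ I, I = {χ : IrrCharacter G // S.sB (fun b => (χ : G → ℂ) b) ≠ 0} := ⟨_, rfl⟩
  obtain ⟨a, ha⟩ : ∃ a : {χ : IrrCharacter G // S.sB (fun b => (χ : G → ℂ) b) ≠ 0} → ℂ, ∀ χ, a χ = ℓ (Pi.single χ 1) := ⟨_, fun _ => rfl⟩
  have h4 : ∀ f : {χ : IrrCharacter G // S.sB (fun b => (χ : G → ℂ) b) ≠ 0} → ℂ, ℓ f = ∑ χ, f χ * a χ := by
    intro f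
    have h5 : f = ∑ χ, f χ • (Pi.single χ 1 : {χ : IrrCharacter G // S.sB (fun b => (χ : G → ℂ) b) ≠ 0} → ℂ) := by
      funext v
      rw [Finset.sum_apply, Finset.sum_eq_single v]
      · rw [Pi.smul_apply, Pi.single_eq_same, smul_eq_mul, mul_one]
      · intro w _ hw
        rw [Pi.smul_apply, Pi.single_eq_of_ne (fun h => hw h.symm), smul_zero]
      · intro h; exact absurd (Finset.mem_univ _) h
    conv_lhs => rw [h5]
    rw [map_sum]
    refine Finset.sum_congr rfl (fun w _ => ?_)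
    rw [map_smul, smul_eq_mul, ha]
  obtain ⟨φ, hφ⟩ : ∃ φ : G → ℂ, ∀ x, φ x = ∑ χ : {χ : IrrCharacter G // S.sB (fun b => (χ : G → ℂ) b) ≠ 0}, a χ * (χ.1 : G → ℂ) x := ⟨_, fun _ => rfl⟩
  have hφc : IsClassFunction G φ := by
    intro x g
    rw [hφ, hφ]
    refine Finset.sum_congr rfl (fun χ _ => ?_)
    rw [irr_isClassFunction χ.1 x g]
  have h5 : ∀ w : W, S.sC w φ = 0 := by
    intro w
    have h6 := h3 (e w)
    rw [h4] at h6
    rw [← h6]
    have e1 : ∀ χ : {χ : IrrCharacter G // S.sB (fun b => (χ : G → ℂ) b) ≠ 0}, S.ga (e w) χ * a χ =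
        ∑ x : G, if S.wt x = w then a χ * (χ.1 : G → ℂ) x else 0 := by
      intro χ
      rw [ga_apply, Finset.sum_mul]
      refine Finset.sum_congr rfl (fun x _ => ?_)
      unfold th
      rw [e_apply]
      split_ifs <;> ring
    rw [Finset.sum_congr rfl (fun χ _ => e1 χ), Finset.sum_comm]
    unfold sC
    refine Finset.sum_congr rfl (fun x _ => ?_)
    by_cases hx : S.wt x = w
    · simp only [if_pos hx]; rw [hφ]
    · simp only [if_neg hx, Finset.sum_const_zero]
  -- the sums over cosets of `B` vanish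
  have h6 : ∀ g : G, S.sB (fun b => φ (g * b)) = 0 := by
    intro g
    have e1 := S.sC_eq hq (f := fun y => S.sB (fun b' => φ (y * b'))) (fun y c hc => by
      rw [← S.sB_mulL (fun b' => φ (y * b')) hc]
      apply S.sB_congr
      intro b _
      rw [mul_assoc]) (w := S.wt g) (g := g) rfl
    rw [S.sC_sB_comm, S.sB_congr (f' := fun _ => 0) (fun b hb => by
      rw [S.sC_mulR _ φ hb, h5]), S.sB_const, mul_zero] at e1
    have e2 := (mul_eq_zero.1 e1.symm).resolve_left (pow_ne_zero _ hq0)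
    rw [S.sB_congr (f' := fun _ => S.sB (fun b' => φ (g * b'))) (fun b hb => by
      rw [← S.sB_mulR (fun b' => φ (g * b')) hb]
      apply S.sB_congr
      intro b' _
      have := hφc (g * (b' * b)) b
      rw [← this]
      congr 1
      group), S.sB_const] at e2
    exact (mul_eq_zero.1 e2).resolve_left hB
  -- all coefficients vanish
  apply h1
  apply LinearMap.ext
  intro f
  rw [h4, LinearMap.zero_apply]
  refine Finset.sum_eq_zero (fun ψ _ => ?_)
  have hψ1 : (ψ.1 : G → ℂ) 1 ≠ 0 := by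
    obtain ⟨n, hn, hn1⟩ := IsIrrCharacter.exists_pos ψ.1.2
    rw [hn1]
    exact_mod_cast hn.ne'
  have hcl : IsClassFunction G (fun x => conj ((ψ.1 : G → ℂ) x)) := by
    intro x g
    change conj ((ψ.1 : G → ℂ) (g * x * g⁻¹)) = conj ((ψ.1 : G → ℂ) x)
    rw [irr_isClassFunction ψ.1 x g]
  have h7 : (∑ x : G, conj ((ψ.1 : G → ℂ) x) * S.sB (fun b => φ (x * b))) = 0 :=
    Finset.sum_eq_zero (fun x _ => by rw [h6 x, mul_zero])
  have h8 : ∀ b : G, (∑ x : G, conj ((ψ.1 : G → ℂ) x) * φ (x * b)) = a ψ * (Nat.card G / (ψ.1 : G → ℂ) 1) * (ψ.1 : G → ℂ) b := by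
    intro b
    have e1 : ∀ x : G, conj ((ψ.1 : G → ℂ) x) * φ (x * b) = ∑ χ : {χ : IrrCharacter G // S.sB (fun b => (χ : G → ℂ) b) ≠ 0},
        a χ * (conj ((ψ.1 : G → ℂ) x) * (χ.1 : G → ℂ) (x * b)) := by
      intro x
      rw [hφ, Finset.mul_sum]
      refine Finset.sum_congr rfl (fun χ _ => ?_)
      ring
    rw [Finset.sum_congr rfl (fun x _ => e1 x), Finset.sum_comm, Finset.sum_eq_single ψ]
    · rw [← Finset.mul_sum, IsIrrCharacter.sum_sum_mul ψ.1.2 hcl b]
      have e2 : (∑ x : G, conj ((ψ.1 : G → ℂ) x) * (ψ.1 : G → ℂ) x) = Nat.card G := by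
        rw [← IsIrrCharacter.sum_norm_sq ψ.1.2]
        exact Finset.sum_congr rfl (fun x _ => mul_comm _ _)
      rw [e2]
      ring
    · intro χ _ hne
      rw [← Finset.mul_sum, IsIrrCharacter.sum_sum_mul χ.1.2 hcl b]
      have e2 : (∑ x : G, conj ((ψ.1 : G → ℂ) x) * (χ.1 : G → ℂ) x) = 0 := by
        have e3 := irr_inner χ.1 ψ.1
        rw [if_neg (fun h => hne (Subtype.ext h))] at e3
        unfold classInner at e3
        refine Eq.trans ?_ ((mul_eq_zero.1 e3).resolve_left (inv_ne_zero hG))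
        exact Finset.sum_congr rfl (fun x _ => mul_comm _ _)
      rw [e2]
      ring
    · intro h; exact absurd (Finset.mem_univ _) h
  have h9 : (∑ x : G, conj ((ψ.1 : G → ℂ) x) * S.sB (fun b => φ (x * b))) =
      a ψ * (Nat.card G / (ψ.1 : G → ℂ) 1) * S.sB (fun b => (ψ.1 : G → ℂ) b) := by
    rw [← S.sB_mul]
    have e1 : ∀ x : G, conj ((ψ.1 : G → ℂ) x) * S.sB (fun b => φ (x * b)) =
        S.sB (fun b => conj ((ψ.1 : G → ℂ) x) * φ (x * b)) := fun x => (S.sB_mul _ _).symm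
    rw [Finset.sum_congr rfl (fun x _ => e1 x), S.sum_sB_comm]
    apply S.sB_congr
    intro b _
    exact h8 b
  rw [h9] at h7
  have h10 := (mul_eq_zero.1 ((mul_eq_zero.1 h7).resolve_right ψ.2)).resolve_right (div_ne_zero hG hψ1)
  rw [h10, mul_zero]

/-- the rank of the Casimir operator -/
theorem finrank_cas_q (hq : ∀ w, Nat.card (S.C w) = Nat.card S.B * q ^ len S.σ w) (hq0 : (q : ℂ) ≠ 0) :
    Module.finrank ℂ (LinearMap.range (cas S.ex (q : ℂ))) =
      Nat.card {χ : IrrCharacter G // S.sB (fun b => (χ : G → ℂ) b) ≠ 0} := by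
  have h1 := LinearMap.finrank_range_add_finrank_ker (cas S.ex (q : ℂ))
  have h2 := LinearMap.finrank_range_add_finrank_ker S.ga
  rw [S.ker_ga hq hq0] at h1
  have h3 : Module.finrank ℂ ({χ : IrrCharacter G // S.sB (fun b => (χ : G → ℂ) b) ≠ 0} → ℂ) =
      Nat.card {χ : IrrCharacter G // S.sB (fun b => (χ : G → ℂ) b) ≠ 0} := by
    rw [Module.finrank_fintype_fun_eq_card, Nat.card_eq_fintype_card]
  rw [LinearMap.range_eq_top.2 (S.ga_surj hq hq0), finrank_top, h3] at h2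
  omega

/-- the number of constituents is the number of classes of the Weyl group -/
theorem card_constituents [Fintype ι] (hq : ∀ w, Nat.card (S.C w) = Nat.card S.B * q ^ len S.σ w) (hq0 : (q : ℂ) ≠ 0) :
    Nat.card {χ : IrrCharacter G // S.sB (fun b => (χ : G → ℂ) b) ≠ 0} = Nat.card (ConjClasses W) := by
  rw [← S.finrank_cas_q hq hq0, ← finrank_cas_one S.ex]
  exact rank_cas S.ex (S.exists_cas_q hq hq0) (exists_cas_one S.ex)

end CfsgLib.St.BD
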