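import Mathlib
import Cfsg.Agent.Lib.H2Hk4
import Cfsg.Agent.Lib.CHO7

/-! The number of principal series characters of a Chevalley group. -/

namespace CfsgLib.Hecke

open CfsgLib.CharBasic CfsgLib.CharInd CfsgLib.CharClifford Cfsg ComplexConjugate
open scoped Classical
set_option linter.style.haveILetI false
set_option linter.unusedSectionVars false

theorem card_conj_congr {G H : Type*} [Group G] [Group H] (e : G ≃* H) :
    Nat.card (ConjClasses G) = Nat.card (ConjClasses H) := by
  apply Nat.card_congr
  exact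
    { toFun := ConjClasses.map e.toMonoidHom
      invFun := ConjClasses.map e.symm.toMonoidHom
      left_inv := by
        intro c
        obtain ⟨g, rfl⟩ := ConjClasses.mk_surjective c
        change ConjClasses.mk (e.symm (e g)) = _
        rw [e.symm_apply_apply]
      right_inv := by
        intro c
        obtain ⟨g, rfl⟩ := ConjClasses.mk_surjective c
        change ConjClasses.mk (e (e.symm g)) = _
        rw [e.apply_symm_apply] }

/-- constituents of the permutation character -/
theorem constituent_iff {G : Type*} [Group G] [Fintype G] (B : Subgroup G) (χ : IrrCharacter G) :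
    (∃ φ : G → ℂ, Cfsg.IsCharacter G φ ∧ Cfsg.fixedPointCharacter B = (χ : G → ℂ) + φ) ↔
      (∑ b : G, if b ∈ B then (χ : G → ℂ) b else 0) ≠ 0 := by
  haveI : Fintype B := Fintype.ofFinite B
  have hB : (Nat.card B : ℂ) ≠ 0 := St.BD.card_ne
  have hind : Cfsg.fixedPointCharacter B = indFun B (fun _ => 1) := by
    funext g
    rw [Chev.CG.fixedPoint_eq, indFun_apply]
    congr 1
    refine Finset.sum_congr rfl (fun x _ => ?_)
    by_cases hx : x⁻¹ * g * x ∈ B
    · rw [ext_of_mem hx, if_pos hx]
    · rw [ext_of_not_mem hx, if_neg hx]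
  have hchar : IsCharacter G (Cfsg.fixedPointCharacter B) := by
    rw [hind]
    exact isCharacter_indFun _ (IsIrrCharacter.isCharacter isIrr_one')
  have hin : classInner (Cfsg.fixedPointCharacter B) χ = (Nat.card B : ℂ)⁻¹ * conj (∑ b : G, if b ∈ B then (χ : G → ℂ) b else 0) := by
    rw [hind, frobenius B _ (irr_isClassFunction χ)]
    unfold classInner
    congr 1
    rw [map_sum]
    have h1 := St.BD.sum_parG B (fun b => conj ((χ : G → ℂ) b))
    rw [show (∑ b : G, conj (if b ∈ B then (χ : G → ℂ) b else 0)) = ∑ b : G, if b ∈ B then conj ((χ : G → ℂ) b) else 0 from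
      Finset.sum_congr rfl (fun b _ => by split_ifs <;> simp), ← h1]
    exact Finset.sum_congr rfl (fun b _ => one_mul _)
  have hne : (∑ b : G, if b ∈ B then (χ : G → ℂ) b else 0) ≠ 0 ↔ classInner (Cfsg.fixedPointCharacter B) χ ≠ 0 := by
    rw [hin]
    constructor
    · intro h
      refine mul_ne_zero (inv_ne_zero hB) ?_
      intro h1
      exact h ((map_eq_zero _).1 h1)
    · intro h h1
      rw [h1, map_zero, mul_zero] at h
      exact h rfl
  rw [hne]
  constructor
  · rintro ⟨φ, hφ, h⟩
    rw [h]
    obtain ⟨n, hn⟩ := IsCharacter.inner_irr_nat hφ χ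
    have h1 : classInner ((χ : G → ℂ) + φ) χ = classInner (χ : G → ℂ) χ + classInner φ χ := by
      unfold classInner
      rw [← mul_add, ← Finset.sum_add_distrib]
      congr 1
      refine Finset.sum_congr rfl (fun g _ => ?_)
      rw [Pi.add_apply, add_mul]
    rw [h1, irr_inner, if_pos rfl, hn]
    have : ((1 : ℂ) + n) = ((1 + n : ℕ) : ℂ) := by push_cast; rfl
    rw [this]
    have h2 : 1 + n ≠ 0 := by omega
    exact_mod_cast h2
  · intro h
    refine ⟨Cfsg.fixedPointCharacter B - (χ : G → ℂ), ?_, by simp⟩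
    apply isCharacter_sub hchar (irr_isCharacter χ)
    intro ψ
    obtain ⟨n, hn⟩ := IsCharacter.inner_irr_nat hchar ψ
    rw [hn, irr_inner]
    by_cases hχψ : χ = ψ
    · rw [if_pos hχψ]
      rw [hχψ, hn] at h
      have : n ≠ 0 := by exact_mod_cast h
      have h2 : 1 ≤ n := by omega
      simpa using (show (1 : ℝ) ≤ n by exact_mod_cast h2)
    · rw [if_neg hχψ]
      simp

end CfsgLib.Hecke

namespace CfsgLib.Chev
open Cfsg.Lie Matrix CfsgLib.BNP CfsgLib.CharInd CfsgLib.CharBasic CfsgLib.Block
open scoped Classical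
set_option linter.style.haveILetI false
set_option linter.unusedSectionVars false

namespace CG
variable {D : ChevalleyDatum} {F : Type*} [Field F] (M : CG D F)

include M in
theorem card_ps [Fintype F] (Mc : CoxeterMatrix (Fin D.rank))
    (ht : ∀ i j : Fin D.rank, i ≠ j → CType (cmat D i j) (cmat D j i) (Mc i j)) :
    Nat.card {χ : Cfsg.IrrCharacter ↥(D.group F) //
      ∃ φ : ↥(D.group F) → ℂ, Cfsg.IsCharacter ↥(D.group F) φ ∧
        Cfsg.fixedPointCharacter ((D.borelSubgroup F).subgroupOf (D.group F)) = (χ : ↥(D.group F) → ℂ) + φ} =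
      Nat.card (ConjClasses Mc.Group) := by
  haveI : Fintype ↥(D.group F) := Fintype.ofFinite _
  obtain ⟨θ, -⟩ := exists_equiv_group (M.coxW (fun i j => Mc i j) ht) Mc (fun i j _ => rfl)
  rw [Hecke.card_conj_congr θ]
  haveI : Finite M.bnp.N := inferInstance
  haveI : Finite (Weyl M.bnp) := Quotient.finite _
  haveI := Fintype.ofFinite (Weyl M.bnp)
  have hq : ∀ w, Nat.card (M.bd.C w) = Nat.card M.bd.B * (Fintype.card F) ^ len M.bd.σ w := by
    intro w
    rw [M.bd_σ, M.len_sW]
    exact card_C M.card_Csg w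
  have hq0 : ((Fintype.card F : ℕ) : ℂ) ≠ 0 := by exact_mod_cast Fintype.card_ne_zero
  rw [← M.bd.card_constituents hq hq0]
  apply Nat.card_congr
  apply Equiv.subtypeEquivRight
  intro χ
  exact Hecke.constituent_iff _ χ

end CG

end CfsgLib.Chev
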