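import Mathlib
import Cfsg.Agent.Lib.H3Misc

/-! The Baer trick for class two groups of odd order, and averaging (helper3). -/

namespace CfsgLib.H3Baer

/-- averaging over a `p'`-group normalized by a `p`-group, acting on an abelian `p`-group -/
theorem avg {V : Type*} [CommGroup V] [Finite V] {p : ℕ} [hp : Fact p.Prime] (hV : IsPGroup p V) {P Q : Type*} [Group P] [Group Q]
    [Finite Q] (hP : IsPGroup p P) (hQ : (Nat.card Q).Coprime p) (α : P →* MulAut V) (β : Q →* MulAut V) (σ : P → Q ≃ Q)
    (hσ : ∀ g q v, α g (β q v) = β (σ g q) (α g v)) (hC : ∀ v, (∀ g, α g v = v) → ∀ q, β q v = v) :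
    ∀ q v, β q v = v := by
  classical
  haveI : Fintype Q := Fintype.ofFinite Q
  let N : V →* V := ∏ q : Q, (β q).toMonoidHom
  have hN : ∀ v, N v = ∏ q : Q, β q v := by
    intro v
    simp [N, MonoidHom.finsetProd_apply]
  have h1 : ∀ q v, N (β q v) = N v := by
    intro q v
    rw [hN, hN]
    have : ∀ r : Q, β r (β q v) = β (r * q) v := fun r => by rw [map_mul]; rfl
    simp only [this]
    exact Fintype.prod_equiv (Equiv.mulRight q) _ _ (fun r => rfl)
  have h2 : ∀ g v, α g (N v) = N (α g v) := by
    intro g v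
    rw [hN, hN, map_prod]
    simp only [hσ]
    exact Fintype.prod_equiv (σ g) _ _ (fun r => rfl)
  have hαW : ∀ g, ∀ v ∈ N.ker, α g v ∈ N.ker := by
    intro g v hv
    rw [MonoidHom.mem_ker] at hv ⊢
    rw [← h2, hv, map_one]
  have hbot : N.ker = ⊥ := by
    by_contra hne
    letI : MulAction P N.ker := {
      smul := fun g w => ⟨α g w, hαW g w w.2⟩
      one_smul := by
        intro w; apply Subtype.ext
        show α 1 (w : V) = w
        rw [map_one]; rfl
      mul_smul := by
        intro g h w; apply Subtype.ext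
        show α (g * h) (w : V) = α g (α h w)
        rw [map_mul]; rfl }
    have hd : p ∣ Nat.card N.ker := by
      obtain ⟨k, hk⟩ := IsPGroup.iff_card.1 (hV.to_subgroup N.ker)
      have hk0 : k ≠ 0 := by
        rintro rfl
        rw [pow_zero] at hk
        exact hne (Subgroup.card_eq_one.1 hk)
      rw [hk]; exact dvd_pow_self p hk0
    have h1f : (1 : N.ker) ∈ MulAction.fixedPoints P N.ker := by
      intro g
      apply Subtype.ext
      show α g 1 = 1
      rw [map_one]
    obtain ⟨b, hb, hb1⟩ := hP.exists_fixed_point_of_prime_dvd_card_of_fixed_point N.ker hd h1f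
    have hb2 : ∀ g, α g (b : V) = b := fun g => congrArg Subtype.val (hb g)
    have hb3 := hC b hb2
    have hb4 : N (b : V) = 1 := b.2
    rw [hN] at hb4
    simp only [hb3, Finset.prod_const, Finset.card_univ] at hb4
    obtain ⟨k, hk⟩ := hV (b : V)
    have h5 : orderOf (b : V) = 1 := by
      have h6 : orderOf (b : V) ∣ Nat.card Q := by
        rw [Nat.card_eq_fintype_card]; exact orderOf_dvd_of_pow_eq_one hb4
      have h7 : (orderOf (b : V)).Coprime (Nat.card Q) := Nat.Coprime.coprime_dvd_left (orderOf_dvd_of_pow_eq_one hk) (Nat.Coprime.pow_left _ hQ.symm)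
      exact Nat.Coprime.eq_one_of_dvd h7 h6
    exact hb1 (Subtype.ext (orderOf_eq_one_iff.1 h5).symm)
  intro q v
  have h3 : v⁻¹ * β q v ∈ N.ker := by
    rw [MonoidHom.mem_ker, map_mul, map_inv, h1, inv_mul_cancel]
  rw [hbot, Subgroup.mem_bot, inv_mul_eq_one] at h3
  exact h3.symm

/-- type synonym -/
@[ext] structure Baer (G : Type*) where
  /-- the underlying element -/
  val : G

/-- the equivalence -/
def baerEquiv (G : Type*) : Baer G ≃ G := ⟨Baer.val, Baer.mk, fun _ => rfl, fun _ => rfl⟩

instance baerFinite (G : Type*) [Finite G] : Finite (Baer G) := Finite.of_equiv G (baerEquiv G).symm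

section

variable {G : Type*} [Group G]

/-- the commutator `y x y⁻¹ x⁻¹` -/
def kom (x y : G) : G := y * x * y⁻¹ * x⁻¹

theorem kom_mul_self (x y : G) : kom x y * (x * y) = y * x := by unfold kom; group

theorem kom_self (x : G) : kom x x = 1 := by unfold kom; group

theorem kom_inv_self (x : G) : kom x⁻¹ x = 1 := by unfold kom; group

theorem kom_swap (x y : G) : kom y x = (kom x y)⁻¹ := by unfold kom; group

theorem kom_one_left (y : G) : kom 1 y = 1 := by unfold kom; group

theorem kom_one_right (y : G) : kom y 1 = 1 := by unfold kom; group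

theorem kom_mul_left (hc : ∀ x y z : G, Commute (kom x y) z) (x y z : G) : kom (x * y) z = kom x z * kom y z := by
  have h1 : x * kom y z * x⁻¹ = kom y z := by rw [← (hc y z x).eq, mul_inv_cancel_right]
  calc kom (x * y) z = kom x z * (x * kom y z * x⁻¹) := by unfold kom; group
    _ = _ := by rw [h1]

theorem kom_mul_right (hc : ∀ x y z : G, Commute (kom x y) z) (x y z : G) : kom x (y * z) = kom x y * kom x z := by
  have h1 : y * kom x z * y⁻¹ = kom x z := by rw [← (hc x z y).eq, mul_inv_cancel_right]
  calc kom x (y * z) = (y * kom x z * y⁻¹) * kom x y := by unfold kom; group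
    _ = kom x z * kom x y := by rw [h1]
    _ = _ := (hc x z _).eq

theorem kom_central_left {k : G} (hk : ∀ z, Commute k z) (z : G) : kom k z = 1 := by
  unfold kom; rw [← (hk z).eq]; group

theorem kom_central_right {k : G} (hk : ∀ z, Commute k z) (z : G) : kom z k = 1 := by
  rw [kom_swap, kom_central_left hk, inv_one]

/-- Baer multiplication -/
def bmul (c : ℕ) (x y : G) : G := x * y * kom x y ^ c

theorem bmul_assoc (hc : ∀ x y z : G, Commute (kom x y) z) (c : ℕ) (x y z : G) : bmul c (bmul c x y) z = bmul c x (bmul c y z) := by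
  have hcp : ∀ x y z : G, Commute (kom x y ^ c) z := fun x y z => (hc x y z).pow_left c
  have e1 : kom (x * y * kom x y ^ c) z = kom x z * kom y z := by
    rw [kom_mul_left hc, kom_central_left (hcp x y), mul_one, kom_mul_left hc]
  have e2 : kom x (y * z * kom y z ^ c) = kom x y * kom x z := by
    rw [kom_mul_right hc, kom_central_right (hcp y z), mul_one, kom_mul_right hc]
  unfold bmul
  rw [e1, e2, (hc x z _).mul_pow, (hc x y _).mul_pow]
  have a1 := (hcp x y z).eq
  have a2 := (hcp x y (kom x z ^ c)).eq
  have a3 := (hcp x y (kom y z ^ c)).eq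
  have a4 := (hcp y z (kom x y ^ c)).eq
  have a5 := (hcp y z (kom x z ^ c)).eq
  calc x * y * kom x y ^ c * z * (kom x z ^ c * kom y z ^ c)
      = x * y * (kom x y ^ c * z) * (kom x z ^ c * kom y z ^ c) := by group
    _ = x * y * (z * kom x y ^ c) * (kom x z ^ c * kom y z ^ c) := by rw [a1]
    _ = x * y * z * (kom x y ^ c * kom x z ^ c * kom y z ^ c) := by group
    _ = x * y * z * (kom y z ^ c * (kom x y ^ c * kom x z ^ c)) := by
        have a6 : kom x y ^ c * kom x z ^ c * kom y z ^ c = kom y z ^ c * (kom x y ^ c * kom x z ^ c) := by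
          rw [mul_assoc (kom x y ^ c), ← a5, ← mul_assoc (kom x y ^ c), ← a4, mul_assoc]
        rw [a6]
    _ = x * (y * z * kom y z ^ c) * (kom x y ^ c * kom x z ^ c) := by group

/-- the Baer group -/
@[instance_reducible]
def baerGroup (hc : ∀ x y z : G, Commute (kom x y) z) (c : ℕ) (h2 : ∀ x y : G, kom x y ^ (2 * c) = kom x y) : CommGroup (Baer G) where
  mul := fun x y => ⟨bmul c x.val y.val⟩
  mul_assoc := fun x y z => Baer.ext (bmul_assoc hc c x.val y.val z.val)
  one := ⟨1⟩
  one_mul := fun x => by
    apply Baer.ext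
    show bmul c 1 x.val = x.val
    unfold bmul; rw [kom_one_left, one_pow, mul_one, one_mul]
  mul_one := fun x => by
    apply Baer.ext
    show bmul c x.val 1 = x.val
    unfold bmul; rw [kom_one_right, one_pow, mul_one, mul_one]
  inv := fun x => ⟨x.val⁻¹⟩
  inv_mul_cancel := fun x => by
    apply Baer.ext
    show bmul c x.val⁻¹ x.val = 1
    unfold bmul; rw [kom_inv_self, one_pow, mul_one, inv_mul_cancel]
  mul_comm := fun x y => by
    apply Baer.ext
    show bmul c x.val y.val = bmul c y.val x.val
    unfold bmul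
    rw [← kom_mul_self x.val y.val, kom_swap x.val y.val, inv_pow]
    have h3 := h2 x.val y.val
    rw [two_mul, pow_add] at h3
    rw [(hc x.val y.val (x.val * y.val)).eq, mul_assoc (x.val * y.val)]
    congr 1
    rw [eq_mul_inv_iff_mul_eq]
    exact h3

theorem baer_pow (hc : ∀ x y z : G, Commute (kom x y) z) (c : ℕ) (h2 : ∀ x y : G, kom x y ^ (2 * c) = kom x y) (x : Baer G) (n : ℕ) :
    letI := baerGroup hc c h2
    (x ^ n).val = x.val ^ n := by
  letI := baerGroup hc c h2
  show (x ^ n).val = x.val ^ n
  induction n with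
  | zero => rw [pow_zero, pow_zero]; rfl
  | succ n ih =>
    rw [pow_succ]
    show bmul c (x ^ n).val x.val = x.val ^ (n + 1)
    rw [ih]
    have : kom (x.val ^ n) x.val = 1 := by
      unfold kom
      rw [← (Commute.pow_self x.val n).eq]; group
    unfold bmul
    rw [this, one_pow, mul_one, pow_succ]

/-- automorphisms act on the Baer group -/
def baerAut (hc : ∀ x y z : G, Commute (kom x y) z) (c : ℕ) (h2 : ∀ x y : G, kom x y ^ (2 * c) = kom x y) :
    letI := baerGroup hc c h2
    MulAut G →* MulAut (Baer G) :=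
  letI := baerGroup hc c h2
  { toFun := fun a =>
      { toFun := fun x => ⟨a x.val⟩
        invFun := fun x => ⟨a.symm x.val⟩
        left_inv := fun x => Baer.ext (a.symm_apply_apply x.val)
        right_inv := fun x => Baer.ext (a.apply_symm_apply x.val)
        map_mul' := fun x y => by
          apply Baer.ext
          show a (bmul c x.val y.val) = bmul c (a x.val) (a y.val)
          unfold bmul kom
          simp only [map_mul, map_pow, map_inv] }
    map_one' := rfl
    map_mul' := fun a b => rfl }

end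

/-- class two version of `avg`, odd order -/
theorem avg_class_two {G : Type*} [Group G] [Finite G] {p : ℕ} [hp : Fact p.Prime] (hp2 : p ≠ 2) (hG : IsPGroup p G)
    (hc : ∀ x y z : G, Commute (kom x y) z) {P Q : Type*} [Group P] [Group Q]
    [Finite Q] (hP : IsPGroup p P) (hQ : (Nat.card Q).Coprime p) (α : P →* MulAut G) (β : Q →* MulAut G) (σ : P → Q ≃ Q)
    (hσ : ∀ g q v, α g (β q v) = β (σ g q) (α g v)) (hC : ∀ v, (∀ g, α g v = v) → ∀ q, β q v = v) :
    ∀ q v, β q v = v := by
  obtain ⟨n, hn⟩ := IsPGroup.iff_card.1 hG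
  have hodd : Odd (Nat.card G) := by
    rw [hn]
    exact (hp.out.odd_of_ne_two hp2).pow
  obtain ⟨m, hm⟩ := hodd
  have h2 : ∀ x y : G, kom x y ^ (2 * (m + 1)) = kom x y := by
    intro x y
    have : 2 * (m + 1) = Nat.card G + 1 := by omega
    rw [this, pow_succ, pow_card_eq_one', one_mul]
  letI := baerGroup hc (m + 1) h2
  have hV : IsPGroup p (Baer G) := by
    intro x
    obtain ⟨k, hk⟩ := hG x.val
    refine ⟨k, Baer.ext ?_⟩
    rw [baer_pow hc (m + 1) h2, hk]; rfl
  have h := avg hV hP hQ ((baerAut hc (m + 1) h2).comp α) ((baerAut hc (m + 1) h2).comp β) σ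
    (fun g q v => Baer.ext (hσ g q v.val)) (fun v hv q => Baer.ext (hC v.val (fun g => congrArg Baer.val (hv g)) q))
  intro q v
  exact congrArg Baer.val (h q ⟨v⟩)

end CfsgLib.H3Baer
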