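import Mathlib
import Cfsg.Agent.Lib.Coprime
import Cfsg.Agent.Lib.Hall
import Cfsg.Agent.Lib.SZ
import Cfsg.Agent.Lib.Core2
import Cfsg.Agent.Lib.H3Misc

/-! Coprime action and Hall subgroups (helper3). -/

namespace CfsgLib.H3CopHall

open Subgroup CfsgLib.Coprime CfsgLib.SZ
open scoped Pointwise

universe u

/-- the `π`-part and the `π'`-part of a natural number -/
theorem exists_pi_part (π : Set ℕ) (n : ℕ) (hn : n ≠ 0) :
    ∃ m k : ℕ, n = m * k ∧ (∀ p : ℕ, p.Prime → p ∣ m → p ∈ π) ∧ (∀ p : ℕ, p.Prime → p ∣ k → p ∉ π) := by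
  classical
  induction n using induction_on_primes with
  | zero => exact absurd rfl hn
  | one => exact ⟨1, 1, rfl, fun p hp h => absurd (Nat.dvd_one.1 h) hp.one_lt.ne', fun p hp h => absurd (Nat.dvd_one.1 h) hp.one_lt.ne'⟩
  | prime_mul p a hp ih =>
    have ha : a ≠ 0 := by rintro rfl; exact hn (mul_zero _)
    obtain ⟨m, k, h1, h2, h3⟩ := ih ha
    by_cases hpπ : p ∈ π
    · refine ⟨p * m, k, by rw [h1]; ring, ?_, h3⟩
      intro q hq hqd
      rcases hq.dvd_mul.1 hqd with h | h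
      · rw [(Nat.prime_dvd_prime_iff_eq hq hp).1 h]; exact hpπ
      · exact h2 q hq h
    · refine ⟨m, p * k, by rw [h1]; ring, h2, ?_⟩
      intro q hq hqd
      rcases hq.dvd_mul.1 hqd with h | h
      · rw [(Nat.prime_dvd_prime_iff_eq hq hp).1 h]; exact hpπ
      · exact h3 q hq h

theorem coprime_of_pi {π : Set ℕ} {m k : ℕ} (h1 : ∀ p : ℕ, p.Prime → p ∣ m → p ∈ π) (h2 : ∀ p : ℕ, p.Prime → p ∣ k → p ∉ π) :
    m.Coprime k :=
  Nat.Coprime.symm (Nat.coprime_of_dvd (fun p hp hpk hpm => h2 p hp hpk (h1 p hp hpm)))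

theorem card_mul_relIndex {G : Type*} [Group G] {H K : Subgroup G} (h : H ≤ K) : Nat.card H * H.relIndex K = Nat.card K := by
  have := Subgroup.relIndex_mul_relIndex (⊥ : Subgroup G) H K bot_le h
  rwa [relIndex_bot_left, relIndex_bot_left] at this

variable {X : Type u} [Group X] [Finite X]

/-- (a) an invariant subgroup of order `m` -/
theorem exists_inv {A K : Subgroup X} (h : CopAct A K) (hs : Group.IsSolvable K) {m k : ℕ} (hK : Nat.card K = m * k) (hmk : m.Coprime k) :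
    ∃ H : Subgroup X, H ≤ K ∧ Nat.card H = m ∧ A ≤ normalizer (H : Set X) := by
  have h1 : {H : Subgroup X | H ≤ K ∧ Nat.card H = m}.Nonempty := by
    obtain ⟨H, hH⟩ := CfsgLib.Hall.exists_of_card hs hK hmk
    exact ⟨H.map K.subtype, map_subtype_le _, by rw [CfsgLib.H3Misc.card_map_subtype]; exact hH⟩
  have h2 : ∀ a ∈ A, ∀ P ∈ {H : Subgroup X | H ≤ K ∧ Nat.card H = m}, MulAut.conj a • P ∈ {H : Subgroup X | H ≤ K ∧ Nat.card H = m} := by
    rintro a ha P ⟨hP, hPm⟩
    refine ⟨?_, by rw [card_conj]; exact hPm⟩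
    have := le_normalizer_iff_conj.1 h.le_normalizer a ha
    rw [← this]
    exact CfsgLib.H3Misc.conj_smul_le hP
  have h3 : ∀ a ∈ K, ∀ P ∈ {H : Subgroup X | H ≤ K ∧ Nat.card H = m}, MulAut.conj a • P ∈ {H : Subgroup X | H ≤ K ∧ Nat.card H = m} := by
    rintro a ha P ⟨hP, hPm⟩
    refine ⟨?_, by rw [card_conj]; exact hPm⟩
    have : MulAut.conj a • K = K := le_normalizer_iff_conj.1 le_normalizer a ha
    rw [← this]
    exact CfsgLib.H3Misc.conj_smul_le hP
  have h4 : ∀ P ∈ {H : Subgroup X | H ≤ K ∧ Nat.card H = m}, ∀ Q ∈ {H : Subgroup X | H ≤ K ∧ Nat.card H = m}, ∃ k ∈ K, MulAut.conj k • P = Q := by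
    rintro P ⟨hP, hPm⟩ Q ⟨hQ, hQm⟩
    obtain ⟨g, hg⟩ := CfsgLib.Hall.exists_conj_eq hs hK hmk (H := Q.subgroupOf K) (K := P.subgroupOf K)
      (by rw [card_subgroupOf hQ]; exact hQm) (by rw [card_subgroupOf hP]; exact hPm)
    exact ⟨g, g.2, conj_of_conj_subgroupOf hP hQ g hg⟩
  obtain ⟨P, hP, hPA⟩ := h.exists_invariant {H : Subgroup X | H ≤ K ∧ Nat.card H = m} h1 h2 h3 h4
  exact ⟨P, hP.1, hP.2, hPA⟩

/-- (b) invariant subgroups of order `m` are conjugate under `C_K(A)` -/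
theorem conj_inv {A K : Subgroup X} (h : CopAct A K) (hs : Group.IsSolvable K) {m k : ℕ} (hK : Nat.card K = m * k) (hmk : m.Coprime k)
    {P Q : Subgroup X} (hP : P ≤ K) (hPm : Nat.card P = m) (hPA : A ≤ normalizer (P : Set X))
    (hQ : Q ≤ K) (hQm : Nat.card Q = m) (hQA : A ≤ normalizer (Q : Set X)) :
    ∃ c ∈ K ⊓ centralizer (A : Set X), MulAut.conj c • P = Q := by
  refine h.conj_invariant ?_ hPA hQA
  obtain ⟨g, hg⟩ := CfsgLib.Hall.exists_conj_eq hs hK hmk (H := Q.subgroupOf K) (K := P.subgroupOf K)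
    (by rw [card_subgroupOf hQ]; exact hQm) (by rw [card_subgroupOf hP]; exact hPm)
  exact ⟨g, g.2, conj_of_conj_subgroupOf hP hQ g hg⟩

/-- conjugating by an element centralizing `A` preserves `A`-invariance -/
theorem le_normalizer_conj {A P : Subgroup X} {c : X} (hc : c ∈ centralizer (A : Set X)) (hP : A ≤ normalizer (P : Set X)) :
    A ≤ normalizer ((MulAut.conj c • P : Subgroup X) : Set X) := by
  rw [le_normalizer_iff_conj] at hP ⊢
  intro a ha
  rw [← mul_smul, ← map_mul]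
  have : a * c = c * a := mem_centralizer_iff.1 hc a ha
  rw [this, map_mul, mul_smul, hP a ha]

theorem exists_ge_aux (n : ℕ) : ∀ {Y : Type u} [Group Y] [Finite Y], Nat.card Y = n → ∀ (A G U : Subgroup Y) (_ : G.Normal),
    CopAct A G → Group.IsSolvable G → ∀ m k : ℕ, Nat.card G = m * k → m.Coprime k → U ≤ G → A ≤ normalizer (U : Set Y) →
    (Nat.card U).Coprime k → ∃ H : Subgroup Y, H ≤ G ∧ Nat.card H = m ∧ A ≤ normalizer (H : Set Y) ∧ U ≤ H := by
  induction n using Nat.strong_induction_on with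
  | _ n ih =>
  intro Y _ _ hn A G U hGn hact hs m k hG hmk hUG hAU hUk
  by_cases hbot : G = ⊥
  · refine ⟨G, le_rfl, ?_, ?_, hUG⟩
    · rw [hbot, card_bot] at hG ⊢
      have : m ∣ 1 := ⟨k, hG⟩
      exact (Nat.dvd_one.1 this).symm
    · exact hact.le_normalizer
  obtain ⟨M, hMn, hMG, hMb, hMmin, hMc, p, hp, hMp⟩ := exists_minimal_normal_le G hs hbot
  haveI : Fact p.Prime := ⟨hp⟩
  have hMpg : IsPGroup p M := fun x => ⟨1, Subtype.ext (by rw [pow_one]; exact hMp x x.2)⟩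
  obtain ⟨a, ha⟩ := IsPGroup.iff_card.1 hMpg
  have ha0 : a ≠ 0 := by
    rintro rfl
    rw [pow_zero] at ha; exact hMb (card_eq_one.1 ha)
  set f := QuotientGroup.mk' M with hf
  have hfs : Function.Surjective f := QuotientGroup.mk'_surjective M
  have hMd : p ^ a ∣ m * k := by rw [← hG, ← ha]; exact card_dvd_of_le hMG
  have hcard : Nat.card (Y ⧸ M) < n := by rw [← hn]; exact CfsgLib.Hall.card_quotient_lt M hMb
  have hGf : Nat.card (G.map f) * p ^ a = m * k := by rw [← hG, ← ha]; exact CfsgLib.Hall.card_map_mk_mul_of_le hMG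
  have hGfn : (G.map f).Normal := hGn.map f hfs
  have hactf : CopAct (A.map f) (G.map f) := by
    refine ⟨?_, ?_, Or.inr (isSolvable_map f hs)⟩
    · exact (Subgroup.map_mono hact.le_normalizer).trans (le_normalizer_map f)
    · exact (hact.coprime.coprime_dvd_left (card_map_dvd f (H := A))).coprime_dvd_right (card_map_dvd f (H := G))
  have hAUf : A.map f ≤ normalizer ((U.map f : Subgroup (Y ⧸ M)) : Set (Y ⧸ M)) := (Subgroup.map_mono hAU).trans (le_normalizer_map f)
  have hppos : 0 < p ^ a := pow_pos hp.pos a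
  have hcomapG : ∀ H : Subgroup (Y ⧸ M), H ≤ G.map f → H.comap f ≤ G := by
    intro H hH x hx
    obtain ⟨y, hy, hxy⟩ := hH hx
    have : y⁻¹ * x ∈ M := QuotientGroup.eq.1 hxy
    have h3 := G.mul_mem hy (hMG this)
    rwa [mul_inv_cancel_left] at h3
  have hcomapA : ∀ H : Subgroup (Y ⧸ M), A.map f ≤ normalizer (H : Set (Y ⧸ M)) → A ≤ normalizer ((H.comap f : Subgroup Y) : Set Y) := by
    intro H hH
    have h1 := (Subgroup.map_le_iff_le_comap.1 hH)
    exact h1.trans (le_normalizer_comap f)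
  by_cases hpk : p ∣ k
  · -- M is a π'-group
    have hpm : ¬ p ∣ m := fun h => by
      have := Nat.dvd_gcd h hpk
      rw [hmk] at this
      exact hp.one_lt.ne' (Nat.dvd_one.1 this)
    have hcop : (p ^ a).Coprime m := Nat.Coprime.pow_left _ ((Nat.Prime.coprime_iff_not_dvd hp).2 hpm)
    obtain ⟨k', rfl⟩ : p ^ a ∣ k := hcop.dvd_of_dvd_mul_left hMd
    have hGf2 : Nat.card (G.map f) = m * k' := by
      apply Nat.eq_of_mul_eq_mul_right hppos
      rw [hGf]; ring
    obtain ⟨H, hHG, hHm, hHA, hUH⟩ := ih _ hcard rfl (A.map f) (G.map f) (U.map f) hGfn hactf (isSolvable_map f hs) m k' hGf2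
      (Nat.Coprime.coprime_mul_left_right hmk) (Subgroup.map_mono hUG) hAUf
      ((Nat.Coprime.coprime_mul_left_right hUk).coprime_dvd_left (card_map_dvd f (H := U)))
    set H₁ := H.comap f with hH₁
    have hH₁G := hcomapG H hHG
    have hH₁A := hcomapA H hHA
    have hMH₁ : M ≤ H₁ := CfsgLib.Core2.le_comap_mk M H
    have hUH₁ : U ≤ H₁ := Subgroup.map_le_iff_le_comap.1 hUH
    have hH₁c : Nat.card H₁ = m * p ^ a := by rw [hH₁, CfsgLib.Hall.card_comap_mk, hHm, ha]
    have hH₁s : Group.IsSolvable H₁ := isSolvable_of_le hH₁G hs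
    obtain ⟨K, hKH, hKm, hKA⟩ := exists_inv (hact.mono_right hH₁G hH₁A) hH₁s hH₁c hcop.symm
    -- intersect with U M
    have hUc : (Nat.card U).Coprime (p ^ a) := Nat.Coprime.coprime_mul_right_right hUk
    have hUMc : Nat.card (U ⊔ M : Subgroup Y) = Nat.card U * p ^ a := by
      rw [card_sup_of_coprime M U (by rw [ha]; exact hUc.symm), ha, mul_comm]
    have hUMA : A ≤ normalizer ((U ⊔ M : Subgroup Y) : Set Y) := by
      rw [le_normalizer_iff_conj] at hAU ⊢
      intro x hx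
      rw [smul_sup, hAU x hx, Normal.conj_smul_eq_self]
    have hUMH : U ⊔ M ≤ H₁ := sup_le hUH₁ hMH₁
    have hKM : K ⊔ M = H₁ := by
      apply eq_of_le_of_card_ge (sup_le hKH hMH₁)
      rw [hH₁c, card_sup_of_coprime M K (by rw [ha, hKm]; exact hcop), ha, hKm, mul_comm]
    have hmod : (K ⊓ (U ⊔ M)) ⊔ M = U ⊔ M := by
      apply le_antisymm (sup_le inf_le_right le_sup_right)
      intro x hx
      have hx1 : x ∈ K ⊔ M := by rw [hKM]; exact hUMH hx
      rw [← SetLike.mem_coe, mul_normal] at hx1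
      obtain ⟨y, hy, z, hz, rfl⟩ := hx1
      refine mul_mem (mem_sup_left (mem_inf.2 ⟨hy, ?_⟩)) (mem_sup_right hz)
      have := (U ⊔ M).mul_mem hx ((U ⊔ M).inv_mem (mem_sup_right hz))
      simpa using this
    have hLc : Nat.card (K ⊓ (U ⊔ M) : Subgroup Y) = Nat.card U := by
      have h1 : (Nat.card M).Coprime (Nat.card (K ⊓ (U ⊔ M) : Subgroup Y)) := by
        rw [ha]
        exact hcop.coprime_dvd_right (by rw [← hKm]; exact card_dvd_of_le inf_le_left)
      have h2 := card_sup_of_coprime M (K ⊓ (U ⊔ M)) h1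
      rw [hmod, hUMc, ha, mul_comm] at h2
      exact (Nat.eq_of_mul_eq_mul_left hppos h2).symm
    have hLA : A ≤ normalizer ((K ⊓ (U ⊔ M) : Subgroup Y) : Set Y) := le_normalizer_inf hKA hUMA
    obtain ⟨c, hc, hcU⟩ := conj_inv (hact.mono_right (hUMH.trans hH₁G) hUMA) (isSolvable_of_le (hUMH.trans hH₁G) hs) hUMc hUc
      inf_le_right hLc hLA le_sup_left rfl hAU
    obtain ⟨hc1, hc2⟩ := mem_inf.1 hc
    refine ⟨MulAut.conj c • K, ?_, by rw [card_conj]; exact hKm, le_normalizer_conj hc2 hKA, ?_⟩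
    · refine le_trans ?_ hH₁G
      have h5 : MulAut.conj c • H₁ = H₁ := le_normalizer_iff_conj.1 le_normalizer c (hUMH hc1)
      have h6 : MulAut.conj c • K ≤ MulAut.conj c • H₁ := CfsgLib.H3Misc.conj_smul_le hKH
      rw [h5] at h6
      exact h6
    · rw [← hcU]
      exact CfsgLib.H3Misc.conj_smul_le inf_le_left
  · have hcop : (p ^ a).Coprime k := Nat.Coprime.pow_left _ ((Nat.Prime.coprime_iff_not_dvd hp).2 hpk)
    obtain ⟨m', rfl⟩ : p ^ a ∣ m := hcop.dvd_of_dvd_mul_right hMd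
    have hGf2 : Nat.card (G.map f) = m' * k := by
      apply Nat.eq_of_mul_eq_mul_right hppos
      rw [hGf]; ring
    obtain ⟨H, hHG, hHm, hHA, hUH⟩ := ih _ hcard rfl (A.map f) (G.map f) (U.map f) hGfn hactf (isSolvable_map f hs) m' k hGf2
      (Nat.Coprime.coprime_mul_left hmk) (Subgroup.map_mono hUG) hAUf
      (hUk.coprime_dvd_left (card_map_dvd f (H := U)))
    exact ⟨H.comap f, hcomapG H hHG, by rw [CfsgLib.Hall.card_comap_mk, hHm, ha, mul_comm], hcomapA H hHA, Subgroup.map_le_iff_le_comap.1 hUH⟩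

/-- (c) every invariant subgroup of order coprime to `k` lies in an invariant subgroup of order `m` -/
theorem exists_ge {A K : Subgroup X} (h : CopAct A K) (hs : Group.IsSolvable K) {m k : ℕ} (hK : Nat.card K = m * k) (hmk : m.Coprime k)
    {U : Subgroup X} (hU : U ≤ K) (hUA : A ≤ normalizer (U : Set X)) (hUk : (Nat.card U).Coprime k) :
    ∃ H : Subgroup X, H ≤ K ∧ Nat.card H = m ∧ A ≤ normalizer (H : Set X) ∧ U ≤ H := by
  set Y : Subgroup X := K ⊔ A with hY
  have hKY : K ≤ Y := le_sup_left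
  have hAY : A ≤ Y := le_sup_right
  have hsub : ∀ {P : Subgroup X}, A ≤ normalizer (P : Set X) → A.subgroupOf Y ≤ normalizer ((P.subgroupOf Y : Subgroup Y) : Set Y) := by
    intro P hP x hx
    exact le_normalizer_comap Y.subtype (hP hx)
  obtain ⟨H, hHK, hHm, hHA, hUH⟩ := exists_ge_aux _ rfl (A.subgroupOf Y) (K.subgroupOf Y) (U.subgroupOf Y) (normal_subgroupOf_sup h.le_normalizer)
    ⟨hsub h.le_normalizer, by rw [card_subgroupOf hAY, card_subgroupOf hKY]; exact h.coprime, Or.inr (isSolvable_subgroupOf hKY hs)⟩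
    (isSolvable_subgroupOf hKY hs) m k (by rw [card_subgroupOf hKY]; exact hK) hmk (comap_mono hU) (hsub hUA)
    (by rw [card_subgroupOf (hU.trans hKY)]; exact hUk)
  refine ⟨H.map Y.subtype, ?_, by rw [CfsgLib.H3Misc.card_map_subtype]; exact hHm, ?_, ?_⟩
  · rintro _ ⟨x, hx, rfl⟩
    exact hHK hx
  · have := (Subgroup.map_mono hHA).trans (le_normalizer_map Y.subtype)
    rw [subgroupOf_map_subtype, inf_eq_left.2 hAY] at this
    exact this
  · intro x hx
    exact ⟨⟨x, hKY (hU hx)⟩, hUH hx, rfl⟩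

end CfsgLib.H3CopHall
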