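import Mathlib
import Cfsg.Prelude.Def_Transfer
import Cfsg.Agent.Lib.Coprime2
import Cfsg.Agent.Lib.PGrp
import Cfsg.Agent.Lib.H6Tr3

/-!
# Sylow 2-subgroups with a cyclic subgroup of index 2
-/

set_option autoImplicit false
set_option maxHeartbeats 1000000

namespace CfsgLib.H3Cyc2

universe u

variable {G : Type u} [Group G] [Finite G]

theorem card_frat (Q : Subgroup G) (hQ : IsPGroup 2 Q) (x : G) (h : (Subgroup.zpowers x).relIndex Q ≤ 2) :
    Nat.card (Q ⧸ frattini Q) ≤ 4 := by
  haveI : Fact (Nat.Prime 2) := ⟨Nat.prime_two⟩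
  obtain ⟨S, hS⟩ : ∃ S, S = (Subgroup.zpowers x).subgroupOf Q := ⟨_, rfl⟩
  have hSm : ∀ s : Q, s ∈ S → (s : G) ∈ Subgroup.zpowers x := by
    intro s hs
    rw [hS] at hs
    exact Subgroup.mem_subgroupOf.1 hs
  have hcyc : IsCyclic S := by
    let f : S →* Subgroup.zpowers x :=
      { toFun := fun s => ⟨((s : Q) : G), hSm s s.2⟩
        map_one' := rfl
        map_mul' := fun _ _ => rfl }
    apply isCyclic_of_injective f
    intro a b hab
    have h9 : ((a : Q) : G) = ((b : Q) : G) := congrArg (fun z : Subgroup.zpowers x => (z : G)) hab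
    exact Subtype.ext (Subtype.ext h9)
  obtain ⟨⟨w, hwS⟩, hw⟩ := hcyc.exists_generator
  have hwo : orderOf w = Nat.card S := by
    have := orderOf_eq_card_of_forall_mem_zpowers hw
    rwa [Subgroup.orderOf_mk] at this
  have h1 : Nat.card Q ≤ 2 * orderOf w := by
    have h2 := S.card_mul_index
    have h3 : S.index ≤ 2 := by rw [hS]; exact h
    rw [← h2, hwo, mul_comm 2]
    exact Nat.mul_le_mul_left _ h3
  have h2 : orderOf w ≤ 2 * orderOf (w ^ 2) := by
    have h3 : w ^ (2 * orderOf (w ^ 2)) = 1 := by rw [pow_mul, pow_orderOf_eq_one]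
    exact Nat.le_of_dvd (by have := orderOf_pos (w ^ 2); omega) (orderOf_dvd_of_pow_eq_one h3)
  have h3 : orderOf (w ^ 2) ≤ Nat.card (frattini Q) := by
    have h4 : w ^ 2 ∈ frattini Q := CfsgLib.PGrp.pow_mem_frattini hQ w
    have h5 := orderOf_dvd_natCard (⟨w ^ 2, h4⟩ : frattini Q)
    rw [Subgroup.orderOf_mk] at h5
    exact Nat.le_of_dvd Nat.card_pos h5
  have h4 := Subgroup.card_eq_card_quotient_mul_card_subgroup (frattini Q)
  have h5 : Nat.card (Q ⧸ frattini Q) * Nat.card (frattini Q) ≤ 4 * Nat.card (frattini Q) := by omega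
  exact Nat.le_of_mul_le_mul_right h5 Nat.card_pos

theorem triv (Q : Subgroup G) (hQ : IsPGroup 2 Q) (x : G) (h : (Subgroup.zpowers x).relIndex Q ≤ 2) (g : G)
    (hg : g ∈ Subgroup.normalizer (Q : Set G)) (ho : (orderOf g).Coprime 6) :
    Subgroup.zpowers g ≤ Subgroup.centralizer (Q : Set G) := by
  classical
  haveI : Fact (Nat.Prime 2) := ⟨Nat.prime_two⟩
  have hcard := card_frat Q hQ x h
  have key : ∀ g ∈ Subgroup.normalizer (Q : Set G), (orderOf g).Coprime 6 → ∀ k ∈ Q, g * k * g⁻¹ * k⁻¹ ∈ (frattini Q).map Q.subtype := by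
    intro g hg ho k hk
    let e : Q ≃* Q := Q.normalizerMonoidHom ⟨g, hg⟩
    have he : ∀ q : Q, ((e q : Q) : G) = g * q * g⁻¹ := fun q => rfl
    have hen : e ^ orderOf g = 1 := by
      change (Q.normalizerMonoidHom ⟨g, hg⟩) ^ orderOf g = 1
      rw [← map_pow]
      have : (⟨g, hg⟩ : Subgroup.normalizer (Q : Set G)) ^ orderOf g = 1 := Subtype.ext (pow_orderOf_eq_one g)
      rw [this, map_one]
    have hmap : (frattini Q).map e.toMonoidHom = frattini Q := Subgroup.characteristic_iff_map_eq.1 inferInstance e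
    let σ : Equiv.Perm (Q ⧸ frattini Q) := (QuotientGroup.congr (frattini Q) (frattini Q) e hmap).toEquiv
    have hσ : ∀ q : Q, σ (QuotientGroup.mk q) = QuotientGroup.mk (e q) := fun q => rfl
    have hσn : ∀ (n : ℕ) (q : Q), (σ ^ n) (QuotientGroup.mk q) = QuotientGroup.mk ((e ^ n) q) := by
      intro n
      induction n with
      | zero => intro q; rfl
      | succ n ih =>
        intro q
        rw [pow_succ, Equiv.Perm.mul_apply, hσ, ih, pow_succ]
        rfl
    have hs1 : σ ^ orderOf g = 1 := by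
      ext q
      obtain ⟨q, rfl⟩ := QuotientGroup.mk_surjective q
      rw [hσn, hen]
      rfl
    have hs2 : orderOf σ ∣ 24 := by
      have h1 : orderOf σ ∣ Nat.card (Equiv.Perm (Q ⧸ frattini Q)) := orderOf_dvd_natCard σ
      haveI := Fintype.ofFinite (Q ⧸ frattini Q)
      rw [Nat.card_eq_fintype_card, Fintype.card_perm] at h1
      rw [Nat.card_eq_fintype_card] at hcard
      exact h1.trans (Nat.factorial_dvd_factorial hcard)
    have hs3 : orderOf σ ∣ orderOf g := orderOf_dvd_of_pow_eq_one hs1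
    have hs4 : (orderOf g).Coprime 24 := by
      have h1 : (orderOf g).Coprime 2 := Nat.Coprime.coprime_dvd_right (by norm_num) ho
      have h2 : (orderOf g).Coprime (6 * 2 * 2) := (ho.mul_right h1).mul_right h1
      exact h2
    have hs5 : σ = 1 := orderOf_eq_one_iff.1 (Nat.eq_one_of_dvd_coprimes hs4 hs3 hs2)
    have h6 : (QuotientGroup.mk (e ⟨k, hk⟩) : Q ⧸ frattini Q) = QuotientGroup.mk ⟨k, hk⟩ := by
      rw [← hσ, hs5]; rfl
    rw [QuotientGroup.eq] at h6
    have h7 := (frattini Q).inv_mem h6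
    rw [mul_inv_rev, inv_inv] at h7
    have h8 : (e ⟨k, hk⟩) * (⟨k, hk⟩ : Q)⁻¹ ∈ frattini Q := by
      haveI : (frattini Q).Normal := inferInstance
      exact (this.mem_comm_iff).1 h7
    exact ⟨_, h8, rfl⟩
  apply CfsgLib.Coprime.le_centralizer_of_frattini
  · rw [Nat.card_zpowers]
    obtain ⟨m, hm⟩ := IsPGroup.iff_card.1 (hQ.to_subgroup (frattini Q))
    rw [hm]
    exact Nat.Coprime.pow_right m (Nat.Coprime.coprime_dvd_right (by norm_num) ho)
  · intro a ha k hk
    apply key a _ _ k hk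
    · exact (Subgroup.zpowers_le.2 hg) ha
    · exact Nat.Coprime.coprime_dvd_left (orderOf_dvd_of_mem_zpowers ha) ho

theorem main (a n : ℕ) (hG : Nat.card G = 2 ^ a * n) (hn : Odd n) (h3 : ¬ 3 ∣ n) (x : G) (hx : orderOf x = 2 ^ (a - 1)) :
    ∃ N : Subgroup G, N.Normal ∧ Nat.card N = n := by
  haveI : Fact (Nat.Prime 2) := ⟨Nat.prime_two⟩
  have hn0 : n ≠ 0 := by rintro rfl; exact absurd hn (by decide)
  have hcardP : ∀ P : Sylow 2 G, Nat.card P = 2 ^ a := by
    intro P
    rw [Sylow.card_eq_multiplicity, hG, Nat.factorization_mul (pow_pos two_pos a).ne' hn0, Finsupp.add_apply,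
      Nat.Prime.factorization_pow Nat.prime_two, Finsupp.single_eq_same,
      Nat.factorization_eq_zero_of_not_dvd (by rw [← even_iff_two_dvd, Nat.not_even_iff_odd]; exact hn), add_zero]
  have hxp : IsPGroup 2 (Subgroup.zpowers x) := IsPGroup.of_card (n := a - 1) (by rw [Nat.card_zpowers, hx])
  obtain ⟨P, hP⟩ := hxp.exists_le_sylow
  have hrel : (Subgroup.zpowers x).relIndex (P : Subgroup G) ≤ 2 := by
    have h1 := Subgroup.card_mul_index ((Subgroup.zpowers x).subgroupOf (P : Subgroup G))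
    have h2 : Nat.card ((Subgroup.zpowers x).subgroupOf (P : Subgroup G)) = 2 ^ (a - 1) := by
      rw [Nat.card_congr (Subgroup.subgroupOfEquivOfLe hP).toEquiv, Nat.card_zpowers, hx]
    rw [h2, show Nat.card (P : Subgroup G) = 2 ^ a from hcardP P] at h1
    have h4 : 2 ^ a ≤ 2 ^ (a - 1) * 2 := by
      rw [← pow_succ]
      exact Nat.pow_le_pow_right two_pos (by omega)
    rw [← h1] at h4
    exact Nat.le_of_mul_le_mul_left h4 (pow_pos two_pos _)
  have hnpc : Cfsg.HasNormalPComplement 2 G := by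
    apply CfsgLib.H6Tr.npc_of_omega P
    intro Q hQP g hg ho y hy _
    have hQ2 : IsPGroup 2 Q := P.isPGroup'.to_le hQP
    have ho6 : (orderOf g).Coprime 6 := by
      have h1 : orderOf g ∣ n := by
        have h4 : orderOf g ∣ 2 ^ a * n := hG ▸ orderOf_dvd_natCard g
        exact (Nat.Coprime.pow_right a ho).dvd_of_dvd_mul_left h4
      have h2 : (orderOf g).Coprime 3 := by
        apply Nat.Coprime.coprime_dvd_left h1
        rw [Nat.coprime_comm, Nat.Prime.coprime_iff_not_dvd Nat.prime_three]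
        exact h3
      exact ho.mul_right h2
    have hr : (Subgroup.zpowers x).relIndex Q ≤ 2 := by
      refine le_trans (Subgroup.relIndex_le_of_le_right hQP ?_) hrel
      exact Subgroup.index_ne_zero_of_finite
    have h4 := triv Q hQ2 x hr g hg ho6 (Subgroup.mem_zpowers g)
    exact ((Subgroup.mem_centralizer_iff.1 h4) y hy).symm
  obtain ⟨P', N, hN, hc⟩ := hnpc
  refine ⟨N, hN, ?_⟩
  have h1 := hc.card_mul
  rw [show Nat.card (P' : Subgroup G) = 2 ^ a from hcardP P', hG, mul_comm] at h1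
  exact Nat.eq_of_mul_eq_mul_left (pow_pos two_pos a) h1

end CfsgLib.H3Cyc2
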