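import Mathlib
import Cfsg.Prelude.Def_Solvable
import Cfsg.Agent.Lib.H3Zas4
import Cfsg.Agent.Lib.H3Zas14
import Cfsg.Agent.Lib.H3Zas21
import Cfsg.Agent.Lib.H3Reg1
import Cfsg.Agent.Lib.FrobC
import Cfsg.Agent.Lib.FrobThm
import Cfsg.Agent.Lib.H3Fld2
import Cfsg.Agent.Lib.H3Fld3

/-!
# Quaternion complements: kernels have odd square order
-/

set_option autoImplicit false
set_option maxHeartbeats 1000000

namespace CfsgLib.H3Fld

open CfsgLib.H3Zas Module

universe u v w

/-- restriction of a quaternion pair to an invariant subgroup -/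
theorem qp_restrict {N : Type u} [AddCommGroup N] {I J : AddMonoid.End N} (hq : QP I J) (X : AddSubgroup N)
    (hI : ∀ x ∈ X, I x ∈ X) (hJ : ∀ x ∈ X, J x ∈ X) : ∃ I' J' : AddMonoid.End X, QP I' J' := by
  let I' : AddMonoid.End X := ((I : N →+ N).comp X.subtype).codRestrict X (fun x => hI x x.2)
  let J' : AddMonoid.End X := ((J : N →+ N).comp X.subtype).codRestrict X (fun x => hJ x x.2)
  have h1 : ∀ x : X, ((I' x : X) : N) = I x := fun _ => rfl
  have h2 : ∀ x : X, ((J' x : X) : N) = J x := fun _ => rfl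
  refine ⟨I', J', ?_, ?_, ?_⟩
  · refine AddMonoidHom.ext fun x => Subtype.ext ?_
    change ((I' (I' x) : X) : N) = -(x : N)
    rw [h1, h1]
    exact congrArg (fun f : AddMonoid.End N => f (x : N)) hq.ii
  · refine AddMonoidHom.ext fun x => Subtype.ext ?_
    change ((J' (J' x) : X) : N) = -(x : N)
    rw [h2, h2]
    exact congrArg (fun f : AddMonoid.End N => f (x : N)) hq.jj
  · refine AddMonoidHom.ext fun x => Subtype.ext ?_
    change ((J' (I' x) : X) : N) = -((I' (J' x) : X) : N)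
    rw [h1, h2, h1, h2]
    exact congrArg (fun f : AddMonoid.End N => f (x : N)) hq.ji

theorem sq_elem {N : Type u} [AddCommGroup N] [Finite N] {p : ℕ} [Fact p.Prime] (hp2 : p ≠ 2) (hp : ∀ x : N, p • x = 0)
    {I J : AddMonoid.End N} (hq : QP I J) : ∃ k, Nat.card N = k * k := by
  letI : Module (ZMod p) N := AddCommGroup.zmodModule (n := p) hp
  have hq' : QP (homZ p N I) (homZ p N J) := by
    refine ⟨?_, ?_, ?_⟩
    · refine LinearMap.ext fun x => ?_
      exact congrArg (fun f : AddMonoid.End N => f x) hq.ii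
    · refine LinearMap.ext fun x => ?_
      exact congrArg (fun f : AddMonoid.End N => f x) hq.jj
    · refine LinearMap.ext fun x => ?_
      exact congrArg (fun f : AddMonoid.End N => f x) hq.ji
  have h2 : (2 : ZMod p) ≠ 0 := by
    intro h
    have h1 : ((2 : ℕ) : ZMod p) = 0 := by exact_mod_cast h
    rw [ZMod.natCast_eq_zero_iff] at h1
    exact hp2 ((Nat.prime_dvd_prime_iff_eq Fact.out Nat.prime_two).1 h1)
  obtain ⟨α, β, hab⟩ := ZMod.sq_add_sq p (-1)
  exact ⟨_, hq'.half h2 hab⟩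

theorem sq_card (n : ℕ) : ∀ {N : Type u} [AddCommGroup N] [Finite N] (_ : Nat.card N ≤ n) (_ : ¬ 2 ∣ Nat.card N)
    {I J : AddMonoid.End N} (_ : QP I J), ∃ k, Nat.card N = k * k := by
  induction n with
  | zero =>
    intro N _ _ h _ I J _
    exact absurd h (by have := Nat.card_pos (α := N); omega)
  | succ n ih =>
    intro N _ _ hle h2 I J hq
    by_cases h1 : Nat.card N = 1
    · exact ⟨1, by rw [h1]⟩
    obtain ⟨p, hp, hpd⟩ := Nat.exists_prime_and_dvd h1
    haveI := Fact.mk hp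
    have hp2 : p ≠ 2 := by rintro rfl; exact h2 hpd
    let P : N →+ N := nsmulAddMonoidHom p
    have hP : ∀ x, P x = p • x := fun _ => rfl
    have hcard : Nat.card N = Nat.card P.range * Nat.card P.ker := by
      rw [AddSubgroup.card_eq_card_quotient_mul_card_addSubgroup P.ker]
      rw [Nat.card_congr (QuotientAddGroup.quotientKerEquivRange P).toEquiv]
    -- kernel
    obtain ⟨I1, J1, hq1⟩ := qp_restrict hq P.ker (fun x hx => by
        rw [AddMonoidHom.mem_ker, hP] at hx ⊢
        rw [← map_nsmul, hx, map_zero]) (fun x hx => by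
        rw [AddMonoidHom.mem_ker, hP] at hx ⊢
        rw [← map_nsmul, hx, map_zero])
    obtain ⟨a, ha⟩ := sq_elem hp2 (fun x => Subtype.ext (x.2 : P x = 0)) hq1
    obtain ⟨I2, J2, hq2⟩ := qp_restrict hq P.range (fun x hx => by
        obtain ⟨y, rfl⟩ := hx
        exact ⟨I y, by rw [hP, hP, map_nsmul]⟩) (fun x hx => by
        obtain ⟨y, rfl⟩ := hx
        exact ⟨J y, by rw [hP, hP, map_nsmul]⟩)
    have hker : 1 < Nat.card P.ker := by
      obtain ⟨x, hx⟩ := exists_prime_addOrderOf_dvd_card' (G := N) p hpd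
      have hx0 : x ≠ 0 := by
        rintro rfl
        rw [addOrderOf_zero] at hx
        exact hp.one_lt.ne hx
      have hxk : x ∈ P.ker := by
        rw [AddMonoidHom.mem_ker, hP, ← hx, addOrderOf_nsmul_eq_zero]
      haveI : Nontrivial P.ker := ⟨⟨⟨x, hxk⟩, 0, fun h => hx0 (congrArg Subtype.val h)⟩⟩
      exact Finite.one_lt_card
    have hlt : Nat.card P.range ≤ n := by
      have h3 : 0 < Nat.card P.range := Nat.card_pos
      nlinarith
    obtain ⟨b, hb⟩ := ih hlt (fun hd => h2 (hcard ▸ hd.mul_right _)) hq2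
    exact ⟨b * a, by rw [hcard, ha, hb]; ring⟩

/-- relations inside generalized quaternion groups -/
theorem q_rel {n : ℕ} (hn : 1 ≤ n) : ∃ i j : QuaternionGroup (2 ^ n), i ^ 4 = 1 ∧ i ^ 2 ≠ 1 ∧ i ^ 2 = j ^ 2 ∧ j * i = i⁻¹ * j := by
  obtain ⟨m, rfl⟩ : ∃ m, n = m + 1 := ⟨n - 1, by omega⟩
  have h2 : ∀ k : ZMod (2 * 2 ^ (m + 1)), (QuaternionGroup.a k : QuaternionGroup (2 ^ (m + 1))) ^ 2 = QuaternionGroup.a (2 * k) := by
    intro k
    rw [pow_two, QuaternionGroup.a_mul_a]
    exact congrArg QuaternionGroup.a (two_mul k).symm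
  have h4 : (2 : ZMod (2 * 2 ^ (m + 1))) * (((2 ^ m : ℕ)) : ZMod (2 * 2 ^ (m + 1))) = (((2 ^ (m + 1) : ℕ)) : ZMod (2 * 2 ^ (m + 1))) := by
    rw [pow_succ]; push_cast; ring
  refine ⟨QuaternionGroup.a ((2 ^ m : ℕ) : ZMod (2 * 2 ^ (m + 1))), QuaternionGroup.xa 0, ?_, ?_, ?_, ?_⟩
  · rw [show (4 : ℕ) = 2 * 2 by norm_num, pow_mul, h2, h2, h4, QuaternionGroup.one_def]
    congr 1
    have h5 : (((2 * 2 ^ (m + 1) : ℕ)) : ZMod (2 * 2 ^ (m + 1))) = 0 := ZMod.natCast_self _
    rw [← h5, Nat.cast_mul]; rfl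
  · rw [h2, h4, QuaternionGroup.one_def]
    intro h
    have h5 : (((2 ^ (m + 1) : ℕ)) : ZMod (2 * 2 ^ (m + 1))) = 0 := by injection h
    rw [ZMod.natCast_eq_zero_iff] at h5
    have h6 := Nat.le_of_dvd (by positivity) h5
    have : 0 < 2 ^ (m + 1) := by positivity
    omega
  · rw [h2, h4, QuaternionGroup.xa_sq]
  · rw [QuaternionGroup.xa_mul_a, zero_add]
    change _ = QuaternionGroup.a (-_) * QuaternionGroup.xa 0
    rw [QuaternionGroup.a_mul_xa, zero_sub, neg_neg]

/-- fixed point free action of a quaternion pair -/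
theorem act_sq {G : Type w} [Group G] {A : Type u} [Group A] [Finite A] (φ : G →* MulAut A)
    (hφ : ∀ g : G, g ≠ 1 → ∀ a : A, φ g a = a → a = 1) {i j : G} (hi4 : i ^ 4 = 1) (hi2 : i ^ 2 ≠ 1) (hij : i ^ 2 = j ^ 2) (hji : j * i = i⁻¹ * j) :
    Odd (Nat.card A) ∧ IsSquare (Nat.card A) := by
  have hf : MonoidHom.FixedPointFree (φ (i ^ 2)) := fun a ha => hφ _ hi2 a ha
  have hinv : Function.Involutive (φ (i ^ 2)) := by
    intro a
    rw [← MulAut.mul_apply, ← map_mul, ← pow_add, hi4, map_one]; rfl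
  have hodd : Odd (Nat.card A) := hf.odd_card_of_involutive hinv
  have hcomm := hf.commute_all_of_involutive hinv
  have hneg := hf.coe_eq_inv_of_involutive hinv
  letI : CommGroup A := { (inferInstance : Group A) with mul_comm := fun a b => hcomm a b }
  let F : G → AddMonoid.End (Additive A) := fun g => MonoidHom.toAdditive ((φ g).toMonoidHom)
  have hF : ∀ g (x : Additive A), F g x = Additive.ofMul (φ g x.toMul) := fun _ _ => rfl
  have hFm : ∀ g h, F (g * h) = F g * F h := by
    intro g h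
    refine AddMonoidHom.ext fun x => ?_
    change F (g * h) x = F g (F h x)
    rw [hF, hF, hF, map_mul]; rfl
  have hz : F (i ^ 2) = -1 := by
    refine AddMonoidHom.ext fun x => ?_
    change Additive.ofMul (φ (i ^ 2) x.toMul) = Additive.ofMul ((x.toMul)⁻¹)
    rw [hneg]
  have hq : QP (F i) (F j) := by
    refine ⟨?_, ?_, ?_⟩
    · rw [← hFm, ← pow_two]; exact hz
    · rw [← hFm, ← pow_two, ← hij]; exact hz
    · rw [← hFm, hji]
      have h1 : i⁻¹ * j = i ^ 2 * (i * j) := by
        have : i⁻¹ = i ^ 3 := by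
          rw [inv_eq_iff_mul_eq_one, ← pow_succ']; exact hi4
        rw [this, ← mul_assoc, ← pow_succ]
      rw [h1, hFm, hz, hFm]
      exact AddMonoidHom.ext fun x => rfl
  haveI : Finite (Additive A) := inferInstanceAs (Finite A)
  obtain ⟨k, hk⟩ := sq_card (Nat.card (Additive A)) (N := Additive A) le_rfl (by
    change ¬ 2 ∣ Nat.card A
    rw [← even_iff_two_dvd, Nat.not_even_iff_odd]; exact hodd) hq
  exact ⟨hodd, k, hk⟩

/-- the kernel of a Frobenius group -/
theorem kernel_act {L : Type u} [Group L] [Finite L] (H : Subgroup L) (hF : Cfsg.IsFrobeniusComplement H) :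
    ∃ N : Subgroup L, Nat.card (Cfsg.frobeniusKernel H) = Nat.card N ∧ Nat.card N * Nat.card H = Nat.card L ∧ 1 < Nat.card N ∧
      ∃ φ : H →* MulAut N, ∀ g : H, g ≠ 1 → ∀ a : N, φ g a = a → a = 1 := by
  obtain ⟨N, hN0, hN, hc⟩ := CfsgLib.FrobThm.frobenius_theorem H hF
  haveI := hN
  have hN1 : N ≠ ⊥ := by
    rintro rfl
    apply hF.2.1
    rw [Subgroup.isComplement'_bot_left] at hc
    exact hc
  have hfix := (CfsgLib.FrobAct.frobenius_iff N H hc hN1 hF.1).1 hF
  haveI : Nontrivial N := (Subgroup.nontrivial_iff_ne_bot N).2 hN1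
  refine ⟨N, ?_, hc.card_mul, Finite.one_lt_card, (MulAut.conjNormal : L →* MulAut N).comp H.subtype, ?_⟩
  · rw [← hN0]; rfl
  intro g hg a ha
  have h1 : (g : L) ≠ 1 := fun h0 => hg (Subtype.ext h0)
  have h2 := hfix g g.2 h1
  have h3 : (g : L) * a * (g : L)⁻¹ = a := by
    have := congrArg Subtype.val ha
    simpa using this
  have h4 : (a : L) ∈ N ⊓ Subgroup.centralizer {(g : L)} := by
    refine Subgroup.mem_inf.2 ⟨a.2, ?_⟩
    rw [Subgroup.mem_centralizer_singleton_iff]
    calc (a : L) * (g : L) = ((g : L) * a * (g : L)⁻¹) * (g : L) := by rw [h3]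
      _ = _ := by group
  rw [h2, Subgroup.mem_bot] at h4
  exact Subtype.ext h4

theorem s4296 {L : Type u} [Group L] [Finite L] (H : Subgroup L) (hF : Cfsg.IsFrobeniusComplement H)
    (hZ : ∃ (p : ℕ) (_ : Fact p.Prime) (P : Sylow p H), ¬ IsCyclic P) :
    Odd (Nat.card (Cfsg.frobeniusKernel H)) ∧ IsSquare (Nat.card (Cfsg.frobeniusKernel H)) := by
  obtain ⟨p, hp, P, hP⟩ := hZ
  haveI hnt : Nontrivial H := (Subgroup.nontrivial_iff_ne_bot _).2 hF.1
  have hCQ := CQ_of_FC (FC_of_Z (hasZ_of_FC (G := H) ⟨L, _, ‹_›, H, hF, ⟨MulEquiv.refl _⟩⟩))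
  rcases CfsgLib.H3Reg.cq_cases hCQ (P : Subgroup H) P.2 with h | ⟨h2, n, hn, ⟨e⟩⟩
  · exact absurd h hP
  obtain ⟨N, hN0, -, -, φ, hφ⟩ := kernel_act H hF
  obtain ⟨i, j, h4, h2', hij, hji⟩ := q_rel hn
  rw [hN0]
  have e1 : ∀ x : QuaternionGroup (2 ^ n), ((e.symm x : (P : Subgroup H)) : H) = ((P : Subgroup H).subtype.comp e.symm.toMonoidHom) x := fun _ => rfl
  refine act_sq φ hφ (i := ((P : Subgroup H).subtype.comp e.symm.toMonoidHom) i) (j := ((P : Subgroup H).subtype.comp e.symm.toMonoidHom) j) ?_ ?_ ?_ ?_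
  · rw [← map_pow, h4, map_one]
  · rw [← map_pow]
    intro h0
    apply h2'
    have h5 : ((e.symm (i ^ 2) : (P : Subgroup H)) : H) = 1 := h0
    have h6 : e.symm (i ^ 2) = 1 := Subtype.ext h5
    rw [← e.apply_symm_apply (i ^ 2), h6, map_one]
  · rw [← map_pow, ← map_pow, hij]
  · rw [← map_mul, hji, map_mul, map_inv]

/-- existence of quaternion pairs -/
theorem exists_qp (n : ℕ) : Odd n → ∃ (N : Type) (_ : AddCommGroup N) (_ : Finite N) (I J : AddMonoid.End N), QP I J ∧ Nat.card N = n * n := by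
  induction n using induction_on_primes with
  | zero => intro h; exact absurd h (by decide)
  | one =>
    intro _
    refine ⟨PUnit, inferInstance, inferInstance, 0, 0, ⟨?_, ?_, ?_⟩, by simp⟩
    · exact AddMonoidHom.ext fun x => rfl
    · exact AddMonoidHom.ext fun x => rfl
    · exact AddMonoidHom.ext fun x => rfl
  | prime_mul p a hp ih =>
    intro hodd
    obtain ⟨hpo, hao⟩ := Nat.odd_mul.1 hodd
    haveI := Fact.mk hp
    obtain ⟨N, _, _, I, J, hq, hc⟩ := ih hao
    obtain ⟨α, β, hab⟩ := ZMod.sq_add_sq p (-1)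
    let I0 : AddMonoid.End (ZMod p × ZMod p) :=
      { toFun := fun v => (α * v.1 + β * v.2, β * v.1 - α * v.2)
        map_zero' := by ext <;> simp
        map_add' := fun v w => by ext <;> (simp; ring) }
    let J0 : AddMonoid.End (ZMod p × ZMod p) :=
      { toFun := fun v => (-v.2, v.1)
        map_zero' := by ext <;> simp
        map_add' := fun v w => by ext <;> (simp; try ring) }
    have hI0 : ∀ v, I0 v = (α * v.1 + β * v.2, β * v.1 - α * v.2) := fun _ => rfl
    have hJ0 : ∀ v, J0 v = (-v.2, v.1) := fun _ => rfl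
    let I1 : AddMonoid.End ((ZMod p × ZMod p) × N) := AddMonoidHom.prodMap (I0 : (ZMod p × ZMod p) →+ (ZMod p × ZMod p)) (I : N →+ N)
    let J1 : AddMonoid.End ((ZMod p × ZMod p) × N) := AddMonoidHom.prodMap (J0 : (ZMod p × ZMod p) →+ (ZMod p × ZMod p)) (J : N →+ N)
    refine ⟨(ZMod p × ZMod p) × N, inferInstance, inferInstance, I1, J1, ⟨?_, ?_, ?_⟩, ?_⟩
    · refine AddMonoidHom.ext fun v => ?_
      obtain ⟨⟨x, y⟩, z⟩ := v
      refine Prod.ext (Prod.ext ?_ ?_) ?_
      · change α * (α * x + β * y) + β * (β * x - α * y) = - x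
        linear_combination x * hab
      · change β * (α * x + β * y) - α * (β * x - α * y) = - y
        linear_combination y * hab
      · exact congrArg (fun f : AddMonoid.End N => f z) hq.ii
    · refine AddMonoidHom.ext fun v => ?_
      obtain ⟨⟨x, y⟩, z⟩ := v
      refine Prod.ext (Prod.ext ?_ ?_) ?_
      · change - x = - x
        rfl
      · change - y = - y
        rfl
      · exact congrArg (fun f : AddMonoid.End N => f z) hq.jj
    · refine AddMonoidHom.ext fun v => ?_
      obtain ⟨⟨x, y⟩, z⟩ := v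
      refine Prod.ext (Prod.ext ?_ ?_) ?_
      · change -(β * x - α * y) = -(α * (-y) + β * x)
        ring
      · change (α * x + β * y) = -(β * (-y) - α * x)
        ring
      · exact congrArg (fun f : AddMonoid.End N => f z) hq.ji
    · rw [Nat.card_prod, Nat.card_prod, Nat.card_zmod, hc]; ring

/-- the homomorphism from `Q₈` -/
theorem q8_hom {U : Type u} [Group U] {i j : U} (hi4 : i ^ 4 = 1) (hij : i ^ 2 = j ^ 2) (hji : j * i = i⁻¹ * j) :
    ∃ f : QuaternionGroup 2 →* U, f (QuaternionGroup.a 1) = i ∧ f (QuaternionGroup.xa 0) = j := by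
  let p : ZMod (2 * 2) → U := fun k => i ^ k.val
  have hp : ∀ k, p k = i ^ k.val := fun _ => rfl
  have hmod : ∀ m : ℕ, i ^ (m % 4) = i ^ m := by
    intro m
    conv_rhs => rw [← Nat.mod_add_div m 4, pow_add, pow_mul, hi4, one_pow, mul_one]
  have padd : ∀ k l, p (k + l) = p k * p l := by
    intro k l
    rw [hp, hp, hp, ZMod.val_add, ← pow_add]
    exact hmod _
  have psub : ∀ k l, p (l - k) = (p k)⁻¹ * p l := by
    intro k l
    rw [eq_inv_mul_iff_mul_eq, ← padd, add_sub_cancel]
  have hs : SemiconjBy j i i⁻¹ := hji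
  have hpj : ∀ k, p k * j = j * (p k)⁻¹ := by
    intro k
    have h1 : SemiconjBy j (i⁻¹ ^ k.val) (i⁻¹⁻¹ ^ k.val) := (SemiconjBy.inv_right hs).pow_right _
    rw [inv_inv, inv_pow] at h1
    exact h1.eq.symm
  let f : QuaternionGroup 2 → U := fun x => match x with
    | QuaternionGroup.a k => p k
    | QuaternionGroup.xa k => j * p k
  have hfa : ∀ k, f (QuaternionGroup.a k) = p k := fun _ => rfl
  have hfx : ∀ k, f (QuaternionGroup.xa k) = j * p k := fun _ => rfl
  refine ⟨MonoidHom.mk' f ?_, ?_, ?_⟩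
  · rintro (k | k) (l | l)
    · rw [QuaternionGroup.a_mul_a, hfa, hfa, hfa, padd]
    · rw [QuaternionGroup.a_mul_xa, hfa, hfx, hfx, psub, ← mul_assoc (p k), hpj, mul_assoc]
    · rw [QuaternionGroup.xa_mul_a, hfa, hfx, hfx, padd, mul_assoc]
    · rw [QuaternionGroup.xa_mul_xa, hfa, hfx, hfx]
      have h1 : p ((2 : ℕ) : ZMod (2 * 2)) = i ^ 2 := rfl
      have h2 : p (((2 : ℕ) : ZMod (2 * 2)) + l - k) = i ^ 2 * ((p k)⁻¹ * p l) := by
        rw [add_sub_assoc, padd, h1, psub]
      rw [h2]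
      calc i ^ 2 * ((p k)⁻¹ * p l) = j * (j * (p k)⁻¹) * p l := by rw [hij, pow_two]; group
        _ = j * (p k * j) * p l := by rw [hpj]
        _ = j * p k * (j * p l) := by group
  · change p 1 = i
    exact pow_one i
  · change j * p 0 = j
    rw [show p 0 = 1 from pow_zero i, mul_one]

theorem s4295 (m : ℕ) :
    (∃ (L : Type) (_ : Group L) (_ : Finite L) (H : Subgroup L), Cfsg.IsFrobeniusComplement H ∧
        Nonempty (H ≃* QuaternionGroup 2) ∧ Nat.card (Cfsg.frobeniusKernel H) = m) ↔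
    (Odd m ∧ IsSquare m ∧ 1 < m) := by
  constructor
  · rintro ⟨L, _, _, H, hH, ⟨e⟩, rfl⟩
    obtain ⟨N, hN0, -, hN1, φ, hφ⟩ := kernel_act H hH
    obtain ⟨i, j, h4, h2', hij, hji⟩ : ∃ i j : QuaternionGroup 2, i ^ 4 = 1 ∧ i ^ 2 ≠ 1 ∧ i ^ 2 = j ^ 2 ∧ j * i = i⁻¹ * j := q_rel (n := 1) le_rfl
    rw [hN0]
    have h := act_sq φ hφ (i := e.symm i) (j := e.symm j) (by rw [← map_pow, h4, map_one])
      (by
        rw [← map_pow]
        intro h0
        apply h2'
        rw [← e.apply_symm_apply (i ^ 2), h0, map_one])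
      (by rw [← map_pow, ← map_pow, hij]) (by rw [← map_mul, hji, map_mul, map_inv])
    exact ⟨h.1, h.2, hN1⟩
  · rintro ⟨hodd, ⟨n, rfl⟩, hm1⟩
    have hno : Odd n := (Nat.odd_mul.1 hodd).1
    obtain ⟨N, _, _, I, J, hq, hc⟩ := exists_qp n hno
    haveI : Nontrivial N := by
      rw [← Finite.one_lt_card_iff_nontrivial, hc]; exact hm1
    -- units
    let iu : (AddMonoid.End N)ˣ := ⟨I, -I, by rw [mul_neg, hq.ii, neg_neg], by rw [neg_mul, hq.ii, neg_neg]⟩
    let ju : (AddMonoid.End N)ˣ := ⟨J, -J, by rw [mul_neg, hq.jj, neg_neg], by rw [neg_mul, hq.jj, neg_neg]⟩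
    have hi2 : ((iu ^ 2 : (AddMonoid.End N)ˣ) : AddMonoid.End N) = -1 := by
      rw [Units.val_pow_eq_pow_val, pow_two]; exact hq.ii
    have hj2 : ((ju ^ 2 : (AddMonoid.End N)ˣ) : AddMonoid.End N) = -1 := by
      rw [Units.val_pow_eq_pow_val, pow_two]; exact hq.jj
    obtain ⟨f, hfa, hfx⟩ := q8_hom (i := iu) (j := ju) (by
        apply Units.ext
        rw [show (4 : ℕ) = 2 * 2 by norm_num, pow_mul, Units.val_pow_eq_pow_val, hi2, neg_one_sq, Units.val_one])
      (by apply Units.ext; rw [hi2, hj2]) (by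
        apply Units.ext
        rw [Units.val_mul, Units.val_mul]
        change J * I = (-I) * J
        rw [hq.ji, neg_mul])
    have hz : ((f (QuaternionGroup.a 2) : (AddMonoid.End N)ˣ) : AddMonoid.End N) = -1 := by
      have : (QuaternionGroup.a 2 : QuaternionGroup 2) = (QuaternionGroup.a 1) ^ 2 := by decide
      rw [this, map_pow, hfa, hi2]
    have hQ : ∀ g : QuaternionGroup 2, g ≠ 1 → g = QuaternionGroup.a 2 ∨ g ^ 2 = QuaternionGroup.a 2 := by decide
    have hfix : ∀ g : QuaternionGroup 2, g ≠ 1 → ∀ v : N, ((f g : (AddMonoid.End N)ˣ) : AddMonoid.End N) v = v → v = 0 := by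
      have hz' : ∀ v : N, ((f (QuaternionGroup.a 2) : (AddMonoid.End N)ˣ) : AddMonoid.End N) v = v → v = 0 := by
        intro v hv
        rw [hz] at hv
        have h1 : -v = v := hv
        have h2 : 2 • v = 0 := by rw [two_nsmul]; nth_rewrite 1 [← h1]; exact neg_add_cancel v
        have h3 : addOrderOf v ∣ 2 := addOrderOf_dvd_of_nsmul_eq_zero h2
        have h4 : addOrderOf v ∣ n * n := hc ▸ addOrderOf_dvd_natCard v
        have h5 : Nat.Coprime 2 (n * n) := by rw [Nat.coprime_two_left]; exact hodd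
        have h6 := Nat.eq_one_of_dvd_coprimes h5 h3 h4
        exact AddMonoid.addOrderOf_eq_one_iff.1 h6
      intro g hg v hv
      rcases hQ g hg with rfl | h
      · exact hz' v hv
      · apply hz'
        rw [← h, map_pow, pow_two, Units.val_mul]
        change ((f g : (AddMonoid.End N)ˣ) : AddMonoid.End N) (((f g : (AddMonoid.End N)ˣ) : AddMonoid.End N) v) = v
        rw [hv, hv]
    let φ : QuaternionGroup 2 →* MulAut (Multiplicative N) :=
      { toFun := fun g =>
          { toFun := fun v => Multiplicative.ofAdd (((f g : (AddMonoid.End N)ˣ) : AddMonoid.End N) v.toAdd)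
            invFun := fun v => Multiplicative.ofAdd (((f g⁻¹ : (AddMonoid.End N)ˣ) : AddMonoid.End N) v.toAdd)
            left_inv := fun v => by
              apply Multiplicative.toAdd.injective
              change (((f g⁻¹ : (AddMonoid.End N)ˣ) : AddMonoid.End N) * ((f g : (AddMonoid.End N)ˣ) : AddMonoid.End N)) v.toAdd = v.toAdd
              rw [← Units.val_mul, ← map_mul, inv_mul_cancel, map_one]; rfl
            right_inv := fun v => by
              apply Multiplicative.toAdd.injective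
              change (((f g : (AddMonoid.End N)ˣ) : AddMonoid.End N) * ((f g⁻¹ : (AddMonoid.End N)ˣ) : AddMonoid.End N)) v.toAdd = v.toAdd
              rw [← Units.val_mul, ← map_mul, mul_inv_cancel, map_one]; rfl
            map_mul' := fun v w => by
              apply Multiplicative.toAdd.injective
              exact map_add ((f g : (AddMonoid.End N)ˣ) : AddMonoid.End N) v.toAdd w.toAdd }
        map_one' := by
          ext v
          apply Multiplicative.toAdd.injective
          change ((f 1 : (AddMonoid.End N)ˣ) : AddMonoid.End N) v.toAdd = v.toAdd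
          rw [map_one]; rfl
        map_mul' := fun g h => by
          ext v
          apply Multiplicative.toAdd.injective
          change ((f (g * h) : (AddMonoid.End N)ˣ) : AddMonoid.End N) v.toAdd = ((f g : (AddMonoid.End N)ˣ) : AddMonoid.End N) (((f h : (AddMonoid.End N)ˣ) : AddMonoid.End N) v.toAdd)
          rw [map_mul, Units.val_mul]; rfl }
    haveI : Finite (Multiplicative N) := inferInstanceAs (Finite N)
    haveI : Nontrivial (Multiplicative N) := inferInstanceAs (Nontrivial N)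
    haveI : Nontrivial (QuaternionGroup 2) := ⟨⟨QuaternionGroup.a 0, QuaternionGroup.a 1, by decide⟩⟩
    haveI := CfsgLib.FrobC.finite_semi φ
    have hFr := CfsgLib.FrobC.frob_inr φ (fun g hg v hv => by
      have h1 := hfix g hg v.toAdd (congrArg Multiplicative.toAdd hv)
      exact h1)
    refine ⟨Multiplicative N ⋊[φ] QuaternionGroup 2, inferInstance, inferInstance, _, hFr, CfsgLib.FrobC.range_equiv φ, ?_⟩
    obtain ⟨K, hK0, hK1, -, -⟩ := kernel_act _ hFr
    rw [hK0]
    obtain ⟨e⟩ := CfsgLib.FrobC.range_equiv φ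
    rw [Nat.card_congr e.toEquiv, SemidirectProduct.card] at hK1
    have h1 : Nat.card (Multiplicative N) = n * n := hc
    rw [h1] at hK1
    exact Nat.eq_of_mul_eq_mul_right Nat.card_pos hK1

end CfsgLib.H3Fld
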