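import Mathlib
import Cfsg.Agent.Lib.H6HSub
import Cfsg.Agent.Lib.H3Fld5
import Cfsg.Prelude.Def_Transfer

/-!
# Groups all of whose subgroups are normal: a quaternion pair
-/

set_option autoImplicit false
set_option maxHeartbeats 1000000

namespace CfsgLib.H3Ded

open CfsgLib.H6HSub

universe u

variable {G : Type u} [Group G] [Finite G]

/-- the bottom of the cyclic group generated by a `p`-element -/
theorem bottom {p r : ℕ} (hp : p.Prime) {a c : G} (ha : orderOf a = p ^ (r + 1)) (hc : orderOf c = p) (hca : c ∈ Subgroup.zpowers a) :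
    Subgroup.zpowers (a ^ p ^ r) = Subgroup.zpowers c := by
  symm
  have h1 : orderOf (a ^ p ^ r) = p := by
    rw [orderOf_pow' a (pow_pos hp.pos r).ne', ha, Nat.gcd_eq_right (pow_dvd_pow p (Nat.le_succ r)), pow_succ,
      Nat.mul_div_cancel_left _ (pow_pos hp.pos r)]
  apply Subgroup.eq_of_le_of_card_ge
  · rw [Subgroup.zpowers_le]
    obtain ⟨i, hi⟩ := mem_powers_iff_mem_zpowers.2 hca
    have hi : a ^ i = c := hi
    have h2 : a ^ (i * p) = 1 := by rw [pow_mul, hi, ← hc, pow_orderOf_eq_one]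
    have h3 : p ^ r * p ∣ i * p := by
      rw [← pow_succ, ← ha]
      exact orderOf_dvd_of_pow_eq_one h2
    obtain ⟨j, hj⟩ := (Nat.mul_dvd_mul_iff_right hp.pos).1 h3
    rw [← hi, hj, pow_mul]
    exact Subgroup.npow_mem_zpowers _ _
  · rw [Nat.card_zpowers, Nat.card_zpowers, h1, hc]

theorem exists_pair (hn : ∀ H : Subgroup G, H.Normal) (hna : ∃ a b : G, a * b ≠ b * a) :
    ∃ x y : G, x ^ 4 = 1 ∧ x ^ 2 = y ^ 2 ∧ x ^ 2 ≠ 1 ∧ y * x = x⁻¹ * y := by
  classical
  have hex : ∃ n, ∃ a b : G, a * b ≠ b * a ∧ orderOf a + orderOf b = n := by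
    obtain ⟨a, b, h⟩ := hna
    exact ⟨_, a, b, h, rfl⟩
  obtain ⟨a, b, hab, hmin⟩ : ∃ a b : G, a * b ≠ b * a ∧
      ∀ a' b' : G, a' * b' ≠ b' * a' → orderOf a + orderOf b ≤ orderOf a' + orderOf b' := by
    obtain ⟨a, b, h1, h2⟩ := Nat.find_spec hex
    refine ⟨a, b, h1, fun a' b' h' => ?_⟩
    rw [h2]
    exact Nat.find_min' hex ⟨a', b', h', rfl⟩
  have key : ∀ a b : G, a * b ≠ b * a → (∀ a' b' : G, a' * b' ≠ b' * a' → orderOf a + orderOf b ≤ orderOf a' + orderOf b') →
      orderOf b ≤ orderOf a → ∃ x y : G, x ^ 4 = 1 ∧ x ^ 2 = y ^ 2 ∧ x ^ 2 ≠ 1 ∧ y * x = x⁻¹ * y := by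
    clear hab hmin a b
    intro a b hab hmin hle
    obtain ⟨c, hc⟩ : ∃ c, c = b * a * b⁻¹ * a⁻¹ := ⟨_, rfl⟩
    have hba : b * a = c * a * b := by rw [hc]; group
    have hab' : a * b = c⁻¹ * b * a := by rw [hc]; group
    have hca : c ∈ Subgroup.zpowers a := by
      rw [hc]
      exact mul_mem ((hn _).conj_mem a (Subgroup.mem_zpowers a) b) (inv_mem (Subgroup.mem_zpowers a))
    have hcb : c ∈ Subgroup.zpowers b := by
      have h1 : c = b * (a * b⁻¹ * a⁻¹) := by rw [hc]; group
      rw [h1]
      exact mul_mem (Subgroup.mem_zpowers b) ((hn _).conj_mem _ (inv_mem (Subgroup.mem_zpowers b)) a)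
    have hCa : Commute c a := by
      obtain ⟨i, hi⟩ := hca
      have hi : a ^ i = c := hi
      rw [← hi]
      exact (Commute.refl a).zpow_left i
    have hCb : Commute c b := by
      obtain ⟨i, hi⟩ := hcb
      have hi : b ^ i = c := hi
      rw [← hi]
      exact (Commute.refl b).zpow_left i
    have hc1 : c ≠ 1 := by
      intro h
      rw [h, one_mul] at hba
      exact hab hba.symm
    have hbn : ∀ n, b ^ n * a = c ^ n * a * b ^ n := conj_pow_class_two hCa hCb hba
    have han : ∀ n, a ^ n * b = c⁻¹ ^ n * b * a ^ n := conj_pow_class_two hCb.inv_left hCa.inv_left hab'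
    have hlt : ∀ (g : G) (q : ℕ), q.Prime → q ∣ orderOf g → orderOf (g ^ q) < orderOf g := by
      intro g q hq hd
      rw [orderOf_pow' g hq.pos.ne', Nat.gcd_eq_right hd]
      exact Nat.div_lt_self (orderOf_pos g) hq.one_lt
    have hqb : ∀ q : ℕ, q.Prime → q ∣ orderOf b → orderOf c = q := by
      intro q hq hd
      have h1 : a * b ^ q = b ^ q * a := by
        by_contra hh
        have := hmin a (b ^ q) hh
        have := hlt b q hq hd
        omega
      have h2 : c ^ q = 1 := by
        have h3 := hbn q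
        rw [← h1] at h3
        have h4 : c ^ q * (a * b ^ q) = 1 * (a * b ^ q) := by rw [one_mul, ← mul_assoc, ← h3]
        exact mul_right_cancel h4
      haveI := Fact.mk hq
      exact orderOf_eq_prime h2 hc1
    have hqa : ∀ q : ℕ, q.Prime → q ∣ orderOf a → orderOf c = q := by
      intro q hq hd
      have h1 : a ^ q * b = b * a ^ q := by
        by_contra hh
        have := hmin (a ^ q) b hh
        have := hlt a q hq hd
        omega
      have h2 : c⁻¹ ^ q = 1 := by
        have h3 := han q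
        rw [h1] at h3
        have h4 : c⁻¹ ^ q * (b * a ^ q) = 1 * (b * a ^ q) := by rw [one_mul, ← mul_assoc, ← h3]
        exact mul_right_cancel h4
      rw [inv_pow, inv_eq_one] at h2
      haveI := Fact.mk hq
      exact orderOf_eq_prime h2 hc1
    have ha1 : orderOf a ≠ 1 := by
      intro h
      rw [orderOf_eq_one_iff] at h
      rw [h] at hab
      exact hab (by rw [one_mul, mul_one])
    have hb1 : orderOf b ≠ 1 := by
      intro h
      rw [orderOf_eq_one_iff] at h
      rw [h] at hab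
      exact hab (by rw [one_mul, mul_one])
    obtain ⟨p, hp, hpa⟩ := Nat.exists_prime_and_dvd ha1
    haveI := Fact.mk hp
    have hcp : orderOf c = p := hqa p hp hpa
    have hA : orderOf a = p ^ (orderOf a).primeFactorsList.length :=
      Nat.eq_prime_pow_of_unique_prime_dvd (orderOf_pos a).ne' (fun {d} hd1 hd2 => by rw [← hqa d hd1 hd2, hcp])
    have hB : orderOf b = p ^ (orderOf b).primeFactorsList.length :=
      Nat.eq_prime_pow_of_unique_prime_dvd (orderOf_pos b).ne' (fun {d} hd1 hd2 => by rw [← hqb d hd1 hd2, hcp])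
    obtain ⟨r, hr⟩ : ∃ r, orderOf a = p ^ (r + 1) := by
      cases h : (orderOf a).primeFactorsList.length with
      | zero => rw [h, pow_zero] at hA; exact absurd hA ha1
      | succ r => exact ⟨r, by rw [h] at hA; exact hA⟩
    obtain ⟨s, hs⟩ : ∃ s, orderOf b = p ^ (s + 1) := by
      cases h : (orderOf b).primeFactorsList.length with
      | zero => rw [h, pow_zero] at hB; exact absurd hB hb1
      | succ r => exact ⟨r, by rw [h] at hB; exact hB⟩
    have hsr : s ≤ r := by
      rw [hr, hs] at hle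
      have := (Nat.pow_le_pow_iff_right hp.one_lt).1 hle
      omega
    have hu := bottom hp hr hcp hca
    have hv := bottom hp hs hcp hcb
    have hs1 : s ≠ 0 := by
      intro h
      rw [h, pow_zero, pow_one] at hv
      have h1 : b ∈ Subgroup.zpowers c := hv ▸ Subgroup.mem_zpowers b
      obtain ⟨i, hi⟩ := h1
      have hi : c ^ i = b := hi
      apply hab
      rw [← hi]
      exact (hCa.symm.zpow_right i).eq
    obtain ⟨k, hk⟩ : ∃ k : ℕ, (a ^ p ^ r) ^ k = (b ^ p ^ s)⁻¹ := by
      have h1 : (b ^ p ^ s)⁻¹ ∈ Subgroup.zpowers (a ^ p ^ r) := by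
        rw [hu, ← hv]
        exact inv_mem (Subgroup.mem_zpowers _)
      exact mem_powers_iff_mem_zpowers.2 h1
    obtain ⟨m, hm⟩ : ∃ m, m = k * p ^ (r - s) := ⟨_, rfl⟩
    have hbam : b * a ^ m = c ^ m * a ^ m * b := by
      have h1 := han m
      calc b * a ^ m = c ^ m * (c⁻¹ ^ m * b * a ^ m) := by rw [inv_pow]; group
        _ = c ^ m * a ^ m * b := by rw [← h1, mul_assoc]
    have hpow := mul_pow_class_two (hCa.pow_pow m m) (hCb.pow_left m) hbam (p ^ s)
    have h2 : (a ^ m) ^ p ^ s = (b ^ p ^ s)⁻¹ := by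
      rw [← hk, ← pow_mul, ← pow_mul, hm, mul_assoc, ← pow_add, Nat.sub_add_cancel hsr, mul_comm k]
    rw [h2, mul_assoc, inv_mul_cancel, mul_one] at hpow
    have h3 : (a ^ m * b) ^ p ^ s ≠ 1 := by
      intro h
      have h4 : a * (a ^ m * b) ≠ a ^ m * b * a := by
        intro h5
        apply hab
        apply mul_left_cancel (a := a ^ m)
        rw [← mul_assoc, ← mul_assoc, ← h5, ← pow_succ, ← mul_assoc, ← pow_succ']
      have h6 := hmin _ _ h4
      have h7 : orderOf (a ^ m * b) ≤ p ^ s := orderOf_le_of_pow_eq_one (pow_pos hp.pos s) h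
      have h8 : p ^ s < p ^ (s + 1) := Nat.pow_lt_pow_right hp.one_lt (Nat.lt_succ_self s)
      rw [hs] at h6
      omega
    have h4 : ¬ p ∣ m * (p ^ s).choose 2 := by
      rintro ⟨t, ht⟩
      apply h3
      rw [hpow, ← pow_mul, ht, pow_mul, ← hcp, pow_orderOf_eq_one, one_pow]
    have h5 : 2 = p ^ s := by
      by_contra h
      exact h4 (Dvd.dvd.mul_left (hp.dvd_choose_pow two_ne_zero h) _)
    have hp2 : p = 2 := by
      have : p ∣ 2 := h5 ▸ dvd_pow_self p hs1
      exact (Nat.prime_dvd_prime_iff_eq hp Nat.prime_two).1 this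
    subst hp2
    have hs2 : s = 1 := by
      have : (2 : ℕ) ^ 1 = 2 ^ s := by rw [pow_one]; exact h5
      exact (Nat.pow_right_injective le_rfl this).symm
    have hr2 : r = 1 := by
      by_contra h
      apply h4
      rw [hm]
      exact Dvd.dvd.mul_right (Dvd.dvd.mul_left (dvd_pow_self 2 (by omega)) _) _
    subst hs2 hr2
    have hcc : ∀ w ∈ Subgroup.zpowers c, w ≠ 1 → w = c := by
      intro w hw hw1
      obtain ⟨i, hi⟩ := mem_powers_iff_mem_zpowers.2 hw
      have hi : c ^ i = w := hi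
      have h2 : c ^ (i % 2) = c ^ i := by rw [← hcp, pow_mod_orderOf]
      rcases Nat.mod_two_eq_zero_or_one i with h | h
      · rw [h, pow_zero] at h2
        exact absurd (hi.symm.trans h2.symm) hw1
      · rw [h, pow_one] at h2
        exact hi.symm.trans h2.symm
    have ha2 : a ^ 2 = c := by
      apply hcc
      · rw [← hu]; exact Subgroup.mem_zpowers _
      · intro h
        have := Nat.le_of_dvd two_pos (orderOf_dvd_of_pow_eq_one h)
        rw [hr] at this
        norm_num at this
    have hb2 : b ^ 2 = c := by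
      apply hcc
      · rw [← hv]; exact Subgroup.mem_zpowers _
      · intro h
        have := Nat.le_of_dvd two_pos (orderOf_dvd_of_pow_eq_one h)
        rw [hs] at this
        norm_num at this
    have hc2 : c ^ 2 = 1 := by rw [← hcp, pow_orderOf_eq_one]
    refine ⟨a, b, ?_, ha2.trans hb2.symm, by rw [ha2]; exact hc1, ?_⟩
    · rw [show (4 : ℕ) = 2 * 2 by norm_num, pow_mul, ha2, hc2]
    · rw [hba, show c = c⁻¹ from by rw [eq_inv_iff_mul_eq_one, ← pow_two, hc2], ← ha2]
      group
  rcases le_total (orderOf b) (orderOf a) with h | h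
  · exact key a b hab hmin h
  · exact key b a (fun h => hab h.symm) (fun a' b' h' => by rw [add_comm (orderOf b)]; exact hmin a' b' h') h

end CfsgLib.H3Ded
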