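import Mathlib
import Cfsg.Agent.Lib.H3FC4

/-!
# Quotients of Frobenius complements: existence, solvable case
-/

set_option autoImplicit false
set_option linter.style.haveILetI false

namespace CfsgLib.H3FC

open Subgroup CfsgLib.H3Ti
open scoped commutatorElement

universe u v

theorem q8_center : ∀ q : QuaternionGroup 2, (∀ x, q * x = x * q) → q * q = 1 := by decide

theorem exists_solv_two {G : Type u} [Group G] [Finite G] (O : Subgroup G) [O.Normal] (h2 : ¬ 2 ∣ Nat.card O) (hOZ : IsZGroup O)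
    (hnz : ¬ IsZGroup G) (hCQ : CQ G) (hQ : IsPGroup 2 (G ⧸ O)) :
    ∃ N : Subgroup G, N.Normal ∧ IsZGroup N ∧ (∃ f : G →* DihedralGroup 2, Function.Surjective f ∧ f.ker = N) := by
  haveI : Fact (Nat.Prime 2) := ⟨Nat.prime_two⟩
  obtain ⟨j, hj⟩ := IsPGroup.iff_card.1 hQ
  rcases cq_quot hCQ O h2 ⊤ (hQ.to_subgroup ⊤) with hc | ⟨n, hn, ⟨e⟩⟩
  · exfalso
    apply hnz
    have h3 : IsZGroup (⊤ : Subgroup G) := by
      refine zgroup_ext O ⊤ le_top hOZ h2 (k := j) ?_ ?_
      · rw [relIndex_top_right]; exact hj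
      · have h4 : (⊤ : Subgroup G).map (QuotientGroup.mk' O) = ⊤ := by
          rw [← MonoidHom.range_eq_map, MonoidHom.range_eq_top.2 (QuotientGroup.mk'_surjective O)]
        rw [h4]; exact hc
    exact IsZGroup.of_injective (f := (Subgroup.topEquiv (G := G)).symm.toMonoidHom) (Subgroup.topEquiv (G := G)).symm.injective
  · have h2n : 2 ∣ 2 ^ n := dvd_pow_self 2 (by omega)
    haveI : NeZero (2 ^ n) := ⟨by positivity⟩
    let e' : (G ⧸ O) ≃* QuaternionGroup (2 ^ n) := (Subgroup.topEquiv (G := G ⧸ O)).symm.trans e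
    let F : G →* DihedralGroup 2 := ((qd (2 ^ n) h2n).comp e'.toMonoidHom).comp (QuotientGroup.mk' O)
    have hF : Function.Surjective F := ((qd_surj _ h2n).comp e'.surjective).comp (QuotientGroup.mk'_surjective O)
    have hOF : O ≤ F.ker := by
      intro x hx
      have h3 : (QuotientGroup.mk' O) x = 1 := (QuotientGroup.eq_one_iff _).2 hx
      change (qd (2 ^ n) h2n) (e' ((QuotientGroup.mk' O) x)) = 1
      rw [h3, map_one, map_one]
    refine ⟨F.ker, inferInstance, ?_, F, hF, rfl⟩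
    have hcd : O.relIndex F.ker ∣ 2 ^ j := by
      rw [CfsgLib.FrobQuot.relIndex_eq_card_map, ← hj]
      exact Subgroup.card_subgroup_dvd_card _
    obtain ⟨i, -, hi⟩ := (Nat.dvd_prime_pow Nat.prime_two).1 hcd
    refine zgroup_ext O F.ker hOF hOZ h2 hi ?_
    let g : (F.ker.map (QuotientGroup.mk' O)) →* zpowers (QuaternionGroup.a 1 : QuaternionGroup (2 ^ n)) :=
      (e'.toMonoidHom.comp (F.ker.map (QuotientGroup.mk' O)).subtype).codRestrict _ (by
        rintro ⟨_, ⟨x, hx, rfl⟩⟩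
        exact qd_ker _ h2n hx)
    refine isCyclic_of_injective g ?_
    intro a b hab
    have h3 : e' (a : G ⧸ O) = e' (b : G ⧸ O) := congrArg (fun y : zpowers (QuaternionGroup.a 1 : QuaternionGroup (2 ^ n)) => (y : QuaternionGroup (2 ^ n))) hab
    exact Subtype.ext (e'.injective h3)

theorem exists_solv {G : Type u} [Group G] [Finite G] (hs : Group.IsSolvable G) (hnz : ¬ IsZGroup G) (hCQ : CQ G) :
    ∃ N : Subgroup G, N.Normal ∧ IsZGroup N ∧
        ((∃ f : G →* DihedralGroup 2, Function.Surjective f ∧ f.ker = N) ∨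
        (∃ f : G →* alternatingGroup (Fin 4), Function.Surjective f ∧ f.ker = N) ∨
        (∃ f : G →* Equiv.Perm (Fin 4), Function.Surjective f ∧ f.ker = N)) := by
  classical
  haveI : Fact (Nat.Prime 2) := ⟨Nat.prime_two⟩
  set O := Cfsg.pPrimeCore 2 G with hO
  haveI hOn : O.Normal := CfsgLib.Core.pPrimeCore_normal 2 G
  have h2 : ¬ 2 ∣ Nat.card O := by
    rw [← Nat.Prime.coprime_iff_not_dvd Nat.prime_two]
    exact (CfsgLib.Core.card_pPrimeCore_coprime 2 G).symm
  have hOZ : IsZGroup O := by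
    refine ⟨fun p hp P => ?_⟩
    haveI : Fact p.Prime := ⟨hp⟩
    rcases hCQ p ((P : Subgroup O).map O.subtype) (P.2.map _) with h | ⟨rfl, n, ⟨e⟩⟩
    · exact CfsgLib.H3Misc.cyclic_of_map_subtype O P h
    · exfalso
      apply h2
      refine Dvd.dvd.trans ?_ (Subgroup.card_subgroup_dvd_card (P : Subgroup O))
      haveI : NeZero (2 ^ n) := ⟨by positivity⟩
      rw [← CfsgLib.H3Misc.card_map_subtype O P, Nat.card_congr e.toEquiv, Nat.card_eq_fintype_card, QuaternionGroup.card]
      exact dvd_mul_of_dvd_left (by norm_num) _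
  by_cases hQ : IsPGroup 2 (G ⧸ O)
  · obtain ⟨N, h3, h4, h5⟩ := exists_solv_two O h2 hOZ hnz hCQ hQ
    exact ⟨N, h3, h4, Or.inl h5⟩
  haveI hsQ : Group.IsSolvable (G ⧸ O) := by haveI := hs; infer_instance
  have hcore : Cfsg.pPrimeCore 2 (G ⧸ O) = ⊥ := CfsgLib.Solv.pPrimeCore_quotient 2 G
  have hCT := CfsgLib.Solv.centralizer_pCore_le hsQ (p := 2) hcore
  set T := Cfsg.pCore 2 (G ⧸ O) with hT
  haveI hTn : T.Normal := CfsgLib.Core.pCore_normal 2 (G ⧸ O)
  have hTp : IsPGroup 2 T := CfsgLib.Core.pCore_isPGroup 2 (G ⧸ O)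
  set C := centralizer (T : Set (G ⧸ O)) with hC
  have hCp : IsPGroup 2 C := hTp.to_le hCT
  have hker : (MulAut.conjNormal : (G ⧸ O) →* MulAut T).ker = C := conjNormal_ker T
  obtain ⟨e⟩ : Nonempty (T ≃* QuaternionGroup 2) := by
    by_contra hne
    apply hQ
    have hA : IsPGroup 2 (MulAut T) := by
      refine aut_p hTp ?_
      rcases cq_quot hCQ O h2 T hTp with h | ⟨n, hn, ⟨f⟩⟩
      · left; exact h
      · right
        refine ⟨n, ?_, ⟨f⟩⟩
        by_contra hlt
        have hn1 : n = 1 := by omega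
        subst hn1
        exact hne ⟨f⟩
    intro q
    obtain ⟨k, hk⟩ := hA (MulAut.conjNormal q)
    have h3 : q ^ (2 ^ k) ∈ C := by
      rw [← hker, MonoidHom.mem_ker, map_pow]; exact hk
    obtain ⟨l, hl⟩ := hCp ⟨_, h3⟩
    refine ⟨k + l, ?_⟩
    rw [pow_add, pow_mul]
    exact congrArg (fun y : C => (y : G ⧸ O)) hl
  -- the centralizer
  have hCsq : ∀ x ∈ C, x * x = 1 := by
    intro x hx
    have hxT : x ∈ T := hCT hx
    have h3 : e ⟨x, hxT⟩ * e ⟨x, hxT⟩ = 1 := by
      apply q8_center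
      intro q
      obtain ⟨y, rfl⟩ := e.surjective q
      rw [← map_mul, ← map_mul]
      congr 1
      exact Subtype.ext (mem_centralizer_iff.1 hx y y.2).symm
    rw [← map_mul] at h3
    have h4 := e.injective (h3.trans (map_one _).symm)
    exact congrArg (fun y : T => (y : G ⧸ O)) h4
  have hCcyc : IsCyclic C := by
    rcases cq_quot hCQ O h2 C hCp with h | ⟨n, hn, ⟨f⟩⟩
    · exact h
    · exfalso
      haveI : NeZero (2 ^ n) := ⟨by positivity⟩
      have h3 : (QuaternionGroup.xa 0 : QuaternionGroup (2 ^ n)) * QuaternionGroup.xa 0 = 1 := by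
        obtain ⟨y, hy⟩ := f.surjective (QuaternionGroup.xa 0)
        rw [← hy, ← map_mul]
        have : y * y = 1 := Subtype.ext (hCsq y y.2)
        rw [this, map_one]
      have h4 := QuaternionGroup.orderOf_xa (n := 2 ^ n) 0
      have h5 : orderOf (QuaternionGroup.xa 0 : QuaternionGroup (2 ^ n)) ∣ 2 := orderOf_dvd_of_pow_eq_one (by rw [pow_two]; exact h3)
      rw [h4] at h5
      omega
  have hCc : Nat.card C ∣ 2 := by
    obtain ⟨g, hg⟩ := hCcyc.exists_generator
    rw [← orderOf_eq_card_of_forall_mem_zpowers hg]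
    exact orderOf_dvd_of_pow_eq_one (by rw [pow_two]; exact Subtype.ext (hCsq g g.2))
  obtain ⟨φ⟩ := Cfsg.Agent.S3742.result
  let ψ : MulAut T ≃* Equiv.Perm (Fin 4) := (MulAut.congr e).trans φ
  let F0 : (G ⧸ O) →* Equiv.Perm (Fin 4) := ψ.toMonoidHom.comp MulAut.conjNormal
  have hF0 : F0.ker = C := by
    rw [← hker]
    ext q
    rw [MonoidHom.mem_ker, MonoidHom.mem_ker]
    exact ⟨fun h => ψ.injective (h.trans (map_one _).symm), fun h => by
      change ψ (MulAut.conjNormal q) = 1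
      rw [h, map_one]⟩
  let F : G →* Equiv.Perm (Fin 4) := F0.comp (QuotientGroup.mk' O)
  have hrange : F.range = F0.range := by
    ext y
    constructor
    · rintro ⟨x, rfl⟩; exact ⟨_, rfl⟩
    · rintro ⟨q, rfl⟩
      obtain ⟨x, rfl⟩ := QuotientGroup.mk'_surjective O q
      exact ⟨x, rfl⟩
  have hFk : F.ker = C.comap (QuotientGroup.mk' O) := by
    rw [← hF0]; rfl
  have hOF : O ≤ F.ker := by
    intro x hx
    have h3 : (QuotientGroup.mk' O) x = 1 := (QuotientGroup.eq_one_iff _).2 hx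
    rw [hFk, mem_comap, h3]
    exact one_mem _
  have hmapC : F.ker.map (QuotientGroup.mk' O) = C := by
    rw [hFk]
    exact Subgroup.map_comap_eq_self_of_surjective (QuotientGroup.mk'_surjective O) C
  have hZ : IsZGroup F.ker := by
    obtain ⟨i, -, hi⟩ := (Nat.dvd_prime_pow Nat.prime_two).1 (show Nat.card C ∣ 2 ^ 1 by rw [pow_one]; exact hCc)
    refine zgroup_ext O F.ker hOF hOZ h2 (k := i) ?_ ?_
    · rw [CfsgLib.FrobQuot.relIndex_eq_card_map, hmapC]; exact hi
    · rw [hmapC]; exact hCcyc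
  refine ⟨F.ker, inferInstance, hZ, Or.inr ?_⟩
  -- orders
  have hRC : Nat.card F0.range * Nat.card C = Nat.card (G ⧸ O) := by
    have h3 := C.card_mul_index
    have h4 : C.index = Nat.card F0.range := by rw [← hF0, index_ker]
    rw [← h3, h4, mul_comm]
  have hT8 : Nat.card T = 8 := by
    rw [Nat.card_congr e.toEquiv, Nat.card_eq_fintype_card]; decide
  have hTR : Nat.card (T.map F0) * Nat.card C = 8 := by
    have h3 : Nat.card (T.map F0) = C.relIndex T := by
      have h4 : (F0.comp T.subtype).ker = C.subgroupOf T := by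
        ext x
        rw [MonoidHom.mem_ker, mem_subgroupOf, ← hF0]; rfl
      have h5 : (F0.comp T.subtype).range = T.map F0 := by
        rw [MonoidHom.range_comp, range_subtype]
      rw [← h5, ← index_ker, h4]; rfl
    rw [h3, mul_comm, CfsgLib.H3Syl.card_mul_relIndex hCT, hT8]
  have h4R : 4 ∣ Nat.card F0.range := by
    have h3 : Nat.card (T.map F0) ∣ Nat.card F0.range := Subgroup.card_dvd_of_le (by
      rintro _ ⟨x, -, rfl⟩; exact ⟨x, rfl⟩)
    refine Dvd.dvd.trans ?_ h3
    rcases (Nat.dvd_prime Nat.prime_two).1 hCc with h | h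
    · rw [h, mul_one] at hTR; rw [hTR]; norm_num
    · rw [h] at hTR
      have : Nat.card (T.map F0) = 4 := by omega
      rw [this]
  have hR24 : Nat.card F0.range ∣ 24 := by
    rw [← card_s4]; exact Subgroup.card_subgroup_dvd_card _
  have hnot : ¬ ∃ k, Nat.card F0.range = 2 ^ k := by
    rintro ⟨k, hk⟩
    apply hQ
    obtain ⟨i, -, hi⟩ := (Nat.dvd_prime_pow Nat.prime_two).1 (show Nat.card C ∣ 2 ^ 1 by rw [pow_one]; exact hCc)
    refine IsPGroup.of_card (n := k + i) ?_
    rw [← hRC, hk, hi, pow_add]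
  obtain ⟨d, hd⟩ := h4R
  have hd6 : d ∣ 6 := by
    rw [hd] at hR24
    exact Nat.dvd_of_mul_dvd_mul_left (by norm_num : 0 < 4) hR24
  have hd' : d = 3 ∨ d = 6 := by
    have hle : d ≤ 6 := Nat.le_of_dvd (by norm_num) hd6
    interval_cases d
    · omega
    · exact absurd ⟨2, hd⟩ hnot
    · exact absurd ⟨3, hd⟩ hnot
    · left; rfl
    · omega
    · omega
    · right; rfl
  rcases hd' with rfl | rfl
  · left
    rw [← hrange] at hd
    obtain ⟨g, hg, hgk⟩ := to_alt F (index_two_or (by rw [hd, card_s4]) (by rw [hd]; norm_num))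
    exact ⟨g, hg, hgk⟩
  · right
    rw [← hrange] at hd
    refine ⟨F, ?_, rfl⟩
    rw [← MonoidHom.range_eq_top]
    exact Subgroup.eq_top_of_card_eq _ (by rw [hd, card_s4])

end CfsgLib.H3FC
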