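import Mathlib
import Cfsg.Prelude.Def_Solvable
import Cfsg.Agent.Lib.H3Zas1
import Cfsg.Agent.Lib.H3Fld1
import Cfsg.Agent.Lib.H3Fld2

/-!
# Irreducible representation over the algebraic closure of the rationals
-/

set_option autoImplicit false
set_option maxHeartbeats 1000000

namespace CfsgLib.H3Fld

open CfsgLib.H3Zas Module
open scoped TensorProduct

universe u v w

theorem baseChange_free {G : Type w} [Group G] [Finite G] (K : Type u) [Field K] [CharZero K] {M : Type v} [AddCommGroup M] [Module.Finite ℤ M]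
    (ρ : G →* Module.End ℤ M) (hn : NormM ρ) (m : M) (hm : ∀ d : ℤ, d • m = 0 → d = 0) [Module.Flat ℤ K] :
    Nontrivial (K ⊗[ℤ] M) ∧ ∃ σ : G →* Module.End K (K ⊗[ℤ] M), Free σ := by
  constructor
  · let f : ℤ →ₗ[ℤ] M := LinearMap.toSpanSingleton ℤ M m
    have hf : Function.Injective f := by
      rw [injective_iff_map_eq_zero]
      intro d hd
      exact hm d hd
    have h1 := Module.Flat.lTensor_preserves_injective_linearMap (M := K) f hf
    have h2 : Function.Injective (TensorProduct.rid ℤ K).symm := (TensorProduct.rid ℤ K).symm.injective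
    exact (h1.comp h2).nontrivial
  · refine ⟨((Module.End.baseChangeHom ℤ K M : Module.End ℤ M →ₐ[ℤ] Module.End K (K ⊗[ℤ] M)) : Module.End ℤ M →* Module.End K (K ⊗[ℤ] M)).comp ρ, ?_⟩
    intro g hg v hv
    refine fpf_of_norm _ ?_ ?_ g hg v hv
    · intro g r hr hgr
      have h1 := congrArg (Module.End.baseChangeHom ℤ K M) (hn g r hr hgr)
      rw [map_sum, map_zero] at h1
      rw [← h1]
      refine Finset.sum_congr rfl fun i _ => ?_
      rw [map_pow]; rfl
    · intro r hr _ v hv
      have h1 : (r : K) ≠ 0 := Nat.cast_ne_zero.2 hr.ne_zero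
      have h2 : (r : K) • v = 0 := by rw [Nat.cast_smul_eq_nsmul]; exact hv
      exact (smul_eq_zero.1 h2).resolve_left h1

theorem irr_of_free {G : Type w} [Group G] {K : Type u} [Field K] {V : Type v} [AddCommGroup V] [Module K V] [FiniteDimensional K V] [Nontrivial V]
    (σ : G →* Module.End K V) (hσ : Free σ) :
    ∃ (n : ℕ) (ρ : G →* GL (Fin n) K), 0 < n ∧ Function.Injective ρ ∧
      (∀ W : Submodule K (Fin n → K),
        (∀ g : G, ∀ w ∈ W, ((ρ g : GL (Fin n) K) : Matrix (Fin n) (Fin n) K).mulVec w ∈ W) → W = ⊥ ∨ W = ⊤) ∧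
      ∀ g : G, g ≠ 1 → ∀ v : Fin n → K,
        ((ρ g : GL (Fin n) K) : Matrix (Fin n) (Fin n) K).mulVec v = v → v = 0 := by
  classical
  let S : Set (Submodule K V) := {W | W ≠ ⊥ ∧ ∀ g, ∀ w ∈ W, σ g w ∈ W}
  have hS : S.Nonempty := ⟨⊤, top_ne_bot, fun _ _ _ => trivial⟩
  obtain ⟨W, ⟨hW0, hWi⟩, hWmin⟩ := WellFounded.has_min (wellFounded_lt (α := Submodule K V)) S hS
  let τ : G →* Module.End K W :=
    { toFun := fun g => (σ g).restrict (hWi g)
      map_one' := by
        refine LinearMap.ext fun x => Subtype.ext ?_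
        change σ 1 x = x
        rw [map_one]; rfl
      map_mul' := fun g h => by
        refine LinearMap.ext fun x => Subtype.ext ?_
        change σ (g * h) x = σ g (σ h x)
        rw [map_mul]; rfl }
  have hτ : ∀ g (x : W), ((τ g x : W) : V) = σ g x := fun _ _ => rfl
  have hτf : Free τ := fun g hg x hx => Subtype.ext (hσ g hg x (congrArg Subtype.val hx))
  haveI : Nontrivial W := (Submodule.nontrivial_iff_ne_bot).2 hW0
  obtain ⟨n, hn⟩ : ∃ n, n = finrank K W := ⟨_, rfl⟩
  let b : Basis (Fin n) K W := (Module.finBasis K W).reindex (finCongr hn.symm)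
  let e : Module.End K W ≃ₐ[K] Matrix (Fin n) (Fin n) K := LinearMap.toMatrixAlgEquiv b
  let σ0 : G →* Matrix (Fin n) (Fin n) K := (e : Module.End K W →* Matrix (Fin n) (Fin n) K).comp τ
  have hmv : ∀ g (x : W), ((σ0.toHomUnits g : (Matrix (Fin n) (Fin n) K)ˣ) : Matrix (Fin n) (Fin n) K).mulVec (b.equivFun x) = b.equivFun (τ g x) := by
    intro g x
    exact LinearMap.toMatrix_mulVec_repr b b (τ g) x
  refine ⟨n, σ0.toHomUnits, ?_, ?_, ?_, ?_⟩
  · rw [hn]; exact finrank_pos
  · intro g h hgh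
    apply hτf.injective
    have h1 := congrArg (fun u : (Matrix (Fin n) (Fin n) K)ˣ => (u : Matrix (Fin n) (Fin n) K)) hgh
    exact e.injective h1
  · intro W' hW'
    let X : Submodule K W := W'.comap (b.equivFun : W →ₗ[K] (Fin n → K))
    have hXi : ∀ g, ∀ x ∈ X, τ g x ∈ X := by
      intro g x hx
      have h1 := hW' g _ hx
      have h2 : b.equivFun (τ g x) ∈ W' := by
        rw [← hmv g x]; exact h1
      exact h2
    have hmap : ∀ y, y ∈ W' ↔ b.equivFun.symm y ∈ X := by
      intro y
      change _ ↔ b.equivFun (b.equivFun.symm y) ∈ W'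
      rw [LinearEquiv.apply_symm_apply]
    by_cases hX : X = ⊥
    · left
      rw [Submodule.eq_bot_iff]
      intro y hy
      have h1 := (hmap y).1 hy
      rw [hX, Submodule.mem_bot] at h1
      rw [← b.equivFun.apply_symm_apply y, h1, map_zero]
    · right
      have hXS : X.map W.subtype ∈ S := by
        constructor
        · intro h0
          apply hX
          rw [Submodule.eq_bot_iff]
          intro x hx
          have h5 : (x : V) ∈ X.map W.subtype := ⟨x, hx, rfl⟩
          rw [h0, Submodule.mem_bot] at h5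
          exact Subtype.ext h5
        · rintro g _ ⟨x, hx, rfl⟩
          exact ⟨τ g x, hXi g x hx, rfl⟩
      have h1 := hWmin _ hXS
      have h2 : X.map W.subtype ≤ W := Submodule.map_subtype_le W X
      have h3 : X.map W.subtype = W := by
        by_contra hne
        exact h1 (lt_of_le_of_ne h2 hne)
      have h4 : X = ⊤ := by
        rw [Submodule.eq_top_iff']
        intro x
        have h5 : (x : V) ∈ X.map W.subtype := h3.symm ▸ x.2
        obtain ⟨x', hx', hxx'⟩ := h5
        have : x' = x := Subtype.ext hxx'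
        exact this ▸ hx'
      rw [Submodule.eq_top_iff']
      intro y
      rw [hmap, h4]; trivial
  · intro g hg v hv
    have h1 := hmv g (b.equivFun.symm v)
    rw [LinearEquiv.apply_symm_apply, hv] at h1
    have h2 := hτf g hg (b.equivFun.symm v) (by
      rw [← b.equivFun.symm_apply_apply (τ g (b.equivFun.symm v)), ← h1])
    rw [← b.equivFun.apply_symm_apply v, h2, map_zero]

theorem s3357 {G : Type w} [Group G] [Finite G]
    (hFC : ∃ (L : Type) (_ : Group L) (_ : Finite L) (H : Subgroup L), Cfsg.IsFrobeniusComplement H ∧ Nonempty (G ≃* H)) :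
    ∃ (n : ℕ) (ρ : G →* GL (Fin n) (AlgebraicClosure ℚ)), 0 < n ∧ Function.Injective ρ ∧
      (∀ W : Submodule (AlgebraicClosure ℚ) (Fin n → AlgebraicClosure ℚ),
        (∀ g : G, ∀ w ∈ W, ((ρ g : GL (Fin n) (AlgebraicClosure ℚ)) : Matrix (Fin n) (Fin n) (AlgebraicClosure ℚ)).mulVec w ∈ W) → W = ⊥ ∨ W = ⊤) ∧
      ∀ g : G, g ≠ 1 → ∀ v : Fin n → AlgebraicClosure ℚ,
        ((ρ g : GL (Fin n) (AlgebraicClosure ℚ)) : Matrix (Fin n) (Fin n) (AlgebraicClosure ℚ)).mulVec v = v → v = 0 := by
  obtain ⟨M, _, _, ρ, hn, m, hm⟩ := hasZ_of_FC hFC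
  obtain ⟨hnt, σ, hσ⟩ := baseChange_free (AlgebraicClosure ℚ) ρ hn m hm
  haveI := hnt
  exact irr_of_free σ hσ

end CfsgLib.H3Fld
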