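import Mathlib
import Cfsg.Prelude.Def_Solvable
import Cfsg.Agent.Lib.FrobC
import Cfsg.Agent.Lib.FrobThm
import Cfsg.Agent.Lib.FrobAct

/-!
# Quotients of Frobenius groups
-/

set_option autoImplicit false
set_option maxHeartbeats 1000000

namespace CfsgLib.H3Frq

open Subgroup Cfsg
open scoped commutatorElement Pointwise

universe u

variable {G : Type u} [Group G] [Finite G]

/-- kernel of a Frobenius group given by a normal complement -/
theorem kernel_eq (K R : Subgroup G) [K.Normal] (hc : IsComplement' K R) (hR : IsFrobeniusComplement R) :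
    frobeniusKernel R = (K : Set G) := by
  obtain ⟨K', hK', hK'n, hc'⟩ := CfsgLib.FrobThm.frobenius_theorem R hR
  have hsub : (K : Set G) ⊆ frobeniusKernel R := by
    intro x hx
    by_cases h1 : x = 1
    · exact Or.inl h1
    right
    intro g hg
    rw [CfsgLib.FrobThm.mem_conj_iff] at hg
    have h2 : g⁻¹ * x * g ∈ K := by
      have := ‹K.Normal›.conj_mem x hx g⁻¹
      rwa [inv_inv] at this
    have h3 : g⁻¹ * x * g ∈ K ⊓ R := mem_inf.2 ⟨h2, hg⟩
    rw [hc.disjoint.eq_bot, mem_bot] at h3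
    apply h1
    have : x = g * (g⁻¹ * x * g) * g⁻¹ := by group
    rw [this, h3]; group
  rw [← hK'] at hsub ⊢
  have hle : K ≤ K' := hsub
  have hcard : Nat.card K = Nat.card K' := by
    have h1 := hc.card_mul
    have h2 := hc'.card_mul
    exact Nat.eq_of_mul_eq_mul_right Nat.card_pos (h1.trans h2.symm)
  rw [eq_of_le_of_card_ge hle hcard.ge]

/-- for a fixed point free element, `k ↦ r⁻¹ k r k⁻¹` is onto any normalised subgroup -/
theorem comm_surj (N : Subgroup G) (r : G) (hr : ∀ n ∈ N, r⁻¹ * n * r ∈ N) (hf : ∀ n ∈ N, n * r = r * n → n = 1) (y : G) (hy : y ∈ N) :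
    ∃ n ∈ N, r⁻¹ * n * r * n⁻¹ = y := by
  let f : N → N := fun n => ⟨r⁻¹ * n * r * (n : G)⁻¹, N.mul_mem (hr n n.2) (N.inv_mem n.2)⟩
  have hinj : Function.Injective f := by
    intro a b hab
    have h1 : r⁻¹ * (a : G) * r * (a : G)⁻¹ = r⁻¹ * (b : G) * r * (b : G)⁻¹ := congrArg Subtype.val hab
    have h2 : ((b : G)⁻¹ * a) * r = r * ((b : G)⁻¹ * a) := by
      have h3 : (a : G) * r * (a : G)⁻¹ = (b : G) * r * (b : G)⁻¹ := by
        have := congrArg (fun x => r * x) h1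
        simpa [mul_assoc] using this
      calc ((b : G)⁻¹ * a) * r = (b : G)⁻¹ * ((a : G) * r * (a : G)⁻¹) * a := by group
        _ = (b : G)⁻¹ * ((b : G) * r * (b : G)⁻¹) * a := by rw [h3]
        _ = _ := by group
    have h3 := hf _ (N.mul_mem (N.inv_mem b.2) a.2) h2
    exact Subtype.ext (inv_mul_eq_one.1 h3).symm
  obtain ⟨n, hn⟩ := (Finite.injective_iff_surjective.1 hinj) ⟨y, hy⟩
  exact ⟨n, n.2, congrArg Subtype.val hn⟩

theorem data (R : Subgroup G) (hR : IsFrobeniusComplement R) : ∃ K : Subgroup G, (K : Set G) = frobeniusKernel R ∧ K.Normal ∧ IsComplement' K R ∧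
    K ≠ ⊥ ∧ ∀ r ∈ R, r ≠ 1 → ∀ k ∈ K, k * r = r * k → k = 1 := by
  obtain ⟨K, hK, hKn, hc⟩ := CfsgLib.FrobThm.frobenius_theorem R hR
  have hK1 : K ≠ ⊥ := by
    rintro rfl
    apply hR.2.1
    rw [isComplement'_bot_left] at hc
    exact hc
  refine ⟨K, hK, hKn, hc, hK1, ?_⟩
  intro r hr hr1 k hk hkr
  have h1 := (CfsgLib.FrobAct.frobenius_iff K R hc hK1 hR.1).1 hR r hr hr1
  have h2 : k ∈ K ⊓ centralizer {r} := mem_inf.2 ⟨hk, mem_centralizer_singleton_iff.2 hkr⟩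
  rwa [h1, mem_bot] at h2

theorem of_free (K R : Subgroup G) [K.Normal] (hc : IsComplement' K R) (hK : K ≠ ⊥) (hR : R ≠ ⊥) (h : ∀ r ∈ R, r ≠ 1 → ∀ k ∈ K, k * r = r * k → k = 1) :
    IsFrobeniusComplement R ∧ frobeniusKernel R = (K : Set G) := by
  have h1 : IsFrobeniusComplement R := by
    rw [CfsgLib.FrobAct.frobenius_iff K R hc hK hR]
    intro r hr hr1
    rw [eq_bot_iff]
    intro k hk
    obtain ⟨hk1, hk2⟩ := mem_inf.1 hk
    exact (mem_bot).2 (h r hr hr1 k hk1 (mem_centralizer_singleton_iff.1 hk2))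
  exact ⟨h1, kernel_eq K R hc h1⟩

/-- normal subgroups not containing the kernel lie inside it -/
theorem le_kernel (R K : Subgroup G) (hKe : (K : Set G) = frobeniusKernel R) (hKn : K.Normal)
    (hf : ∀ r ∈ R, r ≠ 1 → ∀ k ∈ K, k * r = r * k → k = 1) (N : Subgroup G) [N.Normal] (hKN : ¬ K ≤ N) : N ≤ K := by
  intro n hn
  by_contra hnK
  have h1 : n ∉ frobeniusKernel R := fun h => hnK (by rw [← hKe] at h; exact h)
  simp only [frobeniusKernel, Set.mem_setOf_eq, not_or, not_forall, not_not] at h1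
  obtain ⟨hn1, g, hg⟩ := h1
  rw [CfsgLib.FrobThm.mem_conj_iff] at hg
  have hrN : g⁻¹ * n * g ∈ N := by
    have := ‹N.Normal›.conj_mem n hn g⁻¹
    rwa [inv_inv] at this
  obtain ⟨r, hr⟩ : ∃ r, r = g⁻¹ * n * g := ⟨_, rfl⟩
  rw [← hr] at hg hrN
  have hr1 : r ≠ 1 := by
    intro h0
    apply hn1
    have : n = g * (g⁻¹ * n * g) * g⁻¹ := by group
    rw [this, ← hr, h0]; group
  apply hKN
  intro k hk
  obtain ⟨k', hk', he⟩ := comm_surj K r (fun n hn => by
    have := hKn.conj_mem n hn r⁻¹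
    rwa [inv_inv] at this) (hf r hg hr1) k hk
  rw [← he, show r⁻¹ * k' * r * k'⁻¹ = r⁻¹ * (k' * r * k'⁻¹) by group]
  exact N.mul_mem (N.inv_mem hrN) (‹N.Normal›.conj_mem r hrN k')

theorem s3768 (R : Subgroup G) (hR : IsFrobeniusComplement R) (N : Subgroup G) [N.Normal] (hKN : ¬ frobeniusKernel R ⊆ N) :
    IsFrobeniusComplement (R.map (QuotientGroup.mk' N)) ∧
      frobeniusKernel (R.map (QuotientGroup.mk' N)) = QuotientGroup.mk' N '' frobeniusKernel R := by
  obtain ⟨K, hKe, hKn, hc, hK1, hf⟩ := data R hR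
  rw [← hKe] at hKN ⊢
  have hKN' : ¬ K ≤ N := hKN
  have hNK := le_kernel R K hKe hKn hf N hKN'
  haveI : (K.map (QuotientGroup.mk' N)).Normal := hKn.map _ (QuotientGroup.mk'_surjective N)
  have hc2 : IsComplement' (K.map (QuotientGroup.mk' N)) (R.map (QuotientGroup.mk' N)) := by
    apply isComplement'_of_disjoint_and_mul_eq_univ
    · rw [disjoint_def]
      rintro _ ⟨k, hk, rfl⟩ ⟨r, hr, he⟩
      have h1 : r⁻¹ * k ∈ N := QuotientGroup.eq.1 he
      have h2 : r ∈ K := by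
        have h3 : r = k * (r⁻¹ * k)⁻¹ := by group
        rw [h3]
        exact K.mul_mem hk (K.inv_mem (hNK h1))
      have h3 : r ∈ K ⊓ R := mem_inf.2 ⟨h2, hr⟩
      rw [hc.disjoint.eq_bot, mem_bot] at h3
      rw [← he, h3, map_one]
    · rw [Set.eq_univ_iff_forall]
      intro x
      obtain ⟨g, rfl⟩ := QuotientGroup.mk'_surjective N x
      obtain ⟨⟨k, r⟩, hkr⟩ := hc.2 g
      exact ⟨QuotientGroup.mk' N k, ⟨k, k.2, rfl⟩, QuotientGroup.mk' N r, ⟨r, r.2, rfl⟩, by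
        rw [← hkr]; exact (map_mul _ _ _).symm⟩
  have h1 : K.map (QuotientGroup.mk' N) ≠ ⊥ := by
    intro h0
    apply hKN'
    intro k hk
    have h2 : QuotientGroup.mk' N k ∈ K.map (QuotientGroup.mk' N) := ⟨k, hk, rfl⟩
    rw [h0, mem_bot] at h2
    exact (QuotientGroup.eq_one_iff k).1 h2
  have h2 : R.map (QuotientGroup.mk' N) ≠ ⊥ := by
    intro h0
    apply hR.1
    rw [eq_bot_iff]
    intro r hr
    have h2 : QuotientGroup.mk' N r ∈ R.map (QuotientGroup.mk' N) := ⟨r, hr, rfl⟩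
    rw [h0, mem_bot] at h2
    have h3 : r ∈ K ⊓ R := mem_inf.2 ⟨hNK ((QuotientGroup.eq_one_iff r).1 h2), hr⟩
    rw [hc.disjoint.eq_bot, mem_bot] at h3
    exact (mem_bot).2 h3
  have h3 := of_free _ _ hc2 h1 h2 (by
    rintro _ ⟨r, hr, rfl⟩ hr1 _ ⟨k, hk, rfl⟩ hkr
    have hr1' : r ≠ 1 := fun h0 => hr1 (by rw [h0, map_one])
    have h4 : r⁻¹ * k * r * k⁻¹ ∈ N := by
      rw [← QuotientGroup.eq_one_iff]
      change QuotientGroup.mk' N (r⁻¹ * k * r * k⁻¹) = 1
      rw [map_mul, map_mul, map_mul, map_inv, map_inv, mul_assoc ((QuotientGroup.mk' N) r)⁻¹, hkr]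
      group
    obtain ⟨n, hn, he⟩ := comm_surj N r (fun n hn => by
      have := ‹N.Normal›.conj_mem n hn r⁻¹
      rwa [inv_inv] at this) (fun n hn h => hf r hr hr1' n (hNK hn) h) _ h4
    have h5 : n * r * n⁻¹ = k * r * k⁻¹ := by
      have := congrArg (fun x => r * x) he
      simpa [mul_assoc] using this
    have h6 : n⁻¹ * k = 1 := by
      apply hf r hr hr1' _ (K.mul_mem (K.inv_mem (hNK hn)) hk)
      calc n⁻¹ * k * r = n⁻¹ * (k * r * k⁻¹) * k := by group
        _ = n⁻¹ * (n * r * n⁻¹) * k := by rw [h5]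
        _ = _ := by group
    have h7 : k = n := (inv_mul_eq_one.1 h6).symm
    rw [h7]
    exact (QuotientGroup.eq_one_iff n).2 hn)
  refine ⟨h3.1, ?_⟩
  rw [h3.2]; rfl

end CfsgLib.H3Frq
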