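import Mathlib
import Cfsg.Agent.Lib.H3Reg1

/-!
# Minimal nonabelian normal subgroups centralising a maximal normal abelian subgroup
-/

set_option autoImplicit false
set_option linter.style.haveILetI false

namespace CfsgLib.H3Reg

open Subgroup CfsgLib.H3Zas CfsgLib.H3Ti Module
open scoped commutatorElement

universe u v w

theorem hasFree_sub {H : Type u} [Group H] [Finite H] (h : HasFree.{v, u} H) (N : Subgroup H) : HasFree.{v, u} N := by
  obtain ⟨K, _, _, V, _, _, _, _, ρ, hρ, hn⟩ := h
  refine ⟨K, inferInstance, inferInstance, V, inferInstance, inferInstance, inferInstance, inferInstance, ρ.comp N.subtype,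
    hρ.comp N.subtype N.subtype_injective, ?_⟩
  intro h0
  apply hn
  obtain ⟨c, hc⟩ := Subgroup.card_subgroup_dvd_card N
  rw [hc, Nat.cast_mul, h0, zero_mul]

section

variable {H : Type u} [Group H] [Finite H] (A : Subgroup H)

theorem le_of_comm (hAn : A.Normal) (hAc : IsMulCommutative A)
    (hAmax : ∀ B : Subgroup H, B.Normal → IsMulCommutative B → A ≤ B → B = A) (B : Subgroup H) (hBn : B.Normal) (hBc : IsMulCommutative B)
    (hBA : B ≤ centralizer (A : Set H)) : B ≤ A := by
  haveI := hAn
  haveI := hBn
  have hAB : A ≤ centralizer (B : Set H) := Subgroup.le_centralizer_iff.1 hBA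
  have hAA : A ≤ centralizer (A : Set H) := le_centralizer_iff_isMulCommutative.2 hAc
  have hBB : B ≤ centralizer (B : Set H) := le_centralizer_iff_isMulCommutative.2 hBc
  have h1 : A ⊔ B ≤ centralizer ((A ⊔ B : Subgroup H) : Set H) :=
    sup_le (Subgroup.le_centralizer_iff.1 (sup_le hAA hBA)) (Subgroup.le_centralizer_iff.1 (sup_le hAB hBB))
  have h2 : IsMulCommutative (A ⊔ B : Subgroup H) := le_centralizer_iff_isMulCommutative.1 h1
  rw [← hAmax (A ⊔ B) inferInstance h2 le_sup_left]
  exact le_sup_right

theorem quat_class {n : ℕ} (h : ∀ x y : QuaternionGroup (2 ^ n), ∃ c : QuaternionGroup (2 ^ n), c * (y * x) = x * y ∧ ∀ z, c * z = z * c) : n ≤ 1 := by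
  obtain ⟨c, hc, hcz⟩ := h (QuaternionGroup.a 1) (QuaternionGroup.xa 0)
  rw [QuaternionGroup.a_mul_xa, QuaternionGroup.xa_mul_a] at hc
  rcases c with k | k
  · rw [QuaternionGroup.a_mul_xa] at hc
    have h1 := hcz (QuaternionGroup.xa 0)
    rw [QuaternionGroup.a_mul_xa, QuaternionGroup.xa_mul_a] at h1
    have h2 : (0 : ZMod (2 * 2 ^ n)) + 1 - k = 0 - 1 := by injection hc
    have h3 : (0 : ZMod (2 * 2 ^ n)) - k = 0 + k := by injection h1
    have h4 : ((4 : ℕ) : ZMod (2 * 2 ^ n)) = 0 := by
      push_cast
      linear_combination 2 * h2 - h3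
    rw [ZMod.natCast_eq_zero_iff] at h4
    have h5 := Nat.le_of_dvd (by norm_num) h4
    by_contra hlt
    push Not at hlt
    have h6 : 2 ^ 2 ≤ 2 ^ n := Nat.pow_le_pow_right (by norm_num) hlt
    omega
  · rw [QuaternionGroup.xa_mul_xa] at hc
    cases hc

theorem s0686 (hF : HasFree.{v, u} H) (hAn : A.Normal) (hAc : IsMulCommutative A)
    (hAmax : ∀ B : Subgroup H, B.Normal → IsMulCommutative B → A ≤ B → B = A) (N : Subgroup H) (hNn : N.Normal)
    (hNle : N ≤ Subgroup.centralizer (A : Set H)) (hNna : ¬ IsMulCommutative N)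
    (hNmin : ∀ M : Subgroup H, M.Normal → M ≤ N → ¬ IsMulCommutative M → M = N) :
    Nonempty (N ≃* QuaternionGroup 2) ∨ Nonempty (N ≃* S25) := by
  haveI := hNn
  haveI := hAn
  have hCQ := CQ_of_hasFree hF
  by_cases hs : Group.IsSolvable N
  · left
    -- the commutator subgroup
    have hcomm : ∀ K : Subgroup H, K.Normal → K ≤ N → K ≠ N → K ≤ A := by
      intro K hK hKN hne
      have hKc : IsMulCommutative K := by
        by_contra h0
        exact hne (hNmin K hK hKN h0)
      exact le_of_comm A hAn hAc hAmax K hK hKc (hKN.trans hNle)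
    have hNt : Nontrivial N := by
      by_contra h0
      rw [not_nontrivial_iff_subsingleton] at h0
      exact hNna ⟨⟨fun a b => Subsingleton.elim _ _⟩⟩
    have hcl : (commutator N).map N.subtype ≤ A := by
      apply hcomm
      · infer_instance
      · exact Subgroup.map_subtype_le _
      · intro h0
        haveI := hs
        have h1 : commutator N < ⊤ := Group.IsSolvable.commutator_lt_top_of_nontrivial N
        apply h1.ne
        have h2 : (commutator N).map N.subtype = (⊤ : Subgroup N).map N.subtype := by
          rw [h0, ← MonoidHom.range_eq_map, range_subtype]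
        exact Subgroup.map_injective N.subtype_injective h2
    have hzc : commutator N ≤ center N := by
      intro x hx
      rw [mem_center_iff]
      intro y
      have h1 : (x : H) ∈ A := hcl ⟨x, hx, rfl⟩
      exact Subtype.ext (mem_centralizer_iff.1 (hNle y.2) x h1).symm
    haveI hnil : Group.IsNilpotent N := by
      exact Subgroup.isNilpotent_of_ker_le_center (Abelianization.of (G := N)) (by rw [Abelianization.ker_of]; exact hzc)
    have hczne : (center N) ≠ ⊤ := by
      intro h0
      apply hNna
      refine ⟨⟨fun a b => ?_⟩⟩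
      have h1 : b ∈ center N := by rw [h0]; exact mem_top _
      exact mem_center_iff.1 h1 a
    have hidx : (center N).index ≠ 1 := fun h0 => hczne (Subgroup.index_eq_one.1 h0)
    obtain ⟨r, hr, hrd⟩ := Nat.exists_prime_and_dvd hidx
    haveI : Fact r.Prime := ⟨hr⟩
    obtain ⟨R⟩ : Nonempty (Sylow r N) := inferInstance
    have hRn : (R : Subgroup N).Normal := Group.isNilpotent_of_finite_tfae.out 0 3 rfl rfl |>.mp hnil r inferInstance R
    haveI hRc : (R : Subgroup N).Characteristic := R.characteristic_of_normal hRn
    have hRN : ((R : Subgroup N).map N.subtype) = N := by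
      by_contra hne
      have h1 := hcomm _ inferInstance (Subgroup.map_subtype_le _) hne
      have h2 : (R : Subgroup N) ≤ center N := by
        intro x hx
        rw [mem_center_iff]
        intro y
        have h1 : (x : H) ∈ A := h1 ⟨x, hx, rfl⟩
        exact Subtype.ext (mem_centralizer_iff.1 (hNle y.2) x h1).symm
      exact R.not_dvd_index (hrd.trans (Subgroup.index_dvd_of_le h2))
    have hNr : IsPGroup r N := by
      rw [← hRN]; exact R.2.map _
    rcases cq_cases hCQ N hNr with h | ⟨rfl, n, hn, ⟨e⟩⟩
    · exfalso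
      apply hNna
      letI := h.commGroup
      exact ⟨⟨fun a b => mul_comm a b⟩⟩
    · have hn1 : n ≤ 1 := by
        apply quat_class
        intro x y
        obtain ⟨a, rfl⟩ := e.surjective x
        obtain ⟨b, rfl⟩ := e.surjective y
        refine ⟨e (a * b * a⁻¹ * b⁻¹), ?_, ?_⟩
        · rw [← map_mul, ← map_mul, ← map_mul]
          congr 1
          group
        · intro z
          obtain ⟨c, rfl⟩ := e.surjective z
          rw [← map_mul, ← map_mul]
          congr 1
          have h1 : a * b * a⁻¹ * b⁻¹ ∈ commutator N := Subgroup.commutator_mem_commutator (mem_top a) (mem_top b)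
          exact (mem_center_iff.1 (hzc h1) c).symm
      have hn' : n = 1 := by omega
      subst hn'
      exact ⟨e⟩
  · right
    obtain ⟨⟨e⟩, -⟩ := structure_thm (hasFree_sub hF N) hs
    have h1 : (N3 N).map N.subtype = N := by
      apply hNmin
      · infer_instance
      · exact Subgroup.map_subtype_le _
      · intro h0
        have h2 : IsMulCommutative (N3 N) := by
          refine ⟨⟨fun a b => ?_⟩⟩
          have ha : ((a : N) : H) ∈ (N3 N).map N.subtype := ⟨a, a.2, rfl⟩
          have hb : ((b : N) : H) ∈ (N3 N).map N.subtype := ⟨b, b.2, rfl⟩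
          have h3 := congrArg (fun z : (N3 N).map N.subtype => (z : H)) (h0.is_comm.comm ⟨_, ha⟩ ⟨_, hb⟩)
          exact Subtype.ext (Subtype.ext h3)
        apply s25_not_solvable
        letI : CommGroup (N3 N) := { (inferInstance : Group (N3 N)) with mul_comm := h2.is_comm.comm }
        exact Group.isSolvable_of_surjective (f := e.toMonoidHom) e.surjective
    have h2 : N3 N = ⊤ := by
      apply Subgroup.map_injective N.subtype_injective
      rw [h1, ← MonoidHom.range_eq_map, range_subtype]
    exact ⟨(Subgroup.topEquiv (G := N)).symm.trans ((MulEquiv.subgroupCongr h2).symm.trans e)⟩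

end

end CfsgLib.H3Reg
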