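import Mathlib
import Cfsg.Agent.Lib.H3Reg2

/-!
# Regular linear groups without irreducible cyclic normal subgroups: dimension two
-/

set_option autoImplicit false
set_option linter.style.haveILetI false

namespace CfsgLib.H3Reg

open Subgroup CfsgLib.H3Zas CfsgLib.H3Ti Module
open scoped commutatorElement

universe u v w

section Decomp

variable {K : Type u} [Field K] {V : Type v} [AddCommGroup V] [Module K V]

theorem decomp (h2 : (2 : K) ≠ 0) {I J : Module.End K V} (hq : QP I J) {α β : K} (hab : α ^ 2 + β ^ 2 = -1) (v : V) :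
    ∃ x y : V, x ∈ LinearMap.ker (α • I + β • J - 1) ∧ y ∈ LinearMap.ker (α • I + β • J - 1) ∧ v = x + (I * J) y := by
  set T := α • I + β • J with hT
  have hTT : T * T = 1 := by
    have e : T * T = (α ^ 2) • (I * I) + (β ^ 2) • (J * J) + (α * β) • (I * J + J * I) := by
      rw [hT]
      simp only [mul_add, add_mul, smul_mul_assoc, mul_smul_comm, smul_smul, smul_add]
      rw [mul_comm β α, pow_two, pow_two]
      abel
    rw [e, hq.ii, hq.jj, hq.ji, add_neg_cancel, smul_zero, add_zero, ← add_smul, hab]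
    module
  have hKT : (I * J) * T = -(T * (I * J)) := by
    rw [hT]
    simp only [mul_add, add_mul, smul_mul_assoc, mul_smul_comm, mul_assoc, hq.ji, hq.jj, hq.ii', hq.ji', mul_neg, neg_neg, mul_one, smul_neg, neg_add]
  have hKK : (I * J) * (I * J) = -1 := by
    simp only [mul_assoc, hq.ji', hq.jj, mul_neg, mul_one, neg_neg, hq.ii]
  have hTm : ∀ v, v ∈ LinearMap.ker (T - 1) ↔ T v = v := by
    intro v
    rw [LinearMap.mem_ker, LinearMap.sub_apply, Module.End.one_apply, sub_eq_zero]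
  have hKKv : ∀ v, (I * J) ((I * J) v) = -v := by
    intro v
    rw [← Module.End.mul_apply, hKK]; rfl
  have hTTv : T (T v) = v := by rw [← Module.End.mul_apply, hTT]; rfl
  have h1 : T ((2 : K)⁻¹ • (v + T v)) = (2 : K)⁻¹ • (v + T v) := by
    rw [_root_.map_smul, map_add, hTTv, add_comm]
  have h3 : T (-((I * J) ((2 : K)⁻¹ • (v - T v)))) = -((I * J) ((2 : K)⁻¹ • (v - T v))) := by
    have h4 := congrArg (fun f : Module.End K V => f ((2 : K)⁻¹ • (v - T v))) hKT
    have h5 : (I * J) (T ((2 : K)⁻¹ • (v - T v))) = -(T ((I * J) ((2 : K)⁻¹ • (v - T v)))) := h4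
    rw [map_neg, ← h5, _root_.map_smul, map_sub, hTTv]
    have : (2 : K)⁻¹ • (T v - v) = -((2 : K)⁻¹ • (v - T v)) := by rw [← smul_neg, neg_sub]
    rw [this, map_neg]
  refine ⟨_, _, (hTm _).2 h1, (hTm _).2 h3, ?_⟩
  rw [map_neg, hKKv, neg_neg, ← smul_add]
  have : v + T v + (v - T v) = (2 : K) • v := by rw [two_smul]; abel
  rw [this, smul_smul, inv_mul_cancel₀ h2, one_smul]

end Decomp

section Reg

variable {p : ℕ} [Fact p.Prime] {V : Type v} [AddCommGroup V] [Module (ZMod p) V] [Finite V] {H : Subgroup (V ≃ₗ[ZMod p] V)}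

theorem half_of (hreg : Rg H) (h2 : (2 : ZMod p) ≠ 0) {i j : H} (hi4 : i ^ 4 = 1) (hi2 : i ^ 2 ≠ 1) (hij2 : i ^ 2 = j ^ 2) (hji : j * i = i⁻¹ * j) :
    ∃ L : Submodule (ZMod p) V, Nat.card V = Nat.card L * Nat.card L ∧
      (∀ d : H, d * i = i * d → d * j = j * d → ∀ v ∈ L, (d : V ≃ₗ[ZMod p] V) v ∈ L) ∧
      (∀ d : H, d * i = i * d → d * j = j * d → ∀ c : ZMod p, (∀ v ∈ L, (d : V ≃ₗ[ZMod p] V) v = c • v) → ∀ v, (d : V ≃ₗ[ZMod p] V) v = c • v) := by
  have hfree := reg_free H hreg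
  have hneg : ∀ a : H, a ^ 4 = 1 → a ^ 2 ≠ 1 → natRep H a * natRep H a = -1 := by
    intro a h4 h22
    rw [← map_mul, ← pow_two]
    exact hfree.neg_one h22 (by rw [← pow_mul]; exact h4)
  have hj4 : j ^ 4 = 1 := by
    have e1 : j ^ 4 = (j ^ 2) ^ 2 := by rw [← pow_mul]
    have e2 : i ^ 4 = (i ^ 2) ^ 2 := by rw [← pow_mul]
    rw [e1, ← hij2, ← e2, hi4]
  have hii := hneg i hi4 hi2
  have hjj := hneg j hj4 (by rw [← hij2]; exact hi2)
  have hinv : natRep H i⁻¹ = - natRep H i := by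
    have h1 : natRep H i⁻¹ * (natRep H i * natRep H i) = natRep H i := by rw [← mul_assoc, Free.map_inv', one_mul]
    rw [hii, mul_neg, mul_one] at h1
    rw [← h1, neg_neg]
  have hq : QP (natRep H i) (natRep H j) := ⟨hii, hjj, by rw [← map_mul, hji, map_mul, hinv, neg_mul]⟩
  obtain ⟨α, β, hab⟩ := ZMod.sq_add_sq p (-1)
  refine ⟨_, hq.half h2 hab, ?_, ?_⟩
  · intro d hdi hdj v hv
    have hdi' : natRep H i * natRep H d = natRep H d * natRep H i := by rw [← map_mul, ← hdi, map_mul]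
    have hdj' : natRep H j * natRep H d = natRep H d * natRep H j := by rw [← map_mul, ← hdj, map_mul]
    have hTm : (α • natRep H i + β • natRep H j) * natRep H d = natRep H d * (α • natRep H i + β • natRep H j) := by
      rw [add_mul, mul_add, smul_mul_assoc, smul_mul_assoc, mul_smul_comm, mul_smul_comm, hdi', hdj']
    rw [LinearMap.mem_ker, LinearMap.sub_apply, Module.End.one_apply, sub_eq_zero] at hv ⊢
    have h3 : (α • natRep H i + β • natRep H j) (natRep H d v) = natRep H d v := by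
      rw [← Module.End.mul_apply, hTm, Module.End.mul_apply, hv]
    exact h3
  · intro d hdi hdj c hc v
    have hdi' : natRep H i * natRep H d = natRep H d * natRep H i := by rw [← map_mul, ← hdi, map_mul]
    have hdj' : natRep H j * natRep H d = natRep H d * natRep H j := by rw [← map_mul, ← hdj, map_mul]
    obtain ⟨x, y, hx, hy, hv⟩ := decomp h2 hq hab v
    have hdk : natRep H d * (natRep H i * natRep H j) = (natRep H i * natRep H j) * natRep H d := by
      rw [← mul_assoc, ← hdi', mul_assoc, ← hdj', mul_assoc]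
    have h3 : natRep H d ((natRep H i * natRep H j) y) = (natRep H i * natRep H j) (natRep H d y) := by
      rw [← Module.End.mul_apply, hdk, Module.End.mul_apply]
    have h4 : natRep H d x = c • x := hc x hx
    have h5 : natRep H d y = c • y := hc y hy
    change natRep H d v = c • v
    rw [hv, map_add, h3, h4, h5, _root_.map_smul, smul_add]

theorem exists_scalar {W : Submodule (ZMod p) V} (hW : Nat.card W = p) {w : V} (hw : w ∈ W) (hw0 : w ≠ 0) {x : V} (hx : x ∈ W) :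
    ∃ c : ZMod p, x = c • w := by
  have hle : Submodule.span (ZMod p) {w} ≤ W := (Submodule.span_singleton_le_iff_mem w W).2 hw
  have h1 : Submodule.span (ZMod p) {w} = W := by
    haveI : Module.Finite (ZMod p) V := Module.Finite.of_finite
    refine Submodule.eq_of_le_of_finrank_eq hle ?_
    rw [finrank_span_singleton hw0]
    have h3 := card_pow W
    rw [hW] at h3
    have hp : p.Prime := Fact.out
    have h4 : p ^ 1 = p ^ finrank (ZMod p) W := by rw [pow_one]; exact h3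
    exact Nat.pow_right_injective hp.two_le h4
  rw [← h1, Submodule.mem_span_singleton] at hx
  obtain ⟨c, hc⟩ := hx
  exact ⟨c, hc.symm⟩

theorem exists_ne_mem {W : Submodule (ZMod p) V} (hW : Nat.card W = p) : ∃ w ∈ W, w ≠ 0 := by
  have hp : p.Prime := Fact.out
  have h1 : W ≠ ⊥ := by
    rintro rfl
    have h3 : Nat.card (⊥ : Submodule (ZMod p) V) = 1 := by
      haveI : Subsingleton (⊥ : Submodule (ZMod p) V) := inferInstance
      exact Nat.card_unique
    rw [h3] at hW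
    exact hp.one_lt.ne hW
  obtain ⟨w, hw, hw0⟩ := Submodule.exists_mem_ne_zero_of_ne_bot h1
  exact ⟨w, hw, hw0⟩

theorem line_comm (hreg : Rg H) {W : Submodule (ZMod p) V} (hW : Nat.card W = p) {a b : H}
    (ha : ∀ v ∈ W, (a : V ≃ₗ[ZMod p] V) v ∈ W) (hb : ∀ v ∈ W, (b : V ≃ₗ[ZMod p] V) v ∈ W) : a * b = b * a := by
  obtain ⟨w, hw, hw0⟩ := exists_ne_mem hW
  obtain ⟨α, hα⟩ := exists_scalar hW hw hw0 (ha w hw)
  obtain ⟨β, hβ⟩ := exists_scalar hW hw hw0 (hb w hw)
  refine (reg_free H hreg).eq_of_apply hw0 ?_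
  change (a : V ≃ₗ[ZMod p] V) ((b : V ≃ₗ[ZMod p] V) w) = (b : V ≃ₗ[ZMod p] V) ((a : V ≃ₗ[ZMod p] V) w)
  rw [hα, hβ, _root_.map_smul, _root_.map_smul, hα, hβ, smul_smul, smul_smul, mul_comm]

theorem arith24 {X D m : ℕ} (hX : 1 < X) (hD : 0 < D) (hDX : D ∣ X - 1) (hm : D * m = X * X - 1) (h24 : m ∣ 24) (h8 : 8 ∣ X * X - 1) :
    X = 3 ∨ X = 5 ∨ X = 7 ∨ X = 11 ∨ X = 23 := by
  obtain ⟨d, hd⟩ := hDX
  have h1 : m = d * (X + 1) := by
    apply Nat.eq_of_mul_eq_mul_left hD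
    rw [hm, ← mul_assoc, ← hd]
    obtain ⟨x, rfl⟩ : ∃ x, X = x + 1 := ⟨X - 1, by omega⟩
    rw [Nat.add_sub_cancel]
    have : (x + 1) * (x + 1) = x * (x + 1 + 1) + 1 := by ring
    omega
  have h3 : X + 1 ∣ 24 := (Dvd.intro_left d h1.symm).trans h24
  have h4 : X ≤ 23 := by
    have := Nat.le_of_dvd (by norm_num) h3
    omega
  interval_cases X <;> omega

theorem arith120 {p k X D m : ℕ} (hp : p.Prime) (hXp : X = p ^ k) (hX : 1 < X) (hD : 0 < D) (hDX : D ∣ X - 1) (hm : D * m = X * X - 1) (h24 : m ∣ 120)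
    (h8 : 120 ∣ X * X - 1) : X = 11 ∨ X = 19 ∨ X = 29 ∨ X = 59 := by
  obtain ⟨d, hd⟩ := hDX
  have h1 : m = d * (X + 1) := by
    apply Nat.eq_of_mul_eq_mul_left hD
    rw [hm, ← mul_assoc, ← hd]
    obtain ⟨x, rfl⟩ : ∃ x, X = x + 1 := ⟨X - 1, by omega⟩
    rw [Nat.add_sub_cancel]
    have : (x + 1) * (x + 1) = x * (x + 1 + 1) + 1 := by ring
    omega
  have h3 : X + 1 ∣ 120 := (Dvd.intro_left d h1.symm).trans h24
  have h4 : X ≤ 119 := by
    have := Nat.le_of_dvd (by norm_num) h3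
    omega
  have key : ∀ X ∈ Finset.range 120, 1 < X → X + 1 ∣ 120 → 120 ∣ X * X - 1 → X = 11 ∨ X = 19 ∨ X = 29 ∨ X = 59 ∨ X = 119 := by decide +kernel
  rcases key X (Finset.mem_range.2 (by omega)) hX h3 h8 with h | h | h | h | h
  · exact Or.inl h
  · exact Or.inr (Or.inl h)
  · exact Or.inr (Or.inr (Or.inl h))
  · exact Or.inr (Or.inr (Or.inr h))
  · exfalso
    rw [h] at hXp
    have h7 : 7 ∣ p := Nat.Prime.dvd_of_dvd_pow (by norm_num) (hXp ▸ (by norm_num) : 7 ∣ p ^ k)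
    have h17 : 17 ∣ p := Nat.Prime.dvd_of_dvd_pow (by norm_num) (hXp ▸ (by norm_num) : 17 ∣ p ^ k)
    have e7 := (Nat.prime_dvd_prime_iff_eq (by norm_num) hp).1 h7
    have e17 := (Nat.prime_dvd_prime_iff_eq (by norm_num) hp).1 h17
    omega

theorem pow_prime {p k X : ℕ} (hp : p.Prime) (hX : X = p ^ k) (hXp : X.Prime) : X = p := by
  have h1 : k = 1 := by
    rw [hX] at hXp
    exact hXp.eq_one_of_pow
  rw [hX, h1, pow_one]

theorem q8_rel : (QuaternionGroup.a 1 : QuaternionGroup 2) ^ 4 = 1 ∧ (QuaternionGroup.a 1 : QuaternionGroup 2) ^ 2 ≠ 1 ∧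
    (QuaternionGroup.a 1 : QuaternionGroup 2) ^ 2 = (QuaternionGroup.xa 0) ^ 2 ∧
    (QuaternionGroup.xa 0 : QuaternionGroup 2) * QuaternionGroup.a 1 = (QuaternionGroup.a 1)⁻¹ * QuaternionGroup.xa 0 := by
  decide

theorem core (hreg : Rg H) [Nontrivial V] (N : Subgroup H) [N.Normal] (hN : Nonempty (N ≃* QuaternionGroup 2) ∨ Nonempty (N ≃* S25)) :
    ∃ L : Submodule (ZMod p) V, Nat.card L = p ∧ Nat.card V = p * p ∧
      (∀ d ∈ centralizer (N : Set H), ∀ v ∈ L, (d : V ≃ₗ[ZMod p] V) v ∈ L) ∧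
      (∀ d ∈ centralizer (N : Set H), ∃ c : ZMod p, ∀ v, (d : V ≃ₗ[ZMod p] V) v = c • v) ∧
      (Nonempty (N ≃* QuaternionGroup 2) → p = 3 ∨ p = 5 ∨ p = 7 ∨ p = 11 ∨ p = 23) := by
  haveI := finite_equiv (p := p) (V := V)
  have hp : p.Prime := Fact.out
  set D := centralizer (N : Set H) with hD
  have hcard8 : 8 ∣ Nat.card H := by
    rcases hN with ⟨⟨e⟩⟩ | ⟨⟨e⟩⟩
    · have h1 : Nat.card N = 8 := by rw [Nat.card_congr e.toEquiv, Nat.card_eq_fintype_card]; decide
      rw [← h1]; exact Subgroup.card_subgroup_dvd_card N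
    · have h1 : Nat.card N = 120 := e_card e
      exact (show 8 ∣ 120 by norm_num).trans (h1 ▸ Subgroup.card_subgroup_dvd_card N)
  have h2 : (2 : ZMod p) ≠ 0 := by
    intro h0
    have h1 : ((2 : ℕ) : ZMod p) = 0 := by exact_mod_cast h0
    rw [ZMod.natCast_eq_zero_iff] at h1
    exact reg_not_dvd H hreg ((h1.trans (by norm_num)).trans hcard8)
  obtain ⟨i, j, hiN, hjN, hi4, hi2, hij2, hji⟩ : ∃ i j : H, i ∈ N ∧ j ∈ N ∧ i ^ 4 = 1 ∧ i ^ 2 ≠ 1 ∧ i ^ 2 = j ^ 2 ∧ j * i = i⁻¹ * j := by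
    have key : ∀ {T : Type} [Group T] (e : N ≃* T) (i j : T), i ^ 4 = 1 → i ^ 2 ≠ 1 → i ^ 2 = j ^ 2 → j * i = i⁻¹ * j →
        ∃ i j : H, i ∈ N ∧ j ∈ N ∧ i ^ 4 = 1 ∧ i ^ 2 ≠ 1 ∧ i ^ 2 = j ^ 2 ∧ j * i = i⁻¹ * j := by
      intro T _ e i j h1 h2 h3 h4
      refine ⟨e.symm i, e.symm j, (e.symm i).2, (e.symm j).2, ?_, ?_, ?_, ?_⟩
      · have : (e.symm i) ^ 4 = 1 := by rw [← map_pow, h1, map_one]
        exact congrArg (fun z : N => (z : H)) this
      · intro h0
        apply h2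
        have : (e.symm i) ^ 2 = 1 := Subtype.ext h0
        rw [← map_pow] at this
        exact e.symm.injective (this.trans (map_one _).symm)
      · have : (e.symm i) ^ 2 = (e.symm j) ^ 2 := by rw [← map_pow, ← map_pow, h3]
        exact congrArg (fun z : N => (z : H)) this
      · have : (e.symm j) * (e.symm i) = (e.symm i)⁻¹ * e.symm j := by rw [← map_mul, h4, map_mul, map_inv]
        exact congrArg (fun z : N => (z : H)) this
    rcases hN with ⟨⟨e⟩⟩ | ⟨⟨e⟩⟩
    · exact key e _ _ q8_rel.1 q8_rel.2.1 q8_rel.2.2.1 q8_rel.2.2.2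
    · exact key e iM jM iM_four iM_two ijM_two jiM
  obtain ⟨L, hL, hLi, hLs⟩ := half_of hreg h2 hi4 hi2 hij2 hji
  have hDi : ∀ d ∈ D, d * i = i * d ∧ d * j = j * d := fun d hd =>
    ⟨(mem_centralizer_iff.1 hd i hiN).symm, (mem_centralizer_iff.1 hd j hjN).symm⟩
  have hLD : ∀ d ∈ D, ∀ v ∈ L, (d : V ≃ₗ[ZMod p] V) v ∈ L := fun d hd => hLi d (hDi d hd).1 (hDi d hd).2
  have hdv := hreg.card_dvd D L hLD
  have hX := card_pow L
  have hVc := reg_card H hreg
  have hV1 : 1 < Nat.card V := Finite.one_lt_card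
  have hX1 : 1 < Nat.card L := by
    by_contra hlt
    push Not at hlt
    have : Nat.card L * Nat.card L ≤ 1 * 1 := Nat.mul_le_mul hlt hlt
    omega
  have hDpos : 0 < Nat.card D := Nat.card_pos
  have hDm : Nat.card D * D.index = Nat.card L * Nat.card L - 1 := by rw [D.card_mul_index, hVc, hL]
  have hidx : D.index ∣ Nat.card (MulAut N) := by
    rw [hD, ← conjNormal_ker, index_ker]
    exact Subgroup.card_subgroup_dvd_card _
  have hLp : Nat.card L = p ∧ (Nonempty (N ≃* QuaternionGroup 2) → p = 3 ∨ p = 5 ∨ p = 7 ∨ p = 11 ∨ p = 23) := by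
    have hQ : ∀ e : N ≃* QuaternionGroup 2, Nat.card L = p ∧ (p = 3 ∨ p = 5 ∨ p = 7 ∨ p = 11 ∨ p = 23) := by
      intro e
      obtain ⟨f⟩ := Cfsg.Agent.S3742.result
      have h5 : Nat.card (MulAut N) = 24 := by
        rw [Nat.card_congr ((MulAut.congr e).trans f).toEquiv, Nat.card_perm, Nat.card_fin]; decide
      rw [h5] at hidx
      have h6 := arith24 hX1 hDpos hdv hDm hidx (by rw [← hL, ← hVc]; exact hcard8)
      have h7 : Nat.card L = p := by
        apply pow_prime hp hX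
        rcases h6 with h | h | h | h | h <;> rw [h] <;> norm_num
      rw [h7] at h6
      exact ⟨h7, h6⟩
    rcases hN with ⟨⟨e⟩⟩ | ⟨⟨e⟩⟩
    · exact ⟨(hQ e).1, fun _ => (hQ e).2⟩
    · refine ⟨?_, fun ⟨e'⟩ => (hQ e').2⟩
      have h5 := e_aut_card e
      have h8 : 120 ∣ Nat.card L * Nat.card L - 1 := by
        rw [← hL, ← hVc, ← e_card e]; exact Subgroup.card_subgroup_dvd_card N
      have h6 := arith120 hp hX hX1 hDpos hdv hDm (hidx.trans h5) h8
      apply pow_prime hp hX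
      rcases h6 with h | h | h | h <;> rw [h] <;> norm_num
  obtain ⟨hLp, hlast⟩ := hLp
  refine ⟨L, hLp, by rw [hL, hLp], hLD, ?_, hlast⟩
  intro d hd
  obtain ⟨w, hw, hw0⟩ := exists_ne_mem hLp
  obtain ⟨c, hc⟩ := exists_scalar hLp hw hw0 (hLD d hd w hw)
  refine ⟨c, hLs d (hDi d hd).1 (hDi d hd).2 c ?_⟩
  intro v hv
  obtain ⟨b, hb⟩ := exists_scalar hLp hw hw0 hv
  rw [hb, _root_.map_smul, hc, smul_smul, smul_smul, mul_comm]

theorem s0687 (hreg : Rg H) [Nontrivial V] (A : Subgroup H)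
    (hAmax : ∀ B : Subgroup H, B.Normal → IsMulCommutative B → A ≤ B → B = A) (N : Subgroup H) (hNn : N.Normal)
    (hNle : N ≤ Subgroup.centralizer (A : Set H)) (hNna : ¬ IsMulCommutative N)
    (hN : Nonempty (N ≃* QuaternionGroup 2) ∨ Nonempty (N ≃* S25)) :
    (∀ W : Submodule (ZMod p) V, (∀ n ∈ N, ∀ v ∈ W, ((n : H) : V ≃ₗ[ZMod p] V) v ∈ W) → W = ⊥ ∨ W = ⊤) ∧ Subgroup.centralizer (N : Set H) = A := by
  haveI := hNn
  have hp : p.Prime := Fact.out
  obtain ⟨L, hL, hV, hLD, -, -⟩ := core hreg N hN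
  refine ⟨?_, ?_⟩
  · intro W hW
    by_contra hne
    push Not at hne
    apply hNna
    haveI : Module.Finite (ZMod p) V := Module.Finite.of_finite
    have h1 : finrank (ZMod p) V = 2 := by
      have h3 := Module.natCard_eq_pow_finrank (K := ZMod p) (V := V)
      rw [Nat.card_zmod, hV, ← pow_two] at h3
      exact (Nat.pow_right_injective hp.two_le h3).symm
    have h3 : finrank (ZMod p) W < 2 := by
      rw [← h1]; exact Submodule.finrank_lt (lt_top_iff_ne_top.2 hne.2).ne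
    have h4 : 0 < finrank (ZMod p) W := by
      haveI : Nontrivial W := Submodule.nontrivial_iff_ne_bot.2 hne.1
      exact Module.finrank_pos
    have h5 : Nat.card W = p := by
      rw [card_pow, show finrank (ZMod p) W = 1 by omega, pow_one]
    refine ⟨⟨fun a b => ?_⟩⟩
    exact Subtype.ext (line_comm hreg h5 (hW a a.2) (hW b b.2))
  · apply hAmax
    · infer_instance
    · refine ⟨⟨fun a b => ?_⟩⟩
      exact Subtype.ext (line_comm hreg hL (hLD a a.2) (hLD b b.2))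
    · exact Subgroup.le_centralizer_iff.1 hNle

end Reg

end CfsgLib.H3Reg
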