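import Mathlib
import Cfsg.Agent.Lib.H3Reg3
import Cfsg.Agent.S2427
import Cfsg.Agent.S3742

/-!
# Regular linear groups without irreducible cyclic normal subgroups: degrees; subgroups of index two; recognition of SL(2,3)
-/

set_option autoImplicit false
set_option linter.style.haveILetI false

namespace CfsgLib.H3Reg

open Subgroup CfsgLib.H3Zas CfsgLib.H3Ti Module
open scoped commutatorElement

universe u v w

section Reg

variable {p : ℕ} [Fact p.Prime] {V : Type v} [AddCommGroup V] [Module (ZMod p) V] [Finite V] {H : Subgroup (V ≃ₗ[ZMod p] V)}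

theorem exists_AN (hreg : Rg H) (hI : Rd H) : ∃ A N : Subgroup H, A.Normal ∧ IsMulCommutative A ∧
    (∀ B : Subgroup H, B.Normal → IsMulCommutative B → A ≤ B → B = A) ∧ N.Normal ∧ N ≤ centralizer (A : Set H) ∧ ¬ IsMulCommutative N ∧
    (∀ M : Subgroup H, M.Normal → M ≤ N → ¬ IsMulCommutative M → M = N) := by
  haveI := finite_equiv (p := p) (V := V)
  haveI : Finite (Subgroup H) := Finite.of_injective (fun K => (K : Set H)) SetLike.coe_injective
  obtain ⟨A, hA⟩ := Set.Finite.exists_maximal (s := {A : Subgroup H | A.Normal ∧ IsMulCommutative A}) (Set.toFinite _)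
    ⟨⊥, inferInstance, inferInstance⟩
  have hAmax : ∀ B : Subgroup H, B.Normal → IsMulCommutative B → A ≤ B → B = A :=
    fun B h1 h2 h3 => le_antisymm (hA.2 (y := B) ⟨h1, h2⟩ h3) h3
  obtain ⟨hlt, hnc⟩ := s0685 hreg hI A hA.1.1 hA.1.2 hAmax
  haveI := hA.1.1
  obtain ⟨N, hN⟩ := Set.Finite.exists_minimal (s := {N : Subgroup H | N.Normal ∧ N ≤ centralizer (A : Set H) ∧ ¬ IsMulCommutative N}) (Set.toFinite _)
    ⟨centralizer (A : Set H), inferInstance, le_rfl, hnc⟩
  exact ⟨A, N, hA.1.1, hA.1.2, hAmax, hN.1.1, hN.1.2.1, hN.1.2.2,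
    fun M h1 h2 h3 => le_antisymm h2 (hN.2 (y := M) ⟨h1, h2.trans hN.1.2.1, h3⟩ h2)⟩

/-- the solvable case -/
theorem solv_data (hreg : Rg H) (hI : Rd H) (hs : Group.IsSolvable H) : ∃ N : Subgroup H, N.Normal ∧ Nonempty (N ≃* QuaternionGroup 2) ∧
    (p = 5 ∨ p = 7 ∨ p = 11 ∨ p = 23) ∧ Nat.card V = p * p ∧ ∃ L : Submodule (ZMod p) V, Nat.card L = p ∧
      (∀ d ∈ centralizer (N : Set H), ∀ v ∈ L, (d : V ≃ₗ[ZMod p] V) v ∈ L) ∧
      (∀ d ∈ centralizer (N : Set H), ∃ c : ZMod p, ∀ v, (d : V ≃ₗ[ZMod p] V) v = c • v) := by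
  haveI := finite_equiv (p := p) (V := V)
  haveI := hI.nontrivial
  obtain ⟨A, N, hAn, hAc, hAmax, hNn, hNle, hNna, hNmin⟩ := exists_AN hreg hI
  haveI := hNn
  have hN := s0686 A (reg_hasFree H hreg) hAn hAc hAmax N hNn hNle hNna hNmin
  have hQ : Nonempty (N ≃* QuaternionGroup 2) := by
    rcases hN with h | ⟨⟨e⟩⟩
    · exact h
    · exfalso
      apply s25_not_solvable
      haveI := hs
      exact Group.isSolvable_of_surjective (f := e.toMonoidHom) e.surjective
  obtain ⟨L, h1, h2, h3, h4, h5⟩ := core hreg N hN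
  refine ⟨N, hNn, hQ, ?_, h2, L, h1, h3, h4⟩
  rcases h5 hQ with h6 | h6
  · exfalso
    obtain ⟨e⟩ := hQ
    have hH : Nat.card H = 8 := by rw [reg_card H hreg, h2, h6]
    have hNc : Nat.card N = 8 := by rw [Nat.card_congr e.toEquiv, Nat.card_eq_fintype_card]; decide
    set i : H := ((e.symm (QuaternionGroup.a 1) : N) : H) with hi
    have hi4 : orderOf i = 4 := by
      rw [hi, Subgroup.orderOf_coe, MulEquiv.orderOf_eq, QuaternionGroup.orderOf_a_one]
    have hBc : Nat.card (zpowers i) = 4 := by rw [Nat.card_zpowers, hi4]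
    have hBi : (zpowers i).index = 2 := by
      have := (zpowers i).card_mul_index
      rw [hBc, hH] at this
      omega
    obtain ⟨W, hW1, hW2, hW3⟩ := hI (zpowers i) (Subgroup.normal_of_index_eq_two hBi) inferInstance
    have hd := hreg.card_dvd (zpowers i) W hW3
    rw [hBc] at hd
    haveI : Module.Finite (ZMod p) V := Module.Finite.of_finite
    have hp : p.Prime := Fact.out
    have hf : finrank (ZMod p) V = 2 := by
      have h3 := Module.natCard_eq_pow_finrank (K := ZMod p) (V := V)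
      rw [Nat.card_zmod, h2, ← pow_two] at h3
      exact (Nat.pow_right_injective hp.two_le h3).symm
    have hf3 : finrank (ZMod p) W < 2 := by
      rw [← hf]; exact Submodule.finrank_lt (lt_top_iff_ne_top.2 hW2).ne
    have hf4 : 0 < finrank (ZMod p) W := by
      haveI : Nontrivial W := Submodule.nontrivial_iff_ne_bot.2 hW1
      exact Module.finrank_pos
    have hf5 : Nat.card W = p := by
      rw [card_pow, show finrank (ZMod p) W = 1 by omega, pow_one]
    rw [hf5, h6] at hd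
    omega
  · exact h6

theorem s0688 (hreg : Rg H) (hI : Rd H) (hs : Group.IsSolvable H) : Nat.card V = 25 ∨ Nat.card V = 49 ∨ Nat.card V = 121 ∨ Nat.card V = 529 := by
  obtain ⟨N, -, -, h1, h2, -⟩ := solv_data hreg hI hs
  rw [h2]
  rcases h1 with h | h | h | h <;> rw [h] <;> simp

end Reg

section IndexTwo

theorem idx2_of_surj {G : Type u} [Group G] {Q : Type v} [Group Q] [Finite Q] [Nontrivial Q] (hQ : IsPGroup 2 Q) (f : G →* Q) (hf : Function.Surjective f) :
    ∃ N : Subgroup G, N.Normal ∧ N.index = 2 := by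
  haveI : Fact (Nat.Prime 2) := ⟨Nat.prime_two⟩
  obtain ⟨n, hn⟩ := IsPGroup.iff_card.1 hQ
  have hn0 : n ≠ 0 := by
    rintro rfl
    have : 1 < Nat.card Q := Finite.one_lt_card
    omega
  obtain ⟨m, rfl⟩ := Nat.exists_eq_succ_of_ne_zero hn0
  obtain ⟨K, hK⟩ := Sylow.exists_subgroup_card_pow_prime (G := Q) 2 (n := m) (by rw [hn]; exact pow_dvd_pow 2 (Nat.le_succ m))
  have hKi : K.index = 2 := by
    have h1 := K.card_mul_index
    rw [hK, hn, Nat.succ_eq_add_one, pow_succ] at h1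
    exact Nat.eq_of_mul_eq_mul_left (by positivity) h1
  have h2 : (K.comap f).index = 2 := by rw [Subgroup.index_comap_of_surjective K hf, hKi]
  exact ⟨K.comap f, Subgroup.normal_of_index_eq_two h2, h2⟩

theorem idx2_of_comm {G : Type u} [Group G] {B : Type v} [CommGroup B] [Finite B] (h2 : 2 ∣ Nat.card B) (f : G →* B) (hf : Function.Surjective f) :
    ∃ N : Subgroup G, N.Normal ∧ N.index = 2 := by
  haveI : Fact (Nat.Prime 2) := ⟨Nat.prime_two⟩
  let s : B →* B := powMonoidHom 2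
  have hs : s.range ≠ ⊤ := by
    intro h0
    have h1 : Function.Surjective s := MonoidHom.range_eq_top.1 h0
    have h3 : Function.Injective s := Finite.injective_iff_surjective.2 h1
    obtain ⟨t, ht⟩ := exists_prime_orderOf_dvd_card' 2 h2
    have h4 : s t = s 1 := by
      change t ^ 2 = 1 ^ 2
      rw [one_pow, ← ht, pow_orderOf_eq_one]
    have h5 := h3 h4
    rw [h5, orderOf_one] at ht
    omega
  haveI : Nontrivial (B ⧸ s.range) := QuotientGroup.nontrivial_iff.2 hs
  have hp : IsPGroup 2 (B ⧸ s.range) := by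
    intro x
    obtain ⟨b, rfl⟩ := QuotientGroup.mk_surjective x
    refine ⟨1, ?_⟩
    rw [pow_one, ← QuotientGroup.mk_pow]
    exact (QuotientGroup.eq_one_iff _).2 ⟨b, rfl⟩
  exact idx2_of_surj hp ((QuotientGroup.mk' s.range).comp f) ((QuotientGroup.mk'_surjective _).comp hf)

theorem idx2_of_cyclic {G : Type u} [Group G] [Finite G] (h2 : 2 ∣ Nat.card G) (P : Sylow 2 G) (hP : IsCyclic P) :
    ∃ N : Subgroup G, N.Normal ∧ N.index = 2 := by
  haveI : Fact (Nat.Prime 2) := ⟨Nat.prime_two⟩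
  have hmin : (Nat.card G).minFac = 2 := (Nat.minFac_eq_two_iff _).2 h2
  have hc := IsCyclic.isComplement' hmin hP
  set f := MonoidHom.transferSylow P (hP.normalizer_le_centralizer hmin) with hf
  have hpr : IsPGroup 2 f.range := P.2.to_subgroup f.range
  have hcard : Nat.card f.range = Nat.card P := by
    rw [← index_ker, hc.symm.index_eq_card]
  have hP1 : 1 < Nat.card P := by
    have h3 : 2 ∣ Nat.card P := by
      have := P.card_mul_index
      rw [← this] at h2
      exact (Nat.Coprime.dvd_of_dvd_mul_right ((Nat.Prime.coprime_iff_not_dvd Nat.prime_two).2 P.not_dvd_index) h2)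
    have h4 : 0 < Nat.card P := Nat.card_pos
    exact lt_of_lt_of_le (by norm_num) (Nat.le_of_dvd h4 h3)
  haveI : Nontrivial f.range := Finite.one_lt_card_iff_nontrivial.1 (by rw [hcard]; exact hP1)
  exact idx2_of_surj hpr f.rangeRestrict f.rangeRestrict_surjective

end IndexTwo

section Recog

theorem conj3 : ∀ x y : Equiv.Perm (Fin 4), x ^ 3 = 1 → x ≠ 1 → y ^ 3 = 1 → y ≠ 1 → ∃ a, a * x * a⁻¹ = y := by
  decide +kernel

theorem recog {M1 : Type u} {M2 : Type v} [Group M1] [Finite M1] [Group M2] [Finite M2] (h1 : Nat.card M1 = 24) (h2 : Nat.card M2 = 24)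
    (N1 : Subgroup M1) [N1.Normal] (N2 : Subgroup M2) [N2.Normal] (e1 : N1 ≃* QuaternionGroup 2) (e2 : N2 ≃* QuaternionGroup 2)
    {t1 : M1} {t2 : M2} (ht1 : t1 ^ 3 = 1) (ht2 : t2 ^ 3 = 1) (hc1 : t1 ∉ centralizer (N1 : Set M1)) (hc2 : t2 ∉ centralizer (N2 : Set M2)) :
    Nonempty (M1 ≃* M2) := by
  have hN1 : Nat.card N1 = 8 := by rw [Nat.card_congr e1.toEquiv, Nat.card_eq_fintype_card]; decide
  have hN2 : Nat.card N2 = 8 := by rw [Nat.card_congr e2.toEquiv, Nat.card_eq_fintype_card]; decide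
  have ht1' : orderOf t1 = 3 := orderOf_eq_prime ht1 (by rintro rfl; exact hc1 (one_mem _))
  have ht2' : orderOf t2 = 3 := orderOf_eq_prime ht2 (by rintro rfl; exact hc2 (one_mem _))
  have hcomp1 : N1.IsComplement' (zpowers t1) := by
    refine Subgroup.isComplement'_of_coprime ?_ ?_
    · rw [hN1, Nat.card_zpowers, ht1', h1]
    · rw [hN1, Nat.card_zpowers, ht1']; norm_num
  have hcomp2 : N2.IsComplement' (zpowers t2) := by
    refine Subgroup.isComplement'_of_coprime ?_ ?_
    · rw [hN2, Nat.card_zpowers, ht2', h2]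
    · rw [hN2, Nat.card_zpowers, ht2']; norm_num
  obtain ⟨φ⟩ := Cfsg.Agent.S3742.result
  set c1 : MulAut N1 := MulAut.conjNormal t1 with hc1'
  set c2 : MulAut N2 := MulAut.conjNormal t2 with hc2'
  have hne1 : c1 ≠ 1 := fun h0 => hc1 (by rw [← conjNormal_ker]; exact h0)
  have hne2 : c2 ≠ 1 := fun h0 => hc2 (by rw [← conjNormal_ker]; exact h0)
  have h31 : c1 ^ 3 = 1 := by rw [hc1', ← map_pow, ht1, map_one]
  have h32 : c2 ^ 3 = 1 := by rw [hc2', ← map_pow, ht2, map_one]
  let ψ1 : MulAut N1 ≃* Equiv.Perm (Fin 4) := (MulAut.congr e1).trans φ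
  let ψ2 : MulAut N2 ≃* Equiv.Perm (Fin 4) := (MulAut.congr e2).trans φ
  obtain ⟨a, ha⟩ := conj3 (ψ1 c1) (ψ2 c2) (by rw [← map_pow, h31, map_one]) (fun h0 => hne1 (ψ1.injective (h0.trans (map_one _).symm)))
    (by rw [← map_pow, h32, map_one]) (fun h0 => hne2 (ψ2.injective (h0.trans (map_one _).symm)))
  obtain ⟨α, rfl⟩ := φ.surjective a
  have hα : α * (MulAut.congr e1 c1) * α⁻¹ = MulAut.congr e2 c2 := by
    apply φ.injective
    rw [map_mul, map_mul, map_inv]
    exact ha
  have hα' : α * (MulAut.congr e1 c1) = MulAut.congr e2 c2 * α := by rw [← hα]; group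
  let fn : N1 ≃* N2 := e1.trans (α.trans e2.symm)
  have hfn : ∀ n : N1, fn (c1 n) = c2 (fn n) := by
    intro n
    have h3 := congrArg (fun β : MulAut (QuaternionGroup 2) => e2.symm (β (e1 n))) hα'
    have h4 : e2.symm (α (e1 (c1 (e1.symm (e1 n))))) = e2.symm (e2 (c2 (e2.symm (α (e1 n))))) := h3
    rw [e1.symm_apply_apply, e2.symm_apply_apply] at h4
    exact h4
  let fg : zpowers t1 ≃* zpowers t2 := mulEquivOfOrderOfEq (g := (⟨t1, mem_zpowers t1⟩ : zpowers t1)) (g' := (⟨t2, mem_zpowers t2⟩ : zpowers t2))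
    (fun x => by
      obtain ⟨_, k, rfl⟩ := x
      exact ⟨k, rfl⟩)
    (fun x => by
      obtain ⟨_, k, rfl⟩ := x
      exact ⟨k, rfl⟩)
    (by rw [Subgroup.orderOf_mk, Subgroup.orderOf_mk, ht1', ht2'])
  have hfg : fg ⟨t1, mem_zpowers t1⟩ = ⟨t2, mem_zpowers t2⟩ := mulEquivOfOrderOfEq_apply_gen _ _ _
  let φ1 : zpowers t1 →* MulAut N1 := (N1.normalizerMonoidHom).comp (inclusion (N1.normalizer_eq_top ▸ le_top))
  let φ2 : zpowers t2 →* MulAut N2 := (N2.normalizerMonoidHom).comp (inclusion (N2.normalizer_eq_top ▸ le_top))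
  have hφ1 : φ1 ⟨t1, mem_zpowers t1⟩ = c1 := by
    ext n
    rfl
  have hφ2 : φ2 ⟨t2, mem_zpowers t2⟩ = c2 := by
    ext n
    rfl
  have hall : ∀ g : zpowers t1, (φ1 g).trans fn = fn.trans (φ2 (fg g)) := by
    have key : (MulAut.congr fn).toMonoidHom.comp φ1 = φ2.comp fg.toMonoidHom := by
      have hgen : ∀ g : zpowers t1, g ∈ zpowers (⟨t1, mem_zpowers t1⟩ : zpowers t1) := by
        rintro ⟨_, k, rfl⟩
        exact ⟨k, rfl⟩
      ext1 g
      obtain ⟨k, hk⟩ := mem_zpowers_iff.1 (hgen g)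
      rw [← hk, map_zpow, map_zpow]
      congr 1
      change MulAut.congr fn (φ1 ⟨t1, mem_zpowers t1⟩) = φ2 (fg ⟨t1, mem_zpowers t1⟩)
      rw [hfg, hφ1, hφ2]
      ext n
      congr 1
      change fn (c1 (fn.symm n)) = c2 n
      rw [hfn, fn.apply_symm_apply]
    intro g
    ext n
    have h3 := congrArg (fun β : zpowers t1 →* MulAut N2 => β g (fn n)) key
    have h4 : fn (φ1 g (fn.symm (fn n))) = φ2 (fg g) (fn n) := h3
    rw [fn.symm_apply_apply] at h4
    exact congrArg Subtype.val h4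
  exact ⟨(SemidirectProduct.mulEquivSubgroup hcomp1).symm.trans ((SemidirectProduct.congr fn fg hall).trans (SemidirectProduct.mulEquivSubgroup hcomp2))⟩

/-- SL(2,3) -/
theorem recog_sl23 {M : Type u} [Group M] [Finite M] (h1 : Nat.card M = 24) (N : Subgroup M) [N.Normal] (e : N ≃* QuaternionGroup 2)
    {t : M} (ht : t ^ 3 = 1) (hc : t ∉ centralizer (N : Set M)) : Nonempty (M ≃* Matrix.SpecialLinearGroup (Fin 2) (ZMod 3)) := by
  obtain ⟨hS, hZ, hC8, ⟨e2⟩, -, hall⟩ := Cfsg.Agent.S2427.result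
  haveI : Fact (Nat.Prime 3) := ⟨Nat.prime_three⟩
  obtain ⟨s, hs⟩ := exists_prime_orderOf_dvd_card' (G := Matrix.SpecialLinearGroup (Fin 2) (ZMod 3)) 3 (by rw [hS]; norm_num)
  have hs3 : s ^ 3 = 1 := by
    have := pow_orderOf_eq_one s
    rwa [hs] at this
  refine recog h1 hS N (commutator (Matrix.SpecialLinearGroup (Fin 2) (ZMod 3))) e e2 ht (t2 := s) hs3 hc ?_
  intro hsc
  have hd : orderOf s ∣ Nat.card (centralizer ((commutator (Matrix.SpecialLinearGroup (Fin 2) (ZMod 3)) : Subgroup _) : Set (Matrix.SpecialLinearGroup (Fin 2) (ZMod 3)))) := by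
    have := orderOf_dvd_natCard (⟨s, hsc⟩ : centralizer ((commutator (Matrix.SpecialLinearGroup (Fin 2) (ZMod 3)) : Subgroup _) : Set (Matrix.SpecialLinearGroup (Fin 2) (ZMod 3))))
    rwa [Subgroup.orderOf_mk] at this
  rw [hs] at hd
  rcases hall (centralizer ((commutator (Matrix.SpecialLinearGroup (Fin 2) (ZMod 3)) : Subgroup _) : Set (Matrix.SpecialLinearGroup (Fin 2) (ZMod 3)))) inferInstance with h | h | h | h
  · rw [h, card_bot] at hd; omega
  · -- the commutator subgroup would be central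
    have h3 : ∀ x y : commutator (Matrix.SpecialLinearGroup (Fin 2) (ZMod 3)), x * y = y * x := by
      intro x y
      have hx : (x : Matrix.SpecialLinearGroup (Fin 2) (ZMod 3)) ∈ centralizer ((commutator (Matrix.SpecialLinearGroup (Fin 2) (ZMod 3)) : Subgroup _) : Set (Matrix.SpecialLinearGroup (Fin 2) (ZMod 3))) := by
        rw [h]; exact mem_top _
      exact Subtype.ext (mem_centralizer_iff.1 hx y y.2).symm
    have h4 : ∀ x y : QuaternionGroup 2, x * y = y * x := by
      intro x y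
      obtain ⟨a, rfl⟩ := e2.surjective x
      obtain ⟨b, rfl⟩ := e2.surjective y
      rw [← map_mul, ← map_mul, h3]
    exact absurd h4 (by decide)
  · rw [h, hZ] at hd; omega
  · rw [h, hC8] at hd; omega

end Recog

end CfsgLib.H3Reg
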