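import Mathlib
import Cfsg.Agent.Lib.H3Reg4

/-!
# Regular linear groups with an irreducible abelian normal subgroup are semilinear
-/

set_option autoImplicit false
set_option linter.style.haveILetI false

namespace CfsgLib.H3Reg

open Subgroup CfsgLib.H3Zas CfsgLib.H3Ti Module

universe u v w

section Reg

variable {p : ℕ} [Fact p.Prime] {V : Type v} [AddCommGroup V] [Module (ZMod p) V] [Finite V] {H : Subgroup (V ≃ₗ[ZMod p] V)}

/-- the enveloping algebra -/
def KA (A : Subgroup H) : Subalgebra (ZMod p) (Module.End (ZMod p) V) := Algebra.adjoin (ZMod p) (Set.range (fun a : A => natRep H (a : H)))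

theorem mem_KA (A : Subgroup H) {a : H} (ha : a ∈ A) : natRep H a ∈ KA A := Algebra.subset_adjoin ⟨⟨a, ha⟩, rfl⟩

theorem KA_comm (A : Subgroup H) (hAc : IsMulCommutative A) {z w : Module.End (ZMod p) V} (hz : z ∈ KA A) (hw : w ∈ KA A) : z * w = w * z := by
  have h1 : ∀ a ∈ Set.range (fun a : A => natRep H (a : H)), ∀ b ∈ Set.range (fun a : A => natRep H (a : H)), a * b = b * a := by
    rintro _ ⟨a, rfl⟩ _ ⟨b, rfl⟩
    change natRep H (a : H) * natRep H (b : H) = natRep H (b : H) * natRep H (a : H)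
    rw [← map_mul, ← map_mul]
    congr 1
    exact congrArg (fun z : A => (z : H)) (hAc.is_comm.comm a b)
  have h2 := Algebra.isMulCommutative_adjoin (ZMod p) h1
  exact congrArg (fun z : Algebra.adjoin (ZMod p) (Set.range (fun a : A => natRep H (a : H))) => (z : Module.End (ZMod p) V)) (h2.is_comm.comm ⟨z, hz⟩ ⟨w, hw⟩)

theorem KA_conj (A : Subgroup H) (hAn : A.Normal) (h : H) {z : Module.End (ZMod p) V} (hz : z ∈ KA A) : natRep H h * z * natRep H h⁻¹ ∈ KA A := by
  have hinv : natRep H h⁻¹ * natRep H h = 1 := Free.map_inv' h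
  have hinv' : natRep H h * natRep H h⁻¹ = 1 := Free.map_inv h
  induction hz using Algebra.adjoin_induction with
  | mem x hx =>
    obtain ⟨a, rfl⟩ := hx
    change natRep H h * natRep H (a : H) * natRep H h⁻¹ ∈ KA A
    rw [← map_mul, ← map_mul]
    exact mem_KA A (hAn.conj_mem a a.2 h)
  | algebraMap r =>
    rw [← Algebra.commutes, mul_assoc, hinv', mul_one]
    exact Subalgebra.algebraMap_mem _ r
  | add x y _ _ hx hy => rw [mul_add, add_mul]; exact add_mem hx hy
  | mul x y _ _ hx hy =>
    have e : natRep H h * (x * y) * natRep H h⁻¹ = (natRep H h * x * natRep H h⁻¹) * (natRep H h * y * natRep H h⁻¹) := by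
      calc natRep H h * (x * y) * natRep H h⁻¹ = natRep H h * x * (1 * (y * natRep H h⁻¹)) := by rw [one_mul]; simp only [mul_assoc]
        _ = natRep H h * x * ((natRep H h⁻¹ * natRep H h) * (y * natRep H h⁻¹)) := by rw [hinv]
        _ = _ := by simp only [mul_assoc]
    rw [e]; exact mul_mem hx hy

/-- conjugation as a ring automorphism of the enveloping algebra -/
def sig (A : Subgroup H) (hAn : A.Normal) (h : H) : KA A ≃+* KA A where
  toFun z := ⟨natRep H h * z * natRep H h⁻¹, KA_conj A hAn h z.2⟩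
  invFun z := ⟨natRep H h⁻¹ * z * natRep H h, by
    have := KA_conj A hAn h⁻¹ z.2
    rwa [inv_inv] at this⟩
  left_inv z := Subtype.ext (by
    change natRep H h⁻¹ * (natRep H h * z * natRep H h⁻¹) * natRep H h = z
    calc natRep H h⁻¹ * (natRep H h * z * natRep H h⁻¹) * natRep H h = (natRep H h⁻¹ * natRep H h) * z * (natRep H h⁻¹ * natRep H h) := by simp only [mul_assoc]
      _ = z := by rw [Free.map_inv', one_mul, mul_one])
  right_inv z := Subtype.ext (by
    change natRep H h * (natRep H h⁻¹ * z * natRep H h) * natRep H h⁻¹ = z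
    calc natRep H h * (natRep H h⁻¹ * z * natRep H h) * natRep H h⁻¹ = (natRep H h * natRep H h⁻¹) * z * (natRep H h * natRep H h⁻¹) := by simp only [mul_assoc]
      _ = z := by rw [Free.map_inv, one_mul, mul_one])
  map_mul' x y := Subtype.ext (by
    change natRep H h * (x * y) * natRep H h⁻¹ = (natRep H h * x * natRep H h⁻¹) * (natRep H h * y * natRep H h⁻¹)
    calc natRep H h * (x * y) * natRep H h⁻¹ = natRep H h * x * (1 * (y * natRep H h⁻¹)) := by rw [one_mul]; simp only [mul_assoc]
        _ = natRep H h * x * ((natRep H h⁻¹ * natRep H h) * (y * natRep H h⁻¹)) := by rw [Free.map_inv']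
        _ = _ := by simp only [mul_assoc])
  map_add' x y := Subtype.ext (by
    change natRep H h * (x + y) * natRep H h⁻¹ = (natRep H h * x * natRep H h⁻¹) + (natRep H h * y * natRep H h⁻¹)
    rw [mul_add, add_mul])

theorem sig_apply (A : Subgroup H) (hAn : A.Normal) (h : H) (z : KA A) (v : V) :
    (sig A hAn h z : Module.End (ZMod p) V) (natRep H h v) = natRep H h ((z : Module.End (ZMod p) V) v) := by
  change natRep H h ((z : Module.End (ZMod p) V) (natRep H h⁻¹ (natRep H h v))) = _
  have : natRep H h⁻¹ (natRep H h v) = v := by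
    rw [← Module.End.mul_apply, Free.map_inv']; rfl
  rw [this]

variable (A : Subgroup H) (hirr : ∀ W : Submodule (ZMod p) V, (∀ a ∈ A, ∀ v ∈ W, ((a : H) : V ≃ₗ[ZMod p] V) v ∈ W) → W = ⊥ ∨ W = ⊤)
include hirr

theorem KA_surj {v : V} (hv : v ≠ 0) (x : V) : ∃ z ∈ KA A, z v = x := by
  set W := (Subalgebra.toSubmodule (KA A)).map (LinearMap.applyₗ (R := ZMod p) (M := V) (M₂ := V) v) with hW
  have hmem : ∀ x, x ∈ W ↔ ∃ z ∈ KA A, z v = x := by
    intro x
    rw [hW, Submodule.mem_map]
    rfl
  rcases hirr W (by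
    intro a ha x hx
    rw [hmem] at hx ⊢
    obtain ⟨z, hz, rfl⟩ := hx
    exact ⟨natRep H a * z, mul_mem (mem_KA A ha) hz, rfl⟩) with h | h
  · exfalso
    apply hv
    have h1 : v ∈ W := (hmem v).2 ⟨1, one_mem _, rfl⟩
    rw [h] at h1
    exact (Submodule.mem_bot _).1 h1
  · rw [← hmem, h]; exact Submodule.mem_top

theorem KA_inj (hAc : IsMulCommutative A) {v : V} (hv : v ≠ 0) {z : Module.End (ZMod p) V} (hz : z ∈ KA A) (h0 : z v = 0) : z = 0 := by
  refine LinearMap.ext fun x => ?_
  obtain ⟨w, hw, rfl⟩ := KA_surj A hirr hv x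
  rw [← Module.End.mul_apply, KA_comm A hAc hz hw, Module.End.mul_apply, h0, map_zero]
  rfl

theorem cent_comm (hreg : Rg H) [Nontrivial V] (hAc : IsMulCommutative A) : IsMulCommutative (centralizer (A : Set H)) := by
  obtain ⟨v, hv⟩ := exists_ne (0 : V)
  have hcom : ∀ c ∈ centralizer (A : Set H), ∀ z ∈ KA A, natRep H c * z = z * natRep H c := by
    intro c hc z hz
    induction hz using Algebra.adjoin_induction with
    | mem x hx =>
      obtain ⟨a, rfl⟩ := hx
      change natRep H c * natRep H (a : H) = natRep H (a : H) * natRep H c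
      rw [← map_mul, ← map_mul, mem_centralizer_iff.1 hc a a.2]
    | algebraMap r => exact (Algebra.commutes r _).symm
    | add x y _ _ hx hy => rw [mul_add, add_mul, hx, hy]
    | mul x y _ _ hx hy => rw [← mul_assoc, hx, mul_assoc, hy, mul_assoc]
  have hmem : ∀ c ∈ centralizer (A : Set H), natRep H c ∈ KA A := by
    intro c hc
    obtain ⟨z, hz, hzv⟩ := KA_surj A hirr hv (natRep H c v)
    have : natRep H c = z := by
      refine LinearMap.ext fun x => ?_
      obtain ⟨w, hw, rfl⟩ := KA_surj A hirr hv x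
      rw [← Module.End.mul_apply, hcom c hc w hw, Module.End.mul_apply, ← hzv, ← Module.End.mul_apply, KA_comm A hAc hw hz, Module.End.mul_apply]
    rw [this]; exact hz
  refine ⟨⟨fun a b => Subtype.ext ?_⟩⟩
  apply (reg_free H hreg).injective
  change natRep H ((a : H) * (b : H)) = natRep H ((b : H) * (a : H))
  rw [map_mul, map_mul, KA_comm A hAc (hmem a a.2) (hmem b b.2)]

theorem semilinear [Nontrivial V] (hAn : A.Normal) (hAc : IsMulCommutative A) :
    ∃ (F : Type) (_ : Field F) (_ : Fintype F) (e : V ≃+ F), ∀ g : H, ∃ (a : F) (σ : F ≃+* F), ∀ v : V, e ((g : V ≃ₗ[ZMod p] V) v) = a * σ (e v) := by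
  classical
  obtain ⟨v₀, hv₀⟩ := exists_ne (0 : V)
  have hp : p.Prime := Fact.out
  haveI : Finite (Module.End (ZMod p) V) := Finite.of_injective (fun f => (f : V → V)) DFunLike.coe_injective
  letI : Fintype (KA A) := Fintype.ofFinite _
  letI : CommRing (KA A) := { (inferInstance : Ring (KA A)) with mul_comm := fun a b => Subtype.ext (KA_comm A hAc a.2 b.2) }
  haveI : Nontrivial (KA A) := ⟨⟨0, 1, fun h => by
    have h1 : (0 : Module.End (ZMod p) V) = 1 := congrArg (fun z : KA A => (z : Module.End (ZMod p) V)) h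
    have h2 := congrArg (fun f : Module.End (ZMod p) V => f v₀) h1
    exact hv₀ h2.symm⟩⟩
  haveI : NoZeroDivisors (KA A) := ⟨fun {a b} hab => by
    by_cases hb : (b : Module.End (ZMod p) V) v₀ = 0
    · right; exact Subtype.ext (KA_inj A hirr hAc hv₀ b.2 hb)
    · left
      refine Subtype.ext (KA_inj A hirr hAc hb a.2 ?_)
      have h1 : (a : Module.End (ZMod p) V) * (b : Module.End (ZMod p) V) = 0 := congrArg (fun z : KA A => (z : Module.End (ZMod p) V)) hab
      rw [← Module.End.mul_apply, h1]; rfl⟩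
  haveI : IsDomain (KA A) := NoZeroDivisors.to_isDomain _
  letI : Field (KA A) := (Finite.isField_of_domain (KA A)).toField
  let f : KA A →+ V :=
    { toFun := fun z => (z : Module.End (ZMod p) V) v₀
      map_zero' := rfl
      map_add' := fun _ _ => rfl }
  have hf : Function.Bijective f := by
    constructor
    · rw [injective_iff_map_eq_zero]
      intro z hz
      exact Subtype.ext (KA_inj A hirr hAc hv₀ z.2 hz)
    · intro x
      obtain ⟨z, hz, hzx⟩ := KA_surj A hirr hv₀ x
      exact ⟨⟨z, hz⟩, hzx⟩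
  let e0 : V ≃+ KA A := (AddEquiv.ofBijective f hf).symm
  have he0 : ∀ x, (e0 x : Module.End (ZMod p) V) v₀ = x := fun x => (AddEquiv.ofBijective f hf).apply_symm_apply x
  have he0' : ∀ z : KA A, e0 ((z : Module.End (ZMod p) V) v₀) = z := fun z => (AddEquiv.ofBijective f hf).symm_apply_apply z
  have hcard : Fintype.card (KA A) = p ^ finrank (ZMod p) V := by
    rw [← Nat.card_eq_fintype_card, ← Nat.card_congr e0.toEquiv, Module.natCard_eq_pow_finrank (K := ZMod p), Nat.card_zmod]
  haveI : Module.Finite (ZMod p) V := Module.Finite.of_finite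
  have hn : finrank (ZMod p) V ≠ 0 := Module.finrank_pos.ne'
  letI : Fintype (GaloisField p (finrank (ZMod p) V)) := Fintype.ofFinite _
  have hcg : Fintype.card (KA A) = Fintype.card (GaloisField p (finrank (ZMod p) V)) := by
    rw [hcard, ← Nat.card_eq_fintype_card, GaloisField.card p _ hn]
  let φ : KA A ≃+* GaloisField p (finrank (ZMod p) V) := FiniteField.ringEquivOfCardEq hcg
  refine ⟨GaloisField p (finrank (ZMod p) V), inferInstance, inferInstance, e0.trans φ.toAddEquiv, fun g => ?_⟩
  refine ⟨φ (e0 (natRep H g v₀)), (φ.symm.trans (sig A hAn g)).trans φ, fun v => ?_⟩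
  change φ (e0 (natRep H g v)) = φ (e0 (natRep H g v₀)) * φ (sig A hAn g (φ.symm (φ (e0 v))))
  rw [φ.symm_apply_apply, ← map_mul]
  congr 1
  have h1 : natRep H g v = ((e0 (natRep H g v₀) * sig A hAn g (e0 v) : KA A) : Module.End (ZMod p) V) v₀ := by
    have h2 := sig_apply A hAn g (e0 v) v₀
    rw [he0] at h2
    rw [← h2, mul_comm]
    change _ = (sig A hAn g (e0 v) : Module.End (ZMod p) V) ((e0 (natRep H g v₀) : Module.End (ZMod p) V) v₀)
    rw [he0]
  rw [h1, he0']

end Reg

end CfsgLib.H3Reg
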