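import Mathlib
import Cfsg.Agent.Lib.H3Reg5

/-!
# Solvable regular linear groups
-/

set_option autoImplicit false
set_option linter.style.haveILetI false

namespace CfsgLib.H3Reg

open Subgroup CfsgLib.H3Zas CfsgLib.H3Ti Module

universe u v w

section Reg

variable {p : ℕ} [Fact p.Prime] {V : Type v} [AddCommGroup V] [Module (ZMod p) V] [Finite V] {H : Subgroup (V ≃ₗ[ZMod p] V)}

theorem even_card (hreg : Rg H) [Nontrivial V] (hp2 : p ≠ 2) : 2 ∣ Nat.card H := by
  have hp : p.Prime := Fact.out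
  haveI : Module.Finite (ZMod p) V := Module.Finite.of_finite
  rw [reg_card H hreg, Module.natCard_eq_pow_finrank (K := ZMod p), Nat.card_zmod]
  have h1 : Odd (p ^ finrank (ZMod p) V) := (hp.odd_of_ne_two hp2).pow
  obtain ⟨k, hk⟩ := h1
  rw [hk]
  exact ⟨k, by omega⟩

theorem idx2_semilinear (hreg : Rg H) [Nontrivial V] (hp2 : p ≠ 2) (A : Subgroup H) (hAn : A.Normal) (hAc : IsCyclic A)
    (hirr : ∀ W : Submodule (ZMod p) V, (∀ a ∈ A, ∀ v ∈ W, ((a : H) : V ≃ₗ[ZMod p] V) v ∈ W) → W = ⊥ ∨ W = ⊤) :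
    ∃ N : Subgroup H, N.Normal ∧ N.index = 2 := by
  haveI := finite_equiv (p := p) (V := V)
  haveI := hAn
  haveI : Fact (Nat.Prime 2) := ⟨Nat.prime_two⟩
  have hAc' : IsMulCommutative A := by
    letI := hAc.commGroup
    exact ⟨⟨fun a b => mul_comm a b⟩⟩
  have hC := cent_comm A hirr hreg hAc'
  set C := centralizer (A : Set H) with hCdef
  by_cases h2 : 2 ∣ C.index
  · let g : H →* (ZMod (Nat.card A))ˣ := (IsCyclic.mulAutMulEquiv A).toMonoidHom.comp MulAut.conjNormal
    have hg : g.ker = C := by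
      rw [hCdef, ← conjNormal_ker]
      ext x
      rw [MonoidHom.mem_ker, MonoidHom.mem_ker]
      exact ⟨fun h => (IsCyclic.mulAutMulEquiv A).injective (h.trans (map_one _).symm), fun h => by
        change IsCyclic.mulAutMulEquiv A (MulAut.conjNormal x) = 1
        rw [h, map_one]⟩
    refine idx2_of_comm (B := g.range) ?_ g.rangeRestrict g.rangeRestrict_surjective
    rw [← index_ker, hg]; exact h2
  · obtain ⟨P⟩ : Nonempty (Sylow 2 H) := inferInstance
    have hPC : (P : Subgroup H) ≤ C := by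
      intro x hx
      obtain ⟨k, hk⟩ := P.2 ⟨x, hx⟩
      have hk' : x ^ 2 ^ k = 1 := congrArg (fun y : (P : Subgroup H) => (y : H)) hk
      have h3 : orderOf (x : H ⧸ C) ∣ 2 ^ k := orderOf_dvd_of_pow_eq_one (by rw [← QuotientGroup.mk_pow, hk']; rfl)
      have h4 : orderOf (x : H ⧸ C) ∣ C.index := orderOf_dvd_natCard _
      have h5 : (2 ^ k).Coprime C.index := Nat.Coprime.pow_left _ ((Nat.Prime.coprime_iff_not_dvd Nat.prime_two).2 h2)
      have h6 := orderOf_eq_one_iff.1 (Nat.eq_one_of_dvd_coprimes h5 h3 h4)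
      exact (QuotientGroup.eq_one_iff x).1 h6
    have hPc : IsMulCommutative (P : Subgroup H) := by
      refine ⟨⟨fun a b => Subtype.ext ?_⟩⟩
      exact congrArg (fun y : C => (y : H)) (hC.is_comm.comm ⟨a, hPC a.2⟩ ⟨b, hPC b.2⟩)
    exact idx2_of_cyclic (even_card hreg hp2) P (cyc_of_comm hreg.cq _ hPc)

omit [Fact p.Prime] in
theorem arithfin {a b : ℕ} (hp : p = 5 ∨ p = 7 ∨ p = 11 ∨ p = 23) (ha : 0 < a) (hd : a ∣ p - 1) (hab : a * b = p * p - 1) (hb : b ∣ 12)
    (h6 : b ≠ 6) : (p = 5 ∧ a = 2) ∨ (p = 11 ∧ a = 10) := by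
  have hble : b ≤ 12 := Nat.le_of_dvd (by norm_num) hb
  have hb0 : 0 < b := Nat.pos_of_dvd_of_pos hb (by norm_num)
  have hale : a ≤ p - 1 := Nat.le_of_dvd (by rcases hp with h | h | h | h <;> omega) hd
  rcases hp with rfl | rfl | rfl | rfl
  · left
    refine ⟨rfl, ?_⟩
    have hale' : a ≤ 4 := hale
    clear hale
    interval_cases b <;> first | omega | (interval_cases a <;> omega)
  · exfalso
    have hale' : a ≤ 6 := hale
    clear hale
    interval_cases b <;> first | omega | (interval_cases a <;> omega)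
  · right
    refine ⟨rfl, ?_⟩
    have hale' : a ≤ 10 := hale
    clear hale
    interval_cases b <;> first | omega | (interval_cases a <;> omega)
  · exfalso
    have hale' : a ≤ 22 := hale
    clear hale
    interval_cases b <;> first | omega | (interval_cases a <;> omega)

theorem idx2_or (hreg : Rg H) (hI : Rd H) (hs : Group.IsSolvable H) : (∃ N : Subgroup H, N.Normal ∧ N.index = 2) ∨
      (Nat.card V = 25 ∧ Nonempty (H ≃* Matrix.SpecialLinearGroup (Fin 2) (ZMod 3))) ∨
      (Nat.card V = 121 ∧ Nonempty (H ≃* Matrix.SpecialLinearGroup (Fin 2) (ZMod 3) × Multiplicative (ZMod 5))) := by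
  classical
  haveI := finite_equiv (p := p) (V := V)
  haveI := hI.nontrivial
  haveI : Fact (Nat.Prime 3) := ⟨Nat.prime_three⟩
  haveI : Fact (Nat.Prime 5) := ⟨Nat.prime_five⟩
  obtain ⟨N, hNn, ⟨e⟩, hp, hV, L, hL, hLD, hsc⟩ := solv_data hreg hI hs
  haveI := hNn
  by_cases hno : ∃ N : Subgroup H, N.Normal ∧ N.index = 2
  · exact Or.inl hno
  right
  set D := centralizer (N : Set H) with hD
  obtain ⟨φ⟩ := Cfsg.Agent.S3742.result
  let ψ : MulAut N ≃* Equiv.Perm (Fin 4) := (MulAut.congr e).trans φ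
  let F0 : H →* Equiv.Perm (Fin 4) := ψ.toMonoidHom.comp MulAut.conjNormal
  have hF0 : F0.ker = D := by
    rw [hD, ← conjNormal_ker]
    ext q
    rw [MonoidHom.mem_ker, MonoidHom.mem_ker]
    exact ⟨fun h => ψ.injective (h.trans (map_one _).symm), fun h => by
      change ψ (MulAut.conjNormal q) = 1
      rw [h, map_one]⟩
  have hm : D.index = Nat.card F0.range := by rw [← hF0, index_ker]
  -- the sign is trivial
  have hsgn : ∀ x : H, Equiv.Perm.sign (F0 x) = 1 := by
    let sg : H →* ℤˣ := Equiv.Perm.sign.comp F0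
    by_contra hne
    push Not at hne
    obtain ⟨x, hx⟩ := hne
    apply hno
    refine ⟨sg.ker, inferInstance, ?_⟩
    rw [index_ker]
    have h1 : Nat.card sg.range ∣ 2 := by
      have h3 : Nat.card ℤˣ = 2 := by rw [Nat.card_eq_fintype_card]; rfl
      rw [← h3]
      exact Subgroup.card_subgroup_dvd_card _
    rcases (Nat.dvd_prime Nat.prime_two).1 h1 with h | h
    · exfalso
      apply hx
      have h4 : sg.range = ⊥ := Subgroup.card_eq_one.1 h
      have h5 : sg x ∈ sg.range := ⟨x, rfl⟩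
      rw [h4, mem_bot] at h5
      exact h5
    · exact h
  have hm12 : D.index ∣ 12 := by
    rw [hm, ← CfsgLib.H3FC.card_a4]
    refine Subgroup.card_dvd_of_le ?_
    rintro _ ⟨x, rfl⟩
    exact Equiv.Perm.mem_alternatingGroup.2 (hsgn x)
  have hDdvd := hreg.card_dvd D L hLD
  rw [hL] at hDdvd
  have hcard : Nat.card D * D.index = p * p - 1 := by rw [D.card_mul_index, reg_card H hreg, hV]
  have hH := reg_card H hreg
  rw [hV] at hH
  have hne6 : D.index ≠ 6 := by
    intro h6
    apply hno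
    rw [hm] at h6
    obtain ⟨x, hx⟩ := exists_prime_orderOf_dvd_card' (G := F0.range) 3 (by rw [h6]; norm_num)
    have h3 : (zpowers x).index = 2 := by
      have h4 := (zpowers x).card_mul_index
      rw [Nat.card_zpowers, hx, h6] at h4
      omega
    have h5 : ((zpowers x).comap F0.rangeRestrict).index = 2 := by
      rw [Subgroup.index_comap_of_surjective _ F0.rangeRestrict_surjective, h3]
    exact ⟨_, Subgroup.normal_of_index_eq_two h5, h5⟩
  have hDpos : 0 < Nat.card D := Nat.card_pos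
  have hfin : (p = 5 ∧ Nat.card D = 2) ∨ (p = 11 ∧ Nat.card D = 10) := arithfin hp hDpos hDdvd hcard hm12 hne6
  have h3H : 3 ∣ Nat.card H := by
    rw [hH]
    rcases hfin with ⟨h, -⟩ | ⟨h, -⟩ <;> rw [h] <;> norm_num
  obtain ⟨t, ht⟩ := exists_prime_orderOf_dvd_card' (G := H) 3 h3H
  have ht3 : t ^ 3 = 1 := by
    have := pow_orderOf_eq_one t
    rwa [ht] at this
  have htD : t ∉ D := by
    intro h0
    have h4 : orderOf t ∣ Nat.card D := by
      have := orderOf_dvd_natCard (⟨t, h0⟩ : D)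
      rwa [Subgroup.orderOf_mk] at this
    rw [ht] at h4
    rcases hfin with ⟨-, h⟩ | ⟨-, h⟩ <;> rw [h] at h4 <;> omega
  have hNc : Nat.card N = 8 := by rw [Nat.card_congr e.toEquiv, Nat.card_eq_fintype_card]; decide
  rcases hfin with ⟨h5, hD2⟩ | ⟨h11, hD10⟩
  · left
    refine ⟨by rw [hV, h5], ?_⟩
    exact recog_sl23 (by rw [hH, h5]) N e ht3 htD
  · right
    refine ⟨by rw [hV, h11], ?_⟩
    have hH120 : Nat.card H = 120 := by rw [hH, h11]
    obtain ⟨z, hz⟩ := exists_prime_orderOf_dvd_card' (G := D) 5 (by rw [hD10]; norm_num)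
    have hz' : orderOf (z : H) = 5 := by rw [Subgroup.orderOf_coe, hz]
    have hzc : ∀ k : H, (z : H) * k = k * z := by
      obtain ⟨c, hc⟩ := hsc z z.2
      intro k
      refine (reg_free H hreg).central_of_scalar (c := c) ?_ k
      refine LinearMap.ext fun v => ?_
      exact hc v
    set M : Subgroup H := zpowers t ⊔ N with hM
    have hMc : Nat.card M = 24 := by
      rw [hM, CfsgLib.H3Misc.card_sup_of_disjoint (zpowers t) N ?_, Nat.card_zpowers, ht, hNc]
      refine Subgroup.inf_eq_bot_of_coprime ?_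
      rw [hNc, Nat.card_zpowers, ht]; norm_num
    have hinf : M ⊓ zpowers (z : H) = ⊥ := by
      refine Subgroup.inf_eq_bot_of_coprime ?_
      rw [hMc, Nat.card_zpowers, hz']; norm_num
    obtain ⟨f, hf, hfr⟩ := card_prod_of_inf M (zpowers (z : H)) hinf (by
      rintro n - _ ⟨k, rfl⟩
      exact (Commute.zpow_right (show Commute n (z : H) from (hzc n).symm) k).eq)
    have hcf : Nat.card f.range = 120 := by
      rw [← Nat.card_congr (MonoidHom.ofInjective hf).toEquiv, Nat.card_prod, hMc, Nat.card_zpowers, hz']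
    have hsurj : Function.Surjective f := by
      rw [← MonoidHom.range_eq_top]
      exact Subgroup.eq_top_of_card_eq _ (by rw [hcf, hH120])
    let E : H ≃* M × zpowers (z : H) := (MulEquiv.ofBijective f ⟨hf, hsurj⟩).symm
    have hNM : N ≤ M := le_sup_right
    have htM : t ∈ M := mem_sup_left (mem_zpowers t)
    obtain ⟨e3⟩ := recog_sl23 hMc (N.subgroupOf M) ((Subgroup.subgroupOfEquivOfLe hNM).trans e) (t := ⟨t, htM⟩) (Subtype.ext ht3) (by
      intro h0
      apply htD
      rw [hD, mem_centralizer_iff]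
      intro n hn
      have h4 := mem_centralizer_iff.1 h0 ⟨n, hNM hn⟩ (mem_subgroupOf.2 hn)
      exact congrArg (fun y : M => (y : H)) h4)
    exact ⟨E.trans (e3.prodCongr (mulEquivOfPrimeCardEq (p := 5) (by rw [Nat.card_zpowers, hz']) (by simp)))⟩

theorem final_H (hreg : Rg H) [Nontrivial V] (hs : Group.IsSolvable H) :
    ((∃ (F : Type) (_ : Field F) (_ : Fintype F) (e : V ≃+ F), ∀ g : H, ∃ (a : F) (σ : F ≃+* F), ∀ v : V, e ((g : V ≃ₗ[ZMod p] V) v) = a * σ (e v)) ∨
      Nat.card V ∈ ({25, 49, 121, 529} : Set ℕ)) ∧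
    (p ≠ 2 → (∃ N : Subgroup H, N.Normal ∧ N.index = 2) ∨
      (Nat.card V = 25 ∧ Nonempty (H ≃* Matrix.SpecialLinearGroup (Fin 2) (ZMod 3))) ∨
      (Nat.card V = 121 ∧ Nonempty (H ≃* Matrix.SpecialLinearGroup (Fin 2) (ZMod 3) × Multiplicative (ZMod 5)))) := by
  by_cases hI : Rd H
  · refine ⟨Or.inr ?_, fun _ => idx2_or hreg hI hs⟩
    rcases s0688 hreg hI hs with h | h | h | h <;> rw [h] <;> simp
  · unfold Rd at hI
    push Not at hI
    obtain ⟨A, hAn, hAc, hA⟩ := hI
    have hirr : ∀ W : Submodule (ZMod p) V, (∀ a ∈ A, ∀ v ∈ W, ((a : H) : V ≃ₗ[ZMod p] V) v ∈ W) → W = ⊥ ∨ W = ⊤ := by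
      intro W hW
      by_contra hne
      push Not at hne
      obtain ⟨a, ha, v, hv, hav⟩ := hA W hne.1 hne.2
      exact hav (hW a ha v hv)
    have hAc' : IsMulCommutative A := by
      letI := hAc.commGroup
      exact ⟨⟨fun a b => mul_comm a b⟩⟩
    exact ⟨Or.inl (semilinear A hirr hAn hAc'), fun hp2 => Or.inl (idx2_semilinear hreg hp2 A hAn hAc hirr)⟩

end Reg

end CfsgLib.H3Reg
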