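import Mathlib
import Cfsg.Prelude.Def_PLocal
import Cfsg.Agent.Lib.PGrp

/-!
# Regular `p`-groups
-/

set_option autoImplicit false
set_option maxHeartbeats 1000000

namespace CfsgLib.H3Rgp

open Subgroup
open scoped commutatorElement

universe u

variable {G : Type u} [Group G] [Finite G] {p : ℕ} [Fact p.Prime]

omit [Finite G] in
theorem cle (L : Subgroup G) : ⁅L, L⁆ ≤ L := by
  rw [commutator_le]
  intro a ha b hb
  rw [commutatorElement_def]
  exact L.mul_mem (L.mul_mem (L.mul_mem ha hb) (L.inv_mem ha)) (L.inv_mem hb)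

theorem proper (hG : IsPGroup p G) {z y : G} (L : Subgroup G) (hL : L = closure {z, y}) (hzy : z * y ≠ y * z) :
    zpowers z ⊔ ⁅L, L⁆ < L := by
  have hz : z ∈ L := hL ▸ subset_closure (by simp)
  have hy : y ∈ L := hL ▸ subset_closure (by simp)
  have hle : zpowers z ⊔ ⁅L, L⁆ ≤ L := sup_le ((zpowers_le).2 hz) (cle L)
  refine lt_of_le_of_ne hle ?_
  intro heq
  apply hzy
  have h1 : (zpowers (⟨z, hz⟩ : L) ⊔ ⁅(⊤ : Subgroup L), ⊤⁆).map L.subtype = (⊤ : Subgroup L).map L.subtype := by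
    rw [Subgroup.map_sup, map_commutator, MonoidHom.map_zpowers, ← MonoidHom.range_eq_map, range_subtype]
    exact heq
  have h2 := map_injective L.subtype_injective h1
  have h3 : ⁅(⊤ : Subgroup L), ⊤⁆ ≤ frattini L := CfsgLib.PGrp.commutator_le_frattini (hG.to_subgroup L)
  have h4 : zpowers (⟨z, hz⟩ : L) = ⊤ := by
    apply frattini_nongenerating
    rw [eq_top_iff, ← h2]
    exact sup_le_sup_left h3 _
  have h5 : (⟨y, hy⟩ : L) ∈ zpowers (⟨z, hz⟩ : L) := h4 ▸ mem_top _
  obtain ⟨n, hn⟩ := mem_zpowers_iff.1 h5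
  have h6 : z ^ n = y := congrArg Subtype.val hn
  rw [← h6]
  exact (zpow_mul_comm z 1 n |> fun h => by simpa using h)

/-- the derived subgroup is the normal closure of the commutator of generators -/
theorem comm_le {z y : G} (L : Subgroup G) (hL : L = closure {z, y}) (S : Subgroup G)
    (hSn : ∀ g ∈ L, ∀ s ∈ S, g * s * g⁻¹ ∈ S) (h : ⁅y, z⁆ ∈ S) : ⁅L, L⁆ ≤ S := by
  have hz : z ∈ L := hL ▸ subset_closure (by simp)
  have hy : y ∈ L := hL ▸ subset_closure (by simp)
  have key : ∀ u ∈ L, ⁅u, z⁆ ∈ S → ⁅u, y⁆ ∈ S → ∀ x ∈ L, ⁅u, x⁆ ∈ S := by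
    intro u hu h1 h2 x hx
    let T : Subgroup G :=
      { carrier := {x | x ∈ L ∧ ⁅u, x⁆ ∈ S}
        one_mem' := ⟨L.one_mem, by rw [commutatorElement_one_right]; exact S.one_mem⟩
        mul_mem' := by
          rintro a b ⟨ha, ha'⟩ ⟨hb, hb'⟩
          refine ⟨L.mul_mem ha hb, ?_⟩
          have e : ⁅u, a * b⁆ = ⁅u, a⁆ * (a * ⁅u, b⁆ * a⁻¹) := by simp only [commutatorElement_def]; group
          rw [e]
          exact S.mul_mem ha' (hSn a ha _ hb')
        inv_mem' := by
          rintro a ⟨ha, ha'⟩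
          refine ⟨L.inv_mem ha, ?_⟩
          have e : ⁅u, a⁻¹⁆ = (a⁻¹ * ⁅u, a⁆ * a⁻¹⁻¹)⁻¹ := by simp only [commutatorElement_def]; group
          rw [e]
          exact S.inv_mem (hSn _ (L.inv_mem ha) _ ha') }
    have hT : L ≤ T := by
      conv_lhs => rw [hL]
      rw [closure_le]
      rintro w (rfl | rfl)
      · exact ⟨hz, h1⟩
      · exact ⟨hy, h2⟩
    exact (hT hx).2
  have hinv : ∀ a b : G, ⁅a, b⁆ ∈ S → ⁅b, a⁆ ∈ S := by
    intro a b hab
    rw [← commutatorElement_inv]
    exact S.inv_mem hab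
  have h1 : ∀ x ∈ L, ⁅z, x⁆ ∈ S := key z hz (by rw [commutatorElement_self]; exact S.one_mem) (hinv _ _ h)
  have h2 : ∀ x ∈ L, ⁅y, x⁆ ∈ S := key y hy h (by rw [commutatorElement_self]; exact S.one_mem)
  rw [commutator_le]
  intro a ha b hb
  exact key a ha (hinv _ _ (h1 a ha)) (hinv _ _ (h2 a ha)) b hb

theorem main (hG : Cfsg.IsRegularPGroup p G) (k : ℕ) (n : ℕ) : ∀ H : Subgroup G, Nat.card H ≤ n → ∀ a ∈ H, ∀ b ∈ H,
    (a ^ p ^ k = b ^ p ^ k ↔ (a * b⁻¹) ^ p ^ k = 1) := by
  induction n with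
  | zero =>
    intro H h
    exact absurd h (by have := Nat.card_pos (α := H); omega)
  | succ n ih =>
    intro H hH a ha b hb
    by_cases hab : a * b = b * a
    · have hc : Commute a b⁻¹ := (show Commute a b from hab).inv_right
      rw [hc.mul_pow, inv_pow, mul_inv_eq_one]
    have key : ∀ z y : G, closure {z, y} ≤ H → z * y ≠ y * z → z ^ p ^ k * y = y * z ^ p ^ k → ∀ x ∈ ⁅closure {z, y}, closure {z, y}⁆, x ^ p ^ k = 1 := by
      intro z y hle hzy hcomm
      obtain ⟨L, hL⟩ : ∃ L, L = closure {z, y} := ⟨_, rfl⟩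
      rw [← hL] at hle ⊢
      have hlt := proper hG.1 L hL hzy
      have hz : z ∈ L := hL ▸ subset_closure (by simp)
      have hy : y ∈ L := hL ▸ subset_closure (by simp)
      have hlt2 : ∀ K : Subgroup G, K < L → Nat.card K ≤ n := by
        intro K hK
        have h1 : Nat.card K < Nat.card L := by
          have h2 := Set.ncard_lt_ncard (show (K : Set G) ⊂ (L : Set G) from hK) (Set.toFinite _)
          exact h2
        have h3 : Nat.card L ≤ Nat.card H := card_le_of_le hle
        omega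
      have ihK := ih _ (hlt2 _ hlt)
      have ihD := ih ⁅L, L⁆ (hlt2 _ (lt_of_le_of_lt le_sup_right hlt))
      let S : Subgroup G :=
        { carrier := {x | x ∈ ⁅L, L⁆ ∧ x ^ p ^ k = 1}
          one_mem' := ⟨Subgroup.one_mem _, one_pow _⟩
          mul_mem' := by
            rintro u v ⟨hu, hu'⟩ ⟨hv, hv'⟩
            refine ⟨Subgroup.mul_mem _ hu hv, ?_⟩
            have h1 := (ihD u hu v⁻¹ (Subgroup.inv_mem _ hv)).1 (by rw [hu', inv_pow, hv', inv_one])
            rwa [inv_inv] at h1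
          inv_mem' := by
            rintro u ⟨hu, hu'⟩
            exact ⟨Subgroup.inv_mem _ hu, by rw [inv_pow, hu', inv_one]⟩ }
      have hDn : ∀ g ∈ L, ∀ s ∈ ⁅L, L⁆, g * s * g⁻¹ ∈ ⁅L, L⁆ := by
        intro g hg s hs
        have h1 : g * s * g⁻¹ = ⁅g, s⁆ * s := by rw [commutatorElement_def]; group
        rw [h1]
        exact Subgroup.mul_mem _ (commutator_mem_commutator hg (cle L hs)) hs
      have hyz : ⁅y, z⁆ ∈ ⁅L, L⁆ := commutator_mem_commutator hy hz
      have hconj : (y * z * y⁻¹) ^ p ^ k = z ^ p ^ k := by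
        rw [conj_pow, ← hcomm, mul_inv_cancel_right]
      have h1 := (ihK (y * z * y⁻¹) (by
        have e : y * z * y⁻¹ = ⁅y, z⁆ * z := by rw [commutatorElement_def]; group
        rw [e]
        exact Subgroup.mul_mem _ (mem_sup_right hyz) (mem_sup_left (mem_zpowers z))) z (mem_sup_left (mem_zpowers z))).1 hconj
      have h2 : ⁅y, z⁆ ∈ S := ⟨hyz, by rw [commutatorElement_def]; exact h1⟩
      have h3 : ⁅L, L⁆ ≤ S := comm_le L hL S (fun g hg s hs => ⟨hDn g hg s hs.1, by rw [conj_pow, hs.2, mul_one, mul_inv_cancel]⟩) h2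
      intro x hx
      exact (h3 hx).2
    have hpc : ∀ D : Subgroup G, (∀ x ∈ D, x ^ p ^ k = 1) → ∀ c ∈ Cfsg.powerClosure p k D, c = 1 := by
      intro D hD c hc
      have h1 : Cfsg.powerClosure p k D ≤ ⊥ := by
        unfold Cfsg.powerClosure
        rw [closure_le]
        rintro _ ⟨x, hx, rfl⟩
        exact hD x hx
      exact (mem_bot).1 (h1 hc)
    constructor
    · intro hpow
      have hcl : closure {a, b⁻¹} = closure {a, b} := by
        apply le_antisymm
        · rw [closure_le]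
          intro w hw
          rcases hw with h | h
          · rw [h]; exact subset_closure (by simp)
          · rw [Set.mem_singleton_iff.1 h]; exact inv_mem (subset_closure (by simp))
        · rw [closure_le]
          intro w hw
          rcases hw with h | h
          · rw [h]; exact subset_closure (by simp)
          · have : b⁻¹ ∈ closure {a, b⁻¹} := subset_closure (by simp)
            have h2 := inv_mem this
            rw [inv_inv] at h2
            rw [Set.mem_singleton_iff.1 h]; exact h2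
      have hle : closure {a, b} ≤ H := by
        rw [closure_le]
        rintro w (rfl | rfl)
        · exact ha
        · exact hb
      have hD := key a b hle hab (by rw [hpow, ← pow_succ, ← pow_succ'])
      obtain ⟨c, hc, he⟩ := hG.2 a b⁻¹ k
      rw [hcl] at hc
      rw [he, hpc _ hD c hc, mul_one, inv_pow, hpow, mul_inv_cancel]
    · intro hpow
      obtain ⟨z, hz⟩ : ∃ z, z = a * b⁻¹ := ⟨_, rfl⟩
      have hza : z * b = a := by rw [hz]; group
      rw [← hz] at hpow
      have hzH : z ∈ H := hz ▸ H.mul_mem ha (H.inv_mem hb)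
      have hle : closure {z, b} ≤ H := by
        rw [closure_le]
        rintro w (rfl | rfl)
        · exact hzH
        · exact hb
      have hne : z * b ≠ b * z := by
        intro h
        apply hab
        rw [← hza, h, mul_assoc, ← h]
      have hD := key z b hle hne (by rw [hpow, one_mul, mul_one])
      obtain ⟨c, hc, he⟩ := hG.2 z b k
      rw [← hza, he, hpc _ hD c hc, mul_one, hpow, one_mul]

theorem s4210 (hG : Cfsg.IsRegularPGroup p G) (a b : G) (k : ℕ) : a ^ p ^ k = b ^ p ^ k ↔ (a * b⁻¹) ^ p ^ k = 1 :=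
  main hG k (Nat.card (⊤ : Subgroup G)) ⊤ le_rfl a (mem_top _) b (mem_top _)

theorem s4224 (hG : Cfsg.IsRegularPGroup p G) (a b : G) (k : ℕ) : a ^ p ^ k * b = b * a ^ p ^ k ↔ (a⁻¹ * b⁻¹ * a * b) ^ p ^ k = 1 := by
  have h1 : a ^ p ^ k * b = b * a ^ p ^ k ↔ (b⁻¹ * a * b) ^ p ^ k = a ^ p ^ k := by
    have e : (b⁻¹ * a * b) ^ p ^ k = b⁻¹ * a ^ p ^ k * b := by
      have := conj_pow (i := p ^ k) (a := b⁻¹) (b := a)
      rwa [inv_inv] at this
    rw [e, mul_assoc, inv_mul_eq_iff_eq_mul]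
  rw [h1, s4210 hG]
  have h2 : (b⁻¹ * a * b * a⁻¹) ^ p ^ k = a * (a⁻¹ * b⁻¹ * a * b) ^ p ^ k * a⁻¹ := by
    rw [← conj_pow]; congr 1; group
  rw [h2, mul_inv_eq_one]
  constructor
  · intro h; exact mul_eq_left.1 h
  · intro h; rw [h, mul_one]

theorem s4225 (hG : Cfsg.IsRegularPGroup p G) (k : ℕ) : ∃ H : Subgroup G, H.Characteristic ∧ (H : Set G) = {x : G | x ^ p ^ k = 1} := by
  let S : Subgroup G :=
    { carrier := {x | x ^ p ^ k = 1}
      one_mem' := one_pow _
      mul_mem' := by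
        intro u v hu hv
        have h1 := (s4210 hG u v⁻¹ k).1 (by rw [show u ^ p ^ k = 1 from hu, inv_pow, show v ^ p ^ k = 1 from hv, inv_one])
        rwa [inv_inv] at h1
      inv_mem' := by
        intro u hu
        show (u⁻¹) ^ p ^ k = 1
        rw [inv_pow, show u ^ p ^ k = 1 from hu, inv_one] }
  refine ⟨S, ?_, rfl⟩
  rw [characteristic_iff_le_comap]
  intro φ x hx
  show (φ x) ^ p ^ k = 1
  rw [← map_pow, show x ^ p ^ k = 1 from hx, map_one]

end CfsgLib.H3Rgp
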