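import Cfsg.Agent.Lib.H5TC6
import Cfsg.Prelude.Def_Spor_He

set_option autoImplicit false
set_option maxRecDepth 100000
set_option maxHeartbeats 0
set_option linter.unusedSimpArgs false

namespace Cfsg.Agent.H5TC.HeG

open Cfsg.Agent.H5TC Cfsg.Spor Cfsg.Spor.He

noncomputable def γ : ℕ → Cfsg.Spor.He
  | 0 => PresentedGroup.of Gen.a
  | 1 => PresentedGroup.of Gen.b
  | 2 => PresentedGroup.of Gen.c
  | 3 => PresentedGroup.of Gen.d
  | 4 => PresentedGroup.of Gen.e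
  | 5 => PresentedGroup.of Gen.f
  | 6 => PresentedGroup.of Gen.g
  | _ => 1
theorem mem (x : Gen) : x ∈ coxNodes edges := by cases x <;> simp [coxNodes, edges]
def gi : Gen → ℕ
  | Gen.a => 0
  | Gen.b => 1
  | Gen.c => 2
  | Gen.d => 3
  | Gen.e => 4
  | Gen.f => 5
  | Gen.g => 6
theorem γ_gi (x : Gen) : γ (gi x) = PresentedGroup.of x := by cases x <;> rfl
theorem γ_lt (x : Gen) : gi x < 7 := by cases x <;> decide
theorem γ_inv : ∀ y < 7, (γ y)⁻¹ = γ y := by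
  intro y hy
  interval_cases y
  · exact inv_eq_of_mul_eq_one_left (cox_sq edges extra Gen.a (mem _))
  · exact inv_eq_of_mul_eq_one_left (cox_sq edges extra Gen.b (mem _))
  · exact inv_eq_of_mul_eq_one_left (cox_sq edges extra Gen.c (mem _))
  · exact inv_eq_of_mul_eq_one_left (cox_sq edges extra Gen.d (mem _))
  · exact inv_eq_of_mul_eq_one_left (cox_sq edges extra Gen.e (mem _))
  · exact inv_eq_of_mul_eq_one_left (cox_sq edges extra Gen.f (mem _))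
  · exact inv_eq_of_mul_eq_one_left (cox_sq edges extra Gen.g (mem _))
theorem p0_1 : (γ 0 * γ 1) ^ 4 = 1 := cox_pair edges extra Gen.a Gen.b (mem _) (mem _)
theorem p0_2 : (γ 0 * γ 2) ^ 2 = 1 := cox_pair edges extra Gen.a Gen.c (mem _) (mem _)
theorem p0_3 : (γ 0 * γ 3) ^ 2 = 1 := cox_pair edges extra Gen.a Gen.d (mem _) (mem _)
theorem p0_4 : (γ 0 * γ 4) ^ 2 = 1 := cox_pair edges extra Gen.a Gen.e (mem _) (mem _)
theorem p0_5 : (γ 0 * γ 5) ^ 2 = 1 := cox_pair edges extra Gen.a Gen.f (mem _) (mem _)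
theorem p0_6 : (γ 0 * γ 6) ^ 2 = 1 := cox_pair edges extra Gen.a Gen.g (mem _) (mem _)
theorem p1_2 : (γ 1 * γ 2) ^ 3 = 1 := cox_pair edges extra Gen.b Gen.c (mem _) (mem _)
theorem p1_3 : (γ 1 * γ 3) ^ 2 = 1 := cox_pair edges extra Gen.b Gen.d (mem _) (mem _)
theorem p1_4 : (γ 1 * γ 4) ^ 2 = 1 := cox_pair edges extra Gen.b Gen.e (mem _) (mem _)
theorem p1_5 : (γ 1 * γ 5) ^ 2 = 1 := cox_pair edges extra Gen.b Gen.f (mem _) (mem _)
theorem p1_6 : (γ 1 * γ 6) ^ 2 = 1 := cox_pair edges extra Gen.b Gen.g (mem _) (mem _)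
theorem p2_3 : (γ 2 * γ 3) ^ 10 = 1 := cox_pair edges extra Gen.c Gen.d (mem _) (mem _)
theorem p2_4 : (γ 2 * γ 4) ^ 2 = 1 := cox_pair edges extra Gen.c Gen.e (mem _) (mem _)
theorem p2_5 : (γ 2 * γ 5) ^ 2 = 1 := cox_pair edges extra Gen.c Gen.f (mem _) (mem _)
theorem p2_6 : (γ 2 * γ 6) ^ 2 = 1 := cox_pair edges extra Gen.c Gen.g (mem _) (mem _)
theorem p3_4 : (γ 3 * γ 4) ^ 3 = 1 := cox_pair edges extra Gen.d Gen.e (mem _) (mem _)
theorem p3_5 : (γ 3 * γ 5) ^ 3 = 1 := cox_pair edges extra Gen.d Gen.f (mem _) (mem _)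
theorem p3_6 : (γ 3 * γ 6) ^ 3 = 1 := cox_pair edges extra Gen.d Gen.g (mem _) (mem _)
theorem p4_5 : (γ 4 * γ 5) ^ 2 = 1 := cox_pair edges extra Gen.e Gen.f (mem _) (mem _)
theorem p4_6 : (γ 4 * γ 6) ^ 2 = 1 := cox_pair edges extra Gen.e Gen.g (mem _) (mem _)
theorem p5_6 : (γ 5 * γ 6) ^ 4 = 1 := cox_pair edges extra Gen.f Gen.g (mem _) (mem _)
theorem ex0_eq {P : Type*} [Group P] (δ : ℕ → P) (h : ∀ y < 7, (δ y)⁻¹ = δ y) :
    (δ 4) * (((δ 5) * (δ 6)) ^ 2)⁻¹ = wd δ [4, 6, 5, 6, 5] ^ 1 := by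
  have h4 := h 4 (by norm_num)
  have h5 := h 5 (by norm_num)
  have h6 := h 6 (by norm_num)
  simp only [wd, List.map_cons, List.map_nil, List.prod_cons, List.prod_nil, mul_one, pow_succ, pow_zero, one_mul, mul_assoc, mul_inv_rev, h4, h5, h6]
theorem e0 : wd γ [4, 6, 5, 6, 5] ^ 1 = 1 := by
  have h := mk_rel edges extra (e * ((f * g) ^ 2)⁻¹) (Or.inr (by simp [extra]))
  simp only [map_mul, map_pow, map_inv] at h
  rw [← ex0_eq γ γ_inv]
  exact h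
theorem ex1_eq {P : Type*} [Group P] (δ : ℕ → P) (h : ∀ y < 7, (δ y)⁻¹ = δ y) :
    (δ 4) * (((δ 0) * (δ 1) * (δ 2)) ^ 3)⁻¹ = wd δ [4, 2, 1, 0, 2, 1, 0, 2, 1, 0] ^ 1 := by
  have h0 := h 0 (by norm_num)
  have h1 := h 1 (by norm_num)
  have h2 := h 2 (by norm_num)
  have h4 := h 4 (by norm_num)
  simp only [wd, List.map_cons, List.map_nil, List.prod_cons, List.prod_nil, mul_one, pow_succ, pow_zero, one_mul, mul_assoc, mul_inv_rev, h0, h1, h2, h4]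
theorem e1 : wd γ [4, 2, 1, 0, 2, 1, 0, 2, 1, 0] ^ 1 = 1 := by
  have h := mk_rel edges extra (e * ((a * b * c) ^ 3)⁻¹) (Or.inr (by simp [extra]))
  simp only [map_mul, map_pow, map_inv] at h
  rw [← ex1_eq γ γ_inv]
  exact h
theorem ex2_eq {P : Type*} [Group P] (δ : ℕ → P) (h : ∀ y < 7, (δ y)⁻¹ = δ y) :
    (δ 0) * (((δ 2) * (δ 3)) ^ 5)⁻¹ = wd δ [0, 3, 2, 3, 2, 3, 2, 3, 2, 3, 2] ^ 1 := by
  have h0 := h 0 (by norm_num)
  have h2 := h 2 (by norm_num)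
  have h3 := h 3 (by norm_num)
  simp only [wd, List.map_cons, List.map_nil, List.prod_cons, List.prod_nil, mul_one, pow_succ, pow_zero, one_mul, mul_assoc, mul_inv_rev, h0, h2, h3]
theorem e2 : wd γ [0, 3, 2, 3, 2, 3, 2, 3, 2, 3, 2] ^ 1 = 1 := by
  have h := mk_rel edges extra (a * ((c * d) ^ 5)⁻¹) (Or.inr (by simp [extra]))
  simp only [map_mul, map_pow, map_inv] at h
  rw [← ex2_eq γ γ_inv]
  exact h
theorem ex3_eq {P : Type*} [Group P] (δ : ℕ → P) (h : ∀ y < 7, (δ y)⁻¹ = δ y) :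
    ((δ 2) * (δ 3) * (δ 5) * (δ 6)) ^ 4 = wd δ [2, 3, 5, 6] ^ 4 := by
  have h2 := h 2 (by norm_num)
  have h3 := h 3 (by norm_num)
  have h5 := h 5 (by norm_num)
  have h6 := h 6 (by norm_num)
  congr 1
  simp only [wd, List.map_cons, List.map_nil, List.prod_cons, List.prod_nil, mul_one, pow_succ, pow_zero, one_mul, mul_assoc]
theorem e3 : wd γ [2, 3, 5, 6] ^ 4 = 1 := by
  have h := mk_rel edges extra ((c * d * f * g) ^ 4) (Or.inr (by simp [extra]))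
  simp only [map_mul, map_pow, map_inv] at h
  rw [← ex3_eq γ γ_inv]
  exact h
/-- the relators -/
def fullrels : List (List ℕ) := [[0, 1, 0, 1, 0, 1, 0, 1], [0, 2, 0, 2], [0, 3, 0, 3], [0, 4, 0, 4], [0, 5, 0, 5], [0, 6, 0, 6], [1, 2, 1, 2, 1, 2], [1, 3, 1, 3], [1, 4, 1, 4], [1, 5, 1, 5], [1, 6, 1, 6], [2, 3, 2, 3, 2, 3, 2, 3, 2, 3, 2, 3, 2, 3, 2, 3, 2, 3, 2, 3], [2, 4, 2, 4], [2, 5, 2, 5], [2, 6, 2, 6], [3, 4, 3, 4, 3, 4], [3, 5, 3, 5, 3, 5], [3, 6, 3, 6, 3, 6], [4, 5, 4, 5], [4, 6, 4, 6], [5, 6, 5, 6, 5, 6, 5, 6], [4, 6, 5, 6, 5], [4, 2, 1, 0, 2, 1, 0, 2, 1, 0], [0, 3, 2, 3, 2, 3, 2, 3, 2, 3, 2], [2, 3, 5, 6, 2, 3, 5, 6, 2, 3, 5, 6, 2, 3, 5, 6]]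
theorem fullrels_spec : ∀ r ∈ fullrels, wd γ r = 1 := by
  intro r hr
  simp only [fullrels, List.mem_cons, List.not_mem_nil, or_false] at hr
  rcases hr with rfl | rfl | rfl | rfl | rfl | rfl | rfl | rfl | rfl | rfl | rfl | rfl | rfl | rfl | rfl | rfl | rfl | rfl | rfl | rfl | rfl | rfl | rfl | rfl | rfl
  · exact pair_word (m := 4) p0_1
  · exact pair_word (m := 2) p0_2
  · exact pair_word (m := 2) p0_3
  · exact pair_word (m := 2) p0_4
  · exact pair_word (m := 2) p0_5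
  · exact pair_word (m := 2) p0_6
  · exact pair_word (m := 3) p1_2
  · exact pair_word (m := 2) p1_3
  · exact pair_word (m := 2) p1_4
  · exact pair_word (m := 2) p1_5
  · exact pair_word (m := 2) p1_6
  · exact pair_word (m := 10) p2_3
  · exact pair_word (m := 2) p2_4
  · exact pair_word (m := 2) p2_5
  · exact pair_word (m := 2) p2_6
  · exact pair_word (m := 3) p3_4
  · exact pair_word (m := 3) p3_5
  · exact pair_word (m := 3) p3_6
  · exact pair_word (m := 2) p4_5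
  · exact pair_word (m := 2) p4_6
  · exact pair_word (m := 4) p5_6
  · exact pow_word (m := 1) e0
  · exact pow_word (m := 1) e1
  · exact pow_word (m := 1) e2
  · exact pow_word (m := 4) e3
theorem gen_top : Subgroup.closure {g | ∃ y < 7, g = γ y} = ⊤ := by
  rw [eq_top_iff, ← cox_gen edges extra]
  apply Subgroup.closure_mono
  rintro _ ⟨x, rfl⟩
  exact ⟨gi x, γ_lt x, (γ_gi x).symm⟩
/-- homomorphisms -/
theorem hom {P : Type*} [Group P] (δ : ℕ → P) (h : ∀ y < 7, δ y * δ y = 1)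
    (h0_1 : (δ 0 * δ 1) ^ 4 = 1)
    (h0_2 : (δ 0 * δ 2) ^ 2 = 1)
    (h0_3 : (δ 0 * δ 3) ^ 2 = 1)
    (h0_4 : (δ 0 * δ 4) ^ 2 = 1)
    (h0_5 : (δ 0 * δ 5) ^ 2 = 1)
    (h0_6 : (δ 0 * δ 6) ^ 2 = 1)
    (h1_2 : (δ 1 * δ 2) ^ 3 = 1)
    (h1_3 : (δ 1 * δ 3) ^ 2 = 1)
    (h1_4 : (δ 1 * δ 4) ^ 2 = 1)
    (h1_5 : (δ 1 * δ 5) ^ 2 = 1)
    (h1_6 : (δ 1 * δ 6) ^ 2 = 1)
    (h2_3 : (δ 2 * δ 3) ^ 10 = 1)
    (h2_4 : (δ 2 * δ 4) ^ 2 = 1)
    (h2_5 : (δ 2 * δ 5) ^ 2 = 1)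
    (h2_6 : (δ 2 * δ 6) ^ 2 = 1)
    (h3_4 : (δ 3 * δ 4) ^ 3 = 1)
    (h3_5 : (δ 3 * δ 5) ^ 3 = 1)
    (h3_6 : (δ 3 * δ 6) ^ 3 = 1)
    (h4_5 : (δ 4 * δ 5) ^ 2 = 1)
    (h4_6 : (δ 4 * δ 6) ^ 2 = 1)
    (h5_6 : (δ 5 * δ 6) ^ 4 = 1)
    (he0 : wd δ [4, 6, 5, 6, 5] ^ 1 = 1)
    (he1 : wd δ [4, 2, 1, 0, 2, 1, 0, 2, 1, 0] ^ 1 = 1)
    (he2 : wd δ [0, 3, 2, 3, 2, 3, 2, 3, 2, 3, 2] ^ 1 = 1)
    (he3 : wd δ [2, 3, 5, 6] ^ 4 = 1)
    : ∃ φ : Cfsg.Spor.He →* P, ∀ y < 7, φ (γ y) = δ y := by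
  have hi : ∀ y < 7, (δ y)⁻¹ = δ y := fun y hy => inv_eq_of_mul_eq_one_left (h y hy)
  suffices hh : (∀ x ∈ coxNodes edges, ∀ y ∈ coxNodes edges, (δ (gi x) * δ (gi y)) ^ coxLabel edges x y = 1) ∧ (∀ r ∈ extra, FreeGroup.lift (fun x => δ (gi x)) r = 1) by
    obtain ⟨φ, hφ⟩ := cox_hom edges extra (fun x => δ (gi x)) hh.1 hh.2
    refine ⟨φ, fun y hy => ?_⟩
    interval_cases y
    · exact hφ Gen.a
    · exact hφ Gen.b
    · exact hφ Gen.c
    · exact hφ Gen.d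
    · exact hφ Gen.e
    · exact hφ Gen.f
    · exact hφ Gen.g
  constructor
  · intro x _ y _
    cases x <;> cases y
    · exact (pow_one _).trans (h 0 (by norm_num))
    · exact h0_1
    · exact h0_2
    · exact h0_3
    · exact h0_4
    · exact h0_5
    · exact h0_6
    · exact pair_swap (h 0 (by norm_num)) (h 1 (by norm_num)) h0_1
    · exact (pow_one _).trans (h 1 (by norm_num))
    · exact h1_2
    · exact h1_3
    · exact h1_4
    · exact h1_5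
    · exact h1_6
    · exact pair_swap (h 0 (by norm_num)) (h 2 (by norm_num)) h0_2
    · exact pair_swap (h 1 (by norm_num)) (h 2 (by norm_num)) h1_2
    · exact (pow_one _).trans (h 2 (by norm_num))
    · exact h2_3
    · exact h2_4
    · exact h2_5
    · exact h2_6
    · exact pair_swap (h 0 (by norm_num)) (h 3 (by norm_num)) h0_3
    · exact pair_swap (h 1 (by norm_num)) (h 3 (by norm_num)) h1_3
    · exact pair_swap (h 2 (by norm_num)) (h 3 (by norm_num)) h2_3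
    · exact (pow_one _).trans (h 3 (by norm_num))
    · exact h3_4
    · exact h3_5
    · exact h3_6
    · exact pair_swap (h 0 (by norm_num)) (h 4 (by norm_num)) h0_4
    · exact pair_swap (h 1 (by norm_num)) (h 4 (by norm_num)) h1_4
    · exact pair_swap (h 2 (by norm_num)) (h 4 (by norm_num)) h2_4
    · exact pair_swap (h 3 (by norm_num)) (h 4 (by norm_num)) h3_4
    · exact (pow_one _).trans (h 4 (by norm_num))
    · exact h4_5
    · exact h4_6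
    · exact pair_swap (h 0 (by norm_num)) (h 5 (by norm_num)) h0_5
    · exact pair_swap (h 1 (by norm_num)) (h 5 (by norm_num)) h1_5
    · exact pair_swap (h 2 (by norm_num)) (h 5 (by norm_num)) h2_5
    · exact pair_swap (h 3 (by norm_num)) (h 5 (by norm_num)) h3_5
    · exact pair_swap (h 4 (by norm_num)) (h 5 (by norm_num)) h4_5
    · exact (pow_one _).trans (h 5 (by norm_num))
    · exact h5_6
    · exact pair_swap (h 0 (by norm_num)) (h 6 (by norm_num)) h0_6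
    · exact pair_swap (h 1 (by norm_num)) (h 6 (by norm_num)) h1_6
    · exact pair_swap (h 2 (by norm_num)) (h 6 (by norm_num)) h2_6
    · exact pair_swap (h 3 (by norm_num)) (h 6 (by norm_num)) h3_6
    · exact pair_swap (h 4 (by norm_num)) (h 6 (by norm_num)) h4_6
    · exact pair_swap (h 5 (by norm_num)) (h 6 (by norm_num)) h5_6
    · exact (pow_one _).trans (h 6 (by norm_num))
  · intro r hr
    simp only [extra, List.mem_cons, List.not_mem_nil, or_false] at hr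
    rcases hr with rfl | rfl | rfl | rfl
    · simp only [map_mul, map_pow, map_inv, FreeGroup.lift_apply_of]
      exact (ex0_eq δ hi).trans he0
    · simp only [map_mul, map_pow, map_inv, FreeGroup.lift_apply_of]
      exact (ex1_eq δ hi).trans he1
    · simp only [map_mul, map_pow, map_inv, FreeGroup.lift_apply_of]
      exact (ex2_eq δ hi).trans he2
    · simp only [map_mul, map_pow, map_inv, FreeGroup.lift_apply_of]
      exact (ex3_eq δ hi).trans he3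
end Cfsg.Agent.H5TC.HeG
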