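import Cfsg.Agent.Lib.H5TCHe49980B

set_option autoImplicit false
set_option maxRecDepth 1000000
set_option maxHeartbeats 0
set_option Elab.async false

namespace Cfsg.Agent.H5TC.He49980

open Cfsg.Agent.H5TC

/-- The certificate theorem. -/
theorem main {Γ X : Type*} [Group Γ] [MulAction Γ X] (γ : ℕ → Γ) (x0 : X)
    (hinv : ∀ y < k, γ (inv y) = (γ y)⁻¹) (hr : ∀ r ∈ rels, wd γ r = 1)
    (hb : ∀ b ∈ subw, (wd γ b)⁻¹ • x0 = x0) :
    ∃ p : ℕ → X, p 0 = x0 ∧ ∀ y < k, ∀ c, Vc E n c → (γ y)⁻¹ • p c = p (T y c) :=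
  main0 γ x0 hinv hr (fun b h => (List.mem_append.1 h).elim (hb b) (fun h => absurd h (by simp [seeds])))
end Cfsg.Agent.H5TC.He49980
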