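import Cfsg.Agent.Lib.H5TC8
import Cfsg.Agent.Lib.H5TCHeG
import Cfsg.Agent.Lib.H5TCHe49980M
import Cfsg.Agent.Lib.H5TCHe672M
import Cfsg.Agent.Lib.H5TCHe120M
import Cfsg.Agent.Lib.H5TCHeWLem

set_option autoImplicit false
set_option maxRecDepth 100000

namespace Cfsg.Agent.H5TC.HeUp

open Cfsg.Agent.H5TC

def κ0 : ℕ → ℕ
  | 0 => 0
  | 1 => 1
  | 2 => 2
  | 3 => 3
  | 4 => 4
  | _ => 0
theorem lem0 : ∀ b ∈ HeWLem.seeds, wd (fun y => HeG.γ (κ0 y)) b = 1 := by
  intro b hb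
  have h := HeWLem.lemma_thm (fun y => HeG.γ (κ0 y)) (1 : Cfsg.Spor.He) ?_ ?_ ?_ b hb
  · have h2 : (wd (fun y => HeG.γ (κ0 y)) b)⁻¹ * 1 = 1 := h
    rwa [mul_one, inv_eq_one] at h2
  · intro y hy
    have hy' : y < 5 := hy
    interval_cases y
    · exact (HeG.γ_inv 0 (by norm_num)).symm
    · exact (HeG.γ_inv 1 (by norm_num)).symm
    · exact (HeG.γ_inv 2 (by norm_num)).symm
    · exact (HeG.γ_inv 3 (by norm_num)).symm
    · exact (HeG.γ_inv 4 (by norm_num)).symm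
  · intro r hr
    rw [wd_map]
    have : r.map κ0 ∈ HeG.fullrels := by
      revert r
      decide +kernel
    exact HeG.fullrels_spec _ this
  · intro r hr
    exact absurd hr (by simp [HeWLem.subw])
def full2 : List (List ℕ) := HeG.fullrels ++ HeWLem.seeds.map (fun w => w.map κ0)
theorem full2_spec : ∀ r ∈ full2, wd HeG.γ r = 1 := by
  intro r hr
  unfold full2 at hr
  simp only [List.mem_append] at hr
  rcases hr with hr | hr
  · exact HeG.fullrels_spec r hr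
  · obtain ⟨w, hw, rfl⟩ := List.mem_map.1 hr
    rw [← wd_map]
    exact lem0 w hw
def ι0 : ℕ → ℕ
  | 0 => 0
  | 1 => 1
  | 2 => 2
  | 3 => 3
  | 4 => 4
  | 5 => 5
  | 6 => 6
  | _ => 0
theorem step0 : (Kof HeG.γ [0, 2, 3, 4, 5, 6]).relIndex (Kof HeG.γ [0, 1, 2, 3, 4, 5, 6]) ≤ 49980 ∧
    (Kof HeG.γ [0, 2, 3, 4, 5, 6]).relIndex (Kof HeG.γ [0, 1, 2, 3, 4, 5, 6]) ≠ 0 := by
  have hinv : ∀ y < He49980.k, HeG.γ (ι0 (He49980.inv y)) = (HeG.γ (ι0 y))⁻¹ := by
    intro y hy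
    have hy' : y < 7 := hy
    interval_cases y
    · exact (HeG.γ_inv 0 (by norm_num)).symm
    · exact (HeG.γ_inv 1 (by norm_num)).symm
    · exact (HeG.γ_inv 2 (by norm_num)).symm
    · exact (HeG.γ_inv 3 (by norm_num)).symm
    · exact (HeG.γ_inv 4 (by norm_num)).symm
    · exact (HeG.γ_inv 5 (by norm_num)).symm
    · exact (HeG.γ_inv 6 (by norm_num)).symm
  refine enum_step HeG.γ ι0 (k := He49980.k) (n := He49980.n) (E := He49980.E) (T := He49980.T) He49980.tab [0, 1, 2, 3, 4, 5, 6] [0, 2, 3, 4, 5, 6] He49980.subw (by decide) (by decide) hinv ?_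
  intro x0 hx0
  exact He49980.main (fun y => HeG.γ (ι0 y)) x0 hinv (by
    intro r hr
    rw [wd_map]
    have : r.map ι0 ∈ full2 := by
      revert r
      decide +kernel
    exact full2_spec _ this) hx0
def ι1 : ℕ → ℕ
  | 0 => 0
  | 1 => 2
  | 2 => 3
  | 3 => 4
  | 4 => 5
  | 5 => 6
  | _ => 0
theorem step1 : (Kof HeG.γ [0, 2, 3, 4]).relIndex (Kof HeG.γ [0, 2, 3, 4, 5, 6]) ≤ 672 ∧
    (Kof HeG.γ [0, 2, 3, 4]).relIndex (Kof HeG.γ [0, 2, 3, 4, 5, 6]) ≠ 0 := by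
  have hinv : ∀ y < He672.k, HeG.γ (ι1 (He672.inv y)) = (HeG.γ (ι1 y))⁻¹ := by
    intro y hy
    have hy' : y < 6 := hy
    interval_cases y
    · exact (HeG.γ_inv 0 (by norm_num)).symm
    · exact (HeG.γ_inv 2 (by norm_num)).symm
    · exact (HeG.γ_inv 3 (by norm_num)).symm
    · exact (HeG.γ_inv 4 (by norm_num)).symm
    · exact (HeG.γ_inv 5 (by norm_num)).symm
    · exact (HeG.γ_inv 6 (by norm_num)).symm
  refine enum_step HeG.γ ι1 (k := He672.k) (n := He672.n) (E := He672.E) (T := He672.T) He672.tab [0, 2, 3, 4, 5, 6] [0, 2, 3, 4] He672.subw (by decide) (by decide) hinv ?_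
  intro x0 hx0
  exact He672.main (fun y => HeG.γ (ι1 y)) x0 hinv (by
    intro r hr
    rw [wd_map]
    have : r.map ι1 ∈ full2 := by
      revert r
      decide +kernel
    exact full2_spec _ this) hx0
def ι2 : ℕ → ℕ
  | 0 => 0
  | 1 => 2
  | 2 => 3
  | 3 => 4
  | _ => 0
theorem step2 : (Kof HeG.γ []).relIndex (Kof HeG.γ [0, 2, 3, 4]) ≤ 120 ∧
    (Kof HeG.γ []).relIndex (Kof HeG.γ [0, 2, 3, 4]) ≠ 0 := by
  have hinv : ∀ y < He120.k, HeG.γ (ι2 (He120.inv y)) = (HeG.γ (ι2 y))⁻¹ := by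
    intro y hy
    have hy' : y < 4 := hy
    interval_cases y
    · exact (HeG.γ_inv 0 (by norm_num)).symm
    · exact (HeG.γ_inv 2 (by norm_num)).symm
    · exact (HeG.γ_inv 3 (by norm_num)).symm
    · exact (HeG.γ_inv 4 (by norm_num)).symm
  refine enum_step HeG.γ ι2 (k := He120.k) (n := He120.n) (E := He120.E) (T := He120.T) He120.tab [0, 2, 3, 4] [] He120.subw (by decide) (by decide) hinv ?_
  intro x0 hx0
  exact He120.main (fun y => HeG.γ (ι2 y)) x0 hinv (by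
    intro r hr
    rw [wd_map]
    have : r.map ι2 ∈ full2 := by
      revert r
      decide +kernel
    exact full2_spec _ this) hx0
theorem card_le : Nat.card Cfsg.Spor.He ≤ 4030387200 ∧ Nat.card Cfsg.Spor.He ≠ 0 := by
  have htop : Kof HeG.γ [0, 1, 2, 3, 4, 5, 6] = ⊤ := by
    rw [← HeG.gen_top]
    unfold Kof
    congr 1
    ext x
    constructor
    · rintro ⟨y, hy, rfl⟩
      refine ⟨y, ?_, rfl⟩
      simp only [List.mem_cons, List.not_mem_nil, or_false] at hy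
      omega
    · rintro ⟨y, hy, rfl⟩
      refine ⟨y, ?_, rfl⟩
      simp only [List.mem_cons, List.not_mem_nil, or_false]
      omega
  have h3 := card_bot_le HeG.γ
  have h2 := card_step (Kof_mono HeG.γ (by decide)) step2 h3
  have h1 := card_step (Kof_mono HeG.γ (by decide)) step1 h2
  have h0 := card_step (Kof_mono HeG.γ (by decide)) step0 h1
  rw [htop, Subgroup.card_top] at h0
  exact ⟨h0.1.trans (by norm_num), h0.2⟩
end Cfsg.Agent.H5TC.HeUp
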