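import Cfsg.Agent.Lib.H5TCHe2058C
import Cfsg.Agent.Lib.H5TCHe2058N
import Cfsg.Agent.Lib.H5TCHe2058O
import Cfsg.Agent.Lib.H5TCHeUp
import Cfsg.Agent.Lib.H5TCHeCol

set_option autoImplicit false
set_option maxRecDepth 1000000
set_option maxHeartbeats 0
set_option Elab.async false

namespace Cfsg.Agent.H5TC.He2058.S

open Cfsg.Agent.H5TC
open Cfsg.Agent.H5TC.He2058
set_option linter.style.haveILetI false


noncomputable def cT (i : ℕ) : Bool := Nat.ble (O.Lab (Nat.mul 16 i)) 4
theorem hT_0 : all2 cT 11 0 = true := by decide +kernel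
theorem hT_1 : all2 cT 3 2048 = true := by decide +kernel
theorem hT_2 : all2 cT 1 2056 = true := by decide +kernel
theorem hT : ∀ i < 2058, cT i = true := by
  have h0 : ∀ i < 0, cT i = true := fun i hi => absurd hi (Nat.not_lt_zero i)
  have h1 : ∀ i < 2048, cT i = true := range_step h0 hT_0 (by norm_num)
  have h2 : ∀ i < 2056, cT i = true := range_step h1 hT_1 (by norm_num)
  have h3 : ∀ i < 2058, cT i = true := range_step h2 hT_2 (by norm_num)
  exact h3
theorem hlt : ∀ c, Vc E n c → O.Lab c ≤ 4 := by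
  rintro c ⟨i, hi, rfl⟩
  exact Nat.le_of_ble_eq_true (hT i hi)
attribute [local irreducible] f0 f1 f2 f3 f4 f5 f6
noncomputable def cU (i : ℕ) : Bool := (fun c => (fun d1 => @Bool.rec (fun _ => Bool) ((fun d2 => @Bool.rec (fun _ => Bool) ((fun d3 => @Bool.rec (fun _ => Bool) ((fun d4 => @Bool.rec (fun _ => Bool) ((fun d5 => @Bool.rec (fun _ => Bool) ((fun d6 => @Bool.rec (fun _ => Bool) ((fun d7 => @Bool.rec (fun _ => Bool) (Nat.beq d7 c) true (Nat.blt d7 c)) (f5 (f6 (f3 (d6))))) true (Nat.blt d6 c)) (f5 (f6 (f3 (d5))))) true (Nat.blt d5 c)) (f5 (f6 (f3 (d4))))) true (Nat.blt d4 c)) (f5 (f6 (f3 (d3))))) true (Nat.blt d3 c)) (f5 (f6 (f3 (d2))))) true (Nat.blt d2 c)) (f5 (f6 (f3 (d1))))) true (Nat.blt d1 c)) (f5 (f6 (f3 (c))))) (Nat.mul 16 i)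
theorem hU_0 : all2 cU 11 0 = true := by decide +kernel
theorem hU_1 : all2 cU 3 2048 = true := by decide +kernel
theorem hU_2 : all2 cU 1 2056 = true := by decide +kernel
theorem hU : ∀ i < 2058, cU i = true := by
  have h0 : ∀ i < 0, cU i = true := fun i hi => absurd hi (Nat.not_lt_zero i)
  have h1 : ∀ i < 2048, cU i = true := range_step h0 hU_0 (by norm_num)
  have h2 : ∀ i < 2056, cU i = true := range_step h1 hU_1 (by norm_num)
  have h3 : ∀ i < 2058, cU i = true := range_step h2 hU_2 (by norm_num)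
  exact h3
theorem ux : wd tab.perm [3, 6, 5] ^ 7 = 1 :=
  pow_spec tab [3, 6, 5] 7 (by decide) (fun c hc => by
    obtain ⟨i, hi, rfl⟩ := hc
    exact hU i hi)
theorem simple : IsSimpleGroup Cfsg.Spor.He ∧ Nat.card Cfsg.Spor.He = 4030387200 := by
  obtain ⟨h1, φ, p, hp0, hφ, h2, h3⟩ := core
  haveI : Finite Cfsg.Spor.He := Nat.finite_of_card_ne_zero HeUp.card_le.2
  have htr : ∀ c, ∃ g : Cfsg.Spor.He, φ g ⟨0, tab.zero⟩ = c := by
    intro c
    obtain ⟨g, _, hg⟩ := trans_aux HeG.γ tab φ hφ htree c.1 c.2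
    exact ⟨g, hg⟩
  obtain ⟨hinj, hcard⟩ := inj_of_card φ (by norm_num) (N.card_ge HeG.γ φ hφ htr) HeUp.card_le.1
  refine ⟨?_, hcard⟩
  refine simple_thm2 φ hinj tab.zero htr HH p hp0 h2 h3 O.Lab O.roots 4 ![1, 1360, 425, 136, 136] ?_ ?_ hlt (by decide +kernel) rfl
    (by decide +kernel) h1 (by norm_num) 7 (by norm_num) (m := 1958400) (by rw [hcard]; show 4030387200 = 2058 * 1958400; norm_num) (by norm_num) (wd HeG.γ [3, 6, 5]) ?_ ?_
  · intro l hl
    interval_cases l
    · exact (orb φ p hφ h2 h3 0 O.root0 O.rlab0).1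
    · exact (orb φ p hφ h2 h3 1 O.root1 O.rlab1).1
    · exact (orb φ p hφ h2 h3 2 O.root2 O.rlab2).1
    · exact (orb φ p hφ h2 h3 3 O.root3 O.rlab3).1
    · exact (orb φ p hφ h2 h3 4 O.root4 O.rlab4).1
  · intro l
    fin_cases l
    · exact O.card0
    · exact O.card1
    · exact O.card2
    · exact O.card3
    · exact O.card4
  · apply hinj
    rw [map_pow, map_one]
    have e : φ (wd HeG.γ [3, 6, 5]) = wd tab.perm [3, 6, 5] := by
      rw [← wd_hom]
      exact wd_congr _ (fun y hy => hφ y (by revert y; decide))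
    rw [e]
    exact ux
  · intro N hN hu
    haveI := hN
    have key : ∀ b ∈ HeCol.seeds, wd (fun y => QuotientGroup.mk' N (HeG.γ y)) b = 1 := by
      intro b hb
      have h := HeCol.lemma_thm (fun y => QuotientGroup.mk' N (HeG.γ y)) (1 : Cfsg.Spor.He ⧸ N) ?_ ?_ ?_ b hb
      · have h2 : (wd (fun y => QuotientGroup.mk' N (HeG.γ y)) b)⁻¹ * 1 = 1 := h
        rwa [mul_one, inv_eq_one] at h2
      · intro y hy
        have hy' : y < 7 := hy
        have : HeG.γ (HeCol.inv y) = (HeG.γ y)⁻¹ := by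
          rw [HeG.γ_inv y hy']
          interval_cases y <;> rfl
        rw [this, map_inv]
      · intro r hr
        rw [wd_hom]
        have : r ∈ HeG.fullrels ∨ r = [3, 6, 5] := by
          revert r
          decide +kernel
        rcases this with h | h
        · rw [HeG.fullrels_spec r h, map_one]
        · rw [h]
          exact (QuotientGroup.eq_one_iff _).2 hu
      · intro r hr
        exact absurd hr (by simp [HeCol.subw])
    rw [eq_top_iff, ← HeG.gen_top, Subgroup.closure_le]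
    rintro _ ⟨y, hy, rfl⟩
    have h := key [y] (by revert y; decide +kernel)
    rw [wd_cons, wd_nil, mul_one] at h
    exact (QuotientGroup.eq_one_iff _).1 h
end Cfsg.Agent.H5TC.He2058.S
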