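import Cfsg.Agent.Lib.H5TC6
import Cfsg.Prelude.Def_Spor_ON

set_option autoImplicit false
set_option maxRecDepth 100000
set_option maxHeartbeats 0
set_option linter.unusedSimpArgs false

namespace Cfsg.Agent.H5TC.ONG

open Cfsg.Agent.H5TC Cfsg.Spor Cfsg.Spor.ON

noncomputable def γ : ℕ → Cfsg.Spor.ON
  | 0 => PresentedGroup.of Gen.g
  | 1 => (PresentedGroup.of Gen.g)⁻¹
  | 2 => PresentedGroup.of Gen.a
  | 3 => PresentedGroup.of Gen.b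
  | 4 => PresentedGroup.of Gen.c
  | 5 => PresentedGroup.of Gen.d
  | 6 => PresentedGroup.of Gen.e
  | 7 => PresentedGroup.of Gen.f
  | _ => 1
def vinv : ℕ → ℕ
  | 0 => 1
  | 1 => 0
  | 2 => 2
  | 3 => 3
  | 4 => 4
  | 5 => 5
  | 6 => 6
  | 7 => 7
  | y => y
theorem mem_a : Gen.a ∈ coxNodes edges := by simp [coxNodes, edges]
theorem mem_b : Gen.b ∈ coxNodes edges := by simp [coxNodes, edges]
theorem mem_c : Gen.c ∈ coxNodes edges := by simp [coxNodes, edges]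
theorem mem_d : Gen.d ∈ coxNodes edges := by simp [coxNodes, edges]
theorem mem_e : Gen.e ∈ coxNodes edges := by simp [coxNodes, edges]
theorem mem_f : Gen.f ∈ coxNodes edges := by simp [coxNodes, edges]
theorem mem_iff (x : Gen) : x ∈ coxNodes edges ↔ (x = Gen.a ∨ x = Gen.b ∨ x = Gen.c ∨ x = Gen.d ∨ x = Gen.e ∨ x = Gen.f) := by
  cases x <;> simp [coxNodes, edges]
def gi : Gen → ℕ
  | Gen.g => 0
  | Gen.a => 2
  | Gen.b => 3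
  | Gen.c => 4
  | Gen.d => 5
  | Gen.e => 6
  | Gen.f => 7
theorem γ_gi (x : Gen) : γ (gi x) = PresentedGroup.of x := by cases x <;> rfl
theorem γ_lt (x : Gen) : gi x < 8 := by cases x <;> decide
theorem γ_inv : ∀ y < 8, (γ y)⁻¹ = γ (vinv y) := by
  intro y hy
  interval_cases y
  · rfl
  · exact inv_inv _
  · exact inv_eq_of_mul_eq_one_left (cox_sq edges extra Gen.a mem_a)
  · exact inv_eq_of_mul_eq_one_left (cox_sq edges extra Gen.b mem_b)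
  · exact inv_eq_of_mul_eq_one_left (cox_sq edges extra Gen.c mem_c)
  · exact inv_eq_of_mul_eq_one_left (cox_sq edges extra Gen.d mem_d)
  · exact inv_eq_of_mul_eq_one_left (cox_sq edges extra Gen.e mem_e)
  · exact inv_eq_of_mul_eq_one_left (cox_sq edges extra Gen.f mem_f)
theorem p2_3 : (γ 2 * γ 3) ^ 3 = 1 := cox_pair edges extra Gen.a Gen.b mem_a mem_b
theorem p2_4 : (γ 2 * γ 4) ^ 2 = 1 := cox_pair edges extra Gen.a Gen.c mem_a mem_c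
theorem p2_5 : (γ 2 * γ 5) ^ 2 = 1 := cox_pair edges extra Gen.a Gen.d mem_a mem_d
theorem p2_6 : (γ 2 * γ 6) ^ 2 = 1 := cox_pair edges extra Gen.a Gen.e mem_a mem_e
theorem p2_7 : (γ 2 * γ 7) ^ 2 = 1 := cox_pair edges extra Gen.a Gen.f mem_a mem_f
theorem p3_4 : (γ 3 * γ 4) ^ 3 = 1 := cox_pair edges extra Gen.b Gen.c mem_b mem_c
theorem p3_5 : (γ 3 * γ 5) ^ 2 = 1 := cox_pair edges extra Gen.b Gen.d mem_b mem_d
theorem p3_6 : (γ 3 * γ 6) ^ 2 = 1 := cox_pair edges extra Gen.b Gen.e mem_b mem_e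
theorem p3_7 : (γ 3 * γ 7) ^ 2 = 1 := cox_pair edges extra Gen.b Gen.f mem_b mem_f
theorem p4_5 : (γ 4 * γ 5) ^ 8 = 1 := cox_pair edges extra Gen.c Gen.d mem_c mem_d
theorem p4_6 : (γ 4 * γ 6) ^ 2 = 1 := cox_pair edges extra Gen.c Gen.e mem_c mem_e
theorem p4_7 : (γ 4 * γ 7) ^ 2 = 1 := cox_pair edges extra Gen.c Gen.f mem_c mem_f
theorem p5_6 : (γ 5 * γ 6) ^ 3 = 1 := cox_pair edges extra Gen.d Gen.e mem_d mem_e
theorem p5_7 : (γ 5 * γ 7) ^ 2 = 1 := cox_pair edges extra Gen.d Gen.f mem_d mem_f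
theorem p6_7 : (γ 6 * γ 7) ^ 3 = 1 := cox_pair edges extra Gen.e Gen.f mem_e mem_f
theorem ex0_eq {P : Type*} [Group P] (δ : ℕ → P) (h : ∀ y < 8, (δ y)⁻¹ = δ (vinv y)) :
    ((δ 2) * (δ 7)) * (((δ 0) ^ 2)⁻¹) = wd δ [2, 7, 1, 1] ^ 1 := by
  have h0 : (δ 0)⁻¹ = δ 1 := h 0 (by norm_num)
  have h1 : (δ 1)⁻¹ = δ 0 := h 1 (by norm_num)
  have h2 : (δ 2)⁻¹ = δ 2 := h 2 (by norm_num)
  have h3 : (δ 3)⁻¹ = δ 3 := h 3 (by norm_num)
  have h4 : (δ 4)⁻¹ = δ 4 := h 4 (by norm_num)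
  have h5 : (δ 5)⁻¹ = δ 5 := h 5 (by norm_num)
  have h6 : (δ 6)⁻¹ = δ 6 := h 6 (by norm_num)
  have h7 : (δ 7)⁻¹ = δ 7 := h 7 (by norm_num)
  simp only [wd, List.map_cons, List.map_nil, List.prod_cons, List.prod_nil, mul_one, pow_succ, pow_zero, one_mul, mul_assoc, mul_inv_rev, h0, h1, h2, h3, h4, h5, h6, h7]
theorem e0 : wd γ [2, 7, 1, 1] ^ 1 = 1 := by
  have h := mk_rel edges extra ((a * f) * ((g ^ 2)⁻¹)) (Or.inr (by simp [extra]))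
  simp only [map_mul, map_pow, map_inv] at h
  rw [← ex0_eq γ γ_inv]
  exact h
theorem ex1_eq {P : Type*} [Group P] (δ : ℕ → P) (h : ∀ y < 8, (δ y)⁻¹ = δ (vinv y)) :
    ((δ 2) * (δ 7)) * ((((δ 4) * (δ 5)) ^ 4)⁻¹) = wd δ [2, 7, 5, 4, 5, 4, 5, 4, 5, 4] ^ 1 := by
  have h0 : (δ 0)⁻¹ = δ 1 := h 0 (by norm_num)
  have h1 : (δ 1)⁻¹ = δ 0 := h 1 (by norm_num)
  have h2 : (δ 2)⁻¹ = δ 2 := h 2 (by norm_num)
  have h3 : (δ 3)⁻¹ = δ 3 := h 3 (by norm_num)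
  have h4 : (δ 4)⁻¹ = δ 4 := h 4 (by norm_num)
  have h5 : (δ 5)⁻¹ = δ 5 := h 5 (by norm_num)
  have h6 : (δ 6)⁻¹ = δ 6 := h 6 (by norm_num)
  have h7 : (δ 7)⁻¹ = δ 7 := h 7 (by norm_num)
  simp only [wd, List.map_cons, List.map_nil, List.prod_cons, List.prod_nil, mul_one, pow_succ, pow_zero, one_mul, mul_assoc, mul_inv_rev, h0, h1, h2, h3, h4, h5, h6, h7]
theorem e1 : wd γ [2, 7, 5, 4, 5, 4, 5, 4, 5, 4] ^ 1 = 1 := by
  have h := mk_rel edges extra ((a * f) * (((c * d) ^ 4)⁻¹)) (Or.inr (by simp [extra]))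
  simp only [map_mul, map_pow, map_inv] at h
  rw [← ex1_eq γ γ_inv]
  exact h
theorem ex2_eq {P : Type*} [Group P] (δ : ℕ → P) (h : ∀ y < 8, (δ y)⁻¹ = δ (vinv y)) :
    (δ 4) * (((δ 5) * (δ 0) * (δ 5) * (δ 0))⁻¹ * (δ 4) * ((δ 5) * (δ 0) * (δ 5) * (δ 0))) = wd δ [4, 1, 5, 1, 5, 4, 5, 0, 5, 0] ^ 1 := by
  have h0 : (δ 0)⁻¹ = δ 1 := h 0 (by norm_num)
  have h1 : (δ 1)⁻¹ = δ 0 := h 1 (by norm_num)
  have h2 : (δ 2)⁻¹ = δ 2 := h 2 (by norm_num)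
  have h3 : (δ 3)⁻¹ = δ 3 := h 3 (by norm_num)
  have h4 : (δ 4)⁻¹ = δ 4 := h 4 (by norm_num)
  have h5 : (δ 5)⁻¹ = δ 5 := h 5 (by norm_num)
  have h6 : (δ 6)⁻¹ = δ 6 := h 6 (by norm_num)
  have h7 : (δ 7)⁻¹ = δ 7 := h 7 (by norm_num)
  simp only [wd, List.map_cons, List.map_nil, List.prod_cons, List.prod_nil, mul_one, pow_succ, pow_zero, one_mul, mul_assoc, mul_inv_rev, h0, h1, h2, h3, h4, h5, h6, h7]
theorem e2 : wd γ [4, 1, 5, 1, 5, 4, 5, 0, 5, 0] ^ 1 = 1 := by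
  have h := mk_rel edges extra (c * ((d * g * d * g)⁻¹ * c * (d * g * d * g))) (Or.inr (by simp [extra]))
  simp only [map_mul, map_pow, map_inv] at h
  rw [← ex2_eq γ γ_inv]
  exact h
theorem ex3_eq {P : Type*} [Group P] (δ : ℕ → P) (h : ∀ y < 8, (δ y)⁻¹ = δ (vinv y)) :
    (δ 5) * (((δ 4) * (δ 0) * (δ 4) * (δ 0))⁻¹ * (δ 5) * ((δ 4) * (δ 0) * (δ 4) * (δ 0))) = wd δ [5, 1, 4, 1, 4, 5, 4, 0, 4, 0] ^ 1 := by
  have h0 : (δ 0)⁻¹ = δ 1 := h 0 (by norm_num)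
  have h1 : (δ 1)⁻¹ = δ 0 := h 1 (by norm_num)
  have h2 : (δ 2)⁻¹ = δ 2 := h 2 (by norm_num)
  have h3 : (δ 3)⁻¹ = δ 3 := h 3 (by norm_num)
  have h4 : (δ 4)⁻¹ = δ 4 := h 4 (by norm_num)
  have h5 : (δ 5)⁻¹ = δ 5 := h 5 (by norm_num)
  have h6 : (δ 6)⁻¹ = δ 6 := h 6 (by norm_num)
  have h7 : (δ 7)⁻¹ = δ 7 := h 7 (by norm_num)
  simp only [wd, List.map_cons, List.map_nil, List.prod_cons, List.prod_nil, mul_one, pow_succ, pow_zero, one_mul, mul_assoc, mul_inv_rev, h0, h1, h2, h3, h4, h5, h6, h7]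
theorem e3 : wd γ [5, 1, 4, 1, 4, 5, 4, 0, 4, 0] ^ 1 = 1 := by
  have h := mk_rel edges extra (d * ((c * g * c * g)⁻¹ * d * (c * g * c * g))) (Or.inr (by simp [extra]))
  simp only [map_mul, map_pow, map_inv] at h
  rw [← ex3_eq γ γ_inv]
  exact h
theorem ex4_eq {P : Type*} [Group P] (δ : ℕ → P) (h : ∀ y < 8, (δ y)⁻¹ = δ (vinv y)) :
    ((δ 3) * (δ 4) * (δ 5) * (δ 0)) ^ 5 = wd δ [3, 4, 5, 0] ^ 5 := by
  have h0 : (δ 0)⁻¹ = δ 1 := h 0 (by norm_num)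
  have h1 : (δ 1)⁻¹ = δ 0 := h 1 (by norm_num)
  have h2 : (δ 2)⁻¹ = δ 2 := h 2 (by norm_num)
  have h3 : (δ 3)⁻¹ = δ 3 := h 3 (by norm_num)
  have h4 : (δ 4)⁻¹ = δ 4 := h 4 (by norm_num)
  have h5 : (δ 5)⁻¹ = δ 5 := h 5 (by norm_num)
  have h6 : (δ 6)⁻¹ = δ 6 := h 6 (by norm_num)
  have h7 : (δ 7)⁻¹ = δ 7 := h 7 (by norm_num)
  congr 1
  simp only [wd, List.map_cons, List.map_nil, List.prod_cons, List.prod_nil, mul_one, pow_succ, pow_zero, one_mul, mul_assoc]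
theorem e4 : wd γ [3, 4, 5, 0] ^ 5 = 1 := by
  have h := mk_rel edges extra ((b * c * d * g) ^ 5) (Or.inr (by simp [extra]))
  simp only [map_mul, map_pow, map_inv] at h
  rw [← ex4_eq γ γ_inv]
  exact h
theorem ex5_eq {P : Type*} [Group P] (δ : ℕ → P) (h : ∀ y < 8, (δ y)⁻¹ = δ (vinv y)) :
    (δ 0) * (δ 3) * ((δ 4)⁻¹ * (δ 0) * (δ 4)) * ((δ 3)⁻¹ * (δ 0) * (δ 3)) * ((δ 4)⁻¹ * (δ 0) * (δ 4)) = wd δ [0, 3, 4, 0, 4, 3, 0, 3, 4, 0, 4] ^ 1 := by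
  have h0 : (δ 0)⁻¹ = δ 1 := h 0 (by norm_num)
  have h1 : (δ 1)⁻¹ = δ 0 := h 1 (by norm_num)
  have h2 : (δ 2)⁻¹ = δ 2 := h 2 (by norm_num)
  have h3 : (δ 3)⁻¹ = δ 3 := h 3 (by norm_num)
  have h4 : (δ 4)⁻¹ = δ 4 := h 4 (by norm_num)
  have h5 : (δ 5)⁻¹ = δ 5 := h 5 (by norm_num)
  have h6 : (δ 6)⁻¹ = δ 6 := h 6 (by norm_num)
  have h7 : (δ 7)⁻¹ = δ 7 := h 7 (by norm_num)
  simp only [wd, List.map_cons, List.map_nil, List.prod_cons, List.prod_nil, mul_one, pow_succ, pow_zero, one_mul, mul_assoc, mul_inv_rev, h0, h1, h2, h3, h4, h5, h6, h7]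
theorem e5 : wd γ [0, 3, 4, 0, 4, 3, 0, 3, 4, 0, 4] ^ 1 = 1 := by
  have h := mk_rel edges extra (g * b * (c⁻¹ * g * c) * (b⁻¹ * g * b) * (c⁻¹ * g * c)) (Or.inr (by simp [extra]))
  simp only [map_mul, map_pow, map_inv] at h
  rw [← ex5_eq γ γ_inv]
  exact h
theorem ex6_eq {P : Type*} [Group P] (δ : ℕ → P) (h : ∀ y < 8, (δ y)⁻¹ = δ (vinv y)) :
    (δ 0) * (δ 6) * ((δ 5)⁻¹ * (δ 0) * (δ 5)) * ((δ 6)⁻¹ * (δ 0) * (δ 6)) * ((δ 5)⁻¹ * (δ 0) * (δ 5)) = wd δ [0, 6, 5, 0, 5, 6, 0, 6, 5, 0, 5] ^ 1 := by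
  have h0 : (δ 0)⁻¹ = δ 1 := h 0 (by norm_num)
  have h1 : (δ 1)⁻¹ = δ 0 := h 1 (by norm_num)
  have h2 : (δ 2)⁻¹ = δ 2 := h 2 (by norm_num)
  have h3 : (δ 3)⁻¹ = δ 3 := h 3 (by norm_num)
  have h4 : (δ 4)⁻¹ = δ 4 := h 4 (by norm_num)
  have h5 : (δ 5)⁻¹ = δ 5 := h 5 (by norm_num)
  have h6 : (δ 6)⁻¹ = δ 6 := h 6 (by norm_num)
  have h7 : (δ 7)⁻¹ = δ 7 := h 7 (by norm_num)
  simp only [wd, List.map_cons, List.map_nil, List.prod_cons, List.prod_nil, mul_one, pow_succ, pow_zero, one_mul, mul_assoc, mul_inv_rev, h0, h1, h2, h3, h4, h5, h6, h7]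
theorem e6 : wd γ [0, 6, 5, 0, 5, 6, 0, 6, 5, 0, 5] ^ 1 = 1 := by
  have h := mk_rel edges extra (g * e * (d⁻¹ * g * d) * (e⁻¹ * g * e) * (d⁻¹ * g * d)) (Or.inr (by simp [extra]))
  simp only [map_mul, map_pow, map_inv] at h
  rw [← ex6_eq γ γ_inv]
  exact h
/-- the relators -/
def fullrels : List (List ℕ) := [[2, 3, 2, 3, 2, 3], [2, 4, 2, 4], [2, 5, 2, 5], [2, 6, 2, 6], [2, 7, 2, 7], [3, 4, 3, 4, 3, 4], [3, 5, 3, 5], [3, 6, 3, 6], [3, 7, 3, 7], [4, 5, 4, 5, 4, 5, 4, 5, 4, 5, 4, 5, 4, 5, 4, 5], [4, 6, 4, 6], [4, 7, 4, 7], [5, 6, 5, 6, 5, 6], [5, 7, 5, 7], [6, 7, 6, 7, 6, 7], [2, 7, 1, 1], [2, 7, 5, 4, 5, 4, 5, 4, 5, 4], [4, 1, 5, 1, 5, 4, 5, 0, 5, 0], [5, 1, 4, 1, 4, 5, 4, 0, 4, 0], [3, 4, 5, 0, 3, 4, 5, 0, 3, 4, 5, 0, 3, 4, 5, 0, 3, 4, 5, 0], [0, 3, 4, 0, 4, 3, 0, 3, 4, 0, 4], [0, 6, 5, 0, 5, 6, 0, 6, 5, 0, 5]]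
theorem fullrels_spec : ∀ r ∈ fullrels, wd γ r = 1 := by
  intro r hr
  simp only [fullrels, List.mem_cons, List.not_mem_nil, or_false] at hr
  rcases hr with rfl | rfl | rfl | rfl | rfl | rfl | rfl | rfl | rfl | rfl | rfl | rfl | rfl | rfl | rfl | rfl | rfl | rfl | rfl | rfl | rfl | rfl
  · exact pair_word (m := 3) p2_3
  · exact pair_word (m := 2) p2_4
  · exact pair_word (m := 2) p2_5
  · exact pair_word (m := 2) p2_6
  · exact pair_word (m := 2) p2_7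
  · exact pair_word (m := 3) p3_4
  · exact pair_word (m := 2) p3_5
  · exact pair_word (m := 2) p3_6
  · exact pair_word (m := 2) p3_7
  · exact pair_word (m := 8) p4_5
  · exact pair_word (m := 2) p4_6
  · exact pair_word (m := 2) p4_7
  · exact pair_word (m := 3) p5_6
  · exact pair_word (m := 2) p5_7
  · exact pair_word (m := 3) p6_7
  · exact pow_word (m := 1) e0
  · exact pow_word (m := 1) e1
  · exact pow_word (m := 1) e2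
  · exact pow_word (m := 1) e3
  · exact pow_word (m := 5) e4
  · exact pow_word (m := 1) e5
  · exact pow_word (m := 1) e6
theorem gen_top : Subgroup.closure {g | ∃ y < 8, g = γ y} = ⊤ := by
  rw [eq_top_iff, ← cox_gen edges extra]
  apply Subgroup.closure_mono
  rintro _ ⟨x, rfl⟩
  exact ⟨gi x, γ_lt x, (γ_gi x).symm⟩
/-- homomorphisms -/
theorem hom {P : Type*} [Group P] (δ : ℕ → P) (hi : ∀ y < 8, (δ y)⁻¹ = δ (vinv y))
    (h2_3 : (δ 2 * δ 3) ^ 3 = 1)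
    (h2_4 : (δ 2 * δ 4) ^ 2 = 1)
    (h2_5 : (δ 2 * δ 5) ^ 2 = 1)
    (h2_6 : (δ 2 * δ 6) ^ 2 = 1)
    (h2_7 : (δ 2 * δ 7) ^ 2 = 1)
    (h3_4 : (δ 3 * δ 4) ^ 3 = 1)
    (h3_5 : (δ 3 * δ 5) ^ 2 = 1)
    (h3_6 : (δ 3 * δ 6) ^ 2 = 1)
    (h3_7 : (δ 3 * δ 7) ^ 2 = 1)
    (h4_5 : (δ 4 * δ 5) ^ 8 = 1)
    (h4_6 : (δ 4 * δ 6) ^ 2 = 1)
    (h4_7 : (δ 4 * δ 7) ^ 2 = 1)
    (h5_6 : (δ 5 * δ 6) ^ 3 = 1)
    (h5_7 : (δ 5 * δ 7) ^ 2 = 1)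
    (h6_7 : (δ 6 * δ 7) ^ 3 = 1)
    (he0 : wd δ [2, 7, 1, 1] ^ 1 = 1)
    (he1 : wd δ [2, 7, 5, 4, 5, 4, 5, 4, 5, 4] ^ 1 = 1)
    (he2 : wd δ [4, 1, 5, 1, 5, 4, 5, 0, 5, 0] ^ 1 = 1)
    (he3 : wd δ [5, 1, 4, 1, 4, 5, 4, 0, 4, 0] ^ 1 = 1)
    (he4 : wd δ [3, 4, 5, 0] ^ 5 = 1)
    (he5 : wd δ [0, 3, 4, 0, 4, 3, 0, 3, 4, 0, 4] ^ 1 = 1)
    (he6 : wd δ [0, 6, 5, 0, 5, 6, 0, 6, 5, 0, 5] ^ 1 = 1)
    : ∃ φ : Cfsg.Spor.ON →* P, ∀ y < 8, φ (γ y) = δ y := by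
  have hs2 : δ 2 * δ 2 = 1 := by
    have h0 : (δ 2)⁻¹ = δ 2 := hi 2 (by norm_num)
    nth_rewrite 1 [← h0]
    exact inv_mul_cancel _
  have hs3 : δ 3 * δ 3 = 1 := by
    have h0 : (δ 3)⁻¹ = δ 3 := hi 3 (by norm_num)
    nth_rewrite 1 [← h0]
    exact inv_mul_cancel _
  have hs4 : δ 4 * δ 4 = 1 := by
    have h0 : (δ 4)⁻¹ = δ 4 := hi 4 (by norm_num)
    nth_rewrite 1 [← h0]
    exact inv_mul_cancel _
  have hs5 : δ 5 * δ 5 = 1 := by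
    have h0 : (δ 5)⁻¹ = δ 5 := hi 5 (by norm_num)
    nth_rewrite 1 [← h0]
    exact inv_mul_cancel _
  have hs6 : δ 6 * δ 6 = 1 := by
    have h0 : (δ 6)⁻¹ = δ 6 := hi 6 (by norm_num)
    nth_rewrite 1 [← h0]
    exact inv_mul_cancel _
  have hs7 : δ 7 * δ 7 = 1 := by
    have h0 : (δ 7)⁻¹ = δ 7 := hi 7 (by norm_num)
    nth_rewrite 1 [← h0]
    exact inv_mul_cancel _
  suffices hh : (∀ x ∈ coxNodes edges, ∀ y ∈ coxNodes edges, (δ (gi x) * δ (gi y)) ^ coxLabel edges x y = 1) ∧ (∀ r ∈ extra, FreeGroup.lift (fun x => δ (gi x)) r = 1) by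
    obtain ⟨φ, hφ⟩ := cox_hom edges extra (fun x => δ (gi x)) hh.1 hh.2
    refine ⟨φ, fun y hy => ?_⟩
    interval_cases y
    · exact hφ Gen.g
    · have h0 : φ (γ 1) = (φ (PresentedGroup.of Gen.g))⁻¹ := map_inv φ _
      rw [h0, hφ Gen.g]
      exact hi 0 (by norm_num)
    · exact hφ Gen.a
    · exact hφ Gen.b
    · exact hφ Gen.c
    · exact hφ Gen.d
    · exact hφ Gen.e
    · exact hφ Gen.f
  constructor
  · intro x hx y hy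
    rw [mem_iff] at hx hy
    rcases hx with rfl | rfl | rfl | rfl | rfl | rfl <;> rcases hy with rfl | rfl | rfl | rfl | rfl | rfl
    · exact (pow_one _).trans hs2
    · exact h2_3
    · exact h2_4
    · exact h2_5
    · exact h2_6
    · exact h2_7
    · exact pair_swap hs2 hs3 h2_3
    · exact (pow_one _).trans hs3
    · exact h3_4
    · exact h3_5
    · exact h3_6
    · exact h3_7
    · exact pair_swap hs2 hs4 h2_4
    · exact pair_swap hs3 hs4 h3_4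
    · exact (pow_one _).trans hs4
    · exact h4_5
    · exact h4_6
    · exact h4_7
    · exact pair_swap hs2 hs5 h2_5
    · exact pair_swap hs3 hs5 h3_5
    · exact pair_swap hs4 hs5 h4_5
    · exact (pow_one _).trans hs5
    · exact h5_6
    · exact h5_7
    · exact pair_swap hs2 hs6 h2_6
    · exact pair_swap hs3 hs6 h3_6
    · exact pair_swap hs4 hs6 h4_6
    · exact pair_swap hs5 hs6 h5_6
    · exact (pow_one _).trans hs6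
    · exact h6_7
    · exact pair_swap hs2 hs7 h2_7
    · exact pair_swap hs3 hs7 h3_7
    · exact pair_swap hs4 hs7 h4_7
    · exact pair_swap hs5 hs7 h5_7
    · exact pair_swap hs6 hs7 h6_7
    · exact (pow_one _).trans hs7
  · intro r hr
    simp only [extra, List.mem_cons, List.not_mem_nil, or_false] at hr
    rcases hr with rfl | rfl | rfl | rfl | rfl | rfl | rfl
    · simp only [map_mul, map_pow, map_inv, FreeGroup.lift_apply_of]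
      exact (ex0_eq δ hi).trans he0
    · simp only [map_mul, map_pow, map_inv, FreeGroup.lift_apply_of]
      exact (ex1_eq δ hi).trans he1
    · simp only [map_mul, map_pow, map_inv, FreeGroup.lift_apply_of]
      exact (ex2_eq δ hi).trans he2
    · simp only [map_mul, map_pow, map_inv, FreeGroup.lift_apply_of]
      exact (ex3_eq δ hi).trans he3
    · simp only [map_mul, map_pow, map_inv, FreeGroup.lift_apply_of]
      exact (ex4_eq δ hi).trans he4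
    · simp only [map_mul, map_pow, map_inv, FreeGroup.lift_apply_of]
      exact (ex5_eq δ hi).trans he5
    · simp only [map_mul, map_pow, map_inv, FreeGroup.lift_apply_of]
      exact (ex6_eq δ hi).trans he6
end Cfsg.Agent.H5TC.ONG
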