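import Cfsg.Agent.Lib.H5TCON122760P
import Cfsg.Agent.Lib.H5TCONG

set_option autoImplicit false

namespace Cfsg.Agent.H5TC.ON122760

open Cfsg.Agent.H5TC

theorem hom : ∃ φ : Cfsg.Spor.ON →* Equiv.Perm {c // Vc E n c}, ∀ y < k, φ (ONG.γ y) = tab.perm y :=
  ONG.hom tab.perm (fun y hy => by
    have e := tab.perm_inv (y := y) hy
    rw [← e]
    have hy' : y < 8 := hy
    interval_cases y <;> rfl) q2_3 q2_4 q2_5 q2_6 q2_7 q3_4 q3_5 q3_6 q3_7 q4_5 q4_6 q4_7 q5_6 q5_7 q6_7 v0 v1 v2 v3 v4 v5 v6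
end Cfsg.Agent.H5TC.ON122760
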