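import Cfsg.Agent.Lib.H5TC5

set_option autoImplicit false
set_option maxRecDepth 1000000
set_option maxHeartbeats 0
set_option Elab.async false

namespace Cfsg.Agent.H5TC.ONl1

open Cfsg.Agent.H5TC

abbrev k : ℕ := 6
def inv : ℕ → ℕ
  | 0 => 1
  | 1 => 0
  | 2 => 2
  | 3 => 3
  | 4 => 4
  | 5 => 5
  | y => y
theorem inv_lt : ∀ y < k, inv y < k := by decide
/-- relators -/
def rels : List (List ℕ) := [[2, 3, 2, 3, 2, 3], [2, 4, 2, 4], [2, 5, 2, 5], [3, 4, 3, 4, 3, 4], [3, 5, 3, 5], [4, 5, 4, 5], [2, 5, 1, 1], [0, 3, 4, 0, 4, 3, 0, 3, 4, 0, 4], [0, 2, 1, 2], [0, 5, 1, 5]]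
/-- trivial relators -/
def relsT : List (List ℕ) := [[0, 1], [1, 0], [2, 2], [3, 3], [4, 4], [5, 5]]
/-- subgroup words -/
def subw : List (List ℕ) := []
/-- further subgroup words -/
def seeds : List (List ℕ) := [[0, 3, 0, 3, 0, 3, 0, 3]]
noncomputable def u0 : ℕ := 0x3c103a10000000000000321000002e102c1000004510000000000000441022100000291020100000401000001b1000003e1000001e103310141000001310000038100000000035100000000000000e100000301000000d10000000000c10000000002810000023100000000000001d100000041017100000000012100000021000000b10000000100610011
noncomputable def uf0 (c : ℕ) : ℕ := Nat.land (Nat.shiftRight u0 c) 65535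
noncomputable def u1 : ℕ := 0x3b103710000000000000311000002d1000004510000044100000251000000000221000002a10401000001c1000003e1000003d1000000000341014100000000000000000121036100000331000002b100e1000002f100000000000000b10000000002910271008100000000000001e101a10171004100000000000000000011000000c10000006100010021
noncomputable def uf1 (c : ℕ) : ℕ := Nat.land (Nat.shiftRight u1 c) 65535
noncomputable def u2 : ℕ := 0x3b10000000000000311000000000000043100000000000002610281000002210000000003f101d1000000000191000001f10161000003610000037100000121000003410111000002b10000030100e10000000002d100b100f102a100a100000081024102110000017101c100410000018101510000013100110051006100d10001000000710031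
noncomputable def uf2 (c : ℕ) : ℕ := Nat.land (Nat.shiftRight u2 c) 65535
noncomputable def u3 : ℕ := 0x421000000000451032103c100000000000004010000000002710000000000000000000000000411000000000000000000000181000000000000000003910000012100000000000001310000000000000000000000c10000000002c10000000000d10000021102510071006100000000015101b10000003100210011011101010000000100a1009100810041
noncomputable def uf3 (c : ℕ) : ℕ := Nat.land (Nat.shiftRight u3 c) 65535
noncomputable def u4 : ℕ := 0x41103610331044103e1030104010000029102810271000000000241043100000211042101e101d103f1000001a1018100000171015103c103b103a1012100000371000001110341010100f10321031100d1000002e100b102d102b100a102a10091000002610221020101f1004101c10000019101610141000000000000000000e10000000000000000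
noncomputable def uf4 (c : ℕ) : ℕ := Nat.land (Nat.shiftRight u4 c) 65535
noncomputable def u5 : ℕ := 0x3c10000000000000321000002f1043100000261025100000000029102810000000003f1000001e103d10191000001b101c1000003610351012103a103910000013101410000016100e10301000002b102c100b102e100c100d102010000022102310271009100a1004101f10171018101a101010111000000210031000100f10061007100000051
noncomputable def uf5 (c : ℕ) : ℕ := Nat.land (Nat.shiftRight u5 c) 65535
noncomputable def u6 : ℕ := 0x391000000000000000001b100000000000000000000000000000000025100000000000000000000000000000000000000000000000000000000000000000000000000000000000000000000000000000000000000000000000000000000000000000000000000000000000000000000000000000000000000000000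
noncomputable def uf6 (c : ℕ) : ℕ := Nat.land (Nat.shiftRight u6 c) 65535
noncomputable def GT : ℕ → ℕ → ℕ
  | 0 => uf0
  | 1 => uf1
  | 2 => uf2
  | 3 => uf3
  | 4 => uf4
  | 5 => uf5
  | 6 => uf6
  | _ => uf0
noncomputable def ur0 : ℕ := 0xe800e200000000000000d2000000c800c3000000e600000000000000e000ab000000a5009d000000d000000091000000c600000083009f007700000072000000b40000000000a60000000000000055000000920000004a0000000000400000000000740000006600000000000000520000001f003a00000000002e000000100000001c00000003000a0000
noncomputable def urf0 (c : ℕ) : ℕ := Nat.land (Nat.shiftRight ur0 c) 65535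
noncomputable def ur1 : ℕ := 0xe700e100000000000000d1000000c7000000e9000000e3000000b50000000000a70000009e00d300000093000000c9000000c20000000000a400750000000000000000006700aa0000009c00000082005300000090000000000000003b0000000000760073002f0000000000000054004b0041001d0000000000000000000b0000001e0000001100010002
noncomputable def urf1 (c : ℕ) : ℕ := Nat.land (Nat.shiftRight ur1 c) 65535
noncomputable def ur2 : ℕ := 0xdc00000000000000cc00000000000000dd00000000000000b200ac000000a20000000000cd009400000000008a0000007e007a000000ad000000b30000006b000000a3005f0000007f00000095005000000000008b0043003f007b003500000031006a005e0000003e00510021000000420034000000300013000f000e00200005000000120004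
noncomputable def urf2 (c : ℕ) : ℕ := Nat.land (Nat.shiftRight ur2 c) 65535
noncomputable def ur3 : ℕ := 0xea0000000000eb00d700d400000000000000d50000000000b800000000000000000000000000d6000000000000000000000085000000000000000000b90000006d000000000000006000000000000000000000004d00000000008400000000003600000061006c002b0027000000000037004c0000001b00190017002a002600000007001a001800160006
noncomputable def urf3 (c : ℕ) : ℕ := Nat.land (Nat.shiftRight ur3 c) 65535
noncomputable def ur4 : ℕ := 0xe500db00d900e400ec00cb00ed000000c100bf00bc0000000000b100da000000a100d8009b009900ca0000008e00890000007d007900c000be00bd006f000000b00000006300a0005b0058009a0098004f0000008f00470088007c0039007800330000006e0062005a00590023004e0000004600380032000000000000000000220000000000000000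
noncomputable def urf4 (c : ℕ) : ℕ := Nat.land (Nat.shiftRight ur4 c) 65535
noncomputable def ur5 : ℕ := 0xde00000000000000ce000000c400df000000bb00b70000000000ae00a80000000000cf0000009600c5008d000000860080000000af00a9007100ba00b60000006800640000005c005700970000008100870049008c0044003c005d0000006500690070002c002800250056003d004500480029002d00000014000c00090024000d001500000008
noncomputable def urf5 (c : ℕ) : ℕ := Nat.land (Nat.shiftRight ur5 c) 65535
noncomputable def ur6 : ℕ := 0xee000000000000000000f20000000000000000000000000000000000f000000000000000000000000000000000000000000000000000000000000000000000000000000000000000000000000000000000000000000000000000000000000000000000000000000000000000000000000000000000000000000000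
noncomputable def urf6 (c : ℕ) : ℕ := Nat.land (Nat.shiftRight ur6 c) 65535
noncomputable def GR : ℕ → ℕ → ℕ
  | 0 => urf0
  | 1 => urf1
  | 2 => urf2
  | 3 => urf3
  | 4 => urf4
  | 5 => urf5
  | 6 => urf6
  | _ => urf0
noncomputable def uj0 : ℕ := 0x400040000000000000004000000040001000000000000000000000000000100000001000100000000000000010000000000000001000100010000000c000000000000000000000000000000000001000000000000000c00000000000900000000000000000000000000000000000000000001000000000000000000000009000000000000000100000000
noncomputable def ujf0 (c : ℕ) : ℕ := Nat.land (Nat.shiftRight uj0 c) 65535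
noncomputable def uj1 : ℕ := 0x1000100000000000000010000000100000001000000010000000100000000000100000012000100000001000000010000000000000000000d0001000000000000000000010000000000000000000d000100000000000000000000000100000000000000010001000000000000000000010001000100000000000000000001000000000000000100010000
noncomputable def ujf1 (c : ℕ) : ℕ := Nat.land (Nat.shiftRight uj1 c) 65535
noncomputable def uj2 : ℕ := 0x20000000000000002000000000000000100000000000000020013000000020000000000010011000000000002000000020002000000010000000100000001000000010001000000010000000100020000000000010001000100010001000000010000000000000008000100010000000000000000000000010001000800000001000000000000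
noncomputable def ujf2 (c : ℕ) : ℕ := Nat.land (Nat.shiftRight uj2 c) 65535
noncomputable def uj3 : ℕ := 0x1000000000000100010010000000000000000100000000001400000000000000000000000000000000000000000000000000010000000000000000000100000001000000000000000b00000000000000000000000100000000000000000000000b000000010000000100010000000000010000000000010001000100000000000000010000000000000000
noncomputable def ujf3 (c : ℕ) : ℕ := Nat.land (Nat.shiftRight uj3 c) 65535
noncomputable def uj4 : ℕ := 0x100010001001500160001000100000001000100070000000000010000000000010000000100010000000000070001000000010001000000000001000100000000000000010000000100070000000000010000000100010000000000010000000100000000000000000001000100000000000000000000000000000000000000000000000000000000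
noncomputable def ujf4 (c : ℕ) : ℕ := Nat.land (Nat.shiftRight uj4 c) 65535
noncomputable def uj5 : ℕ := 0x300000000000000030000000f000100000001000100000000000f000e0000000000010000000e00010001000000060003000000010001000100000000000000050003000000030001000100000001000100010000000a0005000100000001000100000006000600010000000100010000000100010000000a0005000100000001000100000000
noncomputable def ujf5 (c : ℕ) : ℕ := Nat.land (Nat.shiftRight uj5 c) 65535
noncomputable def uj6 : ℕ := 0x170000000000000000001900000000000000000000000000000000001800000000000000000000000000000000000000000000000000000000000000000000000000000000000000000000000000000000000000000000000000000000000000000000000000000000000000000000000000000000000000000000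
noncomputable def ujf6 (c : ℕ) : ℕ := Nat.land (Nat.shiftRight uj6 c) 65535
noncomputable def GJ : ℕ → ℕ → ℕ
  | 0 => ujf0
  | 1 => ujf1
  | 2 => ujf2
  | 3 => ujf3
  | 4 => ujf4
  | 5 => ujf5
  | 6 => ujf6
  | _ => ujf0
noncomputable def us0 : ℕ := 0x3b003700000000000000310000002d00000000000000000000000000000000000000000000000000000000000000000000000000000000000000000012000000000000000000000000000000000000000000000000000b00000000000f000000000000000000000000000000000000000000000000000000000000000000050000000000000000000000000
noncomputable def usf0 (c : ℕ) : ℕ := Nat.land (Nat.shiftRight us0 c) 65535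
noncomputable def us1 : ℕ := 0x2000000000000000000000000000000000000000340000000000000000000000000000000000000000002b0000000000000000000000000000000000000000000000000000000000000000000000000000000000000000000000000000000000000000000000000
noncomputable def usf1 (c : ℕ) : ℕ := Nat.land (Nat.shiftRight us1 c) 65535
noncomputable def us2 : ℕ := 0x36000000000000003000000000000000000000000000000024002200000021000000000000001c0000000000180000001700150000000000000000000000000000000000000000000000000000000d00000000000000000000000000000000000000000000000000170000000000000000000000000000000000000006000000000000000000000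
noncomputable def usf2 (c : ℕ) : ℕ := Nat.land (Nat.shiftRight us2 c) 65535
noncomputable def us3 : ℕ := 0x3b00000000000000000031000000000000000000000000002500000000000000000000000000000000000000000000000000000000000000000000000000000000000000000000001100000000000000000000000000000000000000000000000a0000000000000000000000000000000000000000000000000000000000000000000000000000000000000
noncomputable def usf3 (c : ℕ) : ℕ := Nat.land (Nat.shiftRight us3 c) 65535
noncomputable def us4 : ℕ := 0x44004500000000000000000000002600000000000000000000000000000000000000000000001900000000000000000000000000000000000000000000000000000000000e00000000000000000000000000000000000000000000000000000000000000000000000000000000000000000000000000000000000000000000000000000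
noncomputable def usf4 (c : ℕ) : ℕ := Nat.land (Nat.shiftRight us4 c) 65535
noncomputable def us5 : ℕ := 0x3600000000000000300000002c000000000000000000000000002200220000000000000000001c00000000000000180017000000000000000000000000000000120011000000100000000000000000000000000000000b000b000000000000000000000007000600000000000000000000000000000000000100010000000000000000000000000
noncomputable def usf5 (c : ℕ) : ℕ := Nat.land (Nat.shiftRight us5 c) 65535
noncomputable def us6 : ℕ := 0x400000000000000000002f00000000000000000000000000000000003d000000000000000000000000000000000000000000000000000000000000000000000000000000000000000000000000000000000000000000000000000000000000000000000000000000000000000000000000000000000000000000000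
noncomputable def usf6 (c : ℕ) : ℕ := Nat.land (Nat.shiftRight us6 c) 65535
noncomputable def GS : ℕ → ℕ → ℕ
  | 0 => usf0
  | 1 => usf1
  | 2 => usf2
  | 3 => usf3
  | 4 => usf4
  | 5 => usf5
  | 6 => usf6
  | _ => usf0
noncomputable def gtpv : ℕ := 0x3b003700360033003200310030002d002c0029002800260025002500240022002200210020001e001d001c001b001900180018001700150014001400120012001200120012001100110010000e000e000e000d000c000b000b000b000b000a000a0009000800080007000600040004000400040004000300020001000100010000000000000000000000000
noncomputable def GPV (c : ℕ) : ℕ := Nat.land (Nat.shiftRight gtpv c) 65535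
noncomputable def gtpx : ℕ := 0x40004000300000004000000010004000400050005000000040001000000040001000400040000000100050004000300040004000100000005000400030002000000040002000400050001000000040003000500040002000000040002000400020000000300030005000400020001000000030003000300020000000500030002000100000000
noncomputable def GPX (c : ℕ) : ℕ := Nat.land (Nat.shiftRight gtpx c) 65535
/-- kinds of deductions -/
def kinds : List (GK × ℕ × ℕ × Bool) := [
  (⟨false, 2, 4, 4, [4], [2, 4]⟩, 1, 1, false),
  (⟨false, 5, 4, 4, [4], [5, 4]⟩, 5, 0, false),
  (⟨false, 0, 4, 4, [0], [2, 5]⟩, 6, 0, true),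
  (⟨false, 5, 4, 4, [0], [1, 2]⟩, 6, 1, true),
  (⟨false, 5, 4, 4, [3], [5, 3]⟩, 4, 0, false),
  (⟨false, 4, 4, 4, [5], [4, 5]⟩, 5, 1, false),
  (⟨false, 2, 4, 4, [5, 2, 5], []⟩, 2, 1, false),
  (⟨false, 0, 4, 4, [2], [5, 1]⟩, 6, 3, true),
  (⟨false, 5, 4, 4, [2], [0, 0]⟩, 6, 0, false),
  (⟨false, 3, 4, 4, [2], [3, 2, 3, 2]⟩, 0, 0, false),
  (⟨false, 0, 4, 4, [5], [0, 5]⟩, 9, 3, false),
  (⟨false, 1, 4, 4, [2, 5, 1], []⟩, 6, 0, false),
  (⟨false, 5, 4, 4, [0], [5, 0]⟩, 9, 0, false),
  (⟨false, 5, 4, 4, [1], [5, 1]⟩, 9, 2, false),
  (⟨false, 3, 4, 4, [0], [4, 1, 4, 3, 1, 3, 4, 1, 4]⟩, 7, 0, false),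
  (⟨false, 2, 4, 4, [0], [2, 0]⟩, 8, 0, false),
  (⟨false, 1, 4, 4, [1], [5, 2]⟩, 6, 2, false),
  (⟨false, 2, 4, 4, [1], [0, 5]⟩, 6, 3, false),
  (⟨false, 3, 4, 4, [5], [3, 5]⟩, 4, 1, false),
  (⟨false, 4, 4, 4, [0, 4, 0, 3, 4, 0, 4, 3, 0, 3], []⟩, 7, 9, false),
  (⟨false, 4, 4, 4, [0, 3], [3, 4, 1, 4, 3, 1, 4, 1]⟩, 7, 6, false),
  (⟨false, 6, 4, 4, [4, 1, 4, 3, 1], [0, 3, 4, 0, 4, 3]⟩, 7, 0, true),
  (⟨false, 6, 0, 4, [5], [5]⟩, 15, 0, false),
  (⟨false, 6, 4, 0, [0], [0]⟩, 10, 0, false)]
theorem kinds_ok : kindsOK inv k (rels ++ relsT) subw kinds = true := by decide +kernel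
theorem kinds_lt : ltOK k (kinds.map (fun x => x.1.a)) = true ∧ ltOK k (kinds.map (fun x => x.1.b)) = true := by decide +kernel
theorem kinds_le : ∀ x ∈ kinds, x.1.y ≤ k := by decide +kernel
noncomputable def cG0 (i : ℕ) : Bool := chkG GT GR GPV GPX GJ GS inv k 4 16 1120 kinds 0 (Nat.mul 16 i)
theorem hG0_0 : all2 cG0 6 0 = true := by decide +kernel
theorem hG0_1 : all2 cG0 2 64 = true := by decide +kernel
theorem hG0_2 : all2 cG0 1 68 = true := by decide +kernel
theorem hG0 : ∀ i < 70, cG0 i = true := by
  have h0 : ∀ i < 0, cG0 i = true := fun i hi => absurd hi (Nat.not_lt_zero i)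
  have h1 : ∀ i < 64, cG0 i = true := range_step h0 hG0_0 (by norm_num)
  have h2 : ∀ i < 68, cG0 i = true := range_step h1 hG0_1 (by norm_num)
  have h3 : ∀ i < 70, cG0 i = true := range_step h2 hG0_2 (by norm_num)
  exact h3
noncomputable def cG1 (i : ℕ) : Bool := chkG GT GR GPV GPX GJ GS inv k 4 16 1120 kinds 1 (Nat.mul 16 i)
theorem hG1_0 : all2 cG1 6 0 = true := by decide +kernel
theorem hG1_1 : all2 cG1 2 64 = true := by decide +kernel
theorem hG1_2 : all2 cG1 1 68 = true := by decide +kernel
theorem hG1 : ∀ i < 70, cG1 i = true := by
  have h0 : ∀ i < 0, cG1 i = true := fun i hi => absurd hi (Nat.not_lt_zero i)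
  have h1 : ∀ i < 64, cG1 i = true := range_step h0 hG1_0 (by norm_num)
  have h2 : ∀ i < 68, cG1 i = true := range_step h1 hG1_1 (by norm_num)
  have h3 : ∀ i < 70, cG1 i = true := range_step h2 hG1_2 (by norm_num)
  exact h3
noncomputable def cG2 (i : ℕ) : Bool := chkG GT GR GPV GPX GJ GS inv k 4 16 1120 kinds 2 (Nat.mul 16 i)
theorem hG2_0 : all2 cG2 6 0 = true := by decide +kernel
theorem hG2_1 : all2 cG2 2 64 = true := by decide +kernel
theorem hG2_2 : all2 cG2 1 68 = true := by decide +kernel
theorem hG2 : ∀ i < 70, cG2 i = true := by
  have h0 : ∀ i < 0, cG2 i = true := fun i hi => absurd hi (Nat.not_lt_zero i)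
  have h1 : ∀ i < 64, cG2 i = true := range_step h0 hG2_0 (by norm_num)
  have h2 : ∀ i < 68, cG2 i = true := range_step h1 hG2_1 (by norm_num)
  have h3 : ∀ i < 70, cG2 i = true := range_step h2 hG2_2 (by norm_num)
  exact h3
noncomputable def cG3 (i : ℕ) : Bool := chkG GT GR GPV GPX GJ GS inv k 4 16 1120 kinds 3 (Nat.mul 16 i)
theorem hG3_0 : all2 cG3 6 0 = true := by decide +kernel
theorem hG3_1 : all2 cG3 2 64 = true := by decide +kernel
theorem hG3_2 : all2 cG3 1 68 = true := by decide +kernel
theorem hG3 : ∀ i < 70, cG3 i = true := by
  have h0 : ∀ i < 0, cG3 i = true := fun i hi => absurd hi (Nat.not_lt_zero i)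
  have h1 : ∀ i < 64, cG3 i = true := range_step h0 hG3_0 (by norm_num)
  have h2 : ∀ i < 68, cG3 i = true := range_step h1 hG3_1 (by norm_num)
  have h3 : ∀ i < 70, cG3 i = true := range_step h2 hG3_2 (by norm_num)
  exact h3
noncomputable def cG4 (i : ℕ) : Bool := chkG GT GR GPV GPX GJ GS inv k 4 16 1120 kinds 4 (Nat.mul 16 i)
theorem hG4_0 : all2 cG4 6 0 = true := by decide +kernel
theorem hG4_1 : all2 cG4 2 64 = true := by decide +kernel
theorem hG4_2 : all2 cG4 1 68 = true := by decide +kernel
theorem hG4 : ∀ i < 70, cG4 i = true := by
  have h0 : ∀ i < 0, cG4 i = true := fun i hi => absurd hi (Nat.not_lt_zero i)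
  have h1 : ∀ i < 64, cG4 i = true := range_step h0 hG4_0 (by norm_num)
  have h2 : ∀ i < 68, cG4 i = true := range_step h1 hG4_1 (by norm_num)
  have h3 : ∀ i < 70, cG4 i = true := range_step h2 hG4_2 (by norm_num)
  exact h3
noncomputable def cG5 (i : ℕ) : Bool := chkG GT GR GPV GPX GJ GS inv k 4 16 1120 kinds 5 (Nat.mul 16 i)
theorem hG5_0 : all2 cG5 6 0 = true := by decide +kernel
theorem hG5_1 : all2 cG5 2 64 = true := by decide +kernel
theorem hG5_2 : all2 cG5 1 68 = true := by decide +kernel
theorem hG5 : ∀ i < 70, cG5 i = true := by
  have h0 : ∀ i < 0, cG5 i = true := fun i hi => absurd hi (Nat.not_lt_zero i)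
  have h1 : ∀ i < 64, cG5 i = true := range_step h0 hG5_0 (by norm_num)
  have h2 : ∀ i < 68, cG5 i = true := range_step h1 hG5_1 (by norm_num)
  have h3 : ∀ i < 70, cG5 i = true := range_step h2 hG5_2 (by norm_num)
  exact h3
noncomputable def cG6 (i : ℕ) : Bool := chkG GT GR GPV GPX GJ GS inv k 4 16 1120 kinds 6 (Nat.mul 16 i)
theorem hG6_0 : all2 cG6 6 0 = true := by decide +kernel
theorem hG6_1 : all2 cG6 2 64 = true := by decide +kernel
theorem hG6_2 : all2 cG6 1 68 = true := by decide +kernel
theorem hG6 : ∀ i < 70, cG6 i = true := by
  have h0 : ∀ i < 0, cG6 i = true := fun i hi => absurd hi (Nat.not_lt_zero i)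
  have h1 : ∀ i < 64, cG6 i = true := range_step h0 hG6_0 (by norm_num)
  have h2 : ∀ i < 68, cG6 i = true := range_step h1 hG6_1 (by norm_num)
  have h3 : ∀ i < 70, cG6 i = true := range_step h2 hG6_2 (by norm_num)
  exact h3
theorem relsX_lt : ltOK k (rels ++ relsT) = true := by decide +kernel
theorem subw_lt : ltOK k subw = true := by decide +kernel
theorem seeds_lt : ltOK k seeds = true := by decide +kernel
noncomputable def seedOK : List (List ℕ) → Bool := fun l => List.rec true (fun w _ ih => band (pfOK GT GR k 131072 0 4 w 0) ih) l
theorem seeds_ok : seedOK seeds = true := by decide +kernel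
theorem GR_lt : ∀ y ≤ k, ∀ c, GR y c < 131072 := by
  intro y hy c
  have hy' : y ≤ 6 := hy
  interval_cases y
  · exact lt_of_le_of_lt (Nat.and_le_right (n := Nat.shiftRight ur0 c) (m := 65535)) (by norm_num)
  · exact lt_of_le_of_lt (Nat.and_le_right (n := Nat.shiftRight ur1 c) (m := 65535)) (by norm_num)
  · exact lt_of_le_of_lt (Nat.and_le_right (n := Nat.shiftRight ur2 c) (m := 65535)) (by norm_num)
  · exact lt_of_le_of_lt (Nat.and_le_right (n := Nat.shiftRight ur3 c) (m := 65535)) (by norm_num)
  · exact lt_of_le_of_lt (Nat.and_le_right (n := Nat.shiftRight ur4 c) (m := 65535)) (by norm_num)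
  · exact lt_of_le_of_lt (Nat.and_le_right (n := Nat.shiftRight ur5 c) (m := 65535)) (by norm_num)
  · exact lt_of_le_of_lt (Nat.and_le_right (n := Nat.shiftRight ur6 c) (m := 65535)) (by norm_num)
theorem lemma_thm {Γ X : Type*} [Group Γ] [MulAction Γ X] (γ : ℕ → Γ) (x0 : X)
    (hinv : ∀ y < k, γ (inv y) = (γ y)⁻¹) (hr : ∀ r ∈ rels, wd γ r = 1)
    (hb : ∀ b ∈ subw, (wd γ b)⁻¹ • x0 = x0) :
    ∀ b ∈ seeds, (wd γ b)⁻¹ • x0 = x0 := by
  have hr' : ∀ r ∈ rels ++ relsT, wd γ r = 1 := by
    intro r h
    rcases List.mem_append.1 h with h | h
    · exact hr r h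
    · simp only [relsT, List.mem_cons, List.not_mem_nil, or_false] at h
      rcases h with rfl | rfl | rfl | rfl | rfl | rfl
      · have := hinv 0 (by decide); simp only [wd_cons, wd_nil, mul_one]; exact mul_eq_one_iff_inv_eq.2 (show γ 1 = (γ 0)⁻¹ from this).symm
      · have := hinv 1 (by decide); simp only [wd_cons, wd_nil, mul_one]; exact mul_eq_one_iff_inv_eq.2 (show γ 0 = (γ 1)⁻¹ from this).symm
      · have := hinv 2 (by decide); simp only [wd_cons, wd_nil, mul_one]; exact mul_eq_one_iff_inv_eq.2 (show γ 2 = (γ 2)⁻¹ from this).symm
      · have := hinv 3 (by decide); simp only [wd_cons, wd_nil, mul_one]; exact mul_eq_one_iff_inv_eq.2 (show γ 3 = (γ 3)⁻¹ from this).symm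
      · have := hinv 4 (by decide); simp only [wd_cons, wd_nil, mul_one]; exact mul_eq_one_iff_inv_eq.2 (show γ 4 = (γ 4)⁻¹ from this).symm
      · have := hinv 5 (by decide); simp only [wd_cons, wd_nil, mul_one]; exact mul_eq_one_iff_inv_eq.2 (show γ 5 = (γ 5)⁻¹ from this).symm
  have hchk : ∀ y ≤ k, ∀ i < 70, chkG GT GR GPV GPX GJ GS inv k 4 16 (16 * 70) kinds y (16 * i) = true := by
    intro y hy i hi
    have hy' : y ≤ 6 := hy
    interval_cases y
    · exact hG0 i hi
    · exact hG1 i hi
    · exact hG2 i hi
    · exact hG3 i hi
    · exact hG4 i hi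
    · exact hG5 i hi
    · exact hG6 i hi
  have key : ∀ w : List ℕ, (∀ y ∈ w, y < k) → pfOK GT GR k 131072 0 4 w 0 = true →
      (wd γ w)⁻¹ • x0 = x0 := fun w hwk hw =>
    gs_thm γ x0 (by norm_num) hinv inv_lt hr' (ltOK_spec _ relsX_lt) hb (ltOK_spec _ subw_lt)
      kinds_ok kinds_lt.1 kinds_lt.2 kinds_le hchk w hwk _ hw GR_lt
  have h := seeds_ok
  have hlt := ltOK_spec _ seeds_lt
  generalize seeds = l at h hlt
  induction l with
  | nil => intro b hb'; exact absurd hb' (by simp)
  | cons a l ih =>
    have h' : band (pfOK GT GR k 131072 0 4 a 0) (seedOK l) = true := h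
    rw [band_true] at h'
    intro b hb'
    rcases List.mem_cons.1 hb' with rfl | hb'
    · exact key b (hlt b List.mem_cons_self) h'.1
    · exact ih h'.2 (fun w hw => hlt w (List.mem_cons_of_mem _ hw)) b hb'
end Cfsg.Agent.H5TC.ONl1
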