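import Cfsg.Agent.Lib.H5TC5

set_option autoImplicit false
set_option maxRecDepth 1000000
set_option maxHeartbeats 0
set_option Elab.async false

namespace Cfsg.Agent.H5TC.ONl3

open Cfsg.Agent.H5TC

abbrev k : ℕ := 6
def inv : ℕ → ℕ
  | 0 => 1
  | 1 => 0
  | 2 => 2
  | 3 => 3
  | 4 => 4
  | 5 => 5
  | y => y
theorem inv_lt : ∀ y < k, inv y < k := by decide
/-- relators -/
def rels : List (List ℕ) := [[2, 3, 2, 3, 2, 3, 2, 3, 2, 3, 2, 3, 2, 3, 2, 3], [2, 4, 2, 4], [2, 5, 2, 5], [3, 4, 3, 4, 3, 4], [3, 5, 3, 5], [4, 5, 4, 5, 4, 5], [2, 1, 3, 1, 3, 2, 3, 0, 3, 0], [3, 1, 2, 1, 2, 3, 2, 0, 2, 0], [0, 4, 3, 0, 3, 4, 0, 4, 3, 0, 3], [0, 5, 1, 5]]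
/-- trivial relators -/
def relsT : List (List ℕ) := [[0, 1], [1, 0], [2, 2], [3, 3], [4, 4], [5, 5]]
/-- subgroup words -/
def subw : List (List ℕ) := []
/-- further subgroup words -/
def seeds : List (List ℕ) := [[0, 2, 1, 4, 0, 2, 1, 4]]
noncomputable def u0 : ℕ := 0x13100000000019100e10000000000b101610000000000000121000000000000000000410000002100000061000000000011
noncomputable def uf0 (c : ℕ) : ℕ := Nat.land (Nat.shiftRight u0 c) 65535
noncomputable def u1 : ℕ := 0x15100000000010100000000018100c1000000000000014100000000011100000000000000000031000000710000005100010000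
noncomputable def uf1 (c : ℕ) : ℕ := Nat.land (Nat.shiftRight u1 c) 65535
noncomputable def u2 : ℕ := 0xe100000000000000a1013100810000000000f1006100d100000091000000110000000000410000
noncomputable def uf2 (c : ℕ) : ℕ := Nat.land (Nat.shiftRight u2 c) 65535
noncomputable def u3 : ℕ := 0x18101910000014100f101610000000000d100a10151000001110000007101010000005100b10000008100000000000100000021
noncomputable def uf3 (c : ℕ) : ℕ := Nat.land (Nat.shiftRight u3 c) 65535
noncomputable def u4 : ℕ := 0x12100000000000000d101710000000000910081013100710000006100f100e100c100a1000000000001000000000031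
noncomputable def uf4 (c : ℕ) : ℕ := Nat.land (Nat.shiftRight u4 c) 65535
noncomputable def u5 : ℕ := 0x0
noncomputable def uf5 (c : ℕ) : ℕ := Nat.land (Nat.shiftRight u5 c) 65535
noncomputable def u6 : ℕ := 0xf100000000000000000091000000000000000000000000000000000000000000000000000000000000000000000000
noncomputable def uf6 (c : ℕ) : ℕ := Nat.land (Nat.shiftRight u6 c) 65535
noncomputable def GT : ℕ → ℕ → ℕ
  | 0 => uf0
  | 1 => uf1
  | 2 => uf2
  | 3 => uf3
  | 4 => uf4
  | 5 => uf5
  | 6 => uf6
  | _ => uf0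
noncomputable def ur0 : ℕ := 0x37000000000038002d000000000023003000000000000000260000000000000000000d000000090000000a000000000000
noncomputable def urf0 (c : ℕ) : ℕ := Nat.land (Nat.shiftRight ur0 c) 65535
noncomputable def ur1 : ℕ := 0x390000000000310000000000360027000000000000002c0000000000220000000000000000000b0000000c0000000800010000
noncomputable def urf1 (c : ℕ) : ℕ := Nat.land (Nat.shiftRight ur1 c) 65535
noncomputable def ur2 : ℕ := 0x2a000000000000001e002b001900000000001f0011001800000010000000070000000000060000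
noncomputable def urf2 (c : ℕ) : ℕ := Nat.land (Nat.shiftRight ur2 c) 65535
noncomputable def ur3 : ℕ := 0x3a003b00000032002f00330000000000240021002e000000250000001500200000000f00140000000e00000000000300000002
noncomputable def urf3 (c : ℕ) : ℕ := Nat.land (Nat.shiftRight ur3 c) 65535
noncomputable def ur4 : ℕ := 0x350000000000000029003400000000001d001b0028001700000013001c001a00160012000000000005000000000004
noncomputable def urf4 (c : ℕ) : ℕ := Nat.land (Nat.shiftRight ur4 c) 65535
noncomputable def ur5 : ℕ := 0x0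
noncomputable def urf5 (c : ℕ) : ℕ := Nat.land (Nat.shiftRight ur5 c) 65535
noncomputable def ur6 : ℕ := 0x3c0000000000000000003e000000000000000000000000000000000000000000000000000000000000000000000000
noncomputable def urf6 (c : ℕ) : ℕ := Nat.land (Nat.shiftRight ur6 c) 65535
noncomputable def GR : ℕ → ℕ → ℕ
  | 0 => urf0
  | 1 => urf1
  | 2 => urf2
  | 3 => urf3
  | 4 => urf4
  | 5 => urf5
  | 6 => urf6
  | _ => urf0
noncomputable def uj0 : ℕ := 0x1000000000000000100000000000100000000000000000000000000000000000000010000000100000000000000000000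
noncomputable def ujf0 (c : ℕ) : ℕ := Nat.land (Nat.shiftRight uj0 c) 65535
noncomputable def uj1 : ℕ := 0x10000000000010000000000000001000000000000000000000000000000000000000000000001000000000000000000010000
noncomputable def ujf1 (c : ℕ) : ℕ := Nat.land (Nat.shiftRight uj1 c) 65535
noncomputable def uj2 : ℕ := 0x20000000000000002000100010000000000010001000000000000000000010000000000000000
noncomputable def ujf2 (c : ℕ) : ℕ := Nat.land (Nat.shiftRight uj2 c) 65535
noncomputable def uj3 : ℕ := 0x50001000000040001000100000000000300010000000000010000000100000000000100000000000000000000000100000000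
noncomputable def ujf3 (c : ℕ) : ℕ := Nat.land (Nat.shiftRight uj3 c) 65535
noncomputable def uj4 : ℕ := 0x100000000000000010000000000000001000100000001000000010000000000000000000000000001000000000000
noncomputable def ujf4 (c : ℕ) : ℕ := Nat.land (Nat.shiftRight uj4 c) 65535
noncomputable def uj5 : ℕ := 0x0
noncomputable def ujf5 (c : ℕ) : ℕ := Nat.land (Nat.shiftRight uj5 c) 65535
noncomputable def uj6 : ℕ := 0x600000000000000000007000000000000000000000000000000000000000000000000000000000000000000000000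
noncomputable def ujf6 (c : ℕ) : ℕ := Nat.land (Nat.shiftRight uj6 c) 65535
noncomputable def GJ : ℕ → ℕ → ℕ
  | 0 => ujf0
  | 1 => ujf1
  | 2 => ujf2
  | 3 => ujf3
  | 4 => ujf4
  | 5 => ujf5
  | 6 => ujf6
  | _ => ujf0
noncomputable def us0 : ℕ := 0x0
noncomputable def usf0 (c : ℕ) : ℕ := Nat.land (Nat.shiftRight us0 c) 65535
noncomputable def us1 : ℕ := 0x0
noncomputable def usf1 (c : ℕ) : ℕ := Nat.land (Nat.shiftRight us1 c) 65535
noncomputable def us2 : ℕ := 0xd00000000000000090000000000000000000000000000000000000000000000000000000000000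
noncomputable def usf2 (c : ℕ) : ℕ := Nat.land (Nat.shiftRight us2 c) 65535
noncomputable def us3 : ℕ := 0x150000000000100000000000000000000b000000000000000000000000000000000000000000000000000000000000000000000
noncomputable def usf3 (c : ℕ) : ℕ := Nat.land (Nat.shiftRight us3 c) 65535
noncomputable def us4 : ℕ := 0x0
noncomputable def usf4 (c : ℕ) : ℕ := Nat.land (Nat.shiftRight us4 c) 65535
noncomputable def us5 : ℕ := 0x0
noncomputable def usf5 (c : ℕ) : ℕ := Nat.land (Nat.shiftRight us5 c) 65535
noncomputable def us6 : ℕ := 0x15000000000000000000170000000000000000000000000000000000000000000000000000000000000000000000000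
noncomputable def usf6 (c : ℕ) : ℕ := Nat.land (Nat.shiftRight us6 c) 65535
noncomputable def GS : ℕ → ℕ → ℕ
  | 0 => usf0
  | 1 => usf1
  | 2 => usf2
  | 3 => usf3
  | 4 => usf4
  | 5 => usf5
  | 6 => usf6
  | _ => usf0
noncomputable def gtpv : ℕ := 0x15001300120010000f000e000d000c000b000a00090008000800070007000600060005000400030002000100000000000000000
noncomputable def GPV (c : ℕ) : ℕ := Nat.land (Nat.shiftRight gtpv c) 65535
noncomputable def gtpx : ℕ := 0x1000400000003000100040000000100030004000400020004000300040002000300010000000100020004000300000000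
noncomputable def GPX (c : ℕ) : ℕ := Nat.land (Nat.shiftRight gtpx c) 65535
/-- kinds of deductions -/
def kinds : List (GK × ℕ × ℕ × Bool) := [
  (⟨false, 2, 4, 4, [4], [2, 4]⟩, 1, 1, false),
  (⟨false, 3, 4, 4, [1], [3, 0, 2, 1, 3, 1, 3, 2]⟩, 6, 3, false),
  (⟨false, 3, 4, 4, [0], [3, 4, 1, 4, 3, 1, 3, 4, 1]⟩, 8, 9, false),
  (⟨false, 3, 4, 4, [0], [3, 2, 3, 0, 3, 0, 2, 1]⟩, 6, 7, false),
  (⟨false, 6, 4, 4, [0, 3, 0, 4, 3, 0, 3, 4, 0, 4], [3]⟩, 8, 9, false),
  (⟨false, 6, 0, 4, [4], [4]⟩, 14, 0, false)]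
theorem kinds_ok : kindsOK inv k (rels ++ relsT) subw kinds = true := by decide +kernel
theorem kinds_lt : ltOK k (kinds.map (fun x => x.1.a)) = true ∧ ltOK k (kinds.map (fun x => x.1.b)) = true := by decide +kernel
theorem kinds_le : ∀ x ∈ kinds, x.1.y ≤ k := by decide +kernel
noncomputable def cG0 (i : ℕ) : Bool := chkG GT GR GPV GPX GJ GS inv k 4 16 416 kinds 0 (Nat.mul 16 i)
theorem hG0_0 : all2 cG0 4 0 = true := by decide +kernel
theorem hG0_1 : all2 cG0 3 16 = true := by decide +kernel
theorem hG0_2 : all2 cG0 1 24 = true := by decide +kernel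
theorem hG0 : ∀ i < 26, cG0 i = true := by
  have h0 : ∀ i < 0, cG0 i = true := fun i hi => absurd hi (Nat.not_lt_zero i)
  have h1 : ∀ i < 16, cG0 i = true := range_step h0 hG0_0 (by norm_num)
  have h2 : ∀ i < 24, cG0 i = true := range_step h1 hG0_1 (by norm_num)
  have h3 : ∀ i < 26, cG0 i = true := range_step h2 hG0_2 (by norm_num)
  exact h3
noncomputable def cG1 (i : ℕ) : Bool := chkG GT GR GPV GPX GJ GS inv k 4 16 416 kinds 1 (Nat.mul 16 i)
theorem hG1_0 : all2 cG1 4 0 = true := by decide +kernel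
theorem hG1_1 : all2 cG1 3 16 = true := by decide +kernel
theorem hG1_2 : all2 cG1 1 24 = true := by decide +kernel
theorem hG1 : ∀ i < 26, cG1 i = true := by
  have h0 : ∀ i < 0, cG1 i = true := fun i hi => absurd hi (Nat.not_lt_zero i)
  have h1 : ∀ i < 16, cG1 i = true := range_step h0 hG1_0 (by norm_num)
  have h2 : ∀ i < 24, cG1 i = true := range_step h1 hG1_1 (by norm_num)
  have h3 : ∀ i < 26, cG1 i = true := range_step h2 hG1_2 (by norm_num)
  exact h3
noncomputable def cG2 (i : ℕ) : Bool := chkG GT GR GPV GPX GJ GS inv k 4 16 416 kinds 2 (Nat.mul 16 i)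
theorem hG2_0 : all2 cG2 4 0 = true := by decide +kernel
theorem hG2_1 : all2 cG2 3 16 = true := by decide +kernel
theorem hG2_2 : all2 cG2 1 24 = true := by decide +kernel
theorem hG2 : ∀ i < 26, cG2 i = true := by
  have h0 : ∀ i < 0, cG2 i = true := fun i hi => absurd hi (Nat.not_lt_zero i)
  have h1 : ∀ i < 16, cG2 i = true := range_step h0 hG2_0 (by norm_num)
  have h2 : ∀ i < 24, cG2 i = true := range_step h1 hG2_1 (by norm_num)
  have h3 : ∀ i < 26, cG2 i = true := range_step h2 hG2_2 (by norm_num)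
  exact h3
noncomputable def cG3 (i : ℕ) : Bool := chkG GT GR GPV GPX GJ GS inv k 4 16 416 kinds 3 (Nat.mul 16 i)
theorem hG3_0 : all2 cG3 4 0 = true := by decide +kernel
theorem hG3_1 : all2 cG3 3 16 = true := by decide +kernel
theorem hG3_2 : all2 cG3 1 24 = true := by decide +kernel
theorem hG3 : ∀ i < 26, cG3 i = true := by
  have h0 : ∀ i < 0, cG3 i = true := fun i hi => absurd hi (Nat.not_lt_zero i)
  have h1 : ∀ i < 16, cG3 i = true := range_step h0 hG3_0 (by norm_num)
  have h2 : ∀ i < 24, cG3 i = true := range_step h1 hG3_1 (by norm_num)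
  have h3 : ∀ i < 26, cG3 i = true := range_step h2 hG3_2 (by norm_num)
  exact h3
noncomputable def cG4 (i : ℕ) : Bool := chkG GT GR GPV GPX GJ GS inv k 4 16 416 kinds 4 (Nat.mul 16 i)
theorem hG4_0 : all2 cG4 4 0 = true := by decide +kernel
theorem hG4_1 : all2 cG4 3 16 = true := by decide +kernel
theorem hG4_2 : all2 cG4 1 24 = true := by decide +kernel
theorem hG4 : ∀ i < 26, cG4 i = true := by
  have h0 : ∀ i < 0, cG4 i = true := fun i hi => absurd hi (Nat.not_lt_zero i)
  have h1 : ∀ i < 16, cG4 i = true := range_step h0 hG4_0 (by norm_num)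
  have h2 : ∀ i < 24, cG4 i = true := range_step h1 hG4_1 (by norm_num)
  have h3 : ∀ i < 26, cG4 i = true := range_step h2 hG4_2 (by norm_num)
  exact h3
noncomputable def cG5 (i : ℕ) : Bool := chkG GT GR GPV GPX GJ GS inv k 4 16 416 kinds 5 (Nat.mul 16 i)
theorem hG5_0 : all2 cG5 4 0 = true := by decide +kernel
theorem hG5_1 : all2 cG5 3 16 = true := by decide +kernel
theorem hG5_2 : all2 cG5 1 24 = true := by decide +kernel
theorem hG5 : ∀ i < 26, cG5 i = true := by
  have h0 : ∀ i < 0, cG5 i = true := fun i hi => absurd hi (Nat.not_lt_zero i)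
  have h1 : ∀ i < 16, cG5 i = true := range_step h0 hG5_0 (by norm_num)
  have h2 : ∀ i < 24, cG5 i = true := range_step h1 hG5_1 (by norm_num)
  have h3 : ∀ i < 26, cG5 i = true := range_step h2 hG5_2 (by norm_num)
  exact h3
noncomputable def cG6 (i : ℕ) : Bool := chkG GT GR GPV GPX GJ GS inv k 4 16 416 kinds 6 (Nat.mul 16 i)
theorem hG6_0 : all2 cG6 4 0 = true := by decide +kernel
theorem hG6_1 : all2 cG6 3 16 = true := by decide +kernel
theorem hG6_2 : all2 cG6 1 24 = true := by decide +kernel
theorem hG6 : ∀ i < 26, cG6 i = true := by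
  have h0 : ∀ i < 0, cG6 i = true := fun i hi => absurd hi (Nat.not_lt_zero i)
  have h1 : ∀ i < 16, cG6 i = true := range_step h0 hG6_0 (by norm_num)
  have h2 : ∀ i < 24, cG6 i = true := range_step h1 hG6_1 (by norm_num)
  have h3 : ∀ i < 26, cG6 i = true := range_step h2 hG6_2 (by norm_num)
  exact h3
theorem relsX_lt : ltOK k (rels ++ relsT) = true := by decide +kernel
theorem subw_lt : ltOK k subw = true := by decide +kernel
theorem seeds_lt : ltOK k seeds = true := by decide +kernel
noncomputable def seedOK : List (List ℕ) → Bool := fun l => List.rec true (fun w _ ih => band (pfOK GT GR k 131072 0 4 w 0) ih) l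
theorem seeds_ok : seedOK seeds = true := by decide +kernel
theorem GR_lt : ∀ y ≤ k, ∀ c, GR y c < 131072 := by
  intro y hy c
  have hy' : y ≤ 6 := hy
  interval_cases y
  · exact lt_of_le_of_lt (Nat.and_le_right (n := Nat.shiftRight ur0 c) (m := 65535)) (by norm_num)
  · exact lt_of_le_of_lt (Nat.and_le_right (n := Nat.shiftRight ur1 c) (m := 65535)) (by norm_num)
  · exact lt_of_le_of_lt (Nat.and_le_right (n := Nat.shiftRight ur2 c) (m := 65535)) (by norm_num)
  · exact lt_of_le_of_lt (Nat.and_le_right (n := Nat.shiftRight ur3 c) (m := 65535)) (by norm_num)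
  · exact lt_of_le_of_lt (Nat.and_le_right (n := Nat.shiftRight ur4 c) (m := 65535)) (by norm_num)
  · exact lt_of_le_of_lt (Nat.and_le_right (n := Nat.shiftRight ur5 c) (m := 65535)) (by norm_num)
  · exact lt_of_le_of_lt (Nat.and_le_right (n := Nat.shiftRight ur6 c) (m := 65535)) (by norm_num)
theorem lemma_thm {Γ X : Type*} [Group Γ] [MulAction Γ X] (γ : ℕ → Γ) (x0 : X)
    (hinv : ∀ y < k, γ (inv y) = (γ y)⁻¹) (hr : ∀ r ∈ rels, wd γ r = 1)
    (hb : ∀ b ∈ subw, (wd γ b)⁻¹ • x0 = x0) :
    ∀ b ∈ seeds, (wd γ b)⁻¹ • x0 = x0 := by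
  have hr' : ∀ r ∈ rels ++ relsT, wd γ r = 1 := by
    intro r h
    rcases List.mem_append.1 h with h | h
    · exact hr r h
    · simp only [relsT, List.mem_cons, List.not_mem_nil, or_false] at h
      rcases h with rfl | rfl | rfl | rfl | rfl | rfl
      · have := hinv 0 (by decide); simp only [wd_cons, wd_nil, mul_one]; exact mul_eq_one_iff_inv_eq.2 (show γ 1 = (γ 0)⁻¹ from this).symm
      · have := hinv 1 (by decide); simp only [wd_cons, wd_nil, mul_one]; exact mul_eq_one_iff_inv_eq.2 (show γ 0 = (γ 1)⁻¹ from this).symm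
      · have := hinv 2 (by decide); simp only [wd_cons, wd_nil, mul_one]; exact mul_eq_one_iff_inv_eq.2 (show γ 2 = (γ 2)⁻¹ from this).symm
      · have := hinv 3 (by decide); simp only [wd_cons, wd_nil, mul_one]; exact mul_eq_one_iff_inv_eq.2 (show γ 3 = (γ 3)⁻¹ from this).symm
      · have := hinv 4 (by decide); simp only [wd_cons, wd_nil, mul_one]; exact mul_eq_one_iff_inv_eq.2 (show γ 4 = (γ 4)⁻¹ from this).symm
      · have := hinv 5 (by decide); simp only [wd_cons, wd_nil, mul_one]; exact mul_eq_one_iff_inv_eq.2 (show γ 5 = (γ 5)⁻¹ from this).symm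
  have hchk : ∀ y ≤ k, ∀ i < 26, chkG GT GR GPV GPX GJ GS inv k 4 16 (16 * 26) kinds y (16 * i) = true := by
    intro y hy i hi
    have hy' : y ≤ 6 := hy
    interval_cases y
    · exact hG0 i hi
    · exact hG1 i hi
    · exact hG2 i hi
    · exact hG3 i hi
    · exact hG4 i hi
    · exact hG5 i hi
    · exact hG6 i hi
  have key : ∀ w : List ℕ, (∀ y ∈ w, y < k) → pfOK GT GR k 131072 0 4 w 0 = true →
      (wd γ w)⁻¹ • x0 = x0 := fun w hwk hw =>
    gs_thm γ x0 (by norm_num) hinv inv_lt hr' (ltOK_spec _ relsX_lt) hb (ltOK_spec _ subw_lt)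
      kinds_ok kinds_lt.1 kinds_lt.2 kinds_le hchk w hwk _ hw GR_lt
  have h := seeds_ok
  have hlt := ltOK_spec _ seeds_lt
  generalize seeds = l at h hlt
  induction l with
  | nil => intro b hb'; exact absurd hb' (by simp)
  | cons a l ih =>
    have h' : band (pfOK GT GR k 131072 0 4 a 0) (seedOK l) = true := h
    rw [band_true] at h'
    intro b hb'
    rcases List.mem_cons.1 hb' with rfl | hb'
    · exact key b (hlt b List.mem_cons_self) h'.1
    · exact ih h'.2 (fun w hw => hlt w (List.mem_cons_of_mem _ hw)) b hb'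
end Cfsg.Agent.H5TC.ONl3
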