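import Cfsg.Agent.Lib.H5TC8
import Cfsg.Agent.Lib.H5TCONG
import Cfsg.Agent.Lib.H5TCONl0
import Cfsg.Agent.Lib.H5TCONl1
import Cfsg.Agent.Lib.H5TCONl2
import Cfsg.Agent.Lib.H5TCONl3
import Cfsg.Agent.Lib.H5TCONl4
import Cfsg.Agent.Lib.H5TCONl5

set_option autoImplicit false
set_option maxRecDepth 100000

namespace Cfsg.Agent.H5TC.ONLem

open Cfsg.Agent.H5TC

def full0 : List (List ℕ) := ONG.fullrels
theorem spec0 : ∀ r ∈ full0, wd ONG.γ r = 1 := ONG.fullrels_spec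
def κ0 : ℕ → ℕ
  | 0 => 0
  | 1 => 1
  | 2 => 2
  | 3 => 4
  | 4 => 5
  | 5 => 6
  | 6 => 7
  | _ => 0
theorem lem0 : ∀ b ∈ ONl0.seeds, wd (fun y => ONG.γ (κ0 y)) b = 1 := by
  intro b hb
  have h := ONl0.lemma_thm (fun y => ONG.γ (κ0 y)) (1 : Cfsg.Spor.ON) ?_ ?_ ?_ b hb
  · have h2 : (wd (fun y => ONG.γ (κ0 y)) b)⁻¹ * 1 = 1 := h
    rwa [mul_one, inv_eq_one] at h2
  · intro y hy
    have hy' : y < 7 := hy
    interval_cases y
    · exact (ONG.γ_inv 0 (by norm_num)).symm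
    · exact (ONG.γ_inv 1 (by norm_num)).symm
    · exact (ONG.γ_inv 2 (by norm_num)).symm
    · exact (ONG.γ_inv 4 (by norm_num)).symm
    · exact (ONG.γ_inv 5 (by norm_num)).symm
    · exact (ONG.γ_inv 6 (by norm_num)).symm
    · exact (ONG.γ_inv 7 (by norm_num)).symm
  · intro r hr
    rw [wd_map]
    have : r.map κ0 ∈ full0 := by
      revert r
      decide +kernel
    exact spec0 _ this
  · intro r hr
    exact absurd hr (by simp [ONl0.subw])
def full1 : List (List ℕ) := full0 ++ ONl0.seeds.map (fun w => w.map κ0)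
theorem spec1 : ∀ r ∈ full1, wd ONG.γ r = 1 := by
  intro r hr
  rcases List.mem_append.1 hr with h | h
  · exact spec0 r h
  · obtain ⟨w, hw, rfl⟩ := List.mem_map.1 h
    rw [← wd_map]
    exact lem0 w hw
def κ1 : ℕ → ℕ
  | 0 => 0
  | 1 => 1
  | 2 => 2
  | 3 => 3
  | 4 => 4
  | 5 => 7
  | _ => 0
theorem lem1 : ∀ b ∈ ONl1.seeds, wd (fun y => ONG.γ (κ1 y)) b = 1 := by
  intro b hb
  have h := ONl1.lemma_thm (fun y => ONG.γ (κ1 y)) (1 : Cfsg.Spor.ON) ?_ ?_ ?_ b hb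
  · have h2 : (wd (fun y => ONG.γ (κ1 y)) b)⁻¹ * 1 = 1 := h
    rwa [mul_one, inv_eq_one] at h2
  · intro y hy
    have hy' : y < 6 := hy
    interval_cases y
    · exact (ONG.γ_inv 0 (by norm_num)).symm
    · exact (ONG.γ_inv 1 (by norm_num)).symm
    · exact (ONG.γ_inv 2 (by norm_num)).symm
    · exact (ONG.γ_inv 3 (by norm_num)).symm
    · exact (ONG.γ_inv 4 (by norm_num)).symm
    · exact (ONG.γ_inv 7 (by norm_num)).symm
  · intro r hr
    rw [wd_map]
    have : r.map κ1 ∈ full1 := by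
      revert r
      decide +kernel
    exact spec1 _ this
  · intro r hr
    exact absurd hr (by simp [ONl1.subw])
def full2 : List (List ℕ) := full1 ++ ONl1.seeds.map (fun w => w.map κ1)
theorem spec2 : ∀ r ∈ full2, wd ONG.γ r = 1 := by
  intro r hr
  rcases List.mem_append.1 hr with h | h
  · exact spec1 r h
  · obtain ⟨w, hw, rfl⟩ := List.mem_map.1 h
    rw [← wd_map]
    exact lem1 w hw
def κ2 : ℕ → ℕ
  | 0 => 0
  | 1 => 1
  | 2 => 2
  | 3 => 4
  | 4 => 5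
  | 5 => 6
  | 6 => 7
  | _ => 0
theorem lem2 : ∀ b ∈ ONl2.seeds, wd (fun y => ONG.γ (κ2 y)) b = 1 := by
  intro b hb
  have h := ONl2.lemma_thm (fun y => ONG.γ (κ2 y)) (1 : Cfsg.Spor.ON) ?_ ?_ ?_ b hb
  · have h2 : (wd (fun y => ONG.γ (κ2 y)) b)⁻¹ * 1 = 1 := h
    rwa [mul_one, inv_eq_one] at h2
  · intro y hy
    have hy' : y < 7 := hy
    interval_cases y
    · exact (ONG.γ_inv 0 (by norm_num)).symm
    · exact (ONG.γ_inv 1 (by norm_num)).symm
    · exact (ONG.γ_inv 2 (by norm_num)).symm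
    · exact (ONG.γ_inv 4 (by norm_num)).symm
    · exact (ONG.γ_inv 5 (by norm_num)).symm
    · exact (ONG.γ_inv 6 (by norm_num)).symm
    · exact (ONG.γ_inv 7 (by norm_num)).symm
  · intro r hr
    rw [wd_map]
    have : r.map κ2 ∈ full2 := by
      revert r
      decide +kernel
    exact spec2 _ this
  · intro r hr
    exact absurd hr (by simp [ONl2.subw])
def full3 : List (List ℕ) := full2 ++ ONl2.seeds.map (fun w => w.map κ2)
theorem spec3 : ∀ r ∈ full3, wd ONG.γ r = 1 := by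
  intro r hr
  rcases List.mem_append.1 hr with h | h
  · exact spec2 r h
  · obtain ⟨w, hw, rfl⟩ := List.mem_map.1 h
    rw [← wd_map]
    exact lem2 w hw
def κ3 : ℕ → ℕ
  | 0 => 0
  | 1 => 1
  | 2 => 4
  | 3 => 5
  | 4 => 6
  | 5 => 7
  | _ => 0
theorem lem3 : ∀ b ∈ ONl3.seeds, wd (fun y => ONG.γ (κ3 y)) b = 1 := by
  intro b hb
  have h := ONl3.lemma_thm (fun y => ONG.γ (κ3 y)) (1 : Cfsg.Spor.ON) ?_ ?_ ?_ b hb
  · have h2 : (wd (fun y => ONG.γ (κ3 y)) b)⁻¹ * 1 = 1 := h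
    rwa [mul_one, inv_eq_one] at h2
  · intro y hy
    have hy' : y < 6 := hy
    interval_cases y
    · exact (ONG.γ_inv 0 (by norm_num)).symm
    · exact (ONG.γ_inv 1 (by norm_num)).symm
    · exact (ONG.γ_inv 4 (by norm_num)).symm
    · exact (ONG.γ_inv 5 (by norm_num)).symm
    · exact (ONG.γ_inv 6 (by norm_num)).symm
    · exact (ONG.γ_inv 7 (by norm_num)).symm
  · intro r hr
    rw [wd_map]
    have : r.map κ3 ∈ full3 := by
      revert r
      decide +kernel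
    exact spec3 _ this
  · intro r hr
    exact absurd hr (by simp [ONl3.subw])
def full4 : List (List ℕ) := full3 ++ ONl3.seeds.map (fun w => w.map κ3)
theorem spec4 : ∀ r ∈ full4, wd ONG.γ r = 1 := by
  intro r hr
  rcases List.mem_append.1 hr with h | h
  · exact spec3 r h
  · obtain ⟨w, hw, rfl⟩ := List.mem_map.1 h
    rw [← wd_map]
    exact lem3 w hw
def κ4 : ℕ → ℕ
  | 0 => 0
  | 1 => 1
  | 2 => 3
  | 3 => 4
  | 4 => 5
  | 5 => 6
  | _ => 0
theorem lem4 : ∀ b ∈ ONl4.seeds, wd (fun y => ONG.γ (κ4 y)) b = 1 := by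
  intro b hb
  have h := ONl4.lemma_thm (fun y => ONG.γ (κ4 y)) (1 : Cfsg.Spor.ON) ?_ ?_ ?_ b hb
  · have h2 : (wd (fun y => ONG.γ (κ4 y)) b)⁻¹ * 1 = 1 := h
    rwa [mul_one, inv_eq_one] at h2
  · intro y hy
    have hy' : y < 6 := hy
    interval_cases y
    · exact (ONG.γ_inv 0 (by norm_num)).symm
    · exact (ONG.γ_inv 1 (by norm_num)).symm
    · exact (ONG.γ_inv 3 (by norm_num)).symm
    · exact (ONG.γ_inv 4 (by norm_num)).symm
    · exact (ONG.γ_inv 5 (by norm_num)).symm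
    · exact (ONG.γ_inv 6 (by norm_num)).symm
  · intro r hr
    rw [wd_map]
    have : r.map κ4 ∈ full4 := by
      revert r
      decide +kernel
    exact spec4 _ this
  · intro r hr
    exact absurd hr (by simp [ONl4.subw])
def full5 : List (List ℕ) := full4 ++ ONl4.seeds.map (fun w => w.map κ4)
theorem spec5 : ∀ r ∈ full5, wd ONG.γ r = 1 := by
  intro r hr
  rcases List.mem_append.1 hr with h | h
  · exact spec4 r h
  · obtain ⟨w, hw, rfl⟩ := List.mem_map.1 h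
    rw [← wd_map]
    exact lem4 w hw
def κ5 : ℕ → ℕ
  | 0 => 0
  | 1 => 1
  | 2 => 2
  | 3 => 3
  | 4 => 4
  | 5 => 5
  | 6 => 6
  | 7 => 7
  | _ => 0
theorem lem5 : ∀ b ∈ ONl5.seeds, wd (fun y => ONG.γ (κ5 y)) b = 1 := by
  intro b hb
  have h := ONl5.lemma_thm (fun y => ONG.γ (κ5 y)) (1 : Cfsg.Spor.ON) ?_ ?_ ?_ b hb
  · have h2 : (wd (fun y => ONG.γ (κ5 y)) b)⁻¹ * 1 = 1 := h
    rwa [mul_one, inv_eq_one] at h2
  · intro y hy
    have hy' : y < 8 := hy
    interval_cases y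
    · exact (ONG.γ_inv 0 (by norm_num)).symm
    · exact (ONG.γ_inv 1 (by norm_num)).symm
    · exact (ONG.γ_inv 2 (by norm_num)).symm
    · exact (ONG.γ_inv 3 (by norm_num)).symm
    · exact (ONG.γ_inv 4 (by norm_num)).symm
    · exact (ONG.γ_inv 5 (by norm_num)).symm
    · exact (ONG.γ_inv 6 (by norm_num)).symm
    · exact (ONG.γ_inv 7 (by norm_num)).symm
  · intro r hr
    rw [wd_map]
    have : r.map κ5 ∈ full5 := by
      revert r
      decide +kernel
    exact spec5 _ this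
  · intro r hr
    exact absurd hr (by simp [ONl5.subw])
def full6 : List (List ℕ) := full5 ++ ONl5.seeds.map (fun w => w.map κ5)
theorem spec6 : ∀ r ∈ full6, wd ONG.γ r = 1 := by
  intro r hr
  rcases List.mem_append.1 hr with h | h
  · exact spec5 r h
  · obtain ⟨w, hw, rfl⟩ := List.mem_map.1 h
    rw [← wd_map]
    exact lem5 w hw
def full : List (List ℕ) := full6
theorem spec : ∀ r ∈ full, wd ONG.γ r = 1 := spec6
end Cfsg.Agent.H5TC.ONLem
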