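import Cfsg.Agent.Lib.H5TC7
import Cfsg.Agent.Lib.H5TCON122760H
import Cfsg.Agent.Lib.H5TCON122760M
import Cfsg.Agent.Lib.H5TCONLem

set_option autoImplicit false
set_option linter.unusedSimpArgs false

namespace Cfsg.Agent.H5TC.ON122760

open Cfsg.Agent.H5TC

abbrev HH : Subgroup Cfsg.Spor.ON := (((Subgroup.closure ({Cfsg.Spor.ON.a, Cfsg.Spor.ON.b, Cfsg.Spor.ON.c, Cfsg.Spor.ON.d, Cfsg.Spor.ON.e, Cfsg.Spor.ON.f} : Set (FreeGroup Cfsg.Spor.ON.Gen))).map (PresentedGroup.mk (Cfsg.Spor.coxRelators Cfsg.Spor.ON.edges ∪ {r | r ∈ Cfsg.Spor.ON.extra}))))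
theorem sw0 : (PresentedGroup.mk (Cfsg.Spor.coxRelators Cfsg.Spor.ON.edges ∪ {r | r ∈ Cfsg.Spor.ON.extra})) (Cfsg.Spor.ON.a) = wd ONG.γ [2] := by
  rw [wd_cons, wd_nil, mul_one]
  rfl
theorem sw1 : (PresentedGroup.mk (Cfsg.Spor.coxRelators Cfsg.Spor.ON.edges ∪ {r | r ∈ Cfsg.Spor.ON.extra})) (Cfsg.Spor.ON.b) = wd ONG.γ [3] := by
  rw [wd_cons, wd_nil, mul_one]
  rfl
theorem sw2 : (PresentedGroup.mk (Cfsg.Spor.coxRelators Cfsg.Spor.ON.edges ∪ {r | r ∈ Cfsg.Spor.ON.extra})) (Cfsg.Spor.ON.c) = wd ONG.γ [4] := by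
  rw [wd_cons, wd_nil, mul_one]
  rfl
theorem sw3 : (PresentedGroup.mk (Cfsg.Spor.coxRelators Cfsg.Spor.ON.edges ∪ {r | r ∈ Cfsg.Spor.ON.extra})) (Cfsg.Spor.ON.d) = wd ONG.γ [5] := by
  rw [wd_cons, wd_nil, mul_one]
  rfl
theorem sw4 : (PresentedGroup.mk (Cfsg.Spor.coxRelators Cfsg.Spor.ON.edges ∪ {r | r ∈ Cfsg.Spor.ON.extra})) (Cfsg.Spor.ON.e) = wd ONG.γ [6] := by
  rw [wd_cons, wd_nil, mul_one]
  rfl
theorem sw5 : (PresentedGroup.mk (Cfsg.Spor.coxRelators Cfsg.Spor.ON.edges ∪ {r | r ∈ Cfsg.Spor.ON.extra})) (Cfsg.Spor.ON.f) = wd ONG.γ [7] := by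
  rw [wd_cons, wd_nil, mul_one]
  rfl
theorem HH_eq : HH = Subgroup.closure {g | ∃ w ∈ subw, g = wd ONG.γ w} := by
  apply map_closure_eq
  · rintro s (rfl | rfl | rfl | rfl | rfl | rfl)
    · exact ⟨[2], by simp [subw], sw0⟩
    · exact ⟨[3], by simp [subw], sw1⟩
    · exact ⟨[4], by simp [subw], sw2⟩
    · exact ⟨[5], by simp [subw], sw3⟩
    · exact ⟨[6], by simp [subw], sw4⟩
    · exact ⟨[7], by simp [subw], sw5⟩
  · intro w hw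
    simp only [subw, List.mem_cons, List.not_mem_nil, or_false] at hw
    rcases hw with rfl | rfl | rfl | rfl | rfl | rfl
    · exact ⟨Cfsg.Spor.ON.a, by simp, sw0⟩
    · exact ⟨Cfsg.Spor.ON.b, by simp, sw1⟩
    · exact ⟨Cfsg.Spor.ON.c, by simp, sw2⟩
    · exact ⟨Cfsg.Spor.ON.d, by simp, sw3⟩
    · exact ⟨Cfsg.Spor.ON.e, by simp, sw4⟩
    · exact ⟨Cfsg.Spor.ON.f, by simp, sw5⟩
theorem hinv : ∀ y < k, ONG.γ (inv y) = (ONG.γ y)⁻¹ := by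
  intro y hy
  rw [ONG.γ_inv y hy]
  have hy' : y < 8 := hy
  interval_cases y <;> rfl

theorem hr : ∀ r ∈ rels, wd ONG.γ r = 1 := by
  intro r hr
  have : r ∈ ONLem.full := by
    revert r
    decide +kernel
  exact ONLem.spec r this

theorem subw_lt' : ∀ w ∈ subw, ∀ y ∈ w, y < k := ltOK_spec _ (by decide +kernel)

theorem core : HH.index = n ∧ ∃ φ : Cfsg.Spor.ON →* Equiv.Perm {c // Vc E n c}, ∃ p : ℕ → Cfsg.Spor.ON ⧸ HH,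
    p 0 = ((1 : Cfsg.Spor.ON) : Cfsg.Spor.ON ⧸ HH) ∧ (∀ y < k, φ (ONG.γ y) = tab.perm y) ∧
      Function.Bijective (fun c : {c // Vc E n c} => p c) ∧
      ∀ (g : Cfsg.Spor.ON) (c : {c // Vc E n c}), p (φ g c : {c // Vc E n c}) = g • p c := by
  obtain ⟨φ, hφ⟩ := hom
  obtain ⟨h1, p, hp0, h2, h3⟩ := full_thm ONG.γ tab (by norm_num) hinv ONG.gen_top φ hφ htree HH subw subw_lt' HH_eq (by decide +kernel)
    (main ONG.γ _ hinv hr (fix_words ONG.γ HH_eq))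
  exact ⟨h1, φ, p, hp0, hφ, h2, h3⟩

end Cfsg.Agent.H5TC.ON122760
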