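import Cfsg.Agent.Lib.H5TCON122760C
import Cfsg.Agent.Lib.H5TCON122760O

set_option autoImplicit false

namespace Cfsg.Agent.H5TC.ON122760

open Cfsg.Agent.H5TC

theorem orb (φ : Cfsg.Spor.ON →* Equiv.Perm {c // Vc E n c}) (p : ℕ → Cfsg.Spor.ON ⧸ HH)
    (hφ : ∀ y < k, φ (ONG.γ y) = tab.perm y)
    (h2 : Function.Bijective (fun c : {c // Vc E n c} => p c))
    (h3 : ∀ (g : Cfsg.Spor.ON) (c : {c // Vc E n c}), p (φ g c : {c // Vc E n c}) = g • p c)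
    (l : ℕ) (hroot : Vc E n (nthN O.roots l)) (hrl : O.Lab (nthN O.roots l) = l) :
    (MulAction.orbit HH (p (nthN O.roots l))) = p '' {c | Vc E n c ∧ O.Lab c = l} ∧
    (MulAction.orbit HH (p (nthN O.roots l))).ncard = {c | Vc E n c ∧ O.Lab c = l}.ncard :=
  orbit_thm2 ONG.γ tab _ p h2.1 φ hφ h3 HH O.ws O.ws_lt HH_eq O.Lab O.RK O.OD O.OW O.roots O.ws2
    O.ws2_ws O.ws2_lt O.hLab O.hO l hroot hrl
end Cfsg.Agent.H5TC.ON122760
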