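import Cfsg.Agent.Lib.H5TCON122760
import Cfsg.Agent.Lib.H5TC6

set_option autoImplicit false
set_option maxRecDepth 1000000
set_option maxHeartbeats 0
set_option Elab.async false

namespace Cfsg.Agent.H5TC.ON122760

open Cfsg.Agent.H5TC

attribute [local irreducible] f0 f1 f2 f3 f4 f5 f6 f7
noncomputable def cq2_3 (i : ℕ) : Bool := (fun c => (fun d1 => @Bool.rec (fun _ => Bool) ((fun d2 => @Bool.rec (fun _ => Bool) ((fun d3 => @Bool.rec (fun _ => Bool) ((fun d4 => @Bool.rec (fun _ => Bool) ((fun d5 => @Bool.rec (fun _ => Bool) ((fun d6 => @Bool.rec (fun _ => Bool) (Nat.beq d6 c) true (Nat.blt d6 c)) (f3 (d5))) true (Nat.blt d5 c)) (f2 (d4))) true (Nat.blt d4 c)) (f3 (d3))) true (Nat.blt d3 c)) (f2 (d2))) true (Nat.blt d2 c)) (f3 (d1))) true (Nat.blt d1 c)) (f2 (c))) (Nat.mul 22 i)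
theorem hq2_3_0 : all2 cq2_3 14 0 = true := by decide +kernel
theorem hq2_3_1 : all2 cq2_3 14 16384 = true := by decide +kernel
theorem hq2_3_2 : all2 cq2_3 14 32768 = true := by decide +kernel
theorem hq2_3_3 : all2 cq2_3 14 49152 = true := by decide +kernel
theorem hq2_3_4 : all2 cq2_3 14 65536 = true := by decide +kernel
theorem hq2_3_5 : all2 cq2_3 15 81920 = true := by decide +kernel
theorem hq2_3_6 : all2 cq2_3 12 114688 = true := by decide +kernel
theorem hq2_3_7 : all2 cq2_3 11 118784 = true := by decide +kernel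
theorem hq2_3_8 : all2 cq2_3 10 120832 = true := by decide +kernel
theorem hq2_3_9 : all2 cq2_3 9 121856 = true := by decide +kernel
theorem hq2_3_10 : all2 cq2_3 8 122368 = true := by decide +kernel
theorem hq2_3_11 : all2 cq2_3 7 122624 = true := by decide +kernel
theorem hq2_3_12 : all2 cq2_3 3 122752 = true := by decide +kernel
theorem hq2_3 : ∀ i < 122760, cq2_3 i = true := by
  have h0 : ∀ i < 0, cq2_3 i = true := fun i hi => absurd hi (Nat.not_lt_zero i)
  have h1 : ∀ i < 16384, cq2_3 i = true := range_step h0 hq2_3_0 (by norm_num)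
  have h2 : ∀ i < 32768, cq2_3 i = true := range_step h1 hq2_3_1 (by norm_num)
  have h3 : ∀ i < 49152, cq2_3 i = true := range_step h2 hq2_3_2 (by norm_num)
  have h4 : ∀ i < 65536, cq2_3 i = true := range_step h3 hq2_3_3 (by norm_num)
  have h5 : ∀ i < 81920, cq2_3 i = true := range_step h4 hq2_3_4 (by norm_num)
  have h6 : ∀ i < 114688, cq2_3 i = true := range_step h5 hq2_3_5 (by norm_num)
  have h7 : ∀ i < 118784, cq2_3 i = true := range_step h6 hq2_3_6 (by norm_num)
  have h8 : ∀ i < 120832, cq2_3 i = true := range_step h7 hq2_3_7 (by norm_num)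
  have h9 : ∀ i < 121856, cq2_3 i = true := range_step h8 hq2_3_8 (by norm_num)
  have h10 : ∀ i < 122368, cq2_3 i = true := range_step h9 hq2_3_9 (by norm_num)
  have h11 : ∀ i < 122624, cq2_3 i = true := range_step h10 hq2_3_10 (by norm_num)
  have h12 : ∀ i < 122752, cq2_3 i = true := range_step h11 hq2_3_11 (by norm_num)
  have h13 : ∀ i < 122760, cq2_3 i = true := range_step h12 hq2_3_12 (by norm_num)
  exact h13
theorem q2_3 : (tab.perm 2 * tab.perm 3) ^ 3 = 1 :=
  dih_spec tab 2 3 3 (by decide) (by decide) rfl rfl (fun c hc => by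
    obtain ⟨i, hi, rfl⟩ := hc
    exact hq2_3 i hi)
noncomputable def cq2_4 (i : ℕ) : Bool := (fun c => (fun d1 => @Bool.rec (fun _ => Bool) ((fun d2 => @Bool.rec (fun _ => Bool) ((fun d3 => @Bool.rec (fun _ => Bool) ((fun d4 => @Bool.rec (fun _ => Bool) (Nat.beq d4 c) true (Nat.blt d4 c)) (f4 (d3))) true (Nat.blt d3 c)) (f2 (d2))) true (Nat.blt d2 c)) (f4 (d1))) true (Nat.blt d1 c)) (f2 (c))) (Nat.mul 22 i)
theorem hq2_4_0 : all2 cq2_4 14 0 = true := by decide +kernel
theorem hq2_4_1 : all2 cq2_4 14 16384 = true := by decide +kernel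
theorem hq2_4_2 : all2 cq2_4 14 32768 = true := by decide +kernel
theorem hq2_4_3 : all2 cq2_4 15 49152 = true := by decide +kernel
theorem hq2_4_4 : all2 cq2_4 15 81920 = true := by decide +kernel
theorem hq2_4_5 : all2 cq2_4 12 114688 = true := by decide +kernel
theorem hq2_4_6 : all2 cq2_4 11 118784 = true := by decide +kernel
theorem hq2_4_7 : all2 cq2_4 10 120832 = true := by decide +kernel
theorem hq2_4_8 : all2 cq2_4 9 121856 = true := by decide +kernel
theorem hq2_4_9 : all2 cq2_4 8 122368 = true := by decide +kernel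
theorem hq2_4_10 : all2 cq2_4 7 122624 = true := by decide +kernel
theorem hq2_4_11 : all2 cq2_4 3 122752 = true := by decide +kernel
theorem hq2_4 : ∀ i < 122760, cq2_4 i = true := by
  have h0 : ∀ i < 0, cq2_4 i = true := fun i hi => absurd hi (Nat.not_lt_zero i)
  have h1 : ∀ i < 16384, cq2_4 i = true := range_step h0 hq2_4_0 (by norm_num)
  have h2 : ∀ i < 32768, cq2_4 i = true := range_step h1 hq2_4_1 (by norm_num)
  have h3 : ∀ i < 49152, cq2_4 i = true := range_step h2 hq2_4_2 (by norm_num)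
  have h4 : ∀ i < 81920, cq2_4 i = true := range_step h3 hq2_4_3 (by norm_num)
  have h5 : ∀ i < 114688, cq2_4 i = true := range_step h4 hq2_4_4 (by norm_num)
  have h6 : ∀ i < 118784, cq2_4 i = true := range_step h5 hq2_4_5 (by norm_num)
  have h7 : ∀ i < 120832, cq2_4 i = true := range_step h6 hq2_4_6 (by norm_num)
  have h8 : ∀ i < 121856, cq2_4 i = true := range_step h7 hq2_4_7 (by norm_num)
  have h9 : ∀ i < 122368, cq2_4 i = true := range_step h8 hq2_4_8 (by norm_num)
  have h10 : ∀ i < 122624, cq2_4 i = true := range_step h9 hq2_4_9 (by norm_num)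
  have h11 : ∀ i < 122752, cq2_4 i = true := range_step h10 hq2_4_10 (by norm_num)
  have h12 : ∀ i < 122760, cq2_4 i = true := range_step h11 hq2_4_11 (by norm_num)
  exact h12
theorem q2_4 : (tab.perm 2 * tab.perm 4) ^ 2 = 1 :=
  dih_spec tab 2 4 2 (by decide) (by decide) rfl rfl (fun c hc => by
    obtain ⟨i, hi, rfl⟩ := hc
    exact hq2_4 i hi)
noncomputable def cq2_5 (i : ℕ) : Bool := (fun c => (fun d1 => @Bool.rec (fun _ => Bool) ((fun d2 => @Bool.rec (fun _ => Bool) ((fun d3 => @Bool.rec (fun _ => Bool) ((fun d4 => @Bool.rec (fun _ => Bool) (Nat.beq d4 c) true (Nat.blt d4 c)) (f5 (d3))) true (Nat.blt d3 c)) (f2 (d2))) true (Nat.blt d2 c)) (f5 (d1))) true (Nat.blt d1 c)) (f2 (c))) (Nat.mul 22 i)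
theorem hq2_5_0 : all2 cq2_5 14 0 = true := by decide +kernel
theorem hq2_5_1 : all2 cq2_5 14 16384 = true := by decide +kernel
theorem hq2_5_2 : all2 cq2_5 14 32768 = true := by decide +kernel
theorem hq2_5_3 : all2 cq2_5 15 49152 = true := by decide +kernel
theorem hq2_5_4 : all2 cq2_5 15 81920 = true := by decide +kernel
theorem hq2_5_5 : all2 cq2_5 12 114688 = true := by decide +kernel
theorem hq2_5_6 : all2 cq2_5 11 118784 = true := by decide +kernel
theorem hq2_5_7 : all2 cq2_5 10 120832 = true := by decide +kernel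
theorem hq2_5_8 : all2 cq2_5 9 121856 = true := by decide +kernel
theorem hq2_5_9 : all2 cq2_5 8 122368 = true := by decide +kernel
theorem hq2_5_10 : all2 cq2_5 7 122624 = true := by decide +kernel
theorem hq2_5_11 : all2 cq2_5 3 122752 = true := by decide +kernel
theorem hq2_5 : ∀ i < 122760, cq2_5 i = true := by
  have h0 : ∀ i < 0, cq2_5 i = true := fun i hi => absurd hi (Nat.not_lt_zero i)
  have h1 : ∀ i < 16384, cq2_5 i = true := range_step h0 hq2_5_0 (by norm_num)
  have h2 : ∀ i < 32768, cq2_5 i = true := range_step h1 hq2_5_1 (by norm_num)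
  have h3 : ∀ i < 49152, cq2_5 i = true := range_step h2 hq2_5_2 (by norm_num)
  have h4 : ∀ i < 81920, cq2_5 i = true := range_step h3 hq2_5_3 (by norm_num)
  have h5 : ∀ i < 114688, cq2_5 i = true := range_step h4 hq2_5_4 (by norm_num)
  have h6 : ∀ i < 118784, cq2_5 i = true := range_step h5 hq2_5_5 (by norm_num)
  have h7 : ∀ i < 120832, cq2_5 i = true := range_step h6 hq2_5_6 (by norm_num)
  have h8 : ∀ i < 121856, cq2_5 i = true := range_step h7 hq2_5_7 (by norm_num)
  have h9 : ∀ i < 122368, cq2_5 i = true := range_step h8 hq2_5_8 (by norm_num)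
  have h10 : ∀ i < 122624, cq2_5 i = true := range_step h9 hq2_5_9 (by norm_num)
  have h11 : ∀ i < 122752, cq2_5 i = true := range_step h10 hq2_5_10 (by norm_num)
  have h12 : ∀ i < 122760, cq2_5 i = true := range_step h11 hq2_5_11 (by norm_num)
  exact h12
theorem q2_5 : (tab.perm 2 * tab.perm 5) ^ 2 = 1 :=
  dih_spec tab 2 5 2 (by decide) (by decide) rfl rfl (fun c hc => by
    obtain ⟨i, hi, rfl⟩ := hc
    exact hq2_5 i hi)
noncomputable def cq2_6 (i : ℕ) : Bool := (fun c => (fun d1 => @Bool.rec (fun _ => Bool) ((fun d2 => @Bool.rec (fun _ => Bool) ((fun d3 => @Bool.rec (fun _ => Bool) ((fun d4 => @Bool.rec (fun _ => Bool) (Nat.beq d4 c) true (Nat.blt d4 c)) (f6 (d3))) true (Nat.blt d3 c)) (f2 (d2))) true (Nat.blt d2 c)) (f6 (d1))) true (Nat.blt d1 c)) (f2 (c))) (Nat.mul 22 i)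
theorem hq2_6_0 : all2 cq2_6 14 0 = true := by decide +kernel
theorem hq2_6_1 : all2 cq2_6 14 16384 = true := by decide +kernel
theorem hq2_6_2 : all2 cq2_6 14 32768 = true := by decide +kernel
theorem hq2_6_3 : all2 cq2_6 15 49152 = true := by decide +kernel
theorem hq2_6_4 : all2 cq2_6 15 81920 = true := by decide +kernel
theorem hq2_6_5 : all2 cq2_6 12 114688 = true := by decide +kernel
theorem hq2_6_6 : all2 cq2_6 11 118784 = true := by decide +kernel
theorem hq2_6_7 : all2 cq2_6 10 120832 = true := by decide +kernel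
theorem hq2_6_8 : all2 cq2_6 9 121856 = true := by decide +kernel
theorem hq2_6_9 : all2 cq2_6 8 122368 = true := by decide +kernel
theorem hq2_6_10 : all2 cq2_6 7 122624 = true := by decide +kernel
theorem hq2_6_11 : all2 cq2_6 3 122752 = true := by decide +kernel
theorem hq2_6 : ∀ i < 122760, cq2_6 i = true := by
  have h0 : ∀ i < 0, cq2_6 i = true := fun i hi => absurd hi (Nat.not_lt_zero i)
  have h1 : ∀ i < 16384, cq2_6 i = true := range_step h0 hq2_6_0 (by norm_num)
  have h2 : ∀ i < 32768, cq2_6 i = true := range_step h1 hq2_6_1 (by norm_num)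
  have h3 : ∀ i < 49152, cq2_6 i = true := range_step h2 hq2_6_2 (by norm_num)
  have h4 : ∀ i < 81920, cq2_6 i = true := range_step h3 hq2_6_3 (by norm_num)
  have h5 : ∀ i < 114688, cq2_6 i = true := range_step h4 hq2_6_4 (by norm_num)
  have h6 : ∀ i < 118784, cq2_6 i = true := range_step h5 hq2_6_5 (by norm_num)
  have h7 : ∀ i < 120832, cq2_6 i = true := range_step h6 hq2_6_6 (by norm_num)
  have h8 : ∀ i < 121856, cq2_6 i = true := range_step h7 hq2_6_7 (by norm_num)
  have h9 : ∀ i < 122368, cq2_6 i = true := range_step h8 hq2_6_8 (by norm_num)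
  have h10 : ∀ i < 122624, cq2_6 i = true := range_step h9 hq2_6_9 (by norm_num)
  have h11 : ∀ i < 122752, cq2_6 i = true := range_step h10 hq2_6_10 (by norm_num)
  have h12 : ∀ i < 122760, cq2_6 i = true := range_step h11 hq2_6_11 (by norm_num)
  exact h12
theorem q2_6 : (tab.perm 2 * tab.perm 6) ^ 2 = 1 :=
  dih_spec tab 2 6 2 (by decide) (by decide) rfl rfl (fun c hc => by
    obtain ⟨i, hi, rfl⟩ := hc
    exact hq2_6 i hi)
noncomputable def cq2_7 (i : ℕ) : Bool := (fun c => (fun d1 => @Bool.rec (fun _ => Bool) ((fun d2 => @Bool.rec (fun _ => Bool) ((fun d3 => @Bool.rec (fun _ => Bool) ((fun d4 => @Bool.rec (fun _ => Bool) (Nat.beq d4 c) true (Nat.blt d4 c)) (f7 (d3))) true (Nat.blt d3 c)) (f2 (d2))) true (Nat.blt d2 c)) (f7 (d1))) true (Nat.blt d1 c)) (f2 (c))) (Nat.mul 22 i)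
theorem hq2_7_0 : all2 cq2_7 14 0 = true := by decide +kernel
theorem hq2_7_1 : all2 cq2_7 14 16384 = true := by decide +kernel
theorem hq2_7_2 : all2 cq2_7 14 32768 = true := by decide +kernel
theorem hq2_7_3 : all2 cq2_7 15 49152 = true := by decide +kernel
theorem hq2_7_4 : all2 cq2_7 15 81920 = true := by decide +kernel
theorem hq2_7_5 : all2 cq2_7 12 114688 = true := by decide +kernel
theorem hq2_7_6 : all2 cq2_7 11 118784 = true := by decide +kernel
theorem hq2_7_7 : all2 cq2_7 10 120832 = true := by decide +kernel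
theorem hq2_7_8 : all2 cq2_7 9 121856 = true := by decide +kernel
theorem hq2_7_9 : all2 cq2_7 8 122368 = true := by decide +kernel
theorem hq2_7_10 : all2 cq2_7 7 122624 = true := by decide +kernel
theorem hq2_7_11 : all2 cq2_7 3 122752 = true := by decide +kernel
theorem hq2_7 : ∀ i < 122760, cq2_7 i = true := by
  have h0 : ∀ i < 0, cq2_7 i = true := fun i hi => absurd hi (Nat.not_lt_zero i)
  have h1 : ∀ i < 16384, cq2_7 i = true := range_step h0 hq2_7_0 (by norm_num)
  have h2 : ∀ i < 32768, cq2_7 i = true := range_step h1 hq2_7_1 (by norm_num)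
  have h3 : ∀ i < 49152, cq2_7 i = true := range_step h2 hq2_7_2 (by norm_num)
  have h4 : ∀ i < 81920, cq2_7 i = true := range_step h3 hq2_7_3 (by norm_num)
  have h5 : ∀ i < 114688, cq2_7 i = true := range_step h4 hq2_7_4 (by norm_num)
  have h6 : ∀ i < 118784, cq2_7 i = true := range_step h5 hq2_7_5 (by norm_num)
  have h7 : ∀ i < 120832, cq2_7 i = true := range_step h6 hq2_7_6 (by norm_num)
  have h8 : ∀ i < 121856, cq2_7 i = true := range_step h7 hq2_7_7 (by norm_num)
  have h9 : ∀ i < 122368, cq2_7 i = true := range_step h8 hq2_7_8 (by norm_num)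
  have h10 : ∀ i < 122624, cq2_7 i = true := range_step h9 hq2_7_9 (by norm_num)
  have h11 : ∀ i < 122752, cq2_7 i = true := range_step h10 hq2_7_10 (by norm_num)
  have h12 : ∀ i < 122760, cq2_7 i = true := range_step h11 hq2_7_11 (by norm_num)
  exact h12
theorem q2_7 : (tab.perm 2 * tab.perm 7) ^ 2 = 1 :=
  dih_spec tab 2 7 2 (by decide) (by decide) rfl rfl (fun c hc => by
    obtain ⟨i, hi, rfl⟩ := hc
    exact hq2_7 i hi)
noncomputable def cq3_4 (i : ℕ) : Bool := (fun c => (fun d1 => @Bool.rec (fun _ => Bool) ((fun d2 => @Bool.rec (fun _ => Bool) ((fun d3 => @Bool.rec (fun _ => Bool) ((fun d4 => @Bool.rec (fun _ => Bool) ((fun d5 => @Bool.rec (fun _ => Bool) ((fun d6 => @Bool.rec (fun _ => Bool) (Nat.beq d6 c) true (Nat.blt d6 c)) (f4 (d5))) true (Nat.blt d5 c)) (f3 (d4))) true (Nat.blt d4 c)) (f4 (d3))) true (Nat.blt d3 c)) (f3 (d2))) true (Nat.blt d2 c)) (f4 (d1))) true (Nat.blt d1 c)) (f3 (c))) (Nat.mul 22 i)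
theorem hq3_4_0 : all2 cq3_4 14 0 = true := by decide +kernel
theorem hq3_4_1 : all2 cq3_4 14 16384 = true := by decide +kernel
theorem hq3_4_2 : all2 cq3_4 14 32768 = true := by decide +kernel
theorem hq3_4_3 : all2 cq3_4 14 49152 = true := by decide +kernel
theorem hq3_4_4 : all2 cq3_4 14 65536 = true := by decide +kernel
theorem hq3_4_5 : all2 cq3_4 15 81920 = true := by decide +kernel
theorem hq3_4_6 : all2 cq3_4 12 114688 = true := by decide +kernel
theorem hq3_4_7 : all2 cq3_4 11 118784 = true := by decide +kernel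
theorem hq3_4_8 : all2 cq3_4 10 120832 = true := by decide +kernel
theorem hq3_4_9 : all2 cq3_4 9 121856 = true := by decide +kernel
theorem hq3_4_10 : all2 cq3_4 8 122368 = true := by decide +kernel
theorem hq3_4_11 : all2 cq3_4 7 122624 = true := by decide +kernel
theorem hq3_4_12 : all2 cq3_4 3 122752 = true := by decide +kernel
theorem hq3_4 : ∀ i < 122760, cq3_4 i = true := by
  have h0 : ∀ i < 0, cq3_4 i = true := fun i hi => absurd hi (Nat.not_lt_zero i)
  have h1 : ∀ i < 16384, cq3_4 i = true := range_step h0 hq3_4_0 (by norm_num)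
  have h2 : ∀ i < 32768, cq3_4 i = true := range_step h1 hq3_4_1 (by norm_num)
  have h3 : ∀ i < 49152, cq3_4 i = true := range_step h2 hq3_4_2 (by norm_num)
  have h4 : ∀ i < 65536, cq3_4 i = true := range_step h3 hq3_4_3 (by norm_num)
  have h5 : ∀ i < 81920, cq3_4 i = true := range_step h4 hq3_4_4 (by norm_num)
  have h6 : ∀ i < 114688, cq3_4 i = true := range_step h5 hq3_4_5 (by norm_num)
  have h7 : ∀ i < 118784, cq3_4 i = true := range_step h6 hq3_4_6 (by norm_num)
  have h8 : ∀ i < 120832, cq3_4 i = true := range_step h7 hq3_4_7 (by norm_num)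
  have h9 : ∀ i < 121856, cq3_4 i = true := range_step h8 hq3_4_8 (by norm_num)
  have h10 : ∀ i < 122368, cq3_4 i = true := range_step h9 hq3_4_9 (by norm_num)
  have h11 : ∀ i < 122624, cq3_4 i = true := range_step h10 hq3_4_10 (by norm_num)
  have h12 : ∀ i < 122752, cq3_4 i = true := range_step h11 hq3_4_11 (by norm_num)
  have h13 : ∀ i < 122760, cq3_4 i = true := range_step h12 hq3_4_12 (by norm_num)
  exact h13
theorem q3_4 : (tab.perm 3 * tab.perm 4) ^ 3 = 1 :=
  dih_spec tab 3 4 3 (by decide) (by decide) rfl rfl (fun c hc => by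
    obtain ⟨i, hi, rfl⟩ := hc
    exact hq3_4 i hi)
noncomputable def cq3_5 (i : ℕ) : Bool := (fun c => (fun d1 => @Bool.rec (fun _ => Bool) ((fun d2 => @Bool.rec (fun _ => Bool) ((fun d3 => @Bool.rec (fun _ => Bool) ((fun d4 => @Bool.rec (fun _ => Bool) (Nat.beq d4 c) true (Nat.blt d4 c)) (f5 (d3))) true (Nat.blt d3 c)) (f3 (d2))) true (Nat.blt d2 c)) (f5 (d1))) true (Nat.blt d1 c)) (f3 (c))) (Nat.mul 22 i)
theorem hq3_5_0 : all2 cq3_5 14 0 = true := by decide +kernel
theorem hq3_5_1 : all2 cq3_5 14 16384 = true := by decide +kernel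
theorem hq3_5_2 : all2 cq3_5 14 32768 = true := by decide +kernel
theorem hq3_5_3 : all2 cq3_5 15 49152 = true := by decide +kernel
theorem hq3_5_4 : all2 cq3_5 15 81920 = true := by decide +kernel
theorem hq3_5_5 : all2 cq3_5 12 114688 = true := by decide +kernel
theorem hq3_5_6 : all2 cq3_5 11 118784 = true := by decide +kernel
theorem hq3_5_7 : all2 cq3_5 10 120832 = true := by decide +kernel
theorem hq3_5_8 : all2 cq3_5 9 121856 = true := by decide +kernel
theorem hq3_5_9 : all2 cq3_5 8 122368 = true := by decide +kernel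
theorem hq3_5_10 : all2 cq3_5 7 122624 = true := by decide +kernel
theorem hq3_5_11 : all2 cq3_5 3 122752 = true := by decide +kernel
theorem hq3_5 : ∀ i < 122760, cq3_5 i = true := by
  have h0 : ∀ i < 0, cq3_5 i = true := fun i hi => absurd hi (Nat.not_lt_zero i)
  have h1 : ∀ i < 16384, cq3_5 i = true := range_step h0 hq3_5_0 (by norm_num)
  have h2 : ∀ i < 32768, cq3_5 i = true := range_step h1 hq3_5_1 (by norm_num)
  have h3 : ∀ i < 49152, cq3_5 i = true := range_step h2 hq3_5_2 (by norm_num)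
  have h4 : ∀ i < 81920, cq3_5 i = true := range_step h3 hq3_5_3 (by norm_num)
  have h5 : ∀ i < 114688, cq3_5 i = true := range_step h4 hq3_5_4 (by norm_num)
  have h6 : ∀ i < 118784, cq3_5 i = true := range_step h5 hq3_5_5 (by norm_num)
  have h7 : ∀ i < 120832, cq3_5 i = true := range_step h6 hq3_5_6 (by norm_num)
  have h8 : ∀ i < 121856, cq3_5 i = true := range_step h7 hq3_5_7 (by norm_num)
  have h9 : ∀ i < 122368, cq3_5 i = true := range_step h8 hq3_5_8 (by norm_num)
  have h10 : ∀ i < 122624, cq3_5 i = true := range_step h9 hq3_5_9 (by norm_num)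
  have h11 : ∀ i < 122752, cq3_5 i = true := range_step h10 hq3_5_10 (by norm_num)
  have h12 : ∀ i < 122760, cq3_5 i = true := range_step h11 hq3_5_11 (by norm_num)
  exact h12
theorem q3_5 : (tab.perm 3 * tab.perm 5) ^ 2 = 1 :=
  dih_spec tab 3 5 2 (by decide) (by decide) rfl rfl (fun c hc => by
    obtain ⟨i, hi, rfl⟩ := hc
    exact hq3_5 i hi)
noncomputable def cq3_6 (i : ℕ) : Bool := (fun c => (fun d1 => @Bool.rec (fun _ => Bool) ((fun d2 => @Bool.rec (fun _ => Bool) ((fun d3 => @Bool.rec (fun _ => Bool) ((fun d4 => @Bool.rec (fun _ => Bool) (Nat.beq d4 c) true (Nat.blt d4 c)) (f6 (d3))) true (Nat.blt d3 c)) (f3 (d2))) true (Nat.blt d2 c)) (f6 (d1))) true (Nat.blt d1 c)) (f3 (c))) (Nat.mul 22 i)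
theorem hq3_6_0 : all2 cq3_6 14 0 = true := by decide +kernel
theorem hq3_6_1 : all2 cq3_6 14 16384 = true := by decide +kernel
theorem hq3_6_2 : all2 cq3_6 14 32768 = true := by decide +kernel
theorem hq3_6_3 : all2 cq3_6 15 49152 = true := by decide +kernel
theorem hq3_6_4 : all2 cq3_6 15 81920 = true := by decide +kernel
theorem hq3_6_5 : all2 cq3_6 12 114688 = true := by decide +kernel
theorem hq3_6_6 : all2 cq3_6 11 118784 = true := by decide +kernel
theorem hq3_6_7 : all2 cq3_6 10 120832 = true := by decide +kernel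
theorem hq3_6_8 : all2 cq3_6 9 121856 = true := by decide +kernel
theorem hq3_6_9 : all2 cq3_6 8 122368 = true := by decide +kernel
theorem hq3_6_10 : all2 cq3_6 7 122624 = true := by decide +kernel
theorem hq3_6_11 : all2 cq3_6 3 122752 = true := by decide +kernel
theorem hq3_6 : ∀ i < 122760, cq3_6 i = true := by
  have h0 : ∀ i < 0, cq3_6 i = true := fun i hi => absurd hi (Nat.not_lt_zero i)
  have h1 : ∀ i < 16384, cq3_6 i = true := range_step h0 hq3_6_0 (by norm_num)
  have h2 : ∀ i < 32768, cq3_6 i = true := range_step h1 hq3_6_1 (by norm_num)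
  have h3 : ∀ i < 49152, cq3_6 i = true := range_step h2 hq3_6_2 (by norm_num)
  have h4 : ∀ i < 81920, cq3_6 i = true := range_step h3 hq3_6_3 (by norm_num)
  have h5 : ∀ i < 114688, cq3_6 i = true := range_step h4 hq3_6_4 (by norm_num)
  have h6 : ∀ i < 118784, cq3_6 i = true := range_step h5 hq3_6_5 (by norm_num)
  have h7 : ∀ i < 120832, cq3_6 i = true := range_step h6 hq3_6_6 (by norm_num)
  have h8 : ∀ i < 121856, cq3_6 i = true := range_step h7 hq3_6_7 (by norm_num)
  have h9 : ∀ i < 122368, cq3_6 i = true := range_step h8 hq3_6_8 (by norm_num)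
  have h10 : ∀ i < 122624, cq3_6 i = true := range_step h9 hq3_6_9 (by norm_num)
  have h11 : ∀ i < 122752, cq3_6 i = true := range_step h10 hq3_6_10 (by norm_num)
  have h12 : ∀ i < 122760, cq3_6 i = true := range_step h11 hq3_6_11 (by norm_num)
  exact h12
theorem q3_6 : (tab.perm 3 * tab.perm 6) ^ 2 = 1 :=
  dih_spec tab 3 6 2 (by decide) (by decide) rfl rfl (fun c hc => by
    obtain ⟨i, hi, rfl⟩ := hc
    exact hq3_6 i hi)
noncomputable def cq3_7 (i : ℕ) : Bool := (fun c => (fun d1 => @Bool.rec (fun _ => Bool) ((fun d2 => @Bool.rec (fun _ => Bool) ((fun d3 => @Bool.rec (fun _ => Bool) ((fun d4 => @Bool.rec (fun _ => Bool) (Nat.beq d4 c) true (Nat.blt d4 c)) (f7 (d3))) true (Nat.blt d3 c)) (f3 (d2))) true (Nat.blt d2 c)) (f7 (d1))) true (Nat.blt d1 c)) (f3 (c))) (Nat.mul 22 i)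
theorem hq3_7_0 : all2 cq3_7 14 0 = true := by decide +kernel
theorem hq3_7_1 : all2 cq3_7 14 16384 = true := by decide +kernel
theorem hq3_7_2 : all2 cq3_7 14 32768 = true := by decide +kernel
theorem hq3_7_3 : all2 cq3_7 14 49152 = true := by decide +kernel
theorem hq3_7_4 : all2 cq3_7 15 65536 = true := by decide +kernel
theorem hq3_7_5 : all2 cq3_7 14 98304 = true := by decide +kernel
theorem hq3_7_6 : all2 cq3_7 12 114688 = true := by decide +kernel
theorem hq3_7_7 : all2 cq3_7 11 118784 = true := by decide +kernel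
theorem hq3_7_8 : all2 cq3_7 10 120832 = true := by decide +kernel
theorem hq3_7_9 : all2 cq3_7 9 121856 = true := by decide +kernel
theorem hq3_7_10 : all2 cq3_7 8 122368 = true := by decide +kernel
theorem hq3_7_11 : all2 cq3_7 7 122624 = true := by decide +kernel
theorem hq3_7_12 : all2 cq3_7 3 122752 = true := by decide +kernel
theorem hq3_7 : ∀ i < 122760, cq3_7 i = true := by
  have h0 : ∀ i < 0, cq3_7 i = true := fun i hi => absurd hi (Nat.not_lt_zero i)
  have h1 : ∀ i < 16384, cq3_7 i = true := range_step h0 hq3_7_0 (by norm_num)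
  have h2 : ∀ i < 32768, cq3_7 i = true := range_step h1 hq3_7_1 (by norm_num)
  have h3 : ∀ i < 49152, cq3_7 i = true := range_step h2 hq3_7_2 (by norm_num)
  have h4 : ∀ i < 65536, cq3_7 i = true := range_step h3 hq3_7_3 (by norm_num)
  have h5 : ∀ i < 98304, cq3_7 i = true := range_step h4 hq3_7_4 (by norm_num)
  have h6 : ∀ i < 114688, cq3_7 i = true := range_step h5 hq3_7_5 (by norm_num)
  have h7 : ∀ i < 118784, cq3_7 i = true := range_step h6 hq3_7_6 (by norm_num)
  have h8 : ∀ i < 120832, cq3_7 i = true := range_step h7 hq3_7_7 (by norm_num)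
  have h9 : ∀ i < 121856, cq3_7 i = true := range_step h8 hq3_7_8 (by norm_num)
  have h10 : ∀ i < 122368, cq3_7 i = true := range_step h9 hq3_7_9 (by norm_num)
  have h11 : ∀ i < 122624, cq3_7 i = true := range_step h10 hq3_7_10 (by norm_num)
  have h12 : ∀ i < 122752, cq3_7 i = true := range_step h11 hq3_7_11 (by norm_num)
  have h13 : ∀ i < 122760, cq3_7 i = true := range_step h12 hq3_7_12 (by norm_num)
  exact h13
theorem q3_7 : (tab.perm 3 * tab.perm 7) ^ 2 = 1 :=
  dih_spec tab 3 7 2 (by decide) (by decide) rfl rfl (fun c hc => by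
    obtain ⟨i, hi, rfl⟩ := hc
    exact hq3_7 i hi)
end Cfsg.Agent.H5TC.ON122760
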