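import Cfsg.Agent.Lib.H5TCON122760
import Cfsg.Agent.Lib.H5TC6

set_option autoImplicit false
set_option maxRecDepth 1000000
set_option maxHeartbeats 0
set_option Elab.async false

namespace Cfsg.Agent.H5TC.ON122760

open Cfsg.Agent.H5TC

attribute [local irreducible] f0 f1 f2 f3 f4 f5 f6 f7
noncomputable def cq4_5 (i : ℕ) : Bool := (fun c => (fun d1 => @Bool.rec (fun _ => Bool) ((fun d2 => @Bool.rec (fun _ => Bool) ((fun d3 => @Bool.rec (fun _ => Bool) ((fun d4 => @Bool.rec (fun _ => Bool) ((fun d5 => @Bool.rec (fun _ => Bool) ((fun d6 => @Bool.rec (fun _ => Bool) ((fun d7 => @Bool.rec (fun _ => Bool) ((fun d8 => @Bool.rec (fun _ => Bool) ((fun d9 => @Bool.rec (fun _ => Bool) ((fun d10 => @Bool.rec (fun _ => Bool) ((fun d11 => @Bool.rec (fun _ => Bool) ((fun d12 => @Bool.rec (fun _ => Bool) ((fun d13 => @Bool.rec (fun _ => Bool) ((fun d14 => @Bool.rec (fun _ => Bool) ((fun d15 => @Bool.rec (fun _ => Bool) ((fun d16 => @Bool.rec (fun _ => Bool) (Nat.beq d16 c) true (Nat.blt d16 c)) (f5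 (d15))) true (Nat.blt d15 c)) (f4 (d14))) true (Nat.blt d14 c)) (f5 (d13))) true (Nat.blt d13 c)) (f4 (d12))) true (Nat.blt d12 c)) (f5 (d11))) true (Nat.blt d11 c)) (f4 (d10))) true (Nat.blt d10 c)) (f5 (d9))) true (Nat.blt d9 c)) (f4 (d8))) true (Nat.blt d8 c)) (f5 (d7))) true (Nat.blt d7 c)) (f4 (d6))) true (Nat.blt d6 c)) (f5 (d5))) true (Nat.blt d5 c)) (f4 (d4))) true (Nat.blt d4 c)) (f5 (d3))) true (Nat.blt d3 c)) (f4 (d2))) true (Nat.blt d2 c)) (f5 (d1))) true (Nat.blt d1 c)) (f4 (c))) (Nat.mul 22 i)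
theorem hq4_5_0 : all2 cq4_5 13 0 = true := by decide +kernel
theorem hq4_5_1 : all2 cq4_5 13 8192 = true := by decide +kernel
theorem hq4_5_2 : all2 cq4_5 13 16384 = true := by decide +kernel
theorem hq4_5_3 : all2 cq4_5 13 24576 = true := by decide +kernel
theorem hq4_5_4 : all2 cq4_5 13 32768 = true := by decide +kernel
theorem hq4_5_5 : all2 cq4_5 14 40960 = true := by decide +kernel
theorem hq4_5_6 : all2 cq4_5 14 57344 = true := by decide +kernel
theorem hq4_5_7 : all2 cq4_5 14 73728 = true := by decide +kernel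
theorem hq4_5_8 : all2 cq4_5 14 90112 = true := by decide +kernel
theorem hq4_5_9 : all2 cq4_5 13 106496 = true := by decide +kernel
theorem hq4_5_10 : all2 cq4_5 12 114688 = true := by decide +kernel
theorem hq4_5_11 : all2 cq4_5 11 118784 = true := by decide +kernel
theorem hq4_5_12 : all2 cq4_5 10 120832 = true := by decide +kernel
theorem hq4_5_13 : all2 cq4_5 9 121856 = true := by decide +kernel
theorem hq4_5_14 : all2 cq4_5 8 122368 = true := by decide +kernel
theorem hq4_5_15 : all2 cq4_5 7 122624 = true := by decide +kernel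
theorem hq4_5_16 : all2 cq4_5 3 122752 = true := by decide +kernel
theorem hq4_5 : ∀ i < 122760, cq4_5 i = true := by
  have h0 : ∀ i < 0, cq4_5 i = true := fun i hi => absurd hi (Nat.not_lt_zero i)
  have h1 : ∀ i < 8192, cq4_5 i = true := range_step h0 hq4_5_0 (by norm_num)
  have h2 : ∀ i < 16384, cq4_5 i = true := range_step h1 hq4_5_1 (by norm_num)
  have h3 : ∀ i < 24576, cq4_5 i = true := range_step h2 hq4_5_2 (by norm_num)
  have h4 : ∀ i < 32768, cq4_5 i = true := range_step h3 hq4_5_3 (by norm_num)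
  have h5 : ∀ i < 40960, cq4_5 i = true := range_step h4 hq4_5_4 (by norm_num)
  have h6 : ∀ i < 57344, cq4_5 i = true := range_step h5 hq4_5_5 (by norm_num)
  have h7 : ∀ i < 73728, cq4_5 i = true := range_step h6 hq4_5_6 (by norm_num)
  have h8 : ∀ i < 90112, cq4_5 i = true := range_step h7 hq4_5_7 (by norm_num)
  have h9 : ∀ i < 106496, cq4_5 i = true := range_step h8 hq4_5_8 (by norm_num)
  have h10 : ∀ i < 114688, cq4_5 i = true := range_step h9 hq4_5_9 (by norm_num)
  have h11 : ∀ i < 118784, cq4_5 i = true := range_step h10 hq4_5_10 (by norm_num)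
  have h12 : ∀ i < 120832, cq4_5 i = true := range_step h11 hq4_5_11 (by norm_num)
  have h13 : ∀ i < 121856, cq4_5 i = true := range_step h12 hq4_5_12 (by norm_num)
  have h14 : ∀ i < 122368, cq4_5 i = true := range_step h13 hq4_5_13 (by norm_num)
  have h15 : ∀ i < 122624, cq4_5 i = true := range_step h14 hq4_5_14 (by norm_num)
  have h16 : ∀ i < 122752, cq4_5 i = true := range_step h15 hq4_5_15 (by norm_num)
  have h17 : ∀ i < 122760, cq4_5 i = true := range_step h16 hq4_5_16 (by norm_num)
  exact h17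
theorem q4_5 : (tab.perm 4 * tab.perm 5) ^ 8 = 1 :=
  dih_spec tab 4 5 8 (by decide) (by decide) rfl rfl (fun c hc => by
    obtain ⟨i, hi, rfl⟩ := hc
    exact hq4_5 i hi)
noncomputable def cq4_6 (i : ℕ) : Bool := (fun c => (fun d1 => @Bool.rec (fun _ => Bool) ((fun d2 => @Bool.rec (fun _ => Bool) ((fun d3 => @Bool.rec (fun _ => Bool) ((fun d4 => @Bool.rec (fun _ => Bool) (Nat.beq d4 c) true (Nat.blt d4 c)) (f6 (d3))) true (Nat.blt d3 c)) (f4 (d2))) true (Nat.blt d2 c)) (f6 (d1))) true (Nat.blt d1 c)) (f4 (c))) (Nat.mul 22 i)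
theorem hq4_6_0 : all2 cq4_6 14 0 = true := by decide +kernel
theorem hq4_6_1 : all2 cq4_6 14 16384 = true := by decide +kernel
theorem hq4_6_2 : all2 cq4_6 14 32768 = true := by decide +kernel
theorem hq4_6_3 : all2 cq4_6 14 49152 = true := by decide +kernel
theorem hq4_6_4 : all2 cq4_6 15 65536 = true := by decide +kernel
theorem hq4_6_5 : all2 cq4_6 14 98304 = true := by decide +kernel
theorem hq4_6_6 : all2 cq4_6 12 114688 = true := by decide +kernel
theorem hq4_6_7 : all2 cq4_6 11 118784 = true := by decide +kernel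
theorem hq4_6_8 : all2 cq4_6 10 120832 = true := by decide +kernel
theorem hq4_6_9 : all2 cq4_6 9 121856 = true := by decide +kernel
theorem hq4_6_10 : all2 cq4_6 8 122368 = true := by decide +kernel
theorem hq4_6_11 : all2 cq4_6 7 122624 = true := by decide +kernel
theorem hq4_6_12 : all2 cq4_6 3 122752 = true := by decide +kernel
theorem hq4_6 : ∀ i < 122760, cq4_6 i = true := by
  have h0 : ∀ i < 0, cq4_6 i = true := fun i hi => absurd hi (Nat.not_lt_zero i)
  have h1 : ∀ i < 16384, cq4_6 i = true := range_step h0 hq4_6_0 (by norm_num)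
  have h2 : ∀ i < 32768, cq4_6 i = true := range_step h1 hq4_6_1 (by norm_num)
  have h3 : ∀ i < 49152, cq4_6 i = true := range_step h2 hq4_6_2 (by norm_num)
  have h4 : ∀ i < 65536, cq4_6 i = true := range_step h3 hq4_6_3 (by norm_num)
  have h5 : ∀ i < 98304, cq4_6 i = true := range_step h4 hq4_6_4 (by norm_num)
  have h6 : ∀ i < 114688, cq4_6 i = true := range_step h5 hq4_6_5 (by norm_num)
  have h7 : ∀ i < 118784, cq4_6 i = true := range_step h6 hq4_6_6 (by norm_num)
  have h8 : ∀ i < 120832, cq4_6 i = true := range_step h7 hq4_6_7 (by norm_num)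
  have h9 : ∀ i < 121856, cq4_6 i = true := range_step h8 hq4_6_8 (by norm_num)
  have h10 : ∀ i < 122368, cq4_6 i = true := range_step h9 hq4_6_9 (by norm_num)
  have h11 : ∀ i < 122624, cq4_6 i = true := range_step h10 hq4_6_10 (by norm_num)
  have h12 : ∀ i < 122752, cq4_6 i = true := range_step h11 hq4_6_11 (by norm_num)
  have h13 : ∀ i < 122760, cq4_6 i = true := range_step h12 hq4_6_12 (by norm_num)
  exact h13
theorem q4_6 : (tab.perm 4 * tab.perm 6) ^ 2 = 1 :=
  dih_spec tab 4 6 2 (by decide) (by decide) rfl rfl (fun c hc => by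
    obtain ⟨i, hi, rfl⟩ := hc
    exact hq4_6 i hi)
noncomputable def cq4_7 (i : ℕ) : Bool := (fun c => (fun d1 => @Bool.rec (fun _ => Bool) ((fun d2 => @Bool.rec (fun _ => Bool) ((fun d3 => @Bool.rec (fun _ => Bool) ((fun d4 => @Bool.rec (fun _ => Bool) (Nat.beq d4 c) true (Nat.blt d4 c)) (f7 (d3))) true (Nat.blt d3 c)) (f4 (d2))) true (Nat.blt d2 c)) (f7 (d1))) true (Nat.blt d1 c)) (f4 (c))) (Nat.mul 22 i)
theorem hq4_7_0 : all2 cq4_7 14 0 = true := by decide +kernel
theorem hq4_7_1 : all2 cq4_7 14 16384 = true := by decide +kernel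
theorem hq4_7_2 : all2 cq4_7 14 32768 = true := by decide +kernel
theorem hq4_7_3 : all2 cq4_7 14 49152 = true := by decide +kernel
theorem hq4_7_4 : all2 cq4_7 15 65536 = true := by decide +kernel
theorem hq4_7_5 : all2 cq4_7 14 98304 = true := by decide +kernel
theorem hq4_7_6 : all2 cq4_7 12 114688 = true := by decide +kernel
theorem hq4_7_7 : all2 cq4_7 11 118784 = true := by decide +kernel
theorem hq4_7_8 : all2 cq4_7 10 120832 = true := by decide +kernel
theorem hq4_7_9 : all2 cq4_7 9 121856 = true := by decide +kernel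
theorem hq4_7_10 : all2 cq4_7 8 122368 = true := by decide +kernel
theorem hq4_7_11 : all2 cq4_7 7 122624 = true := by decide +kernel
theorem hq4_7_12 : all2 cq4_7 3 122752 = true := by decide +kernel
theorem hq4_7 : ∀ i < 122760, cq4_7 i = true := by
  have h0 : ∀ i < 0, cq4_7 i = true := fun i hi => absurd hi (Nat.not_lt_zero i)
  have h1 : ∀ i < 16384, cq4_7 i = true := range_step h0 hq4_7_0 (by norm_num)
  have h2 : ∀ i < 32768, cq4_7 i = true := range_step h1 hq4_7_1 (by norm_num)
  have h3 : ∀ i < 49152, cq4_7 i = true := range_step h2 hq4_7_2 (by norm_num)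
  have h4 : ∀ i < 65536, cq4_7 i = true := range_step h3 hq4_7_3 (by norm_num)
  have h5 : ∀ i < 98304, cq4_7 i = true := range_step h4 hq4_7_4 (by norm_num)
  have h6 : ∀ i < 114688, cq4_7 i = true := range_step h5 hq4_7_5 (by norm_num)
  have h7 : ∀ i < 118784, cq4_7 i = true := range_step h6 hq4_7_6 (by norm_num)
  have h8 : ∀ i < 120832, cq4_7 i = true := range_step h7 hq4_7_7 (by norm_num)
  have h9 : ∀ i < 121856, cq4_7 i = true := range_step h8 hq4_7_8 (by norm_num)
  have h10 : ∀ i < 122368, cq4_7 i = true := range_step h9 hq4_7_9 (by norm_num)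
  have h11 : ∀ i < 122624, cq4_7 i = true := range_step h10 hq4_7_10 (by norm_num)
  have h12 : ∀ i < 122752, cq4_7 i = true := range_step h11 hq4_7_11 (by norm_num)
  have h13 : ∀ i < 122760, cq4_7 i = true := range_step h12 hq4_7_12 (by norm_num)
  exact h13
theorem q4_7 : (tab.perm 4 * tab.perm 7) ^ 2 = 1 :=
  dih_spec tab 4 7 2 (by decide) (by decide) rfl rfl (fun c hc => by
    obtain ⟨i, hi, rfl⟩ := hc
    exact hq4_7 i hi)
noncomputable def cq5_6 (i : ℕ) : Bool := (fun c => (fun d1 => @Bool.rec (fun _ => Bool) ((fun d2 => @Bool.rec (fun _ => Bool) ((fun d3 => @Bool.rec (fun _ => Bool) ((fun d4 => @Bool.rec (fun _ => Bool) ((fun d5 => @Bool.rec (fun _ => Bool) ((fun d6 => @Bool.rec (fun _ => Bool) (Nat.beq d6 c) true (Nat.blt d6 c)) (f6 (d5))) true (Nat.blt d5 c)) (f5 (d4))) true (Nat.blt d4 c)) (f6 (d3))) true (Nat.blt d3 c)) (f5 (d2))) true (Nat.blt d2 c)) (f6 (d1))) true (Nat.blt d1 c)) (f5 (c))) (Nat.mul 22 i)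
theorem hq5_6_0 : all2 cq5_6 14 0 = true := by decide +kernel
theorem hq5_6_1 : all2 cq5_6 14 16384 = true := by decide +kernel
theorem hq5_6_2 : all2 cq5_6 14 32768 = true := by decide +kernel
theorem hq5_6_3 : all2 cq5_6 14 49152 = true := by decide +kernel
theorem hq5_6_4 : all2 cq5_6 14 65536 = true := by decide +kernel
theorem hq5_6_5 : all2 cq5_6 15 81920 = true := by decide +kernel
theorem hq5_6_6 : all2 cq5_6 12 114688 = true := by decide +kernel
theorem hq5_6_7 : all2 cq5_6 11 118784 = true := by decide +kernel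
theorem hq5_6_8 : all2 cq5_6 10 120832 = true := by decide +kernel
theorem hq5_6_9 : all2 cq5_6 9 121856 = true := by decide +kernel
theorem hq5_6_10 : all2 cq5_6 8 122368 = true := by decide +kernel
theorem hq5_6_11 : all2 cq5_6 7 122624 = true := by decide +kernel
theorem hq5_6_12 : all2 cq5_6 3 122752 = true := by decide +kernel
theorem hq5_6 : ∀ i < 122760, cq5_6 i = true := by
  have h0 : ∀ i < 0, cq5_6 i = true := fun i hi => absurd hi (Nat.not_lt_zero i)
  have h1 : ∀ i < 16384, cq5_6 i = true := range_step h0 hq5_6_0 (by norm_num)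
  have h2 : ∀ i < 32768, cq5_6 i = true := range_step h1 hq5_6_1 (by norm_num)
  have h3 : ∀ i < 49152, cq5_6 i = true := range_step h2 hq5_6_2 (by norm_num)
  have h4 : ∀ i < 65536, cq5_6 i = true := range_step h3 hq5_6_3 (by norm_num)
  have h5 : ∀ i < 81920, cq5_6 i = true := range_step h4 hq5_6_4 (by norm_num)
  have h6 : ∀ i < 114688, cq5_6 i = true := range_step h5 hq5_6_5 (by norm_num)
  have h7 : ∀ i < 118784, cq5_6 i = true := range_step h6 hq5_6_6 (by norm_num)
  have h8 : ∀ i < 120832, cq5_6 i = true := range_step h7 hq5_6_7 (by norm_num)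
  have h9 : ∀ i < 121856, cq5_6 i = true := range_step h8 hq5_6_8 (by norm_num)
  have h10 : ∀ i < 122368, cq5_6 i = true := range_step h9 hq5_6_9 (by norm_num)
  have h11 : ∀ i < 122624, cq5_6 i = true := range_step h10 hq5_6_10 (by norm_num)
  have h12 : ∀ i < 122752, cq5_6 i = true := range_step h11 hq5_6_11 (by norm_num)
  have h13 : ∀ i < 122760, cq5_6 i = true := range_step h12 hq5_6_12 (by norm_num)
  exact h13
theorem q5_6 : (tab.perm 5 * tab.perm 6) ^ 3 = 1 :=
  dih_spec tab 5 6 3 (by decide) (by decide) rfl rfl (fun c hc => by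
    obtain ⟨i, hi, rfl⟩ := hc
    exact hq5_6 i hi)
noncomputable def cq5_7 (i : ℕ) : Bool := (fun c => (fun d1 => @Bool.rec (fun _ => Bool) ((fun d2 => @Bool.rec (fun _ => Bool) ((fun d3 => @Bool.rec (fun _ => Bool) ((fun d4 => @Bool.rec (fun _ => Bool) (Nat.beq d4 c) true (Nat.blt d4 c)) (f7 (d3))) true (Nat.blt d3 c)) (f5 (d2))) true (Nat.blt d2 c)) (f7 (d1))) true (Nat.blt d1 c)) (f5 (c))) (Nat.mul 22 i)
theorem hq5_7_0 : all2 cq5_7 14 0 = true := by decide +kernel
theorem hq5_7_1 : all2 cq5_7 14 16384 = true := by decide +kernel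
theorem hq5_7_2 : all2 cq5_7 14 32768 = true := by decide +kernel
theorem hq5_7_3 : all2 cq5_7 14 49152 = true := by decide +kernel
theorem hq5_7_4 : all2 cq5_7 15 65536 = true := by decide +kernel
theorem hq5_7_5 : all2 cq5_7 14 98304 = true := by decide +kernel
theorem hq5_7_6 : all2 cq5_7 12 114688 = true := by decide +kernel
theorem hq5_7_7 : all2 cq5_7 11 118784 = true := by decide +kernel
theorem hq5_7_8 : all2 cq5_7 10 120832 = true := by decide +kernel
theorem hq5_7_9 : all2 cq5_7 9 121856 = true := by decide +kernel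
theorem hq5_7_10 : all2 cq5_7 8 122368 = true := by decide +kernel
theorem hq5_7_11 : all2 cq5_7 7 122624 = true := by decide +kernel
theorem hq5_7_12 : all2 cq5_7 3 122752 = true := by decide +kernel
theorem hq5_7 : ∀ i < 122760, cq5_7 i = true := by
  have h0 : ∀ i < 0, cq5_7 i = true := fun i hi => absurd hi (Nat.not_lt_zero i)
  have h1 : ∀ i < 16384, cq5_7 i = true := range_step h0 hq5_7_0 (by norm_num)
  have h2 : ∀ i < 32768, cq5_7 i = true := range_step h1 hq5_7_1 (by norm_num)
  have h3 : ∀ i < 49152, cq5_7 i = true := range_step h2 hq5_7_2 (by norm_num)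
  have h4 : ∀ i < 65536, cq5_7 i = true := range_step h3 hq5_7_3 (by norm_num)
  have h5 : ∀ i < 98304, cq5_7 i = true := range_step h4 hq5_7_4 (by norm_num)
  have h6 : ∀ i < 114688, cq5_7 i = true := range_step h5 hq5_7_5 (by norm_num)
  have h7 : ∀ i < 118784, cq5_7 i = true := range_step h6 hq5_7_6 (by norm_num)
  have h8 : ∀ i < 120832, cq5_7 i = true := range_step h7 hq5_7_7 (by norm_num)
  have h9 : ∀ i < 121856, cq5_7 i = true := range_step h8 hq5_7_8 (by norm_num)
  have h10 : ∀ i < 122368, cq5_7 i = true := range_step h9 hq5_7_9 (by norm_num)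
  have h11 : ∀ i < 122624, cq5_7 i = true := range_step h10 hq5_7_10 (by norm_num)
  have h12 : ∀ i < 122752, cq5_7 i = true := range_step h11 hq5_7_11 (by norm_num)
  have h13 : ∀ i < 122760, cq5_7 i = true := range_step h12 hq5_7_12 (by norm_num)
  exact h13
theorem q5_7 : (tab.perm 5 * tab.perm 7) ^ 2 = 1 :=
  dih_spec tab 5 7 2 (by decide) (by decide) rfl rfl (fun c hc => by
    obtain ⟨i, hi, rfl⟩ := hc
    exact hq5_7 i hi)
noncomputable def cq6_7 (i : ℕ) : Bool := (fun c => (fun d1 => @Bool.rec (fun _ => Bool) ((fun d2 => @Bool.rec (fun _ => Bool) ((fun d3 => @Bool.rec (fun _ => Bool) ((fun d4 => @Bool.rec (fun _ => Bool) ((fun d5 => @Bool.rec (fun _ => Bool) ((fun d6 => @Bool.rec (fun _ => Bool) (Nat.beq d6 c) true (Nat.blt d6 c)) (f7 (d5))) true (Nat.blt d5 c)) (f6 (d4))) true (Nat.blt d4 c)) (f7 (d3))) true (Nat.blt d3 c)) (f6 (d2))) true (Nat.blt d2 c)) (f7 (d1))) true (Nat.blt d1 c)) (f6 (c))) (Nat.mul 22 i)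
theorem hq6_7_0 : all2 cq6_7 14 0 = true := by decide +kernel
theorem hq6_7_1 : all2 cq6_7 14 16384 = true := by decide +kernel
theorem hq6_7_2 : all2 cq6_7 14 32768 = true := by decide +kernel
theorem hq6_7_3 : all2 cq6_7 14 49152 = true := by decide +kernel
theorem hq6_7_4 : all2 cq6_7 14 65536 = true := by decide +kernel
theorem hq6_7_5 : all2 cq6_7 15 81920 = true := by decide +kernel
theorem hq6_7_6 : all2 cq6_7 12 114688 = true := by decide +kernel
theorem hq6_7_7 : all2 cq6_7 11 118784 = true := by decide +kernel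
theorem hq6_7_8 : all2 cq6_7 10 120832 = true := by decide +kernel
theorem hq6_7_9 : all2 cq6_7 9 121856 = true := by decide +kernel
theorem hq6_7_10 : all2 cq6_7 8 122368 = true := by decide +kernel
theorem hq6_7_11 : all2 cq6_7 7 122624 = true := by decide +kernel
theorem hq6_7_12 : all2 cq6_7 3 122752 = true := by decide +kernel
theorem hq6_7 : ∀ i < 122760, cq6_7 i = true := by
  have h0 : ∀ i < 0, cq6_7 i = true := fun i hi => absurd hi (Nat.not_lt_zero i)
  have h1 : ∀ i < 16384, cq6_7 i = true := range_step h0 hq6_7_0 (by norm_num)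
  have h2 : ∀ i < 32768, cq6_7 i = true := range_step h1 hq6_7_1 (by norm_num)
  have h3 : ∀ i < 49152, cq6_7 i = true := range_step h2 hq6_7_2 (by norm_num)
  have h4 : ∀ i < 65536, cq6_7 i = true := range_step h3 hq6_7_3 (by norm_num)
  have h5 : ∀ i < 81920, cq6_7 i = true := range_step h4 hq6_7_4 (by norm_num)
  have h6 : ∀ i < 114688, cq6_7 i = true := range_step h5 hq6_7_5 (by norm_num)
  have h7 : ∀ i < 118784, cq6_7 i = true := range_step h6 hq6_7_6 (by norm_num)
  have h8 : ∀ i < 120832, cq6_7 i = true := range_step h7 hq6_7_7 (by norm_num)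
  have h9 : ∀ i < 121856, cq6_7 i = true := range_step h8 hq6_7_8 (by norm_num)
  have h10 : ∀ i < 122368, cq6_7 i = true := range_step h9 hq6_7_9 (by norm_num)
  have h11 : ∀ i < 122624, cq6_7 i = true := range_step h10 hq6_7_10 (by norm_num)
  have h12 : ∀ i < 122752, cq6_7 i = true := range_step h11 hq6_7_11 (by norm_num)
  have h13 : ∀ i < 122760, cq6_7 i = true := range_step h12 hq6_7_12 (by norm_num)
  exact h13
theorem q6_7 : (tab.perm 6 * tab.perm 7) ^ 3 = 1 :=
  dih_spec tab 6 7 3 (by decide) (by decide) rfl rfl (fun c hc => by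
    obtain ⟨i, hi, rfl⟩ := hc
    exact hq6_7 i hi)
noncomputable def cv0 (i : ℕ) : Bool := (fun c => (fun d1 => @Bool.rec (fun _ => Bool) (Nat.beq d1 c) true (Nat.blt d1 c)) (f1 (f1 (f7 (f2 (c)))))) (Nat.mul 22 i)
theorem hv0_0 : all2 cv0 14 0 = true := by decide +kernel
theorem hv0_1 : all2 cv0 14 16384 = true := by decide +kernel
theorem hv0_2 : all2 cv0 14 32768 = true := by decide +kernel
theorem hv0_3 : all2 cv0 14 49152 = true := by decide +kernel
theorem hv0_4 : all2 cv0 14 65536 = true := by decide +kernel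
theorem hv0_5 : all2 cv0 14 81920 = true := by decide +kernel
theorem hv0_6 : all2 cv0 14 98304 = true := by decide +kernel
theorem hv0_7 : all2 cv0 12 114688 = true := by decide +kernel
theorem hv0_8 : all2 cv0 11 118784 = true := by decide +kernel
theorem hv0_9 : all2 cv0 10 120832 = true := by decide +kernel
theorem hv0_10 : all2 cv0 9 121856 = true := by decide +kernel
theorem hv0_11 : all2 cv0 8 122368 = true := by decide +kernel
theorem hv0_12 : all2 cv0 7 122624 = true := by decide +kernel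
theorem hv0_13 : all2 cv0 3 122752 = true := by decide +kernel
theorem hv0 : ∀ i < 122760, cv0 i = true := by
  have h0 : ∀ i < 0, cv0 i = true := fun i hi => absurd hi (Nat.not_lt_zero i)
  have h1 : ∀ i < 16384, cv0 i = true := range_step h0 hv0_0 (by norm_num)
  have h2 : ∀ i < 32768, cv0 i = true := range_step h1 hv0_1 (by norm_num)
  have h3 : ∀ i < 49152, cv0 i = true := range_step h2 hv0_2 (by norm_num)
  have h4 : ∀ i < 65536, cv0 i = true := range_step h3 hv0_3 (by norm_num)
  have h5 : ∀ i < 81920, cv0 i = true := range_step h4 hv0_4 (by norm_num)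
  have h6 : ∀ i < 98304, cv0 i = true := range_step h5 hv0_5 (by norm_num)
  have h7 : ∀ i < 114688, cv0 i = true := range_step h6 hv0_6 (by norm_num)
  have h8 : ∀ i < 118784, cv0 i = true := range_step h7 hv0_7 (by norm_num)
  have h9 : ∀ i < 120832, cv0 i = true := range_step h8 hv0_8 (by norm_num)
  have h10 : ∀ i < 121856, cv0 i = true := range_step h9 hv0_9 (by norm_num)
  have h11 : ∀ i < 122368, cv0 i = true := range_step h10 hv0_10 (by norm_num)
  have h12 : ∀ i < 122624, cv0 i = true := range_step h11 hv0_11 (by norm_num)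
  have h13 : ∀ i < 122752, cv0 i = true := range_step h12 hv0_12 (by norm_num)
  have h14 : ∀ i < 122760, cv0 i = true := range_step h13 hv0_13 (by norm_num)
  exact h14
theorem v0 : wd tab.perm [2, 7, 1, 1] ^ 1 = 1 :=
  pow_spec tab [2, 7, 1, 1] 1 (by decide) (fun c hc => by
    obtain ⟨i, hi, rfl⟩ := hc
    exact hv0 i hi)
end Cfsg.Agent.H5TC.ON122760
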