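import Cfsg.Agent.Lib.H5TCON122760
import Cfsg.Agent.Lib.H5TC6

set_option autoImplicit false
set_option maxRecDepth 1000000
set_option maxHeartbeats 0
set_option Elab.async false

namespace Cfsg.Agent.H5TC.ON122760

open Cfsg.Agent.H5TC

attribute [local irreducible] f0 f1 f2 f3 f4 f5 f6 f7
noncomputable def cv1 (i : ℕ) : Bool := (fun c => (fun d1 => @Bool.rec (fun _ => Bool) (Nat.beq d1 c) true (Nat.blt d1 c)) (f4 (f5 (f4 (f5 (f4 (f5 (f4 (f5 (f7 (f2 (c)))))))))))) (Nat.mul 22 i)
theorem hv1_0 : all2 cv1 12 0 = true := by decide +kernel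
theorem hv1_1 : all2 cv1 12 4096 = true := by decide +kernel
theorem hv1_2 : all2 cv1 12 8192 = true := by decide +kernel
theorem hv1_3 : all2 cv1 12 12288 = true := by decide +kernel
theorem hv1_4 : all2 cv1 12 16384 = true := by decide +kernel
theorem hv1_5 : all2 cv1 12 20480 = true := by decide +kernel
theorem hv1_6 : all2 cv1 12 24576 = true := by decide +kernel
theorem hv1_7 : all2 cv1 12 28672 = true := by decide +kernel
theorem hv1_8 : all2 cv1 12 32768 = true := by decide +kernel
theorem hv1_9 : all2 cv1 12 36864 = true := by decide +kernel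
theorem hv1_10 : all2 cv1 12 40960 = true := by decide +kernel
theorem hv1_11 : all2 cv1 12 45056 = true := by decide +kernel
theorem hv1_12 : all2 cv1 12 49152 = true := by decide +kernel
theorem hv1_13 : all2 cv1 12 53248 = true := by decide +kernel
theorem hv1_14 : all2 cv1 12 57344 = true := by decide +kernel
theorem hv1_15 : all2 cv1 12 61440 = true := by decide +kernel
theorem hv1_16 : all2 cv1 12 65536 = true := by decide +kernel
theorem hv1_17 : all2 cv1 12 69632 = true := by decide +kernel
theorem hv1_18 : all2 cv1 12 73728 = true := by decide +kernel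
theorem hv1_19 : all2 cv1 12 77824 = true := by decide +kernel
theorem hv1_20 : all2 cv1 12 81920 = true := by decide +kernel
theorem hv1_21 : all2 cv1 12 86016 = true := by decide +kernel
theorem hv1_22 : all2 cv1 12 90112 = true := by decide +kernel
theorem hv1_23 : all2 cv1 12 94208 = true := by decide +kernel
theorem hv1_24 : all2 cv1 12 98304 = true := by decide +kernel
theorem hv1_25 : all2 cv1 12 102400 = true := by decide +kernel
theorem hv1_26 : all2 cv1 12 106496 = true := by decide +kernel
theorem hv1_27 : all2 cv1 12 110592 = true := by decide +kernel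
theorem hv1_28 : all2 cv1 12 114688 = true := by decide +kernel
theorem hv1_29 : all2 cv1 11 118784 = true := by decide +kernel
theorem hv1_30 : all2 cv1 10 120832 = true := by decide +kernel
theorem hv1_31 : all2 cv1 9 121856 = true := by decide +kernel
theorem hv1_32 : all2 cv1 8 122368 = true := by decide +kernel
theorem hv1_33 : all2 cv1 7 122624 = true := by decide +kernel
theorem hv1_34 : all2 cv1 3 122752 = true := by decide +kernel
theorem hv1 : ∀ i < 122760, cv1 i = true := by
  have h0 : ∀ i < 0, cv1 i = true := fun i hi => absurd hi (Nat.not_lt_zero i)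
  have h1 : ∀ i < 4096, cv1 i = true := range_step h0 hv1_0 (by norm_num)
  have h2 : ∀ i < 8192, cv1 i = true := range_step h1 hv1_1 (by norm_num)
  have h3 : ∀ i < 12288, cv1 i = true := range_step h2 hv1_2 (by norm_num)
  have h4 : ∀ i < 16384, cv1 i = true := range_step h3 hv1_3 (by norm_num)
  have h5 : ∀ i < 20480, cv1 i = true := range_step h4 hv1_4 (by norm_num)
  have h6 : ∀ i < 24576, cv1 i = true := range_step h5 hv1_5 (by norm_num)
  have h7 : ∀ i < 28672, cv1 i = true := range_step h6 hv1_6 (by norm_num)
  have h8 : ∀ i < 32768, cv1 i = true := range_step h7 hv1_7 (by norm_num)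
  have h9 : ∀ i < 36864, cv1 i = true := range_step h8 hv1_8 (by norm_num)
  have h10 : ∀ i < 40960, cv1 i = true := range_step h9 hv1_9 (by norm_num)
  have h11 : ∀ i < 45056, cv1 i = true := range_step h10 hv1_10 (by norm_num)
  have h12 : ∀ i < 49152, cv1 i = true := range_step h11 hv1_11 (by norm_num)
  have h13 : ∀ i < 53248, cv1 i = true := range_step h12 hv1_12 (by norm_num)
  have h14 : ∀ i < 57344, cv1 i = true := range_step h13 hv1_13 (by norm_num)
  have h15 : ∀ i < 61440, cv1 i = true := range_step h14 hv1_14 (by norm_num)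
  have h16 : ∀ i < 65536, cv1 i = true := range_step h15 hv1_15 (by norm_num)
  have h17 : ∀ i < 69632, cv1 i = true := range_step h16 hv1_16 (by norm_num)
  have h18 : ∀ i < 73728, cv1 i = true := range_step h17 hv1_17 (by norm_num)
  have h19 : ∀ i < 77824, cv1 i = true := range_step h18 hv1_18 (by norm_num)
  have h20 : ∀ i < 81920, cv1 i = true := range_step h19 hv1_19 (by norm_num)
  have h21 : ∀ i < 86016, cv1 i = true := range_step h20 hv1_20 (by norm_num)
  have h22 : ∀ i < 90112, cv1 i = true := range_step h21 hv1_21 (by norm_num)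
  have h23 : ∀ i < 94208, cv1 i = true := range_step h22 hv1_22 (by norm_num)
  have h24 : ∀ i < 98304, cv1 i = true := range_step h23 hv1_23 (by norm_num)
  have h25 : ∀ i < 102400, cv1 i = true := range_step h24 hv1_24 (by norm_num)
  have h26 : ∀ i < 106496, cv1 i = true := range_step h25 hv1_25 (by norm_num)
  have h27 : ∀ i < 110592, cv1 i = true := range_step h26 hv1_26 (by norm_num)
  have h28 : ∀ i < 114688, cv1 i = true := range_step h27 hv1_27 (by norm_num)
  have h29 : ∀ i < 118784, cv1 i = true := range_step h28 hv1_28 (by norm_num)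
  have h30 : ∀ i < 120832, cv1 i = true := range_step h29 hv1_29 (by norm_num)
  have h31 : ∀ i < 121856, cv1 i = true := range_step h30 hv1_30 (by norm_num)
  have h32 : ∀ i < 122368, cv1 i = true := range_step h31 hv1_31 (by norm_num)
  have h33 : ∀ i < 122624, cv1 i = true := range_step h32 hv1_32 (by norm_num)
  have h34 : ∀ i < 122752, cv1 i = true := range_step h33 hv1_33 (by norm_num)
  have h35 : ∀ i < 122760, cv1 i = true := range_step h34 hv1_34 (by norm_num)
  exact h35
theorem v1 : wd tab.perm [2, 7, 5, 4, 5, 4, 5, 4, 5, 4] ^ 1 = 1 :=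
  pow_spec tab [2, 7, 5, 4, 5, 4, 5, 4, 5, 4] 1 (by decide) (fun c hc => by
    obtain ⟨i, hi, rfl⟩ := hc
    exact hv1 i hi)
noncomputable def cv2 (i : ℕ) : Bool := (fun c => (fun d1 => @Bool.rec (fun _ => Bool) (Nat.beq d1 c) true (Nat.blt d1 c)) (f0 (f5 (f0 (f5 (f4 (f5 (f1 (f5 (f1 (f4 (c)))))))))))) (Nat.mul 22 i)
theorem hv2_0 : all2 cv2 12 0 = true := by decide +kernel
theorem hv2_1 : all2 cv2 12 4096 = true := by decide +kernel
theorem hv2_2 : all2 cv2 12 8192 = true := by decide +kernel
theorem hv2_3 : all2 cv2 12 12288 = true := by decide +kernel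
theorem hv2_4 : all2 cv2 12 16384 = true := by decide +kernel
theorem hv2_5 : all2 cv2 12 20480 = true := by decide +kernel
theorem hv2_6 : all2 cv2 12 24576 = true := by decide +kernel
theorem hv2_7 : all2 cv2 12 28672 = true := by decide +kernel
theorem hv2_8 : all2 cv2 12 32768 = true := by decide +kernel
theorem hv2_9 : all2 cv2 12 36864 = true := by decide +kernel
theorem hv2_10 : all2 cv2 12 40960 = true := by decide +kernel
theorem hv2_11 : all2 cv2 12 45056 = true := by decide +kernel
theorem hv2_12 : all2 cv2 12 49152 = true := by decide +kernel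
theorem hv2_13 : all2 cv2 12 53248 = true := by decide +kernel
theorem hv2_14 : all2 cv2 12 57344 = true := by decide +kernel
theorem hv2_15 : all2 cv2 12 61440 = true := by decide +kernel
theorem hv2_16 : all2 cv2 12 65536 = true := by decide +kernel
theorem hv2_17 : all2 cv2 12 69632 = true := by decide +kernel
theorem hv2_18 : all2 cv2 12 73728 = true := by decide +kernel
theorem hv2_19 : all2 cv2 12 77824 = true := by decide +kernel
theorem hv2_20 : all2 cv2 12 81920 = true := by decide +kernel
theorem hv2_21 : all2 cv2 12 86016 = true := by decide +kernel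
theorem hv2_22 : all2 cv2 12 90112 = true := by decide +kernel
theorem hv2_23 : all2 cv2 12 94208 = true := by decide +kernel
theorem hv2_24 : all2 cv2 12 98304 = true := by decide +kernel
theorem hv2_25 : all2 cv2 12 102400 = true := by decide +kernel
theorem hv2_26 : all2 cv2 12 106496 = true := by decide +kernel
theorem hv2_27 : all2 cv2 12 110592 = true := by decide +kernel
theorem hv2_28 : all2 cv2 12 114688 = true := by decide +kernel
theorem hv2_29 : all2 cv2 11 118784 = true := by decide +kernel
theorem hv2_30 : all2 cv2 10 120832 = true := by decide +kernel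
theorem hv2_31 : all2 cv2 9 121856 = true := by decide +kernel
theorem hv2_32 : all2 cv2 8 122368 = true := by decide +kernel
theorem hv2_33 : all2 cv2 7 122624 = true := by decide +kernel
theorem hv2_34 : all2 cv2 3 122752 = true := by decide +kernel
theorem hv2 : ∀ i < 122760, cv2 i = true := by
  have h0 : ∀ i < 0, cv2 i = true := fun i hi => absurd hi (Nat.not_lt_zero i)
  have h1 : ∀ i < 4096, cv2 i = true := range_step h0 hv2_0 (by norm_num)
  have h2 : ∀ i < 8192, cv2 i = true := range_step h1 hv2_1 (by norm_num)
  have h3 : ∀ i < 12288, cv2 i = true := range_step h2 hv2_2 (by norm_num)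
  have h4 : ∀ i < 16384, cv2 i = true := range_step h3 hv2_3 (by norm_num)
  have h5 : ∀ i < 20480, cv2 i = true := range_step h4 hv2_4 (by norm_num)
  have h6 : ∀ i < 24576, cv2 i = true := range_step h5 hv2_5 (by norm_num)
  have h7 : ∀ i < 28672, cv2 i = true := range_step h6 hv2_6 (by norm_num)
  have h8 : ∀ i < 32768, cv2 i = true := range_step h7 hv2_7 (by norm_num)
  have h9 : ∀ i < 36864, cv2 i = true := range_step h8 hv2_8 (by norm_num)
  have h10 : ∀ i < 40960, cv2 i = true := range_step h9 hv2_9 (by norm_num)
  have h11 : ∀ i < 45056, cv2 i = true := range_step h10 hv2_10 (by norm_num)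
  have h12 : ∀ i < 49152, cv2 i = true := range_step h11 hv2_11 (by norm_num)
  have h13 : ∀ i < 53248, cv2 i = true := range_step h12 hv2_12 (by norm_num)
  have h14 : ∀ i < 57344, cv2 i = true := range_step h13 hv2_13 (by norm_num)
  have h15 : ∀ i < 61440, cv2 i = true := range_step h14 hv2_14 (by norm_num)
  have h16 : ∀ i < 65536, cv2 i = true := range_step h15 hv2_15 (by norm_num)
  have h17 : ∀ i < 69632, cv2 i = true := range_step h16 hv2_16 (by norm_num)
  have h18 : ∀ i < 73728, cv2 i = true := range_step h17 hv2_17 (by norm_num)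
  have h19 : ∀ i < 77824, cv2 i = true := range_step h18 hv2_18 (by norm_num)
  have h20 : ∀ i < 81920, cv2 i = true := range_step h19 hv2_19 (by norm_num)
  have h21 : ∀ i < 86016, cv2 i = true := range_step h20 hv2_20 (by norm_num)
  have h22 : ∀ i < 90112, cv2 i = true := range_step h21 hv2_21 (by norm_num)
  have h23 : ∀ i < 94208, cv2 i = true := range_step h22 hv2_22 (by norm_num)
  have h24 : ∀ i < 98304, cv2 i = true := range_step h23 hv2_23 (by norm_num)
  have h25 : ∀ i < 102400, cv2 i = true := range_step h24 hv2_24 (by norm_num)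
  have h26 : ∀ i < 106496, cv2 i = true := range_step h25 hv2_25 (by norm_num)
  have h27 : ∀ i < 110592, cv2 i = true := range_step h26 hv2_26 (by norm_num)
  have h28 : ∀ i < 114688, cv2 i = true := range_step h27 hv2_27 (by norm_num)
  have h29 : ∀ i < 118784, cv2 i = true := range_step h28 hv2_28 (by norm_num)
  have h30 : ∀ i < 120832, cv2 i = true := range_step h29 hv2_29 (by norm_num)
  have h31 : ∀ i < 121856, cv2 i = true := range_step h30 hv2_30 (by norm_num)
  have h32 : ∀ i < 122368, cv2 i = true := range_step h31 hv2_31 (by norm_num)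
  have h33 : ∀ i < 122624, cv2 i = true := range_step h32 hv2_32 (by norm_num)
  have h34 : ∀ i < 122752, cv2 i = true := range_step h33 hv2_33 (by norm_num)
  have h35 : ∀ i < 122760, cv2 i = true := range_step h34 hv2_34 (by norm_num)
  exact h35
theorem v2 : wd tab.perm [4, 1, 5, 1, 5, 4, 5, 0, 5, 0] ^ 1 = 1 :=
  pow_spec tab [4, 1, 5, 1, 5, 4, 5, 0, 5, 0] 1 (by decide) (fun c hc => by
    obtain ⟨i, hi, rfl⟩ := hc
    exact hv2 i hi)
end Cfsg.Agent.H5TC.ON122760
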