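import Cfsg.Agent.Lib.H5TCON122760
import Cfsg.Agent.Lib.H5TC6

set_option autoImplicit false
set_option maxRecDepth 1000000
set_option maxHeartbeats 0
set_option Elab.async false

namespace Cfsg.Agent.H5TC.ON122760

open Cfsg.Agent.H5TC

attribute [local irreducible] f0 f1 f2 f3 f4 f5 f6 f7
noncomputable def cv3 (i : ℕ) : Bool := (fun c => (fun d1 => @Bool.rec (fun _ => Bool) (Nat.beq d1 c) true (Nat.blt d1 c)) (f0 (f4 (f0 (f4 (f5 (f4 (f1 (f4 (f1 (f5 (c)))))))))))) (Nat.mul 22 i)
theorem hv3_0 : all2 cv3 12 0 = true := by decide +kernel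
theorem hv3_1 : all2 cv3 12 4096 = true := by decide +kernel
theorem hv3_2 : all2 cv3 12 8192 = true := by decide +kernel
theorem hv3_3 : all2 cv3 12 12288 = true := by decide +kernel
theorem hv3_4 : all2 cv3 12 16384 = true := by decide +kernel
theorem hv3_5 : all2 cv3 12 20480 = true := by decide +kernel
theorem hv3_6 : all2 cv3 12 24576 = true := by decide +kernel
theorem hv3_7 : all2 cv3 12 28672 = true := by decide +kernel
theorem hv3_8 : all2 cv3 12 32768 = true := by decide +kernel
theorem hv3_9 : all2 cv3 12 36864 = true := by decide +kernel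
theorem hv3_10 : all2 cv3 12 40960 = true := by decide +kernel
theorem hv3_11 : all2 cv3 12 45056 = true := by decide +kernel
theorem hv3_12 : all2 cv3 12 49152 = true := by decide +kernel
theorem hv3_13 : all2 cv3 12 53248 = true := by decide +kernel
theorem hv3_14 : all2 cv3 12 57344 = true := by decide +kernel
theorem hv3_15 : all2 cv3 12 61440 = true := by decide +kernel
theorem hv3_16 : all2 cv3 12 65536 = true := by decide +kernel
theorem hv3_17 : all2 cv3 12 69632 = true := by decide +kernel
theorem hv3_18 : all2 cv3 12 73728 = true := by decide +kernel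
theorem hv3_19 : all2 cv3 12 77824 = true := by decide +kernel
theorem hv3_20 : all2 cv3 12 81920 = true := by decide +kernel
theorem hv3_21 : all2 cv3 12 86016 = true := by decide +kernel
theorem hv3_22 : all2 cv3 12 90112 = true := by decide +kernel
theorem hv3_23 : all2 cv3 12 94208 = true := by decide +kernel
theorem hv3_24 : all2 cv3 12 98304 = true := by decide +kernel
theorem hv3_25 : all2 cv3 12 102400 = true := by decide +kernel
theorem hv3_26 : all2 cv3 12 106496 = true := by decide +kernel
theorem hv3_27 : all2 cv3 12 110592 = true := by decide +kernel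
theorem hv3_28 : all2 cv3 12 114688 = true := by decide +kernel
theorem hv3_29 : all2 cv3 11 118784 = true := by decide +kernel
theorem hv3_30 : all2 cv3 10 120832 = true := by decide +kernel
theorem hv3_31 : all2 cv3 9 121856 = true := by decide +kernel
theorem hv3_32 : all2 cv3 8 122368 = true := by decide +kernel
theorem hv3_33 : all2 cv3 7 122624 = true := by decide +kernel
theorem hv3_34 : all2 cv3 3 122752 = true := by decide +kernel
theorem hv3 : ∀ i < 122760, cv3 i = true := by
  have h0 : ∀ i < 0, cv3 i = true := fun i hi => absurd hi (Nat.not_lt_zero i)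
  have h1 : ∀ i < 4096, cv3 i = true := range_step h0 hv3_0 (by norm_num)
  have h2 : ∀ i < 8192, cv3 i = true := range_step h1 hv3_1 (by norm_num)
  have h3 : ∀ i < 12288, cv3 i = true := range_step h2 hv3_2 (by norm_num)
  have h4 : ∀ i < 16384, cv3 i = true := range_step h3 hv3_3 (by norm_num)
  have h5 : ∀ i < 20480, cv3 i = true := range_step h4 hv3_4 (by norm_num)
  have h6 : ∀ i < 24576, cv3 i = true := range_step h5 hv3_5 (by norm_num)
  have h7 : ∀ i < 28672, cv3 i = true := range_step h6 hv3_6 (by norm_num)
  have h8 : ∀ i < 32768, cv3 i = true := range_step h7 hv3_7 (by norm_num)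
  have h9 : ∀ i < 36864, cv3 i = true := range_step h8 hv3_8 (by norm_num)
  have h10 : ∀ i < 40960, cv3 i = true := range_step h9 hv3_9 (by norm_num)
  have h11 : ∀ i < 45056, cv3 i = true := range_step h10 hv3_10 (by norm_num)
  have h12 : ∀ i < 49152, cv3 i = true := range_step h11 hv3_11 (by norm_num)
  have h13 : ∀ i < 53248, cv3 i = true := range_step h12 hv3_12 (by norm_num)
  have h14 : ∀ i < 57344, cv3 i = true := range_step h13 hv3_13 (by norm_num)
  have h15 : ∀ i < 61440, cv3 i = true := range_step h14 hv3_14 (by norm_num)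
  have h16 : ∀ i < 65536, cv3 i = true := range_step h15 hv3_15 (by norm_num)
  have h17 : ∀ i < 69632, cv3 i = true := range_step h16 hv3_16 (by norm_num)
  have h18 : ∀ i < 73728, cv3 i = true := range_step h17 hv3_17 (by norm_num)
  have h19 : ∀ i < 77824, cv3 i = true := range_step h18 hv3_18 (by norm_num)
  have h20 : ∀ i < 81920, cv3 i = true := range_step h19 hv3_19 (by norm_num)
  have h21 : ∀ i < 86016, cv3 i = true := range_step h20 hv3_20 (by norm_num)
  have h22 : ∀ i < 90112, cv3 i = true := range_step h21 hv3_21 (by norm_num)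
  have h23 : ∀ i < 94208, cv3 i = true := range_step h22 hv3_22 (by norm_num)
  have h24 : ∀ i < 98304, cv3 i = true := range_step h23 hv3_23 (by norm_num)
  have h25 : ∀ i < 102400, cv3 i = true := range_step h24 hv3_24 (by norm_num)
  have h26 : ∀ i < 106496, cv3 i = true := range_step h25 hv3_25 (by norm_num)
  have h27 : ∀ i < 110592, cv3 i = true := range_step h26 hv3_26 (by norm_num)
  have h28 : ∀ i < 114688, cv3 i = true := range_step h27 hv3_27 (by norm_num)
  have h29 : ∀ i < 118784, cv3 i = true := range_step h28 hv3_28 (by norm_num)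
  have h30 : ∀ i < 120832, cv3 i = true := range_step h29 hv3_29 (by norm_num)
  have h31 : ∀ i < 121856, cv3 i = true := range_step h30 hv3_30 (by norm_num)
  have h32 : ∀ i < 122368, cv3 i = true := range_step h31 hv3_31 (by norm_num)
  have h33 : ∀ i < 122624, cv3 i = true := range_step h32 hv3_32 (by norm_num)
  have h34 : ∀ i < 122752, cv3 i = true := range_step h33 hv3_33 (by norm_num)
  have h35 : ∀ i < 122760, cv3 i = true := range_step h34 hv3_34 (by norm_num)
  exact h35
theorem v3 : wd tab.perm [5, 1, 4, 1, 4, 5, 4, 0, 4, 0] ^ 1 = 1 :=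
  pow_spec tab [5, 1, 4, 1, 4, 5, 4, 0, 4, 0] 1 (by decide) (fun c hc => by
    obtain ⟨i, hi, rfl⟩ := hc
    exact hv3 i hi)
noncomputable def cv4 (i : ℕ) : Bool := (fun c => (fun d1 => @Bool.rec (fun _ => Bool) ((fun d2 => @Bool.rec (fun _ => Bool) ((fun d3 => @Bool.rec (fun _ => Bool) ((fun d4 => @Bool.rec (fun _ => Bool) ((fun d5 => @Bool.rec (fun _ => Bool) (Nat.beq d5 c) true (Nat.blt d5 c)) (f0 (f5 (f4 (f3 (d4)))))) true (Nat.blt d4 c)) (f0 (f5 (f4 (f3 (d3)))))) true (Nat.blt d3 c)) (f0 (f5 (f4 (f3 (d2)))))) true (Nat.blt d2 c)) (f0 (f5 (f4 (f3 (d1)))))) true (Nat.blt d1 c)) (f0 (f5 (f4 (f3 (c)))))) (Nat.mul 22 i)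
theorem hv4_0 : all2 cv4 12 0 = true := by decide +kernel
theorem hv4_1 : all2 cv4 12 4096 = true := by decide +kernel
theorem hv4_2 : all2 cv4 12 8192 = true := by decide +kernel
theorem hv4_3 : all2 cv4 12 12288 = true := by decide +kernel
theorem hv4_4 : all2 cv4 12 16384 = true := by decide +kernel
theorem hv4_5 : all2 cv4 12 20480 = true := by decide +kernel
theorem hv4_6 : all2 cv4 12 24576 = true := by decide +kernel
theorem hv4_7 : all2 cv4 12 28672 = true := by decide +kernel
theorem hv4_8 : all2 cv4 12 32768 = true := by decide +kernel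
theorem hv4_9 : all2 cv4 12 36864 = true := by decide +kernel
theorem hv4_10 : all2 cv4 12 40960 = true := by decide +kernel
theorem hv4_11 : all2 cv4 12 45056 = true := by decide +kernel
theorem hv4_12 : all2 cv4 12 49152 = true := by decide +kernel
theorem hv4_13 : all2 cv4 12 53248 = true := by decide +kernel
theorem hv4_14 : all2 cv4 12 57344 = true := by decide +kernel
theorem hv4_15 : all2 cv4 13 61440 = true := by decide +kernel
theorem hv4_16 : all2 cv4 13 69632 = true := by decide +kernel
theorem hv4_17 : all2 cv4 13 77824 = true := by decide +kernel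
theorem hv4_18 : all2 cv4 13 86016 = true := by decide +kernel
theorem hv4_19 : all2 cv4 13 94208 = true := by decide +kernel
theorem hv4_20 : all2 cv4 13 102400 = true := by decide +kernel
theorem hv4_21 : all2 cv4 13 110592 = true := by decide +kernel
theorem hv4_22 : all2 cv4 11 118784 = true := by decide +kernel
theorem hv4_23 : all2 cv4 10 120832 = true := by decide +kernel
theorem hv4_24 : all2 cv4 9 121856 = true := by decide +kernel
theorem hv4_25 : all2 cv4 8 122368 = true := by decide +kernel
theorem hv4_26 : all2 cv4 7 122624 = true := by decide +kernel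
theorem hv4_27 : all2 cv4 3 122752 = true := by decide +kernel
theorem hv4 : ∀ i < 122760, cv4 i = true := by
  have h0 : ∀ i < 0, cv4 i = true := fun i hi => absurd hi (Nat.not_lt_zero i)
  have h1 : ∀ i < 4096, cv4 i = true := range_step h0 hv4_0 (by norm_num)
  have h2 : ∀ i < 8192, cv4 i = true := range_step h1 hv4_1 (by norm_num)
  have h3 : ∀ i < 12288, cv4 i = true := range_step h2 hv4_2 (by norm_num)
  have h4 : ∀ i < 16384, cv4 i = true := range_step h3 hv4_3 (by norm_num)
  have h5 : ∀ i < 20480, cv4 i = true := range_step h4 hv4_4 (by norm_num)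
  have h6 : ∀ i < 24576, cv4 i = true := range_step h5 hv4_5 (by norm_num)
  have h7 : ∀ i < 28672, cv4 i = true := range_step h6 hv4_6 (by norm_num)
  have h8 : ∀ i < 32768, cv4 i = true := range_step h7 hv4_7 (by norm_num)
  have h9 : ∀ i < 36864, cv4 i = true := range_step h8 hv4_8 (by norm_num)
  have h10 : ∀ i < 40960, cv4 i = true := range_step h9 hv4_9 (by norm_num)
  have h11 : ∀ i < 45056, cv4 i = true := range_step h10 hv4_10 (by norm_num)
  have h12 : ∀ i < 49152, cv4 i = true := range_step h11 hv4_11 (by norm_num)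
  have h13 : ∀ i < 53248, cv4 i = true := range_step h12 hv4_12 (by norm_num)
  have h14 : ∀ i < 57344, cv4 i = true := range_step h13 hv4_13 (by norm_num)
  have h15 : ∀ i < 61440, cv4 i = true := range_step h14 hv4_14 (by norm_num)
  have h16 : ∀ i < 69632, cv4 i = true := range_step h15 hv4_15 (by norm_num)
  have h17 : ∀ i < 77824, cv4 i = true := range_step h16 hv4_16 (by norm_num)
  have h18 : ∀ i < 86016, cv4 i = true := range_step h17 hv4_17 (by norm_num)
  have h19 : ∀ i < 94208, cv4 i = true := range_step h18 hv4_18 (by norm_num)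
  have h20 : ∀ i < 102400, cv4 i = true := range_step h19 hv4_19 (by norm_num)
  have h21 : ∀ i < 110592, cv4 i = true := range_step h20 hv4_20 (by norm_num)
  have h22 : ∀ i < 118784, cv4 i = true := range_step h21 hv4_21 (by norm_num)
  have h23 : ∀ i < 120832, cv4 i = true := range_step h22 hv4_22 (by norm_num)
  have h24 : ∀ i < 121856, cv4 i = true := range_step h23 hv4_23 (by norm_num)
  have h25 : ∀ i < 122368, cv4 i = true := range_step h24 hv4_24 (by norm_num)
  have h26 : ∀ i < 122624, cv4 i = true := range_step h25 hv4_25 (by norm_num)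
  have h27 : ∀ i < 122752, cv4 i = true := range_step h26 hv4_26 (by norm_num)
  have h28 : ∀ i < 122760, cv4 i = true := range_step h27 hv4_27 (by norm_num)
  exact h28
theorem v4 : wd tab.perm [3, 4, 5, 0] ^ 5 = 1 :=
  pow_spec tab [3, 4, 5, 0] 5 (by decide) (fun c hc => by
    obtain ⟨i, hi, rfl⟩ := hc
    exact hv4 i hi)
end Cfsg.Agent.H5TC.ON122760
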