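import Cfsg.Agent.Lib.H5TCON122760
import Cfsg.Agent.Lib.H5TC6

set_option autoImplicit false
set_option maxRecDepth 1000000
set_option maxHeartbeats 0
set_option Elab.async false

namespace Cfsg.Agent.H5TC.ON122760

open Cfsg.Agent.H5TC

attribute [local irreducible] f0 f1 f2 f3 f4 f5 f6 f7
noncomputable def cv6 (i : ℕ) : Bool := (fun c => (fun d1 => @Bool.rec (fun _ => Bool) (Nat.beq d1 c) true (Nat.blt d1 c)) (f5 (f0 (f5 (f6 (f0 (f6 (f5 (f0 (f5 (f6 (f0 (c))))))))))))) (Nat.mul 22 i)
theorem hv6_0 : all2 cv6 12 0 = true := by decide +kernel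
theorem hv6_1 : all2 cv6 12 4096 = true := by decide +kernel
theorem hv6_2 : all2 cv6 12 8192 = true := by decide +kernel
theorem hv6_3 : all2 cv6 12 12288 = true := by decide +kernel
theorem hv6_4 : all2 cv6 12 16384 = true := by decide +kernel
theorem hv6_5 : all2 cv6 12 20480 = true := by decide +kernel
theorem hv6_6 : all2 cv6 12 24576 = true := by decide +kernel
theorem hv6_7 : all2 cv6 12 28672 = true := by decide +kernel
theorem hv6_8 : all2 cv6 12 32768 = true := by decide +kernel
theorem hv6_9 : all2 cv6 12 36864 = true := by decide +kernel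
theorem hv6_10 : all2 cv6 12 40960 = true := by decide +kernel
theorem hv6_11 : all2 cv6 12 45056 = true := by decide +kernel
theorem hv6_12 : all2 cv6 12 49152 = true := by decide +kernel
theorem hv6_13 : all2 cv6 12 53248 = true := by decide +kernel
theorem hv6_14 : all2 cv6 12 57344 = true := by decide +kernel
theorem hv6_15 : all2 cv6 12 61440 = true := by decide +kernel
theorem hv6_16 : all2 cv6 12 65536 = true := by decide +kernel
theorem hv6_17 : all2 cv6 12 69632 = true := by decide +kernel
theorem hv6_18 : all2 cv6 12 73728 = true := by decide +kernel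
theorem hv6_19 : all2 cv6 12 77824 = true := by decide +kernel
theorem hv6_20 : all2 cv6 12 81920 = true := by decide +kernel
theorem hv6_21 : all2 cv6 12 86016 = true := by decide +kernel
theorem hv6_22 : all2 cv6 12 90112 = true := by decide +kernel
theorem hv6_23 : all2 cv6 12 94208 = true := by decide +kernel
theorem hv6_24 : all2 cv6 12 98304 = true := by decide +kernel
theorem hv6_25 : all2 cv6 12 102400 = true := by decide +kernel
theorem hv6_26 : all2 cv6 12 106496 = true := by decide +kernel
theorem hv6_27 : all2 cv6 12 110592 = true := by decide +kernel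
theorem hv6_28 : all2 cv6 12 114688 = true := by decide +kernel
theorem hv6_29 : all2 cv6 11 118784 = true := by decide +kernel
theorem hv6_30 : all2 cv6 10 120832 = true := by decide +kernel
theorem hv6_31 : all2 cv6 9 121856 = true := by decide +kernel
theorem hv6_32 : all2 cv6 8 122368 = true := by decide +kernel
theorem hv6_33 : all2 cv6 7 122624 = true := by decide +kernel
theorem hv6_34 : all2 cv6 3 122752 = true := by decide +kernel
theorem hv6 : ∀ i < 122760, cv6 i = true := by
  have h0 : ∀ i < 0, cv6 i = true := fun i hi => absurd hi (Nat.not_lt_zero i)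
  have h1 : ∀ i < 4096, cv6 i = true := range_step h0 hv6_0 (by norm_num)
  have h2 : ∀ i < 8192, cv6 i = true := range_step h1 hv6_1 (by norm_num)
  have h3 : ∀ i < 12288, cv6 i = true := range_step h2 hv6_2 (by norm_num)
  have h4 : ∀ i < 16384, cv6 i = true := range_step h3 hv6_3 (by norm_num)
  have h5 : ∀ i < 20480, cv6 i = true := range_step h4 hv6_4 (by norm_num)
  have h6 : ∀ i < 24576, cv6 i = true := range_step h5 hv6_5 (by norm_num)
  have h7 : ∀ i < 28672, cv6 i = true := range_step h6 hv6_6 (by norm_num)
  have h8 : ∀ i < 32768, cv6 i = true := range_step h7 hv6_7 (by norm_num)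
  have h9 : ∀ i < 36864, cv6 i = true := range_step h8 hv6_8 (by norm_num)
  have h10 : ∀ i < 40960, cv6 i = true := range_step h9 hv6_9 (by norm_num)
  have h11 : ∀ i < 45056, cv6 i = true := range_step h10 hv6_10 (by norm_num)
  have h12 : ∀ i < 49152, cv6 i = true := range_step h11 hv6_11 (by norm_num)
  have h13 : ∀ i < 53248, cv6 i = true := range_step h12 hv6_12 (by norm_num)
  have h14 : ∀ i < 57344, cv6 i = true := range_step h13 hv6_13 (by norm_num)
  have h15 : ∀ i < 61440, cv6 i = true := range_step h14 hv6_14 (by norm_num)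
  have h16 : ∀ i < 65536, cv6 i = true := range_step h15 hv6_15 (by norm_num)
  have h17 : ∀ i < 69632, cv6 i = true := range_step h16 hv6_16 (by norm_num)
  have h18 : ∀ i < 73728, cv6 i = true := range_step h17 hv6_17 (by norm_num)
  have h19 : ∀ i < 77824, cv6 i = true := range_step h18 hv6_18 (by norm_num)
  have h20 : ∀ i < 81920, cv6 i = true := range_step h19 hv6_19 (by norm_num)
  have h21 : ∀ i < 86016, cv6 i = true := range_step h20 hv6_20 (by norm_num)
  have h22 : ∀ i < 90112, cv6 i = true := range_step h21 hv6_21 (by norm_num)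
  have h23 : ∀ i < 94208, cv6 i = true := range_step h22 hv6_22 (by norm_num)
  have h24 : ∀ i < 98304, cv6 i = true := range_step h23 hv6_23 (by norm_num)
  have h25 : ∀ i < 102400, cv6 i = true := range_step h24 hv6_24 (by norm_num)
  have h26 : ∀ i < 106496, cv6 i = true := range_step h25 hv6_25 (by norm_num)
  have h27 : ∀ i < 110592, cv6 i = true := range_step h26 hv6_26 (by norm_num)
  have h28 : ∀ i < 114688, cv6 i = true := range_step h27 hv6_27 (by norm_num)
  have h29 : ∀ i < 118784, cv6 i = true := range_step h28 hv6_28 (by norm_num)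
  have h30 : ∀ i < 120832, cv6 i = true := range_step h29 hv6_29 (by norm_num)
  have h31 : ∀ i < 121856, cv6 i = true := range_step h30 hv6_30 (by norm_num)
  have h32 : ∀ i < 122368, cv6 i = true := range_step h31 hv6_31 (by norm_num)
  have h33 : ∀ i < 122624, cv6 i = true := range_step h32 hv6_32 (by norm_num)
  have h34 : ∀ i < 122752, cv6 i = true := range_step h33 hv6_33 (by norm_num)
  have h35 : ∀ i < 122760, cv6 i = true := range_step h34 hv6_34 (by norm_num)
  exact h35
theorem v6 : wd tab.perm [0, 6, 5, 0, 5, 6, 0, 6, 5, 0, 5] ^ 1 = 1 :=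
  pow_spec tab [0, 6, 5, 0, 5, 6, 0, 6, 5, 0, 5] 1 (by decide) (fun c hc => by
    obtain ⟨i, hi, rfl⟩ := hc
    exact hv6 i hi)
end Cfsg.Agent.H5TC.ON122760
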