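import Cfsg.Agent.Lib.H5TC5

set_option autoImplicit false
set_option maxRecDepth 1000000
set_option maxHeartbeats 0
set_option Elab.async false

namespace Cfsg.Agent.H5TC.ONCol

open Cfsg.Agent.H5TC

abbrev k : ℕ := 8
def inv : ℕ → ℕ
  | 0 => 1
  | 1 => 0
  | 2 => 2
  | 3 => 3
  | 4 => 4
  | 5 => 5
  | 6 => 6
  | 7 => 7
  | y => y
theorem inv_lt : ∀ y < k, inv y < k := by decide
/-- relators -/
def rels : List (List ℕ) := [[2, 3, 2, 3, 2, 3], [2, 4, 2, 4], [2, 5, 2, 5], [2, 6, 2, 6], [2, 7, 2, 7], [3, 4, 3, 4, 3, 4], [3, 5, 3, 5], [3, 6, 3, 6], [3, 7, 3, 7], [4, 5, 4, 5, 4, 5, 4, 5, 4, 5, 4, 5, 4, 5, 4, 5], [4, 6, 4, 6], [4, 7, 4, 7], [5, 6, 5, 6, 5, 6], [5, 7, 5, 7], [6, 7, 6, 7, 6, 7], [2, 7, 1, 1], [2, 7, 5, 4, 5, 4, 5, 4, 5, 4], [4, 1, 5, 1, 5, 4, 5, 0, 5, 0], [5, 1, 4, 1, 4, 5, 4, 0, 4, 0], [3, 4, 5, 0, 3, 4, 5, 0, 3, 4, 5, 0, 3, 4, 5, 0, 3, 4, 5, 0], [0, 3, 4, 0, 4, 3, 0, 3, 4, 0, 4], [0, 6, 5, 0, 5, 6, 0, 6, 5, 0, 5], [3, 4, 5, 0]]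
/-- trivial relators -/
def relsT : List (List ℕ) := [[0, 1], [1, 0], [2, 2], [3, 3], [4, 4], [5, 5], [6, 6], [7, 7]]
/-- subgroup words -/
def subw : List (List ℕ) := []
/-- further subgroup words -/
def seeds : List (List ℕ) := [[0], [1], [2], [3], [4], [5], [6], [7]]
noncomputable def u0 : ℕ := 0x1c10000000000d100000000000000b100000101019100c100f1012100e100910161000001a101610111006100810031002100610071000100510011
noncomputable def uf0 (c : ℕ) : ℕ := Nat.land (Nat.shiftRight u0 c) 65535
noncomputable def u1 : ℕ := 0x1d1000000b101310000000000d1000000000000010100910141011100f101a101210161000000e1007100310081001100710061005100010021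
noncomputable def uf1 (c : ℕ) : ℕ := Nat.land (Nat.shiftRight u1 c) 65535
noncomputable def u2 : ℕ := 0x19101a100000000000000d100e100b101110121009100c10141015100f1013100d10101000000010051006100110021003100410071
noncomputable def uf2 (c : ℕ) : ℕ := Nat.land (Nat.shiftRight u2 c) 65535
noncomputable def u3 : ℕ := 0x1c101a101b10181019101610171000000000131000000000071000000000000006100b1000000010000010100c1000000000000002100000091
noncomputable def uf3 (c : ℕ) : ℕ := Nat.land (Nat.shiftRight u3 c) 65535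
noncomputable def u4 : ℕ := 0x1c100410000000000110031002100710000006100000000000000000000000100b100c1009100a100000151013100b101b101710171018100d1
noncomputable def uf4 (c : ℕ) : ℕ := Nat.land (Nat.shiftRight u4 c) 65535
noncomputable def u5 : ℕ := 0x1c101d1000000000000000000000000014101510121013100000000000000d100e10000004100210000000000000000000000b1000000a101310011
noncomputable def uf5 (c : ℕ) : ℕ := Nat.land (Nat.shiftRight u5 c) 65535
noncomputable def u6 : ℕ := 0x100000000000000000000000000000000000000000000000000000000000000000000000000000000000000000000000000000000001101c1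
noncomputable def uf6 (c : ℕ) : ℕ := Nat.land (Nat.shiftRight u6 c) 65535
noncomputable def u7 : ℕ := 0x1610171018101910000000000d100e1000000f1010101210131009100a100b100c1000000510001007100210011004100310061
noncomputable def uf7 (c : ℕ) : ℕ := Nat.land (Nat.shiftRight u7 c) 65535
noncomputable def u8 : ℕ := 0x11000100000000018100110161002100a1000000b10011000000010061003100a10051000100510071004100010051000100110021001100010000
noncomputable def uf8 (c : ℕ) : ℕ := Nat.land (Nat.shiftRight u8 c) 65535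
noncomputable def GT : ℕ → ℕ → ℕ
  | 0 => uf0
  | 1 => uf1
  | 2 => uf2
  | 3 => uf3
  | 4 => uf4
  | 5 => uf5
  | 6 => uf6
  | 7 => uf7
  | 8 => uf8
  | _ => uf0
noncomputable def ur0 : ℕ := 0xc600000000008c0000000000000079000000570089005200460054003e0039007b0000008e00a00044001a00180035000e002e00330003000c0000
noncomputable def urf0 (c : ℕ) : ℕ := Nat.land (Nat.shiftRight ur0 c) 65535
noncomputable def ur1 : ℕ := 0xc70000008f008800000000007a0000000000000055004500560047003f008d005300780000003800190032001b000d00300034000f00010002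
noncomputable def urf1 (c : ℕ) : ℕ := Nat.land (Nat.shiftRight ur1 c) 65535
noncomputable def ur2 : ℕ := 0x8b008a000000000000005c00580076004900480041003d0059005d003c007700720040000000160011001000090006000700080017
noncomputable def urf2 (c : ℕ) : ℕ := Nat.land (Nat.shiftRight ur2 c) 65535
noncomputable def ur3 : ℕ := 0xc00092009300850084007d007c000000000096000000000060000000000000002b00940000001d00000061002a00000000000000ae0000001c
noncomputable def urf3 (c : ℕ) : ℕ := Nat.land (Nat.shiftRight ur3 c) 65535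
noncomputable def ur4 : ℕ := 0xc20091000000000082007e00aa005f0000005100000000000000000000003700270026002000210000005e0050006e0090007f00a600830036
noncomputable def urf4 (c : ℕ) : ℕ := Nat.land (Nat.shiftRight ur4 c) 65535
noncomputable def ur5 : ℕ := 0xc500c4000000000000000000000000005b005a004d004c000000000000003a003b00000023001f0000000000000000000000220000001e007400b8
noncomputable def urf5 (c : ℕ) : ℕ := Nat.land (Nat.shiftRight ur5 c) 65535
noncomputable def ur6 : ℕ := 0xbf0000000000000000000000000000000000000000000000000000000000000000000000000000000000000000000000000000000000c800be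
noncomputable def urf6 (c : ℕ) : ℕ := Nat.land (Nat.shiftRight ur6 c) 65535
noncomputable def ur7 : ℕ := 0x8600810080008700000000004e004a000000420043004b004f00280024002500290000001500120014000a0005000b00040013
noncomputable def urf7 (c : ℕ) : ℕ := Nat.land (Nat.shiftRight ur7 c) 65535
noncomputable def ur8 : ℕ := 0xca00cc0000000000ac00b600a800b00070000000980064000000620068006a009e006c00b200b40066002c00a2009a00ba009c00a400bc00ce0000
noncomputable def urf8 (c : ℕ) : ℕ := Nat.land (Nat.shiftRight ur8 c) 65535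
noncomputable def GR : ℕ → ℕ → ℕ
  | 0 => urf0
  | 1 => urf1
  | 2 => urf2
  | 3 => urf3
  | 4 => urf4
  | 5 => urf5
  | 6 => urf6
  | 7 => urf7
  | 8 => urf8
  | _ => urf0
noncomputable def uj0 : ℕ := 0x3200000000000b0000000000000001000000010001001b0003000c000b000100010000000c000a00000003000000010003000a0001000100000000
noncomputable def ujf0 (c : ℕ) : ℕ := Nat.land (Nat.shiftRight uj0 c) 65535
noncomputable def uj1 : ℕ := 0x10000000100230000000000040000000000000001000100000001000100010001000000000000000100040001000100180004000100010000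
noncomputable def ujf1 (c : ℕ) : ℕ := Nat.land (Nat.shiftRight uj1 c) 65535
noncomputable def uj2 : ℕ := 0x10000000000000000000d001c000d00010000000100010001000100000001001f0000000000130001000000010012000100000001
noncomputable def ujf2 (c : ℕ) : ℕ := Nat.land (Nat.shiftRight uj2 c) 65535
noncomputable def uj3 : ℕ := 0x3000240001000100000001000000000000002600000000001e0000000000000001002500000001000000010016000000000000002c00000000
noncomputable def ujf3 (c : ℕ) : ℕ := Nat.land (Nat.shiftRight uj3 c) 65535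
noncomputable def uj4 : ℕ := 0x3100010000000000210020000600010000000100000000000000000000000100010000001400010000001d001a000600000001000600010000
noncomputable def ujf4 (c : ℕ) : ℕ := Nat.land (Nat.shiftRight uj4 c) 65535
noncomputable def uj5 : ℕ := 0x100000000000000000000000000000001000000010000000000000000001900010000000100010000000000000000000000000000000000110011
noncomputable def ujf5 (c : ℕ) : ℕ := Nat.land (Nat.shiftRight uj5 c) 65535
noncomputable def uj6 : ℕ := 0x10000000000000000000000000000000000000000000000000000000000000000000000000000000000000000000000000000000000330000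
noncomputable def ujf6 (c : ℕ) : ℕ := Nat.land (Nat.shiftRight uj6 c) 65535
noncomputable def uj7 : ℕ := 0x220001000000010000000000090008000000070001000100010015000900010001000000010008000000070001000100000001
noncomputable def ujf7 (c : ℕ) : ℕ := Nat.land (Nat.shiftRight uj7 c) 65535
noncomputable def uj8 : ℕ := 0x34000200000000002b0005002a002d00100000000e00020000000e000500020005000f0002002e000f001700100027002f00280029000200350000
noncomputable def ujf8 (c : ℕ) : ℕ := Nat.land (Nat.shiftRight uj8 c) 65535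
noncomputable def GJ : ℕ → ℕ → ℕ
  | 0 => ujf0
  | 1 => ujf1
  | 2 => ujf2
  | 3 => ujf3
  | 4 => ujf4
  | 5 => ujf5
  | 6 => ujf6
  | 7 => ujf7
  | 8 => ujf8
  | _ => ujf0
noncomputable def us0 : ℕ := 0x1c0000000000190000000000000000000000000000000600090012000c000000000000001a000d00000007000000000001000800000000000000000
noncomputable def usf0 (c : ℕ) : ℕ := Nat.land (Nat.shiftRight us0 c) 65535
noncomputable def us1 : ℕ := 0x1800000000000b00000000000000000000000000000000000000000000000000000000000400000000000800070000000000000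
noncomputable def usf1 (c : ℕ) : ℕ := Nat.land (Nat.shiftRight us1 c) 65535
noncomputable def us2 : ℕ := 0x140010000100000000000000000000000000000000001500000000000500000000000000010000000000000
noncomputable def usf2 (c : ℕ) : ℕ := Nat.land (Nat.shiftRight us2 c) 65535
noncomputable def us3 : ℕ := 0x400000000000000000000000000000004000000000007000000000000000000040000000000000000000c0000000000000002000000000
noncomputable def usf3 (c : ℕ) : ℕ := Nat.land (Nat.shiftRight us3 c) 65535
noncomputable def us4 : ℕ := 0x17001600170000000000000000000000000000000000000000000000020000000000150013000c000000000003000000000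
noncomputable def usf4 (c : ℕ) : ℕ := Nat.land (Nat.shiftRight us4 c) 65535
noncomputable def us5 : ℕ := 0x90000000000000000000000000000000000000000000000000012000b0
noncomputable def usf5 (c : ℕ) : ℕ := Nat.land (Nat.shiftRight us5 c) 65535
noncomputable def us6 : ℕ := 0x1c00000
noncomputable def usf6 (c : ℕ) : ℕ := Nat.land (Nat.shiftRight us6 c) 65535
noncomputable def us7 : ℕ := 0x18000000000000000000000012001100000009000000000000000b0004000000000000000000050000000100000000000000000
noncomputable def usf7 (c : ℕ) : ℕ := Nat.land (Nat.shiftRight us7 c) 65535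
noncomputable def us8 : ℕ := 0x1c001d0000000000170016000200160009000000130010000000100010000f0013000f0016001600100006000d001300000013000d0005000100000
noncomputable def usf8 (c : ℕ) : ℕ := Nat.land (Nat.shiftRight us8 c) 65535
noncomputable def GS : ℕ → ℕ → ℕ
  | 0 => usf0
  | 1 => usf1
  | 2 => usf2
  | 3 => usf3
  | 4 => usf4
  | 5 => usf5
  | 6 => usf6
  | 7 => usf7
  | 8 => usf8
  | _ => usf0
noncomputable def gtpv : ℕ := 0x1c000000040019001800170016000b001400100012001100090009000c00090000000b0004000200000007000500050001000100010000000000000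
noncomputable def GPV (c : ℕ) : ℕ := Nat.land (Nat.shiftRight gtpv c) 65535
noncomputable def gtpx : ℕ := 0x500060004000200030007000300010005000100050002000000020002000100040004000500050003000000070002000000020007000100000000
noncomputable def GPX (c : ℕ) : ℕ := Nat.land (Nat.shiftRight gtpx c) 65535
/-- kinds of deductions -/
def kinds : List (GK × ℕ × ℕ × Bool) := [
  (⟨false, 8, 0, 6, [0], [0]⟩, 23, 0, false),
  (⟨false, 0, 6, 6, [0], [2, 7]⟩, 15, 0, true),
  (⟨false, 1, 6, 6, [1], [7, 2]⟩, 15, 2, false),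
  (⟨false, 8, 0, 6, [7], [7]⟩, 30, 0, false),
  (⟨false, 4, 6, 0, [], [4]⟩, 27, 0, false),
  (⟨false, 7, 6, 6, [2], [7, 2]⟩, 4, 0, false),
  (⟨false, 7, 6, 6, [2], [0, 0]⟩, 15, 0, false),
  (⟨false, 7, 6, 6, [5], [7, 5]⟩, 13, 0, false),
  (⟨false, 0, 6, 0, [], [0]⟩, 23, 0, false),
  (⟨false, 0, 6, 6, [2], [7, 1]⟩, 15, 3, true),
  (⟨false, 0, 6, 6, [0, 7, 2], []⟩, 15, 1, true),
  (⟨false, 2, 6, 6, [5], [2, 5]⟩, 2, 1, false),
  (⟨false, 8, 6, 6, [], [3, 2, 3, 2, 3, 2]⟩, 0, 0, false),
  (⟨false, 8, 0, 6, [2], [2]⟩, 25, 0, false),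
  (⟨false, 8, 6, 0, [4], [4]⟩, 27, 0, false),
  (⟨false, 5, 6, 0, [], [5]⟩, 28, 0, false),
  (⟨false, 2, 6, 6, [7], [1, 1]⟩, 15, 2, true),
  (⟨false, 2, 6, 6, [7], [2, 7]⟩, 4, 1, false),
  (⟨false, 4, 6, 6, [5], [0, 3]⟩, 22, 1, true),
  (⟨false, 7, 6, 6, [4], [7, 4]⟩, 11, 0, false),
  (⟨false, 3, 6, 6, [7, 3, 7], []⟩, 8, 1, false),
  (⟨false, 8, 6, 6, [1], [3, 4, 5]⟩, 22, 0, true),
  (⟨false, 1, 6, 0, [], [1]⟩, 23, 1, false),
  (⟨false, 5, 6, 6, [1], [3, 4]⟩, 22, 0, true),
  (⟨false, 4, 6, 6, [7, 4, 7], []⟩, 11, 1, false),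
  (⟨false, 0, 6, 6, [4, 5], [3]⟩, 22, 1, false),
  (⟨false, 2, 6, 6, [1], [0, 7]⟩, 15, 3, false),
  (⟨false, 4, 6, 6, [2, 4, 2], []⟩, 1, 0, false),
  (⟨false, 3, 6, 6, [4, 5, 0], []⟩, 22, 1, false),
  (⟨false, 2, 6, 0, [], [2]⟩, 25, 0, false),
  (⟨false, 4, 6, 6, [3], [1, 5]⟩, 22, 0, false),
  (⟨false, 4, 6, 6, [7], [4, 7]⟩, 11, 1, false),
  (⟨false, 7, 6, 6, [3], [7, 3]⟩, 8, 0, false),
  (⟨false, 1, 6, 6, [3], [4, 5]⟩, 22, 3, true),
  (⟨false, 3, 6, 6, [4], [5, 0]⟩, 22, 2, true),
  (⟨false, 3, 6, 6, [4, 3, 1], [0, 4, 0, 3, 4, 0, 4]⟩, 20, 2, true),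
  (⟨false, 3, 6, 6, [4, 3, 1, 4, 1, 4, 3, 1], [0, 4]⟩, 20, 8, true),
  (⟨false, 8, 0, 6, [4], [4]⟩, 27, 0, false),
  (⟨false, 8, 6, 0, [5], [5]⟩, 28, 0, false),
  (⟨false, 8, 0, 6, [5], [5]⟩, 28, 0, false),
  (⟨false, 8, 6, 6, [4], [1, 4, 3, 1, 3, 4, 1, 4, 3, 1]⟩, 20, 10, false),
  (⟨false, 8, 6, 0, [7], [7]⟩, 30, 0, false),
  (⟨false, 3, 6, 6, [4, 1, 4, 3, 1], [0, 3, 4, 0, 4]⟩, 20, 0, true),
  (⟨false, 8, 6, 6, [], [4, 3, 4, 3, 4, 3]⟩, 5, 0, false),
  (⟨false, 8, 0, 6, [1], [1]⟩, 23, 1, false),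
  (⟨false, 8, 6, 6, [5, 4, 2, 7, 5, 4, 5, 4, 5, 4], []⟩, 16, 8, false),
  (⟨false, 3, 6, 6, [6], [3, 6]⟩, 7, 1, false),
  (⟨false, 4, 6, 6, [6], [4, 6]⟩, 10, 1, false),
  (⟨false, 0, 6, 6, [5], [4, 3]⟩, 22, 2, false),
  (⟨false, 6, 6, 6, [5, 0, 5, 0, 6, 5, 0, 5], [6, 1]⟩, 21, 8, false),
  (⟨false, 8, 6, 6, [5], [6, 0, 6, 5, 0, 5, 0, 6, 5, 0]⟩, 21, 6, true),
  (⟨false, 8, 6, 6, [], [6, 5, 6, 5, 6, 5]⟩, 12, 0, false)]
theorem kinds_ok : kindsOK inv k (rels ++ relsT) subw kinds = true := by decide +kernel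
theorem kinds_lt : ltOK k (kinds.map (fun x => x.1.a)) = true ∧ ltOK k (kinds.map (fun x => x.1.b)) = true := by decide +kernel
theorem kinds_le : ∀ x ∈ kinds, x.1.y ≤ k := by decide +kernel
noncomputable def cG0 (i : ℕ) : Bool := chkG GT GR GPV GPX GJ GS inv k 6 16 480 kinds 0 (Nat.mul 16 i)
theorem hG0_0 : all2 cG0 4 0 = true := by decide +kernel
theorem hG0_1 : all2 cG0 3 16 = true := by decide +kernel
theorem hG0_2 : all2 cG0 2 24 = true := by decide +kernel
theorem hG0_3 : all2 cG0 1 28 = true := by decide +kernel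
theorem hG0 : ∀ i < 30, cG0 i = true := by
  have h0 : ∀ i < 0, cG0 i = true := fun i hi => absurd hi (Nat.not_lt_zero i)
  have h1 : ∀ i < 16, cG0 i = true := range_step h0 hG0_0 (by norm_num)
  have h2 : ∀ i < 24, cG0 i = true := range_step h1 hG0_1 (by norm_num)
  have h3 : ∀ i < 28, cG0 i = true := range_step h2 hG0_2 (by norm_num)
  have h4 : ∀ i < 30, cG0 i = true := range_step h3 hG0_3 (by norm_num)
  exact h4
noncomputable def cG1 (i : ℕ) : Bool := chkG GT GR GPV GPX GJ GS inv k 6 16 480 kinds 1 (Nat.mul 16 i)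
theorem hG1_0 : all2 cG1 4 0 = true := by decide +kernel
theorem hG1_1 : all2 cG1 3 16 = true := by decide +kernel
theorem hG1_2 : all2 cG1 2 24 = true := by decide +kernel
theorem hG1_3 : all2 cG1 1 28 = true := by decide +kernel
theorem hG1 : ∀ i < 30, cG1 i = true := by
  have h0 : ∀ i < 0, cG1 i = true := fun i hi => absurd hi (Nat.not_lt_zero i)
  have h1 : ∀ i < 16, cG1 i = true := range_step h0 hG1_0 (by norm_num)
  have h2 : ∀ i < 24, cG1 i = true := range_step h1 hG1_1 (by norm_num)
  have h3 : ∀ i < 28, cG1 i = true := range_step h2 hG1_2 (by norm_num)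
  have h4 : ∀ i < 30, cG1 i = true := range_step h3 hG1_3 (by norm_num)
  exact h4
noncomputable def cG2 (i : ℕ) : Bool := chkG GT GR GPV GPX GJ GS inv k 6 16 480 kinds 2 (Nat.mul 16 i)
theorem hG2_0 : all2 cG2 4 0 = true := by decide +kernel
theorem hG2_1 : all2 cG2 3 16 = true := by decide +kernel
theorem hG2_2 : all2 cG2 2 24 = true := by decide +kernel
theorem hG2_3 : all2 cG2 1 28 = true := by decide +kernel
theorem hG2 : ∀ i < 30, cG2 i = true := by
  have h0 : ∀ i < 0, cG2 i = true := fun i hi => absurd hi (Nat.not_lt_zero i)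
  have h1 : ∀ i < 16, cG2 i = true := range_step h0 hG2_0 (by norm_num)
  have h2 : ∀ i < 24, cG2 i = true := range_step h1 hG2_1 (by norm_num)
  have h3 : ∀ i < 28, cG2 i = true := range_step h2 hG2_2 (by norm_num)
  have h4 : ∀ i < 30, cG2 i = true := range_step h3 hG2_3 (by norm_num)
  exact h4
noncomputable def cG3 (i : ℕ) : Bool := chkG GT GR GPV GPX GJ GS inv k 6 16 480 kinds 3 (Nat.mul 16 i)
theorem hG3_0 : all2 cG3 4 0 = true := by decide +kernel
theorem hG3_1 : all2 cG3 3 16 = true := by decide +kernel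
theorem hG3_2 : all2 cG3 2 24 = true := by decide +kernel
theorem hG3_3 : all2 cG3 1 28 = true := by decide +kernel
theorem hG3 : ∀ i < 30, cG3 i = true := by
  have h0 : ∀ i < 0, cG3 i = true := fun i hi => absurd hi (Nat.not_lt_zero i)
  have h1 : ∀ i < 16, cG3 i = true := range_step h0 hG3_0 (by norm_num)
  have h2 : ∀ i < 24, cG3 i = true := range_step h1 hG3_1 (by norm_num)
  have h3 : ∀ i < 28, cG3 i = true := range_step h2 hG3_2 (by norm_num)
  have h4 : ∀ i < 30, cG3 i = true := range_step h3 hG3_3 (by norm_num)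
  exact h4
noncomputable def cG4 (i : ℕ) : Bool := chkG GT GR GPV GPX GJ GS inv k 6 16 480 kinds 4 (Nat.mul 16 i)
theorem hG4_0 : all2 cG4 4 0 = true := by decide +kernel
theorem hG4_1 : all2 cG4 3 16 = true := by decide +kernel
theorem hG4_2 : all2 cG4 2 24 = true := by decide +kernel
theorem hG4_3 : all2 cG4 1 28 = true := by decide +kernel
theorem hG4 : ∀ i < 30, cG4 i = true := by
  have h0 : ∀ i < 0, cG4 i = true := fun i hi => absurd hi (Nat.not_lt_zero i)
  have h1 : ∀ i < 16, cG4 i = true := range_step h0 hG4_0 (by norm_num)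
  have h2 : ∀ i < 24, cG4 i = true := range_step h1 hG4_1 (by norm_num)
  have h3 : ∀ i < 28, cG4 i = true := range_step h2 hG4_2 (by norm_num)
  have h4 : ∀ i < 30, cG4 i = true := range_step h3 hG4_3 (by norm_num)
  exact h4
noncomputable def cG5 (i : ℕ) : Bool := chkG GT GR GPV GPX GJ GS inv k 6 16 480 kinds 5 (Nat.mul 16 i)
theorem hG5_0 : all2 cG5 4 0 = true := by decide +kernel
theorem hG5_1 : all2 cG5 3 16 = true := by decide +kernel
theorem hG5_2 : all2 cG5 2 24 = true := by decide +kernel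
theorem hG5_3 : all2 cG5 1 28 = true := by decide +kernel
theorem hG5 : ∀ i < 30, cG5 i = true := by
  have h0 : ∀ i < 0, cG5 i = true := fun i hi => absurd hi (Nat.not_lt_zero i)
  have h1 : ∀ i < 16, cG5 i = true := range_step h0 hG5_0 (by norm_num)
  have h2 : ∀ i < 24, cG5 i = true := range_step h1 hG5_1 (by norm_num)
  have h3 : ∀ i < 28, cG5 i = true := range_step h2 hG5_2 (by norm_num)
  have h4 : ∀ i < 30, cG5 i = true := range_step h3 hG5_3 (by norm_num)
  exact h4
noncomputable def cG6 (i : ℕ) : Bool := chkG GT GR GPV GPX GJ GS inv k 6 16 480 kinds 6 (Nat.mul 16 i)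
theorem hG6_0 : all2 cG6 4 0 = true := by decide +kernel
theorem hG6_1 : all2 cG6 3 16 = true := by decide +kernel
theorem hG6_2 : all2 cG6 2 24 = true := by decide +kernel
theorem hG6_3 : all2 cG6 1 28 = true := by decide +kernel
theorem hG6 : ∀ i < 30, cG6 i = true := by
  have h0 : ∀ i < 0, cG6 i = true := fun i hi => absurd hi (Nat.not_lt_zero i)
  have h1 : ∀ i < 16, cG6 i = true := range_step h0 hG6_0 (by norm_num)
  have h2 : ∀ i < 24, cG6 i = true := range_step h1 hG6_1 (by norm_num)
  have h3 : ∀ i < 28, cG6 i = true := range_step h2 hG6_2 (by norm_num)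
  have h4 : ∀ i < 30, cG6 i = true := range_step h3 hG6_3 (by norm_num)
  exact h4
noncomputable def cG7 (i : ℕ) : Bool := chkG GT GR GPV GPX GJ GS inv k 6 16 480 kinds 7 (Nat.mul 16 i)
theorem hG7_0 : all2 cG7 4 0 = true := by decide +kernel
theorem hG7_1 : all2 cG7 3 16 = true := by decide +kernel
theorem hG7_2 : all2 cG7 2 24 = true := by decide +kernel
theorem hG7_3 : all2 cG7 1 28 = true := by decide +kernel
theorem hG7 : ∀ i < 30, cG7 i = true := by
  have h0 : ∀ i < 0, cG7 i = true := fun i hi => absurd hi (Nat.not_lt_zero i)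
  have h1 : ∀ i < 16, cG7 i = true := range_step h0 hG7_0 (by norm_num)
  have h2 : ∀ i < 24, cG7 i = true := range_step h1 hG7_1 (by norm_num)
  have h3 : ∀ i < 28, cG7 i = true := range_step h2 hG7_2 (by norm_num)
  have h4 : ∀ i < 30, cG7 i = true := range_step h3 hG7_3 (by norm_num)
  exact h4
noncomputable def cG8 (i : ℕ) : Bool := chkG GT GR GPV GPX GJ GS inv k 6 16 480 kinds 8 (Nat.mul 16 i)
theorem hG8_0 : all2 cG8 4 0 = true := by decide +kernel
theorem hG8_1 : all2 cG8 3 16 = true := by decide +kernel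
theorem hG8_2 : all2 cG8 2 24 = true := by decide +kernel
theorem hG8_3 : all2 cG8 1 28 = true := by decide +kernel
theorem hG8 : ∀ i < 30, cG8 i = true := by
  have h0 : ∀ i < 0, cG8 i = true := fun i hi => absurd hi (Nat.not_lt_zero i)
  have h1 : ∀ i < 16, cG8 i = true := range_step h0 hG8_0 (by norm_num)
  have h2 : ∀ i < 24, cG8 i = true := range_step h1 hG8_1 (by norm_num)
  have h3 : ∀ i < 28, cG8 i = true := range_step h2 hG8_2 (by norm_num)
  have h4 : ∀ i < 30, cG8 i = true := range_step h3 hG8_3 (by norm_num)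
  exact h4
theorem relsX_lt : ltOK k (rels ++ relsT) = true := by decide +kernel
theorem subw_lt : ltOK k subw = true := by decide +kernel
theorem seeds_lt : ltOK k seeds = true := by decide +kernel
noncomputable def seedOK : List (List ℕ) → Bool := fun l => List.rec true (fun w _ ih => band (pfOK GT GR k 131072 0 6 w 0) ih) l
theorem seeds_ok : seedOK seeds = true := by decide +kernel
theorem GR_lt : ∀ y ≤ k, ∀ c, GR y c < 131072 := by
  intro y hy c
  have hy' : y ≤ 8 := hy
  interval_cases y
  · exact lt_of_le_of_lt (Nat.and_le_right (n := Nat.shiftRight ur0 c) (m := 65535)) (by norm_num)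
  · exact lt_of_le_of_lt (Nat.and_le_right (n := Nat.shiftRight ur1 c) (m := 65535)) (by norm_num)
  · exact lt_of_le_of_lt (Nat.and_le_right (n := Nat.shiftRight ur2 c) (m := 65535)) (by norm_num)
  · exact lt_of_le_of_lt (Nat.and_le_right (n := Nat.shiftRight ur3 c) (m := 65535)) (by norm_num)
  · exact lt_of_le_of_lt (Nat.and_le_right (n := Nat.shiftRight ur4 c) (m := 65535)) (by norm_num)
  · exact lt_of_le_of_lt (Nat.and_le_right (n := Nat.shiftRight ur5 c) (m := 65535)) (by norm_num)
  · exact lt_of_le_of_lt (Nat.and_le_right (n := Nat.shiftRight ur6 c) (m := 65535)) (by norm_num)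
  · exact lt_of_le_of_lt (Nat.and_le_right (n := Nat.shiftRight ur7 c) (m := 65535)) (by norm_num)
  · exact lt_of_le_of_lt (Nat.and_le_right (n := Nat.shiftRight ur8 c) (m := 65535)) (by norm_num)
theorem lemma_thm {Γ X : Type*} [Group Γ] [MulAction Γ X] (γ : ℕ → Γ) (x0 : X)
    (hinv : ∀ y < k, γ (inv y) = (γ y)⁻¹) (hr : ∀ r ∈ rels, wd γ r = 1)
    (hb : ∀ b ∈ subw, (wd γ b)⁻¹ • x0 = x0) :
    ∀ b ∈ seeds, (wd γ b)⁻¹ • x0 = x0 := by
  have hr' : ∀ r ∈ rels ++ relsT, wd γ r = 1 := by
    intro r h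
    rcases List.mem_append.1 h with h | h
    · exact hr r h
    · simp only [relsT, List.mem_cons, List.not_mem_nil, or_false] at h
      rcases h with rfl | rfl | rfl | rfl | rfl | rfl | rfl | rfl
      · have := hinv 0 (by decide); simp only [wd_cons, wd_nil, mul_one]; exact mul_eq_one_iff_inv_eq.2 (show γ 1 = (γ 0)⁻¹ from this).symm
      · have := hinv 1 (by decide); simp only [wd_cons, wd_nil, mul_one]; exact mul_eq_one_iff_inv_eq.2 (show γ 0 = (γ 1)⁻¹ from this).symm
      · have := hinv 2 (by decide); simp only [wd_cons, wd_nil, mul_one]; exact mul_eq_one_iff_inv_eq.2 (show γ 2 = (γ 2)⁻¹ from this).symm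
      · have := hinv 3 (by decide); simp only [wd_cons, wd_nil, mul_one]; exact mul_eq_one_iff_inv_eq.2 (show γ 3 = (γ 3)⁻¹ from this).symm
      · have := hinv 4 (by decide); simp only [wd_cons, wd_nil, mul_one]; exact mul_eq_one_iff_inv_eq.2 (show γ 4 = (γ 4)⁻¹ from this).symm
      · have := hinv 5 (by decide); simp only [wd_cons, wd_nil, mul_one]; exact mul_eq_one_iff_inv_eq.2 (show γ 5 = (γ 5)⁻¹ from this).symm
      · have := hinv 6 (by decide); simp only [wd_cons, wd_nil, mul_one]; exact mul_eq_one_iff_inv_eq.2 (show γ 6 = (γ 6)⁻¹ from this).symm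
      · have := hinv 7 (by decide); simp only [wd_cons, wd_nil, mul_one]; exact mul_eq_one_iff_inv_eq.2 (show γ 7 = (γ 7)⁻¹ from this).symm
  have hchk : ∀ y ≤ k, ∀ i < 30, chkG GT GR GPV GPX GJ GS inv k 6 16 (16 * 30) kinds y (16 * i) = true := by
    intro y hy i hi
    have hy' : y ≤ 8 := hy
    interval_cases y
    · exact hG0 i hi
    · exact hG1 i hi
    · exact hG2 i hi
    · exact hG3 i hi
    · exact hG4 i hi
    · exact hG5 i hi
    · exact hG6 i hi
    · exact hG7 i hi
    · exact hG8 i hi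
  have key : ∀ w : List ℕ, (∀ y ∈ w, y < k) → pfOK GT GR k 131072 0 6 w 0 = true →
      (wd γ w)⁻¹ • x0 = x0 := fun w hwk hw =>
    gs_thm γ x0 (by norm_num) hinv inv_lt hr' (ltOK_spec _ relsX_lt) hb (ltOK_spec _ subw_lt)
      kinds_ok kinds_lt.1 kinds_lt.2 kinds_le hchk w hwk _ hw GR_lt
  have h := seeds_ok
  have hlt := ltOK_spec _ seeds_lt
  generalize seeds = l at h hlt
  induction l with
  | nil => intro b hb'; exact absurd hb' (by simp)
  | cons a l ih =>
    have h' : band (pfOK GT GR k 131072 0 6 a 0) (seedOK l) = true := h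
    rw [band_true] at h'
    intro b hb'
    rcases List.mem_cons.1 hb' with rfl | hb'
    · exact key b (hlt b List.mem_cons_self) h'.1
    · exact ih h'.2 (fun w hw => hlt w (List.mem_cons_of_mem _ hw)) b hb'
end Cfsg.Agent.H5TC.ONCol
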