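import Cfsg.Agent.Lib.H5TC8
import Cfsg.Agent.Lib.H5TCONG
import Cfsg.Agent.Lib.H5TCON122760M
import Cfsg.Agent.Lib.H5TCON5586M
import Cfsg.Agent.Lib.H5TCON672M
import Cfsg.Agent.Lib.H5TCONLem

set_option autoImplicit false
set_option maxRecDepth 100000

namespace Cfsg.Agent.H5TC.ONUp

open Cfsg.Agent.H5TC

def ι0 : ℕ → ℕ
  | 0 => 0
  | 1 => 1
  | 2 => 2
  | 3 => 3
  | 4 => 4
  | 5 => 5
  | 6 => 6
  | 7 => 7
  | _ => 0
theorem step0 : (Kof ONG.γ [2, 3, 4, 5, 6, 7]).relIndex (Kof ONG.γ [0, 1, 2, 3, 4, 5, 6, 7]) ≤ 122760 ∧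
    (Kof ONG.γ [2, 3, 4, 5, 6, 7]).relIndex (Kof ONG.γ [0, 1, 2, 3, 4, 5, 6, 7]) ≠ 0 := by
  have hinv : ∀ y < ON122760.k, ONG.γ (ι0 (ON122760.inv y)) = (ONG.γ (ι0 y))⁻¹ := by
    intro y hy
    have hy' : y < 8 := hy
    interval_cases y
    · exact (ONG.γ_inv 0 (by norm_num)).symm
    · exact (ONG.γ_inv 1 (by norm_num)).symm
    · exact (ONG.γ_inv 2 (by norm_num)).symm
    · exact (ONG.γ_inv 3 (by norm_num)).symm
    · exact (ONG.γ_inv 4 (by norm_num)).symm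
    · exact (ONG.γ_inv 5 (by norm_num)).symm
    · exact (ONG.γ_inv 6 (by norm_num)).symm
    · exact (ONG.γ_inv 7 (by norm_num)).symm
  refine enum_step ONG.γ ι0 (k := ON122760.k) (n := ON122760.n) (E := ON122760.E) (T := ON122760.T) ON122760.tab [0, 1, 2, 3, 4, 5, 6, 7] [2, 3, 4, 5, 6, 7] ON122760.subw (by decide) (by decide) hinv ?_
  intro x0 hx0
  exact ON122760.main (fun y => ONG.γ (ι0 y)) x0 hinv (by
    intro r hr
    rw [wd_map]
    have : r.map ι0 ∈ ONLem.full := by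
      revert r
      decide +kernel
    exact ONLem.spec _ this) hx0
def ι1 : ℕ → ℕ
  | 0 => 2
  | 1 => 3
  | 2 => 4
  | 3 => 5
  | 4 => 6
  | 5 => 7
  | _ => 2
theorem step1 : (Kof ONG.γ [2, 3, 4, 5, 7]).relIndex (Kof ONG.γ [2, 3, 4, 5, 6, 7]) ≤ 5586 ∧
    (Kof ONG.γ [2, 3, 4, 5, 7]).relIndex (Kof ONG.γ [2, 3, 4, 5, 6, 7]) ≠ 0 := by
  have hinv : ∀ y < ON5586.k, ONG.γ (ι1 (ON5586.inv y)) = (ONG.γ (ι1 y))⁻¹ := by
    intro y hy
    have hy' : y < 6 := hy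
    interval_cases y
    · exact (ONG.γ_inv 2 (by norm_num)).symm
    · exact (ONG.γ_inv 3 (by norm_num)).symm
    · exact (ONG.γ_inv 4 (by norm_num)).symm
    · exact (ONG.γ_inv 5 (by norm_num)).symm
    · exact (ONG.γ_inv 6 (by norm_num)).symm
    · exact (ONG.γ_inv 7 (by norm_num)).symm
  refine enum_step ONG.γ ι1 (k := ON5586.k) (n := ON5586.n) (E := ON5586.E) (T := ON5586.T) ON5586.tab [2, 3, 4, 5, 6, 7] [2, 3, 4, 5, 7] ON5586.subw (by decide) (by decide) hinv ?_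
  intro x0 hx0
  exact ON5586.main (fun y => ONG.γ (ι1 y)) x0 hinv (by
    intro r hr
    rw [wd_map]
    have : r.map ι1 ∈ ONLem.full := by
      revert r
      decide +kernel
    exact ONLem.spec _ this) hx0
def ι2 : ℕ → ℕ
  | 0 => 2
  | 1 => 3
  | 2 => 4
  | 3 => 5
  | 4 => 7
  | _ => 2
theorem step2 : (Kof ONG.γ []).relIndex (Kof ONG.γ [2, 3, 4, 5, 7]) ≤ 672 ∧
    (Kof ONG.γ []).relIndex (Kof ONG.γ [2, 3, 4, 5, 7]) ≠ 0 := by
  have hinv : ∀ y < ON672.k, ONG.γ (ι2 (ON672.inv y)) = (ONG.γ (ι2 y))⁻¹ := by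
    intro y hy
    have hy' : y < 5 := hy
    interval_cases y
    · exact (ONG.γ_inv 2 (by norm_num)).symm
    · exact (ONG.γ_inv 3 (by norm_num)).symm
    · exact (ONG.γ_inv 4 (by norm_num)).symm
    · exact (ONG.γ_inv 5 (by norm_num)).symm
    · exact (ONG.γ_inv 7 (by norm_num)).symm
  refine enum_step ONG.γ ι2 (k := ON672.k) (n := ON672.n) (E := ON672.E) (T := ON672.T) ON672.tab [2, 3, 4, 5, 7] [] ON672.subw (by decide) (by decide) hinv ?_
  intro x0 hx0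
  exact ON672.main (fun y => ONG.γ (ι2 y)) x0 hinv (by
    intro r hr
    rw [wd_map]
    have : r.map ι2 ∈ ONLem.full := by
      revert r
      decide +kernel
    exact ONLem.spec _ this) hx0
theorem card_le : Nat.card Cfsg.Spor.ON ≤ 460815505920 ∧ Nat.card Cfsg.Spor.ON ≠ 0 := by
  have htop : Kof ONG.γ [0, 1, 2, 3, 4, 5, 6, 7] = ⊤ := by
    rw [← ONG.gen_top]
    unfold Kof
    congr 1
    ext x
    constructor
    · rintro ⟨y, hy, rfl⟩
      refine ⟨y, ?_, rfl⟩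
      simp only [List.mem_cons, List.not_mem_nil, or_false] at hy
      omega
    · rintro ⟨y, hy, rfl⟩
      refine ⟨y, ?_, rfl⟩
      simp only [List.mem_cons, List.not_mem_nil, or_false]
      omega
  have h3 := card_bot_le ONG.γ
  have h2 := card_step (Kof_mono ONG.γ (by decide)) step2 h3
  have h1 := card_step (Kof_mono ONG.γ (by decide)) step1 h2
  have h0 := card_step (Kof_mono ONG.γ (by decide)) step0 h1
  rw [htop, Subgroup.card_top] at h0
  exact ⟨h0.1.trans (by norm_num), h0.2⟩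
end Cfsg.Agent.H5TC.ONUp
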