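import Cfsg.Agent.Lib.H5TCON122760C
import Cfsg.Agent.Lib.H5TCON122760N
import Cfsg.Agent.Lib.H5TCON122760O
import Cfsg.Agent.Lib.H5TCONUp
import Cfsg.Agent.Lib.H5TCONCol
import Cfsg.Agent.Lib.H5TCON122760D

set_option autoImplicit false
set_option maxRecDepth 1000000
set_option maxHeartbeats 0
set_option Elab.async false

namespace Cfsg.Agent.H5TC.ON122760.S

open Cfsg.Agent.H5TC
open Cfsg.Agent.H5TC.ON122760
set_option linter.style.haveILetI false


noncomputable def cT (i : ℕ) : Bool := Nat.ble (O.Lab (Nat.mul 22 i)) 4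
theorem hT_0 : all2 cT 14 0 = true := by decide +kernel
theorem hT_1 : all2 cT 14 16384 = true := by decide +kernel
theorem hT_2 : all2 cT 14 32768 = true := by decide +kernel
theorem hT_3 : all2 cT 14 49152 = true := by decide +kernel
theorem hT_4 : all2 cT 14 65536 = true := by decide +kernel
theorem hT_5 : all2 cT 14 81920 = true := by decide +kernel
theorem hT_6 : all2 cT 14 98304 = true := by decide +kernel
theorem hT_7 : all2 cT 12 114688 = true := by decide +kernel
theorem hT_8 : all2 cT 11 118784 = true := by decide +kernel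
theorem hT_9 : all2 cT 10 120832 = true := by decide +kernel
theorem hT_10 : all2 cT 9 121856 = true := by decide +kernel
theorem hT_11 : all2 cT 8 122368 = true := by decide +kernel
theorem hT_12 : all2 cT 7 122624 = true := by decide +kernel
theorem hT_13 : all2 cT 3 122752 = true := by decide +kernel
theorem hT : ∀ i < 122760, cT i = true := by
  have h0 : ∀ i < 0, cT i = true := fun i hi => absurd hi (Nat.not_lt_zero i)
  have h1 : ∀ i < 16384, cT i = true := range_step h0 hT_0 (by norm_num)
  have h2 : ∀ i < 32768, cT i = true := range_step h1 hT_1 (by norm_num)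
  have h3 : ∀ i < 49152, cT i = true := range_step h2 hT_2 (by norm_num)
  have h4 : ∀ i < 65536, cT i = true := range_step h3 hT_3 (by norm_num)
  have h5 : ∀ i < 81920, cT i = true := range_step h4 hT_4 (by norm_num)
  have h6 : ∀ i < 98304, cT i = true := range_step h5 hT_5 (by norm_num)
  have h7 : ∀ i < 114688, cT i = true := range_step h6 hT_6 (by norm_num)
  have h8 : ∀ i < 118784, cT i = true := range_step h7 hT_7 (by norm_num)
  have h9 : ∀ i < 120832, cT i = true := range_step h8 hT_8 (by norm_num)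
  have h10 : ∀ i < 121856, cT i = true := range_step h9 hT_9 (by norm_num)
  have h11 : ∀ i < 122368, cT i = true := range_step h10 hT_10 (by norm_num)
  have h12 : ∀ i < 122624, cT i = true := range_step h11 hT_11 (by norm_num)
  have h13 : ∀ i < 122752, cT i = true := range_step h12 hT_12 (by norm_num)
  have h14 : ∀ i < 122760, cT i = true := range_step h13 hT_13 (by norm_num)
  exact h14
theorem hlt : ∀ c, Vc E n c → O.Lab c ≤ 4 := by
  rintro c ⟨i, hi, rfl⟩
  exact Nat.le_of_ble_eq_true (hT i hi)
theorem ux : wd tab.perm [3, 4, 5, 0] ^ 5 = 1 := v4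
theorem simple : IsSimpleGroup Cfsg.Spor.ON ∧ Nat.card Cfsg.Spor.ON = 460815505920 := by
  obtain ⟨h1, φ, p, hp0, hφ, h2, h3⟩ := core
  haveI : Finite Cfsg.Spor.ON := Nat.finite_of_card_ne_zero ONUp.card_le.2
  have htr : ∀ c, ∃ g : Cfsg.Spor.ON, φ g ⟨0, tab.zero⟩ = c := by
    intro c
    obtain ⟨g, _, hg⟩ := trans_aux ONG.γ tab φ hφ htree c.1 c.2
    exact ⟨g, hg⟩
  obtain ⟨hinj, hcard⟩ := inj_of_card φ (by norm_num) (N.card_ge ONG.γ φ hφ htr) ONUp.card_le.1
  refine ⟨?_, hcard⟩
  refine simple_thm2 φ hinj tab.zero htr HH p hp0 h2 h3 O.Lab O.roots 4 ![1, 58653, 52136, 5586, 6384] ?_ ?_ hlt (by decide +kernel) rfl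
    (by decide +kernel) h1 (by norm_num) 5 (by norm_num) (m := 3753792) (by rw [hcard]; show 460815505920 = 122760 * 3753792; norm_num) (by norm_num) (wd ONG.γ [3, 4, 5, 0]) ?_ ?_
  · intro l hl
    interval_cases l
    · exact (orb φ p hφ h2 h3 0 O.root0 O.rlab0).1
    · exact (orb φ p hφ h2 h3 1 O.root1 O.rlab1).1
    · exact (orb φ p hφ h2 h3 2 O.root2 O.rlab2).1
    · exact (orb φ p hφ h2 h3 3 O.root3 O.rlab3).1
    · exact (orb φ p hφ h2 h3 4 O.root4 O.rlab4).1
  · intro l
    fin_cases l
    · exact O.card0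
    · exact O.card1
    · exact O.card2
    · exact O.card3
    · exact O.card4
  · apply hinj
    rw [map_pow, map_one]
    have e : φ (wd ONG.γ [3, 4, 5, 0]) = wd tab.perm [3, 4, 5, 0] := by
      rw [← wd_hom]
      exact wd_congr _ (fun y hy => hφ y (by revert y; decide))
    rw [e]
    exact ux
  · intro N hN hu
    haveI := hN
    have key : ∀ b ∈ ONCol.seeds, wd (fun y => QuotientGroup.mk' N (ONG.γ y)) b = 1 := by
      intro b hb
      have h := ONCol.lemma_thm (fun y => QuotientGroup.mk' N (ONG.γ y)) (1 : Cfsg.Spor.ON ⧸ N) ?_ ?_ ?_ b hb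
      · have h2 : (wd (fun y => QuotientGroup.mk' N (ONG.γ y)) b)⁻¹ * 1 = 1 := h
        rwa [mul_one, inv_eq_one] at h2
      · intro y hy
        have hy' : y < 8 := hy
        have : ONG.γ (ONCol.inv y) = (ONG.γ y)⁻¹ := by
          rw [ONG.γ_inv y hy']
          interval_cases y <;> rfl
        rw [this, map_inv]
      · intro r hr
        rw [wd_hom]
        have : r ∈ ONG.fullrels ∨ r = [3, 4, 5, 0] := by
          revert r
          decide +kernel
        rcases this with h | h
        · rw [ONG.fullrels_spec r h, map_one]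
        · rw [h]
          exact (QuotientGroup.eq_one_iff _).2 hu
      · intro r hr
        exact absurd hr (by simp [ONCol.subw])
    rw [eq_top_iff, ← ONG.gen_top, Subgroup.closure_le]
    rintro _ ⟨y, hy, rfl⟩
    have h := key [y] (by revert y; decide +kernel)
    rw [wd_cons, wd_nil, mul_one] at h
    exact (QuotientGroup.eq_one_iff _).1 h
end Cfsg.Agent.H5TC.ON122760.S
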