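import Cfsg.Agent.Lib.H5TC5

set_option autoImplicit false
set_option maxRecDepth 1000000
set_option maxHeartbeats 0
set_option Elab.async false

namespace Cfsg.Agent.H5TC.Suz16

open Cfsg.Agent.H5TC

/-- number of vertices -/
abbrev n : ℕ := 16
abbrev k : ℕ := 3
abbrev E : ℕ := 16
abbrev En : ℕ := 256
noncomputable def t0 : ℕ := 0xe000f000b000a000d000c00070006000900080003000200050004000000010
noncomputable def f0 (c : ℕ) : ℕ := Nat.land (Nat.shiftRight t0 c) 65535
noncomputable def t1 : ℕ := 0xb000d000e0008000f00060005000c0003000a0009000100070000000400020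
noncomputable def f1 (c : ℕ) : ℕ := Nat.land (Nat.shiftRight t1 c) 65535
noncomputable def t2 : ℕ := 0xc000a0009000f0007000e000d0004000b00020001000800000006000500030
noncomputable def f2 (c : ℕ) : ℕ := Nat.land (Nat.shiftRight t2 c) 65535
noncomputable def T : ℕ → ℕ → ℕ
  | 0 => f0
  | 1 => f1
  | 2 => f2
  | _ => f0
def inv : ℕ → ℕ
  | 0 => 0
  | 1 => 1
  | 2 => 2
  | y => y
noncomputable def tpv : ℕ := 0xb000a000900080007000600050004000300020001000100000000000000000
noncomputable def PV (c : ℕ) : ℕ := Nat.land (Nat.shiftRight tpv c) 65535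
noncomputable def tpx : ℕ := 0x1000200020001000200010001000200010002000200010002000100000000
noncomputable def PX (c : ℕ) : ℕ := Nat.land (Nat.shiftRight tpx c) 65535
/-- relators -/
def rels : List (List ℕ) := [[0, 1, 0, 1], [0, 2, 0, 2], [1, 2, 1, 2, 1, 2, 1, 2, 1, 2, 1, 2, 1, 2, 1, 2], [0, 2, 1, 2, 1, 2, 1, 2, 1]]
/-- trivial relators -/
def relsT : List (List ℕ) := [[0, 0], [1, 1], [2, 2]]
/-- subgroup words -/
def subw : List (List ℕ) := []
/-- further subgroup words -/
def seeds : List (List ℕ) := []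
noncomputable def cA0 (i : ℕ) : Bool := chkA 16 256 f0 f0 (Nat.mul 16 i)
theorem hA0_0 : all2 cA0 4 0 = true := by decide +kernel
theorem hA0 : ∀ i < 16, cA0 i = true := by
  have h0 : ∀ i < 0, cA0 i = true := fun i hi => absurd hi (Nat.not_lt_zero i)
  have h1 : ∀ i < 16, cA0 i = true := range_step h0 hA0_0 (by norm_num)
  exact h1
noncomputable def cA1 (i : ℕ) : Bool := chkA 16 256 f1 f1 (Nat.mul 16 i)
theorem hA1_0 : all2 cA1 4 0 = true := by decide +kernel
theorem hA1 : ∀ i < 16, cA1 i = true := by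
  have h0 : ∀ i < 0, cA1 i = true := fun i hi => absurd hi (Nat.not_lt_zero i)
  have h1 : ∀ i < 16, cA1 i = true := range_step h0 hA1_0 (by norm_num)
  exact h1
noncomputable def cA2 (i : ℕ) : Bool := chkA 16 256 f2 f2 (Nat.mul 16 i)
theorem hA2_0 : all2 cA2 4 0 = true := by decide +kernel
theorem hA2 : ∀ i < 16, cA2 i = true := by
  have h0 : ∀ i < 0, cA2 i = true := fun i hi => absurd hi (Nat.not_lt_zero i)
  have h1 : ∀ i < 16, cA2 i = true := range_step h0 hA2_0 (by norm_num)
  exact h1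
theorem inv_lt : ∀ y < k, inv y < k := by decide
theorem inv_inv : ∀ y < k, inv (inv y) = y := by decide
theorem hA : ∀ y < k, ∀ c, Vc E n c → Vc E n (T y c) ∧ T (inv y) (T y c) = c := by
  intro y hy c hc
  obtain ⟨i, hi, rfl⟩ := hc
  have hy' : y < 3 := hy
  interval_cases y
  · exact chkA_spec (E := 16) (n := 16) (hA0 i hi)
  · exact chkA_spec (E := 16) (n := 16) (hA1 i hi)
  · exact chkA_spec (E := 16) (n := 16) (hA2 i hi)
theorem tab : Tab k inv T (Vc E n) where
  inv_lt := inv_lt
  inv_inv := inv_inv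
  maps := fun y hy c hc => (hA y hy c hc).1
  cancel := fun y hy c hc => (hA y hy c hc).2
  zero := ⟨0, by decide, rfl⟩
end Cfsg.Agent.H5TC.Suz16
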