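import Cfsg.Agent.Lib.H5TCSuz1782P
import Cfsg.Agent.Lib.H5TCSuzG

set_option autoImplicit false

namespace Cfsg.Agent.H5TC.Suz1782

open Cfsg.Agent.H5TC

theorem hom : ∃ φ : Cfsg.Spor.Suz →* Equiv.Perm {c // Vc E n c}, ∀ y < k, φ (SuzG.γ y) = tab.perm y :=
  SuzG.hom tab.perm (fun y hy => perm_sq tab y hy (by have hy' : y < 7 := hy; interval_cases y <;> rfl)) q0_1 q0_2 q0_3 q0_4 q0_5 q0_6 q1_2 q1_3 q1_4 q1_5 q1_6 q2_3 q2_4 q2_5 q2_6 q3_4 q3_5 q3_6 q4_5 q4_6 q5_6 v0 v1 v2 v3 v4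
end Cfsg.Agent.H5TC.Suz1782
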