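import Cfsg.Agent.Lib.H5TC7
import Cfsg.Agent.Lib.H5TCSuz1782H
import Cfsg.Agent.Lib.H5TCSuz1782M
import Cfsg.Agent.Lib.H5TCSuz1782O

set_option autoImplicit false
set_option linter.unusedSimpArgs false

namespace Cfsg.Agent.H5TC.Suz1782

open Cfsg.Agent.H5TC

abbrev HH : Subgroup Cfsg.Spor.Suz := (((Subgroup.closure ({Cfsg.Spor.Suz.a, Cfsg.Spor.Suz.b, Cfsg.Spor.Suz.c, Cfsg.Spor.Suz.d, Cfsg.Spor.Suz.e, Cfsg.Spor.Suz.f} : Set (FreeGroup Cfsg.Spor.Suz.Gen))).map (PresentedGroup.mk (Cfsg.Spor.coxRelators Cfsg.Spor.Suz.edges ∪ {r | r ∈ Cfsg.Spor.Suz.extra}))))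
theorem sw0 : (PresentedGroup.mk (Cfsg.Spor.coxRelators Cfsg.Spor.Suz.edges ∪ {r | r ∈ Cfsg.Spor.Suz.extra})) (Cfsg.Spor.Suz.a) = wd SuzG.γ [0] := by
  rw [wd_cons, wd_nil, mul_one]
  rfl
theorem sw1 : (PresentedGroup.mk (Cfsg.Spor.coxRelators Cfsg.Spor.Suz.edges ∪ {r | r ∈ Cfsg.Spor.Suz.extra})) (Cfsg.Spor.Suz.b) = wd SuzG.γ [1] := by
  rw [wd_cons, wd_nil, mul_one]
  rfl
theorem sw2 : (PresentedGroup.mk (Cfsg.Spor.coxRelators Cfsg.Spor.Suz.edges ∪ {r | r ∈ Cfsg.Spor.Suz.extra})) (Cfsg.Spor.Suz.c) = wd SuzG.γ [2] := by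
  rw [wd_cons, wd_nil, mul_one]
  rfl
theorem sw3 : (PresentedGroup.mk (Cfsg.Spor.coxRelators Cfsg.Spor.Suz.edges ∪ {r | r ∈ Cfsg.Spor.Suz.extra})) (Cfsg.Spor.Suz.d) = wd SuzG.γ [3] := by
  rw [wd_cons, wd_nil, mul_one]
  rfl
theorem sw4 : (PresentedGroup.mk (Cfsg.Spor.coxRelators Cfsg.Spor.Suz.edges ∪ {r | r ∈ Cfsg.Spor.Suz.extra})) (Cfsg.Spor.Suz.e) = wd SuzG.γ [4] := by
  rw [wd_cons, wd_nil, mul_one]
  rfl
theorem sw5 : (PresentedGroup.mk (Cfsg.Spor.coxRelators Cfsg.Spor.Suz.edges ∪ {r | r ∈ Cfsg.Spor.Suz.extra})) (Cfsg.Spor.Suz.f) = wd SuzG.γ [5] := by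
  rw [wd_cons, wd_nil, mul_one]
  rfl
theorem HH_eq : HH = Subgroup.closure {g | ∃ w ∈ subw, g = wd SuzG.γ w} := by
  apply map_closure_eq
  · rintro s (rfl | rfl | rfl | rfl | rfl | rfl)
    · exact ⟨[0], by simp [subw], sw0⟩
    · exact ⟨[1], by simp [subw], sw1⟩
    · exact ⟨[2], by simp [subw], sw2⟩
    · exact ⟨[3], by simp [subw], sw3⟩
    · exact ⟨[4], by simp [subw], sw4⟩
    · exact ⟨[5], by simp [subw], sw5⟩
  · intro w hw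
    simp only [subw, List.mem_cons, List.not_mem_nil, or_false] at hw
    rcases hw with rfl | rfl | rfl | rfl | rfl | rfl
    · exact ⟨Cfsg.Spor.Suz.a, by simp, sw0⟩
    · exact ⟨Cfsg.Spor.Suz.b, by simp, sw1⟩
    · exact ⟨Cfsg.Spor.Suz.c, by simp, sw2⟩
    · exact ⟨Cfsg.Spor.Suz.d, by simp, sw3⟩
    · exact ⟨Cfsg.Spor.Suz.e, by simp, sw4⟩
    · exact ⟨Cfsg.Spor.Suz.f, by simp, sw5⟩
theorem hinv : ∀ y < k, SuzG.γ (inv y) = (SuzG.γ y)⁻¹ := by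
  intro y hy
  rw [SuzG.γ_inv y hy]
  have hy' : y < 7 := hy
  interval_cases y <;> rfl

theorem hr : ∀ r ∈ rels, wd SuzG.γ r = 1 := by
  have : rels = SuzG.fullrels := by decide +kernel
  rw [this]
  exact SuzG.fullrels_spec

theorem subw_lt' : ∀ w ∈ subw, ∀ y ∈ w, y < k := ltOK_spec _ (by decide +kernel)

theorem core : HH.index = n ∧ ∃ φ : Cfsg.Spor.Suz →* Equiv.Perm {c // Vc E n c}, ∃ p : ℕ → Cfsg.Spor.Suz ⧸ HH,
    p 0 = ((1 : Cfsg.Spor.Suz) : Cfsg.Spor.Suz ⧸ HH) ∧ (∀ y < k, φ (SuzG.γ y) = tab.perm y) ∧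
      Function.Bijective (fun c : {c // Vc E n c} => p c) ∧
      ∀ (g : Cfsg.Spor.Suz) (c : {c // Vc E n c}), p (φ g c : {c // Vc E n c}) = g • p c := by
  obtain ⟨φ, hφ⟩ := hom
  obtain ⟨h1, p, hp0, h2, h3⟩ := full_thm SuzG.γ tab (by norm_num) hinv SuzG.gen_top φ hφ htree HH subw subw_lt' HH_eq (by decide +kernel)
    (main SuzG.γ _ hinv hr (fix_words SuzG.γ HH_eq))
  exact ⟨h1, φ, p, hp0, hφ, h2, h3⟩

theorem orb (φ : Cfsg.Spor.Suz →* Equiv.Perm {c // Vc E n c}) (p : ℕ → Cfsg.Spor.Suz ⧸ HH)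
    (hφ : ∀ y < k, φ (SuzG.γ y) = tab.perm y)
    (h2 : Function.Bijective (fun c : {c // Vc E n c} => p c))
    (h3 : ∀ (g : Cfsg.Spor.Suz) (c : {c // Vc E n c}), p (φ g c : {c // Vc E n c}) = g • p c)
    (l : ℕ) (hroot : Vc E n (nthN O.roots l)) (hrl : O.Lab (nthN O.roots l) = l) :
    (MulAction.orbit HH (p (nthN O.roots l))) = p '' {c | Vc E n c ∧ O.Lab c = l} ∧
    (MulAction.orbit HH (p (nthN O.roots l))).ncard = {c | Vc E n c ∧ O.Lab c = l}.ncard :=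
  orbit_thm2 SuzG.γ tab _ p h2.1 φ hφ h3 HH O.ws O.ws_lt HH_eq O.Lab O.RK O.OD O.OW O.roots O.ws2
    O.ws2_ws O.ws2_lt O.hLab O.hO l hroot hrl

end Cfsg.Agent.H5TC.Suz1782
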