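import Cfsg.Agent.Lib.H5TCSuz1782
import Cfsg.Agent.Lib.H5TC6

set_option autoImplicit false
set_option maxRecDepth 1000000
set_option maxHeartbeats 0

namespace Cfsg.Agent.H5TC.Suz1782

open Cfsg.Agent.H5TC

noncomputable def cP (i : ℕ) : Bool := chkP T PV PX k 16 28512 (Nat.mul 16 (Nat.succ i))
theorem hP_0 : all2 cP 10 0 = true := by decide +kernel
theorem hP_1 : all2 cP 9 1024 = true := by decide +kernel
theorem hP_2 : all2 cP 7 1536 = true := by decide +kernel
theorem hP_3 : all2 cP 6 1664 = true := by decide +kernel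
theorem hP_4 : all2 cP 5 1728 = true := by decide +kernel
theorem hP_5 : all2 cP 4 1760 = true := by decide +kernel
theorem hP_6 : all2 cP 2 1776 = true := by decide +kernel
theorem hP_7 : all2 cP 0 1780 = true := by decide +kernel
theorem hP : ∀ i < 1781, cP i = true := by
  have h0 : ∀ i < 0, cP i = true := fun i hi => absurd hi (Nat.not_lt_zero i)
  have h1 : ∀ i < 1024, cP i = true := range_step h0 hP_0 (by norm_num)
  have h2 : ∀ i < 1536, cP i = true := range_step h1 hP_1 (by norm_num)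
  have h3 : ∀ i < 1664, cP i = true := range_step h2 hP_2 (by norm_num)
  have h4 : ∀ i < 1728, cP i = true := range_step h3 hP_3 (by norm_num)
  have h5 : ∀ i < 1760, cP i = true := range_step h4 hP_4 (by norm_num)
  have h6 : ∀ i < 1776, cP i = true := range_step h5 hP_5 (by norm_num)
  have h7 : ∀ i < 1780, cP i = true := range_step h6 hP_6 (by norm_num)
  have h8 : ∀ i < 1781, cP i = true := range_step h7 hP_7 (by norm_num)
  exact h8
theorem htree : ∀ c, Vc E n c → c ≠ 0 → ∃ y < k, ∃ d < c, Vc E n d ∧ T y d = c :=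
  htree_of hP
noncomputable def cq0_1 (i : ℕ) : Bool := (fun c => (fun d1 => @Bool.rec (fun _ => Bool) ((fun d2 => @Bool.rec (fun _ => Bool) ((fun d3 => @Bool.rec (fun _ => Bool) ((fun d4 => @Bool.rec (fun _ => Bool) ((fun d5 => @Bool.rec (fun _ => Bool) ((fun d6 => @Bool.rec (fun _ => Bool) ((fun d7 => @Bool.rec (fun _ => Bool) ((fun d8 => @Bool.rec (fun _ => Bool) ((fun d9 => @Bool.rec (fun _ => Bool) ((fun d10 => @Bool.rec (fun _ => Bool) (Nat.beq d10 c) true (Nat.blt d10 c)) (f1 (d9))) true (Nat.blt d9 c)) (f0 (d8))) true (Nat.blt d8 c)) (f1 (d7))) true (Nat.blt d7 c)) (f0 (d6))) true (Nat.blt d6 c)) (f1 (d5))) true (Nat.blt d5 c)) (f0 (d4))) true (Nat.blt d4 c)) (f1 (d3))) true (Nat.blt d3 c)) (f0 (d2))) true (Nat.blt d2 c)) (f1 (d1))) true (Nat.blt d1 c)) (f0 (c))) (Nat.mul 16 i)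
theorem hq0_1_0 : all2 cq0_1 10 0 = true := by decide +kernel
theorem hq0_1_1 : all2 cq0_1 9 1024 = true := by decide +kernel
theorem hq0_1_2 : all2 cq0_1 7 1536 = true := by decide +kernel
theorem hq0_1_3 : all2 cq0_1 6 1664 = true := by decide +kernel
theorem hq0_1_4 : all2 cq0_1 5 1728 = true := by decide +kernel
theorem hq0_1_5 : all2 cq0_1 4 1760 = true := by decide +kernel
theorem hq0_1_6 : all2 cq0_1 2 1776 = true := by decide +kernel
theorem hq0_1_7 : all2 cq0_1 1 1780 = true := by decide +kernel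
theorem hq0_1 : ∀ i < 1782, cq0_1 i = true := by
  have h0 : ∀ i < 0, cq0_1 i = true := fun i hi => absurd hi (Nat.not_lt_zero i)
  have h1 : ∀ i < 1024, cq0_1 i = true := range_step h0 hq0_1_0 (by norm_num)
  have h2 : ∀ i < 1536, cq0_1 i = true := range_step h1 hq0_1_1 (by norm_num)
  have h3 : ∀ i < 1664, cq0_1 i = true := range_step h2 hq0_1_2 (by norm_num)
  have h4 : ∀ i < 1728, cq0_1 i = true := range_step h3 hq0_1_3 (by norm_num)
  have h5 : ∀ i < 1760, cq0_1 i = true := range_step h4 hq0_1_4 (by norm_num)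
  have h6 : ∀ i < 1776, cq0_1 i = true := range_step h5 hq0_1_5 (by norm_num)
  have h7 : ∀ i < 1780, cq0_1 i = true := range_step h6 hq0_1_6 (by norm_num)
  have h8 : ∀ i < 1782, cq0_1 i = true := range_step h7 hq0_1_7 (by norm_num)
  exact h8
theorem q0_1 : (tab.perm 0 * tab.perm 1) ^ 5 = 1 :=
  dih_spec tab 0 1 5 (by decide) (by decide) rfl rfl (fun c hc => by
    obtain ⟨i, hi, rfl⟩ := hc
    exact hq0_1 i hi)
noncomputable def cq0_2 (i : ℕ) : Bool := (fun c => (fun d1 => @Bool.rec (fun _ => Bool) ((fun d2 => @Bool.rec (fun _ => Bool) ((fun d3 => @Bool.rec (fun _ => Bool) ((fun d4 => @Bool.rec (fun _ => Bool) (Nat.beq d4 c) true (Nat.blt d4 c)) (f2 (d3))) true (Nat.blt d3 c)) (f0 (d2))) true (Nat.blt d2 c)) (f2 (d1))) true (Nat.blt d1 c)) (f0 (c))) (Nat.mul 16 i)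
theorem hq0_2_0 : all2 cq0_2 10 0 = true := by decide +kernel
theorem hq0_2_1 : all2 cq0_2 9 1024 = true := by decide +kernel
theorem hq0_2_2 : all2 cq0_2 7 1536 = true := by decide +kernel
theorem hq0_2_3 : all2 cq0_2 6 1664 = true := by decide +kernel
theorem hq0_2_4 : all2 cq0_2 5 1728 = true := by decide +kernel
theorem hq0_2_5 : all2 cq0_2 4 1760 = true := by decide +kernel
theorem hq0_2_6 : all2 cq0_2 2 1776 = true := by decide +kernel
theorem hq0_2_7 : all2 cq0_2 1 1780 = true := by decide +kernel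
theorem hq0_2 : ∀ i < 1782, cq0_2 i = true := by
  have h0 : ∀ i < 0, cq0_2 i = true := fun i hi => absurd hi (Nat.not_lt_zero i)
  have h1 : ∀ i < 1024, cq0_2 i = true := range_step h0 hq0_2_0 (by norm_num)
  have h2 : ∀ i < 1536, cq0_2 i = true := range_step h1 hq0_2_1 (by norm_num)
  have h3 : ∀ i < 1664, cq0_2 i = true := range_step h2 hq0_2_2 (by norm_num)
  have h4 : ∀ i < 1728, cq0_2 i = true := range_step h3 hq0_2_3 (by norm_num)
  have h5 : ∀ i < 1760, cq0_2 i = true := range_step h4 hq0_2_4 (by norm_num)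
  have h6 : ∀ i < 1776, cq0_2 i = true := range_step h5 hq0_2_5 (by norm_num)
  have h7 : ∀ i < 1780, cq0_2 i = true := range_step h6 hq0_2_6 (by norm_num)
  have h8 : ∀ i < 1782, cq0_2 i = true := range_step h7 hq0_2_7 (by norm_num)
  exact h8
theorem q0_2 : (tab.perm 0 * tab.perm 2) ^ 2 = 1 :=
  dih_spec tab 0 2 2 (by decide) (by decide) rfl rfl (fun c hc => by
    obtain ⟨i, hi, rfl⟩ := hc
    exact hq0_2 i hi)
noncomputable def cq0_3 (i : ℕ) : Bool := (fun c => (fun d1 => @Bool.rec (fun _ => Bool) ((fun d2 => @Bool.rec (fun _ => Bool) ((fun d3 => @Bool.rec (fun _ => Bool) ((fun d4 => @Bool.rec (fun _ => Bool) (Nat.beq d4 c) true (Nat.blt d4 c)) (f3 (d3))) true (Nat.blt d3 c)) (f0 (d2))) true (Nat.blt d2 c)) (f3 (d1))) true (Nat.blt d1 c)) (f0 (c))) (Nat.mul 16 i)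
theorem hq0_3_0 : all2 cq0_3 10 0 = true := by decide +kernel
theorem hq0_3_1 : all2 cq0_3 9 1024 = true := by decide +kernel
theorem hq0_3_2 : all2 cq0_3 7 1536 = true := by decide +kernel
theorem hq0_3_3 : all2 cq0_3 6 1664 = true := by decide +kernel
theorem hq0_3_4 : all2 cq0_3 5 1728 = true := by decide +kernel
theorem hq0_3_5 : all2 cq0_3 4 1760 = true := by decide +kernel
theorem hq0_3_6 : all2 cq0_3 2 1776 = true := by decide +kernel
theorem hq0_3_7 : all2 cq0_3 1 1780 = true := by decide +kernel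
theorem hq0_3 : ∀ i < 1782, cq0_3 i = true := by
  have h0 : ∀ i < 0, cq0_3 i = true := fun i hi => absurd hi (Nat.not_lt_zero i)
  have h1 : ∀ i < 1024, cq0_3 i = true := range_step h0 hq0_3_0 (by norm_num)
  have h2 : ∀ i < 1536, cq0_3 i = true := range_step h1 hq0_3_1 (by norm_num)
  have h3 : ∀ i < 1664, cq0_3 i = true := range_step h2 hq0_3_2 (by norm_num)
  have h4 : ∀ i < 1728, cq0_3 i = true := range_step h3 hq0_3_3 (by norm_num)
  have h5 : ∀ i < 1760, cq0_3 i = true := range_step h4 hq0_3_4 (by norm_num)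
  have h6 : ∀ i < 1776, cq0_3 i = true := range_step h5 hq0_3_5 (by norm_num)
  have h7 : ∀ i < 1780, cq0_3 i = true := range_step h6 hq0_3_6 (by norm_num)
  have h8 : ∀ i < 1782, cq0_3 i = true := range_step h7 hq0_3_7 (by norm_num)
  exact h8
theorem q0_3 : (tab.perm 0 * tab.perm 3) ^ 2 = 1 :=
  dih_spec tab 0 3 2 (by decide) (by decide) rfl rfl (fun c hc => by
    obtain ⟨i, hi, rfl⟩ := hc
    exact hq0_3 i hi)
noncomputable def cq0_4 (i : ℕ) : Bool := (fun c => (fun d1 => @Bool.rec (fun _ => Bool) ((fun d2 => @Bool.rec (fun _ => Bool) ((fun d3 => @Bool.rec (fun _ => Bool) ((fun d4 => @Bool.rec (fun _ => Bool) (Nat.beq d4 c) true (Nat.blt d4 c)) (f4 (d3))) true (Nat.blt d3 c)) (f0 (d2))) true (Nat.blt d2 c)) (f4 (d1))) true (Nat.blt d1 c)) (f0 (c))) (Nat.mul 16 i)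
theorem hq0_4_0 : all2 cq0_4 10 0 = true := by decide +kernel
theorem hq0_4_1 : all2 cq0_4 9 1024 = true := by decide +kernel
theorem hq0_4_2 : all2 cq0_4 7 1536 = true := by decide +kernel
theorem hq0_4_3 : all2 cq0_4 6 1664 = true := by decide +kernel
theorem hq0_4_4 : all2 cq0_4 5 1728 = true := by decide +kernel
theorem hq0_4_5 : all2 cq0_4 4 1760 = true := by decide +kernel
theorem hq0_4_6 : all2 cq0_4 2 1776 = true := by decide +kernel
theorem hq0_4_7 : all2 cq0_4 1 1780 = true := by decide +kernel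
theorem hq0_4 : ∀ i < 1782, cq0_4 i = true := by
  have h0 : ∀ i < 0, cq0_4 i = true := fun i hi => absurd hi (Nat.not_lt_zero i)
  have h1 : ∀ i < 1024, cq0_4 i = true := range_step h0 hq0_4_0 (by norm_num)
  have h2 : ∀ i < 1536, cq0_4 i = true := range_step h1 hq0_4_1 (by norm_num)
  have h3 : ∀ i < 1664, cq0_4 i = true := range_step h2 hq0_4_2 (by norm_num)
  have h4 : ∀ i < 1728, cq0_4 i = true := range_step h3 hq0_4_3 (by norm_num)
  have h5 : ∀ i < 1760, cq0_4 i = true := range_step h4 hq0_4_4 (by norm_num)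
  have h6 : ∀ i < 1776, cq0_4 i = true := range_step h5 hq0_4_5 (by norm_num)
  have h7 : ∀ i < 1780, cq0_4 i = true := range_step h6 hq0_4_6 (by norm_num)
  have h8 : ∀ i < 1782, cq0_4 i = true := range_step h7 hq0_4_7 (by norm_num)
  exact h8
theorem q0_4 : (tab.perm 0 * tab.perm 4) ^ 2 = 1 :=
  dih_spec tab 0 4 2 (by decide) (by decide) rfl rfl (fun c hc => by
    obtain ⟨i, hi, rfl⟩ := hc
    exact hq0_4 i hi)
noncomputable def cq0_5 (i : ℕ) : Bool := (fun c => (fun d1 => @Bool.rec (fun _ => Bool) ((fun d2 => @Bool.rec (fun _ => Bool) ((fun d3 => @Bool.rec (fun _ => Bool) ((fun d4 => @Bool.rec (fun _ => Bool) (Nat.beq d4 c) true (Nat.blt d4 c)) (f5 (d3))) true (Nat.blt d3 c)) (f0 (d2))) true (Nat.blt d2 c)) (f5 (d1))) true (Nat.blt d1 c)) (f0 (c))) (Nat.mul 16 i)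
theorem hq0_5_0 : all2 cq0_5 10 0 = true := by decide +kernel
theorem hq0_5_1 : all2 cq0_5 9 1024 = true := by decide +kernel
theorem hq0_5_2 : all2 cq0_5 7 1536 = true := by decide +kernel
theorem hq0_5_3 : all2 cq0_5 6 1664 = true := by decide +kernel
theorem hq0_5_4 : all2 cq0_5 5 1728 = true := by decide +kernel
theorem hq0_5_5 : all2 cq0_5 4 1760 = true := by decide +kernel
theorem hq0_5_6 : all2 cq0_5 2 1776 = true := by decide +kernel
theorem hq0_5_7 : all2 cq0_5 1 1780 = true := by decide +kernel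
theorem hq0_5 : ∀ i < 1782, cq0_5 i = true := by
  have h0 : ∀ i < 0, cq0_5 i = true := fun i hi => absurd hi (Nat.not_lt_zero i)
  have h1 : ∀ i < 1024, cq0_5 i = true := range_step h0 hq0_5_0 (by norm_num)
  have h2 : ∀ i < 1536, cq0_5 i = true := range_step h1 hq0_5_1 (by norm_num)
  have h3 : ∀ i < 1664, cq0_5 i = true := range_step h2 hq0_5_2 (by norm_num)
  have h4 : ∀ i < 1728, cq0_5 i = true := range_step h3 hq0_5_3 (by norm_num)
  have h5 : ∀ i < 1760, cq0_5 i = true := range_step h4 hq0_5_4 (by norm_num)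
  have h6 : ∀ i < 1776, cq0_5 i = true := range_step h5 hq0_5_5 (by norm_num)
  have h7 : ∀ i < 1780, cq0_5 i = true := range_step h6 hq0_5_6 (by norm_num)
  have h8 : ∀ i < 1782, cq0_5 i = true := range_step h7 hq0_5_7 (by norm_num)
  exact h8
theorem q0_5 : (tab.perm 0 * tab.perm 5) ^ 2 = 1 :=
  dih_spec tab 0 5 2 (by decide) (by decide) rfl rfl (fun c hc => by
    obtain ⟨i, hi, rfl⟩ := hc
    exact hq0_5 i hi)
noncomputable def cq0_6 (i : ℕ) : Bool := (fun c => (fun d1 => @Bool.rec (fun _ => Bool) ((fun d2 => @Bool.rec (fun _ => Bool) ((fun d3 => @Bool.rec (fun _ => Bool) ((fun d4 => @Bool.rec (fun _ => Bool) (Nat.beq d4 c) true (Nat.blt d4 c)) (f6 (d3))) true (Nat.blt d3 c)) (f0 (d2))) true (Nat.blt d2 c)) (f6 (d1))) true (Nat.blt d1 c)) (f0 (c))) (Nat.mul 16 i)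
theorem hq0_6_0 : all2 cq0_6 10 0 = true := by decide +kernel
theorem hq0_6_1 : all2 cq0_6 9 1024 = true := by decide +kernel
theorem hq0_6_2 : all2 cq0_6 7 1536 = true := by decide +kernel
theorem hq0_6_3 : all2 cq0_6 6 1664 = true := by decide +kernel
theorem hq0_6_4 : all2 cq0_6 5 1728 = true := by decide +kernel
theorem hq0_6_5 : all2 cq0_6 4 1760 = true := by decide +kernel
theorem hq0_6_6 : all2 cq0_6 2 1776 = true := by decide +kernel
theorem hq0_6_7 : all2 cq0_6 1 1780 = true := by decide +kernel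
theorem hq0_6 : ∀ i < 1782, cq0_6 i = true := by
  have h0 : ∀ i < 0, cq0_6 i = true := fun i hi => absurd hi (Nat.not_lt_zero i)
  have h1 : ∀ i < 1024, cq0_6 i = true := range_step h0 hq0_6_0 (by norm_num)
  have h2 : ∀ i < 1536, cq0_6 i = true := range_step h1 hq0_6_1 (by norm_num)
  have h3 : ∀ i < 1664, cq0_6 i = true := range_step h2 hq0_6_2 (by norm_num)
  have h4 : ∀ i < 1728, cq0_6 i = true := range_step h3 hq0_6_3 (by norm_num)
  have h5 : ∀ i < 1760, cq0_6 i = true := range_step h4 hq0_6_4 (by norm_num)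
  have h6 : ∀ i < 1776, cq0_6 i = true := range_step h5 hq0_6_5 (by norm_num)
  have h7 : ∀ i < 1780, cq0_6 i = true := range_step h6 hq0_6_6 (by norm_num)
  have h8 : ∀ i < 1782, cq0_6 i = true := range_step h7 hq0_6_7 (by norm_num)
  exact h8
theorem q0_6 : (tab.perm 0 * tab.perm 6) ^ 2 = 1 :=
  dih_spec tab 0 6 2 (by decide) (by decide) rfl rfl (fun c hc => by
    obtain ⟨i, hi, rfl⟩ := hc
    exact hq0_6 i hi)
noncomputable def cq1_2 (i : ℕ) : Bool := (fun c => (fun d1 => @Bool.rec (fun _ => Bool) ((fun d2 => @Bool.rec (fun _ => Bool) ((fun d3 => @Bool.rec (fun _ => Bool) ((fun d4 => @Bool.rec (fun _ => Bool) ((fun d5 => @Bool.rec (fun _ => Bool) ((fun d6 => @Bool.rec (fun _ => Bool) (Nat.beq d6 c) true (Nat.blt d6 c)) (f2 (d5))) true (Nat.blt d5 c)) (f1 (d4))) true (Nat.blt d4 c)) (f2 (d3))) true (Nat.blt d3 c)) (f1 (d2))) true (Nat.blt d2 c)) (f2 (d1))) true (Nat.blt d1 c)) (f1 (c))) (Nat.mul 16 i)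
theorem hq1_2_0 : all2 cq1_2 10 0 = true := by decide +kernel
theorem hq1_2_1 : all2 cq1_2 9 1024 = true := by decide +kernel
theorem hq1_2_2 : all2 cq1_2 7 1536 = true := by decide +kernel
theorem hq1_2_3 : all2 cq1_2 6 1664 = true := by decide +kernel
theorem hq1_2_4 : all2 cq1_2 5 1728 = true := by decide +kernel
theorem hq1_2_5 : all2 cq1_2 4 1760 = true := by decide +kernel
theorem hq1_2_6 : all2 cq1_2 2 1776 = true := by decide +kernel
theorem hq1_2_7 : all2 cq1_2 1 1780 = true := by decide +kernel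
theorem hq1_2 : ∀ i < 1782, cq1_2 i = true := by
  have h0 : ∀ i < 0, cq1_2 i = true := fun i hi => absurd hi (Nat.not_lt_zero i)
  have h1 : ∀ i < 1024, cq1_2 i = true := range_step h0 hq1_2_0 (by norm_num)
  have h2 : ∀ i < 1536, cq1_2 i = true := range_step h1 hq1_2_1 (by norm_num)
  have h3 : ∀ i < 1664, cq1_2 i = true := range_step h2 hq1_2_2 (by norm_num)
  have h4 : ∀ i < 1728, cq1_2 i = true := range_step h3 hq1_2_3 (by norm_num)
  have h5 : ∀ i < 1760, cq1_2 i = true := range_step h4 hq1_2_4 (by norm_num)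
  have h6 : ∀ i < 1776, cq1_2 i = true := range_step h5 hq1_2_5 (by norm_num)
  have h7 : ∀ i < 1780, cq1_2 i = true := range_step h6 hq1_2_6 (by norm_num)
  have h8 : ∀ i < 1782, cq1_2 i = true := range_step h7 hq1_2_7 (by norm_num)
  exact h8
theorem q1_2 : (tab.perm 1 * tab.perm 2) ^ 3 = 1 :=
  dih_spec tab 1 2 3 (by decide) (by decide) rfl rfl (fun c hc => by
    obtain ⟨i, hi, rfl⟩ := hc
    exact hq1_2 i hi)
noncomputable def cq1_3 (i : ℕ) : Bool := (fun c => (fun d1 => @Bool.rec (fun _ => Bool) ((fun d2 => @Bool.rec (fun _ => Bool) ((fun d3 => @Bool.rec (fun _ => Bool) ((fun d4 => @Bool.rec (fun _ => Bool) (Nat.beq d4 c) true (Nat.blt d4 c)) (f3 (d3))) true (Nat.blt d3 c)) (f1 (d2))) true (Nat.blt d2 c)) (f3 (d1))) true (Nat.blt d1 c)) (f1 (c))) (Nat.mul 16 i)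
theorem hq1_3_0 : all2 cq1_3 10 0 = true := by decide +kernel
theorem hq1_3_1 : all2 cq1_3 9 1024 = true := by decide +kernel
theorem hq1_3_2 : all2 cq1_3 7 1536 = true := by decide +kernel
theorem hq1_3_3 : all2 cq1_3 6 1664 = true := by decide +kernel
theorem hq1_3_4 : all2 cq1_3 5 1728 = true := by decide +kernel
theorem hq1_3_5 : all2 cq1_3 4 1760 = true := by decide +kernel
theorem hq1_3_6 : all2 cq1_3 2 1776 = true := by decide +kernel
theorem hq1_3_7 : all2 cq1_3 1 1780 = true := by decide +kernel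
theorem hq1_3 : ∀ i < 1782, cq1_3 i = true := by
  have h0 : ∀ i < 0, cq1_3 i = true := fun i hi => absurd hi (Nat.not_lt_zero i)
  have h1 : ∀ i < 1024, cq1_3 i = true := range_step h0 hq1_3_0 (by norm_num)
  have h2 : ∀ i < 1536, cq1_3 i = true := range_step h1 hq1_3_1 (by norm_num)
  have h3 : ∀ i < 1664, cq1_3 i = true := range_step h2 hq1_3_2 (by norm_num)
  have h4 : ∀ i < 1728, cq1_3 i = true := range_step h3 hq1_3_3 (by norm_num)
  have h5 : ∀ i < 1760, cq1_3 i = true := range_step h4 hq1_3_4 (by norm_num)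
  have h6 : ∀ i < 1776, cq1_3 i = true := range_step h5 hq1_3_5 (by norm_num)
  have h7 : ∀ i < 1780, cq1_3 i = true := range_step h6 hq1_3_6 (by norm_num)
  have h8 : ∀ i < 1782, cq1_3 i = true := range_step h7 hq1_3_7 (by norm_num)
  exact h8
theorem q1_3 : (tab.perm 1 * tab.perm 3) ^ 2 = 1 :=
  dih_spec tab 1 3 2 (by decide) (by decide) rfl rfl (fun c hc => by
    obtain ⟨i, hi, rfl⟩ := hc
    exact hq1_3 i hi)
noncomputable def cq1_4 (i : ℕ) : Bool := (fun c => (fun d1 => @Bool.rec (fun _ => Bool) ((fun d2 => @Bool.rec (fun _ => Bool) ((fun d3 => @Bool.rec (fun _ => Bool) ((fun d4 => @Bool.rec (fun _ => Bool) (Nat.beq d4 c) true (Nat.blt d4 c)) (f4 (d3))) true (Nat.blt d3 c)) (f1 (d2))) true (Nat.blt d2 c)) (f4 (d1))) true (Nat.blt d1 c)) (f1 (c))) (Nat.mul 16 i)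
theorem hq1_4_0 : all2 cq1_4 10 0 = true := by decide +kernel
theorem hq1_4_1 : all2 cq1_4 9 1024 = true := by decide +kernel
theorem hq1_4_2 : all2 cq1_4 7 1536 = true := by decide +kernel
theorem hq1_4_3 : all2 cq1_4 6 1664 = true := by decide +kernel
theorem hq1_4_4 : all2 cq1_4 5 1728 = true := by decide +kernel
theorem hq1_4_5 : all2 cq1_4 4 1760 = true := by decide +kernel
theorem hq1_4_6 : all2 cq1_4 2 1776 = true := by decide +kernel
theorem hq1_4_7 : all2 cq1_4 1 1780 = true := by decide +kernel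
theorem hq1_4 : ∀ i < 1782, cq1_4 i = true := by
  have h0 : ∀ i < 0, cq1_4 i = true := fun i hi => absurd hi (Nat.not_lt_zero i)
  have h1 : ∀ i < 1024, cq1_4 i = true := range_step h0 hq1_4_0 (by norm_num)
  have h2 : ∀ i < 1536, cq1_4 i = true := range_step h1 hq1_4_1 (by norm_num)
  have h3 : ∀ i < 1664, cq1_4 i = true := range_step h2 hq1_4_2 (by norm_num)
  have h4 : ∀ i < 1728, cq1_4 i = true := range_step h3 hq1_4_3 (by norm_num)
  have h5 : ∀ i < 1760, cq1_4 i = true := range_step h4 hq1_4_4 (by norm_num)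
  have h6 : ∀ i < 1776, cq1_4 i = true := range_step h5 hq1_4_5 (by norm_num)
  have h7 : ∀ i < 1780, cq1_4 i = true := range_step h6 hq1_4_6 (by norm_num)
  have h8 : ∀ i < 1782, cq1_4 i = true := range_step h7 hq1_4_7 (by norm_num)
  exact h8
theorem q1_4 : (tab.perm 1 * tab.perm 4) ^ 2 = 1 :=
  dih_spec tab 1 4 2 (by decide) (by decide) rfl rfl (fun c hc => by
    obtain ⟨i, hi, rfl⟩ := hc
    exact hq1_4 i hi)
noncomputable def cq1_5 (i : ℕ) : Bool := (fun c => (fun d1 => @Bool.rec (fun _ => Bool) ((fun d2 => @Bool.rec (fun _ => Bool) ((fun d3 => @Bool.rec (fun _ => Bool) ((fun d4 => @Bool.rec (fun _ => Bool) ((fun d5 => @Bool.rec (fun _ => Bool) ((fun d6 => @Bool.rec (fun _ => Bool) (Nat.beq d6 c) true (Nat.blt d6 c)) (f5 (d5))) true (Nat.blt d5 c)) (f1 (d4))) true (Nat.blt d4 c)) (f5 (d3))) true (Nat.blt d3 c)) (f1 (d2))) true (Nat.blt d2 c)) (f5 (d1))) true (Nat.blt d1 c)) (f1 (c))) (Nat.mul 16 i)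
theorem hq1_5_0 : all2 cq1_5 10 0 = true := by decide +kernel
theorem hq1_5_1 : all2 cq1_5 9 1024 = true := by decide +kernel
theorem hq1_5_2 : all2 cq1_5 7 1536 = true := by decide +kernel
theorem hq1_5_3 : all2 cq1_5 6 1664 = true := by decide +kernel
theorem hq1_5_4 : all2 cq1_5 5 1728 = true := by decide +kernel
theorem hq1_5_5 : all2 cq1_5 4 1760 = true := by decide +kernel
theorem hq1_5_6 : all2 cq1_5 2 1776 = true := by decide +kernel
theorem hq1_5_7 : all2 cq1_5 1 1780 = true := by decide +kernel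
theorem hq1_5 : ∀ i < 1782, cq1_5 i = true := by
  have h0 : ∀ i < 0, cq1_5 i = true := fun i hi => absurd hi (Nat.not_lt_zero i)
  have h1 : ∀ i < 1024, cq1_5 i = true := range_step h0 hq1_5_0 (by norm_num)
  have h2 : ∀ i < 1536, cq1_5 i = true := range_step h1 hq1_5_1 (by norm_num)
  have h3 : ∀ i < 1664, cq1_5 i = true := range_step h2 hq1_5_2 (by norm_num)
  have h4 : ∀ i < 1728, cq1_5 i = true := range_step h3 hq1_5_3 (by norm_num)
  have h5 : ∀ i < 1760, cq1_5 i = true := range_step h4 hq1_5_4 (by norm_num)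
  have h6 : ∀ i < 1776, cq1_5 i = true := range_step h5 hq1_5_5 (by norm_num)
  have h7 : ∀ i < 1780, cq1_5 i = true := range_step h6 hq1_5_6 (by norm_num)
  have h8 : ∀ i < 1782, cq1_5 i = true := range_step h7 hq1_5_7 (by norm_num)
  exact h8
theorem q1_5 : (tab.perm 1 * tab.perm 5) ^ 3 = 1 :=
  dih_spec tab 1 5 3 (by decide) (by decide) rfl rfl (fun c hc => by
    obtain ⟨i, hi, rfl⟩ := hc
    exact hq1_5 i hi)
noncomputable def cq1_6 (i : ℕ) : Bool := (fun c => (fun d1 => @Bool.rec (fun _ => Bool) ((fun d2 => @Bool.rec (fun _ => Bool) ((fun d3 => @Bool.rec (fun _ => Bool) ((fun d4 => @Bool.rec (fun _ => Bool) ((fun d5 => @Bool.rec (fun _ => Bool) ((fun d6 => @Bool.rec (fun _ => Bool) (Nat.beq d6 c) true (Nat.blt d6 c)) (f6 (d5))) true (Nat.blt d5 c)) (f1 (d4))) true (Nat.blt d4 c)) (f6 (d3))) true (Nat.blt d3 c)) (f1 (d2))) true (Nat.blt d2 c)) (f6 (d1))) true (Nat.blt d1 c)) (f1 (c))) (Nat.mul 16 i)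
theorem hq1_6_0 : all2 cq1_6 10 0 = true := by decide +kernel
theorem hq1_6_1 : all2 cq1_6 9 1024 = true := by decide +kernel
theorem hq1_6_2 : all2 cq1_6 7 1536 = true := by decide +kernel
theorem hq1_6_3 : all2 cq1_6 6 1664 = true := by decide +kernel
theorem hq1_6_4 : all2 cq1_6 5 1728 = true := by decide +kernel
theorem hq1_6_5 : all2 cq1_6 4 1760 = true := by decide +kernel
theorem hq1_6_6 : all2 cq1_6 2 1776 = true := by decide +kernel
theorem hq1_6_7 : all2 cq1_6 1 1780 = true := by decide +kernel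
theorem hq1_6 : ∀ i < 1782, cq1_6 i = true := by
  have h0 : ∀ i < 0, cq1_6 i = true := fun i hi => absurd hi (Nat.not_lt_zero i)
  have h1 : ∀ i < 1024, cq1_6 i = true := range_step h0 hq1_6_0 (by norm_num)
  have h2 : ∀ i < 1536, cq1_6 i = true := range_step h1 hq1_6_1 (by norm_num)
  have h3 : ∀ i < 1664, cq1_6 i = true := range_step h2 hq1_6_2 (by norm_num)
  have h4 : ∀ i < 1728, cq1_6 i = true := range_step h3 hq1_6_3 (by norm_num)
  have h5 : ∀ i < 1760, cq1_6 i = true := range_step h4 hq1_6_4 (by norm_num)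
  have h6 : ∀ i < 1776, cq1_6 i = true := range_step h5 hq1_6_5 (by norm_num)
  have h7 : ∀ i < 1780, cq1_6 i = true := range_step h6 hq1_6_6 (by norm_num)
  have h8 : ∀ i < 1782, cq1_6 i = true := range_step h7 hq1_6_7 (by norm_num)
  exact h8
theorem q1_6 : (tab.perm 1 * tab.perm 6) ^ 3 = 1 :=
  dih_spec tab 1 6 3 (by decide) (by decide) rfl rfl (fun c hc => by
    obtain ⟨i, hi, rfl⟩ := hc
    exact hq1_6 i hi)
noncomputable def cq2_3 (i : ℕ) : Bool := (fun c => (fun d1 => @Bool.rec (fun _ => Bool) ((fun d2 => @Bool.rec (fun _ => Bool) ((fun d3 => @Bool.rec (fun _ => Bool) ((fun d4 => @Bool.rec (fun _ => Bool) ((fun d5 => @Bool.rec (fun _ => Bool) ((fun d6 => @Bool.rec (fun _ => Bool) ((fun d7 => @Bool.rec (fun _ => Bool) ((fun d8 => @Bool.rec (fun _ => Bool) ((fun d9 => @Bool.rec (fun _ => Bool) ((fun d10 => @Bool.rec (fun _ => Bool) ((fun d11 => @Bool.rec (fun _ => Bool) ((fun d12 => @Bool.rec (fun _ => Bool) ((fun d13 => @Bool.rec (fun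 _ => Bool) ((fun d14 => @Bool.rec (fun _ => Bool) ((fun d15 => @Bool.rec (fun _ => Bool) ((fun d16 => @Bool.rec (fun _ => Bool) (Nat.beq d16 c) true (Nat.blt d16 c)) (f3 (d15))) true (Nat.blt d15 c)) (f2 (d14))) true (Nat.blt d14 c)) (f3 (d13))) true (Nat.blt d13 c)) (f2 (d12))) true (Nat.blt d12 c)) (f3 (d11))) true (Nat.blt d11 c)) (f2 (d10))) true (Nat.blt d10 c)) (f3 (d9))) true (Nat.blt d9 c)) (f2 (d8))) true (Nat.blt d8 c)) (f3 (d7))) true (Nat.blt d7 c)) (f2 (d6))) true (Nat.blt d6 c)) (f3 (d5))) true (Nat.blt d5 c)) (f2 (d4))) true (Nat.blt d4 c)) (f3 (d3))) true (Nat.blt d3 c)) (f2 (d2))) true (Nat.blt d2 c)) (f3 (d1))) true (Nat.blt d1 c)) (f2 (c))) (Nat.mul 16 i)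
theorem hq2_3_0 : all2 cq2_3 10 0 = true := by decide +kernel
theorem hq2_3_1 : all2 cq2_3 9 1024 = true := by decide +kernel
theorem hq2_3_2 : all2 cq2_3 7 1536 = true := by decide +kernel
theorem hq2_3_3 : all2 cq2_3 6 1664 = true := by decide +kernel
theorem hq2_3_4 : all2 cq2_3 5 1728 = true := by decide +kernel
theorem hq2_3_5 : all2 cq2_3 4 1760 = true := by decide +kernel
theorem hq2_3_6 : all2 cq2_3 2 1776 = true := by decide +kernel
theorem hq2_3_7 : all2 cq2_3 1 1780 = true := by decide +kernel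
theorem hq2_3 : ∀ i < 1782, cq2_3 i = true := by
  have h0 : ∀ i < 0, cq2_3 i = true := fun i hi => absurd hi (Nat.not_lt_zero i)
  have h1 : ∀ i < 1024, cq2_3 i = true := range_step h0 hq2_3_0 (by norm_num)
  have h2 : ∀ i < 1536, cq2_3 i = true := range_step h1 hq2_3_1 (by norm_num)
  have h3 : ∀ i < 1664, cq2_3 i = true := range_step h2 hq2_3_2 (by norm_num)
  have h4 : ∀ i < 1728, cq2_3 i = true := range_step h3 hq2_3_3 (by norm_num)
  have h5 : ∀ i < 1760, cq2_3 i = true := range_step h4 hq2_3_4 (by norm_num)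
  have h6 : ∀ i < 1776, cq2_3 i = true := range_step h5 hq2_3_5 (by norm_num)
  have h7 : ∀ i < 1780, cq2_3 i = true := range_step h6 hq2_3_6 (by norm_num)
  have h8 : ∀ i < 1782, cq2_3 i = true := range_step h7 hq2_3_7 (by norm_num)
  exact h8
theorem q2_3 : (tab.perm 2 * tab.perm 3) ^ 8 = 1 :=
  dih_spec tab 2 3 8 (by decide) (by decide) rfl rfl (fun c hc => by
    obtain ⟨i, hi, rfl⟩ := hc
    exact hq2_3 i hi)
noncomputable def cq2_4 (i : ℕ) : Bool := (fun c => (fun d1 => @Bool.rec (fun _ => Bool) ((fun d2 => @Bool.rec (fun _ => Bool) ((fun d3 => @Bool.rec (fun _ => Bool) ((fun d4 => @Bool.rec (fun _ => Bool) (Nat.beq d4 c) true (Nat.blt d4 c)) (f4 (d3))) true (Nat.blt d3 c)) (f2 (d2))) true (Nat.blt d2 c)) (f4 (d1))) true (Nat.blt d1 c)) (f2 (c))) (Nat.mul 16 i)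
theorem hq2_4_0 : all2 cq2_4 10 0 = true := by decide +kernel
theorem hq2_4_1 : all2 cq2_4 9 1024 = true := by decide +kernel
theorem hq2_4_2 : all2 cq2_4 7 1536 = true := by decide +kernel
theorem hq2_4_3 : all2 cq2_4 6 1664 = true := by decide +kernel
theorem hq2_4_4 : all2 cq2_4 5 1728 = true := by decide +kernel
theorem hq2_4_5 : all2 cq2_4 4 1760 = true := by decide +kernel
theorem hq2_4_6 : all2 cq2_4 2 1776 = true := by decide +kernel
theorem hq2_4_7 : all2 cq2_4 1 1780 = true := by decide +kernel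
theorem hq2_4 : ∀ i < 1782, cq2_4 i = true := by
  have h0 : ∀ i < 0, cq2_4 i = true := fun i hi => absurd hi (Nat.not_lt_zero i)
  have h1 : ∀ i < 1024, cq2_4 i = true := range_step h0 hq2_4_0 (by norm_num)
  have h2 : ∀ i < 1536, cq2_4 i = true := range_step h1 hq2_4_1 (by norm_num)
  have h3 : ∀ i < 1664, cq2_4 i = true := range_step h2 hq2_4_2 (by norm_num)
  have h4 : ∀ i < 1728, cq2_4 i = true := range_step h3 hq2_4_3 (by norm_num)
  have h5 : ∀ i < 1760, cq2_4 i = true := range_step h4 hq2_4_4 (by norm_num)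
  have h6 : ∀ i < 1776, cq2_4 i = true := range_step h5 hq2_4_5 (by norm_num)
  have h7 : ∀ i < 1780, cq2_4 i = true := range_step h6 hq2_4_6 (by norm_num)
  have h8 : ∀ i < 1782, cq2_4 i = true := range_step h7 hq2_4_7 (by norm_num)
  exact h8
theorem q2_4 : (tab.perm 2 * tab.perm 4) ^ 2 = 1 :=
  dih_spec tab 2 4 2 (by decide) (by decide) rfl rfl (fun c hc => by
    obtain ⟨i, hi, rfl⟩ := hc
    exact hq2_4 i hi)
noncomputable def cq2_5 (i : ℕ) : Bool := (fun c => (fun d1 => @Bool.rec (fun _ => Bool) ((fun d2 => @Bool.rec (fun _ => Bool) ((fun d3 => @Bool.rec (fun _ => Bool) ((fun d4 => @Bool.rec (fun _ => Bool) (Nat.beq d4 c) true (Nat.blt d4 c)) (f5 (d3))) true (Nat.blt d3 c)) (f2 (d2))) true (Nat.blt d2 c)) (f5 (d1))) true (Nat.blt d1 c)) (f2 (c))) (Nat.mul 16 i)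
theorem hq2_5_0 : all2 cq2_5 10 0 = true := by decide +kernel
theorem hq2_5_1 : all2 cq2_5 9 1024 = true := by decide +kernel
theorem hq2_5_2 : all2 cq2_5 7 1536 = true := by decide +kernel
theorem hq2_5_3 : all2 cq2_5 6 1664 = true := by decide +kernel
theorem hq2_5_4 : all2 cq2_5 5 1728 = true := by decide +kernel
theorem hq2_5_5 : all2 cq2_5 4 1760 = true := by decide +kernel
theorem hq2_5_6 : all2 cq2_5 2 1776 = true := by decide +kernel
theorem hq2_5_7 : all2 cq2_5 1 1780 = true := by decide +kernel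
theorem hq2_5 : ∀ i < 1782, cq2_5 i = true := by
  have h0 : ∀ i < 0, cq2_5 i = true := fun i hi => absurd hi (Nat.not_lt_zero i)
  have h1 : ∀ i < 1024, cq2_5 i = true := range_step h0 hq2_5_0 (by norm_num)
  have h2 : ∀ i < 1536, cq2_5 i = true := range_step h1 hq2_5_1 (by norm_num)
  have h3 : ∀ i < 1664, cq2_5 i = true := range_step h2 hq2_5_2 (by norm_num)
  have h4 : ∀ i < 1728, cq2_5 i = true := range_step h3 hq2_5_3 (by norm_num)
  have h5 : ∀ i < 1760, cq2_5 i = true := range_step h4 hq2_5_4 (by norm_num)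
  have h6 : ∀ i < 1776, cq2_5 i = true := range_step h5 hq2_5_5 (by norm_num)
  have h7 : ∀ i < 1780, cq2_5 i = true := range_step h6 hq2_5_6 (by norm_num)
  have h8 : ∀ i < 1782, cq2_5 i = true := range_step h7 hq2_5_7 (by norm_num)
  exact h8
theorem q2_5 : (tab.perm 2 * tab.perm 5) ^ 2 = 1 :=
  dih_spec tab 2 5 2 (by decide) (by decide) rfl rfl (fun c hc => by
    obtain ⟨i, hi, rfl⟩ := hc
    exact hq2_5 i hi)
noncomputable def cq2_6 (i : ℕ) : Bool := (fun c => (fun d1 => @Bool.rec (fun _ => Bool) ((fun d2 => @Bool.rec (fun _ => Bool) ((fun d3 => @Bool.rec (fun _ => Bool) ((fun d4 => @Bool.rec (fun _ => Bool) (Nat.beq d4 c) true (Nat.blt d4 c)) (f6 (d3))) true (Nat.blt d3 c)) (f2 (d2))) true (Nat.blt d2 c)) (f6 (d1))) true (Nat.blt d1 c)) (f2 (c))) (Nat.mul 16 i)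
theorem hq2_6_0 : all2 cq2_6 10 0 = true := by decide +kernel
theorem hq2_6_1 : all2 cq2_6 9 1024 = true := by decide +kernel
theorem hq2_6_2 : all2 cq2_6 7 1536 = true := by decide +kernel
theorem hq2_6_3 : all2 cq2_6 6 1664 = true := by decide +kernel
theorem hq2_6_4 : all2 cq2_6 5 1728 = true := by decide +kernel
theorem hq2_6_5 : all2 cq2_6 4 1760 = true := by decide +kernel
theorem hq2_6_6 : all2 cq2_6 2 1776 = true := by decide +kernel
theorem hq2_6_7 : all2 cq2_6 1 1780 = true := by decide +kernel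
theorem hq2_6 : ∀ i < 1782, cq2_6 i = true := by
  have h0 : ∀ i < 0, cq2_6 i = true := fun i hi => absurd hi (Nat.not_lt_zero i)
  have h1 : ∀ i < 1024, cq2_6 i = true := range_step h0 hq2_6_0 (by norm_num)
  have h2 : ∀ i < 1536, cq2_6 i = true := range_step h1 hq2_6_1 (by norm_num)
  have h3 : ∀ i < 1664, cq2_6 i = true := range_step h2 hq2_6_2 (by norm_num)
  have h4 : ∀ i < 1728, cq2_6 i = true := range_step h3 hq2_6_3 (by norm_num)
  have h5 : ∀ i < 1760, cq2_6 i = true := range_step h4 hq2_6_4 (by norm_num)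
  have h6 : ∀ i < 1776, cq2_6 i = true := range_step h5 hq2_6_5 (by norm_num)
  have h7 : ∀ i < 1780, cq2_6 i = true := range_step h6 hq2_6_6 (by norm_num)
  have h8 : ∀ i < 1782, cq2_6 i = true := range_step h7 hq2_6_7 (by norm_num)
  exact h8
theorem q2_6 : (tab.perm 2 * tab.perm 6) ^ 2 = 1 :=
  dih_spec tab 2 6 2 (by decide) (by decide) rfl rfl (fun c hc => by
    obtain ⟨i, hi, rfl⟩ := hc
    exact hq2_6 i hi)
noncomputable def cq3_4 (i : ℕ) : Bool := (fun c => (fun d1 => @Bool.rec (fun _ => Bool) ((fun d2 => @Bool.rec (fun _ => Bool) ((fun d3 => @Bool.rec (fun _ => Bool) ((fun d4 => @Bool.rec (fun _ => Bool) ((fun d5 => @Bool.rec (fun _ => Bool) ((fun d6 => @Bool.rec (fun _ => Bool) (Nat.beq d6 c) true (Nat.blt d6 c)) (f4 (d5))) true (Nat.blt d5 c)) (f3 (d4))) true (Nat.blt d4 c)) (f4 (d3))) true (Nat.blt d3 c)) (f3 (d2))) true (Nat.blt d2 c)) (f4 (d1))) true (Nat.blt d1 c)) (f3 (c))) (Nat.mul 16 i)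
theorem hq3_4_0 : all2 cq3_4 10 0 = true := by decide +kernel
theorem hq3_4_1 : all2 cq3_4 9 1024 = true := by decide +kernel
theorem hq3_4_2 : all2 cq3_4 7 1536 = true := by decide +kernel
theorem hq3_4_3 : all2 cq3_4 6 1664 = true := by decide +kernel
theorem hq3_4_4 : all2 cq3_4 5 1728 = true := by decide +kernel
theorem hq3_4_5 : all2 cq3_4 4 1760 = true := by decide +kernel
theorem hq3_4_6 : all2 cq3_4 2 1776 = true := by decide +kernel
theorem hq3_4_7 : all2 cq3_4 1 1780 = true := by decide +kernel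
theorem hq3_4 : ∀ i < 1782, cq3_4 i = true := by
  have h0 : ∀ i < 0, cq3_4 i = true := fun i hi => absurd hi (Nat.not_lt_zero i)
  have h1 : ∀ i < 1024, cq3_4 i = true := range_step h0 hq3_4_0 (by norm_num)
  have h2 : ∀ i < 1536, cq3_4 i = true := range_step h1 hq3_4_1 (by norm_num)
  have h3 : ∀ i < 1664, cq3_4 i = true := range_step h2 hq3_4_2 (by norm_num)
  have h4 : ∀ i < 1728, cq3_4 i = true := range_step h3 hq3_4_3 (by norm_num)
  have h5 : ∀ i < 1760, cq3_4 i = true := range_step h4 hq3_4_4 (by norm_num)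
  have h6 : ∀ i < 1776, cq3_4 i = true := range_step h5 hq3_4_5 (by norm_num)
  have h7 : ∀ i < 1780, cq3_4 i = true := range_step h6 hq3_4_6 (by norm_num)
  have h8 : ∀ i < 1782, cq3_4 i = true := range_step h7 hq3_4_7 (by norm_num)
  exact h8
theorem q3_4 : (tab.perm 3 * tab.perm 4) ^ 3 = 1 :=
  dih_spec tab 3 4 3 (by decide) (by decide) rfl rfl (fun c hc => by
    obtain ⟨i, hi, rfl⟩ := hc
    exact hq3_4 i hi)
noncomputable def cq3_5 (i : ℕ) : Bool := (fun c => (fun d1 => @Bool.rec (fun _ => Bool) ((fun d2 => @Bool.rec (fun _ => Bool) ((fun d3 => @Bool.rec (fun _ => Bool) ((fun d4 => @Bool.rec (fun _ => Bool) (Nat.beq d4 c) true (Nat.blt d4 c)) (f5 (d3))) true (Nat.blt d3 c)) (f3 (d2))) true (Nat.blt d2 c)) (f5 (d1))) true (Nat.blt d1 c)) (f3 (c))) (Nat.mul 16 i)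
theorem hq3_5_0 : all2 cq3_5 10 0 = true := by decide +kernel
theorem hq3_5_1 : all2 cq3_5 9 1024 = true := by decide +kernel
theorem hq3_5_2 : all2 cq3_5 7 1536 = true := by decide +kernel
theorem hq3_5_3 : all2 cq3_5 6 1664 = true := by decide +kernel
theorem hq3_5_4 : all2 cq3_5 5 1728 = true := by decide +kernel
theorem hq3_5_5 : all2 cq3_5 4 1760 = true := by decide +kernel
theorem hq3_5_6 : all2 cq3_5 2 1776 = true := by decide +kernel
theorem hq3_5_7 : all2 cq3_5 1 1780 = true := by decide +kernel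
theorem hq3_5 : ∀ i < 1782, cq3_5 i = true := by
  have h0 : ∀ i < 0, cq3_5 i = true := fun i hi => absurd hi (Nat.not_lt_zero i)
  have h1 : ∀ i < 1024, cq3_5 i = true := range_step h0 hq3_5_0 (by norm_num)
  have h2 : ∀ i < 1536, cq3_5 i = true := range_step h1 hq3_5_1 (by norm_num)
  have h3 : ∀ i < 1664, cq3_5 i = true := range_step h2 hq3_5_2 (by norm_num)
  have h4 : ∀ i < 1728, cq3_5 i = true := range_step h3 hq3_5_3 (by norm_num)
  have h5 : ∀ i < 1760, cq3_5 i = true := range_step h4 hq3_5_4 (by norm_num)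
  have h6 : ∀ i < 1776, cq3_5 i = true := range_step h5 hq3_5_5 (by norm_num)
  have h7 : ∀ i < 1780, cq3_5 i = true := range_step h6 hq3_5_6 (by norm_num)
  have h8 : ∀ i < 1782, cq3_5 i = true := range_step h7 hq3_5_7 (by norm_num)
  exact h8
theorem q3_5 : (tab.perm 3 * tab.perm 5) ^ 2 = 1 :=
  dih_spec tab 3 5 2 (by decide) (by decide) rfl rfl (fun c hc => by
    obtain ⟨i, hi, rfl⟩ := hc
    exact hq3_5 i hi)
noncomputable def cq3_6 (i : ℕ) : Bool := (fun c => (fun d1 => @Bool.rec (fun _ => Bool) ((fun d2 => @Bool.rec (fun _ => Bool) ((fun d3 => @Bool.rec (fun _ => Bool) ((fun d4 => @Bool.rec (fun _ => Bool) (Nat.beq d4 c) true (Nat.blt d4 c)) (f6 (d3))) true (Nat.blt d3 c)) (f3 (d2))) true (Nat.blt d2 c)) (f6 (d1))) true (Nat.blt d1 c)) (f3 (c))) (Nat.mul 16 i)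
theorem hq3_6_0 : all2 cq3_6 10 0 = true := by decide +kernel
theorem hq3_6_1 : all2 cq3_6 9 1024 = true := by decide +kernel
theorem hq3_6_2 : all2 cq3_6 7 1536 = true := by decide +kernel
theorem hq3_6_3 : all2 cq3_6 6 1664 = true := by decide +kernel
theorem hq3_6_4 : all2 cq3_6 5 1728 = true := by decide +kernel
theorem hq3_6_5 : all2 cq3_6 4 1760 = true := by decide +kernel
theorem hq3_6_6 : all2 cq3_6 2 1776 = true := by decide +kernel
theorem hq3_6_7 : all2 cq3_6 1 1780 = true := by decide +kernel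
theorem hq3_6 : ∀ i < 1782, cq3_6 i = true := by
  have h0 : ∀ i < 0, cq3_6 i = true := fun i hi => absurd hi (Nat.not_lt_zero i)
  have h1 : ∀ i < 1024, cq3_6 i = true := range_step h0 hq3_6_0 (by norm_num)
  have h2 : ∀ i < 1536, cq3_6 i = true := range_step h1 hq3_6_1 (by norm_num)
  have h3 : ∀ i < 1664, cq3_6 i = true := range_step h2 hq3_6_2 (by norm_num)
  have h4 : ∀ i < 1728, cq3_6 i = true := range_step h3 hq3_6_3 (by norm_num)
  have h5 : ∀ i < 1760, cq3_6 i = true := range_step h4 hq3_6_4 (by norm_num)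
  have h6 : ∀ i < 1776, cq3_6 i = true := range_step h5 hq3_6_5 (by norm_num)
  have h7 : ∀ i < 1780, cq3_6 i = true := range_step h6 hq3_6_6 (by norm_num)
  have h8 : ∀ i < 1782, cq3_6 i = true := range_step h7 hq3_6_7 (by norm_num)
  exact h8
theorem q3_6 : (tab.perm 3 * tab.perm 6) ^ 2 = 1 :=
  dih_spec tab 3 6 2 (by decide) (by decide) rfl rfl (fun c hc => by
    obtain ⟨i, hi, rfl⟩ := hc
    exact hq3_6 i hi)
noncomputable def cq4_5 (i : ℕ) : Bool := (fun c => (fun d1 => @Bool.rec (fun _ => Bool) ((fun d2 => @Bool.rec (fun _ => Bool) ((fun d3 => @Bool.rec (fun _ => Bool) ((fun d4 => @Bool.rec (fun _ => Bool) (Nat.beq d4 c) true (Nat.blt d4 c)) (f5 (d3))) true (Nat.blt d3 c)) (f4 (d2))) true (Nat.blt d2 c)) (f5 (d1))) true (Nat.blt d1 c)) (f4 (c))) (Nat.mul 16 i)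
theorem hq4_5_0 : all2 cq4_5 10 0 = true := by decide +kernel
theorem hq4_5_1 : all2 cq4_5 9 1024 = true := by decide +kernel
theorem hq4_5_2 : all2 cq4_5 7 1536 = true := by decide +kernel
theorem hq4_5_3 : all2 cq4_5 6 1664 = true := by decide +kernel
theorem hq4_5_4 : all2 cq4_5 5 1728 = true := by decide +kernel
theorem hq4_5_5 : all2 cq4_5 4 1760 = true := by decide +kernel
theorem hq4_5_6 : all2 cq4_5 2 1776 = true := by decide +kernel
theorem hq4_5_7 : all2 cq4_5 1 1780 = true := by decide +kernel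
theorem hq4_5 : ∀ i < 1782, cq4_5 i = true := by
  have h0 : ∀ i < 0, cq4_5 i = true := fun i hi => absurd hi (Nat.not_lt_zero i)
  have h1 : ∀ i < 1024, cq4_5 i = true := range_step h0 hq4_5_0 (by norm_num)
  have h2 : ∀ i < 1536, cq4_5 i = true := range_step h1 hq4_5_1 (by norm_num)
  have h3 : ∀ i < 1664, cq4_5 i = true := range_step h2 hq4_5_2 (by norm_num)
  have h4 : ∀ i < 1728, cq4_5 i = true := range_step h3 hq4_5_3 (by norm_num)
  have h5 : ∀ i < 1760, cq4_5 i = true := range_step h4 hq4_5_4 (by norm_num)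
  have h6 : ∀ i < 1776, cq4_5 i = true := range_step h5 hq4_5_5 (by norm_num)
  have h7 : ∀ i < 1780, cq4_5 i = true := range_step h6 hq4_5_6 (by norm_num)
  have h8 : ∀ i < 1782, cq4_5 i = true := range_step h7 hq4_5_7 (by norm_num)
  exact h8
theorem q4_5 : (tab.perm 4 * tab.perm 5) ^ 2 = 1 :=
  dih_spec tab 4 5 2 (by decide) (by decide) rfl rfl (fun c hc => by
    obtain ⟨i, hi, rfl⟩ := hc
    exact hq4_5 i hi)
noncomputable def cq4_6 (i : ℕ) : Bool := (fun c => (fun d1 => @Bool.rec (fun _ => Bool) ((fun d2 => @Bool.rec (fun _ => Bool) ((fun d3 => @Bool.rec (fun _ => Bool) ((fun d4 => @Bool.rec (fun _ => Bool) (Nat.beq d4 c) true (Nat.blt d4 c)) (f6 (d3))) true (Nat.blt d3 c)) (f4 (d2))) true (Nat.blt d2 c)) (f6 (d1))) true (Nat.blt d1 c)) (f4 (c))) (Nat.mul 16 i)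
theorem hq4_6_0 : all2 cq4_6 10 0 = true := by decide +kernel
theorem hq4_6_1 : all2 cq4_6 9 1024 = true := by decide +kernel
theorem hq4_6_2 : all2 cq4_6 7 1536 = true := by decide +kernel
theorem hq4_6_3 : all2 cq4_6 6 1664 = true := by decide +kernel
theorem hq4_6_4 : all2 cq4_6 5 1728 = true := by decide +kernel
theorem hq4_6_5 : all2 cq4_6 4 1760 = true := by decide +kernel
theorem hq4_6_6 : all2 cq4_6 2 1776 = true := by decide +kernel
theorem hq4_6_7 : all2 cq4_6 1 1780 = true := by decide +kernel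
theorem hq4_6 : ∀ i < 1782, cq4_6 i = true := by
  have h0 : ∀ i < 0, cq4_6 i = true := fun i hi => absurd hi (Nat.not_lt_zero i)
  have h1 : ∀ i < 1024, cq4_6 i = true := range_step h0 hq4_6_0 (by norm_num)
  have h2 : ∀ i < 1536, cq4_6 i = true := range_step h1 hq4_6_1 (by norm_num)
  have h3 : ∀ i < 1664, cq4_6 i = true := range_step h2 hq4_6_2 (by norm_num)
  have h4 : ∀ i < 1728, cq4_6 i = true := range_step h3 hq4_6_3 (by norm_num)
  have h5 : ∀ i < 1760, cq4_6 i = true := range_step h4 hq4_6_4 (by norm_num)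
  have h6 : ∀ i < 1776, cq4_6 i = true := range_step h5 hq4_6_5 (by norm_num)
  have h7 : ∀ i < 1780, cq4_6 i = true := range_step h6 hq4_6_6 (by norm_num)
  have h8 : ∀ i < 1782, cq4_6 i = true := range_step h7 hq4_6_7 (by norm_num)
  exact h8
theorem q4_6 : (tab.perm 4 * tab.perm 6) ^ 2 = 1 :=
  dih_spec tab 4 6 2 (by decide) (by decide) rfl rfl (fun c hc => by
    obtain ⟨i, hi, rfl⟩ := hc
    exact hq4_6 i hi)
noncomputable def cq5_6 (i : ℕ) : Bool := (fun c => (fun d1 => @Bool.rec (fun _ => Bool) ((fun d2 => @Bool.rec (fun _ => Bool) ((fun d3 => @Bool.rec (fun _ => Bool) ((fun d4 => @Bool.rec (fun _ => Bool) ((fun d5 => @Bool.rec (fun _ => Bool) ((fun d6 => @Bool.rec (fun _ => Bool) ((fun d7 => @Bool.rec (fun _ => Bool) ((fun d8 => @Bool.rec (fun _ => Bool) (Nat.beq d8 c) true (Nat.blt d8 c)) (f6 (d7))) true (Nat.blt d7 c)) (f5 (d6))) true (Nat.blt d6 c)) (f6 (d5))) true (Nat.blt d5 c)) (f5 (d4))) true (Nat.blt d4 c)) (f6 (d3))) true (Nat.blt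 d3 c)) (f5 (d2))) true (Nat.blt d2 c)) (f6 (d1))) true (Nat.blt d1 c)) (f5 (c))) (Nat.mul 16 i)
theorem hq5_6_0 : all2 cq5_6 10 0 = true := by decide +kernel
theorem hq5_6_1 : all2 cq5_6 9 1024 = true := by decide +kernel
theorem hq5_6_2 : all2 cq5_6 7 1536 = true := by decide +kernel
theorem hq5_6_3 : all2 cq5_6 6 1664 = true := by decide +kernel
theorem hq5_6_4 : all2 cq5_6 5 1728 = true := by decide +kernel
theorem hq5_6_5 : all2 cq5_6 4 1760 = true := by decide +kernel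
theorem hq5_6_6 : all2 cq5_6 2 1776 = true := by decide +kernel
theorem hq5_6_7 : all2 cq5_6 1 1780 = true := by decide +kernel
theorem hq5_6 : ∀ i < 1782, cq5_6 i = true := by
  have h0 : ∀ i < 0, cq5_6 i = true := fun i hi => absurd hi (Nat.not_lt_zero i)
  have h1 : ∀ i < 1024, cq5_6 i = true := range_step h0 hq5_6_0 (by norm_num)
  have h2 : ∀ i < 1536, cq5_6 i = true := range_step h1 hq5_6_1 (by norm_num)
  have h3 : ∀ i < 1664, cq5_6 i = true := range_step h2 hq5_6_2 (by norm_num)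
  have h4 : ∀ i < 1728, cq5_6 i = true := range_step h3 hq5_6_3 (by norm_num)
  have h5 : ∀ i < 1760, cq5_6 i = true := range_step h4 hq5_6_4 (by norm_num)
  have h6 : ∀ i < 1776, cq5_6 i = true := range_step h5 hq5_6_5 (by norm_num)
  have h7 : ∀ i < 1780, cq5_6 i = true := range_step h6 hq5_6_6 (by norm_num)
  have h8 : ∀ i < 1782, cq5_6 i = true := range_step h7 hq5_6_7 (by norm_num)
  exact h8
theorem q5_6 : (tab.perm 5 * tab.perm 6) ^ 4 = 1 :=
  dih_spec tab 5 6 4 (by decide) (by decide) rfl rfl (fun c hc => by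
    obtain ⟨i, hi, rfl⟩ := hc
    exact hq5_6 i hi)
noncomputable def cv0 (i : ℕ) : Bool := (fun c => (fun d1 => @Bool.rec (fun _ => Bool) (Nat.beq d1 c) true (Nat.blt d1 c)) (f2 (f3 (f2 (f3 (f2 (f3 (f2 (f3 (f0 (c))))))))))) (Nat.mul 16 i)
theorem hv0_0 : all2 cv0 10 0 = true := by decide +kernel
theorem hv0_1 : all2 cv0 9 1024 = true := by decide +kernel
theorem hv0_2 : all2 cv0 7 1536 = true := by decide +kernel
theorem hv0_3 : all2 cv0 6 1664 = true := by decide +kernel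
theorem hv0_4 : all2 cv0 5 1728 = true := by decide +kernel
theorem hv0_5 : all2 cv0 4 1760 = true := by decide +kernel
theorem hv0_6 : all2 cv0 2 1776 = true := by decide +kernel
theorem hv0_7 : all2 cv0 1 1780 = true := by decide +kernel
theorem hv0 : ∀ i < 1782, cv0 i = true := by
  have h0 : ∀ i < 0, cv0 i = true := fun i hi => absurd hi (Nat.not_lt_zero i)
  have h1 : ∀ i < 1024, cv0 i = true := range_step h0 hv0_0 (by norm_num)
  have h2 : ∀ i < 1536, cv0 i = true := range_step h1 hv0_1 (by norm_num)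
  have h3 : ∀ i < 1664, cv0 i = true := range_step h2 hv0_2 (by norm_num)
  have h4 : ∀ i < 1728, cv0 i = true := range_step h3 hv0_3 (by norm_num)
  have h5 : ∀ i < 1760, cv0 i = true := range_step h4 hv0_4 (by norm_num)
  have h6 : ∀ i < 1776, cv0 i = true := range_step h5 hv0_5 (by norm_num)
  have h7 : ∀ i < 1780, cv0 i = true := range_step h6 hv0_6 (by norm_num)
  have h8 : ∀ i < 1782, cv0 i = true := range_step h7 hv0_7 (by norm_num)
  exact h8
theorem v0 : wd tab.perm [0, 3, 2, 3, 2, 3, 2, 3, 2] ^ 1 = 1 :=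
  pow_spec tab [0, 3, 2, 3, 2, 3, 2, 3, 2] 1 (by decide) (fun c hc => by
    obtain ⟨i, hi, rfl⟩ := hc
    exact hv0 i hi)
noncomputable def cv1 (i : ℕ) : Bool := (fun c => (fun d1 => @Bool.rec (fun _ => Bool) (Nat.beq d1 c) true (Nat.blt d1 c)) (f5 (f6 (f5 (f6 (f0 (c))))))) (Nat.mul 16 i)
theorem hv1_0 : all2 cv1 10 0 = true := by decide +kernel
theorem hv1_1 : all2 cv1 9 1024 = true := by decide +kernel
theorem hv1_2 : all2 cv1 7 1536 = true := by decide +kernel
theorem hv1_3 : all2 cv1 6 1664 = true := by decide +kernel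
theorem hv1_4 : all2 cv1 5 1728 = true := by decide +kernel
theorem hv1_5 : all2 cv1 4 1760 = true := by decide +kernel
theorem hv1_6 : all2 cv1 2 1776 = true := by decide +kernel
theorem hv1_7 : all2 cv1 1 1780 = true := by decide +kernel
theorem hv1 : ∀ i < 1782, cv1 i = true := by
  have h0 : ∀ i < 0, cv1 i = true := fun i hi => absurd hi (Nat.not_lt_zero i)
  have h1 : ∀ i < 1024, cv1 i = true := range_step h0 hv1_0 (by norm_num)
  have h2 : ∀ i < 1536, cv1 i = true := range_step h1 hv1_1 (by norm_num)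
  have h3 : ∀ i < 1664, cv1 i = true := range_step h2 hv1_2 (by norm_num)
  have h4 : ∀ i < 1728, cv1 i = true := range_step h3 hv1_3 (by norm_num)
  have h5 : ∀ i < 1760, cv1 i = true := range_step h4 hv1_4 (by norm_num)
  have h6 : ∀ i < 1776, cv1 i = true := range_step h5 hv1_5 (by norm_num)
  have h7 : ∀ i < 1780, cv1 i = true := range_step h6 hv1_6 (by norm_num)
  have h8 : ∀ i < 1782, cv1 i = true := range_step h7 hv1_7 (by norm_num)
  exact h8
theorem v1 : wd tab.perm [0, 6, 5, 6, 5] ^ 1 = 1 :=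
  pow_spec tab [0, 6, 5, 6, 5] 1 (by decide) (fun c hc => by
    obtain ⟨i, hi, rfl⟩ := hc
    exact hv1 i hi)
noncomputable def cv2 (i : ℕ) : Bool := (fun c => (fun d1 => @Bool.rec (fun _ => Bool) ((fun d2 => @Bool.rec (fun _ => Bool) ((fun d3 => @Bool.rec (fun _ => Bool) ((fun d4 => @Bool.rec (fun _ => Bool) ((fun d5 => @Bool.rec (fun _ => Bool) (Nat.beq d5 c) true (Nat.blt d5 c)) (f5 (f2 (f1 (f0 (d4)))))) true (Nat.blt d4 c)) (f5 (f2 (f1 (f0 (d3)))))) true (Nat.blt d3 c)) (f5 (f2 (f1 (f0 (d2)))))) true (Nat.blt d2 c)) (f5 (f2 (f1 (f0 (d1)))))) true (Nat.blt d1 c)) (f5 (f2 (f1 (f0 (c)))))) (Nat.mul 16 i)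
theorem hv2_0 : all2 cv2 10 0 = true := by decide +kernel
theorem hv2_1 : all2 cv2 9 1024 = true := by decide +kernel
theorem hv2_2 : all2 cv2 7 1536 = true := by decide +kernel
theorem hv2_3 : all2 cv2 6 1664 = true := by decide +kernel
theorem hv2_4 : all2 cv2 5 1728 = true := by decide +kernel
theorem hv2_5 : all2 cv2 4 1760 = true := by decide +kernel
theorem hv2_6 : all2 cv2 2 1776 = true := by decide +kernel
theorem hv2_7 : all2 cv2 1 1780 = true := by decide +kernel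
theorem hv2 : ∀ i < 1782, cv2 i = true := by
  have h0 : ∀ i < 0, cv2 i = true := fun i hi => absurd hi (Nat.not_lt_zero i)
  have h1 : ∀ i < 1024, cv2 i = true := range_step h0 hv2_0 (by norm_num)
  have h2 : ∀ i < 1536, cv2 i = true := range_step h1 hv2_1 (by norm_num)
  have h3 : ∀ i < 1664, cv2 i = true := range_step h2 hv2_2 (by norm_num)
  have h4 : ∀ i < 1728, cv2 i = true := range_step h3 hv2_3 (by norm_num)
  have h5 : ∀ i < 1760, cv2 i = true := range_step h4 hv2_4 (by norm_num)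
  have h6 : ∀ i < 1776, cv2 i = true := range_step h5 hv2_5 (by norm_num)
  have h7 : ∀ i < 1780, cv2 i = true := range_step h6 hv2_6 (by norm_num)
  have h8 : ∀ i < 1782, cv2 i = true := range_step h7 hv2_7 (by norm_num)
  exact h8
theorem v2 : wd tab.perm [0, 1, 2, 5] ^ 5 = 1 :=
  pow_spec tab [0, 1, 2, 5] 5 (by decide) (fun c hc => by
    obtain ⟨i, hi, rfl⟩ := hc
    exact hv2 i hi)
noncomputable def cv3 (i : ℕ) : Bool := (fun c => (fun d1 => @Bool.rec (fun _ => Bool) ((fun d2 => @Bool.rec (fun _ => Bool) ((fun d3 => @Bool.rec (fun _ => Bool) ((fun d4 => @Bool.rec (fun _ => Bool) ((fun d5 => @Bool.rec (fun _ => Bool) (Nat.beq d5 c) true (Nat.blt d5 c)) (f6 (f5 (f1 (d4))))) true (Nat.blt d4 c)) (f6 (f5 (f1 (d3))))) true (Nat.blt d3 c)) (f6 (f5 (f1 (d2))))) true (Nat.blt d2 c)) (f6 (f5 (f1 (d1))))) true (Nat.blt d1 c)) (f6 (f5 (f1 (c))))) (Nat.mul 16 i)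
theorem hv3_0 : all2 cv3 10 0 = true := by decide +kernel
theorem hv3_1 : all2 cv3 9 1024 = true := by decide +kernel
theorem hv3_2 : all2 cv3 7 1536 = true := by decide +kernel
theorem hv3_3 : all2 cv3 6 1664 = true := by decide +kernel
theorem hv3_4 : all2 cv3 5 1728 = true := by decide +kernel
theorem hv3_5 : all2 cv3 4 1760 = true := by decide +kernel
theorem hv3_6 : all2 cv3 2 1776 = true := by decide +kernel
theorem hv3_7 : all2 cv3 1 1780 = true := by decide +kernel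
theorem hv3 : ∀ i < 1782, cv3 i = true := by
  have h0 : ∀ i < 0, cv3 i = true := fun i hi => absurd hi (Nat.not_lt_zero i)
  have h1 : ∀ i < 1024, cv3 i = true := range_step h0 hv3_0 (by norm_num)
  have h2 : ∀ i < 1536, cv3 i = true := range_step h1 hv3_1 (by norm_num)
  have h3 : ∀ i < 1664, cv3 i = true := range_step h2 hv3_2 (by norm_num)
  have h4 : ∀ i < 1728, cv3 i = true := range_step h3 hv3_3 (by norm_num)
  have h5 : ∀ i < 1760, cv3 i = true := range_step h4 hv3_4 (by norm_num)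
  have h6 : ∀ i < 1776, cv3 i = true := range_step h5 hv3_5 (by norm_num)
  have h7 : ∀ i < 1780, cv3 i = true := range_step h6 hv3_6 (by norm_num)
  have h8 : ∀ i < 1782, cv3 i = true := range_step h7 hv3_7 (by norm_num)
  exact h8
theorem v3 : wd tab.perm [1, 5, 6] ^ 5 = 1 :=
  pow_spec tab [1, 5, 6] 5 (by decide) (fun c hc => by
    obtain ⟨i, hi, rfl⟩ := hc
    exact hv3 i hi)
noncomputable def cv4 (i : ℕ) : Bool := (fun c => (fun d1 => @Bool.rec (fun _ => Bool) ((fun d2 => @Bool.rec (fun _ => Bool) ((fun d3 => @Bool.rec (fun _ => Bool) (Nat.beq d3 c) true (Nat.blt d3 c)) (f4 (f3 (f2 (f3 (f2 (f1 (f3 (f2 (f3 (f2 (f1 (f3 (f2 (f3 (f2 (f1 (f3 (f2 (f3 (f2 (f1 (f3 (f2 (f3 (f2 (f1 (d2)))))))))))))))))))))))))))) true (Nat.blt d2 c)) (f4 (f3 (f2 (f3 (f2 (f1 (f3 (f2 (f3 (f2 (f1 (f3 (f2 (f3 (f2 (f1 (f3 (f2 (f3 (f2 (f1 (f3 (f2 (f3 (f2 (f1 (d1)))))))))))))))))))))))))))) true (Nat.blt d1 c)) (f4 (f3 (f2 (f3 (f2 (f1 (f3 (f2 (f3 (f2 (f1 (f3 (f2 (f3 (f2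 (f1 (f3 (f2 (f3 (f2 (f1 (f3 (f2 (f3 (f2 (f1 (c)))))))))))))))))))))))))))) (Nat.mul 16 i)
theorem hv4_0 : all2 cv4 10 0 = true := by decide +kernel
theorem hv4_1 : all2 cv4 9 1024 = true := by decide +kernel
theorem hv4_2 : all2 cv4 7 1536 = true := by decide +kernel
theorem hv4_3 : all2 cv4 6 1664 = true := by decide +kernel
theorem hv4_4 : all2 cv4 5 1728 = true := by decide +kernel
theorem hv4_5 : all2 cv4 4 1760 = true := by decide +kernel
theorem hv4_6 : all2 cv4 2 1776 = true := by decide +kernel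
theorem hv4_7 : all2 cv4 1 1780 = true := by decide +kernel
theorem hv4 : ∀ i < 1782, cv4 i = true := by
  have h0 : ∀ i < 0, cv4 i = true := fun i hi => absurd hi (Nat.not_lt_zero i)
  have h1 : ∀ i < 1024, cv4 i = true := range_step h0 hv4_0 (by norm_num)
  have h2 : ∀ i < 1536, cv4 i = true := range_step h1 hv4_1 (by norm_num)
  have h3 : ∀ i < 1664, cv4 i = true := range_step h2 hv4_2 (by norm_num)
  have h4 : ∀ i < 1728, cv4 i = true := range_step h3 hv4_3 (by norm_num)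
  have h5 : ∀ i < 1760, cv4 i = true := range_step h4 hv4_4 (by norm_num)
  have h6 : ∀ i < 1776, cv4 i = true := range_step h5 hv4_5 (by norm_num)
  have h7 : ∀ i < 1780, cv4 i = true := range_step h6 hv4_6 (by norm_num)
  have h8 : ∀ i < 1782, cv4 i = true := range_step h7 hv4_7 (by norm_num)
  exact h8
theorem v4 : wd tab.perm [1, 2, 3, 2, 3, 1, 2, 3, 2, 3, 1, 2, 3, 2, 3, 1, 2, 3, 2, 3, 1, 2, 3, 2, 3, 4] ^ 3 = 1 :=
  pow_spec tab [1, 2, 3, 2, 3, 1, 2, 3, 2, 3, 1, 2, 3, 2, 3, 1, 2, 3, 2, 3, 1, 2, 3, 2, 3, 4] 3 (by decide) (fun c hc => by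
    obtain ⟨i, hi, rfl⟩ := hc
    exact hv4 i hi)
end Cfsg.Agent.H5TC.Suz1782
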