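import Cfsg.Agent.Lib.H5TC5

set_option autoImplicit false
set_option maxRecDepth 1000000
set_option maxHeartbeats 0
set_option Elab.async false

namespace Cfsg.Agent.H5TC.SuzCol

open Cfsg.Agent.H5TC

abbrev k : ℕ := 7
def inv : ℕ → ℕ
  | 0 => 0
  | 1 => 1
  | 2 => 2
  | 3 => 3
  | 4 => 4
  | 5 => 5
  | 6 => 6
  | y => y
theorem inv_lt : ∀ y < k, inv y < k := by decide
/-- relators -/
def rels : List (List ℕ) := [[0, 1, 0, 1, 0, 1, 0, 1, 0, 1], [0, 2, 0, 2], [0, 3, 0, 3], [0, 4, 0, 4], [0, 5, 0, 5], [0, 6, 0, 6], [1, 2, 1, 2, 1, 2], [1, 3, 1, 3], [1, 4, 1, 4], [1, 5, 1, 5, 1, 5], [1, 6, 1, 6, 1, 6], [2, 3, 2, 3, 2, 3, 2, 3, 2, 3, 2, 3, 2, 3, 2, 3], [2, 4, 2, 4], [2, 5, 2, 5], [2, 6, 2, 6], [3, 4, 3, 4, 3, 4], [3, 5, 3, 5], [3, 6, 3, 6], [4, 5, 4, 5], [4, 6, 4, 6], [5, 6, 5, 6, 5, 6, 5, 6], [0, 3, 2, 3, 2, 3, 2, 3, 2], [0, 6, 5, 6, 5], [0, 1, 2, 5, 0, 1, 2, 5, 0, 1, 2, 5, 0, 1, 2, 5, 0, 1, 2, 5], [1, 5, 6, 1, 5, 6, 1, 5, 6, 1, 5, 6, 1, 5, 6], [1, 2, 3, 2, 3, 1, 2, 3, 2,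 3, 1, 2, 3, 2, 3, 1, 2, 3, 2, 3, 1, 2, 3, 2, 3, 4, 1, 2, 3, 2, 3, 1, 2, 3, 2, 3, 1, 2, 3, 2, 3, 1, 2, 3, 2, 3, 1, 2, 3, 2, 3, 4, 1, 2, 3, 2, 3, 1, 2, 3, 2, 3, 1, 2, 3, 2, 3, 1, 2, 3, 2, 3, 1, 2, 3, 2, 3, 4], [1, 5, 3, 4, 6, 2]]
/-- trivial relators -/
def relsT : List (List ℕ) := [[0, 0], [1, 1], [2, 2], [3, 3], [4, 4], [5, 5], [6, 6]]
/-- subgroup words -/
def subw : List (List ℕ) := []
/-- further subgroup words -/
def seeds : List (List ℕ) := [[0], [1], [2], [3], [4], [5], [6]]
noncomputable def u0 : ℕ := 0x1c100000181006101a100000151016100d100e100f10101011101210131014100000000009100a1000000510191007100310041002100010011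
noncomputable def uf0 (c : ℕ) : ℕ := Nat.land (Nat.shiftRight u0 c) 65535
noncomputable def u1 : ℕ := 0xf100000000008100000000000000c100000051006100000031000100000021
noncomputable def uf1 (c : ℕ) : ℕ := Nat.land (Nat.shiftRight u1 c) 65535
noncomputable def u2 : ℕ := 0x6100000000000001210131000000d100e100f10101000000a100b10081009100000171017100110001000000410031
noncomputable def uf2 (c : ℕ) : ℕ := Nat.land (Nat.shiftRight u2 c) 65535
noncomputable def u3 : ℕ := 0x1a100e101c1000001c1000000d1014101510000000000000000000001b101610000000000000031000000110021000100000091006100710051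
noncomputable def uf3 (c : ℕ) : ℕ := Nat.land (Nat.shiftRight u3 c) 65535
noncomputable def u4 : ℕ := 0x1a101b1000001b10000000001b1013101410111012100f1010100d100e10021001100410031000100000000000100a1009100c100b10081
noncomputable def uf4 (c : ℕ) : ℕ := Nat.land (Nat.shiftRight u4 c) 65535
noncomputable def u5 : ℕ := 0x210000019101a10061000000510071001100b100a10041003100910081000100000131012100f100e10151018101610111010101c1014100d1
noncomputable def uf5 (c : ℕ) : ℕ := Nat.land (Nat.shiftRight u5 c) 65535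
noncomputable def u6 : ℕ := 0x310091012100a100e1000000910000000001910000000000610171003100000000018101a10000000000f100f1000001b1000000000001
noncomputable def uf6 (c : ℕ) : ℕ := Nat.land (Nat.shiftRight u6 c) 65535
noncomputable def u7 : ℕ := 0xd100d10181006101510091015100e100d1000000f1000000010051000000310081000000910000005100510051000100310001000100010000
noncomputable def uf7 (c : ℕ) : ℕ := Nat.land (Nat.shiftRight u7 c) 65535
noncomputable def GT : ℕ → ℕ → ℕ
  | 0 => uf0
  | 1 => uf1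
  | 2 => uf2
  | 3 => uf3
  | 4 => uf4
  | 5 => uf5
  | 6 => uf6
  | 7 => uf7
  | _ => uf0
noncomputable def ur0 : ℕ := 0x88000000660062006700000051005000480042003c00370036003d0043004900000000001c001d000000120063001300080009008a00010000
noncomputable def urf0 (c : ℕ) : ℕ := Nat.land (Nat.shiftRight ur0 c) 65535
noncomputable def ur1 : ℕ := 0xae00000000002400000000000000250000000e000f000000ba000300000002
noncomputable def urf1 (c : ℕ) : ℕ := Nat.land (Nat.shiftRight ur1 c) 65535
noncomputable def ur2 : ℕ := 0x580000000000000041004000000032002e002f00330000001f001e0018001900000059009a00070005000000060004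
noncomputable def urf2 (c : ℕ) : ℕ := Nat.land (Nat.shiftRight ur2 c) 65535
noncomputable def ur3 : ℕ := 0x6f009e006e0000008400000052004d004c00000000000000000000009f005300000000000000ac00000011000d000b000000ad000c0010000a
noncomputable def urf3 (c : ℕ) : ℕ := Nat.land (Nat.shiftRight ur3 c) 65535
noncomputable def ur4 : ℕ := 0x6b006a0000008600000000009600470046003b003a00310030002a002b00230020001b001700150000000000aa001a0016002200210014
noncomputable def urf4 (c : ℕ) : ℕ := Nat.land (Nat.shiftRight ur4 c) 65535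
noncomputable def ur5 : ℕ := 0x70000000650064005e00000054004e004a0044003e00380034002d0029002700000045003f002c0028004f005f0055003900350071004b0026
noncomputable def urf5 (c : ℕ) : ℕ := Nat.land (Nat.shiftRight ur5 c) 65535
noncomputable def ur6 : ℕ := 0x6c00680061005d00570000009800000000006000000000005a005600a400000000005c006900000000005b009c0000006d0000000000b8
noncomputable def urf6 (c : ℕ) : ℕ := Nat.land (Nat.shiftRight ur6 c) 65535
noncomputable def ur7 : ℕ := 0x9200a000740072009400a8008200a2008000000076000000b200b0000000b4009000000078000000a6007e008e00b6007a00bc008c007c0000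
noncomputable def urf7 (c : ℕ) : ℕ := Nat.land (Nat.shiftRight ur7 c) 65535
noncomputable def GR : ℕ → ℕ → ℕ
  | 0 => urf0
  | 1 => urf1
  | 2 => urf2
  | 3 => urf3
  | 4 => urf4
  | 5 => urf5
  | 6 => urf6
  | 7 => urf7
  | _ => urf0
noncomputable def uj0 : ℕ := 0xa0000001b001a00010000000100000004000900040001000000010001000100000000000400010000000a0001000100090001002200010000
noncomputable def ujf0 (c : ℕ) : ℕ := Nat.land (Nat.shiftRight uj0 c) 65535
noncomputable def uj1 : ℕ := 0x2a00000000001100000000000000010000000f00010000002d000100000000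
noncomputable def ujf1 (c : ℕ) : ℕ := Nat.land (Nat.shiftRight uj1 c) 65535
noncomputable def uj2 : ℕ := 0x17000000000000000100000000000b001300010001000000010000000b000100000001002400010001000000000000
noncomputable def ujf2 (c : ℕ) : ℕ := Nat.land (Nat.shiftRight uj2 c) 65535
noncomputable def uj3 : ℕ := 0x10025000000000021000000160001000000000000000000000000000100010000000000000029000000010001000100000001000000000000
noncomputable def ujf3 (c : ℕ) : ℕ := Nat.land (Nat.shiftRight uj3 c) 65535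
noncomputable def uj4 : ℕ := 0x1000000000008000000000008000100000001000000010000001200010001001000010001000100000000000800000000000000010000
noncomputable def ujf4 (c : ℕ) : ℕ := Nat.land (Nat.shiftRight uj4 c) 65535
noncomputable def uj5 : ℕ := 0x1e00000001000000190000000c0015000500140005000c00050001000100010000000100010000000000010001000100010001000100010000
noncomputable def ujf5 (c : ℕ) : ℕ := Nat.land (Nat.shiftRight uj5 c) 65535
noncomputable def uj6 : ℕ := 0x1d001c00010001000100000003000000000000000000000018000000030000000000000001000000000001000300000001000000000003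
noncomputable def ujf6 (c : ℕ) : ℕ := Nat.land (Nat.shiftRight uj6 c) 65535
noncomputable def uj7 : ℕ := 0x200260002001f00070028000e000e00020000002000000006002b0000000d0006000000020000002700070007002c0006002e0023000d0000
noncomputable def ujf7 (c : ℕ) : ℕ := Nat.land (Nat.shiftRight uj7 c) 65535
noncomputable def GJ : ℕ → ℕ → ℕ
  | 0 => ujf0
  | 1 => ujf1
  | 2 => ujf2
  | 3 => ujf3
  | 4 => ujf4
  | 5 => ujf5
  | 6 => ujf6
  | 7 => ujf7
  | _ => ujf0
noncomputable def us0 : ℕ := 0x180000001900120000000000000000001300120011000000000000000000000000000000040000000000010000000000010000001c000000000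
noncomputable def usf0 (c : ℕ) : ℕ := Nat.land (Nat.shiftRight us0 c) 65535
noncomputable def us1 : ℕ := 0xe0000000000020000000000000000000000020000000000000000000000000
noncomputable def usf1 (c : ℕ) : ℕ := Nat.land (Nat.shiftRight us1 c) 65535
noncomputable def us2 : ℕ := 0xe000000000000000000000000000f00090000000000000000000000030000000000000006000000000000000000000
noncomputable def usf2 (c : ℕ) : ℕ := Nat.land (Nat.shiftRight us2 c) 65535
noncomputable def us3 : ℕ := 0x1500000000001a00000015000000000000000000000000000000000000000000000000000e0000000000000000000000000000000000000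
noncomputable def usf3 (c : ℕ) : ℕ := Nat.land (Nat.shiftRight us3 c) 65535
noncomputable def us4 : ℕ := 0x1a000000000018000000000000000000000000000800000000000a000000000000000000000008000000000000000000000
noncomputable def usf4 (c : ℕ) : ℕ := Nat.land (Nat.shiftRight us4 c) 65535
noncomputable def us5 : ℕ := 0x1a000000000000000a0000001500140013001200110010000f00000000000000000000000000000000000000000000000000000000000000000
noncomputable def usf5 (c : ℕ) : ℕ := Nat.land (Nat.shiftRight us5 c) 65535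
noncomputable def us6 : ℕ := 0x1a0019000000000000000000180000000000000000000000170000001b00000000000000000000000000000006000000000000000000050
noncomputable def usf6 (c : ℕ) : ℕ := Nat.land (Nat.shiftRight us6 c) 65535
noncomputable def us7 : ℕ := 0x2001b0019001c001c00150014001b0001000000190000000f00050000001000020000001200000015000100020005000a00000002000400000
noncomputable def usf7 (c : ℕ) : ℕ := Nat.land (Nat.shiftRight us7 c) 65535
noncomputable def GS : ℕ → ℕ → ℕ
  | 0 => usf0
  | 1 => usf1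
  | 2 => usf2
  | 3 => usf3
  | 4 => usf4
  | 5 => usf5
  | 6 => usf6
  | 7 => usf7
  | _ => usf0
noncomputable def gtpv : ℕ := 0x1a001a00190012000a000e001500140013001200110010000f0009000800000002000a000400030000000100020000000100000000000000000
noncomputable def GPV (c : ℕ) : ℕ := Nat.land (Nat.shiftRight gtpv c) 65535
noncomputable def gtpx : ℕ := 0x30004000500060006000600000003000400020004000000040005000500050004000200040004000400030003000300020002000100000000
noncomputable def GPX (c : ℕ) : ℕ := Nat.land (Nat.shiftRight gtpx c) 65535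
/-- kinds of deductions -/
def kinds : List (GK × ℕ × ℕ × Bool) := [
  (⟨false, 7, 0, 5, [5], [5]⟩, 32, 0, false),
  (⟨false, 6, 5, 0, [], [6]⟩, 33, 0, false),
  (⟨false, 0, 5, 5, [4], [0, 4]⟩, 3, 1, false),
  (⟨false, 5, 5, 5, [4], [5, 4]⟩, 18, 0, false),
  (⟨false, 7, 0, 5, [4], [4]⟩, 31, 0, false),
  (⟨false, 7, 0, 5, [3], [3]⟩, 30, 0, false),
  (⟨false, 4, 5, 0, [], [4]⟩, 31, 0, false),
  (⟨false, 0, 5, 5, [2], [0, 2]⟩, 1, 1, false),
  (⟨false, 0, 5, 5, [3], [0, 3]⟩, 2, 1, false),
  (⟨false, 2, 5, 5, [4], [2, 4]⟩, 12, 1, false),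
  (⟨false, 5, 5, 5, [0], [5, 0]⟩, 4, 0, false),
  (⟨false, 7, 0, 5, [2], [2]⟩, 29, 0, false),
  (⟨false, 7, 5, 0, [3], [3]⟩, 30, 0, false),
  (⟨false, 1, 5, 5, [3], [1, 3]⟩, 7, 1, false),
  (⟨false, 4, 5, 5, [2], [4, 2]⟩, 12, 0, false),
  (⟨false, 1, 5, 5, [4], [1, 4]⟩, 8, 1, false),
  (⟨false, 4, 5, 5, [5], [4, 5]⟩, 18, 1, false),
  (⟨false, 2, 5, 5, [5], [2, 5]⟩, 13, 1, false),
  (⟨false, 5, 5, 5, [2], [5, 2]⟩, 13, 0, false),
  (⟨false, 5, 5, 5, [3], [5, 3]⟩, 16, 0, false),
  (⟨false, 3, 5, 5, [0], [3, 0]⟩, 2, 0, false),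
  (⟨false, 2, 5, 5, [6], [4, 3, 5, 1]⟩, 26, 4, false),
  (⟨false, 6, 5, 5, [6, 2], [2]⟩, 14, 1, false),
  (⟨false, 5, 5, 5, [6], [5, 0, 6]⟩, 22, 1, true),
  (⟨false, 0, 5, 5, [6], [0, 6]⟩, 5, 1, false),
  (⟨false, 0, 5, 5, [5], [0, 5]⟩, 4, 1, false),
  (⟨false, 6, 5, 5, [5], [6, 5, 0]⟩, 22, 2, true),
  (⟨false, 6, 5, 5, [4], [6, 4]⟩, 19, 0, false),
  (⟨false, 5, 5, 5, [3], [4, 6, 2, 1]⟩, 26, 3, true),
  (⟨false, 7, 5, 5, [3, 5], [5, 3]⟩, 16, 0, false),
  (⟨false, 7, 0, 5, [6], [6]⟩, 33, 0, false),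
  (⟨false, 3, 5, 0, [], [3]⟩, 30, 0, false),
  (⟨false, 0, 5, 5, [0, 5], [5]⟩, 4, 0, false),
  (⟨false, 7, 5, 5, [], [0, 1, 0, 1, 0, 1, 0, 1, 0, 1]⟩, 0, 1, false),
  (⟨false, 2, 5, 0, [], [2]⟩, 29, 0, false),
  (⟨false, 3, 5, 5, [4], [6, 2, 1, 5]⟩, 26, 2, true),
  (⟨false, 7, 5, 5, [], [4, 3, 4, 3, 4, 3]⟩, 15, 0, false),
  (⟨false, 7, 5, 0, [5], [5]⟩, 32, 0, false),
  (⟨false, 7, 5, 0, [6], [6]⟩, 33, 0, false),
  (⟨false, 3, 5, 5, [6], [3, 6]⟩, 17, 1, false),
  (⟨false, 1, 5, 5, [6, 4, 3, 5], [2]⟩, 26, 1, true),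
  (⟨false, 7, 5, 5, [2, 5, 0, 1, 2, 5, 0, 1, 2, 5, 0, 1, 2, 5, 0, 1, 2, 5, 0, 1], []⟩, 23, 2, false),
  (⟨false, 7, 5, 5, [], [2, 3, 2, 1, 3, 2, 3, 2, 1, 3, 2, 3, 2, 1, 3, 2, 3, 2, 1, 3, 2, 3, 2, 1, 4, 3, 2, 3, 2, 1, 3, 2, 3, 2, 1, 3, 2, 3, 2, 1, 3, 2, 3, 2, 1, 3, 2, 3, 2, 1, 4, 3, 2, 3, 2, 1, 3, 2, 3, 2, 1, 3, 2, 3, 2, 1, 3, 2, 3, 2, 1, 3, 2, 3, 2, 1, 4, 3]⟩, 25, 24, false),
  (⟨false, 1, 5, 5, [6, 2], [4, 3, 5]⟩, 26, 4, false),
  (⟨false, 7, 5, 5, [6, 1, 5, 6, 1, 5, 6, 1, 5, 6, 1, 5, 6, 1, 5], []⟩, 24, 2, false)]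
theorem kinds_ok : kindsOK inv k (rels ++ relsT) subw kinds = true := by decide +kernel
theorem kinds_lt : ltOK k (kinds.map (fun x => x.1.a)) = true ∧ ltOK k (kinds.map (fun x => x.1.b)) = true := by decide +kernel
theorem kinds_le : ∀ x ∈ kinds, x.1.y ≤ k := by decide +kernel
noncomputable def cG0 (i : ℕ) : Bool := chkG GT GR GPV GPX GJ GS inv k 5 16 464 kinds 0 (Nat.mul 16 i)
theorem hG0_0 : all2 cG0 4 0 = true := by decide +kernel
theorem hG0_1 : all2 cG0 3 16 = true := by decide +kernel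
theorem hG0_2 : all2 cG0 2 24 = true := by decide +kernel
theorem hG0_3 : all2 cG0 0 28 = true := by decide +kernel
theorem hG0 : ∀ i < 29, cG0 i = true := by
  have h0 : ∀ i < 0, cG0 i = true := fun i hi => absurd hi (Nat.not_lt_zero i)
  have h1 : ∀ i < 16, cG0 i = true := range_step h0 hG0_0 (by norm_num)
  have h2 : ∀ i < 24, cG0 i = true := range_step h1 hG0_1 (by norm_num)
  have h3 : ∀ i < 28, cG0 i = true := range_step h2 hG0_2 (by norm_num)
  have h4 : ∀ i < 29, cG0 i = true := range_step h3 hG0_3 (by norm_num)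
  exact h4
noncomputable def cG1 (i : ℕ) : Bool := chkG GT GR GPV GPX GJ GS inv k 5 16 464 kinds 1 (Nat.mul 16 i)
theorem hG1_0 : all2 cG1 4 0 = true := by decide +kernel
theorem hG1_1 : all2 cG1 3 16 = true := by decide +kernel
theorem hG1_2 : all2 cG1 2 24 = true := by decide +kernel
theorem hG1_3 : all2 cG1 0 28 = true := by decide +kernel
theorem hG1 : ∀ i < 29, cG1 i = true := by
  have h0 : ∀ i < 0, cG1 i = true := fun i hi => absurd hi (Nat.not_lt_zero i)
  have h1 : ∀ i < 16, cG1 i = true := range_step h0 hG1_0 (by norm_num)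
  have h2 : ∀ i < 24, cG1 i = true := range_step h1 hG1_1 (by norm_num)
  have h3 : ∀ i < 28, cG1 i = true := range_step h2 hG1_2 (by norm_num)
  have h4 : ∀ i < 29, cG1 i = true := range_step h3 hG1_3 (by norm_num)
  exact h4
noncomputable def cG2 (i : ℕ) : Bool := chkG GT GR GPV GPX GJ GS inv k 5 16 464 kinds 2 (Nat.mul 16 i)
theorem hG2_0 : all2 cG2 4 0 = true := by decide +kernel
theorem hG2_1 : all2 cG2 3 16 = true := by decide +kernel
theorem hG2_2 : all2 cG2 2 24 = true := by decide +kernel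
theorem hG2_3 : all2 cG2 0 28 = true := by decide +kernel
theorem hG2 : ∀ i < 29, cG2 i = true := by
  have h0 : ∀ i < 0, cG2 i = true := fun i hi => absurd hi (Nat.not_lt_zero i)
  have h1 : ∀ i < 16, cG2 i = true := range_step h0 hG2_0 (by norm_num)
  have h2 : ∀ i < 24, cG2 i = true := range_step h1 hG2_1 (by norm_num)
  have h3 : ∀ i < 28, cG2 i = true := range_step h2 hG2_2 (by norm_num)
  have h4 : ∀ i < 29, cG2 i = true := range_step h3 hG2_3 (by norm_num)
  exact h4
noncomputable def cG3 (i : ℕ) : Bool := chkG GT GR GPV GPX GJ GS inv k 5 16 464 kinds 3 (Nat.mul 16 i)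
theorem hG3_0 : all2 cG3 4 0 = true := by decide +kernel
theorem hG3_1 : all2 cG3 3 16 = true := by decide +kernel
theorem hG3_2 : all2 cG3 2 24 = true := by decide +kernel
theorem hG3_3 : all2 cG3 0 28 = true := by decide +kernel
theorem hG3 : ∀ i < 29, cG3 i = true := by
  have h0 : ∀ i < 0, cG3 i = true := fun i hi => absurd hi (Nat.not_lt_zero i)
  have h1 : ∀ i < 16, cG3 i = true := range_step h0 hG3_0 (by norm_num)
  have h2 : ∀ i < 24, cG3 i = true := range_step h1 hG3_1 (by norm_num)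
  have h3 : ∀ i < 28, cG3 i = true := range_step h2 hG3_2 (by norm_num)
  have h4 : ∀ i < 29, cG3 i = true := range_step h3 hG3_3 (by norm_num)
  exact h4
noncomputable def cG4 (i : ℕ) : Bool := chkG GT GR GPV GPX GJ GS inv k 5 16 464 kinds 4 (Nat.mul 16 i)
theorem hG4_0 : all2 cG4 4 0 = true := by decide +kernel
theorem hG4_1 : all2 cG4 3 16 = true := by decide +kernel
theorem hG4_2 : all2 cG4 2 24 = true := by decide +kernel
theorem hG4_3 : all2 cG4 0 28 = true := by decide +kernel
theorem hG4 : ∀ i < 29, cG4 i = true := by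
  have h0 : ∀ i < 0, cG4 i = true := fun i hi => absurd hi (Nat.not_lt_zero i)
  have h1 : ∀ i < 16, cG4 i = true := range_step h0 hG4_0 (by norm_num)
  have h2 : ∀ i < 24, cG4 i = true := range_step h1 hG4_1 (by norm_num)
  have h3 : ∀ i < 28, cG4 i = true := range_step h2 hG4_2 (by norm_num)
  have h4 : ∀ i < 29, cG4 i = true := range_step h3 hG4_3 (by norm_num)
  exact h4
noncomputable def cG5 (i : ℕ) : Bool := chkG GT GR GPV GPX GJ GS inv k 5 16 464 kinds 5 (Nat.mul 16 i)
theorem hG5_0 : all2 cG5 4 0 = true := by decide +kernel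
theorem hG5_1 : all2 cG5 3 16 = true := by decide +kernel
theorem hG5_2 : all2 cG5 2 24 = true := by decide +kernel
theorem hG5_3 : all2 cG5 0 28 = true := by decide +kernel
theorem hG5 : ∀ i < 29, cG5 i = true := by
  have h0 : ∀ i < 0, cG5 i = true := fun i hi => absurd hi (Nat.not_lt_zero i)
  have h1 : ∀ i < 16, cG5 i = true := range_step h0 hG5_0 (by norm_num)
  have h2 : ∀ i < 24, cG5 i = true := range_step h1 hG5_1 (by norm_num)
  have h3 : ∀ i < 28, cG5 i = true := range_step h2 hG5_2 (by norm_num)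
  have h4 : ∀ i < 29, cG5 i = true := range_step h3 hG5_3 (by norm_num)
  exact h4
noncomputable def cG6 (i : ℕ) : Bool := chkG GT GR GPV GPX GJ GS inv k 5 16 464 kinds 6 (Nat.mul 16 i)
theorem hG6_0 : all2 cG6 4 0 = true := by decide +kernel
theorem hG6_1 : all2 cG6 3 16 = true := by decide +kernel
theorem hG6_2 : all2 cG6 2 24 = true := by decide +kernel
theorem hG6_3 : all2 cG6 0 28 = true := by decide +kernel
theorem hG6 : ∀ i < 29, cG6 i = true := by
  have h0 : ∀ i < 0, cG6 i = true := fun i hi => absurd hi (Nat.not_lt_zero i)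
  have h1 : ∀ i < 16, cG6 i = true := range_step h0 hG6_0 (by norm_num)
  have h2 : ∀ i < 24, cG6 i = true := range_step h1 hG6_1 (by norm_num)
  have h3 : ∀ i < 28, cG6 i = true := range_step h2 hG6_2 (by norm_num)
  have h4 : ∀ i < 29, cG6 i = true := range_step h3 hG6_3 (by norm_num)
  exact h4
noncomputable def cG7 (i : ℕ) : Bool := chkG GT GR GPV GPX GJ GS inv k 5 16 464 kinds 7 (Nat.mul 16 i)
theorem hG7_0 : all2 cG7 4 0 = true := by decide +kernel
theorem hG7_1 : all2 cG7 3 16 = true := by decide +kernel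
theorem hG7_2 : all2 cG7 2 24 = true := by decide +kernel
theorem hG7_3 : all2 cG7 0 28 = true := by decide +kernel
theorem hG7 : ∀ i < 29, cG7 i = true := by
  have h0 : ∀ i < 0, cG7 i = true := fun i hi => absurd hi (Nat.not_lt_zero i)
  have h1 : ∀ i < 16, cG7 i = true := range_step h0 hG7_0 (by norm_num)
  have h2 : ∀ i < 24, cG7 i = true := range_step h1 hG7_1 (by norm_num)
  have h3 : ∀ i < 28, cG7 i = true := range_step h2 hG7_2 (by norm_num)
  have h4 : ∀ i < 29, cG7 i = true := range_step h3 hG7_3 (by norm_num)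
  exact h4
theorem relsX_lt : ltOK k (rels ++ relsT) = true := by decide +kernel
theorem subw_lt : ltOK k subw = true := by decide +kernel
theorem seeds_lt : ltOK k seeds = true := by decide +kernel
noncomputable def seedOK : List (List ℕ) → Bool := fun l => List.rec true (fun w _ ih => band (pfOK GT GR k 131072 0 5 w 0) ih) l
theorem seeds_ok : seedOK seeds = true := by decide +kernel
theorem GR_lt : ∀ y ≤ k, ∀ c, GR y c < 131072 := by
  intro y hy c
  have hy' : y ≤ 7 := hy
  interval_cases y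
  · exact lt_of_le_of_lt (Nat.and_le_right (n := Nat.shiftRight ur0 c) (m := 65535)) (by norm_num)
  · exact lt_of_le_of_lt (Nat.and_le_right (n := Nat.shiftRight ur1 c) (m := 65535)) (by norm_num)
  · exact lt_of_le_of_lt (Nat.and_le_right (n := Nat.shiftRight ur2 c) (m := 65535)) (by norm_num)
  · exact lt_of_le_of_lt (Nat.and_le_right (n := Nat.shiftRight ur3 c) (m := 65535)) (by norm_num)
  · exact lt_of_le_of_lt (Nat.and_le_right (n := Nat.shiftRight ur4 c) (m := 65535)) (by norm_num)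
  · exact lt_of_le_of_lt (Nat.and_le_right (n := Nat.shiftRight ur5 c) (m := 65535)) (by norm_num)
  · exact lt_of_le_of_lt (Nat.and_le_right (n := Nat.shiftRight ur6 c) (m := 65535)) (by norm_num)
  · exact lt_of_le_of_lt (Nat.and_le_right (n := Nat.shiftRight ur7 c) (m := 65535)) (by norm_num)
theorem lemma_thm {Γ X : Type*} [Group Γ] [MulAction Γ X] (γ : ℕ → Γ) (x0 : X)
    (hinv : ∀ y < k, γ (inv y) = (γ y)⁻¹) (hr : ∀ r ∈ rels, wd γ r = 1)
    (hb : ∀ b ∈ subw, (wd γ b)⁻¹ • x0 = x0) :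
    ∀ b ∈ seeds, (wd γ b)⁻¹ • x0 = x0 := by
  have hr' : ∀ r ∈ rels ++ relsT, wd γ r = 1 := by
    intro r h
    rcases List.mem_append.1 h with h | h
    · exact hr r h
    · simp only [relsT, List.mem_cons, List.not_mem_nil, or_false] at h
      rcases h with rfl | rfl | rfl | rfl | rfl | rfl | rfl
      · have := hinv 0 (by decide); simp only [wd_cons, wd_nil, mul_one]; exact mul_eq_one_iff_inv_eq.2 (show γ 0 = (γ 0)⁻¹ from this).symm
      · have := hinv 1 (by decide); simp only [wd_cons, wd_nil, mul_one]; exact mul_eq_one_iff_inv_eq.2 (show γ 1 = (γ 1)⁻¹ from this).symm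
      · have := hinv 2 (by decide); simp only [wd_cons, wd_nil, mul_one]; exact mul_eq_one_iff_inv_eq.2 (show γ 2 = (γ 2)⁻¹ from this).symm
      · have := hinv 3 (by decide); simp only [wd_cons, wd_nil, mul_one]; exact mul_eq_one_iff_inv_eq.2 (show γ 3 = (γ 3)⁻¹ from this).symm
      · have := hinv 4 (by decide); simp only [wd_cons, wd_nil, mul_one]; exact mul_eq_one_iff_inv_eq.2 (show γ 4 = (γ 4)⁻¹ from this).symm
      · have := hinv 5 (by decide); simp only [wd_cons, wd_nil, mul_one]; exact mul_eq_one_iff_inv_eq.2 (show γ 5 = (γ 5)⁻¹ from this).symm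
      · have := hinv 6 (by decide); simp only [wd_cons, wd_nil, mul_one]; exact mul_eq_one_iff_inv_eq.2 (show γ 6 = (γ 6)⁻¹ from this).symm
  have hchk : ∀ y ≤ k, ∀ i < 29, chkG GT GR GPV GPX GJ GS inv k 5 16 (16 * 29) kinds y (16 * i) = true := by
    intro y hy i hi
    have hy' : y ≤ 7 := hy
    interval_cases y
    · exact hG0 i hi
    · exact hG1 i hi
    · exact hG2 i hi
    · exact hG3 i hi
    · exact hG4 i hi
    · exact hG5 i hi
    · exact hG6 i hi
    · exact hG7 i hi
  have key : ∀ w : List ℕ, (∀ y ∈ w, y < k) → pfOK GT GR k 131072 0 5 w 0 = true →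
      (wd γ w)⁻¹ • x0 = x0 := fun w hwk hw =>
    gs_thm γ x0 (by norm_num) hinv inv_lt hr' (ltOK_spec _ relsX_lt) hb (ltOK_spec _ subw_lt)
      kinds_ok kinds_lt.1 kinds_lt.2 kinds_le hchk w hwk _ hw GR_lt
  have h := seeds_ok
  have hlt := ltOK_spec _ seeds_lt
  generalize seeds = l at h hlt
  induction l with
  | nil => intro b hb'; exact absurd hb' (by simp)
  | cons a l ih =>
    have h' : band (pfOK GT GR k 131072 0 5 a 0) (seedOK l) = true := h
    rw [band_true] at h'
    intro b hb'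
    rcases List.mem_cons.1 hb' with rfl | hb'
    · exact key b (hlt b List.mem_cons_self) h'.1
    · exact ih h'.2 (fun w hw => hlt w (List.mem_cons_of_mem _ hw)) b hb'
end Cfsg.Agent.H5TC.SuzCol
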