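import Cfsg.Agent.Lib.H5TC8
import Cfsg.Agent.Lib.H5TCSuzG
import Cfsg.Agent.Lib.H5TCSuz1782M
import Cfsg.Agent.Lib.H5TCSuz416M
import Cfsg.Agent.Lib.H5TCSuz280M
import Cfsg.Agent.Lib.H5TCSuz135M
import Cfsg.Agent.Lib.H5TCSuz16M

set_option autoImplicit false
set_option maxRecDepth 100000

namespace Cfsg.Agent.H5TC.SuzUp

open Cfsg.Agent.H5TC

def ι0 : ℕ → ℕ
  | 0 => 0
  | 1 => 1
  | 2 => 2
  | 3 => 3
  | 4 => 4
  | 5 => 5
  | 6 => 6
  | _ => 0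
theorem step0 : (Kof SuzG.γ [0, 1, 2, 3, 4, 5]).relIndex (Kof SuzG.γ [0, 1, 2, 3, 4, 5, 6]) ≤ 1782 ∧
    (Kof SuzG.γ [0, 1, 2, 3, 4, 5]).relIndex (Kof SuzG.γ [0, 1, 2, 3, 4, 5, 6]) ≠ 0 := by
  have hinv : ∀ y < Suz1782.k, SuzG.γ (ι0 (Suz1782.inv y)) = (SuzG.γ (ι0 y))⁻¹ := by
    intro y hy
    have hy' : y < 7 := hy
    interval_cases y
    · exact (SuzG.γ_inv 0 (by norm_num)).symm
    · exact (SuzG.γ_inv 1 (by norm_num)).symm
    · exact (SuzG.γ_inv 2 (by norm_num)).symm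
    · exact (SuzG.γ_inv 3 (by norm_num)).symm
    · exact (SuzG.γ_inv 4 (by norm_num)).symm
    · exact (SuzG.γ_inv 5 (by norm_num)).symm
    · exact (SuzG.γ_inv 6 (by norm_num)).symm
  refine enum_step SuzG.γ ι0 (k := Suz1782.k) (n := Suz1782.n) (E := Suz1782.E) (T := Suz1782.T) Suz1782.tab [0, 1, 2, 3, 4, 5, 6] [0, 1, 2, 3, 4, 5] Suz1782.subw (by decide) (by decide) hinv ?_
  intro x0 hx0
  exact Suz1782.main (fun y => SuzG.γ (ι0 y)) x0 hinv (by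
    intro r hr
    rw [wd_map]
    have : r.map ι0 ∈ SuzG.fullrels := by
      revert r
      decide +kernel
    exact SuzG.fullrels_spec _ this) hx0
def ι1 : ℕ → ℕ
  | 0 => 0
  | 1 => 1
  | 2 => 2
  | 3 => 3
  | 4 => 4
  | 5 => 5
  | _ => 0
theorem step1 : (Kof SuzG.γ [0, 1, 2, 3, 4]).relIndex (Kof SuzG.γ [0, 1, 2, 3, 4, 5]) ≤ 416 ∧
    (Kof SuzG.γ [0, 1, 2, 3, 4]).relIndex (Kof SuzG.γ [0, 1, 2, 3, 4, 5]) ≠ 0 := by
  have hinv : ∀ y < Suz416.k, SuzG.γ (ι1 (Suz416.inv y)) = (SuzG.γ (ι1 y))⁻¹ := by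
    intro y hy
    have hy' : y < 6 := hy
    interval_cases y
    · exact (SuzG.γ_inv 0 (by norm_num)).symm
    · exact (SuzG.γ_inv 1 (by norm_num)).symm
    · exact (SuzG.γ_inv 2 (by norm_num)).symm
    · exact (SuzG.γ_inv 3 (by norm_num)).symm
    · exact (SuzG.γ_inv 4 (by norm_num)).symm
    · exact (SuzG.γ_inv 5 (by norm_num)).symm
  refine enum_step SuzG.γ ι1 (k := Suz416.k) (n := Suz416.n) (E := Suz416.E) (T := Suz416.T) Suz416.tab [0, 1, 2, 3, 4, 5] [0, 1, 2, 3, 4] Suz416.subw (by decide) (by decide) hinv ?_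
  intro x0 hx0
  exact Suz416.main (fun y => SuzG.γ (ι1 y)) x0 hinv (by
    intro r hr
    rw [wd_map]
    have : r.map ι1 ∈ SuzG.fullrels := by
      revert r
      decide +kernel
    exact SuzG.fullrels_spec _ this) hx0
def ι2 : ℕ → ℕ
  | 0 => 0
  | 1 => 1
  | 2 => 2
  | 3 => 3
  | 4 => 4
  | _ => 0
theorem step2 : (Kof SuzG.γ [0, 1, 2, 3]).relIndex (Kof SuzG.γ [0, 1, 2, 3, 4]) ≤ 280 ∧
    (Kof SuzG.γ [0, 1, 2, 3]).relIndex (Kof SuzG.γ [0, 1, 2, 3, 4]) ≠ 0 := by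
  have hinv : ∀ y < Suz280.k, SuzG.γ (ι2 (Suz280.inv y)) = (SuzG.γ (ι2 y))⁻¹ := by
    intro y hy
    have hy' : y < 5 := hy
    interval_cases y
    · exact (SuzG.γ_inv 0 (by norm_num)).symm
    · exact (SuzG.γ_inv 1 (by norm_num)).symm
    · exact (SuzG.γ_inv 2 (by norm_num)).symm
    · exact (SuzG.γ_inv 3 (by norm_num)).symm
    · exact (SuzG.γ_inv 4 (by norm_num)).symm
  refine enum_step SuzG.γ ι2 (k := Suz280.k) (n := Suz280.n) (E := Suz280.E) (T := Suz280.T) Suz280.tab [0, 1, 2, 3, 4] [0, 1, 2, 3] Suz280.subw (by decide) (by decide) hinv ?_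
  intro x0 hx0
  exact Suz280.main (fun y => SuzG.γ (ι2 y)) x0 hinv (by
    intro r hr
    rw [wd_map]
    have : r.map ι2 ∈ SuzG.fullrels := by
      revert r
      decide +kernel
    exact SuzG.fullrels_spec _ this) hx0
def ι3 : ℕ → ℕ
  | 0 => 0
  | 1 => 1
  | 2 => 2
  | 3 => 3
  | _ => 0
theorem step3 : (Kof SuzG.γ [0, 2, 3]).relIndex (Kof SuzG.γ [0, 1, 2, 3]) ≤ 135 ∧
    (Kof SuzG.γ [0, 2, 3]).relIndex (Kof SuzG.γ [0, 1, 2, 3]) ≠ 0 := by
  have hinv : ∀ y < Suz135.k, SuzG.γ (ι3 (Suz135.inv y)) = (SuzG.γ (ι3 y))⁻¹ := by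
    intro y hy
    have hy' : y < 4 := hy
    interval_cases y
    · exact (SuzG.γ_inv 0 (by norm_num)).symm
    · exact (SuzG.γ_inv 1 (by norm_num)).symm
    · exact (SuzG.γ_inv 2 (by norm_num)).symm
    · exact (SuzG.γ_inv 3 (by norm_num)).symm
  refine enum_step SuzG.γ ι3 (k := Suz135.k) (n := Suz135.n) (E := Suz135.E) (T := Suz135.T) Suz135.tab [0, 1, 2, 3] [0, 2, 3] Suz135.subw (by decide) (by decide) hinv ?_
  intro x0 hx0
  exact Suz135.main (fun y => SuzG.γ (ι3 y)) x0 hinv (by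
    intro r hr
    rw [wd_map]
    have : r.map ι3 ∈ SuzG.fullrels := by
      revert r
      decide +kernel
    exact SuzG.fullrels_spec _ this) hx0
def ι4 : ℕ → ℕ
  | 0 => 0
  | 1 => 2
  | 2 => 3
  | _ => 0
theorem step4 : (Kof SuzG.γ []).relIndex (Kof SuzG.γ [0, 2, 3]) ≤ 16 ∧
    (Kof SuzG.γ []).relIndex (Kof SuzG.γ [0, 2, 3]) ≠ 0 := by
  have hinv : ∀ y < Suz16.k, SuzG.γ (ι4 (Suz16.inv y)) = (SuzG.γ (ι4 y))⁻¹ := by
    intro y hy
    have hy' : y < 3 := hy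
    interval_cases y
    · exact (SuzG.γ_inv 0 (by norm_num)).symm
    · exact (SuzG.γ_inv 2 (by norm_num)).symm
    · exact (SuzG.γ_inv 3 (by norm_num)).symm
  refine enum_step SuzG.γ ι4 (k := Suz16.k) (n := Suz16.n) (E := Suz16.E) (T := Suz16.T) Suz16.tab [0, 2, 3] [] Suz16.subw (by decide) (by decide) hinv ?_
  intro x0 hx0
  exact Suz16.main (fun y => SuzG.γ (ι4 y)) x0 hinv (by
    intro r hr
    rw [wd_map]
    have : r.map ι4 ∈ SuzG.fullrels := by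
      revert r
      decide +kernel
    exact SuzG.fullrels_spec _ this) hx0
theorem card_le : Nat.card Cfsg.Spor.Suz ≤ 448345497600 ∧ Nat.card Cfsg.Spor.Suz ≠ 0 := by
  have htop : Kof SuzG.γ [0, 1, 2, 3, 4, 5, 6] = ⊤ := by
    rw [← SuzG.gen_top]
    unfold Kof
    congr 1
    ext x
    constructor
    · rintro ⟨y, hy, rfl⟩
      refine ⟨y, ?_, rfl⟩
      simp only [List.mem_cons, List.not_mem_nil, or_false] at hy
      omega
    · rintro ⟨y, hy, rfl⟩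
      refine ⟨y, ?_, rfl⟩
      simp only [List.mem_cons, List.not_mem_nil, or_false]
      omega
  have h5 := card_bot_le SuzG.γ
  have h4 := card_step (Kof_mono SuzG.γ (by decide)) step4 h5
  have h3 := card_step (Kof_mono SuzG.γ (by decide)) step3 h4
  have h2 := card_step (Kof_mono SuzG.γ (by decide)) step2 h3
  have h1 := card_step (Kof_mono SuzG.γ (by decide)) step1 h2
  have h0 := card_step (Kof_mono SuzG.γ (by decide)) step0 h1
  rw [htop, Subgroup.card_top] at h0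
  exact ⟨h0.1.trans (by norm_num), h0.2⟩
end Cfsg.Agent.H5TC.SuzUp
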