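import Cfsg.Agent.Lib.H5TCSuz1782C
import Cfsg.Agent.Lib.H5TCSuz1782N
import Cfsg.Agent.Lib.H5TCSuz1782O
import Cfsg.Agent.Lib.H5TCSuzUp
import Cfsg.Agent.Lib.H5TCSuzCol

set_option autoImplicit false
set_option maxRecDepth 1000000
set_option maxHeartbeats 0
set_option Elab.async false

namespace Cfsg.Agent.H5TC.Suz1782.S

open Cfsg.Agent.H5TC
open Cfsg.Agent.H5TC.Suz1782
set_option linter.style.haveILetI false


noncomputable def cT (i : ℕ) : Bool := Nat.ble (O.Lab (Nat.mul 16 i)) 2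
theorem hT_0 : all2 cT 10 0 = true := by decide +kernel
theorem hT_1 : all2 cT 9 1024 = true := by decide +kernel
theorem hT_2 : all2 cT 7 1536 = true := by decide +kernel
theorem hT_3 : all2 cT 6 1664 = true := by decide +kernel
theorem hT_4 : all2 cT 5 1728 = true := by decide +kernel
theorem hT_5 : all2 cT 4 1760 = true := by decide +kernel
theorem hT_6 : all2 cT 2 1776 = true := by decide +kernel
theorem hT_7 : all2 cT 1 1780 = true := by decide +kernel
theorem hT : ∀ i < 1782, cT i = true := by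
  have h0 : ∀ i < 0, cT i = true := fun i hi => absurd hi (Nat.not_lt_zero i)
  have h1 : ∀ i < 1024, cT i = true := range_step h0 hT_0 (by norm_num)
  have h2 : ∀ i < 1536, cT i = true := range_step h1 hT_1 (by norm_num)
  have h3 : ∀ i < 1664, cT i = true := range_step h2 hT_2 (by norm_num)
  have h4 : ∀ i < 1728, cT i = true := range_step h3 hT_3 (by norm_num)
  have h5 : ∀ i < 1760, cT i = true := range_step h4 hT_4 (by norm_num)
  have h6 : ∀ i < 1776, cT i = true := range_step h5 hT_5 (by norm_num)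
  have h7 : ∀ i < 1780, cT i = true := range_step h6 hT_6 (by norm_num)
  have h8 : ∀ i < 1782, cT i = true := range_step h7 hT_7 (by norm_num)
  exact h8
theorem hlt : ∀ c, Vc E n c → O.Lab c ≤ 2 := by
  rintro c ⟨i, hi, rfl⟩
  exact Nat.le_of_ble_eq_true (hT i hi)
attribute [local irreducible] f0 f1 f2 f3 f4 f5 f6
noncomputable def cU (i : ℕ) : Bool := (fun c => (fun d1 => @Bool.rec (fun _ => Bool) ((fun d2 => @Bool.rec (fun _ => Bool) ((fun d3 => @Bool.rec (fun _ => Bool) ((fun d4 => @Bool.rec (fun _ => Bool) ((fun d5 => @Bool.rec (fun _ => Bool) ((fun d6 => @Bool.rec (fun _ => Bool) ((fun d7 => @Bool.rec (fun _ => Bool) ((fun d8 => @Bool.rec (fun _ => Bool) ((fun d9 => @Bool.rec (fun _ => Bool) ((fun d10 => @Bool.rec (fun _ => Bool) ((fun d11 => @Bool.rec (fun _ => Bool) (Nat.beq d11 c) true (Nat.blt d11 c)) (f2 (f6 (f4 (f3 (f5 (f1 (d10)))))))) true (Nat.blt d10 c)) (f2 (f6 (f4 (f3 (f5 (f1 (d9)))))))) true (Nat.blt d9 c)) (f2 (f6 (f4 (f3 (f5 (f1 (d8))))))))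 true (Nat.blt d8 c)) (f2 (f6 (f4 (f3 (f5 (f1 (d7)))))))) true (Nat.blt d7 c)) (f2 (f6 (f4 (f3 (f5 (f1 (d6)))))))) true (Nat.blt d6 c)) (f2 (f6 (f4 (f3 (f5 (f1 (d5)))))))) true (Nat.blt d5 c)) (f2 (f6 (f4 (f3 (f5 (f1 (d4)))))))) true (Nat.blt d4 c)) (f2 (f6 (f4 (f3 (f5 (f1 (d3)))))))) true (Nat.blt d3 c)) (f2 (f6 (f4 (f3 (f5 (f1 (d2)))))))) true (Nat.blt d2 c)) (f2 (f6 (f4 (f3 (f5 (f1 (d1)))))))) true (Nat.blt d1 c)) (f2 (f6 (f4 (f3 (f5 (f1 (c)))))))) (Nat.mul 16 i)
theorem hU_0 : all2 cU 10 0 = true := by decide +kernel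
theorem hU_1 : all2 cU 9 1024 = true := by decide +kernel
theorem hU_2 : all2 cU 7 1536 = true := by decide +kernel
theorem hU_3 : all2 cU 6 1664 = true := by decide +kernel
theorem hU_4 : all2 cU 5 1728 = true := by decide +kernel
theorem hU_5 : all2 cU 4 1760 = true := by decide +kernel
theorem hU_6 : all2 cU 2 1776 = true := by decide +kernel
theorem hU_7 : all2 cU 1 1780 = true := by decide +kernel
theorem hU : ∀ i < 1782, cU i = true := by
  have h0 : ∀ i < 0, cU i = true := fun i hi => absurd hi (Nat.not_lt_zero i)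
  have h1 : ∀ i < 1024, cU i = true := range_step h0 hU_0 (by norm_num)
  have h2 : ∀ i < 1536, cU i = true := range_step h1 hU_1 (by norm_num)
  have h3 : ∀ i < 1664, cU i = true := range_step h2 hU_2 (by norm_num)
  have h4 : ∀ i < 1728, cU i = true := range_step h3 hU_3 (by norm_num)
  have h5 : ∀ i < 1760, cU i = true := range_step h4 hU_4 (by norm_num)
  have h6 : ∀ i < 1776, cU i = true := range_step h5 hU_5 (by norm_num)
  have h7 : ∀ i < 1780, cU i = true := range_step h6 hU_6 (by norm_num)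
  have h8 : ∀ i < 1782, cU i = true := range_step h7 hU_7 (by norm_num)
  exact h8
theorem ux : wd tab.perm [1, 5, 3, 4, 6, 2] ^ 11 = 1 :=
  pow_spec tab [1, 5, 3, 4, 6, 2] 11 (by decide) (fun c hc => by
    obtain ⟨i, hi, rfl⟩ := hc
    exact hU i hi)
theorem simple : IsSimpleGroup Cfsg.Spor.Suz ∧ Nat.card Cfsg.Spor.Suz = 448345497600 := by
  obtain ⟨h1, φ, p, hp0, hφ, h2, h3⟩ := core
  haveI : Finite Cfsg.Spor.Suz := Nat.finite_of_card_ne_zero SuzUp.card_le.2
  have htr : ∀ c, ∃ g : Cfsg.Spor.Suz, φ g ⟨0, tab.zero⟩ = c := by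
    intro c
    obtain ⟨g, _, hg⟩ := trans_aux SuzG.γ tab φ hφ htree c.1 c.2
    exact ⟨g, hg⟩
  obtain ⟨hinj, hcard⟩ := inj_of_card φ (by norm_num) (N.card_ge SuzG.γ φ hφ htr) SuzUp.card_le.1
  refine ⟨?_, hcard⟩
  refine simple_thm2 φ hinj tab.zero htr HH p hp0 h2 h3 O.Lab O.roots 2 ![1, 1365, 416] ?_ ?_ hlt (by decide +kernel) rfl
    (by decide +kernel) h1 (by norm_num) 11 (by norm_num) (m := 251596800) (by rw [hcard]; show 448345497600 = 1782 * 251596800; norm_num) (by norm_num) (wd SuzG.γ [1, 5, 3, 4, 6, 2]) ?_ ?_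
  · intro l hl
    interval_cases l
    · exact (orb φ p hφ h2 h3 0 O.root0 O.rlab0).1
    · exact (orb φ p hφ h2 h3 1 O.root1 O.rlab1).1
    · exact (orb φ p hφ h2 h3 2 O.root2 O.rlab2).1
  · intro l
    fin_cases l
    · exact O.card0
    · exact O.card1
    · exact O.card2
  · apply hinj
    rw [map_pow, map_one]
    have e : φ (wd SuzG.γ [1, 5, 3, 4, 6, 2]) = wd tab.perm [1, 5, 3, 4, 6, 2] := by
      rw [← wd_hom]
      exact wd_congr _ (fun y hy => hφ y (by revert y; decide))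
    rw [e]
    exact ux
  · intro N hN hu
    haveI := hN
    have key : ∀ b ∈ SuzCol.seeds, wd (fun y => QuotientGroup.mk' N (SuzG.γ y)) b = 1 := by
      intro b hb
      have h := SuzCol.lemma_thm (fun y => QuotientGroup.mk' N (SuzG.γ y)) (1 : Cfsg.Spor.Suz ⧸ N) ?_ ?_ ?_ b hb
      · have h2 : (wd (fun y => QuotientGroup.mk' N (SuzG.γ y)) b)⁻¹ * 1 = 1 := h
        rwa [mul_one, inv_eq_one] at h2
      · intro y hy
        have hy' : y < 7 := hy
        have : SuzG.γ (SuzCol.inv y) = (SuzG.γ y)⁻¹ := by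
          rw [SuzG.γ_inv y hy']
          interval_cases y <;> rfl
        rw [this, map_inv]
      · intro r hr
        rw [wd_hom]
        have : r ∈ SuzG.fullrels ∨ r = [1, 5, 3, 4, 6, 2] := by
          revert r
          decide +kernel
        rcases this with h | h
        · rw [SuzG.fullrels_spec r h, map_one]
        · rw [h]
          exact (QuotientGroup.eq_one_iff _).2 hu
      · intro r hr
        exact absurd hr (by simp [SuzCol.subw])
    rw [eq_top_iff, ← SuzG.gen_top, Subgroup.closure_le]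
    rintro _ ⟨y, hy, rfl⟩
    have h := key [y] (by revert y; decide +kernel)
    rw [wd_cons, wd_nil, mul_one] at h
    exact (QuotientGroup.eq_one_iff _).1 h
end Cfsg.Agent.H5TC.Suz1782.S
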