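import Cfsg.Agent.Lib.H5TCSuz22880
import Cfsg.Agent.Lib.H5TC6

set_option autoImplicit false
set_option maxRecDepth 1000000
set_option maxHeartbeats 0
set_option Elab.async false

namespace Cfsg.Agent.H5TC.Suz22880

open Cfsg.Agent.H5TC

noncomputable def cP (i : ℕ) : Bool := chkP T PV PX k 19 434720 (Nat.mul 19 (Nat.succ i))
theorem hP_0 : all2 cP 13 0 = true := by decide +kernel
theorem hP_1 : all2 cP 13 8192 = true := by decide +kernel
theorem hP_2 : all2 cP 12 16384 = true := by decide +kernel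
theorem hP_3 : all2 cP 11 20480 = true := by decide +kernel
theorem hP_4 : all2 cP 8 22528 = true := by decide +kernel
theorem hP_5 : all2 cP 6 22784 = true := by decide +kernel
theorem hP_6 : all2 cP 4 22848 = true := by decide +kernel
theorem hP_7 : all2 cP 3 22864 = true := by decide +kernel
theorem hP_8 : all2 cP 2 22872 = true := by decide +kernel
theorem hP_9 : all2 cP 1 22876 = true := by decide +kernel
theorem hP_10 : all2 cP 0 22878 = true := by decide +kernel
theorem hP : ∀ i < 22879, cP i = true := by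
  have h0 : ∀ i < 0, cP i = true := fun i hi => absurd hi (Nat.not_lt_zero i)
  have h1 : ∀ i < 8192, cP i = true := range_step h0 hP_0 (by norm_num)
  have h2 : ∀ i < 16384, cP i = true := range_step h1 hP_1 (by norm_num)
  have h3 : ∀ i < 20480, cP i = true := range_step h2 hP_2 (by norm_num)
  have h4 : ∀ i < 22528, cP i = true := range_step h3 hP_3 (by norm_num)
  have h5 : ∀ i < 22784, cP i = true := range_step h4 hP_4 (by norm_num)
  have h6 : ∀ i < 22848, cP i = true := range_step h5 hP_5 (by norm_num)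
  have h7 : ∀ i < 22864, cP i = true := range_step h6 hP_6 (by norm_num)
  have h8 : ∀ i < 22872, cP i = true := range_step h7 hP_7 (by norm_num)
  have h9 : ∀ i < 22876, cP i = true := range_step h8 hP_8 (by norm_num)
  have h10 : ∀ i < 22878, cP i = true := range_step h9 hP_9 (by norm_num)
  have h11 : ∀ i < 22879, cP i = true := range_step h10 hP_10 (by norm_num)
  exact h11
theorem htree : ∀ c, Vc E n c → c ≠ 0 → ∃ y < k, ∃ d < c, Vc E n d ∧ T y d = c :=
  htree_of hP
attribute [local irreducible] f0 f1 f2 f3 f4 f5 f6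
noncomputable def cq0_1 (i : ℕ) : Bool := (fun c => (fun d1 => @Bool.rec (fun _ => Bool) ((fun d2 => @Bool.rec (fun _ => Bool) ((fun d3 => @Bool.rec (fun _ => Bool) ((fun d4 => @Bool.rec (fun _ => Bool) ((fun d5 => @Bool.rec (fun _ => Bool) ((fun d6 => @Bool.rec (fun _ => Bool) ((fun d7 => @Bool.rec (fun _ => Bool) ((fun d8 => @Bool.rec (fun _ => Bool) ((fun d9 => @Bool.rec (fun _ => Bool) ((fun d10 => @Bool.rec (fun _ => Bool) (Nat.beq d10 c) true (Nat.blt d10 c)) (f1 (d9))) true (Nat.blt d9 c)) (f0 (d8))) true (Nat.blt d8 c)) (f1 (d7))) true (Nat.blt d7 c)) (f0 (d6))) true (Nat.blt d6 c)) (f1 (d5))) true (Nat.blt d5 c)) (f0 (d4))) true (Nat.blt d4 c)) (f1 (d3))) true (Nat.blt d3 c)) (f0 (d2))) true (Nat.blt d2 c)) (f1 (d1))) true (Nat.blt d1 c)) (f0 (c))) (Nat.mul 19 i)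
theorem hq0_1_0 : all2 cq0_1 14 0 = true := by decide +kernel
theorem hq0_1_1 : all2 cq0_1 12 16384 = true := by decide +kernel
theorem hq0_1_2 : all2 cq0_1 11 20480 = true := by decide +kernel
theorem hq0_1_3 : all2 cq0_1 8 22528 = true := by decide +kernel
theorem hq0_1_4 : all2 cq0_1 6 22784 = true := by decide +kernel
theorem hq0_1_5 : all2 cq0_1 5 22848 = true := by decide +kernel
theorem hq0_1 : ∀ i < 22880, cq0_1 i = true := by
  have h0 : ∀ i < 0, cq0_1 i = true := fun i hi => absurd hi (Nat.not_lt_zero i)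
  have h1 : ∀ i < 16384, cq0_1 i = true := range_step h0 hq0_1_0 (by norm_num)
  have h2 : ∀ i < 20480, cq0_1 i = true := range_step h1 hq0_1_1 (by norm_num)
  have h3 : ∀ i < 22528, cq0_1 i = true := range_step h2 hq0_1_2 (by norm_num)
  have h4 : ∀ i < 22784, cq0_1 i = true := range_step h3 hq0_1_3 (by norm_num)
  have h5 : ∀ i < 22848, cq0_1 i = true := range_step h4 hq0_1_4 (by norm_num)
  have h6 : ∀ i < 22880, cq0_1 i = true := range_step h5 hq0_1_5 (by norm_num)
  exact h6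
theorem q0_1 : (tab.perm 0 * tab.perm 1) ^ 5 = 1 :=
  dih_spec tab 0 1 5 (by decide) (by decide) rfl rfl (fun c hc => by
    obtain ⟨i, hi, rfl⟩ := hc
    exact hq0_1 i hi)
noncomputable def cq0_2 (i : ℕ) : Bool := (fun c => (fun d1 => @Bool.rec (fun _ => Bool) ((fun d2 => @Bool.rec (fun _ => Bool) ((fun d3 => @Bool.rec (fun _ => Bool) ((fun d4 => @Bool.rec (fun _ => Bool) (Nat.beq d4 c) true (Nat.blt d4 c)) (f2 (d3))) true (Nat.blt d3 c)) (f0 (d2))) true (Nat.blt d2 c)) (f2 (d1))) true (Nat.blt d1 c)) (f0 (c))) (Nat.mul 19 i)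
theorem hq0_2_0 : all2 cq0_2 14 0 = true := by decide +kernel
theorem hq0_2_1 : all2 cq0_2 12 16384 = true := by decide +kernel
theorem hq0_2_2 : all2 cq0_2 11 20480 = true := by decide +kernel
theorem hq0_2_3 : all2 cq0_2 8 22528 = true := by decide +kernel
theorem hq0_2_4 : all2 cq0_2 6 22784 = true := by decide +kernel
theorem hq0_2_5 : all2 cq0_2 5 22848 = true := by decide +kernel
theorem hq0_2 : ∀ i < 22880, cq0_2 i = true := by
  have h0 : ∀ i < 0, cq0_2 i = true := fun i hi => absurd hi (Nat.not_lt_zero i)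
  have h1 : ∀ i < 16384, cq0_2 i = true := range_step h0 hq0_2_0 (by norm_num)
  have h2 : ∀ i < 20480, cq0_2 i = true := range_step h1 hq0_2_1 (by norm_num)
  have h3 : ∀ i < 22528, cq0_2 i = true := range_step h2 hq0_2_2 (by norm_num)
  have h4 : ∀ i < 22784, cq0_2 i = true := range_step h3 hq0_2_3 (by norm_num)
  have h5 : ∀ i < 22848, cq0_2 i = true := range_step h4 hq0_2_4 (by norm_num)
  have h6 : ∀ i < 22880, cq0_2 i = true := range_step h5 hq0_2_5 (by norm_num)
  exact h6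
theorem q0_2 : (tab.perm 0 * tab.perm 2) ^ 2 = 1 :=
  dih_spec tab 0 2 2 (by decide) (by decide) rfl rfl (fun c hc => by
    obtain ⟨i, hi, rfl⟩ := hc
    exact hq0_2 i hi)
noncomputable def cq0_3 (i : ℕ) : Bool := (fun c => (fun d1 => @Bool.rec (fun _ => Bool) ((fun d2 => @Bool.rec (fun _ => Bool) ((fun d3 => @Bool.rec (fun _ => Bool) ((fun d4 => @Bool.rec (fun _ => Bool) (Nat.beq d4 c) true (Nat.blt d4 c)) (f3 (d3))) true (Nat.blt d3 c)) (f0 (d2))) true (Nat.blt d2 c)) (f3 (d1))) true (Nat.blt d1 c)) (f0 (c))) (Nat.mul 19 i)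
theorem hq0_3_0 : all2 cq0_3 14 0 = true := by decide +kernel
theorem hq0_3_1 : all2 cq0_3 12 16384 = true := by decide +kernel
theorem hq0_3_2 : all2 cq0_3 11 20480 = true := by decide +kernel
theorem hq0_3_3 : all2 cq0_3 8 22528 = true := by decide +kernel
theorem hq0_3_4 : all2 cq0_3 6 22784 = true := by decide +kernel
theorem hq0_3_5 : all2 cq0_3 5 22848 = true := by decide +kernel
theorem hq0_3 : ∀ i < 22880, cq0_3 i = true := by
  have h0 : ∀ i < 0, cq0_3 i = true := fun i hi => absurd hi (Nat.not_lt_zero i)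
  have h1 : ∀ i < 16384, cq0_3 i = true := range_step h0 hq0_3_0 (by norm_num)
  have h2 : ∀ i < 20480, cq0_3 i = true := range_step h1 hq0_3_1 (by norm_num)
  have h3 : ∀ i < 22528, cq0_3 i = true := range_step h2 hq0_3_2 (by norm_num)
  have h4 : ∀ i < 22784, cq0_3 i = true := range_step h3 hq0_3_3 (by norm_num)
  have h5 : ∀ i < 22848, cq0_3 i = true := range_step h4 hq0_3_4 (by norm_num)
  have h6 : ∀ i < 22880, cq0_3 i = true := range_step h5 hq0_3_5 (by norm_num)
  exact h6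
theorem q0_3 : (tab.perm 0 * tab.perm 3) ^ 2 = 1 :=
  dih_spec tab 0 3 2 (by decide) (by decide) rfl rfl (fun c hc => by
    obtain ⟨i, hi, rfl⟩ := hc
    exact hq0_3 i hi)
noncomputable def cq0_4 (i : ℕ) : Bool := (fun c => (fun d1 => @Bool.rec (fun _ => Bool) ((fun d2 => @Bool.rec (fun _ => Bool) ((fun d3 => @Bool.rec (fun _ => Bool) ((fun d4 => @Bool.rec (fun _ => Bool) (Nat.beq d4 c) true (Nat.blt d4 c)) (f4 (d3))) true (Nat.blt d3 c)) (f0 (d2))) true (Nat.blt d2 c)) (f4 (d1))) true (Nat.blt d1 c)) (f0 (c))) (Nat.mul 19 i)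
theorem hq0_4_0 : all2 cq0_4 14 0 = true := by decide +kernel
theorem hq0_4_1 : all2 cq0_4 12 16384 = true := by decide +kernel
theorem hq0_4_2 : all2 cq0_4 11 20480 = true := by decide +kernel
theorem hq0_4_3 : all2 cq0_4 8 22528 = true := by decide +kernel
theorem hq0_4_4 : all2 cq0_4 6 22784 = true := by decide +kernel
theorem hq0_4_5 : all2 cq0_4 5 22848 = true := by decide +kernel
theorem hq0_4 : ∀ i < 22880, cq0_4 i = true := by
  have h0 : ∀ i < 0, cq0_4 i = true := fun i hi => absurd hi (Nat.not_lt_zero i)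
  have h1 : ∀ i < 16384, cq0_4 i = true := range_step h0 hq0_4_0 (by norm_num)
  have h2 : ∀ i < 20480, cq0_4 i = true := range_step h1 hq0_4_1 (by norm_num)
  have h3 : ∀ i < 22528, cq0_4 i = true := range_step h2 hq0_4_2 (by norm_num)
  have h4 : ∀ i < 22784, cq0_4 i = true := range_step h3 hq0_4_3 (by norm_num)
  have h5 : ∀ i < 22848, cq0_4 i = true := range_step h4 hq0_4_4 (by norm_num)
  have h6 : ∀ i < 22880, cq0_4 i = true := range_step h5 hq0_4_5 (by norm_num)
  exact h6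
theorem q0_4 : (tab.perm 0 * tab.perm 4) ^ 2 = 1 :=
  dih_spec tab 0 4 2 (by decide) (by decide) rfl rfl (fun c hc => by
    obtain ⟨i, hi, rfl⟩ := hc
    exact hq0_4 i hi)
noncomputable def cq0_5 (i : ℕ) : Bool := (fun c => (fun d1 => @Bool.rec (fun _ => Bool) ((fun d2 => @Bool.rec (fun _ => Bool) ((fun d3 => @Bool.rec (fun _ => Bool) ((fun d4 => @Bool.rec (fun _ => Bool) (Nat.beq d4 c) true (Nat.blt d4 c)) (f5 (d3))) true (Nat.blt d3 c)) (f0 (d2))) true (Nat.blt d2 c)) (f5 (d1))) true (Nat.blt d1 c)) (f0 (c))) (Nat.mul 19 i)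
theorem hq0_5_0 : all2 cq0_5 14 0 = true := by decide +kernel
theorem hq0_5_1 : all2 cq0_5 12 16384 = true := by decide +kernel
theorem hq0_5_2 : all2 cq0_5 11 20480 = true := by decide +kernel
theorem hq0_5_3 : all2 cq0_5 8 22528 = true := by decide +kernel
theorem hq0_5_4 : all2 cq0_5 6 22784 = true := by decide +kernel
theorem hq0_5_5 : all2 cq0_5 5 22848 = true := by decide +kernel
theorem hq0_5 : ∀ i < 22880, cq0_5 i = true := by
  have h0 : ∀ i < 0, cq0_5 i = true := fun i hi => absurd hi (Nat.not_lt_zero i)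
  have h1 : ∀ i < 16384, cq0_5 i = true := range_step h0 hq0_5_0 (by norm_num)
  have h2 : ∀ i < 20480, cq0_5 i = true := range_step h1 hq0_5_1 (by norm_num)
  have h3 : ∀ i < 22528, cq0_5 i = true := range_step h2 hq0_5_2 (by norm_num)
  have h4 : ∀ i < 22784, cq0_5 i = true := range_step h3 hq0_5_3 (by norm_num)
  have h5 : ∀ i < 22848, cq0_5 i = true := range_step h4 hq0_5_4 (by norm_num)
  have h6 : ∀ i < 22880, cq0_5 i = true := range_step h5 hq0_5_5 (by norm_num)
  exact h6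
theorem q0_5 : (tab.perm 0 * tab.perm 5) ^ 2 = 1 :=
  dih_spec tab 0 5 2 (by decide) (by decide) rfl rfl (fun c hc => by
    obtain ⟨i, hi, rfl⟩ := hc
    exact hq0_5 i hi)
noncomputable def cq0_6 (i : ℕ) : Bool := (fun c => (fun d1 => @Bool.rec (fun _ => Bool) ((fun d2 => @Bool.rec (fun _ => Bool) ((fun d3 => @Bool.rec (fun _ => Bool) ((fun d4 => @Bool.rec (fun _ => Bool) (Nat.beq d4 c) true (Nat.blt d4 c)) (f6 (d3))) true (Nat.blt d3 c)) (f0 (d2))) true (Nat.blt d2 c)) (f6 (d1))) true (Nat.blt d1 c)) (f0 (c))) (Nat.mul 19 i)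
theorem hq0_6_0 : all2 cq0_6 14 0 = true := by decide +kernel
theorem hq0_6_1 : all2 cq0_6 12 16384 = true := by decide +kernel
theorem hq0_6_2 : all2 cq0_6 11 20480 = true := by decide +kernel
theorem hq0_6_3 : all2 cq0_6 8 22528 = true := by decide +kernel
theorem hq0_6_4 : all2 cq0_6 6 22784 = true := by decide +kernel
theorem hq0_6_5 : all2 cq0_6 5 22848 = true := by decide +kernel
theorem hq0_6 : ∀ i < 22880, cq0_6 i = true := by
  have h0 : ∀ i < 0, cq0_6 i = true := fun i hi => absurd hi (Nat.not_lt_zero i)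
  have h1 : ∀ i < 16384, cq0_6 i = true := range_step h0 hq0_6_0 (by norm_num)
  have h2 : ∀ i < 20480, cq0_6 i = true := range_step h1 hq0_6_1 (by norm_num)
  have h3 : ∀ i < 22528, cq0_6 i = true := range_step h2 hq0_6_2 (by norm_num)
  have h4 : ∀ i < 22784, cq0_6 i = true := range_step h3 hq0_6_3 (by norm_num)
  have h5 : ∀ i < 22848, cq0_6 i = true := range_step h4 hq0_6_4 (by norm_num)
  have h6 : ∀ i < 22880, cq0_6 i = true := range_step h5 hq0_6_5 (by norm_num)
  exact h6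
theorem q0_6 : (tab.perm 0 * tab.perm 6) ^ 2 = 1 :=
  dih_spec tab 0 6 2 (by decide) (by decide) rfl rfl (fun c hc => by
    obtain ⟨i, hi, rfl⟩ := hc
    exact hq0_6 i hi)
noncomputable def cq1_2 (i : ℕ) : Bool := (fun c => (fun d1 => @Bool.rec (fun _ => Bool) ((fun d2 => @Bool.rec (fun _ => Bool) ((fun d3 => @Bool.rec (fun _ => Bool) ((fun d4 => @Bool.rec (fun _ => Bool) ((fun d5 => @Bool.rec (fun _ => Bool) ((fun d6 => @Bool.rec (fun _ => Bool) (Nat.beq d6 c) true (Nat.blt d6 c)) (f2 (d5))) true (Nat.blt d5 c)) (f1 (d4))) true (Nat.blt d4 c)) (f2 (d3))) true (Nat.blt d3 c)) (f1 (d2))) true (Nat.blt d2 c)) (f2 (d1))) true (Nat.blt d1 c)) (f1 (c))) (Nat.mul 19 i)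
theorem hq1_2_0 : all2 cq1_2 14 0 = true := by decide +kernel
theorem hq1_2_1 : all2 cq1_2 12 16384 = true := by decide +kernel
theorem hq1_2_2 : all2 cq1_2 11 20480 = true := by decide +kernel
theorem hq1_2_3 : all2 cq1_2 8 22528 = true := by decide +kernel
theorem hq1_2_4 : all2 cq1_2 6 22784 = true := by decide +kernel
theorem hq1_2_5 : all2 cq1_2 5 22848 = true := by decide +kernel
theorem hq1_2 : ∀ i < 22880, cq1_2 i = true := by
  have h0 : ∀ i < 0, cq1_2 i = true := fun i hi => absurd hi (Nat.not_lt_zero i)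
  have h1 : ∀ i < 16384, cq1_2 i = true := range_step h0 hq1_2_0 (by norm_num)
  have h2 : ∀ i < 20480, cq1_2 i = true := range_step h1 hq1_2_1 (by norm_num)
  have h3 : ∀ i < 22528, cq1_2 i = true := range_step h2 hq1_2_2 (by norm_num)
  have h4 : ∀ i < 22784, cq1_2 i = true := range_step h3 hq1_2_3 (by norm_num)
  have h5 : ∀ i < 22848, cq1_2 i = true := range_step h4 hq1_2_4 (by norm_num)
  have h6 : ∀ i < 22880, cq1_2 i = true := range_step h5 hq1_2_5 (by norm_num)
  exact h6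
theorem q1_2 : (tab.perm 1 * tab.perm 2) ^ 3 = 1 :=
  dih_spec tab 1 2 3 (by decide) (by decide) rfl rfl (fun c hc => by
    obtain ⟨i, hi, rfl⟩ := hc
    exact hq1_2 i hi)
noncomputable def cq1_3 (i : ℕ) : Bool := (fun c => (fun d1 => @Bool.rec (fun _ => Bool) ((fun d2 => @Bool.rec (fun _ => Bool) ((fun d3 => @Bool.rec (fun _ => Bool) ((fun d4 => @Bool.rec (fun _ => Bool) (Nat.beq d4 c) true (Nat.blt d4 c)) (f3 (d3))) true (Nat.blt d3 c)) (f1 (d2))) true (Nat.blt d2 c)) (f3 (d1))) true (Nat.blt d1 c)) (f1 (c))) (Nat.mul 19 i)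
theorem hq1_3_0 : all2 cq1_3 14 0 = true := by decide +kernel
theorem hq1_3_1 : all2 cq1_3 12 16384 = true := by decide +kernel
theorem hq1_3_2 : all2 cq1_3 11 20480 = true := by decide +kernel
theorem hq1_3_3 : all2 cq1_3 8 22528 = true := by decide +kernel
theorem hq1_3_4 : all2 cq1_3 6 22784 = true := by decide +kernel
theorem hq1_3_5 : all2 cq1_3 5 22848 = true := by decide +kernel
theorem hq1_3 : ∀ i < 22880, cq1_3 i = true := by
  have h0 : ∀ i < 0, cq1_3 i = true := fun i hi => absurd hi (Nat.not_lt_zero i)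
  have h1 : ∀ i < 16384, cq1_3 i = true := range_step h0 hq1_3_0 (by norm_num)
  have h2 : ∀ i < 20480, cq1_3 i = true := range_step h1 hq1_3_1 (by norm_num)
  have h3 : ∀ i < 22528, cq1_3 i = true := range_step h2 hq1_3_2 (by norm_num)
  have h4 : ∀ i < 22784, cq1_3 i = true := range_step h3 hq1_3_3 (by norm_num)
  have h5 : ∀ i < 22848, cq1_3 i = true := range_step h4 hq1_3_4 (by norm_num)
  have h6 : ∀ i < 22880, cq1_3 i = true := range_step h5 hq1_3_5 (by norm_num)
  exact h6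
theorem q1_3 : (tab.perm 1 * tab.perm 3) ^ 2 = 1 :=
  dih_spec tab 1 3 2 (by decide) (by decide) rfl rfl (fun c hc => by
    obtain ⟨i, hi, rfl⟩ := hc
    exact hq1_3 i hi)
noncomputable def cq1_4 (i : ℕ) : Bool := (fun c => (fun d1 => @Bool.rec (fun _ => Bool) ((fun d2 => @Bool.rec (fun _ => Bool) ((fun d3 => @Bool.rec (fun _ => Bool) ((fun d4 => @Bool.rec (fun _ => Bool) (Nat.beq d4 c) true (Nat.blt d4 c)) (f4 (d3))) true (Nat.blt d3 c)) (f1 (d2))) true (Nat.blt d2 c)) (f4 (d1))) true (Nat.blt d1 c)) (f1 (c))) (Nat.mul 19 i)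
theorem hq1_4_0 : all2 cq1_4 14 0 = true := by decide +kernel
theorem hq1_4_1 : all2 cq1_4 12 16384 = true := by decide +kernel
theorem hq1_4_2 : all2 cq1_4 11 20480 = true := by decide +kernel
theorem hq1_4_3 : all2 cq1_4 8 22528 = true := by decide +kernel
theorem hq1_4_4 : all2 cq1_4 6 22784 = true := by decide +kernel
theorem hq1_4_5 : all2 cq1_4 5 22848 = true := by decide +kernel
theorem hq1_4 : ∀ i < 22880, cq1_4 i = true := by
  have h0 : ∀ i < 0, cq1_4 i = true := fun i hi => absurd hi (Nat.not_lt_zero i)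
  have h1 : ∀ i < 16384, cq1_4 i = true := range_step h0 hq1_4_0 (by norm_num)
  have h2 : ∀ i < 20480, cq1_4 i = true := range_step h1 hq1_4_1 (by norm_num)
  have h3 : ∀ i < 22528, cq1_4 i = true := range_step h2 hq1_4_2 (by norm_num)
  have h4 : ∀ i < 22784, cq1_4 i = true := range_step h3 hq1_4_3 (by norm_num)
  have h5 : ∀ i < 22848, cq1_4 i = true := range_step h4 hq1_4_4 (by norm_num)
  have h6 : ∀ i < 22880, cq1_4 i = true := range_step h5 hq1_4_5 (by norm_num)
  exact h6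
theorem q1_4 : (tab.perm 1 * tab.perm 4) ^ 2 = 1 :=
  dih_spec tab 1 4 2 (by decide) (by decide) rfl rfl (fun c hc => by
    obtain ⟨i, hi, rfl⟩ := hc
    exact hq1_4 i hi)
noncomputable def cq1_5 (i : ℕ) : Bool := (fun c => (fun d1 => @Bool.rec (fun _ => Bool) ((fun d2 => @Bool.rec (fun _ => Bool) ((fun d3 => @Bool.rec (fun _ => Bool) ((fun d4 => @Bool.rec (fun _ => Bool) ((fun d5 => @Bool.rec (fun _ => Bool) ((fun d6 => @Bool.rec (fun _ => Bool) (Nat.beq d6 c) true (Nat.blt d6 c)) (f5 (d5))) true (Nat.blt d5 c)) (f1 (d4))) true (Nat.blt d4 c)) (f5 (d3))) true (Nat.blt d3 c)) (f1 (d2))) true (Nat.blt d2 c)) (f5 (d1))) true (Nat.blt d1 c)) (f1 (c))) (Nat.mul 19 i)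
theorem hq1_5_0 : all2 cq1_5 14 0 = true := by decide +kernel
theorem hq1_5_1 : all2 cq1_5 12 16384 = true := by decide +kernel
theorem hq1_5_2 : all2 cq1_5 11 20480 = true := by decide +kernel
theorem hq1_5_3 : all2 cq1_5 8 22528 = true := by decide +kernel
theorem hq1_5_4 : all2 cq1_5 6 22784 = true := by decide +kernel
theorem hq1_5_5 : all2 cq1_5 5 22848 = true := by decide +kernel
theorem hq1_5 : ∀ i < 22880, cq1_5 i = true := by
  have h0 : ∀ i < 0, cq1_5 i = true := fun i hi => absurd hi (Nat.not_lt_zero i)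
  have h1 : ∀ i < 16384, cq1_5 i = true := range_step h0 hq1_5_0 (by norm_num)
  have h2 : ∀ i < 20480, cq1_5 i = true := range_step h1 hq1_5_1 (by norm_num)
  have h3 : ∀ i < 22528, cq1_5 i = true := range_step h2 hq1_5_2 (by norm_num)
  have h4 : ∀ i < 22784, cq1_5 i = true := range_step h3 hq1_5_3 (by norm_num)
  have h5 : ∀ i < 22848, cq1_5 i = true := range_step h4 hq1_5_4 (by norm_num)
  have h6 : ∀ i < 22880, cq1_5 i = true := range_step h5 hq1_5_5 (by norm_num)
  exact h6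
theorem q1_5 : (tab.perm 1 * tab.perm 5) ^ 3 = 1 :=
  dih_spec tab 1 5 3 (by decide) (by decide) rfl rfl (fun c hc => by
    obtain ⟨i, hi, rfl⟩ := hc
    exact hq1_5 i hi)
noncomputable def cq1_6 (i : ℕ) : Bool := (fun c => (fun d1 => @Bool.rec (fun _ => Bool) ((fun d2 => @Bool.rec (fun _ => Bool) ((fun d3 => @Bool.rec (fun _ => Bool) ((fun d4 => @Bool.rec (fun _ => Bool) ((fun d5 => @Bool.rec (fun _ => Bool) ((fun d6 => @Bool.rec (fun _ => Bool) (Nat.beq d6 c) true (Nat.blt d6 c)) (f6 (d5))) true (Nat.blt d5 c)) (f1 (d4))) true (Nat.blt d4 c)) (f6 (d3))) true (Nat.blt d3 c)) (f1 (d2))) true (Nat.blt d2 c)) (f6 (d1))) true (Nat.blt d1 c)) (f1 (c))) (Nat.mul 19 i)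
theorem hq1_6_0 : all2 cq1_6 14 0 = true := by decide +kernel
theorem hq1_6_1 : all2 cq1_6 12 16384 = true := by decide +kernel
theorem hq1_6_2 : all2 cq1_6 11 20480 = true := by decide +kernel
theorem hq1_6_3 : all2 cq1_6 8 22528 = true := by decide +kernel
theorem hq1_6_4 : all2 cq1_6 6 22784 = true := by decide +kernel
theorem hq1_6_5 : all2 cq1_6 5 22848 = true := by decide +kernel
theorem hq1_6 : ∀ i < 22880, cq1_6 i = true := by
  have h0 : ∀ i < 0, cq1_6 i = true := fun i hi => absurd hi (Nat.not_lt_zero i)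
  have h1 : ∀ i < 16384, cq1_6 i = true := range_step h0 hq1_6_0 (by norm_num)
  have h2 : ∀ i < 20480, cq1_6 i = true := range_step h1 hq1_6_1 (by norm_num)
  have h3 : ∀ i < 22528, cq1_6 i = true := range_step h2 hq1_6_2 (by norm_num)
  have h4 : ∀ i < 22784, cq1_6 i = true := range_step h3 hq1_6_3 (by norm_num)
  have h5 : ∀ i < 22848, cq1_6 i = true := range_step h4 hq1_6_4 (by norm_num)
  have h6 : ∀ i < 22880, cq1_6 i = true := range_step h5 hq1_6_5 (by norm_num)
  exact h6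
theorem q1_6 : (tab.perm 1 * tab.perm 6) ^ 3 = 1 :=
  dih_spec tab 1 6 3 (by decide) (by decide) rfl rfl (fun c hc => by
    obtain ⟨i, hi, rfl⟩ := hc
    exact hq1_6 i hi)
noncomputable def cq2_3 (i : ℕ) : Bool := (fun c => (fun d1 => @Bool.rec (fun _ => Bool) ((fun d2 => @Bool.rec (fun _ => Bool) ((fun d3 => @Bool.rec (fun _ => Bool) ((fun d4 => @Bool.rec (fun _ => Bool) ((fun d5 => @Bool.rec (fun _ => Bool) ((fun d6 => @Bool.rec (fun _ => Bool) ((fun d7 => @Bool.rec (fun _ => Bool) ((fun d8 => @Bool.rec (fun _ => Bool) ((fun d9 => @Bool.rec (fun _ => Bool) ((fun d10 => @Bool.rec (fun _ => Bool) ((fun d11 => @Bool.rec (fun _ => Bool) ((fun d12 => @Bool.rec (fun _ => Bool) ((fun d13 => @Bool.rec (fun _ => Bool) ((fun d14 => @Bool.rec (fun _ => Bool) ((fun d15 => @Bool.rec (fun _ => Bool) ((fun d16 => @Bool.rec (fun _ => Bool) (Nat.beq d16 c) true (Nat.blt d16 c)) (f3 (d15))) true (Nat.blt d15 c)) (f2 (d14))) true (Nat.blt d14 c)) (f3 (d13))) true (Nat.blt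 d13 c)) (f2 (d12))) true (Nat.blt d12 c)) (f3 (d11))) true (Nat.blt d11 c)) (f2 (d10))) true (Nat.blt d10 c)) (f3 (d9))) true (Nat.blt d9 c)) (f2 (d8))) true (Nat.blt d8 c)) (f3 (d7))) true (Nat.blt d7 c)) (f2 (d6))) true (Nat.blt d6 c)) (f3 (d5))) true (Nat.blt d5 c)) (f2 (d4))) true (Nat.blt d4 c)) (f3 (d3))) true (Nat.blt d3 c)) (f2 (d2))) true (Nat.blt d2 c)) (f3 (d1))) true (Nat.blt d1 c)) (f2 (c))) (Nat.mul 19 i)
theorem hq2_3_0 : all2 cq2_3 14 0 = true := by decide +kernel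
theorem hq2_3_1 : all2 cq2_3 12 16384 = true := by decide +kernel
theorem hq2_3_2 : all2 cq2_3 11 20480 = true := by decide +kernel
theorem hq2_3_3 : all2 cq2_3 8 22528 = true := by decide +kernel
theorem hq2_3_4 : all2 cq2_3 6 22784 = true := by decide +kernel
theorem hq2_3_5 : all2 cq2_3 5 22848 = true := by decide +kernel
theorem hq2_3 : ∀ i < 22880, cq2_3 i = true := by
  have h0 : ∀ i < 0, cq2_3 i = true := fun i hi => absurd hi (Nat.not_lt_zero i)
  have h1 : ∀ i < 16384, cq2_3 i = true := range_step h0 hq2_3_0 (by norm_num)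
  have h2 : ∀ i < 20480, cq2_3 i = true := range_step h1 hq2_3_1 (by norm_num)
  have h3 : ∀ i < 22528, cq2_3 i = true := range_step h2 hq2_3_2 (by norm_num)
  have h4 : ∀ i < 22784, cq2_3 i = true := range_step h3 hq2_3_3 (by norm_num)
  have h5 : ∀ i < 22848, cq2_3 i = true := range_step h4 hq2_3_4 (by norm_num)
  have h6 : ∀ i < 22880, cq2_3 i = true := range_step h5 hq2_3_5 (by norm_num)
  exact h6
theorem q2_3 : (tab.perm 2 * tab.perm 3) ^ 8 = 1 :=
  dih_spec tab 2 3 8 (by decide) (by decide) rfl rfl (fun c hc => by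
    obtain ⟨i, hi, rfl⟩ := hc
    exact hq2_3 i hi)
noncomputable def cq2_4 (i : ℕ) : Bool := (fun c => (fun d1 => @Bool.rec (fun _ => Bool) ((fun d2 => @Bool.rec (fun _ => Bool) ((fun d3 => @Bool.rec (fun _ => Bool) ((fun d4 => @Bool.rec (fun _ => Bool) (Nat.beq d4 c) true (Nat.blt d4 c)) (f4 (d3))) true (Nat.blt d3 c)) (f2 (d2))) true (Nat.blt d2 c)) (f4 (d1))) true (Nat.blt d1 c)) (f2 (c))) (Nat.mul 19 i)
theorem hq2_4_0 : all2 cq2_4 14 0 = true := by decide +kernel
theorem hq2_4_1 : all2 cq2_4 12 16384 = true := by decide +kernel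
theorem hq2_4_2 : all2 cq2_4 11 20480 = true := by decide +kernel
theorem hq2_4_3 : all2 cq2_4 8 22528 = true := by decide +kernel
theorem hq2_4_4 : all2 cq2_4 6 22784 = true := by decide +kernel
theorem hq2_4_5 : all2 cq2_4 5 22848 = true := by decide +kernel
theorem hq2_4 : ∀ i < 22880, cq2_4 i = true := by
  have h0 : ∀ i < 0, cq2_4 i = true := fun i hi => absurd hi (Nat.not_lt_zero i)
  have h1 : ∀ i < 16384, cq2_4 i = true := range_step h0 hq2_4_0 (by norm_num)
  have h2 : ∀ i < 20480, cq2_4 i = true := range_step h1 hq2_4_1 (by norm_num)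
  have h3 : ∀ i < 22528, cq2_4 i = true := range_step h2 hq2_4_2 (by norm_num)
  have h4 : ∀ i < 22784, cq2_4 i = true := range_step h3 hq2_4_3 (by norm_num)
  have h5 : ∀ i < 22848, cq2_4 i = true := range_step h4 hq2_4_4 (by norm_num)
  have h6 : ∀ i < 22880, cq2_4 i = true := range_step h5 hq2_4_5 (by norm_num)
  exact h6
theorem q2_4 : (tab.perm 2 * tab.perm 4) ^ 2 = 1 :=
  dih_spec tab 2 4 2 (by decide) (by decide) rfl rfl (fun c hc => by
    obtain ⟨i, hi, rfl⟩ := hc
    exact hq2_4 i hi)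
noncomputable def cq2_5 (i : ℕ) : Bool := (fun c => (fun d1 => @Bool.rec (fun _ => Bool) ((fun d2 => @Bool.rec (fun _ => Bool) ((fun d3 => @Bool.rec (fun _ => Bool) ((fun d4 => @Bool.rec (fun _ => Bool) (Nat.beq d4 c) true (Nat.blt d4 c)) (f5 (d3))) true (Nat.blt d3 c)) (f2 (d2))) true (Nat.blt d2 c)) (f5 (d1))) true (Nat.blt d1 c)) (f2 (c))) (Nat.mul 19 i)
theorem hq2_5_0 : all2 cq2_5 14 0 = true := by decide +kernel
theorem hq2_5_1 : all2 cq2_5 12 16384 = true := by decide +kernel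
theorem hq2_5_2 : all2 cq2_5 11 20480 = true := by decide +kernel
theorem hq2_5_3 : all2 cq2_5 8 22528 = true := by decide +kernel
theorem hq2_5_4 : all2 cq2_5 6 22784 = true := by decide +kernel
theorem hq2_5_5 : all2 cq2_5 5 22848 = true := by decide +kernel
theorem hq2_5 : ∀ i < 22880, cq2_5 i = true := by
  have h0 : ∀ i < 0, cq2_5 i = true := fun i hi => absurd hi (Nat.not_lt_zero i)
  have h1 : ∀ i < 16384, cq2_5 i = true := range_step h0 hq2_5_0 (by norm_num)
  have h2 : ∀ i < 20480, cq2_5 i = true := range_step h1 hq2_5_1 (by norm_num)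
  have h3 : ∀ i < 22528, cq2_5 i = true := range_step h2 hq2_5_2 (by norm_num)
  have h4 : ∀ i < 22784, cq2_5 i = true := range_step h3 hq2_5_3 (by norm_num)
  have h5 : ∀ i < 22848, cq2_5 i = true := range_step h4 hq2_5_4 (by norm_num)
  have h6 : ∀ i < 22880, cq2_5 i = true := range_step h5 hq2_5_5 (by norm_num)
  exact h6
theorem q2_5 : (tab.perm 2 * tab.perm 5) ^ 2 = 1 :=
  dih_spec tab 2 5 2 (by decide) (by decide) rfl rfl (fun c hc => by
    obtain ⟨i, hi, rfl⟩ := hc
    exact hq2_5 i hi)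
noncomputable def cq2_6 (i : ℕ) : Bool := (fun c => (fun d1 => @Bool.rec (fun _ => Bool) ((fun d2 => @Bool.rec (fun _ => Bool) ((fun d3 => @Bool.rec (fun _ => Bool) ((fun d4 => @Bool.rec (fun _ => Bool) (Nat.beq d4 c) true (Nat.blt d4 c)) (f6 (d3))) true (Nat.blt d3 c)) (f2 (d2))) true (Nat.blt d2 c)) (f6 (d1))) true (Nat.blt d1 c)) (f2 (c))) (Nat.mul 19 i)
theorem hq2_6_0 : all2 cq2_6 14 0 = true := by decide +kernel
theorem hq2_6_1 : all2 cq2_6 12 16384 = true := by decide +kernel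
theorem hq2_6_2 : all2 cq2_6 11 20480 = true := by decide +kernel
theorem hq2_6_3 : all2 cq2_6 8 22528 = true := by decide +kernel
theorem hq2_6_4 : all2 cq2_6 6 22784 = true := by decide +kernel
theorem hq2_6_5 : all2 cq2_6 5 22848 = true := by decide +kernel
theorem hq2_6 : ∀ i < 22880, cq2_6 i = true := by
  have h0 : ∀ i < 0, cq2_6 i = true := fun i hi => absurd hi (Nat.not_lt_zero i)
  have h1 : ∀ i < 16384, cq2_6 i = true := range_step h0 hq2_6_0 (by norm_num)
  have h2 : ∀ i < 20480, cq2_6 i = true := range_step h1 hq2_6_1 (by norm_num)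
  have h3 : ∀ i < 22528, cq2_6 i = true := range_step h2 hq2_6_2 (by norm_num)
  have h4 : ∀ i < 22784, cq2_6 i = true := range_step h3 hq2_6_3 (by norm_num)
  have h5 : ∀ i < 22848, cq2_6 i = true := range_step h4 hq2_6_4 (by norm_num)
  have h6 : ∀ i < 22880, cq2_6 i = true := range_step h5 hq2_6_5 (by norm_num)
  exact h6
theorem q2_6 : (tab.perm 2 * tab.perm 6) ^ 2 = 1 :=
  dih_spec tab 2 6 2 (by decide) (by decide) rfl rfl (fun c hc => by
    obtain ⟨i, hi, rfl⟩ := hc
    exact hq2_6 i hi)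
noncomputable def cq3_4 (i : ℕ) : Bool := (fun c => (fun d1 => @Bool.rec (fun _ => Bool) ((fun d2 => @Bool.rec (fun _ => Bool) ((fun d3 => @Bool.rec (fun _ => Bool) ((fun d4 => @Bool.rec (fun _ => Bool) ((fun d5 => @Bool.rec (fun _ => Bool) ((fun d6 => @Bool.rec (fun _ => Bool) (Nat.beq d6 c) true (Nat.blt d6 c)) (f4 (d5))) true (Nat.blt d5 c)) (f3 (d4))) true (Nat.blt d4 c)) (f4 (d3))) true (Nat.blt d3 c)) (f3 (d2))) true (Nat.blt d2 c)) (f4 (d1))) true (Nat.blt d1 c)) (f3 (c))) (Nat.mul 19 i)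
theorem hq3_4_0 : all2 cq3_4 14 0 = true := by decide +kernel
theorem hq3_4_1 : all2 cq3_4 12 16384 = true := by decide +kernel
theorem hq3_4_2 : all2 cq3_4 11 20480 = true := by decide +kernel
theorem hq3_4_3 : all2 cq3_4 8 22528 = true := by decide +kernel
theorem hq3_4_4 : all2 cq3_4 6 22784 = true := by decide +kernel
theorem hq3_4_5 : all2 cq3_4 5 22848 = true := by decide +kernel
theorem hq3_4 : ∀ i < 22880, cq3_4 i = true := by
  have h0 : ∀ i < 0, cq3_4 i = true := fun i hi => absurd hi (Nat.not_lt_zero i)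
  have h1 : ∀ i < 16384, cq3_4 i = true := range_step h0 hq3_4_0 (by norm_num)
  have h2 : ∀ i < 20480, cq3_4 i = true := range_step h1 hq3_4_1 (by norm_num)
  have h3 : ∀ i < 22528, cq3_4 i = true := range_step h2 hq3_4_2 (by norm_num)
  have h4 : ∀ i < 22784, cq3_4 i = true := range_step h3 hq3_4_3 (by norm_num)
  have h5 : ∀ i < 22848, cq3_4 i = true := range_step h4 hq3_4_4 (by norm_num)
  have h6 : ∀ i < 22880, cq3_4 i = true := range_step h5 hq3_4_5 (by norm_num)
  exact h6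
theorem q3_4 : (tab.perm 3 * tab.perm 4) ^ 3 = 1 :=
  dih_spec tab 3 4 3 (by decide) (by decide) rfl rfl (fun c hc => by
    obtain ⟨i, hi, rfl⟩ := hc
    exact hq3_4 i hi)
noncomputable def cq3_5 (i : ℕ) : Bool := (fun c => (fun d1 => @Bool.rec (fun _ => Bool) ((fun d2 => @Bool.rec (fun _ => Bool) ((fun d3 => @Bool.rec (fun _ => Bool) ((fun d4 => @Bool.rec (fun _ => Bool) (Nat.beq d4 c) true (Nat.blt d4 c)) (f5 (d3))) true (Nat.blt d3 c)) (f3 (d2))) true (Nat.blt d2 c)) (f5 (d1))) true (Nat.blt d1 c)) (f3 (c))) (Nat.mul 19 i)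
theorem hq3_5_0 : all2 cq3_5 14 0 = true := by decide +kernel
theorem hq3_5_1 : all2 cq3_5 12 16384 = true := by decide +kernel
theorem hq3_5_2 : all2 cq3_5 11 20480 = true := by decide +kernel
theorem hq3_5_3 : all2 cq3_5 8 22528 = true := by decide +kernel
theorem hq3_5_4 : all2 cq3_5 6 22784 = true := by decide +kernel
theorem hq3_5_5 : all2 cq3_5 5 22848 = true := by decide +kernel
theorem hq3_5 : ∀ i < 22880, cq3_5 i = true := by
  have h0 : ∀ i < 0, cq3_5 i = true := fun i hi => absurd hi (Nat.not_lt_zero i)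
  have h1 : ∀ i < 16384, cq3_5 i = true := range_step h0 hq3_5_0 (by norm_num)
  have h2 : ∀ i < 20480, cq3_5 i = true := range_step h1 hq3_5_1 (by norm_num)
  have h3 : ∀ i < 22528, cq3_5 i = true := range_step h2 hq3_5_2 (by norm_num)
  have h4 : ∀ i < 22784, cq3_5 i = true := range_step h3 hq3_5_3 (by norm_num)
  have h5 : ∀ i < 22848, cq3_5 i = true := range_step h4 hq3_5_4 (by norm_num)
  have h6 : ∀ i < 22880, cq3_5 i = true := range_step h5 hq3_5_5 (by norm_num)
  exact h6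
theorem q3_5 : (tab.perm 3 * tab.perm 5) ^ 2 = 1 :=
  dih_spec tab 3 5 2 (by decide) (by decide) rfl rfl (fun c hc => by
    obtain ⟨i, hi, rfl⟩ := hc
    exact hq3_5 i hi)
noncomputable def cq3_6 (i : ℕ) : Bool := (fun c => (fun d1 => @Bool.rec (fun _ => Bool) ((fun d2 => @Bool.rec (fun _ => Bool) ((fun d3 => @Bool.rec (fun _ => Bool) ((fun d4 => @Bool.rec (fun _ => Bool) (Nat.beq d4 c) true (Nat.blt d4 c)) (f6 (d3))) true (Nat.blt d3 c)) (f3 (d2))) true (Nat.blt d2 c)) (f6 (d1))) true (Nat.blt d1 c)) (f3 (c))) (Nat.mul 19 i)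
theorem hq3_6_0 : all2 cq3_6 14 0 = true := by decide +kernel
theorem hq3_6_1 : all2 cq3_6 12 16384 = true := by decide +kernel
theorem hq3_6_2 : all2 cq3_6 11 20480 = true := by decide +kernel
theorem hq3_6_3 : all2 cq3_6 8 22528 = true := by decide +kernel
theorem hq3_6_4 : all2 cq3_6 6 22784 = true := by decide +kernel
theorem hq3_6_5 : all2 cq3_6 5 22848 = true := by decide +kernel
theorem hq3_6 : ∀ i < 22880, cq3_6 i = true := by
  have h0 : ∀ i < 0, cq3_6 i = true := fun i hi => absurd hi (Nat.not_lt_zero i)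
  have h1 : ∀ i < 16384, cq3_6 i = true := range_step h0 hq3_6_0 (by norm_num)
  have h2 : ∀ i < 20480, cq3_6 i = true := range_step h1 hq3_6_1 (by norm_num)
  have h3 : ∀ i < 22528, cq3_6 i = true := range_step h2 hq3_6_2 (by norm_num)
  have h4 : ∀ i < 22784, cq3_6 i = true := range_step h3 hq3_6_3 (by norm_num)
  have h5 : ∀ i < 22848, cq3_6 i = true := range_step h4 hq3_6_4 (by norm_num)
  have h6 : ∀ i < 22880, cq3_6 i = true := range_step h5 hq3_6_5 (by norm_num)
  exact h6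
theorem q3_6 : (tab.perm 3 * tab.perm 6) ^ 2 = 1 :=
  dih_spec tab 3 6 2 (by decide) (by decide) rfl rfl (fun c hc => by
    obtain ⟨i, hi, rfl⟩ := hc
    exact hq3_6 i hi)
noncomputable def cq4_5 (i : ℕ) : Bool := (fun c => (fun d1 => @Bool.rec (fun _ => Bool) ((fun d2 => @Bool.rec (fun _ => Bool) ((fun d3 => @Bool.rec (fun _ => Bool) ((fun d4 => @Bool.rec (fun _ => Bool) (Nat.beq d4 c) true (Nat.blt d4 c)) (f5 (d3))) true (Nat.blt d3 c)) (f4 (d2))) true (Nat.blt d2 c)) (f5 (d1))) true (Nat.blt d1 c)) (f4 (c))) (Nat.mul 19 i)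
theorem hq4_5_0 : all2 cq4_5 14 0 = true := by decide +kernel
theorem hq4_5_1 : all2 cq4_5 12 16384 = true := by decide +kernel
theorem hq4_5_2 : all2 cq4_5 11 20480 = true := by decide +kernel
theorem hq4_5_3 : all2 cq4_5 8 22528 = true := by decide +kernel
theorem hq4_5_4 : all2 cq4_5 6 22784 = true := by decide +kernel
theorem hq4_5_5 : all2 cq4_5 5 22848 = true := by decide +kernel
theorem hq4_5 : ∀ i < 22880, cq4_5 i = true := by
  have h0 : ∀ i < 0, cq4_5 i = true := fun i hi => absurd hi (Nat.not_lt_zero i)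
  have h1 : ∀ i < 16384, cq4_5 i = true := range_step h0 hq4_5_0 (by norm_num)
  have h2 : ∀ i < 20480, cq4_5 i = true := range_step h1 hq4_5_1 (by norm_num)
  have h3 : ∀ i < 22528, cq4_5 i = true := range_step h2 hq4_5_2 (by norm_num)
  have h4 : ∀ i < 22784, cq4_5 i = true := range_step h3 hq4_5_3 (by norm_num)
  have h5 : ∀ i < 22848, cq4_5 i = true := range_step h4 hq4_5_4 (by norm_num)
  have h6 : ∀ i < 22880, cq4_5 i = true := range_step h5 hq4_5_5 (by norm_num)
  exact h6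
theorem q4_5 : (tab.perm 4 * tab.perm 5) ^ 2 = 1 :=
  dih_spec tab 4 5 2 (by decide) (by decide) rfl rfl (fun c hc => by
    obtain ⟨i, hi, rfl⟩ := hc
    exact hq4_5 i hi)
noncomputable def cq4_6 (i : ℕ) : Bool := (fun c => (fun d1 => @Bool.rec (fun _ => Bool) ((fun d2 => @Bool.rec (fun _ => Bool) ((fun d3 => @Bool.rec (fun _ => Bool) ((fun d4 => @Bool.rec (fun _ => Bool) (Nat.beq d4 c) true (Nat.blt d4 c)) (f6 (d3))) true (Nat.blt d3 c)) (f4 (d2))) true (Nat.blt d2 c)) (f6 (d1))) true (Nat.blt d1 c)) (f4 (c))) (Nat.mul 19 i)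
theorem hq4_6_0 : all2 cq4_6 14 0 = true := by decide +kernel
theorem hq4_6_1 : all2 cq4_6 12 16384 = true := by decide +kernel
theorem hq4_6_2 : all2 cq4_6 11 20480 = true := by decide +kernel
theorem hq4_6_3 : all2 cq4_6 8 22528 = true := by decide +kernel
theorem hq4_6_4 : all2 cq4_6 6 22784 = true := by decide +kernel
theorem hq4_6_5 : all2 cq4_6 5 22848 = true := by decide +kernel
theorem hq4_6 : ∀ i < 22880, cq4_6 i = true := by
  have h0 : ∀ i < 0, cq4_6 i = true := fun i hi => absurd hi (Nat.not_lt_zero i)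
  have h1 : ∀ i < 16384, cq4_6 i = true := range_step h0 hq4_6_0 (by norm_num)
  have h2 : ∀ i < 20480, cq4_6 i = true := range_step h1 hq4_6_1 (by norm_num)
  have h3 : ∀ i < 22528, cq4_6 i = true := range_step h2 hq4_6_2 (by norm_num)
  have h4 : ∀ i < 22784, cq4_6 i = true := range_step h3 hq4_6_3 (by norm_num)
  have h5 : ∀ i < 22848, cq4_6 i = true := range_step h4 hq4_6_4 (by norm_num)
  have h6 : ∀ i < 22880, cq4_6 i = true := range_step h5 hq4_6_5 (by norm_num)
  exact h6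
theorem q4_6 : (tab.perm 4 * tab.perm 6) ^ 2 = 1 :=
  dih_spec tab 4 6 2 (by decide) (by decide) rfl rfl (fun c hc => by
    obtain ⟨i, hi, rfl⟩ := hc
    exact hq4_6 i hi)
noncomputable def cq5_6 (i : ℕ) : Bool := (fun c => (fun d1 => @Bool.rec (fun _ => Bool) ((fun d2 => @Bool.rec (fun _ => Bool) ((fun d3 => @Bool.rec (fun _ => Bool) ((fun d4 => @Bool.rec (fun _ => Bool) ((fun d5 => @Bool.rec (fun _ => Bool) ((fun d6 => @Bool.rec (fun _ => Bool) ((fun d7 => @Bool.rec (fun _ => Bool) ((fun d8 => @Bool.rec (fun _ => Bool) (Nat.beq d8 c) true (Nat.blt d8 c)) (f6 (d7))) true (Nat.blt d7 c)) (f5 (d6))) true (Nat.blt d6 c)) (f6 (d5))) true (Nat.blt d5 c)) (f5 (d4))) true (Nat.blt d4 c)) (f6 (d3))) true (Nat.blt d3 c)) (f5 (d2))) true (Nat.blt d2 c)) (f6 (d1))) true (Nat.blt d1 c)) (f5 (c))) (Nat.mul 19 i)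
theorem hq5_6_0 : all2 cq5_6 14 0 = true := by decide +kernel
theorem hq5_6_1 : all2 cq5_6 12 16384 = true := by decide +kernel
theorem hq5_6_2 : all2 cq5_6 11 20480 = true := by decide +kernel
theorem hq5_6_3 : all2 cq5_6 8 22528 = true := by decide +kernel
theorem hq5_6_4 : all2 cq5_6 6 22784 = true := by decide +kernel
theorem hq5_6_5 : all2 cq5_6 5 22848 = true := by decide +kernel
theorem hq5_6 : ∀ i < 22880, cq5_6 i = true := by
  have h0 : ∀ i < 0, cq5_6 i = true := fun i hi => absurd hi (Nat.not_lt_zero i)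
  have h1 : ∀ i < 16384, cq5_6 i = true := range_step h0 hq5_6_0 (by norm_num)
  have h2 : ∀ i < 20480, cq5_6 i = true := range_step h1 hq5_6_1 (by norm_num)
  have h3 : ∀ i < 22528, cq5_6 i = true := range_step h2 hq5_6_2 (by norm_num)
  have h4 : ∀ i < 22784, cq5_6 i = true := range_step h3 hq5_6_3 (by norm_num)
  have h5 : ∀ i < 22848, cq5_6 i = true := range_step h4 hq5_6_4 (by norm_num)
  have h6 : ∀ i < 22880, cq5_6 i = true := range_step h5 hq5_6_5 (by norm_num)
  exact h6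
theorem q5_6 : (tab.perm 5 * tab.perm 6) ^ 4 = 1 :=
  dih_spec tab 5 6 4 (by decide) (by decide) rfl rfl (fun c hc => by
    obtain ⟨i, hi, rfl⟩ := hc
    exact hq5_6 i hi)
noncomputable def cv0 (i : ℕ) : Bool := (fun c => (fun d1 => @Bool.rec (fun _ => Bool) (Nat.beq d1 c) true (Nat.blt d1 c)) (f2 (f3 (f2 (f3 (f2 (f3 (f2 (f3 (f0 (c))))))))))) (Nat.mul 19 i)
theorem hv0_0 : all2 cv0 13 0 = true := by decide +kernel
theorem hv0_1 : all2 cv0 13 8192 = true := by decide +kernel
theorem hv0_2 : all2 cv0 12 16384 = true := by decide +kernel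
theorem hv0_3 : all2 cv0 11 20480 = true := by decide +kernel
theorem hv0_4 : all2 cv0 8 22528 = true := by decide +kernel
theorem hv0_5 : all2 cv0 6 22784 = true := by decide +kernel
theorem hv0_6 : all2 cv0 5 22848 = true := by decide +kernel
theorem hv0 : ∀ i < 22880, cv0 i = true := by
  have h0 : ∀ i < 0, cv0 i = true := fun i hi => absurd hi (Nat.not_lt_zero i)
  have h1 : ∀ i < 8192, cv0 i = true := range_step h0 hv0_0 (by norm_num)
  have h2 : ∀ i < 16384, cv0 i = true := range_step h1 hv0_1 (by norm_num)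
  have h3 : ∀ i < 20480, cv0 i = true := range_step h2 hv0_2 (by norm_num)
  have h4 : ∀ i < 22528, cv0 i = true := range_step h3 hv0_3 (by norm_num)
  have h5 : ∀ i < 22784, cv0 i = true := range_step h4 hv0_4 (by norm_num)
  have h6 : ∀ i < 22848, cv0 i = true := range_step h5 hv0_5 (by norm_num)
  have h7 : ∀ i < 22880, cv0 i = true := range_step h6 hv0_6 (by norm_num)
  exact h7
theorem v0 : wd tab.perm [0, 3, 2, 3, 2, 3, 2, 3, 2] ^ 1 = 1 :=
  pow_spec tab [0, 3, 2, 3, 2, 3, 2, 3, 2] 1 (by decide) (fun c hc => by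
    obtain ⟨i, hi, rfl⟩ := hc
    exact hv0 i hi)
noncomputable def cv1 (i : ℕ) : Bool := (fun c => (fun d1 => @Bool.rec (fun _ => Bool) (Nat.beq d1 c) true (Nat.blt d1 c)) (f5 (f6 (f5 (f6 (f0 (c))))))) (Nat.mul 19 i)
theorem hv1_0 : all2 cv1 13 0 = true := by decide +kernel
theorem hv1_1 : all2 cv1 13 8192 = true := by decide +kernel
theorem hv1_2 : all2 cv1 12 16384 = true := by decide +kernel
theorem hv1_3 : all2 cv1 11 20480 = true := by decide +kernel
theorem hv1_4 : all2 cv1 8 22528 = true := by decide +kernel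
theorem hv1_5 : all2 cv1 6 22784 = true := by decide +kernel
theorem hv1_6 : all2 cv1 5 22848 = true := by decide +kernel
theorem hv1 : ∀ i < 22880, cv1 i = true := by
  have h0 : ∀ i < 0, cv1 i = true := fun i hi => absurd hi (Nat.not_lt_zero i)
  have h1 : ∀ i < 8192, cv1 i = true := range_step h0 hv1_0 (by norm_num)
  have h2 : ∀ i < 16384, cv1 i = true := range_step h1 hv1_1 (by norm_num)
  have h3 : ∀ i < 20480, cv1 i = true := range_step h2 hv1_2 (by norm_num)
  have h4 : ∀ i < 22528, cv1 i = true := range_step h3 hv1_3 (by norm_num)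
  have h5 : ∀ i < 22784, cv1 i = true := range_step h4 hv1_4 (by norm_num)
  have h6 : ∀ i < 22848, cv1 i = true := range_step h5 hv1_5 (by norm_num)
  have h7 : ∀ i < 22880, cv1 i = true := range_step h6 hv1_6 (by norm_num)
  exact h7
theorem v1 : wd tab.perm [0, 6, 5, 6, 5] ^ 1 = 1 :=
  pow_spec tab [0, 6, 5, 6, 5] 1 (by decide) (fun c hc => by
    obtain ⟨i, hi, rfl⟩ := hc
    exact hv1 i hi)
noncomputable def cv2 (i : ℕ) : Bool := (fun c => (fun d1 => @Bool.rec (fun _ => Bool) ((fun d2 => @Bool.rec (fun _ => Bool) ((fun d3 => @Bool.rec (fun _ => Bool) ((fun d4 => @Bool.rec (fun _ => Bool) ((fun d5 => @Bool.rec (fun _ => Bool) (Nat.beq d5 c) true (Nat.blt d5 c)) (f5 (f2 (f1 (f0 (d4)))))) true (Nat.blt d4 c)) (f5 (f2 (f1 (f0 (d3)))))) true (Nat.blt d3 c)) (f5 (f2 (f1 (f0 (d2)))))) true (Nat.blt d2 c)) (f5 (f2 (f1 (f0 (d1)))))) true (Nat.blt d1 c)) (f5 (f2 (f1 (f0 (c)))))) (Nat.mul 19 i)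
theorem hv2_0 : all2 cv2 12 0 = true := by decide +kernel
theorem hv2_1 : all2 cv2 12 4096 = true := by decide +kernel
theorem hv2_2 : all2 cv2 13 8192 = true := by decide +kernel
theorem hv2_3 : all2 cv2 12 16384 = true := by decide +kernel
theorem hv2_4 : all2 cv2 11 20480 = true := by decide +kernel
theorem hv2_5 : all2 cv2 8 22528 = true := by decide +kernel
theorem hv2_6 : all2 cv2 6 22784 = true := by decide +kernel
theorem hv2_7 : all2 cv2 5 22848 = true := by decide +kernel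
theorem hv2 : ∀ i < 22880, cv2 i = true := by
  have h0 : ∀ i < 0, cv2 i = true := fun i hi => absurd hi (Nat.not_lt_zero i)
  have h1 : ∀ i < 4096, cv2 i = true := range_step h0 hv2_0 (by norm_num)
  have h2 : ∀ i < 8192, cv2 i = true := range_step h1 hv2_1 (by norm_num)
  have h3 : ∀ i < 16384, cv2 i = true := range_step h2 hv2_2 (by norm_num)
  have h4 : ∀ i < 20480, cv2 i = true := range_step h3 hv2_3 (by norm_num)
  have h5 : ∀ i < 22528, cv2 i = true := range_step h4 hv2_4 (by norm_num)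
  have h6 : ∀ i < 22784, cv2 i = true := range_step h5 hv2_5 (by norm_num)
  have h7 : ∀ i < 22848, cv2 i = true := range_step h6 hv2_6 (by norm_num)
  have h8 : ∀ i < 22880, cv2 i = true := range_step h7 hv2_7 (by norm_num)
  exact h8
theorem v2 : wd tab.perm [0, 1, 2, 5] ^ 5 = 1 :=
  pow_spec tab [0, 1, 2, 5] 5 (by decide) (fun c hc => by
    obtain ⟨i, hi, rfl⟩ := hc
    exact hv2 i hi)
noncomputable def cv3 (i : ℕ) : Bool := (fun c => (fun d1 => @Bool.rec (fun _ => Bool) ((fun d2 => @Bool.rec (fun _ => Bool) ((fun d3 => @Bool.rec (fun _ => Bool) ((fun d4 => @Bool.rec (fun _ => Bool) ((fun d5 => @Bool.rec (fun _ => Bool) (Nat.beq d5 c) true (Nat.blt d5 c)) (f6 (f5 (f1 (d4))))) true (Nat.blt d4 c)) (f6 (f5 (f1 (d3))))) true (Nat.blt d3 c)) (f6 (f5 (f1 (d2))))) true (Nat.blt d2 c)) (f6 (f5 (f1 (d1))))) true (Nat.blt d1 c)) (f6 (f5 (f1 (c))))) (Nat.mul 19 i)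
theorem hv3_0 : all2 cv3 13 0 = true := by decide +kernel
theorem hv3_1 : all2 cv3 13 8192 = true := by decide +kernel
theorem hv3_2 : all2 cv3 12 16384 = true := by decide +kernel
theorem hv3_3 : all2 cv3 11 20480 = true := by decide +kernel
theorem hv3_4 : all2 cv3 8 22528 = true := by decide +kernel
theorem hv3_5 : all2 cv3 6 22784 = true := by decide +kernel
theorem hv3_6 : all2 cv3 5 22848 = true := by decide +kernel
theorem hv3 : ∀ i < 22880, cv3 i = true := by
  have h0 : ∀ i < 0, cv3 i = true := fun i hi => absurd hi (Nat.not_lt_zero i)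
  have h1 : ∀ i < 8192, cv3 i = true := range_step h0 hv3_0 (by norm_num)
  have h2 : ∀ i < 16384, cv3 i = true := range_step h1 hv3_1 (by norm_num)
  have h3 : ∀ i < 20480, cv3 i = true := range_step h2 hv3_2 (by norm_num)
  have h4 : ∀ i < 22528, cv3 i = true := range_step h3 hv3_3 (by norm_num)
  have h5 : ∀ i < 22784, cv3 i = true := range_step h4 hv3_4 (by norm_num)
  have h6 : ∀ i < 22848, cv3 i = true := range_step h5 hv3_5 (by norm_num)
  have h7 : ∀ i < 22880, cv3 i = true := range_step h6 hv3_6 (by norm_num)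
  exact h7
theorem v3 : wd tab.perm [1, 5, 6] ^ 5 = 1 :=
  pow_spec tab [1, 5, 6] 5 (by decide) (fun c hc => by
    obtain ⟨i, hi, rfl⟩ := hc
    exact hv3 i hi)
noncomputable def cv4 (i : ℕ) : Bool := (fun c => (fun d1 => @Bool.rec (fun _ => Bool) ((fun d2 => @Bool.rec (fun _ => Bool) ((fun d3 => @Bool.rec (fun _ => Bool) (Nat.beq d3 c) true (Nat.blt d3 c)) (f4 (f3 (f2 (f3 (f2 (f1 (f3 (f2 (f3 (f2 (f1 (f3 (f2 (f3 (f2 (f1 (f3 (f2 (f3 (f2 (f1 (f3 (f2 (f3 (f2 (f1 (d2)))))))))))))))))))))))))))) true (Nat.blt d2 c)) (f4 (f3 (f2 (f3 (f2 (f1 (f3 (f2 (f3 (f2 (f1 (f3 (f2 (f3 (f2 (f1 (f3 (f2 (f3 (f2 (f1 (f3 (f2 (f3 (f2 (f1 (d1)))))))))))))))))))))))))))) true (Nat.blt d1 c)) (f4 (f3 (f2 (f3 (f2 (f1 (f3 (f2 (f3 (f2 (f1 (f3 (f2 (f3 (f2 (f1 (f3 (f2 (f3 (f2 (f1 (f3 (f2 (f3 (f2 (f1 (c)))))))))))))))))))))))))))) (Nat.mul 19 i)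
theorem hv4_0 : all2 cv4 10 0 = true := by decide +kernel
theorem hv4_1 : all2 cv4 10 1024 = true := by decide +kernel
theorem hv4_2 : all2 cv4 10 2048 = true := by decide +kernel
theorem hv4_3 : all2 cv4 10 3072 = true := by decide +kernel
theorem hv4_4 : all2 cv4 10 4096 = true := by decide +kernel
theorem hv4_5 : all2 cv4 10 5120 = true := by decide +kernel
theorem hv4_6 : all2 cv4 10 6144 = true := by decide +kernel
theorem hv4_7 : all2 cv4 10 7168 = true := by decide +kernel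
theorem hv4_8 : all2 cv4 10 8192 = true := by decide +kernel
theorem hv4_9 : all2 cv4 10 9216 = true := by decide +kernel
theorem hv4_10 : all2 cv4 10 10240 = true := by decide +kernel
theorem hv4_11 : all2 cv4 10 11264 = true := by decide +kernel
theorem hv4_12 : all2 cv4 10 12288 = true := by decide +kernel
theorem hv4_13 : all2 cv4 10 13312 = true := by decide +kernel
theorem hv4_14 : all2 cv4 10 14336 = true := by decide +kernel
theorem hv4_15 : all2 cv4 10 15360 = true := by decide +kernel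
theorem hv4_16 : all2 cv4 10 16384 = true := by decide +kernel
theorem hv4_17 : all2 cv4 10 17408 = true := by decide +kernel
theorem hv4_18 : all2 cv4 10 18432 = true := by decide +kernel
theorem hv4_19 : all2 cv4 10 19456 = true := by decide +kernel
theorem hv4_20 : all2 cv4 11 20480 = true := by decide +kernel
theorem hv4_21 : all2 cv4 8 22528 = true := by decide +kernel
theorem hv4_22 : all2 cv4 6 22784 = true := by decide +kernel
theorem hv4_23 : all2 cv4 5 22848 = true := by decide +kernel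
theorem hv4 : ∀ i < 22880, cv4 i = true := by
  have h0 : ∀ i < 0, cv4 i = true := fun i hi => absurd hi (Nat.not_lt_zero i)
  have h1 : ∀ i < 1024, cv4 i = true := range_step h0 hv4_0 (by norm_num)
  have h2 : ∀ i < 2048, cv4 i = true := range_step h1 hv4_1 (by norm_num)
  have h3 : ∀ i < 3072, cv4 i = true := range_step h2 hv4_2 (by norm_num)
  have h4 : ∀ i < 4096, cv4 i = true := range_step h3 hv4_3 (by norm_num)
  have h5 : ∀ i < 5120, cv4 i = true := range_step h4 hv4_4 (by norm_num)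
  have h6 : ∀ i < 6144, cv4 i = true := range_step h5 hv4_5 (by norm_num)
  have h7 : ∀ i < 7168, cv4 i = true := range_step h6 hv4_6 (by norm_num)
  have h8 : ∀ i < 8192, cv4 i = true := range_step h7 hv4_7 (by norm_num)
  have h9 : ∀ i < 9216, cv4 i = true := range_step h8 hv4_8 (by norm_num)
  have h10 : ∀ i < 10240, cv4 i = true := range_step h9 hv4_9 (by norm_num)
  have h11 : ∀ i < 11264, cv4 i = true := range_step h10 hv4_10 (by norm_num)
  have h12 : ∀ i < 12288, cv4 i = true := range_step h11 hv4_11 (by norm_num)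
  have h13 : ∀ i < 13312, cv4 i = true := range_step h12 hv4_12 (by norm_num)
  have h14 : ∀ i < 14336, cv4 i = true := range_step h13 hv4_13 (by norm_num)
  have h15 : ∀ i < 15360, cv4 i = true := range_step h14 hv4_14 (by norm_num)
  have h16 : ∀ i < 16384, cv4 i = true := range_step h15 hv4_15 (by norm_num)
  have h17 : ∀ i < 17408, cv4 i = true := range_step h16 hv4_16 (by norm_num)
  have h18 : ∀ i < 18432, cv4 i = true := range_step h17 hv4_17 (by norm_num)
  have h19 : ∀ i < 19456, cv4 i = true := range_step h18 hv4_18 (by norm_num)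
  have h20 : ∀ i < 20480, cv4 i = true := range_step h19 hv4_19 (by norm_num)
  have h21 : ∀ i < 22528, cv4 i = true := range_step h20 hv4_20 (by norm_num)
  have h22 : ∀ i < 22784, cv4 i = true := range_step h21 hv4_21 (by norm_num)
  have h23 : ∀ i < 22848, cv4 i = true := range_step h22 hv4_22 (by norm_num)
  have h24 : ∀ i < 22880, cv4 i = true := range_step h23 hv4_23 (by norm_num)
  exact h24
theorem v4 : wd tab.perm [1, 2, 3, 2, 3, 1, 2, 3, 2, 3, 1, 2, 3, 2, 3, 1, 2, 3, 2, 3, 1, 2, 3, 2, 3, 4] ^ 3 = 1 :=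
  pow_spec tab [1, 2, 3, 2, 3, 1, 2, 3, 2, 3, 1, 2, 3, 2, 3, 1, 2, 3, 2, 3, 1, 2, 3, 2, 3, 4] 3 (by decide) (fun c hc => by
    obtain ⟨i, hi, rfl⟩ := hc
    exact hv4 i hi)
end Cfsg.Agent.H5TC.Suz22880
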