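import Cfsg.Agent.Lib.H5TCY14080P
import Cfsg.Agent.Lib.H5TCFi22G

set_option autoImplicit false

namespace Cfsg.Agent.H5TC.Y14080

open Cfsg.Agent.H5TC

theorem hom : ∃ φ : Cfsg.Spor.Fi22 →* Equiv.Perm {c // Vc E n c}, ∀ y < k, φ (Fi22G.γ y) = tab.perm y :=
  Fi22G.hom tab.perm (fun y hy => perm_sq tab y hy (by have hy' : y < 9 := hy; interval_cases y <;> rfl)) q0_1 q0_2 q0_3 q0_4 q0_5 q0_6 q0_7 q0_8 q1_2 q1_3 q1_4 q1_5 q1_6 q1_7 q1_8 q2_3 q2_4 q2_5 q2_6 q2_7 q2_8 q3_4 q3_5 q3_6 q3_7 q3_8 q4_5 q4_6 q4_7 q4_8 q5_6 q5_7 q5_8 q6_7 q6_8 q7_8 v0 v1 v2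
end Cfsg.Agent.H5TC.Y14080
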