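import Cfsg.Agent.Lib.H5TC7
import Cfsg.Agent.Lib.H5TCY14080H
import Cfsg.Agent.Lib.H5TCY14080M

set_option autoImplicit false
set_option linter.unusedSimpArgs false

namespace Cfsg.Agent.H5TC.Y14080

open Cfsg.Agent.H5TC

abbrev HH : Subgroup Cfsg.Spor.Fi22 := (((Subgroup.closure ({Cfsg.Spor.Fi22.b, Cfsg.Spor.Fi22.c, Cfsg.Spor.Fi22.d, Cfsg.Spor.Fi22.e, Cfsg.Spor.Fi22.f, Cfsg.Spor.Fi22.g, Cfsg.Spor.Fi22.h, Cfsg.Spor.Fi22.i} : Set (FreeGroup Cfsg.Spor.Fi22.Gen))).map (PresentedGroup.mk (Cfsg.Spor.coxRelators Cfsg.Spor.Fi22.edges ∪ {r | r ∈ Cfsg.Spor.Fi22.extra}))))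
theorem sw0 : (PresentedGroup.mk (Cfsg.Spor.coxRelators Cfsg.Spor.Fi22.edges ∪ {r | r ∈ Cfsg.Spor.Fi22.extra})) (Cfsg.Spor.Fi22.b) = wd Fi22G.γ [1] := by
  rw [wd_cons, wd_nil, mul_one]
  rfl
theorem sw1 : (PresentedGroup.mk (Cfsg.Spor.coxRelators Cfsg.Spor.Fi22.edges ∪ {r | r ∈ Cfsg.Spor.Fi22.extra})) (Cfsg.Spor.Fi22.c) = wd Fi22G.γ [2] := by
  rw [wd_cons, wd_nil, mul_one]
  rfl
theorem sw2 : (PresentedGroup.mk (Cfsg.Spor.coxRelators Cfsg.Spor.Fi22.edges ∪ {r | r ∈ Cfsg.Spor.Fi22.extra})) (Cfsg.Spor.Fi22.d) = wd Fi22G.γ [3] := by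
  rw [wd_cons, wd_nil, mul_one]
  rfl
theorem sw3 : (PresentedGroup.mk (Cfsg.Spor.coxRelators Cfsg.Spor.Fi22.edges ∪ {r | r ∈ Cfsg.Spor.Fi22.extra})) (Cfsg.Spor.Fi22.e) = wd Fi22G.γ [4] := by
  rw [wd_cons, wd_nil, mul_one]
  rfl
theorem sw4 : (PresentedGroup.mk (Cfsg.Spor.coxRelators Cfsg.Spor.Fi22.edges ∪ {r | r ∈ Cfsg.Spor.Fi22.extra})) (Cfsg.Spor.Fi22.f) = wd Fi22G.γ [5] := by
  rw [wd_cons, wd_nil, mul_one]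
  rfl
theorem sw5 : (PresentedGroup.mk (Cfsg.Spor.coxRelators Cfsg.Spor.Fi22.edges ∪ {r | r ∈ Cfsg.Spor.Fi22.extra})) (Cfsg.Spor.Fi22.g) = wd Fi22G.γ [6] := by
  rw [wd_cons, wd_nil, mul_one]
  rfl
theorem sw6 : (PresentedGroup.mk (Cfsg.Spor.coxRelators Cfsg.Spor.Fi22.edges ∪ {r | r ∈ Cfsg.Spor.Fi22.extra})) (Cfsg.Spor.Fi22.h) = wd Fi22G.γ [7] := by
  rw [wd_cons, wd_nil, mul_one]
  rfl
theorem sw7 : (PresentedGroup.mk (Cfsg.Spor.coxRelators Cfsg.Spor.Fi22.edges ∪ {r | r ∈ Cfsg.Spor.Fi22.extra})) (Cfsg.Spor.Fi22.i) = wd Fi22G.γ [8] := by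
  rw [wd_cons, wd_nil, mul_one]
  rfl
theorem HH_eq : HH = Subgroup.closure {g | ∃ w ∈ subw, g = wd Fi22G.γ w} := by
  apply map_closure_eq
  · rintro s (rfl | rfl | rfl | rfl | rfl | rfl | rfl | rfl)
    · exact ⟨[1], by simp [subw], sw0⟩
    · exact ⟨[2], by simp [subw], sw1⟩
    · exact ⟨[3], by simp [subw], sw2⟩
    · exact ⟨[4], by simp [subw], sw3⟩
    · exact ⟨[5], by simp [subw], sw4⟩
    · exact ⟨[6], by simp [subw], sw5⟩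
    · exact ⟨[7], by simp [subw], sw6⟩
    · exact ⟨[8], by simp [subw], sw7⟩
  · intro w hw
    simp only [subw, List.mem_cons, List.not_mem_nil, or_false] at hw
    rcases hw with rfl | rfl | rfl | rfl | rfl | rfl | rfl | rfl
    · exact ⟨Cfsg.Spor.Fi22.b, by simp, sw0⟩
    · exact ⟨Cfsg.Spor.Fi22.c, by simp, sw1⟩
    · exact ⟨Cfsg.Spor.Fi22.d, by simp, sw2⟩
    · exact ⟨Cfsg.Spor.Fi22.e, by simp, sw3⟩
    · exact ⟨Cfsg.Spor.Fi22.f, by simp, sw4⟩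
    · exact ⟨Cfsg.Spor.Fi22.g, by simp, sw5⟩
    · exact ⟨Cfsg.Spor.Fi22.h, by simp, sw6⟩
    · exact ⟨Cfsg.Spor.Fi22.i, by simp, sw7⟩
theorem hinv : ∀ y < k, Fi22G.γ (inv y) = (Fi22G.γ y)⁻¹ := by
  intro y hy
  rw [Fi22G.γ_inv y hy]
  have hy' : y < 9 := hy
  interval_cases y <;> rfl

theorem hr : ∀ r ∈ rels, wd Fi22G.γ r = 1 := by
  intro r hr
  have : r ∈ Fi22G.fullrels := by
    revert r
    decide +kernel
  exact Fi22G.fullrels_spec r this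

theorem subw_lt' : ∀ w ∈ subw, ∀ y ∈ w, y < k := ltOK_spec _ (by decide +kernel)

theorem core : HH.index = n ∧ ∃ φ : Cfsg.Spor.Fi22 →* Equiv.Perm {c // Vc E n c}, ∃ p : ℕ → Cfsg.Spor.Fi22 ⧸ HH,
    p 0 = ((1 : Cfsg.Spor.Fi22) : Cfsg.Spor.Fi22 ⧸ HH) ∧ (∀ y < k, φ (Fi22G.γ y) = tab.perm y) ∧
      Function.Bijective (fun c : {c // Vc E n c} => p c) ∧
      ∀ (g : Cfsg.Spor.Fi22) (c : {c // Vc E n c}), p (φ g c : {c // Vc E n c}) = g • p c := by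
  obtain ⟨φ, hφ⟩ := hom
  obtain ⟨h1, p, hp0, h2, h3⟩ := full_thm Fi22G.γ tab (by norm_num) hinv Fi22G.gen_top φ hφ htree HH subw subw_lt' HH_eq (by decide +kernel)
    (main Fi22G.γ _ hinv hr (fix_words Fi22G.γ HH_eq))
  exact ⟨h1, φ, p, hp0, hφ, h2, h3⟩

end Cfsg.Agent.H5TC.Y14080
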