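import Cfsg.Agent.Lib.H5TCY14080
import Cfsg.Agent.Lib.H5TC6

set_option autoImplicit false
set_option maxRecDepth 1000000
set_option maxHeartbeats 0
set_option Elab.async false

namespace Cfsg.Agent.H5TC.Y14080

open Cfsg.Agent.H5TC

noncomputable def cP (i : ℕ) : Bool := chkP T PV PX k 18 253440 (Nat.mul 18 (Nat.succ i))
theorem hP_0 : all2 cP 13 0 = true := by decide +kernel
theorem hP_1 : all2 cP 12 8192 = true := by decide +kernel
theorem hP_2 : all2 cP 10 12288 = true := by decide +kernel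
theorem hP_3 : all2 cP 9 13312 = true := by decide +kernel
theorem hP_4 : all2 cP 7 13824 = true := by decide +kernel
theorem hP_5 : all2 cP 6 13952 = true := by decide +kernel
theorem hP_6 : all2 cP 5 14016 = true := by decide +kernel
theorem hP_7 : all2 cP 4 14048 = true := by decide +kernel
theorem hP_8 : all2 cP 3 14064 = true := by decide +kernel
theorem hP_9 : all2 cP 2 14072 = true := by decide +kernel
theorem hP_10 : all2 cP 1 14076 = true := by decide +kernel
theorem hP_11 : all2 cP 0 14078 = true := by decide +kernel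
theorem hP : ∀ i < 14079, cP i = true := by
  have h0 : ∀ i < 0, cP i = true := fun i hi => absurd hi (Nat.not_lt_zero i)
  have h1 : ∀ i < 8192, cP i = true := range_step h0 hP_0 (by norm_num)
  have h2 : ∀ i < 12288, cP i = true := range_step h1 hP_1 (by norm_num)
  have h3 : ∀ i < 13312, cP i = true := range_step h2 hP_2 (by norm_num)
  have h4 : ∀ i < 13824, cP i = true := range_step h3 hP_3 (by norm_num)
  have h5 : ∀ i < 13952, cP i = true := range_step h4 hP_4 (by norm_num)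
  have h6 : ∀ i < 14016, cP i = true := range_step h5 hP_5 (by norm_num)
  have h7 : ∀ i < 14048, cP i = true := range_step h6 hP_6 (by norm_num)
  have h8 : ∀ i < 14064, cP i = true := range_step h7 hP_7 (by norm_num)
  have h9 : ∀ i < 14072, cP i = true := range_step h8 hP_8 (by norm_num)
  have h10 : ∀ i < 14076, cP i = true := range_step h9 hP_9 (by norm_num)
  have h11 : ∀ i < 14078, cP i = true := range_step h10 hP_10 (by norm_num)
  have h12 : ∀ i < 14079, cP i = true := range_step h11 hP_11 (by norm_num)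
  exact h12
theorem htree : ∀ c, Vc E n c → c ≠ 0 → ∃ y < k, ∃ d < c, Vc E n d ∧ T y d = c :=
  htree_of hP
attribute [local irreducible] f0 f1 f2 f3 f4 f5 f6 f7 f8
noncomputable def cq0_1 (i : ℕ) : Bool := (fun c => (fun d1 => @Bool.rec (fun _ => Bool) ((fun d2 => @Bool.rec (fun _ => Bool) ((fun d3 => @Bool.rec (fun _ => Bool) ((fun d4 => @Bool.rec (fun _ => Bool) ((fun d5 => @Bool.rec (fun _ => Bool) ((fun d6 => @Bool.rec (fun _ => Bool) (Nat.beq d6 c) true (Nat.blt d6 c)) (f1 (d5))) true (Nat.blt d5 c)) (f0 (d4))) true (Nat.blt d4 c)) (f1 (d3))) true (Nat.blt d3 c)) (f0 (d2))) true (Nat.blt d2 c)) (f1 (d1))) true (Nat.blt d1 c)) (f0 (c))) (Nat.mul 18 i)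
theorem hq0_1_0 : all2 cq0_1 13 0 = true := by decide +kernel
theorem hq0_1_1 : all2 cq0_1 12 8192 = true := by decide +kernel
theorem hq0_1_2 : all2 cq0_1 10 12288 = true := by decide +kernel
theorem hq0_1_3 : all2 cq0_1 9 13312 = true := by decide +kernel
theorem hq0_1_4 : all2 cq0_1 8 13824 = true := by decide +kernel
theorem hq0_1 : ∀ i < 14080, cq0_1 i = true := by
  have h0 : ∀ i < 0, cq0_1 i = true := fun i hi => absurd hi (Nat.not_lt_zero i)
  have h1 : ∀ i < 8192, cq0_1 i = true := range_step h0 hq0_1_0 (by norm_num)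
  have h2 : ∀ i < 12288, cq0_1 i = true := range_step h1 hq0_1_1 (by norm_num)
  have h3 : ∀ i < 13312, cq0_1 i = true := range_step h2 hq0_1_2 (by norm_num)
  have h4 : ∀ i < 13824, cq0_1 i = true := range_step h3 hq0_1_3 (by norm_num)
  have h5 : ∀ i < 14080, cq0_1 i = true := range_step h4 hq0_1_4 (by norm_num)
  exact h5
theorem q0_1 : (tab.perm 0 * tab.perm 1) ^ 3 = 1 :=
  dih_spec tab 0 1 3 (by decide) (by decide) rfl rfl (fun c hc => by
    obtain ⟨i, hi, rfl⟩ := hc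
    exact hq0_1 i hi)
noncomputable def cq0_2 (i : ℕ) : Bool := (fun c => (fun d1 => @Bool.rec (fun _ => Bool) ((fun d2 => @Bool.rec (fun _ => Bool) ((fun d3 => @Bool.rec (fun _ => Bool) ((fun d4 => @Bool.rec (fun _ => Bool) (Nat.beq d4 c) true (Nat.blt d4 c)) (f2 (d3))) true (Nat.blt d3 c)) (f0 (d2))) true (Nat.blt d2 c)) (f2 (d1))) true (Nat.blt d1 c)) (f0 (c))) (Nat.mul 18 i)
theorem hq0_2_0 : all2 cq0_2 13 0 = true := by decide +kernel
theorem hq0_2_1 : all2 cq0_2 12 8192 = true := by decide +kernel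
theorem hq0_2_2 : all2 cq0_2 10 12288 = true := by decide +kernel
theorem hq0_2_3 : all2 cq0_2 9 13312 = true := by decide +kernel
theorem hq0_2_4 : all2 cq0_2 8 13824 = true := by decide +kernel
theorem hq0_2 : ∀ i < 14080, cq0_2 i = true := by
  have h0 : ∀ i < 0, cq0_2 i = true := fun i hi => absurd hi (Nat.not_lt_zero i)
  have h1 : ∀ i < 8192, cq0_2 i = true := range_step h0 hq0_2_0 (by norm_num)
  have h2 : ∀ i < 12288, cq0_2 i = true := range_step h1 hq0_2_1 (by norm_num)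
  have h3 : ∀ i < 13312, cq0_2 i = true := range_step h2 hq0_2_2 (by norm_num)
  have h4 : ∀ i < 13824, cq0_2 i = true := range_step h3 hq0_2_3 (by norm_num)
  have h5 : ∀ i < 14080, cq0_2 i = true := range_step h4 hq0_2_4 (by norm_num)
  exact h5
theorem q0_2 : (tab.perm 0 * tab.perm 2) ^ 2 = 1 :=
  dih_spec tab 0 2 2 (by decide) (by decide) rfl rfl (fun c hc => by
    obtain ⟨i, hi, rfl⟩ := hc
    exact hq0_2 i hi)
noncomputable def cq0_3 (i : ℕ) : Bool := (fun c => (fun d1 => @Bool.rec (fun _ => Bool) ((fun d2 => @Bool.rec (fun _ => Bool) ((fun d3 => @Bool.rec (fun _ => Bool) ((fun d4 => @Bool.rec (fun _ => Bool) (Nat.beq d4 c) true (Nat.blt d4 c)) (f3 (d3))) true (Nat.blt d3 c)) (f0 (d2))) true (Nat.blt d2 c)) (f3 (d1))) true (Nat.blt d1 c)) (f0 (c))) (Nat.mul 18 i)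
theorem hq0_3_0 : all2 cq0_3 13 0 = true := by decide +kernel
theorem hq0_3_1 : all2 cq0_3 12 8192 = true := by decide +kernel
theorem hq0_3_2 : all2 cq0_3 10 12288 = true := by decide +kernel
theorem hq0_3_3 : all2 cq0_3 9 13312 = true := by decide +kernel
theorem hq0_3_4 : all2 cq0_3 8 13824 = true := by decide +kernel
theorem hq0_3 : ∀ i < 14080, cq0_3 i = true := by
  have h0 : ∀ i < 0, cq0_3 i = true := fun i hi => absurd hi (Nat.not_lt_zero i)
  have h1 : ∀ i < 8192, cq0_3 i = true := range_step h0 hq0_3_0 (by norm_num)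
  have h2 : ∀ i < 12288, cq0_3 i = true := range_step h1 hq0_3_1 (by norm_num)
  have h3 : ∀ i < 13312, cq0_3 i = true := range_step h2 hq0_3_2 (by norm_num)
  have h4 : ∀ i < 13824, cq0_3 i = true := range_step h3 hq0_3_3 (by norm_num)
  have h5 : ∀ i < 14080, cq0_3 i = true := range_step h4 hq0_3_4 (by norm_num)
  exact h5
theorem q0_3 : (tab.perm 0 * tab.perm 3) ^ 2 = 1 :=
  dih_spec tab 0 3 2 (by decide) (by decide) rfl rfl (fun c hc => by
    obtain ⟨i, hi, rfl⟩ := hc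
    exact hq0_3 i hi)
noncomputable def cq0_4 (i : ℕ) : Bool := (fun c => (fun d1 => @Bool.rec (fun _ => Bool) ((fun d2 => @Bool.rec (fun _ => Bool) ((fun d3 => @Bool.rec (fun _ => Bool) ((fun d4 => @Bool.rec (fun _ => Bool) (Nat.beq d4 c) true (Nat.blt d4 c)) (f4 (d3))) true (Nat.blt d3 c)) (f0 (d2))) true (Nat.blt d2 c)) (f4 (d1))) true (Nat.blt d1 c)) (f0 (c))) (Nat.mul 18 i)
theorem hq0_4_0 : all2 cq0_4 13 0 = true := by decide +kernel
theorem hq0_4_1 : all2 cq0_4 12 8192 = true := by decide +kernel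
theorem hq0_4_2 : all2 cq0_4 10 12288 = true := by decide +kernel
theorem hq0_4_3 : all2 cq0_4 9 13312 = true := by decide +kernel
theorem hq0_4_4 : all2 cq0_4 8 13824 = true := by decide +kernel
theorem hq0_4 : ∀ i < 14080, cq0_4 i = true := by
  have h0 : ∀ i < 0, cq0_4 i = true := fun i hi => absurd hi (Nat.not_lt_zero i)
  have h1 : ∀ i < 8192, cq0_4 i = true := range_step h0 hq0_4_0 (by norm_num)
  have h2 : ∀ i < 12288, cq0_4 i = true := range_step h1 hq0_4_1 (by norm_num)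
  have h3 : ∀ i < 13312, cq0_4 i = true := range_step h2 hq0_4_2 (by norm_num)
  have h4 : ∀ i < 13824, cq0_4 i = true := range_step h3 hq0_4_3 (by norm_num)
  have h5 : ∀ i < 14080, cq0_4 i = true := range_step h4 hq0_4_4 (by norm_num)
  exact h5
theorem q0_4 : (tab.perm 0 * tab.perm 4) ^ 2 = 1 :=
  dih_spec tab 0 4 2 (by decide) (by decide) rfl rfl (fun c hc => by
    obtain ⟨i, hi, rfl⟩ := hc
    exact hq0_4 i hi)
noncomputable def cq0_5 (i : ℕ) : Bool := (fun c => (fun d1 => @Bool.rec (fun _ => Bool) ((fun d2 => @Bool.rec (fun _ => Bool) ((fun d3 => @Bool.rec (fun _ => Bool) ((fun d4 => @Bool.rec (fun _ => Bool) (Nat.beq d4 c) true (Nat.blt d4 c)) (f5 (d3))) true (Nat.blt d3 c)) (f0 (d2))) true (Nat.blt d2 c)) (f5 (d1))) true (Nat.blt d1 c)) (f0 (c))) (Nat.mul 18 i)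
theorem hq0_5_0 : all2 cq0_5 13 0 = true := by decide +kernel
theorem hq0_5_1 : all2 cq0_5 12 8192 = true := by decide +kernel
theorem hq0_5_2 : all2 cq0_5 10 12288 = true := by decide +kernel
theorem hq0_5_3 : all2 cq0_5 9 13312 = true := by decide +kernel
theorem hq0_5_4 : all2 cq0_5 8 13824 = true := by decide +kernel
theorem hq0_5 : ∀ i < 14080, cq0_5 i = true := by
  have h0 : ∀ i < 0, cq0_5 i = true := fun i hi => absurd hi (Nat.not_lt_zero i)
  have h1 : ∀ i < 8192, cq0_5 i = true := range_step h0 hq0_5_0 (by norm_num)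
  have h2 : ∀ i < 12288, cq0_5 i = true := range_step h1 hq0_5_1 (by norm_num)
  have h3 : ∀ i < 13312, cq0_5 i = true := range_step h2 hq0_5_2 (by norm_num)
  have h4 : ∀ i < 13824, cq0_5 i = true := range_step h3 hq0_5_3 (by norm_num)
  have h5 : ∀ i < 14080, cq0_5 i = true := range_step h4 hq0_5_4 (by norm_num)
  exact h5
theorem q0_5 : (tab.perm 0 * tab.perm 5) ^ 2 = 1 :=
  dih_spec tab 0 5 2 (by decide) (by decide) rfl rfl (fun c hc => by
    obtain ⟨i, hi, rfl⟩ := hc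
    exact hq0_5 i hi)
noncomputable def cq0_6 (i : ℕ) : Bool := (fun c => (fun d1 => @Bool.rec (fun _ => Bool) ((fun d2 => @Bool.rec (fun _ => Bool) ((fun d3 => @Bool.rec (fun _ => Bool) ((fun d4 => @Bool.rec (fun _ => Bool) (Nat.beq d4 c) true (Nat.blt d4 c)) (f6 (d3))) true (Nat.blt d3 c)) (f0 (d2))) true (Nat.blt d2 c)) (f6 (d1))) true (Nat.blt d1 c)) (f0 (c))) (Nat.mul 18 i)
theorem hq0_6_0 : all2 cq0_6 13 0 = true := by decide +kernel
theorem hq0_6_1 : all2 cq0_6 12 8192 = true := by decide +kernel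
theorem hq0_6_2 : all2 cq0_6 10 12288 = true := by decide +kernel
theorem hq0_6_3 : all2 cq0_6 9 13312 = true := by decide +kernel
theorem hq0_6_4 : all2 cq0_6 8 13824 = true := by decide +kernel
theorem hq0_6 : ∀ i < 14080, cq0_6 i = true := by
  have h0 : ∀ i < 0, cq0_6 i = true := fun i hi => absurd hi (Nat.not_lt_zero i)
  have h1 : ∀ i < 8192, cq0_6 i = true := range_step h0 hq0_6_0 (by norm_num)
  have h2 : ∀ i < 12288, cq0_6 i = true := range_step h1 hq0_6_1 (by norm_num)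
  have h3 : ∀ i < 13312, cq0_6 i = true := range_step h2 hq0_6_2 (by norm_num)
  have h4 : ∀ i < 13824, cq0_6 i = true := range_step h3 hq0_6_3 (by norm_num)
  have h5 : ∀ i < 14080, cq0_6 i = true := range_step h4 hq0_6_4 (by norm_num)
  exact h5
theorem q0_6 : (tab.perm 0 * tab.perm 6) ^ 2 = 1 :=
  dih_spec tab 0 6 2 (by decide) (by decide) rfl rfl (fun c hc => by
    obtain ⟨i, hi, rfl⟩ := hc
    exact hq0_6 i hi)
noncomputable def cq0_7 (i : ℕ) : Bool := (fun c => (fun d1 => @Bool.rec (fun _ => Bool) ((fun d2 => @Bool.rec (fun _ => Bool) ((fun d3 => @Bool.rec (fun _ => Bool) ((fun d4 => @Bool.rec (fun _ => Bool) (Nat.beq d4 c) true (Nat.blt d4 c)) (f7 (d3))) true (Nat.blt d3 c)) (f0 (d2))) true (Nat.blt d2 c)) (f7 (d1))) true (Nat.blt d1 c)) (f0 (c))) (Nat.mul 18 i)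
theorem hq0_7_0 : all2 cq0_7 13 0 = true := by decide +kernel
theorem hq0_7_1 : all2 cq0_7 12 8192 = true := by decide +kernel
theorem hq0_7_2 : all2 cq0_7 10 12288 = true := by decide +kernel
theorem hq0_7_3 : all2 cq0_7 9 13312 = true := by decide +kernel
theorem hq0_7_4 : all2 cq0_7 8 13824 = true := by decide +kernel
theorem hq0_7 : ∀ i < 14080, cq0_7 i = true := by
  have h0 : ∀ i < 0, cq0_7 i = true := fun i hi => absurd hi (Nat.not_lt_zero i)
  have h1 : ∀ i < 8192, cq0_7 i = true := range_step h0 hq0_7_0 (by norm_num)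
  have h2 : ∀ i < 12288, cq0_7 i = true := range_step h1 hq0_7_1 (by norm_num)
  have h3 : ∀ i < 13312, cq0_7 i = true := range_step h2 hq0_7_2 (by norm_num)
  have h4 : ∀ i < 13824, cq0_7 i = true := range_step h3 hq0_7_3 (by norm_num)
  have h5 : ∀ i < 14080, cq0_7 i = true := range_step h4 hq0_7_4 (by norm_num)
  exact h5
theorem q0_7 : (tab.perm 0 * tab.perm 7) ^ 2 = 1 :=
  dih_spec tab 0 7 2 (by decide) (by decide) rfl rfl (fun c hc => by
    obtain ⟨i, hi, rfl⟩ := hc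
    exact hq0_7 i hi)
noncomputable def cq0_8 (i : ℕ) : Bool := (fun c => (fun d1 => @Bool.rec (fun _ => Bool) ((fun d2 => @Bool.rec (fun _ => Bool) ((fun d3 => @Bool.rec (fun _ => Bool) ((fun d4 => @Bool.rec (fun _ => Bool) (Nat.beq d4 c) true (Nat.blt d4 c)) (f8 (d3))) true (Nat.blt d3 c)) (f0 (d2))) true (Nat.blt d2 c)) (f8 (d1))) true (Nat.blt d1 c)) (f0 (c))) (Nat.mul 18 i)
theorem hq0_8_0 : all2 cq0_8 13 0 = true := by decide +kernel
theorem hq0_8_1 : all2 cq0_8 12 8192 = true := by decide +kernel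
theorem hq0_8_2 : all2 cq0_8 10 12288 = true := by decide +kernel
theorem hq0_8_3 : all2 cq0_8 9 13312 = true := by decide +kernel
theorem hq0_8_4 : all2 cq0_8 8 13824 = true := by decide +kernel
theorem hq0_8 : ∀ i < 14080, cq0_8 i = true := by
  have h0 : ∀ i < 0, cq0_8 i = true := fun i hi => absurd hi (Nat.not_lt_zero i)
  have h1 : ∀ i < 8192, cq0_8 i = true := range_step h0 hq0_8_0 (by norm_num)
  have h2 : ∀ i < 12288, cq0_8 i = true := range_step h1 hq0_8_1 (by norm_num)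
  have h3 : ∀ i < 13312, cq0_8 i = true := range_step h2 hq0_8_2 (by norm_num)
  have h4 : ∀ i < 13824, cq0_8 i = true := range_step h3 hq0_8_3 (by norm_num)
  have h5 : ∀ i < 14080, cq0_8 i = true := range_step h4 hq0_8_4 (by norm_num)
  exact h5
theorem q0_8 : (tab.perm 0 * tab.perm 8) ^ 2 = 1 :=
  dih_spec tab 0 8 2 (by decide) (by decide) rfl rfl (fun c hc => by
    obtain ⟨i, hi, rfl⟩ := hc
    exact hq0_8 i hi)
noncomputable def cq1_2 (i : ℕ) : Bool := (fun c => (fun d1 => @Bool.rec (fun _ => Bool) ((fun d2 => @Bool.rec (fun _ => Bool) ((fun d3 => @Bool.rec (fun _ => Bool) ((fun d4 => @Bool.rec (fun _ => Bool) ((fun d5 => @Bool.rec (fun _ => Bool) ((fun d6 => @Bool.rec (fun _ => Bool) (Nat.beq d6 c) true (Nat.blt d6 c)) (f2 (d5))) true (Nat.blt d5 c)) (f1 (d4))) true (Nat.blt d4 c)) (f2 (d3))) true (Nat.blt d3 c)) (f1 (d2))) true (Nat.blt d2 c)) (f2 (d1))) true (Nat.blt d1 c)) (f1 (c))) (Nat.mul 18 i)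
theorem hq1_2_0 : all2 cq1_2 13 0 = true := by decide +kernel
theorem hq1_2_1 : all2 cq1_2 12 8192 = true := by decide +kernel
theorem hq1_2_2 : all2 cq1_2 10 12288 = true := by decide +kernel
theorem hq1_2_3 : all2 cq1_2 9 13312 = true := by decide +kernel
theorem hq1_2_4 : all2 cq1_2 8 13824 = true := by decide +kernel
theorem hq1_2 : ∀ i < 14080, cq1_2 i = true := by
  have h0 : ∀ i < 0, cq1_2 i = true := fun i hi => absurd hi (Nat.not_lt_zero i)
  have h1 : ∀ i < 8192, cq1_2 i = true := range_step h0 hq1_2_0 (by norm_num)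
  have h2 : ∀ i < 12288, cq1_2 i = true := range_step h1 hq1_2_1 (by norm_num)
  have h3 : ∀ i < 13312, cq1_2 i = true := range_step h2 hq1_2_2 (by norm_num)
  have h4 : ∀ i < 13824, cq1_2 i = true := range_step h3 hq1_2_3 (by norm_num)
  have h5 : ∀ i < 14080, cq1_2 i = true := range_step h4 hq1_2_4 (by norm_num)
  exact h5
theorem q1_2 : (tab.perm 1 * tab.perm 2) ^ 3 = 1 :=
  dih_spec tab 1 2 3 (by decide) (by decide) rfl rfl (fun c hc => by
    obtain ⟨i, hi, rfl⟩ := hc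
    exact hq1_2 i hi)
noncomputable def cq1_3 (i : ℕ) : Bool := (fun c => (fun d1 => @Bool.rec (fun _ => Bool) ((fun d2 => @Bool.rec (fun _ => Bool) ((fun d3 => @Bool.rec (fun _ => Bool) ((fun d4 => @Bool.rec (fun _ => Bool) (Nat.beq d4 c) true (Nat.blt d4 c)) (f3 (d3))) true (Nat.blt d3 c)) (f1 (d2))) true (Nat.blt d2 c)) (f3 (d1))) true (Nat.blt d1 c)) (f1 (c))) (Nat.mul 18 i)
theorem hq1_3_0 : all2 cq1_3 13 0 = true := by decide +kernel
theorem hq1_3_1 : all2 cq1_3 12 8192 = true := by decide +kernel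
theorem hq1_3_2 : all2 cq1_3 10 12288 = true := by decide +kernel
theorem hq1_3_3 : all2 cq1_3 9 13312 = true := by decide +kernel
theorem hq1_3_4 : all2 cq1_3 8 13824 = true := by decide +kernel
theorem hq1_3 : ∀ i < 14080, cq1_3 i = true := by
  have h0 : ∀ i < 0, cq1_3 i = true := fun i hi => absurd hi (Nat.not_lt_zero i)
  have h1 : ∀ i < 8192, cq1_3 i = true := range_step h0 hq1_3_0 (by norm_num)
  have h2 : ∀ i < 12288, cq1_3 i = true := range_step h1 hq1_3_1 (by norm_num)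
  have h3 : ∀ i < 13312, cq1_3 i = true := range_step h2 hq1_3_2 (by norm_num)
  have h4 : ∀ i < 13824, cq1_3 i = true := range_step h3 hq1_3_3 (by norm_num)
  have h5 : ∀ i < 14080, cq1_3 i = true := range_step h4 hq1_3_4 (by norm_num)
  exact h5
theorem q1_3 : (tab.perm 1 * tab.perm 3) ^ 2 = 1 :=
  dih_spec tab 1 3 2 (by decide) (by decide) rfl rfl (fun c hc => by
    obtain ⟨i, hi, rfl⟩ := hc
    exact hq1_3 i hi)
noncomputable def cq1_4 (i : ℕ) : Bool := (fun c => (fun d1 => @Bool.rec (fun _ => Bool) ((fun d2 => @Bool.rec (fun _ => Bool) ((fun d3 => @Bool.rec (fun _ => Bool) ((fun d4 => @Bool.rec (fun _ => Bool) (Nat.beq d4 c) true (Nat.blt d4 c)) (f4 (d3))) true (Nat.blt d3 c)) (f1 (d2))) true (Nat.blt d2 c)) (f4 (d1))) true (Nat.blt d1 c)) (f1 (c))) (Nat.mul 18 i)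
theorem hq1_4_0 : all2 cq1_4 13 0 = true := by decide +kernel
theorem hq1_4_1 : all2 cq1_4 12 8192 = true := by decide +kernel
theorem hq1_4_2 : all2 cq1_4 10 12288 = true := by decide +kernel
theorem hq1_4_3 : all2 cq1_4 9 13312 = true := by decide +kernel
theorem hq1_4_4 : all2 cq1_4 8 13824 = true := by decide +kernel
theorem hq1_4 : ∀ i < 14080, cq1_4 i = true := by
  have h0 : ∀ i < 0, cq1_4 i = true := fun i hi => absurd hi (Nat.not_lt_zero i)
  have h1 : ∀ i < 8192, cq1_4 i = true := range_step h0 hq1_4_0 (by norm_num)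
  have h2 : ∀ i < 12288, cq1_4 i = true := range_step h1 hq1_4_1 (by norm_num)
  have h3 : ∀ i < 13312, cq1_4 i = true := range_step h2 hq1_4_2 (by norm_num)
  have h4 : ∀ i < 13824, cq1_4 i = true := range_step h3 hq1_4_3 (by norm_num)
  have h5 : ∀ i < 14080, cq1_4 i = true := range_step h4 hq1_4_4 (by norm_num)
  exact h5
theorem q1_4 : (tab.perm 1 * tab.perm 4) ^ 2 = 1 :=
  dih_spec tab 1 4 2 (by decide) (by decide) rfl rfl (fun c hc => by
    obtain ⟨i, hi, rfl⟩ := hc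
    exact hq1_4 i hi)
noncomputable def cq1_5 (i : ℕ) : Bool := (fun c => (fun d1 => @Bool.rec (fun _ => Bool) ((fun d2 => @Bool.rec (fun _ => Bool) ((fun d3 => @Bool.rec (fun _ => Bool) ((fun d4 => @Bool.rec (fun _ => Bool) (Nat.beq d4 c) true (Nat.blt d4 c)) (f5 (d3))) true (Nat.blt d3 c)) (f1 (d2))) true (Nat.blt d2 c)) (f5 (d1))) true (Nat.blt d1 c)) (f1 (c))) (Nat.mul 18 i)
theorem hq1_5_0 : all2 cq1_5 13 0 = true := by decide +kernel
theorem hq1_5_1 : all2 cq1_5 12 8192 = true := by decide +kernel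
theorem hq1_5_2 : all2 cq1_5 10 12288 = true := by decide +kernel
theorem hq1_5_3 : all2 cq1_5 9 13312 = true := by decide +kernel
theorem hq1_5_4 : all2 cq1_5 8 13824 = true := by decide +kernel
theorem hq1_5 : ∀ i < 14080, cq1_5 i = true := by
  have h0 : ∀ i < 0, cq1_5 i = true := fun i hi => absurd hi (Nat.not_lt_zero i)
  have h1 : ∀ i < 8192, cq1_5 i = true := range_step h0 hq1_5_0 (by norm_num)
  have h2 : ∀ i < 12288, cq1_5 i = true := range_step h1 hq1_5_1 (by norm_num)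
  have h3 : ∀ i < 13312, cq1_5 i = true := range_step h2 hq1_5_2 (by norm_num)
  have h4 : ∀ i < 13824, cq1_5 i = true := range_step h3 hq1_5_3 (by norm_num)
  have h5 : ∀ i < 14080, cq1_5 i = true := range_step h4 hq1_5_4 (by norm_num)
  exact h5
theorem q1_5 : (tab.perm 1 * tab.perm 5) ^ 2 = 1 :=
  dih_spec tab 1 5 2 (by decide) (by decide) rfl rfl (fun c hc => by
    obtain ⟨i, hi, rfl⟩ := hc
    exact hq1_5 i hi)
noncomputable def cq1_6 (i : ℕ) : Bool := (fun c => (fun d1 => @Bool.rec (fun _ => Bool) ((fun d2 => @Bool.rec (fun _ => Bool) ((fun d3 => @Bool.rec (fun _ => Bool) ((fun d4 => @Bool.rec (fun _ => Bool) (Nat.beq d4 c) true (Nat.blt d4 c)) (f6 (d3))) true (Nat.blt d3 c)) (f1 (d2))) true (Nat.blt d2 c)) (f6 (d1))) true (Nat.blt d1 c)) (f1 (c))) (Nat.mul 18 i)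
theorem hq1_6_0 : all2 cq1_6 13 0 = true := by decide +kernel
theorem hq1_6_1 : all2 cq1_6 12 8192 = true := by decide +kernel
theorem hq1_6_2 : all2 cq1_6 10 12288 = true := by decide +kernel
theorem hq1_6_3 : all2 cq1_6 9 13312 = true := by decide +kernel
theorem hq1_6_4 : all2 cq1_6 8 13824 = true := by decide +kernel
theorem hq1_6 : ∀ i < 14080, cq1_6 i = true := by
  have h0 : ∀ i < 0, cq1_6 i = true := fun i hi => absurd hi (Nat.not_lt_zero i)
  have h1 : ∀ i < 8192, cq1_6 i = true := range_step h0 hq1_6_0 (by norm_num)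
  have h2 : ∀ i < 12288, cq1_6 i = true := range_step h1 hq1_6_1 (by norm_num)
  have h3 : ∀ i < 13312, cq1_6 i = true := range_step h2 hq1_6_2 (by norm_num)
  have h4 : ∀ i < 13824, cq1_6 i = true := range_step h3 hq1_6_3 (by norm_num)
  have h5 : ∀ i < 14080, cq1_6 i = true := range_step h4 hq1_6_4 (by norm_num)
  exact h5
theorem q1_6 : (tab.perm 1 * tab.perm 6) ^ 2 = 1 :=
  dih_spec tab 1 6 2 (by decide) (by decide) rfl rfl (fun c hc => by
    obtain ⟨i, hi, rfl⟩ := hc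
    exact hq1_6 i hi)
noncomputable def cq1_7 (i : ℕ) : Bool := (fun c => (fun d1 => @Bool.rec (fun _ => Bool) ((fun d2 => @Bool.rec (fun _ => Bool) ((fun d3 => @Bool.rec (fun _ => Bool) ((fun d4 => @Bool.rec (fun _ => Bool) (Nat.beq d4 c) true (Nat.blt d4 c)) (f7 (d3))) true (Nat.blt d3 c)) (f1 (d2))) true (Nat.blt d2 c)) (f7 (d1))) true (Nat.blt d1 c)) (f1 (c))) (Nat.mul 18 i)
theorem hq1_7_0 : all2 cq1_7 13 0 = true := by decide +kernel
theorem hq1_7_1 : all2 cq1_7 12 8192 = true := by decide +kernel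
theorem hq1_7_2 : all2 cq1_7 10 12288 = true := by decide +kernel
theorem hq1_7_3 : all2 cq1_7 9 13312 = true := by decide +kernel
theorem hq1_7_4 : all2 cq1_7 8 13824 = true := by decide +kernel
theorem hq1_7 : ∀ i < 14080, cq1_7 i = true := by
  have h0 : ∀ i < 0, cq1_7 i = true := fun i hi => absurd hi (Nat.not_lt_zero i)
  have h1 : ∀ i < 8192, cq1_7 i = true := range_step h0 hq1_7_0 (by norm_num)
  have h2 : ∀ i < 12288, cq1_7 i = true := range_step h1 hq1_7_1 (by norm_num)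
  have h3 : ∀ i < 13312, cq1_7 i = true := range_step h2 hq1_7_2 (by norm_num)
  have h4 : ∀ i < 13824, cq1_7 i = true := range_step h3 hq1_7_3 (by norm_num)
  have h5 : ∀ i < 14080, cq1_7 i = true := range_step h4 hq1_7_4 (by norm_num)
  exact h5
theorem q1_7 : (tab.perm 1 * tab.perm 7) ^ 2 = 1 :=
  dih_spec tab 1 7 2 (by decide) (by decide) rfl rfl (fun c hc => by
    obtain ⟨i, hi, rfl⟩ := hc
    exact hq1_7 i hi)
noncomputable def cq1_8 (i : ℕ) : Bool := (fun c => (fun d1 => @Bool.rec (fun _ => Bool) ((fun d2 => @Bool.rec (fun _ => Bool) ((fun d3 => @Bool.rec (fun _ => Bool) ((fun d4 => @Bool.rec (fun _ => Bool) (Nat.beq d4 c) true (Nat.blt d4 c)) (f8 (d3))) true (Nat.blt d3 c)) (f1 (d2))) true (Nat.blt d2 c)) (f8 (d1))) true (Nat.blt d1 c)) (f1 (c))) (Nat.mul 18 i)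
theorem hq1_8_0 : all2 cq1_8 13 0 = true := by decide +kernel
theorem hq1_8_1 : all2 cq1_8 12 8192 = true := by decide +kernel
theorem hq1_8_2 : all2 cq1_8 10 12288 = true := by decide +kernel
theorem hq1_8_3 : all2 cq1_8 9 13312 = true := by decide +kernel
theorem hq1_8_4 : all2 cq1_8 8 13824 = true := by decide +kernel
theorem hq1_8 : ∀ i < 14080, cq1_8 i = true := by
  have h0 : ∀ i < 0, cq1_8 i = true := fun i hi => absurd hi (Nat.not_lt_zero i)
  have h1 : ∀ i < 8192, cq1_8 i = true := range_step h0 hq1_8_0 (by norm_num)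
  have h2 : ∀ i < 12288, cq1_8 i = true := range_step h1 hq1_8_1 (by norm_num)
  have h3 : ∀ i < 13312, cq1_8 i = true := range_step h2 hq1_8_2 (by norm_num)
  have h4 : ∀ i < 13824, cq1_8 i = true := range_step h3 hq1_8_3 (by norm_num)
  have h5 : ∀ i < 14080, cq1_8 i = true := range_step h4 hq1_8_4 (by norm_num)
  exact h5
theorem q1_8 : (tab.perm 1 * tab.perm 8) ^ 2 = 1 :=
  dih_spec tab 1 8 2 (by decide) (by decide) rfl rfl (fun c hc => by
    obtain ⟨i, hi, rfl⟩ := hc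
    exact hq1_8 i hi)
noncomputable def cq2_3 (i : ℕ) : Bool := (fun c => (fun d1 => @Bool.rec (fun _ => Bool) ((fun d2 => @Bool.rec (fun _ => Bool) ((fun d3 => @Bool.rec (fun _ => Bool) ((fun d4 => @Bool.rec (fun _ => Bool) ((fun d5 => @Bool.rec (fun _ => Bool) ((fun d6 => @Bool.rec (fun _ => Bool) (Nat.beq d6 c) true (Nat.blt d6 c)) (f3 (d5))) true (Nat.blt d5 c)) (f2 (d4))) true (Nat.blt d4 c)) (f3 (d3))) true (Nat.blt d3 c)) (f2 (d2))) true (Nat.blt d2 c)) (f3 (d1))) true (Nat.blt d1 c)) (f2 (c))) (Nat.mul 18 i)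
theorem hq2_3_0 : all2 cq2_3 13 0 = true := by decide +kernel
theorem hq2_3_1 : all2 cq2_3 12 8192 = true := by decide +kernel
theorem hq2_3_2 : all2 cq2_3 10 12288 = true := by decide +kernel
theorem hq2_3_3 : all2 cq2_3 9 13312 = true := by decide +kernel
theorem hq2_3_4 : all2 cq2_3 8 13824 = true := by decide +kernel
theorem hq2_3 : ∀ i < 14080, cq2_3 i = true := by
  have h0 : ∀ i < 0, cq2_3 i = true := fun i hi => absurd hi (Nat.not_lt_zero i)
  have h1 : ∀ i < 8192, cq2_3 i = true := range_step h0 hq2_3_0 (by norm_num)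
  have h2 : ∀ i < 12288, cq2_3 i = true := range_step h1 hq2_3_1 (by norm_num)
  have h3 : ∀ i < 13312, cq2_3 i = true := range_step h2 hq2_3_2 (by norm_num)
  have h4 : ∀ i < 13824, cq2_3 i = true := range_step h3 hq2_3_3 (by norm_num)
  have h5 : ∀ i < 14080, cq2_3 i = true := range_step h4 hq2_3_4 (by norm_num)
  exact h5
theorem q2_3 : (tab.perm 2 * tab.perm 3) ^ 3 = 1 :=
  dih_spec tab 2 3 3 (by decide) (by decide) rfl rfl (fun c hc => by
    obtain ⟨i, hi, rfl⟩ := hc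
    exact hq2_3 i hi)
noncomputable def cq2_4 (i : ℕ) : Bool := (fun c => (fun d1 => @Bool.rec (fun _ => Bool) ((fun d2 => @Bool.rec (fun _ => Bool) ((fun d3 => @Bool.rec (fun _ => Bool) ((fun d4 => @Bool.rec (fun _ => Bool) (Nat.beq d4 c) true (Nat.blt d4 c)) (f4 (d3))) true (Nat.blt d3 c)) (f2 (d2))) true (Nat.blt d2 c)) (f4 (d1))) true (Nat.blt d1 c)) (f2 (c))) (Nat.mul 18 i)
theorem hq2_4_0 : all2 cq2_4 13 0 = true := by decide +kernel
theorem hq2_4_1 : all2 cq2_4 12 8192 = true := by decide +kernel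
theorem hq2_4_2 : all2 cq2_4 10 12288 = true := by decide +kernel
theorem hq2_4_3 : all2 cq2_4 9 13312 = true := by decide +kernel
theorem hq2_4_4 : all2 cq2_4 8 13824 = true := by decide +kernel
theorem hq2_4 : ∀ i < 14080, cq2_4 i = true := by
  have h0 : ∀ i < 0, cq2_4 i = true := fun i hi => absurd hi (Nat.not_lt_zero i)
  have h1 : ∀ i < 8192, cq2_4 i = true := range_step h0 hq2_4_0 (by norm_num)
  have h2 : ∀ i < 12288, cq2_4 i = true := range_step h1 hq2_4_1 (by norm_num)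
  have h3 : ∀ i < 13312, cq2_4 i = true := range_step h2 hq2_4_2 (by norm_num)
  have h4 : ∀ i < 13824, cq2_4 i = true := range_step h3 hq2_4_3 (by norm_num)
  have h5 : ∀ i < 14080, cq2_4 i = true := range_step h4 hq2_4_4 (by norm_num)
  exact h5
theorem q2_4 : (tab.perm 2 * tab.perm 4) ^ 2 = 1 :=
  dih_spec tab 2 4 2 (by decide) (by decide) rfl rfl (fun c hc => by
    obtain ⟨i, hi, rfl⟩ := hc
    exact hq2_4 i hi)
noncomputable def cq2_5 (i : ℕ) : Bool := (fun c => (fun d1 => @Bool.rec (fun _ => Bool) ((fun d2 => @Bool.rec (fun _ => Bool) ((fun d3 => @Bool.rec (fun _ => Bool) ((fun d4 => @Bool.rec (fun _ => Bool) (Nat.beq d4 c) true (Nat.blt d4 c)) (f5 (d3))) true (Nat.blt d3 c)) (f2 (d2))) true (Nat.blt d2 c)) (f5 (d1))) true (Nat.blt d1 c)) (f2 (c))) (Nat.mul 18 i)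
theorem hq2_5_0 : all2 cq2_5 13 0 = true := by decide +kernel
theorem hq2_5_1 : all2 cq2_5 12 8192 = true := by decide +kernel
theorem hq2_5_2 : all2 cq2_5 10 12288 = true := by decide +kernel
theorem hq2_5_3 : all2 cq2_5 9 13312 = true := by decide +kernel
theorem hq2_5_4 : all2 cq2_5 8 13824 = true := by decide +kernel
theorem hq2_5 : ∀ i < 14080, cq2_5 i = true := by
  have h0 : ∀ i < 0, cq2_5 i = true := fun i hi => absurd hi (Nat.not_lt_zero i)
  have h1 : ∀ i < 8192, cq2_5 i = true := range_step h0 hq2_5_0 (by norm_num)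
  have h2 : ∀ i < 12288, cq2_5 i = true := range_step h1 hq2_5_1 (by norm_num)
  have h3 : ∀ i < 13312, cq2_5 i = true := range_step h2 hq2_5_2 (by norm_num)
  have h4 : ∀ i < 13824, cq2_5 i = true := range_step h3 hq2_5_3 (by norm_num)
  have h5 : ∀ i < 14080, cq2_5 i = true := range_step h4 hq2_5_4 (by norm_num)
  exact h5
theorem q2_5 : (tab.perm 2 * tab.perm 5) ^ 2 = 1 :=
  dih_spec tab 2 5 2 (by decide) (by decide) rfl rfl (fun c hc => by
    obtain ⟨i, hi, rfl⟩ := hc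
    exact hq2_5 i hi)
noncomputable def cq2_6 (i : ℕ) : Bool := (fun c => (fun d1 => @Bool.rec (fun _ => Bool) ((fun d2 => @Bool.rec (fun _ => Bool) ((fun d3 => @Bool.rec (fun _ => Bool) ((fun d4 => @Bool.rec (fun _ => Bool) (Nat.beq d4 c) true (Nat.blt d4 c)) (f6 (d3))) true (Nat.blt d3 c)) (f2 (d2))) true (Nat.blt d2 c)) (f6 (d1))) true (Nat.blt d1 c)) (f2 (c))) (Nat.mul 18 i)
theorem hq2_6_0 : all2 cq2_6 13 0 = true := by decide +kernel
theorem hq2_6_1 : all2 cq2_6 12 8192 = true := by decide +kernel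
theorem hq2_6_2 : all2 cq2_6 10 12288 = true := by decide +kernel
theorem hq2_6_3 : all2 cq2_6 9 13312 = true := by decide +kernel
theorem hq2_6_4 : all2 cq2_6 8 13824 = true := by decide +kernel
theorem hq2_6 : ∀ i < 14080, cq2_6 i = true := by
  have h0 : ∀ i < 0, cq2_6 i = true := fun i hi => absurd hi (Nat.not_lt_zero i)
  have h1 : ∀ i < 8192, cq2_6 i = true := range_step h0 hq2_6_0 (by norm_num)
  have h2 : ∀ i < 12288, cq2_6 i = true := range_step h1 hq2_6_1 (by norm_num)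
  have h3 : ∀ i < 13312, cq2_6 i = true := range_step h2 hq2_6_2 (by norm_num)
  have h4 : ∀ i < 13824, cq2_6 i = true := range_step h3 hq2_6_3 (by norm_num)
  have h5 : ∀ i < 14080, cq2_6 i = true := range_step h4 hq2_6_4 (by norm_num)
  exact h5
theorem q2_6 : (tab.perm 2 * tab.perm 6) ^ 2 = 1 :=
  dih_spec tab 2 6 2 (by decide) (by decide) rfl rfl (fun c hc => by
    obtain ⟨i, hi, rfl⟩ := hc
    exact hq2_6 i hi)
noncomputable def cq2_7 (i : ℕ) : Bool := (fun c => (fun d1 => @Bool.rec (fun _ => Bool) ((fun d2 => @Bool.rec (fun _ => Bool) ((fun d3 => @Bool.rec (fun _ => Bool) ((fun d4 => @Bool.rec (fun _ => Bool) (Nat.beq d4 c) true (Nat.blt d4 c)) (f7 (d3))) true (Nat.blt d3 c)) (f2 (d2))) true (Nat.blt d2 c)) (f7 (d1))) true (Nat.blt d1 c)) (f2 (c))) (Nat.mul 18 i)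
theorem hq2_7_0 : all2 cq2_7 13 0 = true := by decide +kernel
theorem hq2_7_1 : all2 cq2_7 12 8192 = true := by decide +kernel
theorem hq2_7_2 : all2 cq2_7 10 12288 = true := by decide +kernel
theorem hq2_7_3 : all2 cq2_7 9 13312 = true := by decide +kernel
theorem hq2_7_4 : all2 cq2_7 8 13824 = true := by decide +kernel
theorem hq2_7 : ∀ i < 14080, cq2_7 i = true := by
  have h0 : ∀ i < 0, cq2_7 i = true := fun i hi => absurd hi (Nat.not_lt_zero i)
  have h1 : ∀ i < 8192, cq2_7 i = true := range_step h0 hq2_7_0 (by norm_num)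
  have h2 : ∀ i < 12288, cq2_7 i = true := range_step h1 hq2_7_1 (by norm_num)
  have h3 : ∀ i < 13312, cq2_7 i = true := range_step h2 hq2_7_2 (by norm_num)
  have h4 : ∀ i < 13824, cq2_7 i = true := range_step h3 hq2_7_3 (by norm_num)
  have h5 : ∀ i < 14080, cq2_7 i = true := range_step h4 hq2_7_4 (by norm_num)
  exact h5
theorem q2_7 : (tab.perm 2 * tab.perm 7) ^ 2 = 1 :=
  dih_spec tab 2 7 2 (by decide) (by decide) rfl rfl (fun c hc => by
    obtain ⟨i, hi, rfl⟩ := hc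
    exact hq2_7 i hi)
noncomputable def cq2_8 (i : ℕ) : Bool := (fun c => (fun d1 => @Bool.rec (fun _ => Bool) ((fun d2 => @Bool.rec (fun _ => Bool) ((fun d3 => @Bool.rec (fun _ => Bool) ((fun d4 => @Bool.rec (fun _ => Bool) (Nat.beq d4 c) true (Nat.blt d4 c)) (f8 (d3))) true (Nat.blt d3 c)) (f2 (d2))) true (Nat.blt d2 c)) (f8 (d1))) true (Nat.blt d1 c)) (f2 (c))) (Nat.mul 18 i)
theorem hq2_8_0 : all2 cq2_8 13 0 = true := by decide +kernel
theorem hq2_8_1 : all2 cq2_8 12 8192 = true := by decide +kernel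
theorem hq2_8_2 : all2 cq2_8 10 12288 = true := by decide +kernel
theorem hq2_8_3 : all2 cq2_8 9 13312 = true := by decide +kernel
theorem hq2_8_4 : all2 cq2_8 8 13824 = true := by decide +kernel
theorem hq2_8 : ∀ i < 14080, cq2_8 i = true := by
  have h0 : ∀ i < 0, cq2_8 i = true := fun i hi => absurd hi (Nat.not_lt_zero i)
  have h1 : ∀ i < 8192, cq2_8 i = true := range_step h0 hq2_8_0 (by norm_num)
  have h2 : ∀ i < 12288, cq2_8 i = true := range_step h1 hq2_8_1 (by norm_num)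
  have h3 : ∀ i < 13312, cq2_8 i = true := range_step h2 hq2_8_2 (by norm_num)
  have h4 : ∀ i < 13824, cq2_8 i = true := range_step h3 hq2_8_3 (by norm_num)
  have h5 : ∀ i < 14080, cq2_8 i = true := range_step h4 hq2_8_4 (by norm_num)
  exact h5
theorem q2_8 : (tab.perm 2 * tab.perm 8) ^ 2 = 1 :=
  dih_spec tab 2 8 2 (by decide) (by decide) rfl rfl (fun c hc => by
    obtain ⟨i, hi, rfl⟩ := hc
    exact hq2_8 i hi)
noncomputable def cq3_4 (i : ℕ) : Bool := (fun c => (fun d1 => @Bool.rec (fun _ => Bool) ((fun d2 => @Bool.rec (fun _ => Bool) ((fun d3 => @Bool.rec (fun _ => Bool) ((fun d4 => @Bool.rec (fun _ => Bool) ((fun d5 => @Bool.rec (fun _ => Bool) ((fun d6 => @Bool.rec (fun _ => Bool) (Nat.beq d6 c) true (Nat.blt d6 c)) (f4 (d5))) true (Nat.blt d5 c)) (f3 (d4))) true (Nat.blt d4 c)) (f4 (d3))) true (Nat.blt d3 c)) (f3 (d2))) true (Nat.blt d2 c)) (f4 (d1))) true (Nat.blt d1 c)) (f3 (c))) (Nat.mul 18 i)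
theorem hq3_4_0 : all2 cq3_4 13 0 = true := by decide +kernel
theorem hq3_4_1 : all2 cq3_4 12 8192 = true := by decide +kernel
theorem hq3_4_2 : all2 cq3_4 10 12288 = true := by decide +kernel
theorem hq3_4_3 : all2 cq3_4 9 13312 = true := by decide +kernel
theorem hq3_4_4 : all2 cq3_4 8 13824 = true := by decide +kernel
theorem hq3_4 : ∀ i < 14080, cq3_4 i = true := by
  have h0 : ∀ i < 0, cq3_4 i = true := fun i hi => absurd hi (Nat.not_lt_zero i)
  have h1 : ∀ i < 8192, cq3_4 i = true := range_step h0 hq3_4_0 (by norm_num)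
  have h2 : ∀ i < 12288, cq3_4 i = true := range_step h1 hq3_4_1 (by norm_num)
  have h3 : ∀ i < 13312, cq3_4 i = true := range_step h2 hq3_4_2 (by norm_num)
  have h4 : ∀ i < 13824, cq3_4 i = true := range_step h3 hq3_4_3 (by norm_num)
  have h5 : ∀ i < 14080, cq3_4 i = true := range_step h4 hq3_4_4 (by norm_num)
  exact h5
theorem q3_4 : (tab.perm 3 * tab.perm 4) ^ 3 = 1 :=
  dih_spec tab 3 4 3 (by decide) (by decide) rfl rfl (fun c hc => by
    obtain ⟨i, hi, rfl⟩ := hc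
    exact hq3_4 i hi)
noncomputable def cq3_5 (i : ℕ) : Bool := (fun c => (fun d1 => @Bool.rec (fun _ => Bool) ((fun d2 => @Bool.rec (fun _ => Bool) ((fun d3 => @Bool.rec (fun _ => Bool) ((fun d4 => @Bool.rec (fun _ => Bool) (Nat.beq d4 c) true (Nat.blt d4 c)) (f5 (d3))) true (Nat.blt d3 c)) (f3 (d2))) true (Nat.blt d2 c)) (f5 (d1))) true (Nat.blt d1 c)) (f3 (c))) (Nat.mul 18 i)
theorem hq3_5_0 : all2 cq3_5 13 0 = true := by decide +kernel
theorem hq3_5_1 : all2 cq3_5 12 8192 = true := by decide +kernel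
theorem hq3_5_2 : all2 cq3_5 10 12288 = true := by decide +kernel
theorem hq3_5_3 : all2 cq3_5 9 13312 = true := by decide +kernel
theorem hq3_5_4 : all2 cq3_5 8 13824 = true := by decide +kernel
theorem hq3_5 : ∀ i < 14080, cq3_5 i = true := by
  have h0 : ∀ i < 0, cq3_5 i = true := fun i hi => absurd hi (Nat.not_lt_zero i)
  have h1 : ∀ i < 8192, cq3_5 i = true := range_step h0 hq3_5_0 (by norm_num)
  have h2 : ∀ i < 12288, cq3_5 i = true := range_step h1 hq3_5_1 (by norm_num)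
  have h3 : ∀ i < 13312, cq3_5 i = true := range_step h2 hq3_5_2 (by norm_num)
  have h4 : ∀ i < 13824, cq3_5 i = true := range_step h3 hq3_5_3 (by norm_num)
  have h5 : ∀ i < 14080, cq3_5 i = true := range_step h4 hq3_5_4 (by norm_num)
  exact h5
theorem q3_5 : (tab.perm 3 * tab.perm 5) ^ 2 = 1 :=
  dih_spec tab 3 5 2 (by decide) (by decide) rfl rfl (fun c hc => by
    obtain ⟨i, hi, rfl⟩ := hc
    exact hq3_5 i hi)
noncomputable def cq3_6 (i : ℕ) : Bool := (fun c => (fun d1 => @Bool.rec (fun _ => Bool) ((fun d2 => @Bool.rec (fun _ => Bool) ((fun d3 => @Bool.rec (fun _ => Bool) ((fun d4 => @Bool.rec (fun _ => Bool) (Nat.beq d4 c) true (Nat.blt d4 c)) (f6 (d3))) true (Nat.blt d3 c)) (f3 (d2))) true (Nat.blt d2 c)) (f6 (d1))) true (Nat.blt d1 c)) (f3 (c))) (Nat.mul 18 i)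
theorem hq3_6_0 : all2 cq3_6 13 0 = true := by decide +kernel
theorem hq3_6_1 : all2 cq3_6 12 8192 = true := by decide +kernel
theorem hq3_6_2 : all2 cq3_6 10 12288 = true := by decide +kernel
theorem hq3_6_3 : all2 cq3_6 9 13312 = true := by decide +kernel
theorem hq3_6_4 : all2 cq3_6 8 13824 = true := by decide +kernel
theorem hq3_6 : ∀ i < 14080, cq3_6 i = true := by
  have h0 : ∀ i < 0, cq3_6 i = true := fun i hi => absurd hi (Nat.not_lt_zero i)
  have h1 : ∀ i < 8192, cq3_6 i = true := range_step h0 hq3_6_0 (by norm_num)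
  have h2 : ∀ i < 12288, cq3_6 i = true := range_step h1 hq3_6_1 (by norm_num)
  have h3 : ∀ i < 13312, cq3_6 i = true := range_step h2 hq3_6_2 (by norm_num)
  have h4 : ∀ i < 13824, cq3_6 i = true := range_step h3 hq3_6_3 (by norm_num)
  have h5 : ∀ i < 14080, cq3_6 i = true := range_step h4 hq3_6_4 (by norm_num)
  exact h5
theorem q3_6 : (tab.perm 3 * tab.perm 6) ^ 2 = 1 :=
  dih_spec tab 3 6 2 (by decide) (by decide) rfl rfl (fun c hc => by
    obtain ⟨i, hi, rfl⟩ := hc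
    exact hq3_6 i hi)
noncomputable def cq3_7 (i : ℕ) : Bool := (fun c => (fun d1 => @Bool.rec (fun _ => Bool) ((fun d2 => @Bool.rec (fun _ => Bool) ((fun d3 => @Bool.rec (fun _ => Bool) ((fun d4 => @Bool.rec (fun _ => Bool) ((fun d5 => @Bool.rec (fun _ => Bool) ((fun d6 => @Bool.rec (fun _ => Bool) (Nat.beq d6 c) true (Nat.blt d6 c)) (f7 (d5))) true (Nat.blt d5 c)) (f3 (d4))) true (Nat.blt d4 c)) (f7 (d3))) true (Nat.blt d3 c)) (f3 (d2))) true (Nat.blt d2 c)) (f7 (d1))) true (Nat.blt d1 c)) (f3 (c))) (Nat.mul 18 i)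
theorem hq3_7_0 : all2 cq3_7 13 0 = true := by decide +kernel
theorem hq3_7_1 : all2 cq3_7 12 8192 = true := by decide +kernel
theorem hq3_7_2 : all2 cq3_7 10 12288 = true := by decide +kernel
theorem hq3_7_3 : all2 cq3_7 9 13312 = true := by decide +kernel
theorem hq3_7_4 : all2 cq3_7 8 13824 = true := by decide +kernel
theorem hq3_7 : ∀ i < 14080, cq3_7 i = true := by
  have h0 : ∀ i < 0, cq3_7 i = true := fun i hi => absurd hi (Nat.not_lt_zero i)
  have h1 : ∀ i < 8192, cq3_7 i = true := range_step h0 hq3_7_0 (by norm_num)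
  have h2 : ∀ i < 12288, cq3_7 i = true := range_step h1 hq3_7_1 (by norm_num)
  have h3 : ∀ i < 13312, cq3_7 i = true := range_step h2 hq3_7_2 (by norm_num)
  have h4 : ∀ i < 13824, cq3_7 i = true := range_step h3 hq3_7_3 (by norm_num)
  have h5 : ∀ i < 14080, cq3_7 i = true := range_step h4 hq3_7_4 (by norm_num)
  exact h5
theorem q3_7 : (tab.perm 3 * tab.perm 7) ^ 3 = 1 :=
  dih_spec tab 3 7 3 (by decide) (by decide) rfl rfl (fun c hc => by
    obtain ⟨i, hi, rfl⟩ := hc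
    exact hq3_7 i hi)
noncomputable def cq3_8 (i : ℕ) : Bool := (fun c => (fun d1 => @Bool.rec (fun _ => Bool) ((fun d2 => @Bool.rec (fun _ => Bool) ((fun d3 => @Bool.rec (fun _ => Bool) ((fun d4 => @Bool.rec (fun _ => Bool) (Nat.beq d4 c) true (Nat.blt d4 c)) (f8 (d3))) true (Nat.blt d3 c)) (f3 (d2))) true (Nat.blt d2 c)) (f8 (d1))) true (Nat.blt d1 c)) (f3 (c))) (Nat.mul 18 i)
theorem hq3_8_0 : all2 cq3_8 13 0 = true := by decide +kernel
theorem hq3_8_1 : all2 cq3_8 12 8192 = true := by decide +kernel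
theorem hq3_8_2 : all2 cq3_8 10 12288 = true := by decide +kernel
theorem hq3_8_3 : all2 cq3_8 9 13312 = true := by decide +kernel
theorem hq3_8_4 : all2 cq3_8 8 13824 = true := by decide +kernel
theorem hq3_8 : ∀ i < 14080, cq3_8 i = true := by
  have h0 : ∀ i < 0, cq3_8 i = true := fun i hi => absurd hi (Nat.not_lt_zero i)
  have h1 : ∀ i < 8192, cq3_8 i = true := range_step h0 hq3_8_0 (by norm_num)
  have h2 : ∀ i < 12288, cq3_8 i = true := range_step h1 hq3_8_1 (by norm_num)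
  have h3 : ∀ i < 13312, cq3_8 i = true := range_step h2 hq3_8_2 (by norm_num)
  have h4 : ∀ i < 13824, cq3_8 i = true := range_step h3 hq3_8_3 (by norm_num)
  have h5 : ∀ i < 14080, cq3_8 i = true := range_step h4 hq3_8_4 (by norm_num)
  exact h5
theorem q3_8 : (tab.perm 3 * tab.perm 8) ^ 2 = 1 :=
  dih_spec tab 3 8 2 (by decide) (by decide) rfl rfl (fun c hc => by
    obtain ⟨i, hi, rfl⟩ := hc
    exact hq3_8 i hi)
noncomputable def cq4_5 (i : ℕ) : Bool := (fun c => (fun d1 => @Bool.rec (fun _ => Bool) ((fun d2 => @Bool.rec (fun _ => Bool) ((fun d3 => @Bool.rec (fun _ => Bool) ((fun d4 => @Bool.rec (fun _ => Bool) ((fun d5 => @Bool.rec (fun _ => Bool) ((fun d6 => @Bool.rec (fun _ => Bool) (Nat.beq d6 c) true (Nat.blt d6 c)) (f5 (d5))) true (Nat.blt d5 c)) (f4 (d4))) true (Nat.blt d4 c)) (f5 (d3))) true (Nat.blt d3 c)) (f4 (d2))) true (Nat.blt d2 c)) (f5 (d1))) true (Nat.blt d1 c)) (f4 (c))) (Nat.mul 18 i)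
theorem hq4_5_0 : all2 cq4_5 13 0 = true := by decide +kernel
theorem hq4_5_1 : all2 cq4_5 12 8192 = true := by decide +kernel
theorem hq4_5_2 : all2 cq4_5 10 12288 = true := by decide +kernel
theorem hq4_5_3 : all2 cq4_5 9 13312 = true := by decide +kernel
theorem hq4_5_4 : all2 cq4_5 8 13824 = true := by decide +kernel
theorem hq4_5 : ∀ i < 14080, cq4_5 i = true := by
  have h0 : ∀ i < 0, cq4_5 i = true := fun i hi => absurd hi (Nat.not_lt_zero i)
  have h1 : ∀ i < 8192, cq4_5 i = true := range_step h0 hq4_5_0 (by norm_num)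
  have h2 : ∀ i < 12288, cq4_5 i = true := range_step h1 hq4_5_1 (by norm_num)
  have h3 : ∀ i < 13312, cq4_5 i = true := range_step h2 hq4_5_2 (by norm_num)
  have h4 : ∀ i < 13824, cq4_5 i = true := range_step h3 hq4_5_3 (by norm_num)
  have h5 : ∀ i < 14080, cq4_5 i = true := range_step h4 hq4_5_4 (by norm_num)
  exact h5
theorem q4_5 : (tab.perm 4 * tab.perm 5) ^ 3 = 1 :=
  dih_spec tab 4 5 3 (by decide) (by decide) rfl rfl (fun c hc => by
    obtain ⟨i, hi, rfl⟩ := hc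
    exact hq4_5 i hi)
noncomputable def cq4_6 (i : ℕ) : Bool := (fun c => (fun d1 => @Bool.rec (fun _ => Bool) ((fun d2 => @Bool.rec (fun _ => Bool) ((fun d3 => @Bool.rec (fun _ => Bool) ((fun d4 => @Bool.rec (fun _ => Bool) (Nat.beq d4 c) true (Nat.blt d4 c)) (f6 (d3))) true (Nat.blt d3 c)) (f4 (d2))) true (Nat.blt d2 c)) (f6 (d1))) true (Nat.blt d1 c)) (f4 (c))) (Nat.mul 18 i)
theorem hq4_6_0 : all2 cq4_6 13 0 = true := by decide +kernel
theorem hq4_6_1 : all2 cq4_6 12 8192 = true := by decide +kernel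
theorem hq4_6_2 : all2 cq4_6 10 12288 = true := by decide +kernel
theorem hq4_6_3 : all2 cq4_6 9 13312 = true := by decide +kernel
theorem hq4_6_4 : all2 cq4_6 8 13824 = true := by decide +kernel
theorem hq4_6 : ∀ i < 14080, cq4_6 i = true := by
  have h0 : ∀ i < 0, cq4_6 i = true := fun i hi => absurd hi (Nat.not_lt_zero i)
  have h1 : ∀ i < 8192, cq4_6 i = true := range_step h0 hq4_6_0 (by norm_num)
  have h2 : ∀ i < 12288, cq4_6 i = true := range_step h1 hq4_6_1 (by norm_num)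
  have h3 : ∀ i < 13312, cq4_6 i = true := range_step h2 hq4_6_2 (by norm_num)
  have h4 : ∀ i < 13824, cq4_6 i = true := range_step h3 hq4_6_3 (by norm_num)
  have h5 : ∀ i < 14080, cq4_6 i = true := range_step h4 hq4_6_4 (by norm_num)
  exact h5
theorem q4_6 : (tab.perm 4 * tab.perm 6) ^ 2 = 1 :=
  dih_spec tab 4 6 2 (by decide) (by decide) rfl rfl (fun c hc => by
    obtain ⟨i, hi, rfl⟩ := hc
    exact hq4_6 i hi)
noncomputable def cq4_7 (i : ℕ) : Bool := (fun c => (fun d1 => @Bool.rec (fun _ => Bool) ((fun d2 => @Bool.rec (fun _ => Bool) ((fun d3 => @Bool.rec (fun _ => Bool) ((fun d4 => @Bool.rec (fun _ => Bool) (Nat.beq d4 c) true (Nat.blt d4 c)) (f7 (d3))) true (Nat.blt d3 c)) (f4 (d2))) true (Nat.blt d2 c)) (f7 (d1))) true (Nat.blt d1 c)) (f4 (c))) (Nat.mul 18 i)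
theorem hq4_7_0 : all2 cq4_7 13 0 = true := by decide +kernel
theorem hq4_7_1 : all2 cq4_7 12 8192 = true := by decide +kernel
theorem hq4_7_2 : all2 cq4_7 10 12288 = true := by decide +kernel
theorem hq4_7_3 : all2 cq4_7 9 13312 = true := by decide +kernel
theorem hq4_7_4 : all2 cq4_7 8 13824 = true := by decide +kernel
theorem hq4_7 : ∀ i < 14080, cq4_7 i = true := by
  have h0 : ∀ i < 0, cq4_7 i = true := fun i hi => absurd hi (Nat.not_lt_zero i)
  have h1 : ∀ i < 8192, cq4_7 i = true := range_step h0 hq4_7_0 (by norm_num)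
  have h2 : ∀ i < 12288, cq4_7 i = true := range_step h1 hq4_7_1 (by norm_num)
  have h3 : ∀ i < 13312, cq4_7 i = true := range_step h2 hq4_7_2 (by norm_num)
  have h4 : ∀ i < 13824, cq4_7 i = true := range_step h3 hq4_7_3 (by norm_num)
  have h5 : ∀ i < 14080, cq4_7 i = true := range_step h4 hq4_7_4 (by norm_num)
  exact h5
theorem q4_7 : (tab.perm 4 * tab.perm 7) ^ 2 = 1 :=
  dih_spec tab 4 7 2 (by decide) (by decide) rfl rfl (fun c hc => by
    obtain ⟨i, hi, rfl⟩ := hc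
    exact hq4_7 i hi)
noncomputable def cq4_8 (i : ℕ) : Bool := (fun c => (fun d1 => @Bool.rec (fun _ => Bool) ((fun d2 => @Bool.rec (fun _ => Bool) ((fun d3 => @Bool.rec (fun _ => Bool) ((fun d4 => @Bool.rec (fun _ => Bool) (Nat.beq d4 c) true (Nat.blt d4 c)) (f8 (d3))) true (Nat.blt d3 c)) (f4 (d2))) true (Nat.blt d2 c)) (f8 (d1))) true (Nat.blt d1 c)) (f4 (c))) (Nat.mul 18 i)
theorem hq4_8_0 : all2 cq4_8 13 0 = true := by decide +kernel
theorem hq4_8_1 : all2 cq4_8 12 8192 = true := by decide +kernel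
theorem hq4_8_2 : all2 cq4_8 10 12288 = true := by decide +kernel
theorem hq4_8_3 : all2 cq4_8 9 13312 = true := by decide +kernel
theorem hq4_8_4 : all2 cq4_8 8 13824 = true := by decide +kernel
theorem hq4_8 : ∀ i < 14080, cq4_8 i = true := by
  have h0 : ∀ i < 0, cq4_8 i = true := fun i hi => absurd hi (Nat.not_lt_zero i)
  have h1 : ∀ i < 8192, cq4_8 i = true := range_step h0 hq4_8_0 (by norm_num)
  have h2 : ∀ i < 12288, cq4_8 i = true := range_step h1 hq4_8_1 (by norm_num)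
  have h3 : ∀ i < 13312, cq4_8 i = true := range_step h2 hq4_8_2 (by norm_num)
  have h4 : ∀ i < 13824, cq4_8 i = true := range_step h3 hq4_8_3 (by norm_num)
  have h5 : ∀ i < 14080, cq4_8 i = true := range_step h4 hq4_8_4 (by norm_num)
  exact h5
theorem q4_8 : (tab.perm 4 * tab.perm 8) ^ 2 = 1 :=
  dih_spec tab 4 8 2 (by decide) (by decide) rfl rfl (fun c hc => by
    obtain ⟨i, hi, rfl⟩ := hc
    exact hq4_8 i hi)
noncomputable def cq5_6 (i : ℕ) : Bool := (fun c => (fun d1 => @Bool.rec (fun _ => Bool) ((fun d2 => @Bool.rec (fun _ => Bool) ((fun d3 => @Bool.rec (fun _ => Bool) ((fun d4 => @Bool.rec (fun _ => Bool) ((fun d5 => @Bool.rec (fun _ => Bool) ((fun d6 => @Bool.rec (fun _ => Bool) (Nat.beq d6 c) true (Nat.blt d6 c)) (f6 (d5))) true (Nat.blt d5 c)) (f5 (d4))) true (Nat.blt d4 c)) (f6 (d3))) true (Nat.blt d3 c)) (f5 (d2))) true (Nat.blt d2 c)) (f6 (d1))) true (Nat.blt d1 c)) (f5 (c))) (Nat.mul 18 i)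
theorem hq5_6_0 : all2 cq5_6 13 0 = true := by decide +kernel
theorem hq5_6_1 : all2 cq5_6 12 8192 = true := by decide +kernel
theorem hq5_6_2 : all2 cq5_6 10 12288 = true := by decide +kernel
theorem hq5_6_3 : all2 cq5_6 9 13312 = true := by decide +kernel
theorem hq5_6_4 : all2 cq5_6 8 13824 = true := by decide +kernel
theorem hq5_6 : ∀ i < 14080, cq5_6 i = true := by
  have h0 : ∀ i < 0, cq5_6 i = true := fun i hi => absurd hi (Nat.not_lt_zero i)
  have h1 : ∀ i < 8192, cq5_6 i = true := range_step h0 hq5_6_0 (by norm_num)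
  have h2 : ∀ i < 12288, cq5_6 i = true := range_step h1 hq5_6_1 (by norm_num)
  have h3 : ∀ i < 13312, cq5_6 i = true := range_step h2 hq5_6_2 (by norm_num)
  have h4 : ∀ i < 13824, cq5_6 i = true := range_step h3 hq5_6_3 (by norm_num)
  have h5 : ∀ i < 14080, cq5_6 i = true := range_step h4 hq5_6_4 (by norm_num)
  exact h5
theorem q5_6 : (tab.perm 5 * tab.perm 6) ^ 3 = 1 :=
  dih_spec tab 5 6 3 (by decide) (by decide) rfl rfl (fun c hc => by
    obtain ⟨i, hi, rfl⟩ := hc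
    exact hq5_6 i hi)
noncomputable def cq5_7 (i : ℕ) : Bool := (fun c => (fun d1 => @Bool.rec (fun _ => Bool) ((fun d2 => @Bool.rec (fun _ => Bool) ((fun d3 => @Bool.rec (fun _ => Bool) ((fun d4 => @Bool.rec (fun _ => Bool) (Nat.beq d4 c) true (Nat.blt d4 c)) (f7 (d3))) true (Nat.blt d3 c)) (f5 (d2))) true (Nat.blt d2 c)) (f7 (d1))) true (Nat.blt d1 c)) (f5 (c))) (Nat.mul 18 i)
theorem hq5_7_0 : all2 cq5_7 13 0 = true := by decide +kernel
theorem hq5_7_1 : all2 cq5_7 12 8192 = true := by decide +kernel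
theorem hq5_7_2 : all2 cq5_7 10 12288 = true := by decide +kernel
theorem hq5_7_3 : all2 cq5_7 9 13312 = true := by decide +kernel
theorem hq5_7_4 : all2 cq5_7 8 13824 = true := by decide +kernel
theorem hq5_7 : ∀ i < 14080, cq5_7 i = true := by
  have h0 : ∀ i < 0, cq5_7 i = true := fun i hi => absurd hi (Nat.not_lt_zero i)
  have h1 : ∀ i < 8192, cq5_7 i = true := range_step h0 hq5_7_0 (by norm_num)
  have h2 : ∀ i < 12288, cq5_7 i = true := range_step h1 hq5_7_1 (by norm_num)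
  have h3 : ∀ i < 13312, cq5_7 i = true := range_step h2 hq5_7_2 (by norm_num)
  have h4 : ∀ i < 13824, cq5_7 i = true := range_step h3 hq5_7_3 (by norm_num)
  have h5 : ∀ i < 14080, cq5_7 i = true := range_step h4 hq5_7_4 (by norm_num)
  exact h5
theorem q5_7 : (tab.perm 5 * tab.perm 7) ^ 2 = 1 :=
  dih_spec tab 5 7 2 (by decide) (by decide) rfl rfl (fun c hc => by
    obtain ⟨i, hi, rfl⟩ := hc
    exact hq5_7 i hi)
noncomputable def cq5_8 (i : ℕ) : Bool := (fun c => (fun d1 => @Bool.rec (fun _ => Bool) ((fun d2 => @Bool.rec (fun _ => Bool) ((fun d3 => @Bool.rec (fun _ => Bool) ((fun d4 => @Bool.rec (fun _ => Bool) (Nat.beq d4 c) true (Nat.blt d4 c)) (f8 (d3))) true (Nat.blt d3 c)) (f5 (d2))) true (Nat.blt d2 c)) (f8 (d1))) true (Nat.blt d1 c)) (f5 (c))) (Nat.mul 18 i)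
theorem hq5_8_0 : all2 cq5_8 13 0 = true := by decide +kernel
theorem hq5_8_1 : all2 cq5_8 12 8192 = true := by decide +kernel
theorem hq5_8_2 : all2 cq5_8 10 12288 = true := by decide +kernel
theorem hq5_8_3 : all2 cq5_8 9 13312 = true := by decide +kernel
theorem hq5_8_4 : all2 cq5_8 8 13824 = true := by decide +kernel
theorem hq5_8 : ∀ i < 14080, cq5_8 i = true := by
  have h0 : ∀ i < 0, cq5_8 i = true := fun i hi => absurd hi (Nat.not_lt_zero i)
  have h1 : ∀ i < 8192, cq5_8 i = true := range_step h0 hq5_8_0 (by norm_num)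
  have h2 : ∀ i < 12288, cq5_8 i = true := range_step h1 hq5_8_1 (by norm_num)
  have h3 : ∀ i < 13312, cq5_8 i = true := range_step h2 hq5_8_2 (by norm_num)
  have h4 : ∀ i < 13824, cq5_8 i = true := range_step h3 hq5_8_3 (by norm_num)
  have h5 : ∀ i < 14080, cq5_8 i = true := range_step h4 hq5_8_4 (by norm_num)
  exact h5
theorem q5_8 : (tab.perm 5 * tab.perm 8) ^ 2 = 1 :=
  dih_spec tab 5 8 2 (by decide) (by decide) rfl rfl (fun c hc => by
    obtain ⟨i, hi, rfl⟩ := hc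
    exact hq5_8 i hi)
noncomputable def cq6_7 (i : ℕ) : Bool := (fun c => (fun d1 => @Bool.rec (fun _ => Bool) ((fun d2 => @Bool.rec (fun _ => Bool) ((fun d3 => @Bool.rec (fun _ => Bool) ((fun d4 => @Bool.rec (fun _ => Bool) (Nat.beq d4 c) true (Nat.blt d4 c)) (f7 (d3))) true (Nat.blt d3 c)) (f6 (d2))) true (Nat.blt d2 c)) (f7 (d1))) true (Nat.blt d1 c)) (f6 (c))) (Nat.mul 18 i)
theorem hq6_7_0 : all2 cq6_7 13 0 = true := by decide +kernel
theorem hq6_7_1 : all2 cq6_7 12 8192 = true := by decide +kernel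
theorem hq6_7_2 : all2 cq6_7 10 12288 = true := by decide +kernel
theorem hq6_7_3 : all2 cq6_7 9 13312 = true := by decide +kernel
theorem hq6_7_4 : all2 cq6_7 8 13824 = true := by decide +kernel
theorem hq6_7 : ∀ i < 14080, cq6_7 i = true := by
  have h0 : ∀ i < 0, cq6_7 i = true := fun i hi => absurd hi (Nat.not_lt_zero i)
  have h1 : ∀ i < 8192, cq6_7 i = true := range_step h0 hq6_7_0 (by norm_num)
  have h2 : ∀ i < 12288, cq6_7 i = true := range_step h1 hq6_7_1 (by norm_num)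
  have h3 : ∀ i < 13312, cq6_7 i = true := range_step h2 hq6_7_2 (by norm_num)
  have h4 : ∀ i < 13824, cq6_7 i = true := range_step h3 hq6_7_3 (by norm_num)
  have h5 : ∀ i < 14080, cq6_7 i = true := range_step h4 hq6_7_4 (by norm_num)
  exact h5
theorem q6_7 : (tab.perm 6 * tab.perm 7) ^ 2 = 1 :=
  dih_spec tab 6 7 2 (by decide) (by decide) rfl rfl (fun c hc => by
    obtain ⟨i, hi, rfl⟩ := hc
    exact hq6_7 i hi)
noncomputable def cq6_8 (i : ℕ) : Bool := (fun c => (fun d1 => @Bool.rec (fun _ => Bool) ((fun d2 => @Bool.rec (fun _ => Bool) ((fun d3 => @Bool.rec (fun _ => Bool) ((fun d4 => @Bool.rec (fun _ => Bool) (Nat.beq d4 c) true (Nat.blt d4 c)) (f8 (d3))) true (Nat.blt d3 c)) (f6 (d2))) true (Nat.blt d2 c)) (f8 (d1))) true (Nat.blt d1 c)) (f6 (c))) (Nat.mul 18 i)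
theorem hq6_8_0 : all2 cq6_8 13 0 = true := by decide +kernel
theorem hq6_8_1 : all2 cq6_8 12 8192 = true := by decide +kernel
theorem hq6_8_2 : all2 cq6_8 10 12288 = true := by decide +kernel
theorem hq6_8_3 : all2 cq6_8 9 13312 = true := by decide +kernel
theorem hq6_8_4 : all2 cq6_8 8 13824 = true := by decide +kernel
theorem hq6_8 : ∀ i < 14080, cq6_8 i = true := by
  have h0 : ∀ i < 0, cq6_8 i = true := fun i hi => absurd hi (Nat.not_lt_zero i)
  have h1 : ∀ i < 8192, cq6_8 i = true := range_step h0 hq6_8_0 (by norm_num)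
  have h2 : ∀ i < 12288, cq6_8 i = true := range_step h1 hq6_8_1 (by norm_num)
  have h3 : ∀ i < 13312, cq6_8 i = true := range_step h2 hq6_8_2 (by norm_num)
  have h4 : ∀ i < 13824, cq6_8 i = true := range_step h3 hq6_8_3 (by norm_num)
  have h5 : ∀ i < 14080, cq6_8 i = true := range_step h4 hq6_8_4 (by norm_num)
  exact h5
theorem q6_8 : (tab.perm 6 * tab.perm 8) ^ 2 = 1 :=
  dih_spec tab 6 8 2 (by decide) (by decide) rfl rfl (fun c hc => by
    obtain ⟨i, hi, rfl⟩ := hc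
    exact hq6_8 i hi)
noncomputable def cq7_8 (i : ℕ) : Bool := (fun c => (fun d1 => @Bool.rec (fun _ => Bool) ((fun d2 => @Bool.rec (fun _ => Bool) ((fun d3 => @Bool.rec (fun _ => Bool) ((fun d4 => @Bool.rec (fun _ => Bool) ((fun d5 => @Bool.rec (fun _ => Bool) ((fun d6 => @Bool.rec (fun _ => Bool) (Nat.beq d6 c) true (Nat.blt d6 c)) (f8 (d5))) true (Nat.blt d5 c)) (f7 (d4))) true (Nat.blt d4 c)) (f8 (d3))) true (Nat.blt d3 c)) (f7 (d2))) true (Nat.blt d2 c)) (f8 (d1))) true (Nat.blt d1 c)) (f7 (c))) (Nat.mul 18 i)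
theorem hq7_8_0 : all2 cq7_8 13 0 = true := by decide +kernel
theorem hq7_8_1 : all2 cq7_8 12 8192 = true := by decide +kernel
theorem hq7_8_2 : all2 cq7_8 10 12288 = true := by decide +kernel
theorem hq7_8_3 : all2 cq7_8 9 13312 = true := by decide +kernel
theorem hq7_8_4 : all2 cq7_8 8 13824 = true := by decide +kernel
theorem hq7_8 : ∀ i < 14080, cq7_8 i = true := by
  have h0 : ∀ i < 0, cq7_8 i = true := fun i hi => absurd hi (Nat.not_lt_zero i)
  have h1 : ∀ i < 8192, cq7_8 i = true := range_step h0 hq7_8_0 (by norm_num)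
  have h2 : ∀ i < 12288, cq7_8 i = true := range_step h1 hq7_8_1 (by norm_num)
  have h3 : ∀ i < 13312, cq7_8 i = true := range_step h2 hq7_8_2 (by norm_num)
  have h4 : ∀ i < 13824, cq7_8 i = true := range_step h3 hq7_8_3 (by norm_num)
  have h5 : ∀ i < 14080, cq7_8 i = true := range_step h4 hq7_8_4 (by norm_num)
  exact h5
theorem q7_8 : (tab.perm 7 * tab.perm 8) ^ 3 = 1 :=
  dih_spec tab 7 8 3 (by decide) (by decide) rfl rfl (fun c hc => by
    obtain ⟨i, hi, rfl⟩ := hc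
    exact hq7_8 i hi)
noncomputable def cv0 (i : ℕ) : Bool := (fun c => (fun d1 => @Bool.rec (fun _ => Bool) ((fun d2 => @Bool.rec (fun _ => Bool) ((fun d3 => @Bool.rec (fun _ => Bool) ((fun d4 => @Bool.rec (fun _ => Bool) ((fun d5 => @Bool.rec (fun _ => Bool) ((fun d6 => @Bool.rec (fun _ => Bool) ((fun d7 => @Bool.rec (fun _ => Bool) ((fun d8 => @Bool.rec (fun _ => Bool) ((fun d9 => @Bool.rec (fun _ => Bool) ((fun d10 => @Bool.rec (fun _ => Bool) (Nat.beq d10 c) true (Nat.blt d10 c)) (f8 (f7 (f3 (f5 (f4 (f3 (f1 (f2 (f3 (d9))))))))))) true (Nat.blt d9 c)) (f8 (f7 (f3 (f5 (f4 (f3 (f1 (f2 (f3 (d8))))))))))) true (Nat.blt d8 c)) (f8 (f7 (f3 (f5 (f4 (f3 (f1 (f2 (f3 (d7))))))))))) true (Nat.blt d7 c)) (f8 (f7 (f3 (f5 (f4 (f3 (f1 (f2 (f3 (d6))))))))))) true (Nat.blt d6 c)) (f8 (f7 (f3 (f5 (f4 (f3 (f1 (f2 (f3 (d5))))))))))) true (Nat.blt d5 c)) (f8 (f7 (f3 (f5 (f4 (f3 (f1 (f2 (f3 (d4))))))))))) true (Nat.blt d4 c)) (f8 (f7 (f3 (f5 (f4 (f3 (f1 (f2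 (f3 (d3))))))))))) true (Nat.blt d3 c)) (f8 (f7 (f3 (f5 (f4 (f3 (f1 (f2 (f3 (d2))))))))))) true (Nat.blt d2 c)) (f8 (f7 (f3 (f5 (f4 (f3 (f1 (f2 (f3 (d1))))))))))) true (Nat.blt d1 c)) (f8 (f7 (f3 (f5 (f4 (f3 (f1 (f2 (f3 (c))))))))))) (Nat.mul 18 i)
theorem hv0_0 : all2 cv0 10 0 = true := by decide +kernel
theorem hv0_1 : all2 cv0 10 1024 = true := by decide +kernel
theorem hv0_2 : all2 cv0 10 2048 = true := by decide +kernel
theorem hv0_3 : all2 cv0 11 3072 = true := by decide +kernel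
theorem hv0_4 : all2 cv0 11 5120 = true := by decide +kernel
theorem hv0_5 : all2 cv0 11 7168 = true := by decide +kernel
theorem hv0_6 : all2 cv0 11 9216 = true := by decide +kernel
theorem hv0_7 : all2 cv0 11 11264 = true := by decide +kernel
theorem hv0_8 : all2 cv0 9 13312 = true := by decide +kernel
theorem hv0_9 : all2 cv0 8 13824 = true := by decide +kernel
theorem hv0 : ∀ i < 14080, cv0 i = true := by
  have h0 : ∀ i < 0, cv0 i = true := fun i hi => absurd hi (Nat.not_lt_zero i)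
  have h1 : ∀ i < 1024, cv0 i = true := range_step h0 hv0_0 (by norm_num)
  have h2 : ∀ i < 2048, cv0 i = true := range_step h1 hv0_1 (by norm_num)
  have h3 : ∀ i < 3072, cv0 i = true := range_step h2 hv0_2 (by norm_num)
  have h4 : ∀ i < 5120, cv0 i = true := range_step h3 hv0_3 (by norm_num)
  have h5 : ∀ i < 7168, cv0 i = true := range_step h4 hv0_4 (by norm_num)
  have h6 : ∀ i < 9216, cv0 i = true := range_step h5 hv0_5 (by norm_num)
  have h7 : ∀ i < 11264, cv0 i = true := range_step h6 hv0_6 (by norm_num)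
  have h8 : ∀ i < 13312, cv0 i = true := range_step h7 hv0_7 (by norm_num)
  have h9 : ∀ i < 13824, cv0 i = true := range_step h8 hv0_8 (by norm_num)
  have h10 : ∀ i < 14080, cv0 i = true := range_step h9 hv0_9 (by norm_num)
  exact h10
theorem v0 : wd tab.perm [3, 2, 1, 3, 4, 5, 3, 7, 8] ^ 10 = 1 :=
  pow_spec tab [3, 2, 1, 3, 4, 5, 3, 7, 8] 10 (by decide) (fun c hc => by
    obtain ⟨i, hi, rfl⟩ := hc
    exact hv0 i hi)
noncomputable def cv1 (i : ℕ) : Bool := (fun c => (fun d1 => @Bool.rec (fun _ => Bool) ((fun d2 => @Bool.rec (fun _ => Bool) ((fun d3 => @Bool.rec (fun _ => Bool) ((fun d4 => @Bool.rec (fun _ => Bool) ((fun d5 => @Bool.rec (fun _ => Bool) ((fun d6 => @Bool.rec (fun _ => Bool) ((fun d7 => @Bool.rec (fun _ => Bool) ((fun d8 => @Bool.rec (fun _ => Bool) ((fun d9 => @Bool.rec (fun _ => Bool) (Nat.beq d9 c) true (Nat.blt d9 c)) (f7 (f5 (f4 (f3 (f2 (f1 (f0 (d8))))))))) true (Nat.blt d8 c)) (f7 (f5 (f4 (f3 (f2 (f1 (f0 (d7)))))))))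 true (Nat.blt d7 c)) (f7 (f5 (f4 (f3 (f2 (f1 (f0 (d6))))))))) true (Nat.blt d6 c)) (f7 (f5 (f4 (f3 (f2 (f1 (f0 (d5))))))))) true (Nat.blt d5 c)) (f7 (f5 (f4 (f3 (f2 (f1 (f0 (d4))))))))) true (Nat.blt d4 c)) (f7 (f5 (f4 (f3 (f2 (f1 (f0 (d3))))))))) true (Nat.blt d3 c)) (f7 (f5 (f4 (f3 (f2 (f1 (f0 (d2))))))))) true (Nat.blt d2 c)) (f7 (f5 (f4 (f3 (f2 (f1 (f0 (d1))))))))) true (Nat.blt d1 c)) (f7 (f5 (f4 (f3 (f2 (f1 (f0 (c))))))))) (Nat.mul 18 i)
theorem hv1_0 : all2 cv1 11 0 = true := by decide +kernel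
theorem hv1_1 : all2 cv1 11 2048 = true := by decide +kernel
theorem hv1_2 : all2 cv1 12 4096 = true := by decide +kernel
theorem hv1_3 : all2 cv1 12 8192 = true := by decide +kernel
theorem hv1_4 : all2 cv1 10 12288 = true := by decide +kernel
theorem hv1_5 : all2 cv1 9 13312 = true := by decide +kernel
theorem hv1_6 : all2 cv1 8 13824 = true := by decide +kernel
theorem hv1 : ∀ i < 14080, cv1 i = true := by
  have h0 : ∀ i < 0, cv1 i = true := fun i hi => absurd hi (Nat.not_lt_zero i)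
  have h1 : ∀ i < 2048, cv1 i = true := range_step h0 hv1_0 (by norm_num)
  have h2 : ∀ i < 4096, cv1 i = true := range_step h1 hv1_1 (by norm_num)
  have h3 : ∀ i < 8192, cv1 i = true := range_step h2 hv1_2 (by norm_num)
  have h4 : ∀ i < 12288, cv1 i = true := range_step h3 hv1_3 (by norm_num)
  have h5 : ∀ i < 13312, cv1 i = true := range_step h4 hv1_4 (by norm_num)
  have h6 : ∀ i < 13824, cv1 i = true := range_step h5 hv1_5 (by norm_num)
  have h7 : ∀ i < 14080, cv1 i = true := range_step h6 hv1_6 (by norm_num)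
  exact h7
theorem v1 : wd tab.perm [0, 1, 2, 3, 4, 5, 7] ^ 9 = 1 :=
  pow_spec tab [0, 1, 2, 3, 4, 5, 7] 9 (by decide) (fun c hc => by
    obtain ⟨i, hi, rfl⟩ := hc
    exact hv1 i hi)
noncomputable def cv2 (i : ℕ) : Bool := (fun c => (fun d1 => @Bool.rec (fun _ => Bool) ((fun d2 => @Bool.rec (fun _ => Bool) ((fun d3 => @Bool.rec (fun _ => Bool) ((fun d4 => @Bool.rec (fun _ => Bool) ((fun d5 => @Bool.rec (fun _ => Bool) ((fun d6 => @Bool.rec (fun _ => Bool) ((fun d7 => @Bool.rec (fun _ => Bool) ((fun d8 => @Bool.rec (fun _ => Bool) ((fun d9 => @Bool.rec (fun _ => Bool) (Nat.beq d9 c) true (Nat.blt d9 c)) (f7 (f6 (f5 (f4 (f3 (f2 (f1 (d8))))))))) true (Nat.blt d8 c)) (f7 (f6 (f5 (f4 (f3 (f2 (f1 (d7))))))))) true (Nat.blt d7 c)) (f7 (f6 (f5 (f4 (f3 (f2 (f1 (d6))))))))) true (Nat.blt d6 c)) (f7 (f6 (f5 (f4 (f3 (f2 (f1 (d5))))))))) true (Nat.blt d5 c)) (f7 (f6 (f5 (f4 (f3 (f2 (f1 (d4))))))))) true (Nat.blt d4 c)) (f7 (f6 (f5 (f4 (f3 (f2 (f1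 (d3))))))))) true (Nat.blt d3 c)) (f7 (f6 (f5 (f4 (f3 (f2 (f1 (d2))))))))) true (Nat.blt d2 c)) (f7 (f6 (f5 (f4 (f3 (f2 (f1 (d1))))))))) true (Nat.blt d1 c)) (f7 (f6 (f5 (f4 (f3 (f2 (f1 (c))))))))) (Nat.mul 18 i)
theorem hv2_0 : all2 cv2 11 0 = true := by decide +kernel
theorem hv2_1 : all2 cv2 11 2048 = true := by decide +kernel
theorem hv2_2 : all2 cv2 11 4096 = true := by decide +kernel
theorem hv2_3 : all2 cv2 11 6144 = true := by decide +kernel
theorem hv2_4 : all2 cv2 12 8192 = true := by decide +kernel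
theorem hv2_5 : all2 cv2 10 12288 = true := by decide +kernel
theorem hv2_6 : all2 cv2 9 13312 = true := by decide +kernel
theorem hv2_7 : all2 cv2 8 13824 = true := by decide +kernel
theorem hv2 : ∀ i < 14080, cv2 i = true := by
  have h0 : ∀ i < 0, cv2 i = true := fun i hi => absurd hi (Nat.not_lt_zero i)
  have h1 : ∀ i < 2048, cv2 i = true := range_step h0 hv2_0 (by norm_num)
  have h2 : ∀ i < 4096, cv2 i = true := range_step h1 hv2_1 (by norm_num)
  have h3 : ∀ i < 6144, cv2 i = true := range_step h2 hv2_2 (by norm_num)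
  have h4 : ∀ i < 8192, cv2 i = true := range_step h3 hv2_3 (by norm_num)
  have h5 : ∀ i < 12288, cv2 i = true := range_step h4 hv2_4 (by norm_num)
  have h6 : ∀ i < 13312, cv2 i = true := range_step h5 hv2_5 (by norm_num)
  have h7 : ∀ i < 13824, cv2 i = true := range_step h6 hv2_6 (by norm_num)
  have h8 : ∀ i < 14080, cv2 i = true := range_step h7 hv2_7 (by norm_num)
  exact h8
theorem v2 : wd tab.perm [1, 2, 3, 4, 5, 6, 7] ^ 9 = 1 :=
  pow_spec tab [1, 2, 3, 4, 5, 6, 7] 9 (by decide) (fun c hc => by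
    obtain ⟨i, hi, rfl⟩ := hc
    exact hv2 i hi)
end Cfsg.Agent.H5TC.Y14080
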