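import Cfsg.Agent.Lib.H6Amal3
import Cfsg.Agent.Lib.BSetTate
import Cfsg.Agent.Lib.H6LS1
import Cfsg.Prelude.Def_LocalStructure

/-! The subgroups `V_δ^{(n)}` of an amalgam. -/

set_option autoImplicit false
set_option linter.style.haveILetI false

open Subgroup CfsgLib.Coprime
open scoped commutatorElement

namespace CfsgLib.H6Amal

universe u
variable {X : Type u} [Group X] {p : ℕ} [hp : Fact p.Prime] {M₁ M₂ : Subgroup X}

omit hp in
theorem Z_cj [Fact p.Prime] (h : Cfsg.IsCharPAmalgamPair p M₁ M₂) (δ : Cfsg.CosetVertex M₁ M₂) (g : X) :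
    (Cfsg.vertexZ p δ).map (MulAut.conj g).toMonoidHom ≤ Cfsg.vertexZ p (g • δ) := by
  haveI := (ep_self h δ).1
  haveI := (ep_self h (g • δ)).1
  unfold Cfsg.vertexZ
  rw [Z_eq, Subgroup.map_iSup]
  apply iSup_le
  rintro ⟨S, hS⟩
  simp only
  rw [OZ_conj]
  apply OZ_le_Z
  have hst : MulAction.stabilizer X (g • δ) = (MulAction.stabilizer X δ).map (MulAut.conj g).toMonoidHom := MulAction.stabilizer_smul_eq_stabilizer_map_conj g δ
  rw [hst]
  exact ⟨CfsgLib.H7Basic.cj_le_cj.2 hS.1, by rw [CfsgLib.H7Basic.card_cj, hS.2, CfsgLib.H7Basic.card_cj]⟩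

omit hp in
theorem smul_adj_hom (g : X) {δ μ : Cfsg.CosetVertex M₁ M₂} : (Cfsg.cosetGraph M₁ M₂).Adj (g • δ) (g • μ) ↔ (Cfsg.cosetGraph M₁ M₂).Adj δ μ := by
  constructor
  · intro h
    have := adj_smul h g⁻¹
    rwa [inv_smul_smul, inv_smul_smul] at this
  · intro h
    exact adj_smul h g

omit hp in
theorem dist_smul (hconn : (Cfsg.cosetGraph M₁ M₂).Connected) (g : X) (δ μ : Cfsg.CosetVertex M₁ M₂) :
    (Cfsg.cosetGraph M₁ M₂).dist (g • δ) (g • μ) = (Cfsg.cosetGraph M₁ M₂).dist δ μ := by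
  have key : ∀ (g : X) (δ μ : Cfsg.CosetVertex M₁ M₂), (Cfsg.cosetGraph M₁ M₂).dist (g • δ) (g • μ) ≤ (Cfsg.cosetGraph M₁ M₂).dist δ μ := by
    intro g δ μ
    obtain ⟨w, hw⟩ := hconn.exists_walk_length_eq_dist δ μ
    rw [← hw]
    let φ : (Cfsg.cosetGraph M₁ M₂) →g (Cfsg.cosetGraph M₁ M₂) := ⟨fun v => g • v, fun h => adj_smul h g⟩
    have := SimpleGraph.dist_le (w.map φ)
    rwa [SimpleGraph.Walk.length_map] at this
  apply le_antisymm (key g δ μ)
  have := key g⁻¹ (g • δ) (g • μ)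
  rwa [inv_smul_smul, inv_smul_smul] at this

theorem VI_cj (h : Cfsg.IsCharPAmalgamPair p M₁ M₂) (n : ℕ) (δ : Cfsg.CosetVertex M₁ M₂) (g : X) :
    (Cfsg.vertexVIter p M₁ M₂ n δ).map (MulAut.conj g).toMonoidHom ≤ Cfsg.vertexVIter p M₁ M₂ n (g • δ) := by
  unfold Cfsg.vertexVIter
  rw [Subgroup.map_iSup]
  apply iSup_le
  rintro ⟨μ, hμ⟩
  refine (Z_cj h μ g).trans ?_
  exact le_iSup (fun μ : {μ : Cfsg.CosetVertex M₁ M₂ // (Cfsg.cosetGraph M₁ M₂).dist (g • δ) μ ≤ n} => Cfsg.vertexZ p (μ : Cfsg.CosetVertex M₁ M₂))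
    ⟨g • μ, by rw [dist_smul (connected h.1.1)]; exact hμ⟩

theorem VI_norm (h : Cfsg.IsCharPAmalgamPair p M₁ M₂) (n : ℕ) (δ : Cfsg.CosetVertex M₁ M₂) :
    MulAction.stabilizer X δ ≤ Subgroup.normalizer (Cfsg.vertexVIter p M₁ M₂ n δ : Set X) := by
  intro g hg
  have hg' : g • δ = δ := hg
  have hgi : g⁻¹ • δ = δ := by rw [inv_smul_eq_iff, hg']
  rw [← CfsgLib.H7Basic.cj_eq_self_iff]
  have h1 := VI_cj h n δ g
  rw [hg'] at h1
  apply le_antisymm h1
  have h2 := VI_cj h n δ g⁻¹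
  rw [hgi] at h2
  rw [CfsgLib.H7Basic.cj_le_iff, inv_inv] at h2
  exact h2

theorem VI_adj_le (h : Cfsg.IsCharPAmalgamPair p M₁ M₂) {n : ℕ} {δ μ : Cfsg.CosetVertex M₁ M₂} (hμ : (Cfsg.cosetGraph M₁ M₂).Adj δ μ) :
    Cfsg.vertexVIter p M₁ M₂ n μ ≤ Cfsg.vertexVIter p M₁ M₂ (n + 1) δ := by
  unfold Cfsg.vertexVIter
  apply iSup_le
  rintro ⟨ν, hν⟩
  refine le_iSup (fun ν : {ν : Cfsg.CosetVertex M₁ M₂ // (Cfsg.cosetGraph M₁ M₂).dist δ ν ≤ n + 1} => Cfsg.vertexZ p (ν : Cfsg.CosetVertex M₁ M₂)) ⟨ν, ?_⟩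
  have h1 := (connected h.1.1).dist_triangle (u := δ) (v := μ) (w := ν)
  have h2 := SimpleGraph.dist_le (SimpleGraph.Walk.cons hμ SimpleGraph.Walk.nil)
  simp only [SimpleGraph.Walk.length_cons, SimpleGraph.Walk.length_nil] at h2
  omega

theorem VI_le (h : Cfsg.IsCharPAmalgamPair p M₁ M₂) {n : ℕ} {δ : Cfsg.CosetVertex M₁ M₂} {U : Subgroup X}
    (h1 : Cfsg.vertexZ p δ ≤ U) (h2 : ∀ μ, (Cfsg.cosetGraph M₁ M₂).Adj δ μ → Cfsg.vertexVIter p M₁ M₂ n μ ≤ U) :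
    Cfsg.vertexVIter p M₁ M₂ (n + 1) δ ≤ U := by
  have hconn := connected h.1.1
  unfold Cfsg.vertexVIter
  apply iSup_le
  rintro ⟨ν, hν⟩
  simp only
  by_cases h0 : (Cfsg.cosetGraph M₁ M₂).dist δ ν = 0
  · rw [← (hconn.dist_eq_zero_iff).1 h0]; exact h1
  · obtain ⟨k, hk⟩ := Nat.exists_eq_succ_of_ne_zero h0
    rw [SimpleGraph.dist_comm] at hk
    obtain ⟨μ, hμ, hμd⟩ := exists_pred hconn hk
    refine le_trans ?_ (h2 μ hμ)
    refine le_iSup (fun ν : {ν : Cfsg.CosetVertex M₁ M₂ // (Cfsg.cosetGraph M₁ M₂).dist μ ν ≤ n} => Cfsg.vertexZ p (ν : Cfsg.CosetVertex M₁ M₂)) ⟨ν, ?_⟩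
    rw [SimpleGraph.dist_comm, hμd]
    rw [SimpleGraph.dist_comm] at hk
    omega

theorem Z_le_VI (δ : Cfsg.CosetVertex M₁ M₂) (n : ℕ) : Cfsg.vertexZ p δ ≤ Cfsg.vertexVIter p M₁ M₂ n δ :=
  le_iSup (fun ν : {ν : Cfsg.CosetVertex M₁ M₂ // (Cfsg.cosetGraph M₁ M₂).dist δ ν ≤ n} => Cfsg.vertexZ p (ν : Cfsg.CosetVertex M₁ M₂)) ⟨δ, by
    rw [SimpleGraph.dist_self]; exact Nat.zero_le n⟩

/-- subgroups normalized by `O^p(O^{p'}(G_δ))` and the edge stabilizer -/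
theorem norm_of_res (h : Cfsg.IsSpeAmalgamPair p M₁ M₂) {δ μ : Cfsg.CosetVertex M₁ M₂} (hμ : (Cfsg.cosetGraph M₁ M₂).Adj δ μ) {U : Subgroup X}
    (h1 : (Cfsg.pResidual p ↥(Cfsg.pElementClosure p (MulAction.stabilizer X δ))).map (Cfsg.pElementClosure p (MulAction.stabilizer X δ)).subtype ≤ Subgroup.normalizer (U : Set X))
    (h2 : Cfsg.edgeStabilizer δ μ ≤ Subgroup.normalizer (U : Set X)) : MulAction.stabilizer X δ ≤ Subgroup.normalizer (U : Set X) := by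
  have hE := ep_of_adj h.1 hμ
  haveI := hE.finA
  obtain ⟨T, hT⟩ := hE.exists_syl
  have hTδ := hE.syl_left hT
  set E := Cfsg.pElementClosure p (MulAction.stabilizer X δ) with hEdef
  have hEA : E ≤ MulAction.stabilizer X δ := pElementClosure_le _
  haveI : Finite E := Finite.of_injective (Subgroup.inclusion hEA) (Subgroup.inclusion_injective hEA)
  have hTE : IsSyl p T E := syl_mid hTδ (le_pElementClosure hTδ.1 (IsPGroup.of_card hTδ.2)) hEA
  obtain ⟨P, hP⟩ := exists_sylow_of hTE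
  have h3 := CfsgLib.H6LS.res_sup P
  have h4 := congrArg (Subgroup.map E.subtype) h3
  rw [Subgroup.map_sup, hP, ← MonoidHom.range_eq_map, Subgroup.range_subtype] at h4
  have hEN : E ≤ Subgroup.normalizer (U : Set X) := by
    rw [← h4]
    exact sup_le h1 (hT.1.trans h2)
  intro g hg
  have hν : (Cfsg.cosetGraph M₁ M₂).Adj δ (g • μ) := by
    have := adj_smul hμ g
    rwa [show g • δ = δ from hg] at this
  obtain ⟨e, he, heν⟩ := trans_closure h hμ hν
  have h5 : e⁻¹ * g ∈ Cfsg.edgeStabilizer δ μ := by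
    refine mem_inf.2 ⟨mul_mem (inv_mem (hEA he)) hg, ?_⟩
    rw [MulAction.mem_stabilizer_iff, mul_smul, ← heν, inv_smul_smul]
  have h6 : g = e * (e⁻¹ * g) := by group
  rw [h6]
  exact mul_mem (hEN he) (h2 h5)

/-- a subgroup normalized by both vertex stabilizers of an edge -/
theorem eq_bot_of_norm (h : Cfsg.IsSpeAmalgamPair p M₁ M₂) {δ μ : Cfsg.CosetVertex M₁ M₂}
    (hμ : (Cfsg.cosetGraph M₁ M₂).Adj δ μ) {U : Subgroup X} (hU : U ≤ Cfsg.edgeStabilizer δ μ)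
    (hU1 : MulAction.stabilizer X δ ≤ Subgroup.normalizer (U : Set X))
    (hU2 : MulAction.stabilizer X μ ≤ Subgroup.normalizer (U : Set X)) : U = ⊥ :=
  s2750 h hμ hU ((pElementClosure_le _).trans hU1) ((pElementClosure_le _).trans hU2)

theorem Z_ne_bot (h : Cfsg.IsCharPAmalgamPair p M₁ M₂) (δ : Cfsg.CosetVertex M₁ M₂) : Cfsg.vertexZ p δ ≠ ⊥ := by
  obtain ⟨μ, hμ⟩ := exists_adj δ
  have hE := ep_of_adj h hμ
  haveI := hE.finA
  obtain ⟨T, hT⟩ := hE.exists_syl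
  have hTδ := hE.syl_left hT
  have hTp : IsPGroup p T := IsPGroup.of_card hTδ.2
  have hTf : Finite T := Finite.of_injective (Subgroup.inclusion hTδ.1) (Subgroup.inclusion_injective hTδ.1)
  intro h0
  have h1 : OZ p T ≤ ⊥ := h0 ▸ OZ_le_Z hTδ
  have hTne : Nontrivial T := by
    rw [← Finite.one_lt_card_iff_nontrivial, hTδ.2]
    apply Nat.one_lt_pow _ hp.out.one_lt
    exact (hp.out.factorization_pos_of_dvd Nat.card_pos.ne' hE.dvdA).ne'
  haveI := hTp.center_nontrivial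
  obtain ⟨z, hz⟩ := exists_ne (1 : Subgroup.center T)
  obtain ⟨k, hk⟩ := (hTp.to_subgroup (Subgroup.center T)).exists_orderOf_eq_pow z
  have hk0 : k ≠ 0 := by
    rintro rfl
    rw [pow_zero, orderOf_eq_one_iff] at hk
    exact hz hk
  set y := z ^ p ^ (k - 1) with hy
  have hy1 : y ≠ 1 := by
    intro h2
    have h3 := orderOf_dvd_of_pow_eq_one h2
    rw [hk, Nat.pow_dvd_pow_iff_le_right hp.out.one_lt] at h3
    omega
  have hyp : y ^ p = 1 := by
    rw [hy, ← pow_mul, ← pow_succ, Nat.sub_add_cancel (Nat.pos_of_ne_zero hk0), ← hk, pow_orderOf_eq_one]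
  have hyO : ((y : T) : X) ∈ OZ p T := by
    unfold OZ
    refine Subgroup.subset_closure ⟨mem_inf.2 ⟨(y : T).2, mem_centralizer_iff.2 fun t ht => ?_⟩, ?_⟩
    · exact congrArg Subtype.val (mem_center_iff.1 y.2 ⟨t, ht⟩)
    · have := congrArg (fun w : Subgroup.center T => ((w : T) : X)) hyp
      exact this
  have h4 := h1 hyO
  rw [mem_bot] at h4
  exact hy1 (Subtype.ext (Subtype.ext h4))

theorem s2856 (h : Cfsg.IsSpeAmalgamPair p M₁ M₂) (lam : Cfsg.CosetVertex M₁ M₂) (n : ℕ) (hn : 1 ≤ n) (V : Subgroup X) (hV : V = Cfsg.vertexVIter p M₁ M₂ n lam) (hVQ : V ≤ Cfsg.vertexQ p lam) : ¬ ⁅V, ((Cfsg.pResidual p ↥(Cfsg.pElementClosure p (MulAction.stabilizer X lam))).map (Cfsg.pElementClosure p (MulAction.stabilizer X lam)).subtype)⁆ ≤ ⁅V, Cfsg.vertexQ p lam⁆ := by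
  intro hcon
  set R := (Cfsg.pResidual p ↥(Cfsg.pElementClosure p (MulAction.stabilizer X lam))).map (Cfsg.pElementClosure p (MulAction.stabilizer X lam)).subtype with hR
  set Q := Cfsg.vertexQ p lam with hQ
  obtain ⟨n, rfl⟩ : ∃ m, n = m + 1 := ⟨n - 1, by omega⟩
  obtain ⟨μ, hμ⟩ := exists_adj lam
  have hE := ep_of_adj h.1 hμ
  haveI := hE.finA
  have hQle : Q ≤ MulAction.stabilizer X lam := map_subtype_le _
  have hQn : MulAction.stabilizer X lam ≤ Subgroup.normalizer (Q : Set X) := pCoreOf_normal _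
  have hQμ : Q ≤ MulAction.stabilizer X μ := hE.core_le
  have hVn : MulAction.stabilizer X lam ≤ Subgroup.normalizer (V : Set X) := hV ▸ VI_norm h.1 (n + 1) lam
  have hQf : Finite Q := Finite.of_injective (Subgroup.inclusion hQle) (Subgroup.inclusion_injective hQle)
  have hQp : IsPGroup p Q := (CfsgLib.Core.pCore_isPGroup p _).map _
  set U₀ := Cfsg.vertexVIter p M₁ M₂ n μ with hU₀
  have hU₀V : U₀ ≤ V := hV ▸ VI_adj_le h.1 hμ
  have hU₀n : MulAction.stabilizer X μ ≤ Subgroup.normalizer (U₀ : Set X) := VI_norm h.1 n μ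
  set C : Subgroup X := ⁅V, Q⁆ with hC
  have hCV : C ≤ V := commutator_le_of_le_normalizer (hQle.trans hVn)
  have hCn : MulAction.stabilizer X lam ≤ Subgroup.normalizer (C : Set X) := by
    intro g hg
    rw [← CfsgLib.H7Basic.cj_eq_self_iff, hC, Subgroup.map_commutator, CfsgLib.H7Basic.cj_eq_self_iff.2 (hVn hg),
      CfsgLib.H7Basic.cj_eq_self_iff.2 (hQn hg)]
  set U := U₀ ⊔ C with hU
  have hUV : U ≤ V := sup_le hU₀V hCV
  have hUn : MulAction.stabilizer X lam ≤ Subgroup.normalizer (U : Set X) := by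
    apply norm_of_res h hμ
    · intro r hr
      have key : ∀ r ∈ R, U.map (MulAut.conj r).toMonoidHom ≤ U := by
        rintro r hr _ ⟨u, hu, rfl⟩
        have h1 : r * u * r⁻¹ * u⁻¹ ∈ C := by
          apply hcon
          rw [commutator_comm, ← commutatorElement_def]
          exact commutator_mem_commutator hr (hUV hu)
        show r * u * r⁻¹ ∈ U
        have := mul_mem (mem_sup_right h1 : _ ∈ U) hu
        rwa [inv_mul_cancel_right] at this
      rw [← CfsgLib.H7Basic.cj_eq_self_iff]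
      apply le_antisymm (key r hr)
      have h2 := key r⁻¹ (inv_mem hr)
      rw [CfsgLib.H7Basic.cj_le_iff, inv_inv] at h2
      exact h2
    · intro g hg
      obtain ⟨hg1, hg2⟩ := mem_inf.1 hg
      rw [← CfsgLib.H7Basic.cj_eq_self_iff, hU, CfsgLib.H7Basic.cj_sup, CfsgLib.H7Basic.cj_eq_self_iff.2 (hU₀n hg2), CfsgLib.H7Basic.cj_eq_self_iff.2 (hCn hg1)]
  have hVU : V ≤ U := by
    rw [hV]
    apply VI_le h.1
    · -- `Z_λ`
      unfold Cfsg.vertexZ
      rw [Z_eq]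
      apply iSup_le
      rintro ⟨S, hS⟩
      simp only
      obtain ⟨T, hT⟩ := hE.exists_syl
      have hTδ := hE.syl_left hT
      obtain ⟨P, hP⟩ := exists_sylow_of hTδ
      obtain ⟨P', hP'⟩ := exists_sylow_of hS
      obtain ⟨a, ha, haP⟩ := conj_sylow P P'
      rw [hP, hP'] at haP
      rw [← haP, ← OZ_conj, ← CfsgLib.H7Basic.cj_eq_self_iff.2 (hUn ha)]
      apply CfsgLib.H7Basic.cj_le_cj.2
      haveI := hE.finB
      exact (OZ_le_Z (hE.syl_right hT)).trans ((Z_le_VI μ n).trans le_sup_left)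
    · intro ν hν
      obtain ⟨g, hg, hgν⟩ := trans_adj hμ hν
      have h1 : Cfsg.vertexVIter p M₁ M₂ n ν = U₀.map (MulAut.conj g).toMonoidHom := by
        rw [← hgν]
        apply le_antisymm _ (VI_cj h.1 n μ g)
        have h2 := VI_cj h.1 n (g • μ) g⁻¹
        rw [inv_smul_smul, CfsgLib.H7Basic.cj_le_iff, inv_inv] at h2
        exact h2
      rw [h1, ← CfsgLib.H7Basic.cj_eq_self_iff.2 (hUn hg)]
      exact CfsgLib.H7Basic.cj_le_cj.2 le_sup_left
  have hVU₀ : V ≤ U₀ := by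
    apply CfsgLib.BSet.le_of_le_sup_commutator hQp hVQ (hU₀V.trans hVQ) _ hVU
    intro s hs x hx
    exact (mem_normalizer_iff.1 (hU₀n (hQμ hs)) x).1 hx
  have hVeq : V = U₀ := le_antisymm hVU₀ hU₀V
  have hV1 : V = ⊥ := by
    apply eq_bot_of_norm h hμ (le_inf (hVQ.trans hQle) (hVQ.trans hQμ)) hVn
    rw [hVeq]; exact hU₀n
  apply Z_ne_bot h.1 lam
  rw [eq_bot_iff, ← hV1, hV]
  exact Z_le_VI lam _

theorem s2857 (h : Cfsg.IsSpeAmalgamPair p M₁ M₂) (lam : Cfsg.CosetVertex M₁ M₂) (n : ℕ) (hn : 2 ≤ n) (hVQ : Cfsg.vertexVIter p M₁ M₂ n lam ≤ Cfsg.vertexQ p lam) : ¬ ⁅Cfsg.vertexVIter p M₁ M₂ n lam, ((Cfsg.pResidual p ↥(Cfsg.pElementClosure p (MulAction.stabilizer X lam))).map (Cfsg.pElementClosure p (MulAction.stabilizer X lam)).subtype)⁆ ≤ Cfsg.vertexVIter p M₁ M₂ (n - 2) lam := by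
  intro hcon
  set R := (Cfsg.pResidual p ↥(Cfsg.pElementClosure p (MulAction.stabilizer X lam))).map (Cfsg.pElementClosure p (MulAction.stabilizer X lam)).subtype with hR
  obtain ⟨n, rfl⟩ : ∃ m, n = m + 2 := ⟨n - 2, by omega⟩
  rw [Nat.add_sub_cancel] at hcon
  obtain ⟨μ, hμ⟩ := exists_adj lam
  have hE := ep_of_adj h.1 hμ
  haveI := hE.finA
  set V := Cfsg.vertexVIter p M₁ M₂ (n + 2) lam with hV
  set U := Cfsg.vertexVIter p M₁ M₂ (n + 1) μ with hU
  have hVn : MulAction.stabilizer X lam ≤ Subgroup.normalizer (V : Set X) := VI_norm h.1 _ lam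
  have hUV : U ≤ V := VI_adj_le h.1 hμ
  have hWU : Cfsg.vertexVIter p M₁ M₂ n lam ≤ U := VI_adj_le h.1 hμ.symm
  have hU₀n : MulAction.stabilizer X μ ≤ Subgroup.normalizer (U : Set X) := VI_norm h.1 _ μ
  have hUn : MulAction.stabilizer X lam ≤ Subgroup.normalizer (U : Set X) := by
    apply norm_of_res h hμ
    · intro r hr
      have key : ∀ r ∈ R, U.map (MulAut.conj r).toMonoidHom ≤ U := by
        rintro r hr _ ⟨u, hu, rfl⟩
        have h1 : r * u * r⁻¹ * u⁻¹ ∈ U := by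
          apply hWU
          apply hcon
          rw [commutator_comm, ← commutatorElement_def]
          exact commutator_mem_commutator hr (hUV hu)
        show r * u * r⁻¹ ∈ U
        have := mul_mem h1 hu
        rwa [inv_mul_cancel_right] at this
      rw [← CfsgLib.H7Basic.cj_eq_self_iff]
      apply le_antisymm (key r hr)
      have h2 := key r⁻¹ (inv_mem hr)
      rw [CfsgLib.H7Basic.cj_le_iff, inv_inv] at h2
      exact h2
    · intro g hg
      exact hU₀n (mem_inf.1 hg).2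
  have hVU : V ≤ U := by
    apply VI_le h.1
    · exact (Z_le_VI lam n).trans hWU
    · intro ν hν
      obtain ⟨g, hg, hgν⟩ := trans_adj hμ hν
      have h1 : Cfsg.vertexVIter p M₁ M₂ (n + 1) ν = U.map (MulAut.conj g).toMonoidHom := by
        rw [← hgν]
        apply le_antisymm _ (VI_cj h.1 _ μ g)
        have h2 := VI_cj h.1 (n + 1) (g • μ) g⁻¹
        rw [inv_smul_smul, CfsgLib.H7Basic.cj_le_iff, inv_inv] at h2
        exact h2
      rw [h1, CfsgLib.H7Basic.cj_eq_self_iff.2 (hUn hg)]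
  have hVeq : V = U := le_antisymm hVU hUV
  have hQle : Cfsg.vertexQ p lam ≤ MulAction.stabilizer X lam := map_subtype_le _
  have hQμ : Cfsg.vertexQ p lam ≤ MulAction.stabilizer X μ := hE.core_le
  have hV1 : V = ⊥ := by
    apply eq_bot_of_norm h hμ (le_inf (hVQ.trans hQle) (hVQ.trans hQμ)) hVn
    rw [hVeq]; exact hU₀n
  apply Z_ne_bot h.1 lam
  rw [eq_bot_iff, ← hV1, hV]
  exact Z_le_VI lam _

end CfsgLib.H6Amal
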