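import Cfsg.Agent.Lib.H9Yo4
import Cfsg.Agent.Lib.FusionGroup
import Cfsg.Agent.Lib.CFLocal
import Cfsg.Agent.Lib.H7Basic

/-! S2807: Yoshida's theorem for groups. -/

set_option autoImplicit false
set_option linter.style.haveILetI false

namespace CfsgLib.H6Ms6

open MulAction Cfsg Cfsg.FusionSystem CfsgLib.Fusion CfsgLib.BSet CfsgLib.H9Yo CfsgLib.SylowIn
open scoped commutatorElement

universe u
variable {G : Type u} [Group G] [Finite G] {p : ℕ} [hp : Fact p.Prime]

theorem s2807 (S : Sylow p G) (h : (S : Subgroup G) ⊓ commutator G ≠ (S : Subgroup G) ⊓ ⁅Subgroup.normalizer ((S : Subgroup G) : Set G), Subgroup.normalizer ((S : Subgroup G) : Set G)⁆) :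
    ∃ (P : Sylow p (Equiv.Perm (Fin (p ^ 2)))) (f : ↥(S : Subgroup G) →* ↥(P : Subgroup (Equiv.Perm (Fin (p ^ 2))))), Function.Surjective f := by
  obtain ⟨T, hTd⟩ : ∃ T : Subgroup G, T = (S : Subgroup G) := ⟨_, rfl⟩
  obtain ⟨N, hNd⟩ : ∃ N : Subgroup G, N = Subgroup.normalizer (T : Set G) := ⟨_, rfl⟩
  rw [← hTd, ← hNd] at h
  have hS : IsPGroup p T := by rw [hTd]; exact S.2
  have hTN : T ≤ N := by rw [hNd]; exact Subgroup.le_normalizer
  have hTtop : CfsgLib.SylowIn.IsSylowIn p T ⊤ := by rw [hTd]; exact S.isSylowIn_top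
  have hTsyl : CfsgLib.SylowIn.IsSylowIn p T N := by
    rw [← CfsgLib.SylBridge.isSyl_iff_isSylowIn] at hTtop ⊢
    exact CfsgLib.SylBridge.IsSyl.of_le' hTtop hTN le_top
  let F : FusionSystem T := fusionSystemOfSubgroup ⊤ T le_top
  let E : FusionSystem T := fusionSystemOfSubgroup N T hTN
  have hF : F.IsSaturated p := saturated_of_isSylowIn hTtop
  have hEs : E.IsSaturated p := saturated_of_isSylowIn hTsyl
  have hle : ∀ P f, FMap E P f → FMap F P f := by
    intro P f hf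
    obtain ⟨h1, h2, g, -, h3⟩ := FMap_sub_iff.1 hf
    exact FMap_sub_iff.2 ⟨h1, h2, g, Subgroup.mem_top g, h3⟩
  have hSG : T ⊓ commutator G ≤ F.focalSubgroup := by
    have h1 := CfsgLib.CF.inf_commutator_le_of_focal (S := T) (CfsgLib.SylBridge.isSyl_iff_isSylowIn.2 hTtop) (F := F.focalSubgroup) (by
      intro a ha g hga
      have h2 : FMap F (Subgroup.zpowers a) (fun x => g * x * g⁻¹) := by
        refine FMap_sub_iff.2 ⟨Subgroup.zpowers_le.2 ha, ?_, g, Subgroup.mem_top g, fun x _ => rfl⟩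
        intro x hx
        obtain ⟨k, rfl⟩ := Subgroup.mem_zpowers_iff.1 hx
        show g * a ^ k * g⁻¹ ∈ T
        rw [← conj_zpow]
        exact T.zpow_mem hga k
      have h3 := foc_mem h2 (Subgroup.mem_zpowers a)
      -- `a⁻¹ * (g a g⁻¹)`; we need `g a g⁻¹ a⁻¹`
      have h4 : FMap F T (fun x => a * x * a⁻¹) := by
        refine FMap_sub_iff.2 ⟨le_rfl, fun x hx => T.mul_mem (T.mul_mem ha hx) (T.inv_mem ha), a, Subgroup.mem_top a, fun x _ => rfl⟩
      have h5 : a⁻¹ * (g * a * g⁻¹) ∈ F.focalSubgroup := h3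
      have h6 : a⁻¹ * (g * a * g⁻¹) ∈ T := T.mul_mem (T.inv_mem ha) hga
      have h7 := foc_mem h4 h6
      have h8 := F.focalSubgroup.mul_mem h5 h7
      have h9 : a⁻¹ * (g * a * g⁻¹) * ((a⁻¹ * (g * a * g⁻¹))⁻¹ * (a * (a⁻¹ * (g * a * g⁻¹)) * a⁻¹)) = g * a * g⁻¹ * a⁻¹ := by group
      rwa [h9] at h8)
    exact h1
  have hEN : E.focalSubgroup ≤ T ⊓ ⁅N, N⁆ := by
    rw [foc_le_iff]
    intro P f hf x hx
    obtain ⟨h1, h2, g, hg, h3⟩ := FMap_sub_iff.1 hf
    refine Subgroup.mem_inf.2 ⟨T.mul_mem (T.inv_mem (h1 hx)) (h2 x hx), ?_⟩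
    rw [h3 x hx]
    have e : x⁻¹ * (g * x * g⁻¹) = ⁅x⁻¹, g⁆ := by rw [commutatorElement_def]; group
    rw [e]
    exact Subgroup.commutator_mem_commutator (N.inv_mem (hTN (h1 hx))) hg
  have hne : F.focalSubgroup ≠ E.focalSubgroup := by
    intro he
    apply h
    apply le_antisymm
    · exact hSG.trans (he.le.trans hEN)
    · exact inf_le_inf_left _ (Subgroup.commutator_mono le_top le_top)
  have hno : ¬ F.focalSubgroup ≤ (frattini ↥T).map T.subtype ⊔ E.focalSubgroup := fun h1 => hne (tate_foc hS hF hEs hle h1)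
  obtain ⟨x₀, hx₀, hx₀K⟩ := Set.not_subset.mp hno
  have hx₀S : x₀ ∈ T := foc_le hx₀
  set K := (frattini ↥T).map T.subtype ⊔ E.focalSubgroup with hK
  have hKn : (K.subgroupOf T).Normal := by
    refine ⟨fun x hx g => ?_⟩
    show (g : G) * x * (g : G)⁻¹ ∈ K
    have h1 : ⁅(g : G), (x : G)⁆ ∈ K := by
      apply Subgroup.mem_sup_left
      exact commutator_le_frattini hS (Subgroup.commutator_mem_commutator g.2 x.2)
    have e : (g : G) * x * (g : G)⁻¹ = ⁅(g : G), (x : G)⁆ * x := by rw [commutatorElement_def]; group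
    rw [e]
    exact K.mul_mem h1 hx
  let Q := T ⧸ K.subgroupOf T
  letI iQ : CommGroup Q := { (inferInstance : Group (T ⧸ K.subgroupOf T)) with
    mul_comm := by
      intro a b
      induction a using QuotientGroup.induction_on with
      | H a =>
      induction b using QuotientGroup.induction_on with
      | H b =>
      show ((a * b : T) : T ⧸ K.subgroupOf T) = ((b * a : T) : T ⧸ K.subgroupOf T)
      rw [QuotientGroup.eq]
      show ((a : G) * b)⁻¹ * (b * a) ∈ K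
      have e : ((a : G) * b)⁻¹ * (b * a) = ⁅(b : G)⁻¹, (a : G)⁻¹⁆ := by rw [commutatorElement_def]; group
      rw [e]
      apply Subgroup.mem_sup_left
      exact commutator_le_frattini hS (Subgroup.commutator_mem_commutator (T.inv_mem b.2) (T.inv_mem a.2)) }
  have hQp : ∀ q : Q, q ^ p = 1 := by
    intro q
    induction q using QuotientGroup.induction_on with
    | H a =>
    show ((a ^ p : T) : T ⧸ K.subgroupOf T) = 1
    rw [QuotientGroup.eq_one_iff]
    apply Subgroup.mem_sup_left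
    exact ⟨a ^ p, CfsgLib.PGrp.pow_mem_frattini hS a, rfl⟩
  obtain ⟨f, hf⟩ := exists_hom_ne_one (p := p) hQp (x := ((⟨x₀, hx₀S⟩ : T) : Q)) (by
    intro h
    have h' := (QuotientGroup.eq_one_iff (N := K.subgroupOf T) (⟨x₀, hx₀S⟩ : T)).mp h
    exact hx₀K h')
  let π : T →* Q := QuotientGroup.mk' (K.subgroupOf T)
  have hgoal : ∃ (P : Sylow p (Equiv.Perm (Fin (p ^ 2)))) (f : ↥T →* ↥(P : Subgroup (Equiv.Perm (Fin (p ^ 2))))), Function.Surjective f := by
    refine yoshida_core hS hF (f.comp π) ?_ ⟨x₀, hx₀S⟩ hx₀ hf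
    intro g hg a ha hga
    show f (π ⟨g a, hga⟩) = f (π ⟨a, ha⟩)
    congr 1
    symm
    apply QuotientGroup.eq.mpr
    show a⁻¹ * g a ∈ K
    apply Subgroup.mem_sup_right
    refine foc_mem (F := E) (P := T) ?_ ha
    obtain ⟨h1, h2, c, -, h3⟩ := FMap_sub_iff.1 hg
    refine FMap_sub_iff.2 ⟨h1, h2, c, ?_, h3⟩
    rw [hNd]
    apply CfsgLib.H7Basic.mem_normalizer_of_conj_mem
    intro x hx
    rw [← h3 x hx]
    exact h2 x hx
  rw [hTd] at hgoal
  exact hgoal

end CfsgLib.H6Ms6
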