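import Mathlib
import Cfsg.Prelude.Def_LieExceptional
import Cfsg.Prelude.Def_OddOrderLocal
import Cfsg.Prelude.Def_OddOrder
import Cfsg.Agent.Lib.H7CNB

/-!
# The partition of a minimal simple CN-group of odd order
-/

set_option autoImplicit false
set_option linter.style.haveILetI false
set_option linter.unusedSectionVars false

open CfsgLib.SZ CfsgLib.Coprime CfsgLib.FrobAct
open scoped Pointwise

namespace CfsgLib.H7CN1

universe u v

variable {G : Type u} [Group G]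

theorem MaxNil.conj_or_coprime [Finite G] (h : Cfsg.IsCNGroup G) {H₁ H₂ : Subgroup G} (h1 : MaxNil H₁) (h2 : MaxNil H₂) :
    (∃ g : G, H₂ = H₁.map (MulAut.conj g).toMonoidHom) ∨ (Nat.card H₁).Coprime (Nat.card H₂) := by
  classical
  by_cases hc : (Nat.card H₁).Coprime (Nat.card H₂)
  · exact Or.inr hc
  left
  rw [Nat.coprime_iff_gcd_eq_one] at hc
  obtain ⟨p, hp, hpd⟩ := Nat.exists_prime_and_dvd hc
  haveI : Fact p.Prime := ⟨hp⟩
  have hp1 := hpd.trans (Nat.gcd_dvd_left _ _)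
  have hp2 := hpd.trans (Nat.gcd_dvd_right _ _)
  obtain ⟨P1, hP1⟩ := exists_isSyl (G := G) p H₁
  obtain ⟨P2, hP2⟩ := exists_isSyl (G := G) p H₂
  have hP11 := isSyl_ne_bot hp hP1 hp1
  have hP21 := isSyl_ne_bot hp hP2 hp2
  obtain ⟨R1, hR1⟩ := hP1.isPGroup.exists_le_sylow
  obtain ⟨R2, hR2⟩ := hP2.isPGroup.exists_le_sylow
  have e1 := h1.pgroup_eq h hP1 hP11 R1.isPGroup' hR1
  have e2 := h2.pgroup_eq h hP2 hP21 R2.isPGroup' hR2
  obtain ⟨g, hg⟩ := MulAction.exists_smul_eq G R1 R2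
  have e3 : P2 = P1.map (MulAut.conj g).toMonoidHom := by
    rw [e2, ← hg, Sylow.coe_subgroup_smul, ← e1]
    rfl
  have h3 := isSyl_conj hP1 g
  rw [← e3] at h3
  exact ⟨g, MaxNil.eq_of_syl h h2 (h1.conj g) hP2 h3 hP21⟩

theorem MaxNil.centralizer_le' [Finite G] (hG : Cfsg.IsMinSimpleOddOrder G) (h : Cfsg.IsCNGroup G) {H : Subgroup G} (hH : MaxNil H) {x : G} (hx : x ∈ H)
    (hx1 : x ≠ 1) : Subgroup.centralizer ({x} : Set G) ≤ H :=
  hH.centralizer_le h (fun g hg => hH.ti hG h g hg) hx hx1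

theorem exists_maxNil_mem [Finite G] (x : G) : ∃ H : Subgroup G, MaxNil H ∧ x ∈ H := by
  obtain ⟨H, hH, hx⟩ := exists_maxNil (nil_of_cyclic (inferInstance : IsCyclic (Subgroup.zpowers x)))
  exact ⟨H, hH, hx (Subgroup.mem_zpowers x)⟩

theorem dvd_of_pgroup [Finite G] {p : ℕ} (hp : p.Prime) {x : G} (hx1 : x ≠ 1) (hx : IsPGroup p (Subgroup.zpowers x)) : p ∣ orderOf x := by
  haveI : Fact p.Prime := ⟨hp⟩
  obtain ⟨k, hk⟩ := IsPGroup.iff_card.mp hx
  rw [Nat.card_zpowers] at hk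
  rw [hk]
  refine dvd_pow_self p ?_
  rintro rfl
  rw [pow_zero, orderOf_eq_one_iff] at hk
  exact hx1 hk

theorem S1483b [Finite G] (hG : Cfsg.IsMinSimpleOddOrder G) (h : Cfsg.IsCNGroup G) (p q r : ℕ) (hp : p.Prime) (hq : q.Prime) (hr : r.Prime)
    (x y y' z : G) (hx1 : x ≠ 1) (hy1 : y ≠ 1) (hy1' : y' ≠ 1) (hz1 : z ≠ 1) (hx : IsPGroup p (Subgroup.zpowers x)) (hy : IsPGroup q (Subgroup.zpowers y))
    (hy' : IsPGroup q (Subgroup.zpowers y')) (hz : IsPGroup r (Subgroup.zpowers z)) (hxy : x * y = y * x) (hyz : y' * z = z * y') :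
    ∃ x' z' : G, x' ≠ 1 ∧ z' ≠ 1 ∧ IsPGroup p (Subgroup.zpowers x') ∧ IsPGroup r (Subgroup.zpowers z') ∧ x' * z' = z' * x' := by
  classical
  haveI : Fact p.Prime := ⟨hp⟩
  haveI : Fact q.Prime := ⟨hq⟩
  haveI : Fact r.Prime := ⟨hr⟩
  obtain ⟨H, hH, hyH⟩ := exists_maxNil_mem y
  obtain ⟨H', hH', hyH'⟩ := exists_maxNil_mem y'
  have hc : Nat.card H' = Nat.card H := by
    rcases hH.conj_or_coprime h hH' with ⟨g, hg⟩ | hc
    · rw [hg, Subgroup.card_map_of_injective (MulAut.conj g).injective]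
    · exfalso
      exact Nat.not_coprime_of_dvd_of_dvd hq.one_lt ((dvd_of_pgroup hq hy1 hy).trans (Subgroup.orderOf_dvd_natCard H hyH))
        ((dvd_of_pgroup hq hy1' hy').trans (Subgroup.orderOf_dvd_natCard H' hyH')) hc
  have hxH : x ∈ H := hH.centralizer_le' hG h hyH hy1 (Subgroup.mem_centralizer_singleton_iff.mpr hxy)
  have hzH' : z ∈ H' := hH'.centralizer_le' hG h hyH' hy1' (Subgroup.mem_centralizer_singleton_iff.mpr hyz.symm)
  have hpH : p ∣ Nat.card H := (dvd_of_pgroup hp hx1 hx).trans (Subgroup.orderOf_dvd_natCard H hxH)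
  have hrH : r ∣ Nat.card H := by
    rw [← hc]
    exact (dvd_of_pgroup hr hz1 hz).trans (Subgroup.orderOf_dvd_natCard H' hzH')
  obtain ⟨⟨a, ha⟩, hao⟩ := exists_prime_orderOf_dvd_card' p hpH
  obtain ⟨⟨b, hb⟩, hbo⟩ := exists_prime_orderOf_dvd_card' r hrH
  rw [Subgroup.orderOf_mk] at hao hbo
  have ha1 : a ≠ 1 := by
    rintro rfl
    rw [orderOf_one] at hao
    exact hp.one_lt.ne hao
  have hb1 : b ≠ 1 := by
    rintro rfl
    rw [orderOf_one] at hbo
    exact hr.one_lt.ne hbo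
  have hap : IsPGroup p (Subgroup.zpowers a) := IsPGroup.of_card (n := 1) (by rw [Nat.card_zpowers, hao, pow_one])
  have hbp : IsPGroup r (Subgroup.zpowers b) := IsPGroup.of_card (n := 1) (by rw [Nat.card_zpowers, hbo, pow_one])
  by_cases hpr : p = r
  · subst hpr
    exact ⟨a, a, ha1, ha1, hap, hap, rfl⟩
  · refine ⟨a, b, ha1, hb1, hap, hbp, ?_⟩
    refine nil_comm hH.1 hr hbp (by rw [Subgroup.zpowers_le]; exact hb) ha ?_ b (Subgroup.mem_zpowers b)
    rw [hao]
    intro hh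
    exact hpr ((Nat.prime_dvd_prime_iff_eq hr hp).mp hh).symm

theorem map_conj_normalizer [Finite G] (K : Subgroup G) (g : G) :
    (Subgroup.normalizer (K : Set G)).map (MulAut.conj g).toMonoidHom = Subgroup.normalizer ((K.map (MulAut.conj g).toMonoidHom : Subgroup G) : Set G) := by
  have := CfsgLib.Alperin.conj_normalizer g K
  exact this

theorem S1484 [Finite G] (hG : Cfsg.IsMinSimpleOddOrder G) (h : Cfsg.IsCNGroup G) (k : ℕ) (Mrep : Fin k → Subgroup G) (hmax : ∀ i, IsCoatom (Mrep i))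
    (hnc : ∀ i j, i ≠ j → ∀ g : G, Mrep j ≠ (Mrep i).map (MulAut.conj g).toMonoidHom)
    (hall : ∀ M : Subgroup G, IsCoatom M → ∃ i, ∃ g : G, M = (Mrep i).map (MulAut.conj g).toMonoidHom) :
    (∀ i j, i ≠ j → (Nat.card (Cfsg.fittingHallOf (Mrep i))).Coprime (Nat.card (Cfsg.fittingHallOf (Mrep j)))) ∧
      ∏ i, Nat.card (Cfsg.fittingHallOf (Mrep i)) = Nat.card G ∧
      ∀ x : G, ∃ i, ∃ g : G, g * x * g⁻¹ ∈ Cfsg.fittingHallOf (Mrep i) := by
  classical
  have hd : ∀ i, ∃ E, Dat (Mrep i) (Cfsg.fittingHallOf (Mrep i)) E := by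
    intro i
    obtain ⟨K, E, dat⟩ := exists_dat hG h (hmax i)
    have := dat.eq
    subst this
    exact ⟨E, dat⟩
  have hcop : ∀ i j, i ≠ j → (Nat.card (Cfsg.fittingHallOf (Mrep i))).Coprime (Nat.card (Cfsg.fittingHallOf (Mrep j))) := by
    intro i j hij
    obtain ⟨Ei, di⟩ := hd i
    obtain ⟨Ej, dj⟩ := hd j
    rcases di.mn.conj_or_coprime h dj.mn with ⟨g, hg⟩ | hc
    · exfalso
      apply hnc i j hij g
      rw [dj.norm, hg, ← map_conj_normalizer, ← di.norm]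
    · exact hc
  have hx : ∀ x : G, ∃ i, ∃ g : G, g * x * g⁻¹ ∈ Cfsg.fittingHallOf (Mrep i) := by
    intro x
    obtain ⟨H, hH, hxH⟩ := exists_maxNil_mem x
    obtain ⟨hc, E, dat⟩ := hH.exists_dat hG h
    obtain ⟨i, g, hg⟩ := hall _ hc
    obtain ⟨Ei, di⟩ := hd i
    obtain ⟨hc', E', dat'⟩ := (di.mn.conj g).exists_dat hG h
    have e1 : H = (Cfsg.fittingHallOf (Mrep i)).map (MulAut.conj g).toMonoidHom := by
      have h1 := dat.eq
      have h2 := dat'.eq
      rw [← map_conj_normalizer, ← di.norm, ← hg] at h2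
      rw [h1, ← h2]
    refine ⟨i, g⁻¹, ?_⟩
    rw [e1] at hxH
    have := mem_map_conj.mp hxH
    rwa [inv_inv]
  refine ⟨hcop, ?_, hx⟩
  refine Nat.dvd_antisymm ?_ ?_
  · refine Finset.prod_dvd_of_isRelPrime ?_ ?_
    · intro i _ j _ hij
      exact Nat.coprime_iff_isRelPrime.mp (hcop i j hij)
    · intro i _
      exact Subgroup.card_subgroup_dvd_card _
  · have hprod : ∏ i, Nat.card (Cfsg.fittingHallOf (Mrep i)) ≠ 0 := Finset.prod_ne_zero_iff.mpr (fun i _ => Nat.card_pos.ne')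
    rw [← Nat.factorization_le_iff_dvd Nat.card_pos.ne' hprod]
    intro p
    by_cases hp : p.Prime
    · by_cases hpG : p ∣ Nat.card G
      · haveI : Fact p.Prime := ⟨hp⟩
        obtain ⟨x, hxo⟩ := exists_prime_orderOf_dvd_card' p hpG
        obtain ⟨i, g, hg⟩ := hx x
        have hpK : p ∣ Nat.card (Cfsg.fittingHallOf (Mrep i)) := by
          have h1 := Subgroup.orderOf_dvd_natCard _ hg
          have h2 : orderOf (g * x * g⁻¹) = p := by
            rw [← hxo]
            exact MulEquiv.orderOf_eq (MulAut.conj g) x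
          rwa [h2] at h1
        obtain ⟨Ei, di⟩ := hd i
        have hh := di.mn.hall h
        have h3 := (Cfsg.fittingHallOf (Mrep i)).card_mul_index
        have h4 : (Nat.card G).factorization p = (Nat.card (Cfsg.fittingHallOf (Mrep i))).factorization p := by
          rw [← h3, Nat.factorization_mul Nat.card_pos.ne' Subgroup.FiniteIndex.index_ne_zero, Finsupp.add_apply,
            Nat.factorization_eq_zero_of_not_dvd (n := (Cfsg.fittingHallOf (Mrep i)).index), add_zero]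
          intro h5
          exact Nat.not_coprime_of_dvd_of_dvd hp.one_lt hpK h5 hh
        rw [h4]
        exact (Nat.factorization_le_iff_dvd Nat.card_pos.ne' hprod).mpr (Finset.dvd_prod_of_mem _ (Finset.mem_univ i)) p
      · rw [Nat.factorization_eq_zero_of_not_dvd hpG]; exact Nat.zero_le _
    · rw [Nat.factorization_eq_zero_of_not_prime _ hp]; exact Nat.zero_le _

end CfsgLib.H7CN1
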