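import Mathlib
import Cfsg.Prelude.Def_LieExceptional
import Cfsg.Prelude.Def_OddOrderLocal
import Cfsg.Prelude.Def_OddOrder
import Cfsg.Agent.Lib.CNOdd6
import Cfsg.Agent.Lib.H7CNC

/-!
# CN-groups of odd order are solvable
-/

set_option autoImplicit false
set_option linter.style.haveILetI false
set_option linter.unusedSectionVars false

open CfsgLib.SZ CfsgLib.Coprime CfsgLib.FrobAct
open scoped Pointwise

namespace CfsgLib.H7CN1

section part
open Cfsg CfsgLib.CharBasic CfsgLib.CharInd CfsgLib.CNOdd CfsgLib.CNOdd4 CfsgLib.CNOdd5 CfsgLib.CNOdd6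

theorem no_partition {G : Type*} [Group G] [Finite G] (hodd : Odd (Nat.card G)) {ι : Type*} [Fintype ι] (hι : 2 ≤ Fintype.card ι) (L H : ι → Subgroup G) (hHL : ∀ i, H i < L i) (hH1 : ∀ i, H i ≠ ⊥) (hHn : ∀ i, ∀ x ∈ L i, ∀ h ∈ H i, x * h * x⁻¹ ∈ H i) (hfrob : ∀ i, ∀ h ∈ H i, h ≠ 1 → L i ⊓ Subgroup.centralizer ({h} : Set G) ≤ H i) (hcop : ∀ i j, i ≠ j → Nat.Coprime (Nat.card (H i)) (Nat.card (H j))) (hTI : ∀ i, Cfsg.IsTISubset (H i : Set G) ∧ Subgroup.normalizer (H i : Set G) = L i) (hcover : ∀ g : G, g ≠ 1 → ∃ i, ∃ x : G, x * g * x⁻¹ ∈ H i) : False := by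
  classical
  haveI : Fintype G := Fintype.ofFinite G
  haveI : ∀ i, Fintype (L i) := fun i => Fintype.ofFinite _
  have hD : ∀ i, Nonempty (FData (L i) (H i)) := fun i => exists_fdata (H i) (L i) hodd (hHL i) (hH1 i) (hHn i) (hfrob i) (hTI i).1 (hTI i).2
  obtain ⟨D⟩ : Nonempty (∀ i, FData (L i) (H i)) := ⟨fun i => (hD i).some⟩
  have hex : ∀ i j, ∃ n : ℤ, i ≠ j → classInner (CfsgLib.CNOdd4.beta (H i) (D i).ζ) ((D j).σ (D j).ζ) = n := by
    intro i j
    haveI := (D i).normal
    haveI := (D j).normal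
    obtain ⟨n, hn⟩ := IsGeneralizedCharacter.inner_int (beta_gen (D i).hC (D i).hζ) (sigma_gen (D j).hσ (D j).hζ)
    exact ⟨n, fun _ => hn⟩
  choose c hc using hex
  have hne : (Finset.univ : Finset ι).Nonempty := by
    rw [← Finset.card_pos, Finset.card_univ]
    omega
  obtain ⟨i, -, hi⟩ := Finset.exists_min_image Finset.univ (fun i => Nat.card (H i)) hne
  refine contra D hcop c hc hcover hodd i ?_
  intro j hj
  refine lt_of_le_of_ne (hi j (Finset.mem_univ _)) fun h => ?_
  have h1 := hcop j i hj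
  rw [h, Nat.coprime_self] at h1
  exact hH1 j (Subgroup.card_eq_one.mp h1)



end part

universe u v

variable {G : Type u} [Group G]

theorem no_minSimple_cn [Finite G] (hG : Cfsg.IsMinSimpleOddOrder G) (h : Cfsg.IsCNGroup G) : False := by
  classical
  -- conjugacy classes of maximal subgroups
  let T := {M : Subgroup G // IsCoatom M}
  let st : Setoid T :=
    { r := fun M N => ∃ g : G, (N : Subgroup G) = (M : Subgroup G).map (MulAut.conj g).toMonoidHom
      iseqv :=
        { refl := fun M => ⟨1, by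
            ext x
            rw [mem_map_conj]
            simp⟩
          symm := by
            rintro M N ⟨g, hg⟩
            exact ⟨g⁻¹, by rw [hg, map_conj_inv]⟩
          trans := by
            rintro M N P ⟨g, hg⟩ ⟨g', hg'⟩
            refine ⟨g' * g, ?_⟩
            rw [hg', hg]
            ext x
            rw [mem_map_conj, mem_map_conj, mem_map_conj]
            have e : g⁻¹ * (g'⁻¹ * x * g') * g = (g' * g)⁻¹ * x * (g' * g) := by group
            rw [e] } }
  haveI : Finite (Quotient st) := Quotient.finite st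
  obtain ⟨k, ⟨e⟩⟩ := Finite.exists_equiv_fin (Quotient st)
  let Mrep : Fin k → Subgroup G := fun i => ((e.symm i).out : T)
  have hmax : ∀ i, IsCoatom (Mrep i) := fun i => ((e.symm i).out : T).2
  have hnc : ∀ i j, i ≠ j → ∀ g : G, Mrep j ≠ (Mrep i).map (MulAut.conj g).toMonoidHom := by
    intro i j hij g hg
    apply hij
    have h1 : (e.symm i).out ≈ (e.symm j).out := ⟨g, hg⟩
    have h2 := Quotient.sound h1
    rw [Quotient.out_eq, Quotient.out_eq] at h2
    exact e.symm.injective h2
  have hall : ∀ M : Subgroup G, IsCoatom M → ∃ i, ∃ g : G, M = (Mrep i).map (MulAut.conj g).toMonoidHom := by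
    intro M hM
    refine ⟨e (Quotient.mk st ⟨M, hM⟩), ?_⟩
    have h1 : (e.symm (e (Quotient.mk st ⟨M, hM⟩))).out ≈ (⟨M, hM⟩ : T) := by
      rw [Equiv.symm_apply_apply]
      exact Quotient.mk_out (s := st) (⟨M, hM⟩ : T)
    exact h1
  obtain ⟨hcop, hprod, hx⟩ := S1484 hG h k Mrep hmax hnc hall
  have hd : ∀ i, ∃ E, Dat (Mrep i) (Cfsg.fittingHallOf (Mrep i)) E := by
    intro i
    obtain ⟨K, E, dat⟩ := exists_dat hG h (hmax i)
    have := dat.eq
    subst this
    exact ⟨E, dat⟩
  have hlt : ∀ i, Cfsg.fittingHallOf (Mrep i) < Mrep i := by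
    intro i
    obtain ⟨E, d⟩ := hd i
    refine lt_of_le_of_ne d.compl.1 ?_
    intro he
    apply d.Ene
    have h1 := d.compl.2.2.1
    rw [he, inf_eq_right.mpr d.compl.2.1] at h1
    exact h1
  haveI : Nontrivial G := hG.2.1.toNontrivial
  have hk : 2 ≤ Fintype.card (Fin k) := by
    rw [Fintype.card_fin]
    by_contra hk
    have hk' : k = 0 ∨ k = 1 := by omega
    rcases hk' with rfl | rfl
    · simp at hprod
      exact (Finite.one_lt_card (α := G)).ne hprod
    · rw [Fin.prod_univ_one] at hprod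
      have h1 : Nat.card (Cfsg.fittingHallOf (Mrep 0)) < Nat.card (Mrep 0) := Set.Finite.card_lt_card (Set.toFinite _) (hlt 0)
      have h2 : Nat.card (Mrep 0) ≤ Nat.card G := Subgroup.card_le_card_group _
      omega
  refine no_partition hG.1 hk Mrep (fun i => Cfsg.fittingHallOf (Mrep i)) hlt ?_ ?_ ?_ hcop ?_ ?_
  · intro i
    obtain ⟨E, d⟩ := hd i
    exact d.ne
  · intro i x hx a ha
    obtain ⟨E, d⟩ := hd i
    rw [d.norm] at hx
    exact (Subgroup.mem_normalizer_iff.mp hx a).mp ha
  · intro i a ha ha1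
    obtain ⟨E, d⟩ := hd i
    exact inf_le_right.trans (d.mn.centralizer_le' hG h ha ha1)
  · intro i
    obtain ⟨E, d⟩ := hd i
    refine ⟨?_, d.norm.symm⟩
    intro g hg x hx hgx
    by_contra hx1
    apply hg
    have h1 : (Cfsg.fittingHallOf (Mrep i)).map (MulAut.conj g⁻¹).toMonoidHom = Cfsg.fittingHallOf (Mrep i) := by
      by_contra hne
      have h2 := d.mn.ti hG h g⁻¹ hne
      have h3 : x ∈ Cfsg.fittingHallOf (Mrep i) ⊓ (Cfsg.fittingHallOf (Mrep i)).map (MulAut.conj g⁻¹).toMonoidHom := by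
        refine Subgroup.mem_inf.mpr ⟨hx, mem_map_conj.mpr ?_⟩
        rw [inv_inv]
        exact hgx
      rw [h2, Subgroup.mem_bot] at h3
      exact hx1 h3
    have h4 := CfsgLib.Core.map_conj_eq_iff.mp h1
    have h5 := inv_mem h4
    rwa [inv_inv] at h5
  · intro g _
    obtain ⟨i, x, hx⟩ := hx g
    exact ⟨i, x, hx⟩

theorem odd_cn_solvable_aux (n : ℕ) : ∀ {G : Type u} [Group G] [Finite G], Nat.card G ≤ n → Odd (Nat.card G) → Cfsg.IsCNGroup G → Group.IsSolvable G := by
  induction n with
  | zero =>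
    intro G _ _ hn
    have := Nat.card_pos (α := G)
    omega
  | succ n ih =>
    intro G _ _ hn hodd h
    classical
    by_contra hns
    have hsub : ∀ H : Subgroup G, H ≠ ⊤ → Group.IsSolvable H := by
      intro H hH
      refine ih ?_ (Odd.of_dvd_nat hodd (Subgroup.card_subgroup_dvd_card H)) (CN.sub h H)
      have h1 : Nat.card H < Nat.card G := by
        refine lt_of_le_of_ne (Subgroup.card_le_card_group H) ?_
        intro he
        exact hH (Subgroup.card_eq_iff_eq_top H |>.mp he)
      omega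
    apply no_minSimple_cn (G := G) ⟨hodd, ?_, ?_, hsub⟩ h
    · haveI hnt : Nontrivial G := by
        by_contra hnt
        rw [not_nontrivial_iff_subsingleton] at hnt
        exact hns inferInstance
      refine { exists_pair_ne := hnt.exists_pair_ne, eq_bot_or_eq_top_of_normal := ?_ }
      intro N hN
      by_contra hcon
      push Not at hcon
      apply hns
      have h1 := hsub N hcon.2
      have h2 := CN.quot h N h1
      have h3 := CfsgLib.Hall.card_quotient_lt N hcon.1
      have h4 : Group.IsSolvable (G ⧸ N) := ih (by omega) (Odd.of_dvd_nat hodd (Subgroup.card_quotient_dvd_card N)) h2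
      haveI := h1
      haveI := h4
      exact Group.isSolvable_of_ker_le_range N.subtype (QuotientGroup.mk' N) (by rw [QuotientGroup.ker_mk', Subgroup.range_subtype])
    · intro hc
      apply hns
      letI : CommGroup G := { ‹Group G› with mul_comm := hc.is_comm.comm }
      infer_instance

theorem odd_cn_solvable [Finite G] (hodd : Odd (Nat.card G)) (h : Cfsg.IsCNGroup G) : Group.IsSolvable G :=
  odd_cn_solvable_aux _ le_rfl hodd h

end CfsgLib.H7CN1
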