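import Mathlib

set_option autoImplicit false

namespace CfsgLib.H7GH
open Subgroup

universe u

section V
variable {V : Type u} [CommGroup V]

/-- norm identity -/
theorem norm4 (t : MulAut V) (ht : t ^ 4 = 1) (hf : ∀ v, t v = v → v = 1) (v : V) :
    v * t v * (t ^ 2) v * (t ^ 3) v = 1 := by
  apply hf
  have h4 : t ((t ^ 3) v) = v := by
    rw [← MulAut.mul_apply, ← pow_succ', ht, MulAut.one_apply]
  have h3 : t ((t ^ 2) v) = (t ^ 3) v := by
    rw [← MulAut.mul_apply, ← pow_succ']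
  have h2 : t (t v) = (t ^ 2) v := by
    rw [← MulAut.mul_apply, ← pow_two]
  rw [map_mul, map_mul, map_mul, h4, h3, h2]
  simp only [mul_comm, mul_left_comm]

/-- The key averaging step. -/
theorem avg [Finite V] (s : MulAut V) (hs : s ^ 4 = 1) (hfV : ∀ v, s v = v → v = 1)
    (B : Subgroup (MulAut V)) (hB : ∀ b ∈ B, s * b * s⁻¹ ∈ B)
    (hab : ∀ b ∈ B, ∀ c ∈ B, b * c = c * b)
    (hfB : ∀ b ∈ B, s * b * s⁻¹ = b → b = 1)
    (hinv : ∀ b ∈ B, s ^ 2 * b * (s ^ 2)⁻¹ = b⁻¹)
    (hodd : Odd (Nat.card B)) (hco : (Nat.card B).Coprime (Nat.card V)) : B = ⊥ := by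
  classical
  haveI : Finite B := Nat.finite_of_card_ne_zero (by rcases hodd with ⟨k, hk⟩; omega)
  letI : Fintype B := Fintype.ofFinite B
  -- conjugation by powers of s preserves B
  have hBi : ∀ i : ℕ, ∀ b ∈ B, s ^ i * b * (s ^ i)⁻¹ ∈ B := by
    intro i
    induction i with
    | zero => intro b hb; simpa using hb
    | succ n ih =>
      intro b hb
      have h1 := hB _ (ih b hb)
      have h2 : s ^ (n + 1) * b * (s ^ (n + 1))⁻¹ = s * (s ^ n * b * (s ^ n)⁻¹) * s⁻¹ := by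
        rw [pow_succ']; group
      rw [h2]; exact h1
  let N : V → V := fun v => ∏ b : B, (b : MulAut V) v
  have hNmul : ∀ v w, N (v * w) = N v * N w := by
    intro v w
    simp only [N, map_mul, Finset.prod_mul_distrib]
  -- the map phi_i
  have hphi : ∀ i : ℕ, (∀ b ∈ B, s ^ i * b * (s ^ i)⁻¹ = b → b = 1) → ∀ v : V,
      ∏ b : B, (((b : MulAut V) * s ^ i * (b : MulAut V)⁻¹) v) = N ((s ^ i) v) := by
    intro i hi v
    let f : B → B := fun b => ⟨(b : MulAut V) * (s ^ i * (b : MulAut V)⁻¹ * (s ^ i)⁻¹),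
      B.mul_mem b.2 (hBi i _ (B.inv_mem b.2))⟩
    have hf : Function.Injective f := by
      intro b c hbc
      have h1 : (b : MulAut V) * (s ^ i * (b : MulAut V)⁻¹ * (s ^ i)⁻¹)
          = (c : MulAut V) * (s ^ i * (c : MulAut V)⁻¹ * (s ^ i)⁻¹) := congrArg Subtype.val hbc
      have h2 : s ^ i * ((c : MulAut V)⁻¹ * b) * (s ^ i)⁻¹ = (c : MulAut V)⁻¹ * b := by
        have h3 : (c : MulAut V)⁻¹ * b = (s ^ i * (c : MulAut V)⁻¹ * (s ^ i)⁻¹) *
            (s ^ i * (b : MulAut V)⁻¹ * (s ^ i)⁻¹)⁻¹ := by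
          rw [eq_mul_inv_iff_mul_eq, mul_assoc, h1]; group
        exact (h3.trans (by group)).symm
      have h4 := hi _ (B.mul_mem (B.inv_mem c.2) b.2) h2
      apply Subtype.ext
      exact (inv_mul_eq_one.mp h4).symm
    have hbij : Function.Bijective f := Finite.injective_iff_bijective.mp hf
    have h5 : ∀ b : B, (((b : MulAut V) * s ^ i * (b : MulAut V)⁻¹) v)
        = ((f b : B) : MulAut V) ((s ^ i) v) := by
      intro b
      rw [← MulAut.mul_apply]
      congr 1
      simp only [f]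
      group
    rw [Finset.prod_congr rfl (fun b _ => h5 b)]
    exact hbij.prod_comp (fun b : B => (b : MulAut V) ((s ^ i) v))
  have hf1 : ∀ b ∈ B, s ^ 1 * b * (s ^ 1)⁻¹ = b → b = 1 := by
    intro b hb h; rw [pow_one] at h; exact hfB b hb h
  have hf2 : ∀ b ∈ B, s ^ 2 * b * (s ^ 2)⁻¹ = b → b = 1 := by
    intro b hb h
    rw [hinv b hb] at h
    have h6 : b ^ 2 = 1 := by
      rw [pow_two]; nth_rewrite 1 [← h]; exact inv_mul_cancel b
    have h7 : (⟨b, hb⟩ : B) ^ 2 = 1 := Subtype.ext h6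
    have h8 : orderOf (⟨b, hb⟩ : B) ∣ 2 := orderOf_dvd_of_pow_eq_one h7
    have h9 : orderOf (⟨b, hb⟩ : B) ∣ Nat.card B := orderOf_dvd_natCard _
    have h10 : orderOf (⟨b, hb⟩ : B) ∣ 1 := by
      have := Nat.dvd_gcd h8 h9
      rwa [(Nat.coprime_two_left.mpr hodd : Nat.gcd 2 (Nat.card B) = 1)] at this
    have h11 := orderOf_eq_one_iff.mp (Nat.dvd_one.mp h10)
    exact congrArg Subtype.val h11
  have hf3 : ∀ b ∈ B, s ^ 3 * b * (s ^ 3)⁻¹ = b → b = 1 := by
    intro b hb h
    apply hfB b hb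
    have h12 : s ^ 3 = s⁻¹ := by
      rw [eq_inv_iff_mul_eq_one, ← pow_succ, hs]
    rw [h12, inv_inv] at h
    have h13 : b = s * b * s⁻¹ := by
      nth_rewrite 2 [← h]; group
    exact h13.symm
  have key : ∀ v : V, v ^ (Nat.card B) = N v := by
    intro v
    have hb4 : ∀ b : B, ((b : MulAut V) * s * (b : MulAut V)⁻¹) ^ 4 = 1 := by
      intro b; rw [conj_pow, hs]; simp
    have hbf : ∀ b : B, ∀ w, ((b : MulAut V) * s * (b : MulAut V)⁻¹) w = w → w = 1 := by
      intro b w hw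
      have h14 : s ((b : MulAut V)⁻¹ w) = (b : MulAut V)⁻¹ w := by
        rw [MulAut.mul_apply, MulAut.mul_apply] at hw
        calc s ((b : MulAut V)⁻¹ w) = (b : MulAut V)⁻¹ ((b : MulAut V) (s ((b : MulAut V)⁻¹ w))) := by
              exact (MulAut.inv_apply_self V _ _).symm
          _ = (b : MulAut V)⁻¹ w := by rw [hw]
      have h15 := hfV _ h14
      have h16 := congrArg (b : MulAut V) h15
      rwa [← MulAut.mul_apply, mul_inv_cancel, MulAut.one_apply, map_one] at h16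
    have h17 : ∀ b : B, v * ((b : MulAut V) * s ^ 1 * (b : MulAut V)⁻¹) v *
        ((b : MulAut V) * s ^ 2 * (b : MulAut V)⁻¹) v *
        ((b : MulAut V) * s ^ 3 * (b : MulAut V)⁻¹) v = 1 := by
      intro b
      have := norm4 _ (hb4 b) (hbf b) v
      rw [conj_pow, conj_pow] at this
      rw [pow_one]
      exact this
    have h18 : ∏ b : B, (v * ((b : MulAut V) * s ^ 1 * (b : MulAut V)⁻¹) v *
        ((b : MulAut V) * s ^ 2 * (b : MulAut V)⁻¹) v *
        ((b : MulAut V) * s ^ 3 * (b : MulAut V)⁻¹) v) = 1 :=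
      Finset.prod_eq_one (fun b _ => h17 b)
    rw [Finset.prod_mul_distrib, Finset.prod_mul_distrib, Finset.prod_mul_distrib,
      hphi 1 hf1, hphi 2 hf2, hphi 3 hf3, Finset.prod_const, Finset.card_univ,
      ← Nat.card_eq_fintype_card] at h18
    have h19 := norm4 s hs hfV v
    have h20 : N v * N ((s ^ 1) v) * N ((s ^ 2) v) * N ((s ^ 3) v) = 1 := by
      rw [← hNmul, ← hNmul, ← hNmul, pow_one, h19]
      simp [N]
    have h21 : v ^ Nat.card B * (N ((s ^ 1) v) * N ((s ^ 2) v) * N ((s ^ 3) v))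
        = N v * (N ((s ^ 1) v) * N ((s ^ 2) v) * N ((s ^ 3) v)) := by
      rw [← mul_assoc, ← mul_assoc, ← mul_assoc, ← mul_assoc, h18, h20]
    exact mul_right_cancel h21
  rw [eq_bot_iff]
  intro c hc
  rw [Subgroup.mem_bot]
  ext v
  rw [MulAut.one_apply]
  have hcN : c (N v) = N v := by
    simp only [N]
    rw [map_prod]
    exact (Group.mulLeft_bijective (⟨c, hc⟩ : B)).prod_comp (fun b : B => (b : MulAut V) v)
  rw [← key v, map_pow] at hcN
  -- coprime power injective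
  have h22 : (c v * v⁻¹) ^ Nat.card B = 1 := by
    rw [mul_pow, hcN, inv_pow, mul_inv_cancel]
  have h23 : orderOf (c v * v⁻¹) ∣ 1 := by
    have h24 := Nat.dvd_gcd (orderOf_dvd_of_pow_eq_one h22) (orderOf_dvd_natCard (c v * v⁻¹))
    rwa [hco] at h24
  have h25 := orderOf_eq_one_iff.mp (Nat.dvd_one.mp h23)
  exact mul_inv_eq_one.mp h25

/-- the core: a group of automorphisms of `V` normalised by `s` is abelian. -/
theorem core [Finite V] (q : ℕ) (hq : q.Prime) (hqV : IsPGroup q V) (hVne : Nontrivial V)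
    (hVodd : Odd (Nat.card V))
    (s : MulAut V) (hs : s ^ 4 = 1) (hfV : ∀ v, s v = v → v = 1)
    (H : Subgroup (MulAut V)) (hH : ∀ h ∈ H, s * h * s⁻¹ ∈ H)
    (hfH : ∀ h ∈ H, s * h * s⁻¹ = h → h = 1) (hHodd : Odd (Nat.card H))
    (hirr : ∀ W : Subgroup V, (∀ w ∈ W, s w ∈ W) → (∀ h ∈ H, ∀ w ∈ W, h w ∈ W) → W = ⊥ ∨ W = ⊤)
    (A : Subgroup (MulAut V)) (hAH : A ≤ H) (hA1 : A ≠ ⊥) (hAab : ∀ a ∈ A, ∀ b ∈ A, a * b = b * a)
    (hAs : ∀ a ∈ A, s * a * s⁻¹ ∈ A) (hAn : ∀ h ∈ H, ∀ a ∈ A, h * a * h⁻¹ ∈ A) :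
    ∀ h ∈ H, ∀ k ∈ H, h * k = k * h := by
  classical
  haveI : Finite H := Nat.finite_of_card_ne_zero (by rcases hHodd with ⟨k, hk⟩; omega)
  haveI : Finite A := Finite.of_injective (Subgroup.inclusion hAH) (Subgroup.inclusion_injective hAH)
  haveI : Fact q.Prime := ⟨hq⟩
  have hsi : s⁻¹ = s ^ 3 := by
    rw [eq_comm, eq_inv_iff_mul_eq_one, ← pow_succ, hs]
  have hAs' : ∀ a ∈ A, s⁻¹ * a * s ∈ A := by
    intro a ha
    have h1 := hAs _ (hAs _ (hAs _ ha))
    have h2 : s * (s * (s * a * s⁻¹) * s⁻¹) * s⁻¹ = s ^ 3 * a * (s ^ 3)⁻¹ := by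
      simp only [pow_succ, pow_zero, one_mul, mul_inv_rev, mul_assoc]
    rw [h2, ← hsi, inv_inv] at h1
    exact h1
  have hAodd : Odd (Nat.card A) := by
    exact Odd.of_dvd_nat hHodd (Subgroup.card_dvd_of_le hAH)
  -- for any normal subset: fixed points of a normal invariant subgroup
  have hfix : ∀ Q : Subgroup (MulAut V), Q ≤ H → (∀ a ∈ Q, s⁻¹ * a * s ∈ Q) →
      (∀ h ∈ H, ∀ a ∈ Q, h * a * h⁻¹ ∈ Q) → Q ≠ ⊥ →
      ∀ v : V, (∀ a ∈ Q, a v = v) → v = 1 := by
    intro Q hQH hQs hQn hQ1 v hv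
    let W : Subgroup V :=
      { carrier := {v | ∀ a ∈ Q, a v = v}
        one_mem' := fun a _ => map_one a
        mul_mem' := fun {x y} hx hy a ha => by
          rw [map_mul, hx a ha, hy a ha]
        inv_mem' := fun {x} hx a ha => by
          rw [map_inv, hx a ha] }
    have hW1 : ∀ w ∈ W, s w ∈ W := by
      intro w hw a ha
      have h1 := hw _ (hQs a ha)
      have h2 : s ((s⁻¹ * a * s) w) = a (s w) := by
        rw [← MulAut.mul_apply, ← MulAut.mul_apply]; congr 1; group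
      rw [h1] at h2
      exact h2.symm
    have hW2 : ∀ h ∈ H, ∀ w ∈ W, h w ∈ W := by
      intro h hh w hw a ha
      have h1 := hw _ (hQn h⁻¹ (H.inv_mem hh) a ha)
      have h2 : h ((h⁻¹ * a * h⁻¹⁻¹) w) = a (h w) := by
        rw [← MulAut.mul_apply, ← MulAut.mul_apply]; congr 1; group
      rw [h1] at h2
      exact h2.symm
    rcases hirr W hW1 hW2 with h | h
    · have : v ∈ W := hv
      rw [h] at this
      exact Subgroup.mem_bot.mp this
    · exfalso
      apply hQ1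
      rw [eq_bot_iff]
      intro a ha
      rw [Subgroup.mem_bot]
      ext v
      have : v ∈ W := by rw [h]; exact Subgroup.mem_top v
      exact this a ha
  -- q does not divide |A|
  have hqA : ¬ q ∣ Nat.card A := by
    intro hdvd
    let Q : Subgroup (MulAut V) :=
      { carrier := {a | a ∈ A ∧ a ^ q = 1}
        one_mem' := ⟨A.one_mem, one_pow q⟩
        mul_mem' := fun {x y} hx hy => ⟨A.mul_mem hx.1 hy.1, by
          rw [(show Commute x y from hAab x hx.1 y hy.1).mul_pow, hx.2, hy.2, one_mul]⟩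
        inv_mem' := fun {x} hx => ⟨A.inv_mem hx.1, by rw [inv_pow, hx.2, inv_one]⟩ }
    have hQA : Q ≤ A := fun a ha => ha.1
    have hQ1 : Q ≠ ⊥ := by
      obtain ⟨x, hx⟩ := exists_prime_orderOf_dvd_card' q hdvd
      intro hbot
      have h1 : (x : MulAut V) ∈ Q := ⟨x.2, by
        have := pow_orderOf_eq_one x
        rw [hx] at this
        exact congrArg Subtype.val this⟩
      rw [hbot, Subgroup.mem_bot] at h1
      have h2 : x = 1 := Subtype.ext h1
      rw [h2, orderOf_one] at hx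
      exact hq.one_lt.ne hx
    have hQp : IsPGroup q Q := by
      intro a
      exact ⟨1, by rw [pow_one]; exact Subtype.ext a.2.2⟩
    haveI : Finite Q := Finite.of_injective (Subgroup.inclusion hQA)
      (Subgroup.inclusion_injective hQA)
    have hfp := hQp.card_modEq_card_fixedPoints V
    have hqc : q ∣ Nat.card V := by
      obtain ⟨n, hn⟩ := hqV.exists_card_eq
      rw [hn]
      have : n ≠ 0 := by
        rintro rfl
        rw [pow_zero] at hn
        exact (Finite.one_lt_card (α := V)).ne' hn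
      exact dvd_pow_self q this
    have hne1 : (1 : V) ∈ MulAction.fixedPoints Q V := by
      intro a; exact map_one (a : MulAut V)
    obtain ⟨v, hv, hv1⟩ := hQp.exists_fixed_point_of_prime_dvd_card_of_fixed_point V hqc hne1
    apply hv1
    refine (hfix Q (hQA.trans hAH) ?_ ?_ hQ1 v ?_).symm
    · intro a ha
      refine ⟨hAs' a ha.1, ?_⟩
      have : s⁻¹ * a * s = s⁻¹ * a * s⁻¹⁻¹ := by rw [inv_inv]
      rw [this, conj_pow, ha.2]; simp
    · intro h hh a ha
      refine ⟨hAn h hh a ha.1, ?_⟩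
      rw [conj_pow, ha.2]; simp
    · intro a ha
      exact hv ⟨a, ha⟩
  have hcoA : (Nat.card A).Coprime (Nat.card V) := by
    obtain ⟨n, hn⟩ := hqV.exists_card_eq
    rw [hn]
    exact Nat.Coprime.pow_right n ((Nat.Prime.coprime_iff_not_dvd hq).mpr hqA).symm
  have hCVA : ∀ v : V, (∀ a ∈ A, a v = v) → v = 1 := hfix A hAH hAs' hAn hA1
  -- B
  have hs2 : s ^ 2 * s ^ 2 = 1 := by rw [← pow_add]; exact hs
  let B : Subgroup (MulAut V) :=
    { carrier := {a | a ∈ A ∧ s ^ 2 * a * (s ^ 2)⁻¹ = a⁻¹}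
      one_mem' := ⟨A.one_mem, by simp⟩
      mul_mem' := fun {x y} hx hy => ⟨A.mul_mem hx.1 hy.1, by
        have h1 : s ^ 2 * (x * y) * (s ^ 2)⁻¹ = (s ^ 2 * x * (s ^ 2)⁻¹) * (s ^ 2 * y * (s ^ 2)⁻¹) := by simp only [pow_succ, pow_zero, one_mul, mul_inv_rev, mul_assoc, inv_inv, mul_inv_cancel_left, inv_mul_cancel_left, inv_mul_cancel, mul_one, mul_inv_cancel]
        rw [h1, hx.2, hy.2, mul_inv_rev, hAab _ (A.inv_mem hx.1) _ (A.inv_mem hy.1)]⟩
      inv_mem' := fun {x} hx => ⟨A.inv_mem hx.1, by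
        have h1 : s ^ 2 * x⁻¹ * (s ^ 2)⁻¹ = (s ^ 2 * x * (s ^ 2)⁻¹)⁻¹ := by simp only [pow_succ, pow_zero, one_mul, mul_inv_rev, mul_assoc, inv_inv, mul_inv_cancel_left, inv_mul_cancel_left, inv_mul_cancel, mul_one, mul_inv_cancel]
        rw [h1, hx.2]⟩ }
  have hBA : B ≤ A := fun a ha => ha.1
  have hBbot : B = ⊥ := by
    refine avg s hs hfV B ?_ ?_ ?_ ?_ ?_ ?_
    · intro b hb
      refine ⟨hAs b hb.1, ?_⟩
      have h1 : s ^ 2 * (s * b * s⁻¹) * (s ^ 2)⁻¹ = s * (s ^ 2 * b * (s ^ 2)⁻¹) * s⁻¹ := by simp only [pow_succ, pow_zero, one_mul, mul_inv_rev, mul_assoc, inv_inv, mul_inv_cancel_left, inv_mul_cancel_left, inv_mul_cancel, mul_one, mul_inv_cancel]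
      rw [h1, hb.2]; group
    · intro b hb c hc
      exact hAab b hb.1 c hc.1
    · intro b hb h
      exact hfH b (hAH hb.1) h
    · intro b hb
      exact hb.2
    · exact Odd.of_dvd_nat hAodd (Subgroup.card_dvd_of_le hBA)
    · exact Nat.Coprime.coprime_dvd_left (Subgroup.card_dvd_of_le hBA) hcoA
  have htau : ∀ a ∈ A, s ^ 2 * a * (s ^ 2)⁻¹ = a := by
    intro a ha
    have h0 : s ^ 2 * a * (s ^ 2)⁻¹ ∈ A := by
      have h1 := hAs _ (hAs _ ha)
      have h2 : s * (s * a * s⁻¹) * s⁻¹ = s ^ 2 * a * (s ^ 2)⁻¹ := by simp only [pow_succ, pow_zero, one_mul, mul_inv_rev, mul_assoc, inv_inv, mul_inv_cancel_left, inv_mul_cancel_left, inv_mul_cancel, mul_one, mul_inv_cancel]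
      rwa [h2] at h1
    have h1 : a⁻¹ * (s ^ 2 * a * (s ^ 2)⁻¹) ∈ B := by
      refine ⟨A.mul_mem (A.inv_mem ha) h0, ?_⟩
      have h3 : (s ^ 2)⁻¹ = s ^ 2 := by rw [inv_eq_iff_mul_eq_one]; exact hs2
      have h4 : s ^ 2 * (s ^ 2 * a * (s ^ 2)⁻¹) * (s ^ 2)⁻¹ = a := by
        have : s ^ 2 * (s ^ 2 * a * (s ^ 2)⁻¹) * (s ^ 2)⁻¹ = (s ^ 2 * s ^ 2) * a * (s ^ 2 * s ^ 2)⁻¹ := by simp only [pow_succ, pow_zero, one_mul, mul_inv_rev, mul_assoc, inv_inv, mul_inv_cancel_left, inv_mul_cancel_left, inv_mul_cancel, mul_one, mul_inv_cancel]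
        rw [this, hs2]; simp
      have h5 : s ^ 2 * (a⁻¹ * (s ^ 2 * a * (s ^ 2)⁻¹)) * (s ^ 2)⁻¹ =
          (s ^ 2 * a * (s ^ 2)⁻¹)⁻¹ * (s ^ 2 * (s ^ 2 * a * (s ^ 2)⁻¹) * (s ^ 2)⁻¹) := by simp only [pow_succ, pow_zero, one_mul, mul_inv_rev, mul_assoc, inv_inv, mul_inv_cancel_left, inv_mul_cancel_left, inv_mul_cancel, mul_one, mul_inv_cancel]
      rw [h5, h4, mul_inv_rev a⁻¹, inv_inv a]
    rw [hBbot, Subgroup.mem_bot] at h1
    exact (inv_mul_eq_one.mp h1).symm
  have hAinv : ∀ a ∈ A, s * a * s⁻¹ = a⁻¹ := by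
    intro a ha
    have h1 : s * (a * (s * a * s⁻¹)) * s⁻¹ = a * (s * a * s⁻¹) := by
      have h2 : s * (a * (s * a * s⁻¹)) * s⁻¹ = (s * a * s⁻¹) * (s ^ 2 * a * (s ^ 2)⁻¹) := by simp only [pow_succ, pow_zero, one_mul, mul_inv_rev, mul_assoc, inv_inv, mul_inv_cancel_left, inv_mul_cancel_left, inv_mul_cancel, mul_one, mul_inv_cancel]
      rw [h2, htau a ha, hAab _ (hAs a ha) _ ha]
    have h3 := hfH _ (H.mul_mem (hAH ha) (hH a (hAH ha))) h1
    exact eq_inv_of_mul_eq_one_right h3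
  have h2inj : ∀ (K : Subgroup (MulAut V)) (_ : Odd (Nat.card K)), ∀ b ∈ K,
      ∀ v : V, (b ^ 2) v = v → b v = v := by
    intro K hK b hb v hv
    obtain ⟨k, hk⟩ := hK
    have hcard : b ^ (2 * k + 1) = 1 := by
      have h1 : (⟨b, hb⟩ : K) ^ Nat.card K = 1 := pow_card_eq_one'
      rw [hk] at h1
      exact congrArg Subtype.val h1
    have hpow : ∀ n : ℕ, (b ^ (2 * n)) v = v := by
      intro n
      induction n with
      | zero => simp
      | succ n ih =>
        rw [Nat.mul_succ, pow_add, MulAut.mul_apply, hv, ih]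
    have h2 : b v = b ((b ^ (2 * k)) v) := by rw [hpow k]
    rw [h2, ← MulAut.mul_apply, ← pow_succ', hcard, MulAut.one_apply]
  -- U = C_V(τ) = 1
  have hU : ∀ u : V, (s ^ 2) u = u → u = 1 := by
    have hsu : ∀ u : V, (s ^ 2) u = u → s u = u⁻¹ := by
      intro u hu
      have h1 : s (u * s u) = u * s u := by
        rw [map_mul, ← MulAut.mul_apply V s s u, ← pow_two, hu, mul_comm]
      exact eq_inv_of_mul_eq_one_right (hfV _ h1)
    intro u hu
    apply hCVA
    intro a ha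
    apply h2inj A hAodd a ha
    have h1 : (s ^ 2) (a u) = a u := by
      have h2 : (s ^ 2) (a u) = (s ^ 2 * a * (s ^ 2)⁻¹) ((s ^ 2) u) := by
        rw [← MulAut.mul_apply, ← MulAut.mul_apply]; congr 1; group
      rw [h2, htau a ha, hu]
    have h3 := hsu _ h1
    have h4 : s (a u) = (s * a * s⁻¹) (s u) := by
      rw [← MulAut.mul_apply, ← MulAut.mul_apply]; congr 1; group
    rw [h4, hAinv a ha, hsu u hu, map_inv, inv_inj] at h3
    rw [pow_two, MulAut.mul_apply, ← h3, ← MulAut.mul_apply, mul_inv_cancel, MulAut.one_apply]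
  have hinvV : ∀ v : V, (s ^ 2) v = v⁻¹ := by
    intro v
    have h1 : (s ^ 2) (v * (s ^ 2) v) = v * (s ^ 2) v := by
      rw [map_mul, ← MulAut.mul_apply V (s ^ 2) (s ^ 2) v, hs2, MulAut.one_apply, mul_comm]
    exact eq_inv_of_mul_eq_one_right (hU _ h1)
  have hcent : ∀ h : MulAut V, s ^ 2 * h * (s ^ 2)⁻¹ = h := by
    intro h
    rw [mul_inv_eq_iff_eq_mul]
    ext v
    rw [MulAut.mul_apply, MulAut.mul_apply, hinvV, hinvV, map_inv]
  -- s inverts H
  have hHinv : ∀ h ∈ H, s * h * s⁻¹ = h⁻¹ := by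
    -- bijectivity of x ↦ x⁻¹ (s x s⁻¹)
    let f : H → H := fun x => ⟨(x : MulAut V)⁻¹ * (s * x * s⁻¹),
      H.mul_mem (H.inv_mem x.2) (hH x x.2)⟩
    have hf : Function.Injective f := by
      intro x y hxy
      have h1 : (x : MulAut V)⁻¹ * (s * x * s⁻¹) = (y : MulAut V)⁻¹ * (s * y * s⁻¹) :=
        congrArg Subtype.val hxy
      have h2 : s * ((y : MulAut V) * (x : MulAut V)⁻¹) * s⁻¹ = (y : MulAut V) * (x : MulAut V)⁻¹ := by
        have h3 : s * ((y : MulAut V) * (x : MulAut V)⁻¹) * s⁻¹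
            = y * ((y : MulAut V)⁻¹ * (s * y * s⁻¹)) * (s * (x : MulAut V) * s⁻¹)⁻¹ := by simp only [pow_succ, pow_zero, one_mul, mul_inv_rev, mul_assoc, inv_inv, mul_inv_cancel_left, inv_mul_cancel_left, inv_mul_cancel, mul_one, mul_inv_cancel]
        rw [h3, ← h1]; group
      have h4 := hfH _ (H.mul_mem y.2 (H.inv_mem x.2)) h2
      exact Subtype.ext (mul_inv_eq_one.mp h4).symm
    have hsurj : Function.Surjective f := Finite.surjective_of_injective hf
    intro h hh
    obtain ⟨x, hx⟩ := hsurj ⟨h, hh⟩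
    have hx' : (x : MulAut V)⁻¹ * (s * x * s⁻¹) = h := congrArg Subtype.val hx
    rw [← hx']
    have h5 : s * ((x : MulAut V)⁻¹ * (s * x * s⁻¹)) * s⁻¹
        = (s * x * s⁻¹)⁻¹ * (s ^ 2 * x * (s ^ 2)⁻¹) := by simp only [pow_succ, pow_zero, one_mul, mul_inv_rev, mul_assoc, inv_inv, mul_inv_cancel_left, inv_mul_cancel_left, inv_mul_cancel, mul_one, mul_inv_cancel]
    rw [h5, hcent, mul_inv_rev (x : MulAut V)⁻¹, inv_inv (x : MulAut V)]
  intro h hh k hk
  have h1 := hHinv _ (H.mul_mem hh hk)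
  have h2 : s * (h * k) * s⁻¹ = (s * h * s⁻¹) * (s * k * s⁻¹) := by simp only [pow_succ, pow_zero, one_mul, mul_inv_rev, mul_assoc, inv_inv, mul_inv_cancel_left, inv_mul_cancel_left, inv_mul_cancel, mul_one, mul_inv_cancel]
  rw [h2, hHinv h hh, hHinv k hk, ← mul_inv_rev, inv_inj] at h1
  exact h1.symm

end V

section G
open scoped commutatorElement

theorem exists_min_inv {X : Type u} [Group X] (H : Subgroup X) [Finite H] (hsol : Group.IsSolvable H)
    (hH : H ≠ ⊥) (S : Set (X →* X)) (hS : ∀ f ∈ S, ∀ h ∈ H, f h ∈ H) :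
    ∃ A : Subgroup X, A ≤ H ∧ A ≠ ⊥ ∧ (∀ a ∈ A, ∀ b ∈ A, a * b = b * a) ∧
      (∀ f ∈ S, ∀ a ∈ A, f a ∈ A) ∧
      ∀ W : Subgroup X, W ≤ A → (∀ f ∈ S, ∀ a ∈ W, f a ∈ W) → W = ⊥ ∨ W = A := by
  classical
  obtain ⟨A, hA, hmin⟩ := WellFounded.has_min
    (measure (fun W : Subgroup X => Nat.card W)).wf
    {W : Subgroup X | W ≤ H ∧ W ≠ ⊥ ∧ ∀ f ∈ S, ∀ a ∈ W, f a ∈ W} ⟨H, le_refl H, hH, hS⟩
  obtain ⟨hAH, hA1, hAinv⟩ := hA
  haveI : Finite A := Finite.of_injective (Subgroup.inclusion hAH) (Subgroup.inclusion_injective hAH)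
  have hmin' : ∀ W : Subgroup X, W ≤ A → (∀ f ∈ S, ∀ a ∈ W, f a ∈ W) → W = ⊥ ∨ W = A := by
    intro W hW hinv
    by_cases hb : W = ⊥
    · exact Or.inl hb
    · right
      have h1 := hmin W ⟨hW.trans hAH, hb, hinv⟩
      exact Subgroup.eq_of_le_of_card_ge hW (not_lt.mp h1)
  refine ⟨A, hAH, hA1, ?_, hAinv, hmin'⟩
  haveI : Group.IsSolvable A :=
    haveI := hsol
    Group.isSolvable_of_isSolvable_injective (Subgroup.inclusion_injective hAH)
  have hcomm : (⁅A, A⁆ : Subgroup X) = ⊥ := by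
    have hi0 : ∀ f ∈ S, ∀ a ∈ (⁅A, A⁆ : Subgroup X), f a ∈ (⁅A, A⁆ : Subgroup X) := by
      intro f hf a ha
      have h1 : (⁅A, A⁆ : Subgroup X).map f ≤ ⁅A, A⁆ := by
        rw [Subgroup.map_commutator]
        have h2 : A.map f ≤ A := by
          rintro _ ⟨x, hx, rfl⟩
          exact hAinv f hf x hx
        exact Subgroup.commutator_mono h2 h2
      exact h1 ⟨a, ha, rfl⟩
    rcases hmin' ⁅A, A⁆ (Subgroup.commutator_le_self A) hi0 with h | h
    · exact h
    · exfalso
      haveI : Nontrivial A := (Subgroup.nontrivial_iff_ne_bot A).mpr hA1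
      have h1 : (commutator A) < ⊤ := Group.IsSolvable.commutator_lt_top_of_nontrivial A
      have h2 : (commutator A).map A.subtype = ⁅A, A⁆ := by
        rw [_root_.commutator_def, Subgroup.map_commutator, ← MonoidHom.range_eq_map,
          Subgroup.range_subtype]
      rw [h] at h2
      apply h1.ne
      apply Subgroup.map_injective A.subtype_injective
      rw [h2, ← MonoidHom.range_eq_map, Subgroup.range_subtype]
  intro a ha b hb
  have h2 : ⁅a, b⁆ ∈ (⁅A, A⁆ : Subgroup X) := Subgroup.commutator_mem_commutator ha hb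
  rw [hcomm, Subgroup.mem_bot] at h2
  exact commutatorElement_eq_one_iff_mul_comm.mp h2

variable {G : Type u} [Group G] [Finite G]

theorem odd_card (σ : MulAut G) (hσ : σ ^ 4 = 1) (hf : ∀ g, σ g = g → g = 1) :
    Odd (Nat.card G) := by
  classical
  have hP : IsPGroup 2 (Subgroup.zpowers σ) := by
    intro x
    obtain ⟨x, k, rfl⟩ := x
    refine ⟨2, ?_⟩
    apply Subtype.ext
    show (σ ^ k) ^ (2 ^ 2) = 1
    rw [← zpow_natCast, ← zpow_mul, mul_comm, zpow_mul]
    norm_num [hσ]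
  haveI : Fact (Nat.Prime 2) := ⟨Nat.prime_two⟩
  have h1 := hP.card_modEq_card_fixedPoints G
  have h2 : MulAction.fixedPoints (Subgroup.zpowers σ) G = {1} := by
    ext g
    constructor
    · intro hg
      exact hf g (hg ⟨σ, Subgroup.mem_zpowers σ⟩)
    · rintro rfl
      intro x
      exact map_one (x : MulAut G)
  rw [h2] at h1
  have h3 : Nat.card ({1} : Set G) = 1 := by simp
  rw [h3] at h1
  rw [Nat.odd_iff]
  exact h1

theorem mem_of_fix (σ : MulAut G) (hf : ∀ g, σ g = g → g = 1) (N : Subgroup G)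
    (hN : ∀ n ∈ N, σ n ∈ N) (g : G) (hg : g⁻¹ * σ g ∈ N) : g ∈ N := by
  let f : N → N := fun x => ⟨(x : G)⁻¹ * σ x, N.mul_mem (N.inv_mem x.2) (hN x x.2)⟩
  have hfi : Function.Injective f := by
    intro x y hxy
    have h1 : (x : G)⁻¹ * σ x = (y : G)⁻¹ * σ y := congrArg Subtype.val hxy
    have h2 : σ ((y : G) * (x : G)⁻¹) = (y : G) * (x : G)⁻¹ := by
      rw [map_mul, map_inv]
      have h3 : σ y = y * ((x : G)⁻¹ * σ x) := by rw [h1]; group
      rw [h3]; group
    exact Subtype.ext (mul_inv_eq_one.mp (hf _ h2)).symm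
  obtain ⟨n, hn⟩ := Finite.surjective_of_injective hfi ⟨_, hg⟩
  have h1 : (n : G)⁻¹ * σ n = g⁻¹ * σ g := congrArg Subtype.val hn
  have h2 : σ (g * (n : G)⁻¹) = g * (n : G)⁻¹ := by
    rw [map_mul, map_inv]
    have h3 : σ g = g * ((n : G)⁻¹ * σ n) := by rw [h1]; group
    rw [h3]; group
  have h3 := mul_inv_eq_one.mp (hf _ h2)
  rw [h3]; exact n.2

end G

theorem main (n : ℕ) : ∀ (G : Type u) [Group G] [Finite G], Nat.card G ≤ n → Group.IsSolvable G →
    ∀ σ : MulAut G, σ ^ 4 = 1 → (∀ g, σ g = g → g = 1) → Group.IsNilpotent (commutator G) := by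
  classical
  induction n with
  | zero =>
    intro G _ _ h
    have := Nat.card_pos (α := G)
    omega
  | succ n ih =>
    intro G _ _ hcard hsol σ hσ hf
    by_cases htriv : Nontrivial G
    swap
    · haveI := not_nontrivial_iff_subsingleton.mp htriv
      infer_instance
    have hsi : ∀ g, (σ ^ 3) (σ g) = g := by
      intro g
      rw [← MulAut.mul_apply, ← pow_succ, hσ, MulAut.one_apply]
    let S : Set (G →* G) := {f | f = σ.toMonoidHom ∨ ∃ g : G, f = (MulAut.conj g).toMonoidHom}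
    haveI : Finite (⊤ : Subgroup G) := inferInstance
    obtain ⟨V, -, hV1, hVab, hVinv, hVmin⟩ := exists_min_inv (⊤ : Subgroup G)
      (haveI := hsol; Group.isSolvable_of_isSolvable_injective (Subgroup.subtype_injective _))
      top_ne_bot S (fun _ _ _ _ => Subgroup.mem_top _)
    have hVσ : ∀ v ∈ V, σ v ∈ V := fun v hv => hVinv _ (Or.inl rfl) v hv
    haveI hVn : V.Normal := ⟨fun v hv g => hVinv _ (Or.inr ⟨g, rfl⟩) v hv⟩
    letI : CommGroup V := { (inferInstance : Group V) with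
      mul_comm := fun a b => Subtype.ext (hVab a a.2 b b.2) }
    haveI hVnt : Nontrivial V := (Subgroup.nontrivial_iff_ne_bot V).mpr hV1
    have hGodd := odd_card σ hσ hf
    have hVodd : Odd (Nat.card V) := Odd.of_dvd_nat hGodd (Subgroup.card_subgroup_dvd_card V)
    -- prime q
    obtain ⟨q, hq, hqd⟩ := Nat.exists_prime_and_dvd (Finite.one_lt_card (α := V)).ne'
    haveI : Fact q.Prime := ⟨hq⟩
    have hqV : IsPGroup q V := by
      let W : Subgroup G :=
        { carrier := {a | a ∈ V ∧ a ^ q = 1}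
          one_mem' := ⟨V.one_mem, one_pow q⟩
          mul_mem' := fun {x y} hx hy => ⟨V.mul_mem hx.1 hy.1, by
            rw [(show Commute x y from hVab x hx.1 y hy.1).mul_pow, hx.2, hy.2, one_mul]⟩
          inv_mem' := fun {x} hx => ⟨V.inv_mem hx.1, by rw [inv_pow, hx.2, inv_one]⟩ }
      have hW : W = ⊥ ∨ W = V := by
        apply hVmin
        · intro a ha; exact ha.1
        · rintro f hf a ha
          refine ⟨hVinv f hf a ha.1, ?_⟩
          rw [← map_pow, ha.2, map_one]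
      rcases hW with h | h
      · exfalso
        obtain ⟨x, hx⟩ := exists_prime_orderOf_dvd_card' q hqd
        have h1 : (x : G) ∈ W := ⟨x.2, by
          have := pow_orderOf_eq_one x
          rw [hx] at this
          exact congrArg Subtype.val this⟩
        rw [h, Subgroup.mem_bot] at h1
        have h2 : x = 1 := Subtype.ext h1
        rw [h2, orderOf_one] at hx
        exact hq.one_lt.ne hx
      · intro x
        refine ⟨1, ?_⟩
        rw [pow_one]
        have : (x : G) ∈ W := by rw [h]; exact x.2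
        exact Subtype.ext this.2
    -- the automorphism s of V
    let s0 : V →* V := (σ.toMonoidHom.comp V.subtype).codRestrict V (fun v => hVσ v v.2)
    have hs0 : Function.Injective s0 := by
      intro a b hab
      have h1 : σ a = σ b := congrArg Subtype.val hab
      exact Subtype.ext (σ.injective h1)
    let s : MulAut V := MulEquiv.ofBijective s0 (Finite.injective_iff_bijective.mp hs0)
    have hsv : ∀ v : V, ((s v : V) : G) = σ v := fun v => rfl
    have hspow : ∀ k : ℕ, ∀ v : V, (((s ^ k) v : V) : G) = (σ ^ k) v := by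
      intro k
      induction k with
      | zero => intro v; rfl
      | succ k ih2 =>
        intro v
        rw [pow_succ', pow_succ', MulAut.mul_apply, MulAut.mul_apply, hsv, ih2]
    have hs4 : s ^ 4 = 1 := by
      ext v
      rw [hspow, hσ]; rfl
    have hfV : ∀ v, s v = v → v = 1 := by
      intro v hv
      have h1 : σ v = v := congrArg Subtype.val hv
      exact Subtype.ext (hf _ h1)
    let c : G →* MulAut V := MulAut.conjNormal
    have hc : ∀ g (v : V), ((c g v : V) : G) = g * v * g⁻¹ := fun g v => MulAut.conjNormal_apply g v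
    have hsc : ∀ g, s * c g * s⁻¹ = c (σ g) := by
      intro g
      rw [mul_inv_eq_iff_eq_mul]
      ext v
      rw [MulAut.mul_apply, MulAut.mul_apply, hsv, hc, hc, hsv, map_mul, map_mul, map_inv]
    let H : Subgroup (MulAut V) := c.range
    have hab : ∀ h ∈ H, ∀ k ∈ H, h * k = k * h := by
      by_cases hHb : H = ⊥
      · intro h hh k hk
        rw [hHb, Subgroup.mem_bot] at hh hk
        rw [hh, hk]
      have hHsol : Group.IsSolvable H :=
        haveI := hsol; Group.isSolvable_of_surjective c.rangeRestrict_surjective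
      have hHs : ∀ h ∈ H, s * h * s⁻¹ ∈ H := by
        rintro _ ⟨g, rfl⟩
        rw [hsc]; exact ⟨_, rfl⟩
      let S' : Set (MulAut V →* MulAut V) := {f | f = (MulAut.conj s).toMonoidHom ∨
        ∃ h ∈ H, f = (MulAut.conj h).toMonoidHom}
      obtain ⟨A, hAH, hA1, hAab, hAinv, -⟩ := exists_min_inv H hHsol hHb S' (by
        rintro f (rfl | ⟨k, hk, rfl⟩) h hh
        · exact hHs h hh
        · exact H.mul_mem (H.mul_mem hk hh) (H.inv_mem hk))
      refine core q hq hqV hVnt hVodd s hs4 hfV H hHs ?_ ?_ ?_ A hAH hA1 hAab ?_ ?_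
      · rintro _ ⟨g, rfl⟩ h
        rw [hsc] at h
        have h1 : g⁻¹ * σ g ∈ c.ker := by
          rw [MonoidHom.mem_ker, map_mul, map_inv, h, inv_mul_cancel]
        have h2 : ∀ n ∈ c.ker, σ n ∈ c.ker := by
          intro n hn
          rw [MonoidHom.mem_ker] at hn ⊢
          rw [← hsc, hn]; simp
        exact MonoidHom.mem_ker.mp (mem_of_fix σ hf c.ker h2 g h1)
      · exact Odd.of_dvd_nat hGodd (Subgroup.card_range_dvd c)
      · intro W hW1 hW2
        have hi1 : W.map V.subtype ≤ V := by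
          rintro _ ⟨w, _, rfl⟩; exact w.2
        have hi2 : ∀ f ∈ S, ∀ a ∈ W.map V.subtype, f a ∈ W.map V.subtype := by
          rintro f (rfl | ⟨g, rfl⟩) _ ⟨w, hw, rfl⟩
          · exact ⟨s w, hW1 w hw, rfl⟩
          · exact ⟨c g w, hW2 _ ⟨g, rfl⟩ w hw, rfl⟩
        rcases hVmin (W.map V.subtype) hi1 hi2 with h | h
        · left
          exact (Subgroup.map_eq_bot_iff_of_injective W V.subtype_injective).mp h
        · right
          apply Subgroup.map_injective V.subtype_injective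
          rw [h, ← MonoidHom.range_eq_map, Subgroup.range_subtype]
      · intro a ha; exact hAinv _ (Or.inl rfl) a ha
      · intro h hh a ha; exact hAinv _ (Or.inr ⟨h, hh, rfl⟩) a ha
    have hG' : commutator G ≤ c.ker := by
      rw [_root_.commutator_def, Subgroup.commutator_le]
      intro g _ h _
      rw [MonoidHom.mem_ker, map_commutatorElement, commutatorElement_eq_one_iff_mul_comm]
      exact hab _ ⟨g, rfl⟩ _ ⟨h, rfl⟩
    -- quotient
    have hVm : V.map (σ : G ≃* G).toMonoidHom = V := by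
      apply Subgroup.eq_of_le_of_card_ge
      · rintro _ ⟨v, hv, rfl⟩; exact hVσ v hv
      · rw [Subgroup.card_map_of_injective (f := (σ : G ≃* G).toMonoidHom) σ.injective]
    let τ : MulAut (G ⧸ V) := QuotientGroup.congr V V σ hVm
    have hτ : ∀ g : G, τ (g : G ⧸ V) = ((σ g : G) : G ⧸ V) := fun g => rfl
    have hτpow : ∀ k : ℕ, ∀ g : G, (τ ^ k) (g : G ⧸ V) = (((σ ^ k) g : G) : G ⧸ V) := by
      intro k
      induction k with
      | zero => intro g; rfl
      | succ k ih2 =>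
        intro g
        rw [pow_succ', pow_succ', MulAut.mul_apply, MulAut.mul_apply, ih2, hτ]
    have hτ4 : τ ^ 4 = 1 := by
      apply MulEquiv.ext
      intro x
      obtain ⟨g, rfl⟩ := QuotientGroup.mk_surjective x
      rw [hτpow, hσ]; rfl
    have hτf : ∀ x, τ x = x → x = 1 := by
      intro x hx
      obtain ⟨g, rfl⟩ := QuotientGroup.mk_surjective x
      rw [hτ] at hx
      have h1 : g⁻¹ * σ g ∈ V := QuotientGroup.eq.mp hx.symm
      exact (QuotientGroup.eq_one_iff g).mpr (mem_of_fix σ hf V hVσ g h1)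
    have hcard2 : Nat.card (G ⧸ V) ≤ n := by
      have h1 := Subgroup.card_eq_card_quotient_mul_card_subgroup V
      have h2 : 1 < Nat.card V := Finite.one_lt_card
      have h3 : 0 < Nat.card (G ⧸ V) := Nat.card_pos
      nlinarith
    have hQ := ih (G ⧸ V) hcard2 (haveI := hsol; Group.isSolvable_of_surjective
      (QuotientGroup.mk'_surjective V)) τ hτ4 hτf
    have hm : (commutator G).map (QuotientGroup.mk' V) ≤ commutator (G ⧸ V) := by
      rw [_root_.commutator_def, _root_.commutator_def, Subgroup.map_commutator]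
      exact Subgroup.commutator_mono le_top le_top
    let f : ↥(commutator G) →* ↥(commutator (G ⧸ V)) :=
      ((QuotientGroup.mk' V).comp (commutator G).subtype).codRestrict _
        (fun x => hm ⟨x, x.2, rfl⟩)
    haveI := hQ
    refine Subgroup.isNilpotent_of_ker_le_center f ?_
    intro x hx
    rw [Subgroup.mem_center_iff]
    intro y
    have h1 : (QuotientGroup.mk' V) (x : G) = 1 := congrArg Subtype.val (MonoidHom.mem_ker.mp hx)
    have h2 : (x : G) ∈ V := (QuotientGroup.eq_one_iff _).mp h1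
    have h3 : c (y : G) = 1 := MonoidHom.mem_ker.mp (hG' y.2)
    have h4 := hc (y : G) ⟨x, h2⟩
    rw [h3, MulAut.one_apply] at h4
    apply Subtype.ext
    show (y : G) * x = x * y
    exact (mul_inv_eq_iff_eq_mul.mp h4.symm)

end CfsgLib.H7GH
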