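import Mathlib
import Cfsg.Prelude.Def_Local
import Cfsg.Agent.Lib.PChain

/-!
The upper p-series and p-length.
-/

namespace CfsgLib.PChain

open Subgroup
open scoped commutatorElement Pointwise

set_option linter.style.haveILetI false

universe u v

section Upper

variable {G : Type u} [Group G] {p : ℕ}

/-- allowed index at position `n` -/
def St (p n k : ℕ) : Prop := (Even n → k.Coprime p) ∧ (¬ Even n → ∃ m, k = p ^ m)

theorem St.of_dvd (hp : p.Prime) {n a b : ℕ} (h : a ∣ b) (hb : St p n b) : St p n a := by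
  refine ⟨fun hn => Nat.Coprime.coprime_dvd_left h (hb.1 hn), fun hn => ?_⟩
  obtain ⟨m, rfl⟩ := hb.2 hn
  obtain ⟨k, -, hk⟩ := (Nat.dvd_prime_pow hp).1 h
  exact ⟨k, hk⟩

theorem St.one {n : ℕ} : St p n 1 := ⟨fun _ => Nat.coprime_one_left p, fun _ => ⟨0, (pow_zero p).symm⟩⟩

theorem St.mul {n a b : ℕ} (ha : St p n a) (hb : St p n b) : St p n (a * b) := by
  refine ⟨fun hn => Nat.Coprime.mul_left (ha.1 hn) (hb.1 hn), fun hn => ?_⟩
  obtain ⟨i, rfl⟩ := ha.2 hn
  obtain ⟨j, rfl⟩ := hb.2 hn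
  exact ⟨i + j, (pow_add p i j).symm⟩

theorem St.ok {n a : ℕ} (h : St p n a) : Ok p a := by
  by_cases hn : Even n
  · exact Or.inr (h.1 hn)
  · exact Or.inl (h.2 hn)

theorem St.congr {n n' a : ℕ} (h : St p n a) (hn : Even n ↔ Even n') : St p n' a :=
  ⟨fun h1 => h.1 (hn.2 h1), fun h1 => h.2 (fun h2 => h1 (hn.1 h2))⟩

/-- the term of the upper p-series -/
def U (p : ℕ) (G : Type u) [Group G] (n : ℕ) : Subgroup G := (Cfsg.upperPSeries p G n).1

instance U_normal (n : ℕ) : (U p G n).Normal := (Cfsg.upperPSeries p G n).2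

theorem U_zero : U p G 0 = ⊥ := rfl

theorem U_succ_even {n : ℕ} (hn : Even n) :
    U p G (n + 1) = (Cfsg.pPrimeCore p (G ⧸ U p G n)).comap (QuotientGroup.mk' (U p G n)) := by
  unfold U
  rw [Cfsg.upperPSeries]
  simp only [hn, if_true]

theorem U_succ_odd {n : ℕ} (hn : ¬ Even n) :
    U p G (n + 1) = (Cfsg.pCore p (G ⧸ U p G n)).comap (QuotientGroup.mk' (U p G n)) := by
  unfold U
  rw [Cfsg.upperPSeries]
  simp only [hn, if_false]

theorem U_le_succ (n : ℕ) : U p G n ≤ U p G (n + 1) := by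
  by_cases hn : Even n
  · rw [U_succ_even hn]; exact CfsgLib.Core2.le_comap_mk _ _
  · rw [U_succ_odd hn]; exact CfsgLib.Core2.le_comap_mk _ _

theorem U_mono : Monotone (U p G) := monotone_nat_of_le_succ U_le_succ

theorem relIndex_comap_mk (N : Subgroup G) [N.Normal] (X : Subgroup (G ⧸ N)) :
    N.relIndex (X.comap (QuotientGroup.mk' N)) = Nat.card X := by
  have h1 := relIndex_ker (X.comap (QuotientGroup.mk' N)) (QuotientGroup.mk' N)
  rwa [QuotientGroup.ker_mk', map_comap_eq_self_of_surjective (QuotientGroup.mk'_surjective N)] at h1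

theorem card_map_mk_eq (N : Subgroup G) [N.Normal] (L : Subgroup G) :
    Nat.card (L.map (QuotientGroup.mk' N)) = N.relIndex L := by
  have h1 := relIndex_ker L (QuotientGroup.mk' N)
  rw [QuotientGroup.ker_mk'] at h1
  exact h1.symm

theorem St_U [Finite G] [Fact p.Prime] (n : ℕ) : St p n ((U p G n).relIndex (U p G (n + 1))) := by
  refine ⟨fun hn => ?_, fun hn => ?_⟩
  · rw [U_succ_even hn, relIndex_comap_mk]
    exact CfsgLib.Core.card_pPrimeCore_coprime p _
  · rw [U_succ_odd hn, relIndex_comap_mk]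
    exact IsPGroup.iff_card.1 (CfsgLib.Core.pCore_isPGroup p _)

theorem le_U_succ [Finite G] [Fact p.Prime] {n : ℕ} {M L : Subgroup G} (hM : M ≤ U p G n) (hL : L.Normal) (h : St p n (M.relIndex L)) :
    L ≤ U p G (n + 1) := by
  have hd : (U p G n).relIndex L ∣ M.relIndex L := relIndex_dvd_of_le_left L hM
  have h' := h.of_dvd Fact.out hd
  have hLn : (L.map (QuotientGroup.mk' (U p G n))).Normal := hL.map _ (QuotientGroup.mk'_surjective _)
  by_cases hn : Even n
  · rw [U_succ_even hn, ← map_le_iff_le_comap]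
    apply CfsgLib.Core.le_pPrimeCore hLn
    rw [card_map_mk_eq]
    exact h'.1 hn
  · rw [U_succ_odd hn, ← map_le_iff_le_comap]
    apply CfsgLib.Core.le_pCore hLn
    obtain ⟨m, hm⟩ := h'.2 hn
    exact IsPGroup.of_card (n := m) (by rw [card_map_mk_eq, hm])

/-- subgroups reached at position `n` of some chain -/
inductive PR (p : ℕ) : ℕ → Subgroup G → Prop
  | zero : PR p 0 ⊥
  | step (n : ℕ) (M L : Subgroup G) (hM : PR p n M) (hL : L.Normal) (hML : M ≤ L) (hok : St p n (M.relIndex L)) : PR p (n + 1) L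

theorem PR.normal {n : ℕ} {M : Subgroup G} (h : PR p n M) : M.Normal := by
  cases h with
  | zero => infer_instance
  | step n M L hM hL hML hok => exact hL

theorem PR.reach {n : ℕ} {M : Subgroup G} (h : PR p n M) : Reach p M := by
  induction h with
  | zero => exact Reach.bot
  | step n M L hM hL hML hok ih => exact Reach.step M L ih hL hML hok.ok

theorem PR.pad {n : ℕ} {M : Subgroup G} (h : PR p n M) : PR p (n + 1) M :=
  PR.step n M M h h.normal le_rfl (by rw [relIndex_self]; exact St.one)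

theorem PR.mono {n m : ℕ} (hnm : n ≤ m) {M : Subgroup G} (h : PR p n M) : PR p m M := by
  induction hnm with
  | refl => exact h
  | step _ ih => exact ih.pad

theorem PR_U [Finite G] [Fact p.Prime] (n : ℕ) : PR p n (U p G n) := by
  induction n with
  | zero => exact PR.zero
  | succ n ih => exact PR.step n _ _ ih inferInstance (U_le_succ n) (St_U n)

theorem PR.le_U [Finite G] [Fact p.Prime] {n : ℕ} {M : Subgroup G} (h : PR p n M) : M ≤ U p G n := by
  induction h with
  | zero => exact bot_le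
  | step n M L hM hL hML hok ih => exact le_U_succ ih hL hok

theorem PR.map {G' : Type v} [Group G'] (hp : p.Prime) (f : G →* G') (hf : Function.Surjective f) {n : ℕ} {M : Subgroup G} (h : PR p n M) :
    PR p n (M.map f) := by
  induction h with
  | zero => rw [Subgroup.map_bot]; exact PR.zero
  | step n M L hM hL hML hok ih =>
    refine PR.step _ _ _ ih (hL.map f hf) (map_mono hML) (hok.of_dvd hp ?_)
    haveI := hM.normal
    rw [relIndex_map_map]
    have h1 : L ⊔ f.ker = L ⊔ (M ⊔ f.ker) := by rw [← sup_assoc, sup_eq_left.2 hML]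
    rw [h1, relIndex_sup_right]
    exact relIndex_dvd_of_le_left L le_sup_left

theorem PR.subgroupOf (hp : p.Prime) {n : ℕ} {M : Subgroup G} (h : PR p n M) (K : Subgroup G) : PR p n (M.subgroupOf K) := by
  induction h with
  | zero => rw [bot_subgroupOf]; exact PR.zero
  | step n M L hM hL hML hok ih =>
    haveI := hM.normal
    haveI := hL
    refine PR.step _ _ _ ih inferInstance (fun x hx => hML hx) (hok.of_dvd hp ?_)
    have h0 : L.subgroupOf K = (L ⊓ K).subgroupOf K := (inf_subgroupOf_right L K).symm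
    have h1 : (M.subgroupOf K).relIndex (L.subgroupOf K) = M.relIndex (L ⊓ K) := by
      rw [h0]
      exact relIndex_subgroupOf inf_le_right
    rw [h1]
    exact relIndex_dvd_of_le_right' inf_le_left

theorem PR.comap {G' : Type v} [Group G'] (f : G →* G') (hf : Function.Surjective f) {m : ℕ} (hm : Even m) (hk : PR p m f.ker) {n : ℕ}
    {M : Subgroup G'} (h : PR p n M) : PR p (m + n) (M.comap f) := by
  induction h with
  | zero => exact hk
  | step n M L hM hL hML hok ih =>
    refine PR.step _ _ _ ih (hL.comap f) (comap_mono hML) ?_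
    rw [relIndex_comap, map_comap_eq_self_of_surjective hf]
    exact hok.congr (by show Even n ↔ Even (m + n); rw [Nat.even_add]; simp [hm])

theorem U_eq_top_iff [Finite G] [Fact p.Prime] {n : ℕ} : U p G n = ⊤ ↔ PR p n (⊤ : Subgroup G) :=
  ⟨fun h => h ▸ PR_U n, fun h => top_le_iff.1 h.le_U⟩

theorem pLengthLE_iff [Finite G] [Fact p.Prime] {k : ℕ} : Cfsg.PLengthLE p k G ↔ PR p (2 * k + 1) (⊤ : Subgroup G) := U_eq_top_iff

theorem pLengthLE_iff' {k : ℕ} : Cfsg.PLengthLE p k G ↔ U p G (2 * k + 1) = ⊤ := Iff.rfl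

theorem pLengthLE_mono [Finite G] [Fact p.Prime] {k l : ℕ} (hkl : k ≤ l) (h : Cfsg.PLengthLE p k G) : Cfsg.PLengthLE p l G :=
  pLengthLE_iff.2 ((pLengthLE_iff.1 h).mono (by lia))

theorem pLengthLE_of_surjective {G' : Type v} [Group G'] [Finite G] [Finite G'] [Fact p.Prime] {k : ℕ} (h : Cfsg.PLengthLE p k G)
    (f : G →* G') (hf : Function.Surjective f) : Cfsg.PLengthLE p k G' := by
  have := (pLengthLE_iff.1 h).map Fact.out f hf
  rw [← MonoidHom.range_eq_map, MonoidHom.range_eq_top.2 hf] at this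
  exact pLengthLE_iff.2 this

theorem pLengthLE_congr {G' : Type v} [Group G'] [Finite G] [Finite G'] [Fact p.Prime] {k : ℕ} (e : G ≃* G') (h : Cfsg.PLengthLE p k G) :
    Cfsg.PLengthLE p k G' := pLengthLE_of_surjective h e.toMonoidHom e.surjective

theorem pLengthLE_quotient [Finite G] [Fact p.Prime] {k : ℕ} (h : Cfsg.PLengthLE p k G) (N : Subgroup G) [N.Normal] :
    Cfsg.PLengthLE p k (G ⧸ N) := pLengthLE_of_surjective h (QuotientGroup.mk' N) (QuotientGroup.mk'_surjective N)

theorem pLengthLE_subgroup [Finite G] [Fact p.Prime] {k : ℕ} (h : Cfsg.PLengthLE p k G) (K : Subgroup G) : Cfsg.PLengthLE p k K := by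
  have := (pLengthLE_iff.1 h).subgroupOf Fact.out K
  rw [top_subgroupOf] at this
  exact pLengthLE_iff.2 this

/-- chains of normal subgroups can be refined to the alternating pattern -/
theorem Reach.exists_PR {M : Subgroup G} (h : Reach p M) : ∃ n, PR p n M := by
  induction h with
  | bot => exact ⟨0, PR.zero⟩
  | step M L hM hL hML hok ih =>
    obtain ⟨n, hn⟩ := ih
    rcases hok with h1 | h1
    · by_cases he : Even n
      · refine ⟨n + 1 + 1, PR.step _ _ _ hn.pad hL hML ⟨fun h2 => ?_, fun _ => h1⟩⟩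
        exact absurd h2 (by rw [Nat.even_add_one]; simpa using he)
      · exact ⟨n + 1, PR.step _ _ _ hn hL hML ⟨fun h2 => absurd h2 he, fun _ => h1⟩⟩
    · by_cases he : Even n
      · exact ⟨n + 1, PR.step _ _ _ hn hL hML ⟨fun _ => h1, fun h2 => absurd he h2⟩⟩
      · refine ⟨n + 1 + 1, PR.step _ _ _ hn.pad hL hML ⟨fun _ => h1, fun h2 => ?_⟩⟩
        exact absurd h2 (by rw [Nat.even_add_one]; simpa using he)

theorem isPSolvable_iff_exists [Finite G] [Fact p.Prime] : Cfsg.IsPSolvable p G ↔ ∃ k, Cfsg.PLengthLE p k G := by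
  rw [isPSolvable_iff]
  constructor
  · intro h
    obtain ⟨n, hn⟩ := h.exists_PR
    exact ⟨n, pLengthLE_iff.2 (hn.mono (by lia))⟩
  · rintro ⟨k, hk⟩
    exact (pLengthLE_iff.1 hk).reach

theorem isPSolvable_of_pLengthLE [Finite G] [Fact p.Prime] {k : ℕ} (h : Cfsg.PLengthLE p k G) : Cfsg.IsPSolvable p G :=
  isPSolvable_iff_exists.2 ⟨k, h⟩

theorem le_U_of_comap [Finite G] [Fact p.Prime] (N : Subgroup G) [N.Normal] {n0 : ℕ}
    (h0 : (U p (G ⧸ N) n0).comap (QuotientGroup.mk' N) ≤ U p G n0) {n : ℕ} (hn : n0 ≤ n) :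
    (U p (G ⧸ N) n).comap (QuotientGroup.mk' N) ≤ U p G n := by
  induction hn with
  | refl => exact h0
  | @step m hm ih =>
    refine le_U_succ ih inferInstance ?_
    rw [relIndex_comap, map_comap_eq_self_of_surjective (QuotientGroup.mk'_surjective N)]
    exact St_U m

theorem U_one [Finite G] [Fact p.Prime] : U p G 1 = Cfsg.pPrimeCore p G := by
  apply le_antisymm
  · apply CfsgLib.Core.le_pPrimeCore inferInstance
    have := (St_U (p := p) (G := G) 0).1 (by decide)
    rwa [U_zero, relIndex_bot_left] at this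
  · refine le_U_succ (n := 0) (M := ⊥) bot_le (CfsgLib.Core.pPrimeCore_normal p G) ⟨fun _ => ?_, fun h => absurd (by decide) h⟩
    rw [relIndex_bot_left]
    exact CfsgLib.Core.card_pPrimeCore_coprime p G

theorem U_two [Finite G] [Fact p.Prime] : U p G 2 = Cfsg.pPrimePCore p G := by
  have h1 : U p G 1 = Cfsg.pPrimeCore p G := U_one
  apply le_antisymm
  · unfold Cfsg.pPrimePCore
    rw [← map_le_iff_le_comap]
    apply CfsgLib.Core.le_pCore (Subgroup.Normal.map inferInstance _ (QuotientGroup.mk'_surjective _))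
    obtain ⟨m, hm⟩ := (St_U (p := p) (G := G) 1).2 (by decide)
    rw [h1] at hm
    exact IsPGroup.of_card (n := m) (by rw [card_map_mk_eq, hm])
  · refine le_U_succ (n := 1) (M := Cfsg.pPrimeCore p G) h1.ge (by unfold Cfsg.pPrimePCore; infer_instance) ⟨fun h => absurd h (by decide), fun _ => ?_⟩
    unfold Cfsg.pPrimePCore
    rw [relIndex_comap_mk]
    exact IsPGroup.iff_card.1 (CfsgLib.Core.pCore_isPGroup p _)

theorem pPrimePCore_normal [Finite G] [Fact p.Prime] : (Cfsg.pPrimePCore p G).Normal := by rw [← U_two]; infer_instance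

/-- killing a normal p'-subgroup does not change the p-length -/
theorem pLengthLE_of_quotient_pPrime [Finite G] [Fact p.Prime] {k : ℕ} (N : Subgroup G) [N.Normal] (hN : (Nat.card N).Coprime p)
    (h : Cfsg.PLengthLE p k (G ⧸ N)) : Cfsg.PLengthLE p k G := by
  rw [pLengthLE_iff'] at h ⊢
  have h0 : (U p (G ⧸ N) 1).comap (QuotientGroup.mk' N) ≤ U p G 1 := by
    rw [U_one, U_one]
    apply CfsgLib.Core.le_pPrimeCore ((CfsgLib.Core.pPrimeCore_normal p _).comap _)
    rw [CfsgLib.Hall.card_comap_mk]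
    exact Nat.Coprime.mul_left (CfsgLib.Core.card_pPrimeCore_coprime p _) hN
  have h1 := le_U_of_comap N h0 (n := 2 * k + 1) (by lia)
  rw [h, comap_top] at h1
  exact top_le_iff.1 h1

/-- killing `N ≤ O_{p',p}(G)` costs at most one -/
theorem pLengthLE_succ_of_quotient [Finite G] [Fact p.Prime] {k : ℕ} (N : Subgroup G) [N.Normal] (hN : PR p 2 N)
    (h : Cfsg.PLengthLE p k (G ⧸ N)) : Cfsg.PLengthLE p (k + 1) G := by
  rw [pLengthLE_iff] at h ⊢
  have h1 := PR.comap (QuotientGroup.mk' N) (QuotientGroup.mk'_surjective N) (m := 2) (by decide) (by rwa [QuotientGroup.ker_mk']) h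
  rw [comap_top] at h1
  have h2 : 2 + (2 * k + 1) = 2 * (k + 1) + 1 := by ring
  rwa [h2] at h1

theorem PR_two_of_isPGroup [Finite G] [Fact p.Prime] (N : Subgroup G) [N.Normal] (hN : IsPGroup p N) : PR p 2 N := by
  refine PR.step 1 ⊥ N PR.zero.pad inferInstance bot_le ⟨fun h => absurd h (by decide), fun _ => ?_⟩
  rw [relIndex_bot_left]
  exact IsPGroup.iff_card.1 hN

theorem PR_one_of_coprime (N : Subgroup G) [N.Normal] (hN : (Nat.card N).Coprime p) : PR p 1 N := by
  refine PR.step 0 ⊥ N PR.zero inferInstance bot_le ⟨fun _ => ?_, fun h => absurd (by decide) h⟩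
  rwa [relIndex_bot_left]

theorem St_comap {G' : Type v} [Group G'] [Finite G'] [Fact p.Prime] (n : ℕ) (f : G →* G') (K : Subgroup G)
    (hK : K ≤ (U p G' (n + 1)).comap f) : St p n (((U p G' n).comap f).relIndex K) := by
  refine (St_U (p := p) (G := G') n).of_dvd Fact.out ?_
  rw [relIndex_comap]
  exact relIndex_dvd_of_le_right' (map_le_iff_le_comap.2 hK)

theorem relIndex_inf_of_normal (A B K : Subgroup G) : (A ⊓ B).relIndex K = A.relIndex K * B.relIndex (A ⊓ K) := by
  have h5 : A ⊓ B ⊓ K ≤ A ⊓ K := inf_le_inf_right K inf_le_left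
  have h4 : A ⊓ K ≤ K := inf_le_right
  have h6 := relIndex_mul_relIndex _ _ _ h5 h4
  rw [inf_relIndex_right, inf_relIndex_right] at h6
  rw [← h6, mul_comm]
  congr 1
  have h7 : A ⊓ B ⊓ K = B ⊓ (A ⊓ K) := by rw [inf_comm A B, inf_assoc]
  rw [h7, inf_relIndex_right]

/-- subdirect products -/
theorem pLengthLE_subdirect {G₁ : Type v} {G₂ : Type v} [Group G₁] [Group G₂] [Finite G] [Finite G₁] [Finite G₂] [Fact p.Prime] {k : ℕ}
    (f₁ : G →* G₁) (f₂ : G →* G₂) (hf : f₁.ker ⊓ f₂.ker = ⊥) (h₁ : Cfsg.PLengthLE p k G₁) (h₂ : Cfsg.PLengthLE p k G₂) :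
    Cfsg.PLengthLE p k G := by
  have hp : p.Prime := Fact.out
  have hTn : ∀ n, PR p n ((U p G₁ n).comap f₁ ⊓ (U p G₂ n).comap f₂) := by
    intro n
    induction n with
    | zero =>
      have : (U p G₁ 0).comap f₁ ⊓ (U p G₂ 0).comap f₂ = ⊥ := by
        rw [U_zero, U_zero, MonoidHom.comap_bot, MonoidHom.comap_bot]; exact hf
      rw [this]; exact PR.zero
    | succ n ih =>
      refine PR.step n _ _ ih inferInstance (inf_le_inf (comap_mono (U_le_succ n)) (comap_mono (U_le_succ n))) ?_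
      rw [relIndex_inf_of_normal]
      exact (St_comap n f₁ _ inf_le_left).mul (St_comap n f₂ _ (inf_le_right.trans inf_le_right))
  rw [pLengthLE_iff]
  have h3 := hTn (2 * k + 1)
  rwa [pLengthLE_iff'.1 h₁, pLengthLE_iff'.1 h₂, comap_top, comap_top, inf_top_eq] at h3

end Upper

end CfsgLib.PChain
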