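import Mathlib
import Cfsg.Prelude.Def_Local
import Cfsg.Agent.Lib.Core
import Cfsg.Agent.Lib.Core2
import Cfsg.Agent.Lib.PSolv
import Cfsg.Agent.Lib.PChain
import Cfsg.Agent.Lib.PChain2
import Cfsg.Agent.Lib.H6HSub

set_option autoImplicit false
set_option linter.style.haveILetI false

namespace CfsgLib.H7GY
open Subgroup
open scoped Pointwise

universe u

variable {G : Type u} [Group G] [Finite G] {p : ℕ} [hp : Fact p.Prime]

/-- elements of order `p` are in the centre of `O_p(G)` -/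
theorem mem_center (hR : Cfsg.pCore p G ≠ ⊥)
    (htrans : ∀ U V : Subgroup G, Nat.card U = p → Nat.card V = p → ∃ a : MulAut G, U.map a.toMonoidHom = V)
    (y : G) (hy : orderOf y = p) :
    y ∈ Cfsg.pCore p G ∧ ∀ r ∈ Cfsg.pCore p G, r * y = y * r := by
  have hRp := CfsgLib.Core.pCore_isPGroup p G
  have hchar := CfsgLib.Core.pCore_characteristic p G
  haveI : Nontrivial (Cfsg.pCore p G) := (Subgroup.nontrivial_iff_ne_bot _).mpr hR
  haveI := hRp.center_nontrivial
  have hcp : p ∣ Nat.card (Subgroup.center (Cfsg.pCore p G)) := by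
    have h1 : IsPGroup p (Subgroup.center (Cfsg.pCore p G)) := hRp.to_subgroup _
    obtain ⟨n, hn⟩ := h1.exists_card_eq
    have h2 : 1 < Nat.card (Subgroup.center (Cfsg.pCore p G)) := Finite.one_lt_card
    rw [hn] at h2 ⊢
    apply dvd_pow_self
    rintro rfl
    simp at h2
  obtain ⟨z, hz⟩ := exists_prime_orderOf_dvd_card' p hcp
  have hz1 : orderOf ((z : Cfsg.pCore p G) : G) = p := by
    rw [Subgroup.orderOf_coe, Subgroup.orderOf_coe]; exact hz
  obtain ⟨a, ha⟩ := htrans (zpowers ((z : Cfsg.pCore p G) : G)) (zpowers y)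
    (by rw [Nat.card_zpowers, hz1]) (by rw [Nat.card_zpowers, hy])
  have hyz : y ∈ (zpowers ((z : Cfsg.pCore p G) : G)).map a.toMonoidHom := by
    rw [ha]; exact mem_zpowers y
  obtain ⟨w, ⟨j, hj⟩, hw⟩ := hyz
  have hwR : w ∈ Cfsg.pCore p G := by
    rw [← hj]; exact zpow_mem (z : Cfsg.pCore p G).2 j
  have haR : ∀ r ∈ Cfsg.pCore p G, a r ∈ Cfsg.pCore p G := by
    intro r hr
    have h1 := Subgroup.characteristic_iff_map_eq.mp hchar a
    rw [← h1]
    exact ⟨r, hr, rfl⟩
  have hwz : ∀ r ∈ Cfsg.pCore p G, r * w = w * r := by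
    intro r hr
    have h1 := Subgroup.mem_center_iff.mp z.2 ⟨r, hr⟩
    have h2 : r * ((z : Cfsg.pCore p G) : G) = ((z : Cfsg.pCore p G) : G) * r := congrArg Subtype.val h1
    have h3 : Commute r (((z : Cfsg.pCore p G) : G) ^ j) := (show Commute r _ from h2).zpow_right j
    have h4 : ((z : Cfsg.pCore p G) : G) ^ j = w := hj
    rw [← h4]; exact h3
  refine ⟨?_, ?_⟩
  · rw [← hw]; exact haR w hwR
  · intro r hr
    have h1 := Subgroup.characteristic_iff_map_eq.mp hchar a
    have h2 : r ∈ (Cfsg.pCore p G).map a.toMonoidHom := by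
      rw [show (Cfsg.pCore p G).map a.toMonoidHom = Cfsg.pCore p G from h1]; exact hr
    obtain ⟨r', hr', rfl⟩ := h2
    rw [← hw]
    show a r' * a w = a w * a r'
    rw [← map_mul, ← map_mul, hwz r' hr']

theorem index_coprime (hp2 : p ≠ 2) (hs : Cfsg.IsPSolvable p G) (h0 : Cfsg.pPrimeCore p G = ⊥)
    (hdvd : p ∣ Nat.card G)
    (htrans : ∀ U V : Subgroup G, Nat.card U = p → Nat.card V = p → ∃ a : MulAut G, U.map a.toMonoidHom = V) :
    (Nat.card (G ⧸ Cfsg.pCore p G)).Coprime p := by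
  classical
  haveI : Nontrivial G := by
    rw [← Finite.one_lt_card_iff_nontrivial]
    exact lt_of_lt_of_le hp.out.one_lt (Nat.le_of_dvd Nat.card_pos hdvd)
  have hR1 : Cfsg.pCore p G ≠ ⊥ := CfsgLib.PChain.pCore_ne_bot hp.out hs h0
  have hA := mem_center hR1 htrans
  set R := Cfsg.pCore p G with hRdef
  haveI hRn : R.Normal := CfsgLib.Core.pCore_normal p G
  have hRp : IsPGroup p R := CfsgLib.Core.pCore_isPGroup p G
  have hRchar := CfsgLib.Core.pCore_characteristic p G
  by_contra hcon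
  have hpd : p ∣ Nat.card (G ⧸ R) := by
    by_contra h
    exact hcon ((Nat.Prime.coprime_iff_not_dvd hp.out).mpr h).symm
  haveI : Nontrivial (G ⧸ R) := by
    rw [← Finite.one_lt_card_iff_nontrivial]
    exact lt_of_lt_of_le hp.out.one_lt (Nat.le_of_dvd Nat.card_pos hpd)
  have hq : Cfsg.pPrimeCore p (G ⧸ R) ≠ ⊥ := by
    rcases CfsgLib.PSolv.exists_core_ne_bot (CfsgLib.PChain.quotient hp.out hs R) inferInstance with h | h
    · exact absurd (CfsgLib.Core2.pCore_quotient p G) h
    · exact h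
  haveI := CfsgLib.Core.pPrimeCore_normal p (G ⧸ R)
  let K : Subgroup G := (Cfsg.pPrimeCore p (G ⧸ R)).comap (QuotientGroup.mk' R)
  haveI hKn : K.Normal := inferInstance
  have hRK : R ≤ K := by
    intro r hr
    show QuotientGroup.mk' R r ∈ Cfsg.pPrimeCore p (G ⧸ R)
    rw [show QuotientGroup.mk' R r = 1 from (QuotientGroup.eq_one_iff r).mpr hr]
    exact one_mem _
  have hKmap : K.map (QuotientGroup.mk' R) = Cfsg.pPrimeCore p (G ⧸ R) :=
    Subgroup.map_comap_eq_self_of_surjective (QuotientGroup.mk'_surjective R) _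
  have hcardmap : ∀ L : Subgroup G, Nat.card (L.map (QuotientGroup.mk' R)) = R.relIndex L := by
    intro L
    exact CfsgLib.PChain.card_map_mk_eq R L
  have hKco : (R.relIndex K).Coprime p := by
    rw [← hcardmap, hKmap]
    exact CfsgLib.Core.card_pPrimeCore_coprime p (G ⧸ R)
  have hKmax : ∀ M : Subgroup G, M.Normal → (R.relIndex M).Coprime p → M ≤ K := by
    intro M hM hco
    have h1 : M.map (QuotientGroup.mk' R) ≤ Cfsg.pPrimeCore p (G ⧸ R) := by
      apply CfsgLib.Core.le_pPrimeCore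
      · exact hM.map _ (QuotientGroup.mk'_surjective R)
      · rw [hcardmap]; exact hco
    intro m hm
    exact h1 ⟨m, hm, rfl⟩
  have hKa : ∀ a : MulAut G, ∀ k ∈ K, a k ∈ K := by
    intro a k hk
    have h1 : (K.map a.toMonoidHom) ≤ K := by
      apply hKmax
      · exact hKn.map _ a.surjective
      · have h2 : R.map a.toMonoidHom = R := Subgroup.characteristic_iff_map_eq.mp hRchar a
        have h3 : (R.map a.toMonoidHom).relIndex (K.map a.toMonoidHom) = R.relIndex K :=
          Subgroup.relIndex_map_map_of_injective R K a.injective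
        rw [h2] at h3
        rw [h3]; exact hKco
    exact h1 ⟨k, hk, rfl⟩
  -- complement
  obtain ⟨H0, hH0, k0, hk0⟩ := CfsgLib.PChain.exists_complement (CfsgLib.PChain.subgroup hp.out hs K)
  let K0 : Subgroup G := H0.map K.subtype
  have hK0K : K0 ≤ K := by
    rintro _ ⟨x, _, rfl⟩; exact x.2
  have hK0card : Nat.card K0 = Nat.card H0 := Subgroup.card_map_of_injective K.subtype_injective
  have hK0co : (Nat.card K0).Coprime p := by rw [hK0card]; exact hH0
  have hF1 : ∀ X : Subgroup G, X ≤ K → Nat.card X = Nat.card K0 →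
      ∃ k ∈ K, X.map (MulAut.conj k).toMonoidHom = K0 := by
    intro X hX hXc
    have hc1 : Nat.card (X.subgroupOf K) = Nat.card X := by
      exact Nat.card_congr (Subgroup.subgroupOfEquivOfLe hX).toEquiv
    have hi1 : (X.subgroupOf K).index = p ^ k0 := by
      have h1 := (X.subgroupOf K).card_mul_index
      have h2 := H0.card_mul_index
      rw [hc1, hXc, hK0card] at h1
      rw [← hk0]
      have h3 : 0 < Nat.card H0 := Nat.card_pos
      exact Nat.eq_of_mul_eq_mul_left h3 (h1.trans h2.symm)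
    obtain ⟨g, hg⟩ := CfsgLib.PChain.conj_eq (CfsgLib.PChain.subgroup hp.out hs K)
      (H := X.subgroupOf K) (K := H0) (by rw [hc1, hXc]; exact hK0co) ⟨k0, hi1⟩ hH0 ⟨k0, hk0⟩
    refine ⟨g, g.2, ?_⟩
    apply le_antisymm
    · rintro _ ⟨x, hx, rfl⟩
      refine ⟨g * ⟨x, hX hx⟩ * g⁻¹, ?_, rfl⟩
      rw [hg]
      exact ⟨⟨x, hX hx⟩, hx, rfl⟩
    · rintro _ ⟨x, hx, rfl⟩
      rw [hg] at hx
      obtain ⟨w, hw, rfl⟩ := hx
      exact ⟨w, hw, rfl⟩
  have hRK0 : R ⊓ K0 = ⊥ := by
    apply Subgroup.inf_eq_bot_of_coprime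
    obtain ⟨n, hn⟩ := hRp.exists_card_eq
    rw [hn]
    exact Nat.Coprime.pow_left n hK0co.symm
  have hKsup : K ≤ R ⊔ K0 := by
    have h1 : (R ⊔ K0).relIndex K ∣ K0.relIndex K := Subgroup.relIndex_dvd_of_le_left K le_sup_right
    have h2 : (R ⊔ K0).relIndex K ∣ R.relIndex K := Subgroup.relIndex_dvd_of_le_left K le_sup_left
    have h3 : K0.relIndex K = p ^ k0 := by
      rw [← hk0]
      show (K0.subgroupOf K).index = H0.index
      congr 1
      show (H0.map K.subtype).comap K.subtype = H0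
      exact Subgroup.comap_map_eq_self_of_injective K.subtype_injective H0
    rw [h3] at h1
    have h4 : (R ⊔ K0).relIndex K ∣ 1 := by
      have h5 : Nat.Coprime (p ^ k0) (R.relIndex K) := Nat.Coprime.pow_left k0 hKco.symm
      have := Nat.dvd_gcd h1 h2
      rwa [h5] at this
    exact Subgroup.relIndex_eq_one.mp (Nat.dvd_one.mp h4)
  have hdec : ∀ k ∈ K, ∃ r ∈ R, ∃ κ ∈ K0, r * κ = k := by
    intro k hk
    obtain ⟨r, hr, κ, hκ, h⟩ := Subgroup.mem_sup_of_normal_left.mp (hKsup hk)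
    exact ⟨r, hr, κ, hκ, h⟩
  have hK0n : ∀ κ ∈ K0, K0.map (MulAut.conj κ).toMonoidHom = K0 := by
    intro κ hκ
    exact CfsgLib.Core.map_conj_eq_iff.mpr (Subgroup.le_normalizer hκ)
  -- Frattini
  have hFr : R ⊔ Subgroup.normalizer (K0 : Set G) = ⊤ := by
    rw [eq_top_iff]
    intro g _
    obtain ⟨k, hk, hkX⟩ := hF1 (K0.map (MulAut.conj g).toMonoidHom) (by
      rintro _ ⟨x, hx, rfl⟩
      exact hKn.conj_mem x (hK0K hx) g) (Subgroup.card_map_of_injective (MulAut.conj g).injective)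
    rw [CfsgLib.Core.map_conj_mul] at hkX
    have hn : k * g ∈ Subgroup.normalizer (K0 : Set G) := CfsgLib.Core.map_conj_eq_iff.mp hkX
    obtain ⟨r, hr, κ, hκ, hrk⟩ := hdec k⁻¹ (K.inv_mem hk)
    have h1 : g = r * (κ * (k * g)) := by
      rw [← mul_assoc, hrk]; group
    rw [h1]
    exact Subgroup.mul_mem_sup hr (mul_mem (Subgroup.le_normalizer hκ) hn)
  have hNR : Subgroup.normalizer (K0 : Set G) ⊓ R = ⊥ := by
    by_contra hne
    haveI : Nontrivial ↥(Subgroup.normalizer (K0 : Set G) ⊓ R) := (Subgroup.nontrivial_iff_ne_bot _).mpr hne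
    have h1 : IsPGroup p ↥(Subgroup.normalizer (K0 : Set G) ⊓ R) := hRp.to_le inf_le_right
    have hcp : p ∣ Nat.card ↥(Subgroup.normalizer (K0 : Set G) ⊓ R) := by
      obtain ⟨n, hn⟩ := h1.exists_card_eq
      have h2 : 1 < Nat.card ↥(Subgroup.normalizer (K0 : Set G) ⊓ R) := Finite.one_lt_card
      rw [hn] at h2 ⊢
      apply dvd_pow_self
      rintro rfl
      simp at h2
    obtain ⟨x, hx⟩ := exists_prime_orderOf_dvd_card' p hcp
    have hx1 : orderOf (x : G) = p := by rw [Subgroup.orderOf_coe]; exact hx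
    have hxN : (x : G) ∈ Subgroup.normalizer (K0 : Set G) := x.2.1
    have hxR : (x : G) ∈ R := x.2.2
    have hxc : ∀ κ ∈ K0, (x : G) * κ = κ * x := by
      intro κ hκ
      have h2 : (x : G) * κ * (x : G)⁻¹ * κ⁻¹ ∈ R ⊓ K0 := by
        refine ⟨?_, ?_⟩
        · have : (x : G) * κ * (x : G)⁻¹ * κ⁻¹ = x * (κ * (x : G)⁻¹ * κ⁻¹) := by group
          rw [this]
          exact R.mul_mem hxR (hRn.conj_mem _ (R.inv_mem hxR) κ)
        · exact K0.mul_mem ((Subgroup.mem_normalizer_iff.mp hxN κ).mp hκ) (K0.inv_mem hκ)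
      rw [hRK0, Subgroup.mem_bot] at h2
      have h3 : (x : G) * κ * (x : G)⁻¹ = κ := mul_inv_eq_one.mp h2
      exact mul_inv_eq_iff_eq_mul.mp h3
    -- all elements of order p commute with K0
    have hall : ∀ y : G, y ^ p = 1 → ∀ κ ∈ K0, κ * y = y * κ := by
      intro y hy κ hκ
      by_cases hy1 : y = 1
      · rw [hy1, mul_one, one_mul]
      have hyo : orderOf y = p := orderOf_eq_prime hy hy1
      obtain ⟨a, ha⟩ := htrans (zpowers (x : G)) (zpowers y)
        (by rw [Nat.card_zpowers, hx1]) (by rw [Nat.card_zpowers, hyo])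
      have hyz : y ∈ (zpowers (x : G)).map a.toMonoidHom := by
        rw [ha]; exact mem_zpowers y
      obtain ⟨w, ⟨j, hj⟩, hw⟩ := hyz
      obtain ⟨k, hk, hkX⟩ := hF1 (K0.map a.toMonoidHom) (by
        rintro _ ⟨x, hx, rfl⟩
        exact hKa a x (hK0K hx)) (Subgroup.card_map_of_injective a.injective)
      obtain ⟨r, hr, κ₁, hκ₁, hrk⟩ := hdec k⁻¹ (K.inv_mem hk)
      -- k = κ₁⁻¹ * r⁻¹
      have hk' : k = κ₁⁻¹ * r⁻¹ := by
        rw [← mul_inv_rev, hrk, inv_inv]
      have h5 : κ₁⁻¹ * κ * κ₁ ∈ K0 := K0.mul_mem (K0.mul_mem (K0.inv_mem hκ₁) hκ) hκ₁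
      rw [← hkX] at h5
      obtain ⟨_, ⟨κ', hκ', rfl⟩, h6⟩ := h5
      have h7 : k * a κ' * k⁻¹ = κ₁⁻¹ * κ * κ₁ := h6
      have h8 : κ = r⁻¹ * a κ' * r := by
        have : κ = κ₁ * (k * a κ' * k⁻¹) * κ₁⁻¹ := by rw [h7]; group
        rw [this, hk']; group
      have h9 : Commute y (a κ') := by
        rw [← hw]
        show a w * a κ' = a κ' * a w
        rw [← map_mul, ← map_mul]
        congr 1
        have h10 : w = (x : G) ^ j := hj.symm
        rw [h10]
        exact ((show Commute (x : G) κ' from hxc κ' hκ').zpow_left j)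
      have h11 : Commute y r := by
        have := (hA y hyo).2 r hr
        exact this.symm
      rw [h8]
      exact ((h11.inv_right.mul_right h9).mul_right h11).symm
    have hK0c : K0 = ⊥ := by
      rw [eq_bot_iff]
      intro κ hκ
      have h12 : (orderOf κ).Coprime p := by
        apply Nat.Coprime.coprime_dvd_left _ hK0co
        have := orderOf_dvd_natCard (⟨κ, hκ⟩ : K0)
        rwa [Subgroup.orderOf_mk] at this
      have h13 : ∀ x ∈ R, κ * x = x * κ := by
        refine CfsgLib.H6HSub.comm_of_omega h12 _ R le_rfl hRp ?_ ?_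
        · rw [Subgroup.normalizer_eq_top_iff.mpr hRn]; exact Subgroup.mem_top κ
        · intro x hx hx2
          rcases hx2 with h | ⟨h, -⟩
          · exact hall x h κ hκ
          · exact absurd h hp2
      have h14 : κ ∈ Subgroup.centralizer (R : Set G) := by
        rw [Subgroup.mem_centralizer_iff]
        intro r hr
        exact (h13 r hr).symm
      have h15 : κ ∈ R := CfsgLib.PChain.centralizer_pCore_le hs h0 h14
      have h16 : κ ∈ R ⊓ K0 := ⟨h15, hκ⟩
      rwa [hRK0] at h16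
    have hKR : K ≤ R := by
      have := hKsup
      rwa [hK0c, sup_bot_eq] at this
    apply hq
    rw [← hKmap, Subgroup.map_eq_bot_iff, QuotientGroup.ker_mk']
    exact hKR
  -- count
  let f : ↥(Subgroup.normalizer (K0 : Set G)) →* G ⧸ R :=
    (QuotientGroup.mk' R).comp (Subgroup.normalizer (K0 : Set G)).subtype
  have hf1 : Function.Injective f := by
    rw [injective_iff_map_eq_one]
    intro x hx
    have h1 : (x : G) ∈ R := (QuotientGroup.eq_one_iff _).mp hx
    have h2 : (x : G) ∈ Subgroup.normalizer (K0 : Set G) ⊓ R := ⟨x.2, h1⟩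
    rw [hNR, Subgroup.mem_bot] at h2
    exact Subtype.ext h2
  have hf2 : Function.Surjective f := by
    intro y
    obtain ⟨g, rfl⟩ := QuotientGroup.mk_surjective y
    have hg : g ∈ R ⊔ Subgroup.normalizer (K0 : Set G) := by rw [hFr]; exact Subgroup.mem_top g
    obtain ⟨r, hr, n, hn, rfl⟩ := Subgroup.mem_sup_of_normal_left.mp hg
    refine ⟨⟨n, hn⟩, ?_⟩
    show (QuotientGroup.mk n : G ⧸ R) = QuotientGroup.mk (r * n)
    rw [QuotientGroup.mk_mul, (QuotientGroup.eq_one_iff r).mpr hr, one_mul]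
  have hcardN : Nat.card ↥(Subgroup.normalizer (K0 : Set G)) = Nat.card (G ⧸ R) :=
    Nat.card_congr (Equiv.ofBijective f ⟨hf1, hf2⟩)
  rw [← hcardN] at hpd
  obtain ⟨y, hy⟩ := exists_prime_orderOf_dvd_card' p hpd
  have hy1 : orderOf (y : G) = p := by rw [Subgroup.orderOf_coe]; exact hy
  have hyR := (hA y hy1).1
  have h2 : (y : G) ∈ Subgroup.normalizer (K0 : Set G) ⊓ R := ⟨y.2, hyR⟩
  rw [hNR, Subgroup.mem_bot] at h2
  rw [h2, orderOf_one] at hy1
  exact hp.out.one_lt.ne hy1

theorem main (hp2 : p ≠ 2) (hs : Cfsg.IsPSolvable p G) (hdvd : p ∣ Nat.card G)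
    (htrans : ∀ U V : Subgroup G, Nat.card U = p → Nat.card V = p → ∃ a : MulAut G, U.map a.toMonoidHom = V) :
    Cfsg.PLengthLE p 1 G := by
  classical
  set O := Cfsg.pPrimeCore p G with hO
  haveI hOn : O.Normal := CfsgLib.Core.pPrimeCore_normal p G
  have hOco : (Nat.card O).Coprime p := CfsgLib.Core.card_pPrimeCore_coprime p G
  have hOchar := CfsgLib.Core.pPrimeCore_characteristic p G
  have hs' := CfsgLib.PChain.quotient hp.out hs O
  have h0' : Cfsg.pPrimeCore p (G ⧸ O) = ⊥ := CfsgLib.PChain.pPrimeCore_quotient p G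
  have hdvd' : p ∣ Nat.card (G ⧸ O) := by
    have h1 := Subgroup.card_eq_card_quotient_mul_card_subgroup O
    rw [h1] at hdvd
    rcases hp.out.dvd_mul.mp hdvd with h | h
    · exact h
    · exact absurd h ((Nat.Prime.coprime_iff_not_dvd hp.out).mp hOco.symm)
  -- lifting
  have hlift : ∀ U : Subgroup (G ⧸ O), Nat.card U = p → ∃ U0 : Subgroup G, Nat.card U0 = p ∧
      U0.map (QuotientGroup.mk' O) = U := by
    intro U hU
    haveI : Nontrivial U := by
      rw [← Finite.one_lt_card_iff_nontrivial, hU]; exact hp.out.one_lt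
    let W := U.comap (QuotientGroup.mk' O)
    have hWm : W.map (QuotientGroup.mk' O) = U :=
      Subgroup.map_comap_eq_self_of_surjective (QuotientGroup.mk'_surjective O) _
    have hpW : p ∣ Nat.card W := by
      have h1 : Nat.card (W.map (QuotientGroup.mk' O)) ∣ Nat.card W := Subgroup.card_map_dvd _ _
      rwa [hWm, hU] at h1
    obtain ⟨x, hx⟩ := exists_prime_orderOf_dvd_card' p hpW
    have hx1 : orderOf (x : G) = p := by rw [Subgroup.orderOf_coe]; exact hx
    refine ⟨zpowers (x : G), by rw [Nat.card_zpowers, hx1], ?_⟩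
    have hle : (zpowers (x : G)).map (QuotientGroup.mk' O) ≤ U := by
      rw [MonoidHom.map_zpowers, Subgroup.zpowers_le]
      exact x.2
    have hcne : (zpowers (x : G)).map (QuotientGroup.mk' O) ≠ ⊥ := by
      intro h
      rw [MonoidHom.map_zpowers, Subgroup.zpowers_eq_bot] at h
      have h2 : (x : G) ∈ O := (QuotientGroup.eq_one_iff _).mp h
      have h3 : p ∣ Nat.card O := by
        have := orderOf_dvd_natCard (⟨(x : G), h2⟩ : O)
        rwa [Subgroup.orderOf_mk, hx1] at this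
      exact (Nat.Prime.coprime_iff_not_dvd hp.out).mp hOco.symm h3
    have hcd : Nat.card ((zpowers (x : G)).map (QuotientGroup.mk' O)) ∣ p := by
      rw [← hU]; exact Subgroup.card_dvd_of_le hle
    rcases (Nat.dvd_prime hp.out).mp hcd with h | h
    · exact absurd (Subgroup.card_eq_one.mp h) hcne
    · exact Subgroup.eq_of_le_of_card_ge hle (by rw [h, hU])
  have htrans' : ∀ U V : Subgroup (G ⧸ O), Nat.card U = p → Nat.card V = p →
      ∃ a : MulAut (G ⧸ O), U.map a.toMonoidHom = V := by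
    intro U V hU hV
    obtain ⟨U0, hU0, rfl⟩ := hlift U hU
    obtain ⟨V0, hV0, rfl⟩ := hlift V hV
    obtain ⟨a, rfl⟩ := htrans U0 V0 hU0 hV0
    have hOa : O.map (a : G ≃* G).toMonoidHom = O := Subgroup.characteristic_iff_map_eq.mp hOchar a
    refine ⟨QuotientGroup.congr O O a hOa, ?_⟩
    rw [Subgroup.map_map, Subgroup.map_map]
    rfl
  have hco := index_coprime hp2 hs' h0' hdvd' htrans'
  refine CfsgLib.PChain.pLengthLE_of_quotient_pPrime O hOco ?_
  haveI : (Cfsg.pCore p (G ⧸ O)).Normal := CfsgLib.Core.pCore_normal p (G ⧸ O)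
  refine CfsgLib.PChain.pLengthLE_succ_of_quotient (k := 0) (Cfsg.pCore p (G ⧸ O))
    (CfsgLib.PChain.PR_two_of_isPGroup _ (CfsgLib.Core.pCore_isPGroup p (G ⧸ O))) ?_
  rw [CfsgLib.PChain.pLengthLE_iff']
  show CfsgLib.PChain.U p _ 1 = ⊤
  rw [CfsgLib.PChain.U_one, eq_top_iff]
  apply CfsgLib.Core.le_pPrimeCore
  · infer_instance
  · rw [Subgroup.card_top]; exact hco

end CfsgLib.H7GY
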