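import Mathlib
import Cfsg.Agent.Lib.H7Mult3

set_option autoImplicit false
set_option linter.style.haveILetI false

/-! The `2`-part of the multipliers of `M₂₃` and `M₂₄`: abstract form. -/

namespace CfsgLib.H7Mult

open Subgroup
open scoped commutatorElement

universe u

theorem NN_iff {G : Type*} [Group G] {u x : G} : NN u x = 1 ↔ x * u * x * u * x = u * u := by
  have e : NN u x = (x * u * x * u * x) * (u * u)⁻¹ := by simp only [NN]; group
  rw [e, mul_inv_eq_one]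

theorem comm_closure {G : Type*} [Group G] {S : Set G} (h : ∀ x ∈ S, ∀ y ∈ S, x * y = y * x) :
    ∀ x ∈ closure S, ∀ y ∈ closure S, x * y = y * x := by
  letI := Subgroup.closureCommGroupOfComm h
  intro x hx y hy
  exact congrArg Subtype.val (mul_comm (⟨x, hx⟩ : closure S) ⟨y, hy⟩)

/-- adding an involution to a subgroup it normalizes. -/
theorem closure_insert_inv {G : Type*} [Group G] {T : Set G} {x : G} (hx : x * x = 1)
    (hn : ∀ u ∈ T, x * u = u * x) {y : G} (hy : y ∈ closure (insert x T)) :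
    y ∈ closure T ∨ ∃ u ∈ closure T, y = x * u := by
  have hc : ∀ u ∈ closure T, x * u = u * x := by
    intro u hu
    have h1 : closure T ≤ centralizer {x} := (closure_le _).2 (fun u hu => by
      rw [SetLike.mem_coe, Subgroup.mem_centralizer_singleton_iff]
      exact (hn u hu).symm)
    have := h1 hu
    rw [Subgroup.mem_centralizer_singleton_iff] at this
    exact this.symm
  have hxi : x⁻¹ = x := inv_eq_of_mul_eq_one_right hx
  induction hy using Subgroup.closure_induction_left with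
  | one => exact Or.inl (one_mem _)
  | mul_left w hw g _ ih =>
    rcases hw with rfl | hw
    · rcases ih with h | ⟨u, hu, rfl⟩
      · exact Or.inr ⟨g, h, rfl⟩
      · left; rw [← mul_assoc, hx, one_mul]; exact hu
    · have hw' : w ∈ closure T := subset_closure hw
      rcases ih with h | ⟨u, hu, rfl⟩
      · exact Or.inl (mul_mem hw' h)
      · exact Or.inr ⟨w * u, mul_mem hw' hu, by rw [← mul_assoc, ← mul_assoc, hn w hw]⟩
  | inv_mul_cancel w hw g _ ih =>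
    rcases hw with rfl | hw
    · rw [hxi]
      rcases ih with h | ⟨u, hu, rfl⟩
      · exact Or.inr ⟨g, h, rfl⟩
      · left; rw [← mul_assoc, hx, one_mul]; exact hu
    · have hw' : w⁻¹ ∈ closure T := inv_mem (subset_closure hw)
      rcases ih with h | ⟨u, hu, rfl⟩
      · exact Or.inl (mul_mem hw' h)
      · exact Or.inr ⟨w⁻¹ * u, mul_mem hw' hu, by rw [← mul_assoc, ← mul_assoc, hc _ hw']⟩

section

variable {Q : Type*} [Group Q] {Γ : Type*} [Group Γ] {σ : Γ →* Q}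

theorem base_comm (hc : σ.ker ≤ center Γ) (h2 : ∀ z ∈ σ.ker, z * z = 1)
    (hsur : Function.Surjective σ) {v1 v2 v3 v4 g g2 : Q}
    (hS : ∀ x ∈ ({v1, v2, v3, v4} : Set Q), ∀ y ∈ ({v1, v2, v3, v4} : Set Q), x * y = y * x)
    (hg1 : g * v1 = v1 * g) (hg2 : g * v2 = v2 * g) (hg3 : NN g v3 = 1) (hg4 : NN g v4 = 1)
    (hk1 : g2 * v1 = v1 * g2) (hk3 : g2 * v3 = v3 * g2) (hk2 : NN g2 v2 = 1) (hk4 : NN g2 v4 = 1) :
    ∀ x ∈ (closure {v1, v2, v3, v4}).comap σ, ∀ y ∈ (closure {v1, v2, v3, v4}).comap σ, x * y = y * x := by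
  obtain ⟨s, hs⟩ : ∃ s : Q → Γ, ∀ g, σ (s g) = g := ⟨_, Function.surjInv_eq hsur⟩
  have m1 : v1 ∈ ({v1, v2, v3, v4} : Set Q) := by simp
  have m2 : v2 ∈ ({v1, v2, v3, v4} : Set Q) := by simp
  have m3 : v3 ∈ ({v1, v2, v3, v4} : Set Q) := by simp
  have m4 : v4 ∈ ({v1, v2, v3, v4} : Set Q) := by simp
  have p12 := pair_one s hs hc h2 (hS v1 m1 v2 m2) hk1 hk2
  have p13 := pair_one s hs hc h2 (hS v1 m1 v3 m3) hg1 hg3
  have p14 := pair_one s hs hc h2 (hS v1 m1 v4 m4) hg1 hg4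
  have p23 := pair_one s hs hc h2 (hS v2 m2 v3 m3) hg2 hg3
  have p24 := pair_one s hs hc h2 (hS v2 m2 v4 m4) hg2 hg4
  have p34 := pair_one s hs hc h2 (hS v3 m3 v4 m4) hk3 hk4
  have h3 := closure_comm s hs hc {v1, v2, v3, v4} (by
    rintro x (rfl | rfl | rfl | rfl) y (rfl | rfl | rfl | rfl)
    · rfl
    · exact p12
    · exact p13
    · exact p14
    · exact p12.symm
    · rfl
    · exact p23
    · exact p24
    · exact p13.symm
    · exact p23.symm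
    · rfl
    · exact p34
    · exact p14.symm
    · exact p24.symm
    · exact p34.symm
    · rfl)
  intro x hx y hy
  have h4 : ⁅x, y⁆ ∈ ⁅(closure {v1, v2, v3, v4}).comap σ, (closure {v1, v2, v3, v4}).comap σ⁆ :=
    Subgroup.commutator_mem_commutator hx hy
  rw [h3, Subgroup.mem_bot] at h4
  exact commutatorElement_eq_one_iff_mul_comm.1 h4

theorem conj_closure {u : Q} {S : Set Q} (h : ∀ x ∈ S, u * x * u⁻¹ ∈ closure S) :
    ∀ x ∈ closure S, u * x * u⁻¹ ∈ closure S := by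
  intro x hx
  have h1 : closure S ≤ (closure S).comap (MulAut.conj u).toMonoidHom := (closure_le _).2 (fun u hu => h u hu)
  exact h1 hx

theorem NN_closure {u : Q} {S : Set Q} (hS : ∀ x ∈ S, ∀ y ∈ S, x * y = y * x)
    (h : ∀ x ∈ S, u * x * u⁻¹ ∈ closure S) (hN : ∀ x ∈ S, NN u x = 1) : ∀ x ∈ closure S, NN u x = 1 := by
  intro x hx
  have hcm := comm_closure hS
  have hcj := conj_closure h
  induction hx using Subgroup.closure_induction with
  | mem x hx => exact hN x hx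
  | one => simp [NN]
  | mul a b ha hb iha ihb => rw [NN_mul hcm hcj ha hb, iha, ihb, one_mul]
  | inv a ha iha =>
    have h3 := NN_mul hcm hcj ha (inv_mem ha)
    rw [mul_inv_cancel, iha, one_mul] at h3
    rw [← h3]
    simp [NN]

theorem good_lift {u : Q} {S : Set Q} (hS : ∀ x ∈ S, ∀ y ∈ S, x * y = y * x)
    (h : ∀ x ∈ S, u * x * u⁻¹ ∈ closure S) (hN : ∀ x ∈ S, NN u x = 1) {x : Γ} (hx : σ x = u) :
    GoodN σ ((closure S).comap σ) x := by
  constructor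
  · intro y hy
    rw [Subgroup.mem_comap, map_mul, map_mul, map_inv, hx]
    exact conj_closure h _ hy
  · intro y hy
    rw [MonoidHom.mem_ker, map_NN, hx]
    exact NN_closure hS h hN _ hy

theorem norm_lift [Finite Γ] {u : Q} {S : Set Q} (h : ∀ x ∈ S, u * x * u⁻¹ ∈ closure S) {x : Γ} (hx : σ x = u) :
    x ∈ normalizer (((closure S).comap σ : Subgroup Γ) : Set Γ) := by
  refine mem_norm_of_le ?_
  intro y hy
  rw [Subgroup.mem_comap, map_mul, map_mul, map_inv, hx]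
  exact conj_closure h _ hy

theorem sq_lift (hc : σ.ker ≤ center Γ) (h2 : ∀ z ∈ σ.ker, z * z = 1) {V : Subgroup Q}
    (hW : ∀ x ∈ V.comap σ, ∀ y ∈ V.comap σ, x * y = y * x) (hV : ∀ v ∈ V, v * v = 1) {t : Γ}
    (ht : GoodN σ (V.comap σ) t) {x : Γ} (hx : x ∈ V.comap σ) : x * x = 1 := by
  have h3 : x * x ∈ σ.ker := by
    rw [MonoidHom.mem_ker, map_mul]
    exact hV _ hx
  have h4 := NN_mul hW ht.1 hx hx
  rw [NN_ker hc h2 t h3, h2 _ (ht.2 x hx)] at h4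
  exact h4

theorem L_lift (hc : σ.ker ≤ center Γ) (h2 : ∀ z ∈ σ.ker, z * z = 1) (hsur : Function.Surjective σ) {V : Subgroup Q}
    (hW : ∀ x ∈ V.comap σ, ∀ y ∈ V.comap σ, x * y = y * x) (hV : ∀ v ∈ V, v * v = 1) {t : Γ}
    (ht : GoodN σ (V.comap σ) t) {u : Q} (hu : ∃ h : Q, h * u * h⁻¹ ∈ V) {x : Γ} (hx : σ x = u) : x * x = 1 := by
  obtain ⟨h, hh⟩ := hu
  obtain ⟨H, hH⟩ := hsur h
  have h3 : H * x * H⁻¹ ∈ V.comap σ := by
    rw [Subgroup.mem_comap, map_mul, map_mul, map_inv, hH, hx]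
    exact hh
  have h4 := sq_lift hc h2 hW hV ht h3
  have e : x * x = H⁻¹ * ((H * x * H⁻¹) * (H * x * H⁻¹)) * H := by group
  rw [e, h4]; group

theorem closure_sq {S : Set Q} (hS : ∀ x ∈ S, ∀ y ∈ S, x * y = y * x) (hq : ∀ x ∈ S, x * x = 1) :
    ∀ v ∈ closure S, v * v = 1 := by
  intro x hx
  have hcm := comm_closure hS
  induction hx using Subgroup.closure_induction with
  | mem x hx => exact hq x hx
  | one => simp
  | mul a b ha hb iha ihb =>
    calc a * b * (a * b) = a * (b * a) * b := by group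
      _ = a * (a * b) * b := by rw [hcm b hb a ha]
      _ = (a * a) * (b * b) := by group
      _ = 1 := by rw [iha, ihb, one_mul]
  | inv a ha iha => rw [← mul_inv_rev, iha, inv_one]

/-- commuting of two involutions with involutory product. -/
theorem comm_of_sq {x y : Γ} (hx : x * x = 1) (hy : y * y = 1) (hxy : (x * y) * (x * y) = 1) : x * y = y * x := by
  have h1 : x⁻¹ = x := inv_eq_of_mul_eq_one_right hx
  have h2 : y⁻¹ = y := inv_eq_of_mul_eq_one_right hy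
  have h3 : (x * y)⁻¹ = x * y := inv_eq_of_mul_eq_one_right hxy
  rw [mul_inv_rev, h1, h2] at h3
  exact h3.symm

theorem m24_two [Finite Γ] (hσ : Cfsg.IsStemExtension σ) (hcard : Nat.card σ.ker = 2)
    {v1 v2 v3 v4 g g2 t t' a b c : Q}
    (hS : ∀ x ∈ ({v1, v2, v3, v4} : Set Q), ∀ y ∈ ({v1, v2, v3, v4} : Set Q), x * y = y * x)
    (hq : ∀ x ∈ ({v1, v2, v3, v4} : Set Q), x * x = 1)
    (hg1 : g * v1 = v1 * g) (hg2 : g * v2 = v2 * g) (hg3 : NN g v3 = 1) (hg4 : NN g v4 = 1)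
    (hk1 : g2 * v1 = v1 * g2) (hk3 : g2 * v3 = v3 * g2) (hk2 : NN g2 v2 = 1) (hk4 : NN g2 v4 = 1)
    (nt : ∀ x ∈ ({v1, v2, v3, v4} : Set Q), t * x * t⁻¹ ∈ closure {v1, v2, v3, v4})
    (Nt : ∀ x ∈ ({v1, v2, v3, v4} : Set Q), NN t x = 1)
    (nt' : ∀ x ∈ ({v1, v2, v3, v4} : Set Q), t' * x * t'⁻¹ ∈ closure {v1, v2, v3, v4})
    (Nt' : ∀ x ∈ ({v1, v2, v3, v4} : Set Q), NN t' x = 1)
    (na : ∀ x ∈ ({v1, v2, v3, v4} : Set Q), a * x * a⁻¹ ∈ closure {v1, v2, v3, v4})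
    (nb : ∀ x ∈ ({v1, v2, v3, v4} : Set Q), b * x * b⁻¹ ∈ closure {v1, v2, v3, v4})
    (nc : ∀ x ∈ ({v1, v2, v3, v4} : Set Q), c * x * c⁻¹ ∈ closure {v1, v2, v3, v4})
    (ca : t * (a * t * a⁻¹) = (a * t * a⁻¹) * t) (cc : t * (c * t * c⁻¹) = (c * t * c⁻¹) * t)
    (ct' : t' * t = t * t') (cb : t' * (b * t * b⁻¹) = (b * t * b⁻¹) * t')
    (La : ∃ h, h * a * h⁻¹ ∈ closure {v1, v2, v3, v4}) (Lb : ∃ h, h * b * h⁻¹ ∈ closure {v1, v2, v3, v4})
    (Lc : ∃ h, h * c * h⁻¹ ∈ closure {v1, v2, v3, v4}) (Lac : ∃ h, h * (a * c) * h⁻¹ ∈ closure {v1, v2, v3, v4})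
    {x1 x2 x3 : Q} (hx1 : x1 = ⁅a, b⁆) (hx2 : x2 = ⁅c, b⁆) (hx3 : x3 = ⁅a, x2⁆)
    (L1 : ∃ h, h * x1 * h⁻¹ ∈ closure {v1, v2, v3, v4}) (L2 : ∃ h, h * x2 * h⁻¹ ∈ closure {v1, v2, v3, v4})
    (L3 : ∃ h, h * x3 * h⁻¹ ∈ closure {v1, v2, v3, v4})
    (Lb1 : ∃ h, h * (b * x1) * h⁻¹ ∈ closure {v1, v2, v3, v4}) (Lb2 : ∃ h, h * (b * x2) * h⁻¹ ∈ closure {v1, v2, v3, v4})
    (Lb3 : ∃ h, h * (b * x3) * h⁻¹ ∈ closure {v1, v2, v3, v4}) (L12 : ∃ h, h * (x1 * x2) * h⁻¹ ∈ closure {v1, v2, v3, v4})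
    (L13 : ∃ h, h * (x1 * x3) * h⁻¹ ∈ closure {v1, v2, v3, v4}) (L23 : ∃ h, h * (x2 * x3) * h⁻¹ ∈ closure {v1, v2, v3, v4})
    (hUV : ∀ i j k l : Fin 2, b ^ (i : ℕ) * (x1 ^ (j : ℕ) * (x2 ^ (k : ℕ) * x3 ^ (l : ℕ))) ∈ closure {v1, v2, v3, v4} →
      i = 0 ∧ j = 0 ∧ k = 0 ∧ l = 0)
    (hi : ¬ 2 ∣ (closure {v1, v2, v3, v4} ⊔ closure {a, b, c}).index) : False := by
  have hc := hσ.2.1
  have h2 : ∀ z ∈ σ.ker, z * z = 1 := by
    intro z hz
    have := pow_ker hz hcard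
    rwa [sq] at this
  have hW := base_comm hc h2 hσ.1 hS hg1 hg2 hg3 hg4 hk1 hk3 hk2 hk4
  have hV := closure_sq hS hq
  obtain ⟨T, hT⟩ := hσ.1 t
  obtain ⟨T', hT'⟩ := hσ.1 t'
  obtain ⟨A, hA⟩ := hσ.1 a
  obtain ⟨B, hB⟩ := hσ.1 b
  obtain ⟨C, hC⟩ := hσ.1 c
  have gT := good_lift (σ := σ) hS nt Nt hT
  have gT' := good_lift (σ := σ) hS nt' Nt' hT'
  have LL : ∀ {u : Q}, (∃ h : Q, h * u * h⁻¹ ∈ closure {v1, v2, v3, v4}) → ∀ {x : Γ}, σ x = u → x * x = 1 :=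
    fun hu x hx => L_lift hc h2 hσ.1 hW hV gT hu hx
  obtain ⟨B1, hB1⟩ : ∃ B1, B1 = ⁅A, B⁆ := ⟨_, rfl⟩
  obtain ⟨B2, hB2⟩ : ∃ B2, B2 = ⁅C, B⁆ := ⟨_, rfl⟩
  obtain ⟨B3, hB3⟩ : ∃ B3, B3 = ⁅A, B2⁆ := ⟨_, rfl⟩
  have s1 : σ B1 = x1 := by rw [hB1, map_commutatorElement, hA, hB, hx1]
  have s2 : σ B2 = x2 := by rw [hB2, map_commutatorElement, hC, hB, hx2]
  have s3 : σ B3 = x3 := by rw [hB3, map_commutatorElement, hA, s2, hx3]
  have qA : A * A = 1 := LL La hA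
  have qB : B * B = 1 := LL Lb hB
  have qC : C * C = 1 := LL Lc hC
  have q1 : B1 * B1 = 1 := LL L1 s1
  have q2 : B2 * B2 = 1 := LL L2 s2
  have q3 : B3 * B3 = 1 := LL L3 s3
  have cAC : A * C = C * A := comm_of_sq qA qC (LL Lac (by rw [map_mul, hA, hC]))
  have cB1 : B * B1 = B1 * B := comm_of_sq qB q1 (LL Lb1 (by rw [map_mul, hB, s1]))
  have cB2 : B * B2 = B2 * B := comm_of_sq qB q2 (LL Lb2 (by rw [map_mul, hB, s2]))
  have cB3 : B * B3 = B3 * B := comm_of_sq qB q3 (LL Lb3 (by rw [map_mul, hB, s3]))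
  have c12 : B1 * B2 = B2 * B1 := comm_of_sq q1 q2 (LL L12 (by rw [map_mul, s1, s2]))
  have c13 : B1 * B3 = B3 * B1 := comm_of_sq q1 q3 (LL L13 (by rw [map_mul, s1, s3]))
  have c23 : B2 * B3 = B3 * B2 := comm_of_sq q2 q3 (LL L23 (by rw [map_mul, s2, s3]))
  have Ai : A⁻¹ = A := inv_eq_of_mul_eq_one_right qA
  have Ci : C⁻¹ = C := inv_eq_of_mul_eq_one_right qC
  have mB : B ∈ closure ({B, B1, B2, B3} : Set Γ) := subset_closure (by simp)
  have m1 : B1 ∈ closure ({B, B1, B2, B3} : Set Γ) := subset_closure (by simp)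
  have m2 : B2 ∈ closure ({B, B1, B2, B3} : Set Γ) := subset_closure (by simp)
  have m3 : B3 ∈ closure ({B, B1, B2, B3} : Set Γ) := subset_closure (by simp)
  have eAB : A * B * A⁻¹ = B1 * B := by rw [hB1, commutatorElement_def]; group
  have eAB2 : A * B2 * A⁻¹ = B3 * B2 := by rw [hB3, commutatorElement_def]; group
  have eCB : C * B * C⁻¹ = B2 * B := by rw [hB2, commutatorElement_def]; group
  have eAB1 : A * B1 * A⁻¹ = B1⁻¹ := by
    have : A * B1 * A⁻¹ = A * (A * B * A⁻¹ * B⁻¹) * A⁻¹ := by rw [hB1, commutatorElement_def]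
    rw [this, hB1, commutatorElement_def]
    calc A * (A * B * A⁻¹ * B⁻¹) * A⁻¹ = (A * A) * B * A⁻¹ * B⁻¹ * A⁻¹ := by group
      _ = B * A⁻¹ * B⁻¹ * A⁻¹ := by rw [qA, one_mul]
      _ = B * A * B⁻¹ * A⁻¹ := by rw [Ai]
      _ = (A * B * A⁻¹ * B⁻¹)⁻¹ := by group
  have eAB3 : A * B3 * A⁻¹ = B3⁻¹ := by
    have : A * B3 * A⁻¹ = A * (A * B2 * A⁻¹ * B2⁻¹) * A⁻¹ := by rw [hB3, commutatorElement_def]
    rw [this, hB3, commutatorElement_def]
    calc A * (A * B2 * A⁻¹ * B2⁻¹) * A⁻¹ = (A * A) * B2 * A⁻¹ * B2⁻¹ * A⁻¹ := by group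
      _ = B2 * A⁻¹ * B2⁻¹ * A⁻¹ := by rw [qA, one_mul]
      _ = B2 * A * B2⁻¹ * A⁻¹ := by rw [Ai]
      _ = (A * B2 * A⁻¹ * B2⁻¹)⁻¹ := by group
  have eCA : C * A * C⁻¹ = A := by rw [← cAC, mul_inv_cancel_right]
  have eCB1 : C * B1 * C⁻¹ = B3 * B2 * B1 * B2⁻¹ := by
    calc C * B1 * C⁻¹ = (C * A * C⁻¹) * (C * B * C⁻¹) * (C * A * C⁻¹)⁻¹ * (C * B * C⁻¹)⁻¹ := by
          rw [hB1, commutatorElement_def]; group
      _ = A * (B2 * B) * A⁻¹ * (B2 * B)⁻¹ := by rw [eCA, eCB]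
      _ = (A * B2 * A⁻¹) * (A * B * A⁻¹) * (B2 * B)⁻¹ := by group
      _ = (B3 * B2) * (B1 * B) * (B2 * B)⁻¹ := by rw [eAB2, eAB]
      _ = B3 * B2 * B1 * B2⁻¹ := by group
  have eCB2 : C * B2 * C⁻¹ = B2⁻¹ := by
    have : C * B2 * C⁻¹ = C * (C * B * C⁻¹ * B⁻¹) * C⁻¹ := by rw [hB2, commutatorElement_def]
    rw [this, hB2, commutatorElement_def]
    calc C * (C * B * C⁻¹ * B⁻¹) * C⁻¹ = (C * C) * B * C⁻¹ * B⁻¹ * C⁻¹ := by group
      _ = B * C⁻¹ * B⁻¹ * C⁻¹ := by rw [qC, one_mul]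
      _ = B * C * B⁻¹ * C⁻¹ := by rw [Ci]
      _ = (C * B * C⁻¹ * B⁻¹)⁻¹ := by group
  have eCB3 : C * B3 * C⁻¹ = (A * B2 * A⁻¹)⁻¹ * B2 := by
    calc C * B3 * C⁻¹ = (C * A * C⁻¹) * (C * B2 * C⁻¹) * (C * A * C⁻¹)⁻¹ * (C * B2 * C⁻¹)⁻¹ := by
          rw [hB3, commutatorElement_def]; group
      _ = A * B2⁻¹ * A⁻¹ * B2⁻¹⁻¹ := by rw [eCA, eCB2]
      _ = (A * B2 * A⁻¹)⁻¹ * B2 := by group
  have mA' : A ∈ closure ({A, B, C} : Set Γ) := subset_closure (by simp)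
  have mB' : B ∈ closure ({A, B, C} : Set Γ) := subset_closure (by simp)
  have mC' : C ∈ closure ({A, B, C} : Set Γ) := subset_closure (by simp)
  have hcommm : ∀ {x y : Γ}, x ∈ closure ({A, B, C} : Set Γ) → y ∈ closure ({A, B, C} : Set Γ) →
      ⁅x, y⁆ ∈ closure ({A, B, C} : Set Γ) := by
    intro x y hx hy
    rw [commutatorElement_def]
    exact mul_mem (mul_mem (mul_mem hx hy) (inv_mem hx)) (inv_mem hy)
  refine final_step hσ hcard hW gT {A, B, C} ?_ ?_ {B, B1, B2, B3} ?_ ?_ ?_ ?_ ?_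
  · rintro s (rfl | rfl | rfl)
    · exact norm_lift na hA
    · exact norm_lift nb hB
    · exact norm_lift nc hC
  · rintro s (rfl | rfl | rfl) x hx
    · exact NN_inv hc h2 hW (ker_le_comap _) (norm_lift na hA) gT gT rfl
        (by rw [map_mul, map_mul, map_inv, hA, hT]; exact ca) hx
    · exact NN_inv hc h2 hW (ker_le_comap _) (norm_lift nb hB) gT gT' (by rw [hT', hT]; exact ct')
        (by rw [map_mul, map_mul, map_inv, hB, hT, hT']; exact cb) hx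
    · exact NN_inv hc h2 hW (ker_le_comap _) (norm_lift nc hC) gT gT rfl
        (by rw [map_mul, map_mul, map_inv, hC, hT]; exact cc) hx
  · have hb2 : B2 ∈ closure ({A, B, C} : Set Γ) := by rw [hB2]; exact hcommm mC' mB'
    rintro u (rfl | rfl | rfl | rfl)
    · exact mB'
    · rw [hB1]; exact hcommm mA' mB'
    · exact hb2
    · rw [hB3]; exact hcommm mA' hb2
  · intro u hu huV
    have key : ∀ i j k l : Fin 2, u = B ^ (i : ℕ) * (B1 ^ (j : ℕ) * (B2 ^ (k : ℕ) * B3 ^ (l : ℕ))) → u = 1 := by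
      intro i j k l h
      rw [h, map_mul, map_mul, map_mul, map_pow, map_pow, map_pow, map_pow, hB, s1, s2, s3] at huV
      obtain ⟨rfl, rfl, rfl, rfl⟩ := hUV i j k l huV
      rw [h]; simp
    have d0 := closure_insert_inv qB (T := {B1, B2, B3}) (by
      rintro u (rfl | rfl | rfl)
      · exact cB1
      · exact cB2
      · exact cB3) hu
    have d1 : ∀ w ∈ closure ({B1, B2, B3} : Set Γ), ∃ j k l : Fin 2, w = B1 ^ (j : ℕ) * (B2 ^ (k : ℕ) * B3 ^ (l : ℕ)) := by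
      intro w hw
      have e1 := closure_insert_inv q1 (T := {B2, B3}) (by
        rintro u (rfl | rfl)
        · exact c12
        · exact c13) hw
      have d2 : ∀ w ∈ closure ({B2, B3} : Set Γ), ∃ k l : Fin 2, w = (B2 ^ (k : ℕ) * B3 ^ (l : ℕ)) := by
        intro w hw
        have e2 := closure_insert_inv q2 (T := {B3}) (by
          rintro u rfl
          exact c23) hw
        have d3 : ∀ w ∈ closure ({B3} : Set Γ), ∃ l : Fin 2, w = B3 ^ (l : ℕ) := by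
          intro w hw
          have hw' : w ∈ closure (insert B3 (∅ : Set Γ)) := by
            rw [insert_empty_eq]; exact hw
          rcases closure_insert_inv q3 (T := ∅) (by simp) hw' with h | ⟨u, h, rfl⟩
          · rw [Subgroup.closure_empty, Subgroup.mem_bot] at h
            exact ⟨0, by rw [h]; simp⟩
          · rw [Subgroup.closure_empty, Subgroup.mem_bot] at h
            exact ⟨1, by rw [h]; simp⟩
        rcases e2 with h | ⟨u, h, rfl⟩
        · obtain ⟨l, rfl⟩ := d3 _ h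
          exact ⟨0, l, by simp⟩
        · obtain ⟨l, rfl⟩ := d3 _ h
          exact ⟨1, l, by simp⟩
      rcases e1 with h | ⟨u, h, rfl⟩
      · obtain ⟨k, l, rfl⟩ := d2 _ h
        exact ⟨0, k, l, by simp⟩
      · obtain ⟨k, l, rfl⟩ := d2 _ h
        exact ⟨1, k, l, by simp⟩
    rcases d0 with h | ⟨w, h, hw⟩
    · obtain ⟨j, k, l, hh⟩ := d1 _ h
      exact key 0 j k l (by rw [hh]; simp)
    · obtain ⟨j, k, l, hh⟩ := d1 _ h
      exact key 1 j k l (by rw [hw, hh]; simp)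
  · rintro s (rfl | rfl | rfl) u (rfl | rfl | rfl | rfl)
    · rw [eAB]; exact mul_mem m1 mB
    · rw [eAB1]; exact inv_mem m1
    · rw [eAB2]; exact mul_mem m3 m2
    · rw [eAB3]; exact inv_mem m3
    · rw [mul_inv_cancel_right]; exact mB
    · rw [cB1, mul_inv_cancel_right]; exact m1
    · rw [cB2, mul_inv_cancel_right]; exact m2
    · rw [cB3, mul_inv_cancel_right]; exact m3
    · rw [eCB]; exact mul_mem m2 mB
    · rw [eCB1]; exact mul_mem (mul_mem (mul_mem m3 m2) m1) (inv_mem m2)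
    · rw [eCB2]; exact inv_mem m2
    · rw [eCB3, eAB2]; exact mul_mem (inv_mem (mul_mem m3 m2)) m2
  · rintro s (rfl | rfl | rfl) s' (rfl | rfl | rfl)
    · rw [commutatorElement_self]; exact one_mem _
    · rw [← hB1]; exact m1
    · rw [commutatorElement_eq_one_iff_mul_comm.2 cAC]; exact one_mem _
    · rw [← commutatorElement_inv, ← hB1]; exact inv_mem m1
    · rw [commutatorElement_self]; exact one_mem _
    · rw [← commutatorElement_inv, ← hB2]; exact inv_mem m2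
    · rw [commutatorElement_eq_one_iff_mul_comm.2 cAC.symm]; exact one_mem _
    · rw [← hB2]; exact m2
    · rw [commutatorElement_self]; exact one_mem _
  · have e : (closure ({A, B, C} : Set Γ)).map σ = closure {a, b, c} := by
      rw [MonoidHom.map_closure]
      congr 1
      rw [Set.image_insert_eq, Set.image_insert_eq, Set.image_singleton, hA, hB, hC]
    rw [e]; exact hi

theorem m23_two [Finite Γ] (hσ : Cfsg.IsStemExtension σ) (hcard : Nat.card σ.ker = 2)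
    {v1 v2 v3 v4 g g2 t a c : Q}
    (hS : ∀ x ∈ ({v1, v2, v3, v4} : Set Q), ∀ y ∈ ({v1, v2, v3, v4} : Set Q), x * y = y * x)
    (hq : ∀ x ∈ ({v1, v2, v3, v4} : Set Q), x * x = 1)
    (hg1 : g * v1 = v1 * g) (hg2 : g * v2 = v2 * g) (hg3 : NN g v3 = 1) (hg4 : NN g v4 = 1)
    (hk1 : g2 * v1 = v1 * g2) (hk3 : g2 * v3 = v3 * g2) (hk2 : NN g2 v2 = 1) (hk4 : NN g2 v4 = 1)
    (nt : ∀ x ∈ ({v1, v2, v3, v4} : Set Q), t * x * t⁻¹ ∈ closure {v1, v2, v3, v4})
    (Nt : ∀ x ∈ ({v1, v2, v3, v4} : Set Q), NN t x = 1)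
    (na : ∀ x ∈ ({v1, v2, v3, v4} : Set Q), a * x * a⁻¹ ∈ closure {v1, v2, v3, v4})
    (nc : ∀ x ∈ ({v1, v2, v3, v4} : Set Q), c * x * c⁻¹ ∈ closure {v1, v2, v3, v4})
    (ca : t * (a * t * a⁻¹) = (a * t * a⁻¹) * t) (cc : t * (c * t * c⁻¹) = (c * t * c⁻¹) * t)
    (hac : a * c * a⁻¹ = c⁻¹) (L2 : ∃ h, h * (c * c) * h⁻¹ ∈ closure {v1, v2, v3, v4})
    (hUV : c * c ∉ closure {v1, v2, v3, v4})
    (hi : ¬ 2 ∣ (closure {v1, v2, v3, v4} ⊔ closure {a, c}).index) : False := by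
  have hc := hσ.2.1
  have h2 : ∀ z ∈ σ.ker, z * z = 1 := by
    intro z hz
    have := pow_ker hz hcard
    rwa [sq] at this
  have hW := base_comm hc h2 hσ.1 hS hg1 hg2 hg3 hg4 hk1 hk3 hk2 hk4
  have hV := closure_sq hS hq
  obtain ⟨T, hT⟩ := hσ.1 t
  obtain ⟨A, hA⟩ := hσ.1 a
  obtain ⟨C, hC⟩ := hσ.1 c
  have gT := good_lift (σ := σ) hS nt Nt hT
  have LL : ∀ {u : Q}, (∃ h : Q, h * u * h⁻¹ ∈ closure {v1, v2, v3, v4}) → ∀ {x : Γ}, σ x = u → x * x = 1 :=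
    fun hu x hx => L_lift hc h2 hσ.1 hW hV gT hu hx
  obtain ⟨k, hk, hACk⟩ : ∃ k ∈ σ.ker, A * C * A⁻¹ = C⁻¹ * k := by
    refine ⟨C * (A * C * A⁻¹), ?_, by group⟩
    rw [MonoidHom.mem_ker, map_mul, map_mul, map_mul, map_inv, hA, hC, hac, mul_inv_cancel]
  have hkc := fun g => Subgroup.mem_center_iff.1 (hc hk) g
  have hk2' : k * k = 1 := h2 k hk
  have C4 : (C * C) * (C * C) = 1 := LL L2 (by rw [map_mul, hC])
  have C4' : C⁻¹ * C⁻¹ = C * C := by
    have : (C * C)⁻¹ = C * C := inv_eq_of_mul_eq_one_right C4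
    rwa [mul_inv_rev] at this
  obtain ⟨D, hD⟩ : ∃ D, D = ⁅A, C⁆ := ⟨_, rfl⟩
  have hD' : D = C * C * k := by
    rw [hD, commutatorElement_def, hACk]
    calc C⁻¹ * k * C⁻¹ = C⁻¹ * (k * C⁻¹) := by group
      _ = C⁻¹ * (C⁻¹ * k) := by rw [hkc C⁻¹]
      _ = (C⁻¹ * C⁻¹) * k := by group
      _ = C * C * k := by rw [C4']
  have sD : σ D = c * c := by
    rw [hD', map_mul, map_mul, hC, MonoidHom.mem_ker.1 hk, mul_one]
  have hDD : D * D = 1 := LL L2 sD
  have hCD : C * D * C⁻¹ = D := by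
    rw [hD']
    calc C * (C * C * k) * C⁻¹ = C * C * (C * k) * C⁻¹ := by group
      _ = C * C * (k * C) * C⁻¹ := by rw [hkc C]
      _ = C * C * k := by group
  have hAD : A * D * A⁻¹ = D := by
    have e1 : A * D * A⁻¹ = (A * C * A⁻¹) * (A * C * A⁻¹) * k := by
      rw [hD']
      calc A * (C * C * k) * A⁻¹ = A * C * C * (k * A⁻¹) := by group
        _ = A * C * C * (A⁻¹ * k) := by rw [hkc A⁻¹]
        _ = (A * C * A⁻¹) * (A * C * A⁻¹) * k := by group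
    rw [e1, hACk, hD']
    calc C⁻¹ * k * (C⁻¹ * k) * k = C⁻¹ * (k * C⁻¹) * (k * k) := by group
      _ = C⁻¹ * (C⁻¹ * k) * 1 := by rw [hkc C⁻¹, hk2']
      _ = (C⁻¹ * C⁻¹) * k := by group
      _ = C * C * k := by rw [C4']
  have mD : D ∈ closure ({D} : Set Γ) := subset_closure rfl
  refine final_step hσ hcard hW gT {A, C} ?_ ?_ {D} ?_ ?_ ?_ ?_ ?_
  · rintro s (rfl | rfl)
    · exact norm_lift na hA
    · exact norm_lift nc hC
  · rintro s (rfl | rfl) x hx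
    · exact NN_inv hc h2 hW (ker_le_comap _) (norm_lift na hA) gT gT rfl
        (by rw [map_mul, map_mul, map_inv, hA, hT]; exact ca) hx
    · exact NN_inv hc h2 hW (ker_le_comap _) (norm_lift nc hC) gT gT rfl
        (by rw [map_mul, map_mul, map_inv, hC, hT]; exact cc) hx
  · rintro u rfl
    have mA' : A ∈ closure ({A, C} : Set Γ) := subset_closure (by simp)
    have mC' : C ∈ closure ({A, C} : Set Γ) := subset_closure (by simp)
    rw [hD, commutatorElement_def]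
    exact mul_mem (mul_mem (mul_mem mA' mC') (inv_mem mA')) (inv_mem mC')
  · intro u hu huV
    have hu' : u ∈ closure (insert D (∅ : Set Γ)) := by
      rw [insert_empty_eq]; exact hu
    rcases closure_insert_inv hDD (T := ∅) (by simp) hu' with h | ⟨w, h, rfl⟩
    · rw [Subgroup.closure_empty, Subgroup.mem_bot] at h
      exact h
    · rw [Subgroup.closure_empty, Subgroup.mem_bot] at h
      rw [h, mul_one, sD] at huV
      exact absurd huV hUV
  · rintro s (rfl | rfl) u rfl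
    · rw [hAD]; exact mD
    · rw [hCD]; exact mD
  · rintro s (rfl | rfl) s' (rfl | rfl)
    · rw [commutatorElement_self]; exact one_mem _
    · rw [← hD]; exact mD
    · rw [← commutatorElement_inv, ← hD]; exact inv_mem mD
    · rw [commutatorElement_self]; exact one_mem _
  · have e : (closure ({A, C} : Set Γ)).map σ = closure {a, c} := by
      rw [MonoidHom.map_closure]
      congr 1
      rw [Set.image_insert_eq, Set.image_singleton, hA, hC]
    rw [e]; exact hi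

end

end CfsgLib.H7Mult
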