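import Mathlib
import Cfsg.Agent.Lib.H7Mult4

set_option autoImplicit false
set_option linter.style.haveILetI false

/-! Orders of the `2`-groups and the extraspecial case. -/

namespace CfsgLib.H7Mult

open Subgroup
open scoped commutatorElement

universe u

theorem sq_mem_of_gens {G : Type*} [Group G] {M : Subgroup G} {S : Set G}
    (hN : ∀ s ∈ S, s ∈ normalizer (M : Set G)) (hc : ∀ s ∈ S, ∀ t ∈ S, ⁅s, t⁆ ∈ M)
    (hq : ∀ s ∈ S, s * s ∈ M) : ∀ g ∈ closure S, g * g ∈ M := by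
  have hNc : ∀ x ∈ closure S, x ∈ normalizer (M : Set G) := by
    intro x hx
    exact (closure_le _).2 hN hx
  have hcj : ∀ x ∈ closure S, ∀ m ∈ M, x * m * x⁻¹ ∈ M := fun x hx m hm =>
    (Subgroup.mem_normalizer_iff.1 (hNc x hx) m).1 hm
  have hle := comm_le_of_gens hN hc
  intro g hg
  induction hg using Subgroup.closure_induction with
  | mem x hx => exact hq x hx
  | one => rw [one_mul]; exact one_mem _
  | mul a b ha hb iha ihb =>
    have h1 : ⁅b, a⁆ ∈ M := hle (Subgroup.commutator_mem_commutator hb ha)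
    have e : a * b * (a * b) = (a * ⁅b, a⁆ * a⁻¹) * (a * a) * (b * b) := by
      simp only [commutatorElement_def]; group
    rw [e]
    exact mul_mem (mul_mem (hcj a ha _ h1) iha) ihb
  | inv a ha iha =>
    rw [← mul_inv_rev]
    exact inv_mem iha

theorem isPGroup_of_sq {G : Type*} [Group G] {V M P : Subgroup G} (hV : ∀ v ∈ V, v * v = 1)
    (hM : ∀ m ∈ M, m * m ∈ V) (hP : ∀ g ∈ P, g * g ∈ M) : IsPGroup 2 P := by
  rintro ⟨g, hg⟩
  refine ⟨3, Subtype.ext ?_⟩
  change g ^ (2 ^ 3) = 1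
  have h1 := hV _ (hM _ (hP g hg))
  rw [show (2 : ℕ) ^ 3 = 2 * 2 * 2 by norm_num, pow_mul, pow_mul, sq, sq, sq]
  exact h1

/-- a `2`-group with at least `2 ^ k` elements, `2 ^ k` the `2`-part of the order, has odd index. -/
theorem odd_index {Q : Type*} [Group Q] [Finite Q] {P : Subgroup Q} {k : ℕ} (hP : IsPGroup 2 P)
    (h : 2 ^ k ≤ Nat.card P) (hn : ¬ 2 ^ (k + 1) ∣ Nat.card Q) : ¬ 2 ∣ P.index := by
  refine not_dvd_index_of (k := k) ?_ hn
  haveI : Fact (Nat.Prime 2) := ⟨Nat.prime_two⟩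
  obtain ⟨n, hn'⟩ := IsPGroup.iff_card.1 hP
  rw [hn'] at h ⊢
  exact pow_dvd_pow 2 ((Nat.pow_le_pow_iff_right (by norm_num)).1 h)

section

variable {Q : Type*} [Group Q]

theorem sq_of_conj {V : Subgroup Q} (hV : ∀ v ∈ V, v * v = 1) {u : Q} (hu : ∃ h : Q, h * u * h⁻¹ ∈ V) : u * u = 1 := by
  obtain ⟨h, hh⟩ := hu
  have h4 := hV _ hh
  have e : u * u = h⁻¹ * ((h * u * h⁻¹) * (h * u * h⁻¹)) * h := by group
  rw [e, h4]; group

theorem conj_gen_norm [Finite Q] {S : Set Q} {u : Q} (h : ∀ x ∈ S, u * x * u⁻¹ ∈ closure S) :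
    u ∈ normalizer (closure S : Set Q) := mem_norm_of_le (conj_closure h)

theorem m24_pgroup [Finite Q] {v1 v2 v3 v4 a b c : Q}
    (hS : ∀ x ∈ ({v1, v2, v3, v4} : Set Q), ∀ y ∈ ({v1, v2, v3, v4} : Set Q), x * y = y * x)
    (hq : ∀ x ∈ ({v1, v2, v3, v4} : Set Q), x * x = 1)
    (na : ∀ x ∈ ({v1, v2, v3, v4} : Set Q), a * x * a⁻¹ ∈ closure {v1, v2, v3, v4})
    (nb : ∀ x ∈ ({v1, v2, v3, v4} : Set Q), b * x * b⁻¹ ∈ closure {v1, v2, v3, v4})
    (nc : ∀ x ∈ ({v1, v2, v3, v4} : Set Q), c * x * c⁻¹ ∈ closure {v1, v2, v3, v4})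
    (La : ∃ h, h * a * h⁻¹ ∈ closure {v1, v2, v3, v4}) (Lb : ∃ h, h * b * h⁻¹ ∈ closure {v1, v2, v3, v4})
    (Lc : ∃ h, h * c * h⁻¹ ∈ closure {v1, v2, v3, v4}) (Lac : ∃ h, h * (a * c) * h⁻¹ ∈ closure {v1, v2, v3, v4})
    {x1 x2 x3 : Q} (hx1 : x1 = ⁅a, b⁆) (hx2 : x2 = ⁅c, b⁆) (hx3 : x3 = ⁅a, x2⁆)
    (L1 : ∃ h, h * x1 * h⁻¹ ∈ closure {v1, v2, v3, v4}) (L2 : ∃ h, h * x2 * h⁻¹ ∈ closure {v1, v2, v3, v4})
    (L3 : ∃ h, h * x3 * h⁻¹ ∈ closure {v1, v2, v3, v4})
    (Lb1 : ∃ h, h * (b * x1) * h⁻¹ ∈ closure {v1, v2, v3, v4}) (Lb2 : ∃ h, h * (b * x2) * h⁻¹ ∈ closure {v1, v2, v3, v4})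
    (Lb3 : ∃ h, h * (b * x3) * h⁻¹ ∈ closure {v1, v2, v3, v4}) (L12 : ∃ h, h * (x1 * x2) * h⁻¹ ∈ closure {v1, v2, v3, v4})
    (L13 : ∃ h, h * (x1 * x3) * h⁻¹ ∈ closure {v1, v2, v3, v4}) (L23 : ∃ h, h * (x2 * x3) * h⁻¹ ∈ closure {v1, v2, v3, v4}) :
    IsPGroup 2 (closure {v1, v2, v3, v4} ⊔ closure {a, b, c} : Subgroup Q) := by
  have hV := closure_sq hS hq
  have LL : ∀ {u : Q}, (∃ h : Q, h * u * h⁻¹ ∈ closure {v1, v2, v3, v4}) → u * u = 1 := fun hu => sq_of_conj hV hu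
  have cAC : a * c = c * a := comm_of_sq (LL La) (LL Lc) (LL Lac)
  have cB1 : b * x1 = x1 * b := comm_of_sq (LL Lb) (LL L1) (LL Lb1)
  have cB2 : b * x2 = x2 * b := comm_of_sq (LL Lb) (LL L2) (LL Lb2)
  have cB3 : b * x3 = x3 * b := comm_of_sq (LL Lb) (LL L3) (LL Lb3)
  have c12 : x1 * x2 = x2 * x1 := comm_of_sq (LL L1) (LL L2) (LL L12)
  have c13 : x1 * x3 = x3 * x1 := comm_of_sq (LL L1) (LL L3) (LL L13)
  have c23 : x2 * x3 = x3 * x2 := comm_of_sq (LL L2) (LL L3) (LL L23)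
  have qA := LL La
  have qC := LL Lc
  have Ai : a⁻¹ = a := inv_eq_of_mul_eq_one_right qA
  have Ci : c⁻¹ = c := inv_eq_of_mul_eq_one_right qC
  obtain ⟨V, hVd⟩ : ∃ V, V = closure ({v1, v2, v3, v4} : Set Q) := ⟨_, rfl⟩
  have nA := conj_gen_norm na
  have nB := conj_gen_norm nb
  have nC := conj_gen_norm nc
  rw [← hVd] at nA nB nC hV ⊢
  have n1 : x1 ∈ normalizer (V : Set Q) := by
    rw [hx1, commutatorElement_def]
    exact mul_mem (mul_mem (mul_mem nA nB) (inv_mem nA)) (inv_mem nB)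
  have n2 : x2 ∈ normalizer (V : Set Q) := by
    rw [hx2, commutatorElement_def]
    exact mul_mem (mul_mem (mul_mem nC nB) (inv_mem nC)) (inv_mem nB)
  have n3 : x3 ∈ normalizer (V : Set Q) := by
    rw [hx3, commutatorElement_def]
    exact mul_mem (mul_mem (mul_mem nA n2) (inv_mem nA)) (inv_mem n2)
  have hVc : ∀ x ∈ V, ∀ y ∈ V, x * y = y * x := by rw [hVd]; exact comm_closure hS
  have hcv : ∀ v ∈ V, ∀ u ∈ normalizer (V : Set Q), ⁅v, u⁆ ∈ V := by
    intro v hv u hu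
    have e : ⁅v, u⁆ = v * (u * v⁻¹ * u⁻¹) := by rw [commutatorElement_def]; group
    rw [e]
    exact mul_mem hv ((Subgroup.mem_normalizer_iff.1 hu _).1 (inv_mem hv))
  have hcv' : ∀ v ∈ V, ∀ u ∈ normalizer (V : Set Q), ⁅u, v⁆ ∈ V := by
    intro v hv u hu
    rw [← commutatorElement_inv]
    exact inv_mem (hcv v hv u hu)
  have cm : ∀ {x y : Q}, x * y = y * x → ⁅x, y⁆ ∈ V := by
    intro x y h
    rw [commutatorElement_eq_one_iff_mul_comm.2 h]; exact one_mem _
  have sqm : ∀ {x : Q}, x * x = 1 → x * x ∈ V := by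
    intro x h; rw [h]; exact one_mem _
  obtain ⟨M, hM⟩ : ∃ M, M = closure ((V : Set Q) ∪ {b, x1, x2, x3}) := ⟨_, rfl⟩
  have hMV : ∀ m ∈ M, m * m ∈ V := by
    rw [hM]
    refine sq_mem_of_gens ?_ ?_ ?_
    · rintro s (hs | rfl | rfl | rfl | rfl)
      · exact le_normalizer hs
      · exact nB
      · exact n1
      · exact n2
      · exact n3
    · rintro s (hs | rfl | rfl | rfl | rfl) s' (hs' | rfl | rfl | rfl | rfl)
      · exact cm (hVc _ hs _ hs')
      · exact hcv _ hs _ nB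
      · exact hcv _ hs _ n1
      · exact hcv _ hs _ n2
      · exact hcv _ hs _ n3
      · exact hcv' _ hs' _ nB
      · exact cm rfl
      · exact cm cB1
      · exact cm cB2
      · exact cm cB3
      · exact hcv' _ hs' _ n1
      · exact cm cB1.symm
      · exact cm rfl
      · exact cm c12
      · exact cm c13
      · exact hcv' _ hs' _ n2
      · exact cm cB2.symm
      · exact cm c12.symm
      · exact cm rfl
      · exact cm c23
      · exact hcv' _ hs' _ n3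
      · exact cm cB3.symm
      · exact cm c13.symm
      · exact cm c23.symm
      · exact cm rfl
    · rintro s (hs | rfl | rfl | rfl | rfl)
      · exact mul_mem hs hs
      · exact sqm (LL Lb)
      · exact sqm (LL L1)
      · exact sqm (LL L2)
      · exact sqm (LL L3)
  have mV : ∀ v ∈ V, v ∈ M := fun v hv => by rw [hM]; exact subset_closure (Or.inl hv)
  have mB : b ∈ M := by rw [hM]; exact subset_closure (by simp)
  have m1 : x1 ∈ M := by rw [hM]; exact subset_closure (by simp)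
  have m2 : x2 ∈ M := by rw [hM]; exact subset_closure (by simp)
  have m3 : x3 ∈ M := by rw [hM]; exact subset_closure (by simp)
  have eAB : a * b * a⁻¹ = x1 * b := by rw [hx1, commutatorElement_def]; group
  have eAB2 : a * x2 * a⁻¹ = x3 * x2 := by rw [hx3, commutatorElement_def]; group
  have eCB : c * b * c⁻¹ = x2 * b := by rw [hx2, commutatorElement_def]; group
  have eAB1 : a * x1 * a⁻¹ = x1⁻¹ := by
    have : a * x1 * a⁻¹ = a * (a * b * a⁻¹ * b⁻¹) * a⁻¹ := by rw [hx1, commutatorElement_def]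
    rw [this, hx1, commutatorElement_def]
    calc a * (a * b * a⁻¹ * b⁻¹) * a⁻¹ = (a * a) * b * a⁻¹ * b⁻¹ * a⁻¹ := by group
      _ = b * a⁻¹ * b⁻¹ * a⁻¹ := by rw [qA, one_mul]
      _ = b * a * b⁻¹ * a⁻¹ := by rw [Ai]
      _ = (a * b * a⁻¹ * b⁻¹)⁻¹ := by group
  have eAB3 : a * x3 * a⁻¹ = x3⁻¹ := by
    have : a * x3 * a⁻¹ = a * (a * x2 * a⁻¹ * x2⁻¹) * a⁻¹ := by rw [hx3, commutatorElement_def]
    rw [this, hx3, commutatorElement_def]
    calc a * (a * x2 * a⁻¹ * x2⁻¹) * a⁻¹ = (a * a) * x2 * a⁻¹ * x2⁻¹ * a⁻¹ := by group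
      _ = x2 * a⁻¹ * x2⁻¹ * a⁻¹ := by rw [qA, one_mul]
      _ = x2 * a * x2⁻¹ * a⁻¹ := by rw [Ai]
      _ = (a * x2 * a⁻¹ * x2⁻¹)⁻¹ := by group
  have eCA : c * a * c⁻¹ = a := by rw [← cAC, mul_inv_cancel_right]
  have eCB1 : c * x1 * c⁻¹ = x3 * x2 * x1 * x2⁻¹ := by
    calc c * x1 * c⁻¹ = (c * a * c⁻¹) * (c * b * c⁻¹) * (c * a * c⁻¹)⁻¹ * (c * b * c⁻¹)⁻¹ := by
          rw [hx1, commutatorElement_def]; group
      _ = a * (x2 * b) * a⁻¹ * (x2 * b)⁻¹ := by rw [eCA, eCB]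
      _ = (a * x2 * a⁻¹) * (a * b * a⁻¹) * (x2 * b)⁻¹ := by group
      _ = (x3 * x2) * (x1 * b) * (x2 * b)⁻¹ := by rw [eAB2, eAB]
      _ = x3 * x2 * x1 * x2⁻¹ := by group
  have eCB2 : c * x2 * c⁻¹ = x2⁻¹ := by
    have : c * x2 * c⁻¹ = c * (c * b * c⁻¹ * b⁻¹) * c⁻¹ := by rw [hx2, commutatorElement_def]
    rw [this, hx2, commutatorElement_def]
    calc c * (c * b * c⁻¹ * b⁻¹) * c⁻¹ = (c * c) * b * c⁻¹ * b⁻¹ * c⁻¹ := by group
      _ = b * c⁻¹ * b⁻¹ * c⁻¹ := by rw [qC, one_mul]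
      _ = b * c * b⁻¹ * c⁻¹ := by rw [Ci]
      _ = (c * b * c⁻¹ * b⁻¹)⁻¹ := by group
  have eCB3 : c * x3 * c⁻¹ = (a * x2 * a⁻¹)⁻¹ * x2 := by
    calc c * x3 * c⁻¹ = (c * a * c⁻¹) * (c * x2 * c⁻¹) * (c * a * c⁻¹)⁻¹ * (c * x2 * c⁻¹)⁻¹ := by
          rw [hx3, commutatorElement_def]; group
      _ = a * x2⁻¹ * a⁻¹ * x2⁻¹⁻¹ := by rw [eCA, eCB2]
      _ = (a * x2 * a⁻¹)⁻¹ * x2 := by group
  have NA : a ∈ normalizer (M : Set Q) := by
    rw [hM]
    refine conj_gen_norm ?_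
    rw [← hM]
    rintro s (hs | rfl | rfl | rfl | rfl)
    · exact mV _ ((Subgroup.mem_normalizer_iff.1 nA _).1 hs)
    · rw [eAB]; exact mul_mem m1 mB
    · rw [eAB1]; exact inv_mem m1
    · rw [eAB2]; exact mul_mem m3 m2
    · rw [eAB3]; exact inv_mem m3
  have NC : c ∈ normalizer (M : Set Q) := by
    rw [hM]
    refine conj_gen_norm ?_
    rw [← hM]
    rintro s (hs | rfl | rfl | rfl | rfl)
    · exact mV _ ((Subgroup.mem_normalizer_iff.1 nC _).1 hs)
    · rw [eCB]; exact mul_mem m2 mB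
    · rw [eCB1]; exact mul_mem (mul_mem (mul_mem m3 m2) m1) (inv_mem m2)
    · rw [eCB2]; exact inv_mem m2
    · rw [eCB3, eAB2]; exact mul_mem (inv_mem (mul_mem m3 m2)) m2
  have hcM : ∀ v ∈ M, ∀ u ∈ normalizer (M : Set Q), ⁅v, u⁆ ∈ M := by
    intro v hv u hu
    have e : ⁅v, u⁆ = v * (u * v⁻¹ * u⁻¹) := by rw [commutatorElement_def]; group
    rw [e]
    exact mul_mem hv ((Subgroup.mem_normalizer_iff.1 hu _).1 (inv_mem hv))
  have hcM' : ∀ v ∈ M, ∀ u ∈ normalizer (M : Set Q), ⁅u, v⁆ ∈ M := by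
    intro v hv u hu
    rw [← commutatorElement_inv]
    exact inv_mem (hcM v hv u hu)
  have hP : ∀ g ∈ closure ((M : Set Q) ∪ {a, c}), g * g ∈ M := by
    refine sq_mem_of_gens ?_ ?_ ?_
    · rintro s (hs | rfl | rfl)
      · exact le_normalizer hs
      · exact NA
      · exact NC
    · rintro s (hs | rfl | rfl) s' (hs' | rfl | rfl)
      · exact hcM _ hs _ (le_normalizer hs')
      · exact hcM _ hs _ NA
      · exact hcM _ hs _ NC
      · exact hcM' _ hs' _ NA
      · exact mV _ (cm rfl)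
      · exact mV _ (cm cAC)
      · exact hcM' _ hs' _ NC
      · exact mV _ (cm cAC.symm)
      · exact mV _ (cm rfl)
    · rintro s (hs | rfl | rfl)
      · exact mul_mem hs hs
      · exact mV _ (sqm qA)
      · exact mV _ (sqm qC)
  have hle : V ⊔ closure {a, b, c} ≤ closure ((M : Set Q) ∪ {a, c}) := by
    refine sup_le (fun v hv => subset_closure (Or.inl (mV v hv))) ?_
    rw [closure_le]
    rintro s (rfl | rfl | rfl)
    · exact subset_closure (by simp)
    · exact subset_closure (Or.inl mB)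
    · exact subset_closure (by simp)
  exact isPGroup_of_sq hV hMV (fun g hg => hP g (hle hg))

theorem m23_pgroup [Finite Q] {v1 v2 v3 v4 a c : Q}
    (hS : ∀ x ∈ ({v1, v2, v3, v4} : Set Q), ∀ y ∈ ({v1, v2, v3, v4} : Set Q), x * y = y * x)
    (hq : ∀ x ∈ ({v1, v2, v3, v4} : Set Q), x * x = 1)
    (na : ∀ x ∈ ({v1, v2, v3, v4} : Set Q), a * x * a⁻¹ ∈ closure {v1, v2, v3, v4})
    (nc : ∀ x ∈ ({v1, v2, v3, v4} : Set Q), c * x * c⁻¹ ∈ closure {v1, v2, v3, v4})
    (haa : a * a = 1) (hac : a * c * a⁻¹ = c⁻¹) (L2 : ∃ h, h * (c * c) * h⁻¹ ∈ closure {v1, v2, v3, v4}) :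
    IsPGroup 2 (closure {v1, v2, v3, v4} ⊔ closure {a, c} : Subgroup Q) := by
  have hV := closure_sq hS hq
  have c4 : (c * c) * (c * c) = 1 := sq_of_conj hV L2
  have c4' : c⁻¹ * c⁻¹ = c * c := by
    have : (c * c)⁻¹ = c * c := inv_eq_of_mul_eq_one_right c4
    rwa [mul_inv_rev] at this
  obtain ⟨V, hVd⟩ : ∃ V, V = closure ({v1, v2, v3, v4} : Set Q) := ⟨_, rfl⟩
  have nA := conj_gen_norm na
  have nC := conj_gen_norm nc
  rw [← hVd] at nA nC hV ⊢
  have nCC : c * c ∈ normalizer (V : Set Q) := mul_mem nC nC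
  have hVc : ∀ x ∈ V, ∀ y ∈ V, x * y = y * x := by rw [hVd]; exact comm_closure hS
  have hcv : ∀ v ∈ V, ∀ u ∈ normalizer (V : Set Q), ⁅v, u⁆ ∈ V := by
    intro v hv u hu
    have e : ⁅v, u⁆ = v * (u * v⁻¹ * u⁻¹) := by rw [commutatorElement_def]; group
    rw [e]
    exact mul_mem hv ((Subgroup.mem_normalizer_iff.1 hu _).1 (inv_mem hv))
  have hcv' : ∀ v ∈ V, ∀ u ∈ normalizer (V : Set Q), ⁅u, v⁆ ∈ V := by
    intro v hv u hu
    rw [← commutatorElement_inv]
    exact inv_mem (hcv v hv u hu)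
  have cm : ∀ {x y : Q}, x * y = y * x → ⁅x, y⁆ ∈ V := by
    intro x y h
    rw [commutatorElement_eq_one_iff_mul_comm.2 h]; exact one_mem _
  obtain ⟨M, hM⟩ : ∃ M, M = closure ((V : Set Q) ∪ {c * c}) := ⟨_, rfl⟩
  have hMV : ∀ m ∈ M, m * m ∈ V := by
    rw [hM]
    refine sq_mem_of_gens ?_ ?_ ?_
    · rintro s (hs | rfl)
      · exact le_normalizer hs
      · exact nCC
    · rintro s (hs | rfl) s' (hs' | rfl)
      · exact cm (hVc _ hs _ hs')
      · exact hcv _ hs _ nCC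
      · exact hcv' _ hs' _ nCC
      · exact cm rfl
    · rintro s (hs | rfl)
      · exact mul_mem hs hs
      · rw [c4]; exact one_mem _
  have mV : ∀ v ∈ V, v ∈ M := fun v hv => by rw [hM]; exact subset_closure (Or.inl hv)
  have mC : c * c ∈ M := by rw [hM]; exact subset_closure (by simp)
  have NA : a ∈ normalizer (M : Set Q) := by
    rw [hM]
    refine conj_gen_norm ?_
    rw [← hM]
    rintro s (hs | rfl)
    · exact mV _ ((Subgroup.mem_normalizer_iff.1 nA _).1 hs)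
    · have e : a * (c * c) * a⁻¹ = (a * c * a⁻¹) * (a * c * a⁻¹) := by group
      rw [e, hac, c4']; exact mC
  have NC : c ∈ normalizer (M : Set Q) := by
    rw [hM]
    refine conj_gen_norm ?_
    rw [← hM]
    rintro s (hs | rfl)
    · exact mV _ ((Subgroup.mem_normalizer_iff.1 nC _).1 hs)
    · have e : c * (c * c) * c⁻¹ = c * c := by group
      rw [e]; exact mC
  have hcM : ∀ v ∈ M, ∀ u ∈ normalizer (M : Set Q), ⁅v, u⁆ ∈ M := by
    intro v hv u hu
    have e : ⁅v, u⁆ = v * (u * v⁻¹ * u⁻¹) := by rw [commutatorElement_def]; group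
    rw [e]
    exact mul_mem hv ((Subgroup.mem_normalizer_iff.1 hu _).1 (inv_mem hv))
  have hcM' : ∀ v ∈ M, ∀ u ∈ normalizer (M : Set Q), ⁅u, v⁆ ∈ M := by
    intro v hv u hu
    rw [← commutatorElement_inv]
    exact inv_mem (hcM v hv u hu)
  have hACc : ⁅a, c⁆ ∈ M := by
    rw [commutatorElement_def, hac, c4']; exact mC
  have hP : ∀ g ∈ closure ((M : Set Q) ∪ {a, c}), g * g ∈ M := by
    refine sq_mem_of_gens ?_ ?_ ?_
    · rintro s (hs | rfl | rfl)
      · exact le_normalizer hs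
      · exact NA
      · exact NC
    · rintro s (hs | rfl | rfl) s' (hs' | rfl | rfl)
      · exact hcM _ hs _ (le_normalizer hs')
      · exact hcM _ hs _ NA
      · exact hcM _ hs _ NC
      · exact hcM' _ hs' _ NA
      · exact mV _ (cm rfl)
      · exact hACc
      · exact hcM' _ hs' _ NC
      · rw [← commutatorElement_inv]; exact inv_mem hACc
      · exact mV _ (cm rfl)
    · rintro s (hs | rfl | rfl)
      · exact mul_mem hs hs
      · rw [haa]; exact one_mem _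
      · exact mC
  have hle : V ⊔ closure {a, c} ≤ closure ((M : Set Q) ∪ {a, c}) := by
    refine sup_le (fun v hv => subset_closure (Or.inl (mV v hv))) ?_
    rw [closure_le]
    rintro s (rfl | rfl)
    · exact subset_closure (by simp)
    · exact subset_closure (by simp)
  exact isPGroup_of_sq hV hMV (fun g hg => hP g (hle hg))

end

section

variable {Q : Type*} [Group Q] {Γ : Type*} [Group Γ] {σ : Γ →* Q}

/-- extraspecial Sylow subgroup of order `p ^ 3` and exponent `p`, with an involution inverting the generators. -/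
theorem extraspecial_case [Finite Γ] (hσ : Cfsg.IsStemExtension σ) {p : ℕ} (hp : p.Prime) (hp2 : p ≠ 2)
    (hc : Nat.card σ.ker = p) {x y g w : Q} (hx : x ^ p = 1) (hw : w = ⁅x, y⁆) (hw1 : w ≠ 1)
    (hxw : x * w = w * x) (hyw : y * w = w * y)
    (hgx : g * x * g⁻¹ = x⁻¹) (hgy : g * y * g⁻¹ = y⁻¹) (hi : ¬ p ∣ (closure {x, y}).index) : False := by
  obtain ⟨s, hs⟩ : ∃ s : Q → Γ, ∀ g, σ (s g) = g := ⟨_, Function.surjInv_eq hσ.1⟩
  have hcen := hσ.2.1
  have hgw : g * w * g⁻¹ = w := by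
    have e1 : g * w * g⁻¹ = (g * x * g⁻¹) * (g * y * g⁻¹) * (g * x * g⁻¹)⁻¹ * (g * y * g⁻¹)⁻¹ := by
      rw [hw, commutatorElement_def]; group
    rw [e1, hgx, hgy]
    have h1 : x * y = w * (y * x) := by rw [hw, commutatorElement_def]; group
    have h2 : Commute w (y * x) := by
      have a1 : Commute w y := hyw.symm
      have a2 : Commute w x := hxw.symm
      exact a1.mul_right a2
    calc x⁻¹ * y⁻¹ * x⁻¹⁻¹ * y⁻¹⁻¹ = (y * x)⁻¹ * (x * y) := by group
      _ = (y * x)⁻¹ * (w * (y * x)) := by rw [h1]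
      _ = (y * x)⁻¹ * ((y * x) * w) := by rw [h2.eq]
      _ = w := by group
  have hkill : ∀ u : Q, u * w = w * u → g * u * g⁻¹ = u⁻¹ → s u * s w = s w * s u := by
    intro u huw hgu
    have h1 : ⁅w, u⁆ = 1 := commutatorElement_eq_one_iff_mul_comm.2 huw.symm
    have h2 : KK s w u⁻¹ = (KK s w u)⁻¹ := by
      have h3 : KK s w (u * u⁻¹) = KK s w u * KK s w u⁻¹ :=
        KK_mul_right s hs hcen _ _ _ (KK_central s hs hcen (by
          rw [commutatorElement_eq_one_iff_mul_comm]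
          have : Commute w u := huw.symm
          exact this.inv_right) _)
      have h4 : KK s w (u * u⁻¹) = 1 := by
        rw [mul_inv_cancel, ← KK_eq s hs hcen (x := s w) (y := 1) (hs w) (map_one σ), commutatorElement_one_right]
      rw [h4] at h3
      exact (inv_eq_of_mul_eq_one_right h3.symm).symm
    have h3 : KK s w u = KK s w u⁻¹ := by
      have h4 := KK_conj s hs hcen (s g) w u
      rw [hs, hgw, hgu, KK_central s hs hcen h1, mul_inv_cancel_right] at h4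
      exact h4
    have h4 : (KK s w u) ^ 2 = 1 := by
      rw [sq]
      nth_rewrite 1 [h3]
      rw [h2, inv_mul_cancel]
    have h5 : (KK s w u) ^ p = 1 := pow_ker (by rw [MonoidHom.mem_ker, map_KK s hs, h1]) hc
    have h6 : KK s w u = 1 := by
      have := pow_gcd_eq_one.2 ⟨h4, h5⟩
      rwa [((Nat.coprime_primes Nat.prime_two hp).2 hp2.symm).gcd_eq_one, pow_one] at this
    exact (commutatorElement_eq_one_iff_mul_comm.1 h6).symm
  have hX := hkill x hxw hgx
  have hY := hkill y hyw hgy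
  obtain ⟨W, hW⟩ : ∃ W, W = ⁅s x, s y⁆ := ⟨_, rfl⟩
  have sW : σ W = w := by rw [hW, map_commutatorElement, hs, hs, hw]
  have hcW : ∀ u : Γ, u * s w = s w * u → u * W = W * u := by
    intro u hu
    have h1 : (s w)⁻¹ * W ∈ σ.ker := by rw [MonoidHom.mem_ker, map_mul, map_inv, hs, sW, inv_mul_cancel]
    have h2 := Subgroup.mem_center_iff.1 (hcen h1) u
    calc u * W = (u * s w) * ((s w)⁻¹ * W) := by group
      _ = (s w * u) * ((s w)⁻¹ * W) := by rw [hu]
      _ = s w * (u * ((s w)⁻¹ * W)) := by group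
      _ = s w * (((s w)⁻¹ * W) * u) := by rw [h2]
      _ = W * u := by group
  have hXW := hcW _ hX
  have hYW := hcW _ hY
  have hWp : W ^ p = 1 := by
    have h1 : s y * (s x) * (s y)⁻¹ = W⁻¹ * s x := by rw [hW, commutatorElement_def]; group
    have h2 : s y * (s x) ^ p * (s y)⁻¹ = (s x) ^ p := by
      have h3 : (s x) ^ p ∈ σ.ker := by rw [MonoidHom.mem_ker, map_pow, hs, hx]
      rw [Subgroup.mem_center_iff.1 (hcen h3) (s y), mul_inv_cancel_right]
    rw [← conj_pow, h1] at h2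
    have h4 : Commute W⁻¹ (s x) := by
      have : Commute (s x) W := hXW
      exact this.symm.inv_left
    rw [h4.mul_pow, inv_pow] at h2
    have h5 : (W ^ p)⁻¹ = 1 := mul_eq_right.1 h2
    exact inv_eq_one.1 h5
  obtain ⟨S, hS⟩ : ∃ S : Set Γ, S = {s x, s y} ∪ (σ.ker : Set Γ) := ⟨_, rfl⟩
  have hcS : ∀ u ∈ S, u * W = W * u := by
    rw [hS]
    rintro u ((rfl | rfl) | hu)
    · exact hXW
    · exact hYW
    · exact (Subgroup.mem_center_iff.1 (hcen hu) W).symm
  have hle : ⁅closure S, closure S⁆ ≤ zpowers W := by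
    refine comm_le_of_gens ?_ ?_
    · intro u hu
      refine mem_norm_of_le ?_
      rintro _ ⟨i, rfl⟩
      have : Commute u W := hcS u hu
      refine ⟨i, ?_⟩
      simp only
      rw [(this.zpow_right i).eq, mul_inv_cancel_right]
    · rw [hS]
      rintro u ((rfl | rfl) | hu) v ((rfl | rfl) | hv)
      · rw [commutatorElement_self]; exact one_mem _
      · rw [← hW]; exact mem_zpowers _
      · rw [commutatorElement_eq_one_iff_mul_comm.2 (Subgroup.mem_center_iff.1 (hcen hv) _)]; exact one_mem _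
      · rw [← commutatorElement_inv, ← hW]; exact inv_mem (mem_zpowers _)
      · rw [commutatorElement_self]; exact one_mem _
      · rw [commutatorElement_eq_one_iff_mul_comm.2 (Subgroup.mem_center_iff.1 (hcen hv) _)]; exact one_mem _
      · rw [commutatorElement_eq_one_iff_mul_comm.2 (Subgroup.mem_center_iff.1 (hcen hu) _).symm]; exact one_mem _
      · rw [commutatorElement_eq_one_iff_mul_comm.2 (Subgroup.mem_center_iff.1 (hcen hu) _).symm]; exact one_mem _
      · rw [commutatorElement_eq_one_iff_mul_comm.2 (Subgroup.mem_center_iff.1 (hcen hu) _).symm]; exact one_mem _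
  have hP : (closure {x, y}).comap σ ≤ closure S := by
    intro z hz
    have h1 : closure {x, y} ≤ (closure S).map σ := by
      rw [closure_le]
      rintro u (rfl | rfl)
      · exact ⟨s u, subset_closure (by rw [hS]; simp), hs u⟩
      · exact ⟨s u, subset_closure (by rw [hS]; simp), hs u⟩
    obtain ⟨v, hv, hvz⟩ := h1 hz
    have h2 : v⁻¹ * z ∈ closure S := subset_closure (by
      rw [hS]; exact Or.inr (by
        rw [SetLike.mem_coe, MonoidHom.mem_ker, map_mul, map_inv, hvz, inv_mul_cancel]))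
    have h3 := mul_mem hv h2
    rwa [mul_inv_cancel_left] at h3
  have h8 := ker_le hσ hp hc (ker_le_comap (closure {x, y})) (by
    rwa [Subgroup.index_comap_of_surjective _ hσ.1])
  have hbot : σ.ker = ⊥ := by
    rw [eq_bot_iff]
    intro z hz
    rw [Subgroup.mem_bot]
    obtain ⟨i, hi'⟩ := hle (Subgroup.commutator_mono hP hP (h8 hz))
    simp only at hi'
    have hwp : w ^ p = 1 := by rw [← sW, ← map_pow, hWp, map_one]
    have hwo : orderOf w = p := by
      haveI : Fact p.Prime := ⟨hp⟩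
      exact orderOf_eq_prime hwp hw1
    have h1 : w ^ i = 1 := by
      rw [← sW, ← map_zpow, hi']; exact hz
    have h2 : (p : ℤ) ∣ i := by
      have := orderOf_dvd_iff_zpow_eq_one.2 h1
      rwa [hwo] at this
    obtain ⟨j, rfl⟩ := h2
    rw [← hi', zpow_mul, zpow_natCast, hWp, one_zpow]
  rw [hbot, Subgroup.card_bot] at hc
  exact hp.one_lt.ne hc

end

end CfsgLib.H7Mult
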