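import Mathlib
import Cfsg.Agent.Lib.H7Mult5
import Cfsg.Agent.Lib.GolayM
import Cfsg.Agent.Lib.GolayDod

set_option autoImplicit false
set_option linter.style.haveILetI false

/-! Tools for computing in subgroups of `M₂₄`. -/

namespace CfsgLib.H7Mat

open Subgroup CfsgLib.Golay Cfsg
open scoped commutatorElement

/-- the map of a packed permutation -/
def fP (P : ℕ) : GolayPt → GolayPt := fun p => pt (img P (idx p))

theorem eq_of {Q : Subgroup (Equiv.Perm GolayPt)} {g h : Q}
    (H : ∀ p, (g : Equiv.Perm GolayPt) p = (h : Equiv.Perm GolayPt) p) : g = h := Subtype.ext (Equiv.ext H)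

/-- keys: images of a list of points under all products of a list of permutations -/
def keysL : List ℕ → List ℕ → List (List ℕ)
  | [], pts => [pts]
  | P :: ps, pts => keysL ps pts ++ keysL ps (pts.map (img P))

/-- products -/
def elsL {G : Type*} [Mul G] : List G → G → List G
  | [], x => [x]
  | g :: gs, x => elsL gs x ++ elsL gs (g * x)

theorem elsL_length {G : Type*} [Mul G] : ∀ (l : List G) (x : G), (elsL l x).length = 2 ^ l.length
  | [], _ => rfl
  | g :: gs, x => by
    rw [elsL, List.length_append, elsL_length gs, elsL_length gs, List.length_cons, pow_succ]; ring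

theorem elsL_mem {G : Type*} [Group G] {P : Subgroup G} : ∀ (l : List G) (x : G), (∀ g ∈ l, g ∈ P) → x ∈ P →
    ∀ y ∈ elsL l x, y ∈ P
  | [], x, _, hx, y, hy => by
    rw [elsL, List.mem_singleton] at hy; rw [hy]; exact hx
  | g :: gs, x, hl, hx, y, hy => by
    rw [elsL, List.mem_append] at hy
    rcases hy with hy | hy
    · exact elsL_mem gs x (fun g hg => hl g (List.mem_cons_of_mem _ hg)) hx y hy
    · exact elsL_mem gs _ (fun g hg => hl g (List.mem_cons_of_mem _ hg))
        (mul_mem (hl g List.mem_cons_self) hx) y hy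

/-- key of an element -/
def key (pts : List ℕ) (x : Equiv.Perm GolayPt) : List ℕ := pts.map (fun i => idx (x (pt i)))

theorem key_mul {P : ℕ} {g : Equiv.Perm GolayPt} (hg : Packs P g) (pts : List ℕ) (x : Equiv.Perm GolayPt) :
    key pts (g * x) = (key pts x).map (img P) := by
  rw [key, key, List.map_map]
  apply List.map_congr_left
  intro i _
  exact hg _

theorem key_els {Q : Subgroup (Equiv.Perm GolayPt)} (pts : List ℕ) : ∀ (l : List (Q × ℕ))
    (_ : ∀ x ∈ l, Packs x.2 (x.1 : Equiv.Perm GolayPt)) (x : Q),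
    (elsL (l.map Prod.fst) x).map (fun y : Q => key pts (y : Equiv.Perm GolayPt)) =
      keysL (l.map Prod.snd) (key pts (x : Equiv.Perm GolayPt))
  | [], _, x => rfl
  | (g, P) :: gs, h, x => by
    have hg : Packs P (g : Equiv.Perm GolayPt) := h (g, P) List.mem_cons_self
    have ih := key_els pts gs (fun x hx => h x (List.mem_cons_of_mem _ hx))
    rw [List.map_cons, List.map_cons, elsL, keysL, List.map_append, ih, ih, Subgroup.coe_mul, key_mul hg]

/-- encode a key -/
def enc5 (l : List ℕ) : ℕ := l.foldl (fun acc i => Nat.add (Nat.mul acc 32) i) 0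

/-- distinctness check -/
def nodupB : List ℕ → ℕ → Bool
  | [], _ => true
  | k :: l, acc => cond (Nat.testBit acc k) false (nodupB l (Nat.lor acc (Nat.shiftLeft 1 k)))

theorem nodupB_spec : ∀ (l : List ℕ) (acc : ℕ), nodupB l acc = true →
    l.Nodup ∧ ∀ k ∈ l, acc.testBit k = false
  | [], _, _ => ⟨List.nodup_nil, by simp⟩
  | k :: l, acc, h => by
    rw [nodupB] at h
    cases hk : Nat.testBit acc k with
    | true => rw [hk] at h; simp at h
    | false =>
      rw [hk] at h
      obtain ⟨h1, h2⟩ := nodupB_spec l _ (by simpa using h)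
      have h3 : ∀ j, (acc ||| (1 <<< k)).testBit j = (acc.testBit j || decide (k = j)) := by
        intro j
        rw [Nat.testBit_or, testBit_one_shiftLeft]
      refine ⟨List.nodup_cons.2 ⟨fun hkl => ?_, h1⟩, ?_⟩
      · have : (acc ||| (1 <<< k)).testBit k = false := h2 k hkl
        rw [h3] at this
        simp at this
      · intro j hj
        rcases List.mem_cons.1 hj with rfl | hj
        · exact hk
        · have : (acc ||| (1 <<< k)).testBit j = false := h2 j hj
          rw [h3, Bool.or_eq_false_iff] at this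
          exact this.1

theorem card_ge {Q : Subgroup (Equiv.Perm GolayPt)} [Finite Q] (P : Subgroup Q) (l : List (Q × ℕ))
    (h : ∀ x ∈ l, Packs x.2 (x.1 : Equiv.Perm GolayPt)) (hP : ∀ x ∈ l, x.1 ∈ P) (pts : List ℕ)
    (hpts : ∀ i ∈ pts, i < 24)
    (hn : nodupB ((keysL (l.map Prod.snd) pts).map enc5) 0 = true) : 2 ^ l.length ≤ Nat.card P := by
  have h1 := (nodupB_spec _ _ hn).1
  have h2 := h1.of_map
  have hk1 : key pts ((1 : Q) : Equiv.Perm GolayPt) = pts := by
    rw [key]
    conv_rhs => rw [← List.map_id pts]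
    apply List.map_congr_left
    intro i hi
    change idx (pt i) = i
    exact idx_pt (hpts i hi)
  have h3 := key_els pts l h 1
  rw [hk1] at h3
  rw [← h3] at h2
  have h4 := h2.of_map
  have h5 : ∀ y ∈ elsL (l.map Prod.fst) (1 : Q), y ∈ P := elsL_mem _ _ (by
    intro g hg
    obtain ⟨x, hx, rfl⟩ := List.mem_map.1 hg
    exact hP x hx) (one_mem _)
  classical
  have h6 : (elsL (l.map Prod.fst) (1 : Q)).toFinset.card = 2 ^ l.length := by
    rw [List.toFinset_card_of_nodup h4, elsL_length, List.length_map]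
  rw [← h6]
  have h7 : ((elsL (l.map Prod.fst) (1 : Q)).toFinset : Set Q) ⊆ (P : Set Q) := by
    intro y hy
    rw [Finset.mem_coe, List.mem_toFinset] at hy
    exact h5 y hy
  have h8 := Set.ncard_le_ncard h7 (Set.toFinite _)
  rw [Set.ncard_coe_finset, ← Nat.card_coe_set_eq] at h8
  exact h8

theorem pow_mem_of_gens {G : Type*} [Group G] {M : Subgroup G} {S : Set G} {n : ℕ}
    (hN : ∀ s ∈ S, s ∈ normalizer (M : Set G)) (hc : ∀ s ∈ S, ∀ t ∈ S, ⁅s, t⁆ ∈ M)
    (hq : ∀ s ∈ S, s ^ n ∈ M) : ∀ g ∈ closure S, g ^ n ∈ M := by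
  have hNc : ∀ x ∈ closure S, x ∈ normalizer (M : Set G) := by
    intro x hx
    exact (closure_le _).2 hN hx
  have hcj : ∀ x ∈ closure S, ∀ m ∈ M, x * m * x⁻¹ ∈ M := fun x hx m hm =>
    (Subgroup.mem_normalizer_iff.1 (hNc x hx) m).1 hm
  have hle := CfsgLib.H7Mult.comm_le_of_gens hN hc
  have key : ∀ a ∈ closure S, ∀ b ∈ closure S, ∀ k : ℕ, (a * b) ^ k * (a ^ k * b ^ k)⁻¹ ∈ M := by
    intro a ha b hb k
    induction k with
    | zero => simp
    | succ k ih =>
      have h1 : ⁅b ^ k, a⁆ ∈ M := hle (Subgroup.commutator_mem_commutator (pow_mem hb k) ha)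
      have e : (a * b) ^ (k + 1) * (a ^ (k + 1) * b ^ (k + 1))⁻¹ =
          ((a * b) ^ k * (a ^ k * b ^ k)⁻¹) * (a ^ k * ⁅b ^ k, a⁆ * (a ^ k)⁻¹) := by
        rw [pow_succ (a * b), pow_succ a, pow_succ b, commutatorElement_def]
        have e1 : a * (a ^ k)⁻¹ = (a ^ k)⁻¹ * a := by
          have : Commute a (a ^ k) := Commute.self_pow a k
          exact this.inv_right
        have e2 : a⁻¹ * (a * (a ^ k)⁻¹) = a⁻¹ * ((a ^ k)⁻¹ * a) := by rw [e1]
        rw [inv_mul_cancel_left] at e2
        calc (a * b) ^ k * (a * b) * (a ^ k * a * (b ^ k * b))⁻¹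
            = (a * b) ^ k * a * (b ^ k)⁻¹ * a⁻¹ * (a ^ k)⁻¹ := by group
          _ = (a * b) ^ k * a * (b ^ k)⁻¹ * (a⁻¹ * (a ^ k)⁻¹) := by group
          _ = (a * b) ^ k * a * (b ^ k)⁻¹ * ((a ^ k)⁻¹ * a⁻¹) := by
              congr 1
              have : Commute a (a ^ k) := Commute.self_pow a k
              exact this.inv_inv
          _ = (a * b) ^ k * a * (b ^ k)⁻¹ * (a ^ k)⁻¹ * a⁻¹ := by group
          _ = _ := by
              have : Commute a (a ^ k) := Commute.self_pow a k
              have e3 : a⁻¹ * (a ^ k)⁻¹ = (a ^ k)⁻¹ * a⁻¹ := this.inv_inv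
              calc (a * b) ^ k * a * (b ^ k)⁻¹ * (a ^ k)⁻¹ * a⁻¹
                  = (a * b) ^ k * a * (b ^ k)⁻¹ * ((a ^ k)⁻¹ * a⁻¹) := by group
                _ = (a * b) ^ k * a * (b ^ k)⁻¹ * (a⁻¹ * (a ^ k)⁻¹) := by rw [e3]
                _ = (a * b) ^ k * (a ^ k * b ^ k)⁻¹ * (a ^ k * (b ^ k * a * (b ^ k)⁻¹ * a⁻¹) * (a ^ k)⁻¹) := by group
      rw [e]
      exact mul_mem ih (hcj _ (pow_mem ha k) _ h1)
  intro g hg
  induction hg using Subgroup.closure_induction with
  | mem x hx => exact hq x hx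
  | one => rw [one_pow]; exact one_mem _
  | mul a b ha hb iha ihb =>
    have h1 := mul_mem (key a ha b hb n) (mul_mem iha ihb)
    rwa [inv_mul_cancel_right] at h1
  | inv a ha iha =>
    rw [inv_pow]
    exact inv_mem iha

end CfsgLib.H7Mat

namespace CfsgLib.H7Mat

open Subgroup CfsgLib.Golay Cfsg
open scoped commutatorElement

/-- `x` acts as the composite of the packed permutations `ps`. -/
def Word {Q : Subgroup (Equiv.Perm GolayPt)} (ps : List ℕ) (x : Q) : Prop :=
  ∀ p, idx ((x : Equiv.Perm GolayPt) p) = ps.foldr img (idx p)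

section

variable {Q : Subgroup (Equiv.Perm GolayPt)}

theorem wd {P : ℕ} {x : Q} (h : Packs P (x : Equiv.Perm GolayPt)) : Word [P] x := fun p => h p

theorem Word.m {ps qs : List ℕ} {x y : Q} (hx : Word ps x) (hy : Word qs y) : Word (ps ++ qs) (x * y) := by
  intro p
  rw [Subgroup.coe_mul, Equiv.Perm.mul_apply, hx, hy, List.foldr_append]

theorem wone : Word [] (1 : Q) := fun _ => rfl

theorem wpow {P : ℕ} {x : Q} (h : Packs P (x : Equiv.Perm GolayPt)) : ∀ n : ℕ, Word (List.replicate n P) (x ^ n)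
  | 0 => by rw [pow_zero]; exact wone
  | n + 1 => by
    rw [pow_succ', List.replicate_succ]
    exact Word.m (ps := [P]) (wd h) (wpow h n)

/-- comparison of words -/
def relB (ps qs : List ℕ) : Bool := ixs.all fun i => Nat.beq (ps.foldr img i) (qs.foldr img i)

theorem wrel {ps qs : List ℕ} {x y : Q} (hx : Word ps x) (hy : Word qs y) (h : relB ps qs = true) : x = y := by
  refine eq_of (fun p => idx_injective ?_)
  rw [hx, hy]
  rw [relB, List.all_eq_true] at h
  exact Nat.eq_of_beq_eq_true (h _ (mem_ixs.2 (idx_lt p)))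

theorem ne_one_of {ps : List ℕ} {x : Q} (hx : Word ps x) (h : relB ps [] = false) : x ≠ 1 := by
  rintro rfl
  have h1 : relB ps [] = true := by
    rw [relB, List.all_eq_true]
    intro i hi
    have h2 := hx (pt i)
    change idx (pt i) = _ at h2
    rw [idx_pt (mem_ixs.1 hi)] at h2
    rw [← h2]
    exact Nat.beq_refl i
  rw [h] at h1
  exact Bool.noConfusion h1

theorem conj_mem_of {G : Type*} [Group G] {V : Subgroup G} {t v w : G} (h : t * v = w * t) (hw : w ∈ V) :
    t * v * t⁻¹ ∈ V := by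
  rw [h, mul_inv_cancel_right]; exact hw

theorem mkS {G : Type*} [Group G] {v1 v2 v3 v4 : G} (c12 : v1 * v2 = v2 * v1) (c13 : v1 * v3 = v3 * v1)
    (c14 : v1 * v4 = v4 * v1) (c23 : v2 * v3 = v3 * v2) (c24 : v2 * v4 = v4 * v2) (c34 : v3 * v4 = v4 * v3) :
    ∀ x ∈ ({v1, v2, v3, v4} : Set G), ∀ y ∈ ({v1, v2, v3, v4} : Set G), x * y = y * x := by
  rintro x (rfl | rfl | rfl | rfl) y (rfl | rfl | rfl | rfl)
  · rfl
  · exact c12
  · exact c13
  · exact c14
  · exact c12.symm
  · rfl
  · exact c23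
  · exact c24
  · exact c13.symm
  · exact c23.symm
  · rfl
  · exact c34
  · exact c14.symm
  · exact c24.symm
  · exact c34.symm
  · rfl

theorem mk4 {G : Type*} {v1 v2 v3 v4 : G} {P : G → Prop} (h1 : P v1) (h2 : P v2) (h3 : P v3) (h4 : P v4) :
    ∀ x ∈ ({v1, v2, v3, v4} : Set G), P x := by
  rintro x (rfl | rfl | rfl | rfl)
  · exact h1
  · exact h2
  · exact h3
  · exact h4

theorem fix_closure {S : Set Q} {n : ℕ} (hn : n < 24) (h : ∀ x ∈ S, (x : Equiv.Perm GolayPt) (pt n) = pt n) :
    ∀ x ∈ closure S, (x : Equiv.Perm GolayPt) (pt n) = pt n := by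
  intro x hx
  induction hx using Subgroup.closure_induction with
  | mem x hx => exact h x hx
  | one => rfl
  | mul a b ha hb iha ihb =>
    change (a : Equiv.Perm GolayPt) ((b : Equiv.Perm GolayPt) (pt n)) = pt n
    rw [ihb, iha]
  | inv a ha iha =>
    change (a : Equiv.Perm GolayPt)⁻¹ (pt n) = pt n
    rw [Equiv.Perm.inv_eq_iff_eq, iha]

theorem extraspecial_card {G : Type*} [Group G] [Finite G] {x y w : G} (hx : x ^ 3 = 1) (hy : y ^ 3 = 1)
    (hw : w = ⁅x, y⁆) (hw1 : w ≠ 1) (hw3 : w ^ 3 = 1) (hxw : x * w = w * x) (hyw : y * w = w * y) :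
    3 ^ 3 ∣ Nat.card (closure {x, y}) := by
  classical
  haveI : Fact (Nat.Prime 3) := ⟨Nat.prime_three⟩
  have hxy : x * y ≠ y * x := by
    intro h
    apply hw1
    rw [hw, commutatorElement_eq_one_iff_mul_comm.2 h]
  have hx1 : x ≠ 1 := by
    rintro rfl
    exact hxy (by rw [one_mul, mul_one])
  have hxo : orderOf x = 3 := orderOf_eq_prime hx hx1
  have hP : IsPGroup 3 (closure {x, y}) := by
    have h1 : ∀ g ∈ closure {x, y}, g ^ 3 ∈ zpowers w := by
      refine pow_mem_of_gens ?_ ?_ ?_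
      · rintro s (rfl | rfl)
        · refine CfsgLib.H7Mult.mem_norm_of_le ?_
          rintro _ ⟨i, rfl⟩
          have : Commute s w := hxw
          refine ⟨i, ?_⟩
          simp only
          rw [(this.zpow_right i).eq, mul_inv_cancel_right]
        · refine CfsgLib.H7Mult.mem_norm_of_le ?_
          rintro _ ⟨i, rfl⟩
          have : Commute s w := hyw
          refine ⟨i, ?_⟩
          simp only
          rw [(this.zpow_right i).eq, mul_inv_cancel_right]
      · rintro s (rfl | rfl) t (rfl | rfl)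
        · rw [commutatorElement_self]; exact one_mem _
        · rw [← hw]; exact mem_zpowers _
        · rw [← commutatorElement_inv, ← hw]; exact inv_mem (mem_zpowers _)
        · rw [commutatorElement_self]; exact one_mem _
      · rintro s (rfl | rfl)
        · rw [hx]; exact one_mem _
        · rw [hy]; exact one_mem _
    rintro ⟨g, hg⟩
    refine ⟨2, Subtype.ext ?_⟩
    change g ^ (3 ^ 2) = 1
    obtain ⟨i, hi⟩ := h1 g hg
    simp only at hi
    rw [show 3 ^ 2 = 3 * 3 by norm_num, pow_mul, ← hi, ← zpow_natCast, ← zpow_mul, mul_comm, zpow_mul,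
      zpow_natCast, hw3, one_zpow]
  have hwn : w ∉ zpowers x := by
    intro h
    rw [mem_zpowers_iff_mem_range_orderOf, Finset.mem_image] at h
    obtain ⟨i, hi, hiw⟩ := h
    rw [hxo, Finset.mem_range] at hi
    interval_cases i
    · rw [pow_zero] at hiw; exact hw1 hiw.symm
    · rw [pow_one] at hiw
      rw [← hiw] at hyw
      exact hxy hyw.symm
    · apply hxy
      have h1 : Commute y (x ^ 2) := by
        have : Commute y w := hyw
        rwa [← hiw] at this
      have h2 := h1.pow_right 2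
      have h3 : (x ^ 2) ^ 2 = x := by
        rw [← pow_mul, show 2 * 2 = 3 + 1 by norm_num, pow_succ, hx, one_mul]
      rw [h3] at h2
      exact h2.symm
  have h9 := CfsgLib.H7Mult.rank_two_card hxo hw3 hxw hwn
  have hxw' : closure {x, w} < closure {x, y} := by
    refine lt_of_le_of_ne ?_ ?_
    · rw [closure_le]
      have mx : x ∈ closure ({x, y} : Set G) := subset_closure (by simp)
      have my : y ∈ closure ({x, y} : Set G) := subset_closure (by simp)
      rintro s (rfl | rfl)
      · exact mx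
      · rw [hw, commutatorElement_def]
        exact mul_mem (mul_mem (mul_mem mx my) (inv_mem mx)) (inv_mem my)
    · intro h
      have my : y ∈ closure ({x, w} : Set G) := by rw [h]; exact subset_closure (by simp)
      have mx : x ∈ closure ({x, w} : Set G) := subset_closure (by simp)
      exact hxy (CfsgLib.H7Mult.comm_closure (S := {x, w}) (by
        rintro s (rfl | rfl) t (rfl | rfl)
        · rfl
        · exact hxw
        · exact hxw.symm
        · rfl) x mx y my)
  refine CfsgLib.H7Mult.pow_dvd_of_lt hP ?_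
  have h2 := Set.ncard_lt_ncard (show ((closure {x, w} : Subgroup G) : Set G) ⊂ (closure {x, y} : Subgroup G) from hxw')
    (Set.toFinite _)
  rw [← Nat.card_coe_set_eq, ← Nat.card_coe_set_eq] at h2
  exact lt_of_le_of_lt (Nat.le_of_dvd Nat.card_pos h9) h2

theorem not_sq_dvd {p a b : ℕ} (hp : p.Prime) (h2 : p ≠ 2) (h3 : p ≠ 3) {m : ℕ}
    (hm : ¬ p ^ 2 ∣ m) : ¬ p ^ 2 ∣ 2 ^ a * 3 ^ b * m := by
  intro h5
  have c2 : Nat.Coprime (p ^ 2) (2 ^ a) := Nat.Coprime.pow _ _ ((Nat.coprime_primes hp Nat.prime_two).2 h2)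
  have c3 : Nat.Coprime (p ^ 2) (3 ^ b) := Nat.Coprime.pow _ _ ((Nat.coprime_primes hp Nat.prime_three).2 h3)
  exact hm ((Nat.Coprime.mul_right c2 c3).dvd_of_dvd_mul_left h5)

end

end CfsgLib.H7Mat
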