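import Mathlib
import Cfsg.Agent.Lib.H7Mult
import Cfsg.Agent.Lib.H7SH
import Cfsg.Agent.Lib.H7SJ
import Cfsg.Agent.Lib.H7SB

set_option autoImplicit false
set_option linter.style.haveILetI false
set_option linter.unusedSectionVars false

/-! The Schur multiplier of the Suzuki groups. -/

open MulAction Cfsg Matrix
open scoped Pointwise commutatorElement

namespace CfsgLib.H7S

open CfsgLib.H7Mult

universe u

variable {F : Type u} [Field F] [Fintype F] {m : ℕ}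

namespace SD

variable (D : SD F m)

include D

theorem sq_add_add (c : F) : c ^ 2 + c + 1 ≠ 0 := by
  intro h
  have h1 : D.t c ^ 2 + D.t c + 1 = 0 := by
    have := congrArg D.t h
    rw [map_add, map_add, map_pow, map_one, map_zero] at this
    exact this
  have h2 : (D.t c - c) * (D.t c + c + 1) = 0 := by linear_combination h1 - h
  rcases mul_eq_zero.1 h2 with h3 | h3
  · rcases D.t_fix (sub_eq_zero.1 h3) with h4 | h4
    · rw [h4] at h; norm_num at h
    · rw [h4] at h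
      apply one_ne_zero (α := F)
      linear_combination h - D.two
  · have h4 : D.t c = c + 1 := by linear_combination h3 - (c + 1) * D.two
    have h5 : D.t (D.t c) = c := by
      rw [h4, map_add, map_one, h4]; linear_combination D.two
    rw [D.tt] at h5
    apply one_ne_zero (α := F)
    linear_combination h - h5 - c * D.two

theorem exists_weight (hm : 2 ≤ m) (hF : Fintype.card F = 2 ^ (2 * m + 1)) :
    ∃ a : F, a ≠ 0 ∧ a + 1 ≠ 0 ∧
      (D.t (a + 1) * (a + 1))⁻¹ ≠ (D.t a * a)⁻¹ + (D.t 1 * 1)⁻¹ := by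
  by_contra hcon
  push Not at hcon
  have hR : ∀ a : F, a ≠ 0 → a + 1 ≠ 0 → D.t a ^ 2 = a := by
    intro a ha ha1
    have key : ∀ c : F, c ≠ 0 → c + 1 ≠ 0 →
        D.t c ^ 2 * (c ^ 2 + c) + D.t c * (c ^ 2 + c + 1) + (c + 1) = 0 := by
      intro c hc hc1
      have h1 := hcon c hc hc1
      have ht : D.t c ≠ 0 := fun h => hc (D.t_eq_zero.1 h)
      have ht1 : D.t c + 1 ≠ 0 := by
        intro h
        apply hc1
        apply D.t_eq_zero.1
        rw [map_add, map_one, h]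
      rw [map_add, map_one, mul_one, inv_one] at h1
      field_simp at h1
      linear_combination -h1
    have hta : D.t a ≠ 0 := fun h => ha (D.t_eq_zero.1 h)
    have hta1 : D.t a + 1 ≠ 0 := by
      intro h
      apply ha1
      apply D.t_eq_zero.1
      rw [map_add, map_one, h]
    have e1 := key a ha ha1
    have e2 := key (D.t a) hta hta1
    rw [D.tt] at e2
    obtain ⟨b, hb⟩ : ∃ b, b = D.t a := ⟨_, rfl⟩
    rw [← hb] at e1 e2 ⊢
    have e3 : b * (a ^ 2 + a + 1) = (a + 1) ^ 3 := by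
      linear_combination e2 - a * (a + 1) * e1 + (-1 + b * a + b * a ^ 2 + b * a ^ 3 + b ^ 2 * a ^ 3 - a - a ^ 2) * D.two
    have h5 : (a + 1) * a * (b ^ 2 - a) = 0 := by
      linear_combination e1 - e3 + (-1 - 2 * a - 2 * a ^ 2 - a ^ 3) * D.two
    rcases mul_eq_zero.1 h5 with h6 | h6
    · rcases mul_eq_zero.1 h6 with h7 | h7
      · exact absurd h7 ha1
      · exact absurd h7 ha
    · exact sub_eq_zero.1 h6
  have h8 : ∀ a : F, a ^ 8 = a := by
    intro a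
    by_cases ha : a = 0
    · rw [ha]; simp
    by_cases ha1 : a + 1 = 0
    · have : a = 1 := by linear_combination ha1 - D.two
      rw [this, one_pow]
    have h1 := hR a ha ha1
    have h2 := congrArg D.t h1
    rw [map_pow, D.tt] at h2
    rw [← h2] at h1
    calc a ^ 8 = ((a ^ 2) ^ 2) ^ 2 := by ring
      _ = a := h1
  have hcard : Fintype.card F ≤ 8 := by
    by_contra hlt
    push Not at hlt
    obtain ⟨r, hr⟩ := Polynomial.exists_eval_ne_zero_of_natDegree_lt_card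
      (Polynomial.X ^ 8 - Polynomial.X : Polynomial F) (by
        intro h0
        have := congrArg (fun p => Polynomial.coeff p 8) h0
        simp [Polynomial.coeff_X] at this) (by
        have hd : (Polynomial.X ^ 8 - Polynomial.X : Polynomial F).natDegree ≤ 8 := by
          compute_degree
        rw [Cardinal.mk_fintype]
        exact_mod_cast lt_of_le_of_lt hd hlt)
    apply hr
    simp [h8]
  have : 2 ^ 5 ≤ Fintype.card F := by
    rw [hF]; exact Nat.pow_le_pow_right (by norm_num) (by omega)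
  omega

/-- weights of the torus. -/
theorem exists_h (k : F) (hk : k ≠ 0) : ∃ μ : Fˣ, ∀ a b : F,
    D.h μ * D.T a b * (D.h μ)⁻¹ = D.T (k * a) (D.t k * k * b) := by
  obtain ⟨μ, hμ⟩ := D.exists_t_unit (Units.mk0 k hk)
  refine ⟨μ, fun a b => ?_⟩
  rw [D.h_conj_T, hμ, Units.val_mk0, ← D.tt, hμ, Units.val_mk0]

theorem exists_h' (n : F) (hn : n ≠ 0) : ∃ μ : Fˣ, ∀ b : F,
    D.h μ * D.T 0 b * (D.h μ)⁻¹ = D.T 0 (n * b) := by
  obtain ⟨k, hk⟩ := D.exists_norm n
  have hk0 : k ≠ 0 := by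
    rintro rfl
    apply hn; rw [← hk, mul_zero]
  obtain ⟨μ, hμ⟩ := D.exists_h k hk0
  exact ⟨μ, fun b => by rw [hμ, mul_zero, hk]⟩

section Stem

variable {Γ : Type*} [Group Γ] {σ : Γ →* Sz F m} (s : Sz F m → Γ) (hs : ∀ g, σ (s g) = g)
  (hc : σ.ker ≤ Subgroup.center Γ)

include hs hc

theorem conj_central {g k : Sz F m} (hgk : ⁅g, k⁆ = 1) (x : Γ) :
    KK s (σ x * g * (σ x)⁻¹) (σ x * k * (σ x)⁻¹) = KK s g k := by
  rw [← KK_conj s hs hc, KK_central s hs hc hgk, mul_inv_cancel_right]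

theorem step1 (hm : 1 ≤ m) (hF : Fintype.card F = 2 ^ (2 * m + 1)) (x y : F) :
    KK s (D.T 0 x) (D.T 0 y) = 1 := by
  have hcm : ∀ x y : F, ⁅D.T 0 x, D.T 0 y⁆ = 1 := by
    intro x y
    rw [D.T_comm, mul_zero, add_zero, D.T_zero]
  obtain ⟨c, hc0, hc1⟩ := SD.exists_ne (F := F) hm hF
  have hc1' : c + 1 ≠ 0 := by
    intro h
    apply hc1
    linear_combination h - D.two
  have hinv : ∀ n : F, n ≠ 0 → ∀ x y : F, KK s (D.T 0 (n * x)) (D.T 0 (n * y)) = KK s (D.T 0 x) (D.T 0 y) := by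
    intro n hn x y
    obtain ⟨μ, hμ⟩ := D.exists_h' n hn
    have := D.conj_central s hs hc (hcm x y) (s (D.h μ))
    rw [hs, hμ, hμ] at this
    exact this
  refine bil_one' (fun x y => KK s (D.T 0 x) (D.T 0 y)) ?_ ?_ c 1 hc0 one_ne_zero hc1' ?_ ?_ ?_ ?_ x y
  · intro x x' y
    have h1 : D.T 0 (x + x') = D.T 0 x' * D.T 0 x := by
      rw [D.T_mul, add_zero, map_zero, zero_mul, add_zero, add_comm]
    rw [h1, KK_mul_left s hs hc _ _ _ (KK_central s hs hc (hcm _ _) _)]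
  · intro x y y'
    have h1 : D.T 0 (y + y') = D.T 0 y * D.T 0 y' := by
      rw [D.T_mul, add_zero, map_zero, zero_mul, add_zero]
    rw [h1, KK_mul_right s hs hc _ _ _ (KK_central s hs hc (hcm _ _) _)]
  · exact hinv c hc0
  · exact hinv 1 one_ne_zero
  · exact hinv (c + 1) hc1'
  · intro h
    exact D.sq_add_add c (by linear_combination -h)

theorem step2a (hm : 1 ≤ m) (hF : Fintype.card F = 2 ^ (2 * m + 1)) (x d y : F) :
    KK s (D.T x d) (D.T 0 y) = KK s (D.T x 0) (D.T 0 y) := by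
  have hcm : ⁅D.T x 0, D.T 0 y⁆ = 1 := by
    rw [D.T_comm, map_zero, mul_zero, zero_mul, add_zero, D.T_zero]
  have h1 : D.T x d = D.T 0 d * D.T x 0 := by
    rw [D.T_mul, zero_add, map_zero, zero_mul, add_zero, add_zero]
  rw [h1, KK_mul_left s hs hc _ _ _ (KK_central s hs hc hcm _), D.step1 s hs hc hm hF, mul_one]

theorem step2 (hm : 2 ≤ m) (hF : Fintype.card F = 2 ^ (2 * m + 1)) (x d y : F) :
    KK s (D.T x d) (D.T 0 y) = 1 := by
  have hm1 : 1 ≤ m := by omega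
  rw [D.step2a s hs hc hm1 hF]
  have hcm : ∀ x y : F, ⁅D.T x 0, D.T 0 y⁆ = 1 := by
    intro x y
    rw [D.T_comm, map_zero, mul_zero, zero_mul, add_zero, D.T_zero]
  obtain ⟨a, ha, ha1, hne⟩ := D.exists_weight hm hF
  have hinv : ∀ k : F, k ≠ 0 → ∀ x y : F, KK s (D.T (k * x) 0) (D.T 0 (D.t k * k * y)) = KK s (D.T x 0) (D.T 0 y) := by
    intro n hn x y
    obtain ⟨μ, hμ⟩ := D.exists_h n hn
    have := D.conj_central s hs hc (hcm x y) (s (D.h μ))
    rw [hs, hμ, hμ, mul_zero, mul_zero] at this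
    exact this
  have ht : ∀ k : F, k ≠ 0 → D.t k * k ≠ 0 := fun k hk => mul_ne_zero (fun h => hk (D.t_eq_zero.1 h)) hk
  refine bil_one (fun x y => KK s (D.T x 0) (D.T 0 y)) ?_ ?_ a 1 _ _ _ (ht a ha) (ht 1 one_ne_zero)
    (ht (a + 1) ha1) ?_ ?_ ?_ hne x y
  · intro x x' y
    have h1 : D.T (x + x') (D.t x' * x) = D.T x' 0 * D.T x 0 := by
      rw [D.T_mul, add_zero, zero_add, add_comm]
    rw [← D.step2a s hs hc hm1 hF (x + x') (D.t x' * x), h1, KK_mul_left s hs hc _ _ _ (KK_central s hs hc (hcm _ _) _)]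
  · intro x y y'
    have h1 : D.T 0 (y + y') = D.T 0 y * D.T 0 y' := by
      rw [D.T_mul, add_zero, map_zero, zero_mul, add_zero]
    rw [h1, KK_mul_right s hs hc _ _ _ (KK_central s hs hc (hcm _ _) _)]
  · exact hinv a ha
  · exact hinv 1 one_ne_zero
  · exact hinv (a + 1) ha1

theorem step3 (hm : 2 ≤ m) (hF : Fintype.card F = 2 ^ (2 * m + 1)) {x y : Γ} {a d b : F}
    (hx : σ x = D.T a d) (hy : σ y = D.T 0 b) : x * y = y * x := by
  have h1 : ⁅x, y⁆ = 1 := by rw [KK_eq s hs hc hx hy, D.step2 s hs hc hm hF]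
  exact commutatorElement_eq_one_iff_mul_comm.1 h1

theorem step4 (hm : 2 ≤ m) (hF : Fintype.card F = 2 ^ (2 * m + 1)) (x d y e : F) :
    KK s (D.T x d) (D.T y e) = KK s (D.T x 0) (D.T y 0) := by
  have hone : ∀ x d y : F, KK s (D.T 0 y) (D.T x d) = 1 := by
    intro x d y
    rw [← KK_inv s hs hc, D.step2 s hs hc hm hF, inv_one]
  have h1 : D.T x d = D.T 0 d * D.T x 0 := by
    rw [D.T_mul, zero_add, map_zero, zero_mul, add_zero, add_zero]
  have h2 : D.T y e = D.T 0 e * D.T y 0 := by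
    rw [D.T_mul, zero_add, map_zero, zero_mul, add_zero, add_zero]
  have h3 : σ (KK s (D.T x 0) (D.T y e)) = D.T 0 (D.t x * y + D.t y * x) := by
    rw [map_KK s hs, D.T_comm]
  have h4 : s (D.T 0 d) * KK s (D.T x 0) (D.T y e) = KK s (D.T x 0) (D.T y e) * s (D.T 0 d) :=
    (D.step3 s hs hc hm hF h3 (hs _)).symm
  rw [h1, KK_mul_left s hs hc _ _ _ h4, hone, mul_one]
  have h5 : σ (KK s (D.T x 0) (D.T y 0)) = D.T 0 (D.t x * y + D.t y * x) := by
    rw [map_KK s hs, D.T_comm]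
  have h6 : s (D.T 0 e) * KK s (D.T x 0) (D.T y 0) = KK s (D.T x 0) (D.T y 0) * s (D.T 0 e) :=
    (D.step3 s hs hc hm hF h5 (hs _)).symm
  rw [h2, KK_mul_right s hs hc _ _ _ h6, D.step2 s hs hc hm hF, one_mul]

omit hs hc in
/-- the elements `T 0 b`. -/
def VV : Subgroup (Sz F m) where
  carrier := {g | ∃ b : F, g = D.T 0 b}
  mul_mem' := by
    rintro _ _ ⟨b, rfl⟩ ⟨c, rfl⟩
    exact ⟨b + c + D.t 0 * 0, by rw [D.T_mul, add_zero]⟩
  one_mem' := ⟨0, D.T_zero.symm⟩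
  inv_mem' := by
    rintro _ ⟨b, rfl⟩
    exact ⟨b + D.t 0 * 0, D.T_inv 0 b⟩

theorem finish (hm : 2 ≤ m) (hF : Fintype.card F = 2 ^ (2 * m + 1)) {z : Γ} (hz : z ∈ σ.ker)
    (hz2 : z * z = 1) (hzP : z ∈ ⁅D.P.comap σ, D.P.comap σ⁆) : z = 1 := by
  classical
  have hm1 : 1 ≤ m := by omega
  obtain ⟨Q, hQ⟩ : ∃ Q : Subgroup Γ, Q = D.VV.comap σ := ⟨_, rfl⟩
  have hQm : ∀ x : Γ, x ∈ Q ↔ ∃ b : F, σ x = D.T 0 b := by
    intro x; rw [hQ]; exact Iff.rfl
  letI iQ : CommGroup Q := { (inferInstance : Group Q) with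
    mul_comm := by
      rintro ⟨x, hx⟩ ⟨y, hy⟩
      obtain ⟨b, hb⟩ := (hQm x).1 hx
      obtain ⟨c, hcc⟩ := (hQm y).1 hy
      exact Subtype.ext (D.step3 s hs hc hm hF hb hcc) }
  have hconjQ : ∀ (μ : Fˣ) (x : Γ), x ∈ Q → s (D.h μ) * x * (s (D.h μ))⁻¹ ∈ Q := by
    intro μ x hx
    obtain ⟨b, hb⟩ := (hQm x).1 hx
    refine (hQm _).2 ⟨μ ^ 2 * D.t μ * b, ?_⟩
    rw [map_mul, map_mul, map_inv, hs, hb, D.h_conj_T, mul_zero]
  obtain ⟨α, hα⟩ : ∃ α : Fˣ → (Q →* Q), ∀ μ x, ((α μ x : Q) : Γ) = s (D.h μ) * x * (s (D.h μ))⁻¹ := by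
    refine ⟨fun μ => MonoidHom.mk' (fun x => ⟨s (D.h μ) * x * (s (D.h μ))⁻¹, hconjQ μ x x.2⟩) ?_, fun μ x => rfl⟩
    intro x y
    apply Subtype.ext
    simp only [Subgroup.coe_mul]
    group
  obtain ⟨π, hπ⟩ : ∃ π : Q →* Q, ∀ x, π x = ∏ μ : Fˣ, α μ x :=
    ⟨∏ μ : Fˣ, α μ, fun x => MonoidHom.finset_prod_apply _ _ _⟩
  have hconj_eq : ∀ (u v x : Γ), σ u = σ v → u * x * u⁻¹ = v * x * v⁻¹ := by
    intro u v x huv
    have h1 : v⁻¹ * u ∈ Subgroup.center Γ := hc (by rw [MonoidHom.mem_ker, map_mul, map_inv, huv, inv_mul_cancel])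
    have h2 : x * (v⁻¹ * u) = (v⁻¹ * u) * x := Subgroup.mem_center_iff.1 h1 x
    have h3 : u = v * (v⁻¹ * u) := by group
    calc u * x * u⁻¹ = v * ((v⁻¹ * u) * x) * (v⁻¹ * u)⁻¹ * v⁻¹ := by group
      _ = v * (x * (v⁻¹ * u)) * (v⁻¹ * u)⁻¹ * v⁻¹ := by rw [h2]
      _ = v * x * v⁻¹ := by group
  have hπinv : ∀ (ν : Fˣ) (x : Q), π (α ν x) = π x := by
    intro ν x
    rw [hπ, hπ]
    refine Fintype.prod_equiv (Equiv.mulRight ν) _ _ (fun μ => ?_)
    apply Subtype.ext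
    rw [hα, hα, hα, Equiv.coe_mulRight, ← hconj_eq (s (D.h μ) * s (D.h ν)) (s (D.h (μ * ν))) x
      (by rw [map_mul, hs, hs, hs, D.h_mul])]
    group
  have hkm : ∀ x y : F, KK s (D.T x 0) (D.T y 0) ∈ Q := by
    intro x y
    exact (hQm _).2 ⟨_, by rw [map_KK s hs, D.T_comm]⟩
  obtain ⟨k, hk⟩ : ∃ k : F → F → Q, ∀ x y, ((k x y : Q) : Γ) = KK s (D.T x 0) (D.T y 0) :=
    ⟨fun x y => ⟨_, hkm x y⟩, fun _ _ => rfl⟩
  have hcomm : ∀ (x y a d : F), s (D.T a d) * KK s (D.T x 0) (D.T y 0) = KK s (D.T x 0) (D.T y 0) * s (D.T a d) := by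
    intro x y a d
    exact D.step3 s hs hc hm hF (hs _) (by rw [map_KK s hs, D.T_comm])
  have hl : ∀ x x' y, k (x + x') y = k x y * k x' y := by
    intro x x' y
    apply Subtype.ext
    have h1 : D.T (x + x') (D.t x' * x) = D.T x' 0 * D.T x 0 := by
      rw [D.T_mul, add_zero, zero_add, add_comm]
    rw [Subgroup.coe_mul, hk, hk, hk, ← D.step4 s hs hc hm hF (x + x') (D.t x' * x) y 0, h1,
      KK_mul_left s hs hc _ _ _ (hcomm _ _ _ _)]
  have hr : ∀ x y y', k x (y + y') = k x y * k x y' := by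
    intro x y y'
    apply Subtype.ext
    have h1 : D.T (y + y') (D.t y * y') = D.T y 0 * D.T y' 0 := by
      rw [D.T_mul, add_zero, zero_add]
    rw [Subgroup.coe_mul, hk, hk, hk, ← D.step4 s hs hc hm hF x 0 (y + y') (D.t y * y'), h1,
      KK_mul_right s hs hc _ _ _ (hcomm _ _ _ _)]
  have hinv : ∀ c : F, c ≠ 0 → ∀ x y : F, π (k (c * x) (c * y)) = π (k x y) := by
    intro c hcc x y
    obtain ⟨μ, hμ⟩ := D.exists_h c hcc
    rw [← hπinv μ (k x y)]
    congr 1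
    apply Subtype.ext
    rw [hα, hk, hk, KK_conj s hs hc, hs, hμ, hμ, mul_zero]
  have hone : ∀ x y, π (k x y) = 1 := by
    obtain ⟨c, hc0, hc1⟩ := SD.exists_ne (F := F) hm1 hF
    have hc1' : c + 1 ≠ 0 := by
      intro h
      apply hc1
      linear_combination h - D.two
    refine bil_one' (fun x y => π (k x y)) (fun x x' y => ?_) (fun x y y' => ?_) c 1 hc0 one_ne_zero hc1'
      (hinv c hc0) (hinv 1 one_ne_zero) (hinv (c + 1) hc1') ?_
    · rw [hl, map_mul]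
    · rw [hr, map_mul]
    · intro h
      exact D.sq_add_add c (by linear_combination -h)
  have hle : ⁅D.P.comap σ, D.P.comap σ⁆ ≤ π.ker.map Q.subtype := by
    rw [Subgroup.commutator_le]
    intro x hx y hy
    obtain ⟨a, b, hab⟩ := D.mem_P.1 (show σ x ∈ D.P from hx)
    obtain ⟨a', b', hab'⟩ := D.mem_P.1 (show σ y ∈ D.P from hy)
    refine ⟨k a a', hone a a', ?_⟩
    rw [KK_eq s hs hc hab hab', D.step4 s hs hc hm hF, ← hk]
    rfl
  obtain ⟨y, hy, hyz⟩ := hle hzP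
  have hyz' : (y : Γ) = z := hyz
  have h1 : π y = y ^ (Fintype.card F - 1) := by
    rw [hπ, Finset.prod_congr rfl (fun μ _ => (Subtype.ext (by
      rw [hα, hyz', Subgroup.mem_center_iff.1 (hc hz) (s (D.h μ)), mul_inv_cancel_right, ]) : α μ y = y)),
      Finset.prod_const, Finset.card_univ, Fintype.card_units]
  rw [MonoidHom.mem_ker.1 hy] at h1
  have h2 : y ^ 2 = 1 := by
    apply Subtype.ext
    rw [Subgroup.coe_pow, hyz', sq, hz2]; rfl
  have h3 : y = 1 := by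
    have hodd : Nat.Coprime 2 (Fintype.card F - 1) := by
      rw [Nat.prime_two.coprime_iff_not_dvd, ← even_iff_two_dvd, Nat.not_even_iff_odd]
      have hev := D.even_q hF
      have : 2 ≤ Fintype.card F := by
        rw [hF]; exact Nat.one_lt_two_pow (by omega)
      exact Nat.Even.sub_odd (by omega) hev odd_one
    have := pow_gcd_eq_one.2 ⟨h2, h1.symm⟩
    rwa [hodd.gcd_eq_one, pow_one] at this
  rw [← hyz', h3]; rfl

end Stem

theorem no_stem_two (hm : 2 ≤ m) (hF : Fintype.card F = 2 ^ (2 * m + 1)) {Γ : Type*} [Group Γ] [Finite Γ]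
    {σ : Γ →* Sz F m} (hσ : Cfsg.IsStemExtension σ) (h2 : Nat.card σ.ker = 2) : False := by
  have hm1 : 1 ≤ m := by omega
  have hPk : σ.ker ≤ D.P.comap σ := by
    intro x hx
    rw [Subgroup.mem_comap, MonoidHom.mem_ker.1 hx]
    exact one_mem _
  have h1 := ker_le hσ Nat.prime_two h2 hPk (by
    rw [Subgroup.index_comap_of_surjective _ hσ.1]
    exact D.odd_index_P hm1 hF)
  have hbot : σ.ker = ⊥ := by
    rw [eq_bot_iff]
    intro z hz
    rw [Subgroup.mem_bot]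
    have hz2 : z * z = 1 := by
      have h3 := Subgroup.orderOf_dvd_natCard _ hz
      rw [h2] at h3
      rw [← sq]
      exact orderOf_dvd_iff_pow_eq_one.1 h3
    exact D.finish (Function.surjInv hσ.1) (Function.surjInv_eq hσ.1) hσ.2.1 hm hF hz hz2 (h1 hz)
  rw [hbot, Subgroup.card_bot] at h2
  omega

end SD

theorem mult_Sz (hm : 2 ≤ m) (hF : Fintype.card F = 2 ^ (2 * m + 1)) :
    Cfsg.HasCyclicSchurMultiplier (Cfsg.Lie.Sz F (2 ^ (m + 1))) 1 := by
  have hm1 : 1 ≤ m := by omega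
  refine trivial_of_prime ?_
  intro Γ _ _ σ hσ p hp hc
  obtain ⟨e⟩ : Nonempty (Sz F m ≃* Cfsg.Lie.Sz F (2 ^ (m + 1))) := ⟨lieEquiv hm1 hF⟩
  have hker : (e.symm.toMonoidHom.comp σ).ker = σ.ker := by
    ext x
    simp [MonoidHom.mem_ker]
  have hσ' : Cfsg.IsStemExtension (e.symm.toMonoidHom.comp σ) := by
    refine ⟨e.symm.surjective.comp hσ.1, ?_, ?_⟩
    · rw [hker]; exact hσ.2.1
    · rw [hker]; exact hσ.2.2
  have hc' : Nat.card (e.symm.toMonoidHom.comp σ).ker = p := by rw [hker, hc]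
  obtain ⟨D⟩ := exists_SD hF
  by_cases hp2 : p = 2
  · subst hp2
    exact D.no_stem_two hm hF hσ' hc'
  · haveI : Fact p.Prime := ⟨hp⟩
    exact cyclic_case hσ' hp hc' (fun P hP => sylow_cyclic hm1 hF hp2 hP)

end CfsgLib.H7S
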