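import Mathlib

set_option autoImplicit false

namespace CfsgLib.H7S3
open Subgroup

universe u

section V
variable {V : Type u} [CommGroup V]

/-- operators -/
def phi : MulAut V →* AddMonoid.End (Additive V) where
  toFun σ := MonoidHom.toAdditive (σ : V ≃* V).toMonoidHom
  map_one' := rfl
  map_mul' _ _ := rfl

theorem phi_apply (σ : MulAut V) (v : V) : phi σ (Additive.ofMul v) = Additive.ofMul (σ v) := rfl

theorem phi_inj {σ τ : MulAut V} (h : phi σ = phi τ) : σ = τ := by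
  ext v
  have := congrArg (fun f => f (Additive.ofMul v)) h
  simpa [phi_apply] using this

theorem norm3 (t : MulAut V) (ht : t ^ 3 = 1) (hf : ∀ v, t v = v → v = 1) (v : V) :
    v * t v * (t ^ 2) v = 1 := by
  apply hf
  have h3 : t ((t ^ 2) v) = v := by
    rw [← MulAut.mul_apply, ← pow_succ', ht, MulAut.one_apply]
  have h2 : t (t v) = (t ^ 2) v := by
    rw [← MulAut.mul_apply, ← pow_two]
  rw [map_mul, map_mul, h3, h2]
  simp only [mul_comm, mul_left_comm]

theorem phi3 (t : MulAut V) (ht : t ^ 3 = 1) (hf : ∀ v, t v = v → v = 1) :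
    1 + phi t + phi t ^ 2 = 0 := by
  ext v
  have := norm3 t ht hf v.toMul
  rw [← map_pow]
  exact this

theorem ring_id {R : Type*} [Ring R] (A B : R) (hA : 1 + A + A ^ 2 = 0) (hB : 1 + B + B ^ 2 = 0) :
    A * (A * B ^ 2 + B * A ^ 2) = (A * B ^ 2 + B * A ^ 2) * A := by
  have hA2 : A ^ 2 = -1 - A := by rw [eq_neg_of_add_eq_zero_right hA, neg_add']
  have hB2 : B ^ 2 = -1 - B := by rw [eq_neg_of_add_eq_zero_right hB, neg_add']
  have e1 : A * B ^ 2 + B * A ^ 2 = -A - A * B - B - B * A := by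
    rw [hA2, hB2]; noncomm_ring
  rw [e1]
  have e2 : A * (-A - A * B - B - B * A) = -A^2 - (A ^ 2 + A) * B - A * B * A := by noncomm_ring
  have e3 : (-A - A * B - B - B * A) * A = -A^2 - B * (A ^ 2 + A) - A * B * A := by noncomm_ring
  rw [e2, e3]
  have e4 : A ^ 2 + A = -1 := by rw [hA2]; abel
  rw [e4]; noncomm_ring

/-- odd order: `b²v = v → bv = v`. -/
theorem two_fix {b : MulAut V} {m : ℕ} (hm : Odd m) (hb : b ^ m = 1) {v : V} (hv : (b ^ 2) v = v) :
    b v = v := by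
  obtain ⟨k, rfl⟩ := hm
  have hpow : ∀ n : ℕ, (b ^ (2 * n)) v = v := by
    intro n
    induction n with
    | zero => simp
    | succ n ih => rw [Nat.mul_succ, pow_add, MulAut.mul_apply, hv, ih]
  have h2 : b v = b ((b ^ (2 * k)) v) := by rw [hpow k]
  rw [h2, ← MulAut.mul_apply, ← pow_succ', hb, MulAut.one_apply]

/-- coprime: `ζ` fixes `ζ v v⁻¹` then `ζ v = v`. -/
theorem coprime_fix [Finite V] {b : MulAut V} {m : ℕ} (hm : m.Coprime (Nat.card V)) (hb : b ^ m = 1)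
    {v : V} (hv : b (b v * v⁻¹) = b v * v⁻¹) : b v = v := by
  have hpow : ∀ n : ℕ, (b ^ n) v = (b v * v⁻¹) ^ n * v := by
    intro n
    induction n with
    | zero => simp
    | succ n ih =>
      rw [pow_succ', MulAut.mul_apply, ih, map_mul, map_pow, hv, pow_succ, mul_assoc, mul_assoc,
        inv_mul_cancel, mul_one]
  have h1 := hpow m
  rw [hb, MulAut.one_apply] at h1
  have h2 : (b v * v⁻¹) ^ m = 1 := by
    have h3 : 1 * v = (b v * v⁻¹) ^ m * v := by rw [one_mul]; exact h1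
    exact (mul_right_cancel h3).symm
  have h3 : orderOf (b v * v⁻¹) ∣ 1 := by
    rw [← hm]
    exact Nat.dvd_gcd (orderOf_dvd_of_pow_eq_one h2) (orderOf_dvd_natCard _)
  have h4 := orderOf_eq_one_iff.mp (Nat.dvd_one.mp h3)
  exact mul_inv_eq_one.mp h4

theorem pow_fix {v : V} {b : MulAut V} {m n : ℕ} (hmn : m.Coprime n) (hb : b ^ m = 1)
    (hv : (b ^ n) v = v) : b v = v := by
  have h1 : b ∈ MulAction.stabilizer (MulAut V) v ∨ True := Or.inr trivial
  have hz : ∀ k : ℕ, (b ^ (n * k)) v = v := by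
    intro k
    induction k with
    | zero => simp
    | succ k ih => rw [Nat.mul_succ, pow_add, MulAut.mul_apply, hv, ih]
  by_cases hn : m ≤ 1
  · interval_cases m
    · have : n = 1 := by simpa using hmn
      rw [this, pow_one] at hv; exact hv
    · rw [pow_one] at hb; rw [hb]; rfl
  · obtain ⟨k, -, hk⟩ := Nat.exists_mul_mod_eq_one_of_coprime hmn.symm (by omega)
    have h2 : b ^ (n * k) = b := by
      have h3 := Nat.div_add_mod (n * k) m
      rw [← h3, pow_add, pow_mul, hb, one_pow, one_mul, hk, pow_one]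
    have h4 := hz k
    rwa [h2] at h4

/-- central commutator step -/
theorem step [Finite V] {X : Subgroup (MulAut V)} {m : ℕ} (hodd : Odd m)
    (hm : m.Coprime (Nat.card V)) {u c : MulAut V} {S : AddMonoid.End (Additive V)}
    (hS : S = phi u + phi u⁻¹) (hSc : S * phi c = phi c * S) {ζ : MulAut V}
    (hz : c * u * c⁻¹ = u * ζ) (hzm : ζ ^ m = 1) (hzu : ζ * u = u * ζ) (hzc : ζ * c = c * ζ) :
    c * u = u * c := by
  have e0 : (c * u * c⁻¹)⁻¹ = c * u⁻¹ * c⁻¹ := by group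
  have e1 : phi (u * ζ) + phi (u * ζ)⁻¹ = phi u + phi u⁻¹ := by
    rw [← hz, e0, map_mul, map_mul, map_mul phi (c * u⁻¹), map_mul phi c u⁻¹, ← add_mul,
      ← mul_add, ← hS, ← hSc, mul_assoc, ← map_mul phi c, mul_inv_cancel, map_one, mul_one]
  have e2 : (phi (u * ζ) + phi (u * ζ)⁻¹ - (phi u + phi u⁻¹)) * phi (u * ζ) = 0 := by
    rw [e1, sub_self, zero_mul]
  have e3 : phi (u ^ 2 * ζ ^ 2) - phi (u ^ 2 * ζ) - phi ζ + 1 = 0 := by
    rw [sub_mul, add_mul, add_mul, ← map_mul, ← map_mul, ← map_mul, ← map_mul] at e2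
    have f1 : u * ζ * (u * ζ) = u ^ 2 * ζ ^ 2 := by
      rw [pow_two, pow_two, mul_assoc, ← mul_assoc ζ u, hzu]; simp only [mul_assoc]
    have f2 : (u * ζ)⁻¹ * (u * ζ) = 1 := inv_mul_cancel _
    have f3 : u * (u * ζ) = u ^ 2 * ζ := by rw [pow_two, mul_assoc]
    have f4 : u⁻¹ * (u * ζ) = ζ := by rw [inv_mul_cancel_left]
    rw [f1, f2, f3, f4, map_one] at e2
    rw [← e2]; abel
  -- conjugate by c
  have e4 : phi (u ^ 2 * ζ ^ 4) - phi (u ^ 2 * ζ ^ 3) - phi ζ + 1 = 0 := by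
    have g1 : phi c * (phi (u ^ 2 * ζ ^ 2) - phi (u ^ 2 * ζ) - phi ζ + 1) * phi c⁻¹ = 0 := by
      rw [e3, mul_zero, zero_mul]
    have g0 : c * ζ * c⁻¹ = ζ := by rw [← hzc]; group
    have hcomm : Commute u ζ := hzu.symm
    have g2 : c * (u ^ 2 * ζ ^ 2) * c⁻¹ = u ^ 2 * ζ ^ 4 := by
      have : c * (u ^ 2 * ζ ^ 2) * c⁻¹ = (c * u * c⁻¹) ^ 2 * (c * ζ * c⁻¹) ^ 2 := by
        rw [conj_pow, conj_pow]; simp only [mul_assoc, inv_mul_cancel_left]
      rw [this, hz, g0, hcomm.mul_pow, mul_assoc, ← pow_add]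
    have g3 : c * (u ^ 2 * ζ) * c⁻¹ = u ^ 2 * ζ ^ 3 := by
      have : c * (u ^ 2 * ζ) * c⁻¹ = (c * u * c⁻¹) ^ 2 * (c * ζ * c⁻¹) := by
        rw [conj_pow]; simp only [mul_assoc, inv_mul_cancel_left]
      rw [this, hz, g0, hcomm.mul_pow, mul_assoc, ← pow_succ]
    have g4 : phi c * (phi (u ^ 2 * ζ ^ 2) - phi (u ^ 2 * ζ) - phi ζ + 1) * phi c⁻¹
        = phi (c * (u ^ 2 * ζ ^ 2) * c⁻¹) - phi (c * (u ^ 2 * ζ) * c⁻¹) - phi (c * ζ * c⁻¹)
          + phi (c * c⁻¹) := by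
      rw [mul_add, mul_sub, mul_sub, add_mul, sub_mul, sub_mul, mul_one, map_mul phi _ c⁻¹,
        map_mul phi _ c⁻¹, map_mul phi _ c⁻¹, map_mul phi c c⁻¹, map_mul phi c _, map_mul phi c _,
        map_mul phi c ζ]
    rw [g4, g2, g3, g0, mul_inv_cancel, map_one] at g1
    exact g1
  -- (Z^2 - 1)(Z-1) = 0
  have e5 : phi (ζ ^ 3) - phi (ζ ^ 2) - phi ζ + 1 = 0 := by
    have h1 : phi (u ^ 2 * ζ) * (phi (ζ ^ 3) - phi (ζ ^ 2) - phi ζ + 1) = 0 := by
      have h2 : phi (u ^ 2 * ζ) * (phi (ζ ^ 3) - phi (ζ ^ 2) - phi ζ + 1)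
          = (phi (u ^ 2 * ζ ^ 4) - phi (u ^ 2 * ζ ^ 3) - phi ζ + 1)
            - (phi (u ^ 2 * ζ ^ 2) - phi (u ^ 2 * ζ) - phi ζ + 1) := by
        rw [mul_add, mul_sub, mul_sub, ← map_mul, ← map_mul, ← map_mul, mul_one]
        have k1 : u ^ 2 * ζ * ζ ^ 3 = u ^ 2 * ζ ^ 4 := by rw [mul_assoc, ← pow_succ']
        have k2 : u ^ 2 * ζ * ζ ^ 2 = u ^ 2 * ζ ^ 3 := by rw [mul_assoc, ← pow_succ']
        have k3 : u ^ 2 * ζ * ζ = u ^ 2 * ζ ^ 2 := by rw [mul_assoc, ← pow_two]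
        rw [k1, k2, k3]; abel
      rw [h2, e3, e4, sub_self]
    have h3 : phi (u ^ 2 * ζ)⁻¹ * (phi (u ^ 2 * ζ) * (phi (ζ ^ 3) - phi (ζ ^ 2) - phi ζ + 1)) = 0 := by
      rw [h1, mul_zero]
    rwa [← mul_assoc, ← map_mul, inv_mul_cancel, map_one, one_mul] at h3
  have e6 : ∀ v : V, ζ v = v := by
    intro v
    have h1 : (ζ ^ 3) v * ((ζ ^ 2) v)⁻¹ * (ζ v)⁻¹ * v = 1 := by
      have h0 := congrArg (fun f => Additive.toMul (f (Additive.ofMul v))) e5
      have h00 : (ζ ^ 3) v / (ζ ^ 2) v / ζ v * v = 1 := h0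
      rw [div_eq_mul_inv, div_eq_mul_inv] at h00
      exact h00
    have h2 : (ζ ^ 2) (ζ v * v⁻¹) = ζ v * v⁻¹ := by
      rw [map_mul, map_inv, ← MulAut.mul_apply, ← pow_succ]
      have : (ζ ^ 3) v * ((ζ ^ 2) v)⁻¹ = ζ v * v⁻¹ := by
        rw [mul_assoc ((ζ ^ 3) v * ((ζ ^ 2) v)⁻¹), mul_eq_one_iff_eq_inv] at h1
        rw [h1]; simp [mul_comm]
      exact this
    exact coprime_fix hm hzm (two_fix hodd hzm h2)
  have e7 : ζ = 1 := by ext v; exact e6 v
  rw [e7, mul_one, mul_inv_eq_iff_eq_mul] at hz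
  exact hz

theorem abel_of [Finite V] {m : ℕ} (hodd : Odd m)
    (hm : m.Coprime (Nat.card V)) (X : Subgroup (MulAut V)) (hXm : ∀ x ∈ X, x ^ m = 1)
    (hnil : Group.IsNilpotent X)
    {u w : MulAut V} (hX : X = Subgroup.closure {u, w})
    (hS : phi u + phi u⁻¹ = phi w + phi w⁻¹) : u * w = w * u := by
  classical
  have hu : u ∈ X := by rw [hX]; exact Subgroup.subset_closure (by simp)
  have hw : w ∈ X := by rw [hX]; exact Subgroup.subset_closure (by simp)
  set S := phi u + phi u⁻¹ with hSdef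
  have hSu : S * phi u = phi u * S := by
    rw [hSdef, add_mul, mul_add, ← map_mul, ← map_mul, ← map_mul, inv_mul_cancel,
      mul_inv_cancel]
  have hSw : S * phi w = phi w * S := by
    rw [hS, add_mul, mul_add, ← map_mul, ← map_mul, ← map_mul, inv_mul_cancel,
      mul_inv_cancel]
  have hSX : ∀ x ∈ X, S * phi x = phi x * S := by
    intro x hx
    rw [hX] at hx
    refine Subgroup.closure_induction ?_ ?_ ?_ ?_ hx
    · rintro y hy
      rcases hy with rfl | rfl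
      · exact hSu
      · exact hSw
    · rw [map_one, mul_one, one_mul]
    · intro a b _ _ ha hb
      rw [map_mul, ← mul_assoc, ha, mul_assoc, hb, mul_assoc]
    · intro a _ ha
      calc S * phi a⁻¹ = phi a⁻¹ * (phi a * S) * phi a⁻¹ := by
            rw [← mul_assoc, ← map_mul, inv_mul_cancel, map_one, one_mul]
        _ = phi a⁻¹ * (S * phi a) * phi a⁻¹ := by rw [ha]
        _ = phi a⁻¹ * S := by
            rw [mul_assoc, mul_assoc, ← map_mul, mul_inv_cancel, map_one, mul_one]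
  have key : ∀ c : X, (∀ y : X, c * y * c⁻¹ * y⁻¹ ∈ Subgroup.center X) → c ∈ Subgroup.center X := by
    intro c hc
    have h1 : ∀ z : MulAut V, z ∈ X → S = phi z + phi z⁻¹ → (c : MulAut V) * z = z * c := by
      intro z hz hSz
      have h2 := hc ⟨z, hz⟩
      rw [Subgroup.mem_center_iff] at h2
      set ζ : X := c * ⟨z, hz⟩ * c⁻¹ * (⟨z, hz⟩ : X)⁻¹ with hζ
      have h3 : ((c : X) * ⟨z, hz⟩ * c⁻¹ : X) = ⟨z, hz⟩ * ζ := by
        rw [h2, hζ]; group
      refine step (X := X) hodd hm hSz (hSX c c.2) (ζ := ζ) ?_ (hXm _ ζ.2) ?_ ?_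
      · exact congrArg Subtype.val h3
      · exact (congrArg Subtype.val (h2 ⟨z, hz⟩)).symm
      · exact (congrArg Subtype.val (h2 c)).symm
    have h4 : (c : MulAut V) ∈ Subgroup.centralizer (X : Set (MulAut V)) := by
      have hXc : Subgroup.centralizer (X : Set (MulAut V)) = Subgroup.centralizer {u, w} := by
        rw [hX, Subgroup.centralizer_closure]
      rw [hXc, Subgroup.mem_centralizer_iff]
      rintro z hz
      rcases hz with rfl | rfl
      · exact (h1 _ hu rfl).symm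
      · exact (h1 _ hw hS).symm
    rw [Subgroup.mem_center_iff]
    intro y
    exact Subtype.ext (Subgroup.mem_centralizer_iff.mp h4 y y.2)
  have hucs : ∀ n : ℕ, Subgroup.upperCentralSeries X n ≤ Subgroup.center X := by
    intro n
    induction n with
    | zero => rw [Subgroup.upperCentralSeries_zero]; exact bot_le
    | succ n ih =>
      intro c hc
      rw [Subgroup.mem_upperCentralSeries_succ_iff] at hc
      exact key c (fun y => ih (hc y))
  obtain ⟨n, hn⟩ := hnil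
  have h5 : (⟨u, hu⟩ : X) ∈ Subgroup.center X := hucs n (by rw [hn]; exact Subgroup.mem_top _)
  rw [Subgroup.mem_center_iff] at h5
  exact (congrArg Subtype.val (h5 ⟨w, hw⟩)).symm

end V
end CfsgLib.H7S3
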