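import Cfsg.Agent.Lib.H7S3a

set_option autoImplicit false

namespace CfsgLib.H7S3
open Subgroup

universe u

section V
variable {V : Type u} [CommGroup V]

def F (N : Subgroup (MulAut V)) (σ : MulAut V) : Subgroup V where
  carrier := {v | ∀ n ∈ N, (n * σ * n⁻¹ * σ⁻¹) v = v}
  one_mem' := fun n _ => map_one _
  mul_mem' := fun {x y} hx hy n hn => by rw [map_mul, hx n hn, hy n hn]
  inv_mem' := fun {x} hx n hn => by rw [map_inv, hx n hn]

theorem mem_F {N : Subgroup (MulAut V)} {σ : MulAut V} {v : V} :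
    v ∈ F N σ ↔ ∀ n ∈ N, (n * σ * n⁻¹ * σ⁻¹) v = v := Iff.rfl

variable (N : Subgroup (MulAut V)) [Fintype N]

def P (σ : MulAut V) (x : V) : V := ∏ n : N, ((n : MulAut V) * σ * (n : MulAut V)⁻¹ * σ⁻¹) x

theorem P_mul (σ : MulAut V) (x y : V) : P N σ (x * y) = P N σ x * P N σ y := by
  simp only [P, map_mul, Finset.prod_mul_distrib]

theorem P_of_mem {σ : MulAut V} {x : V} (hx : x ∈ F N σ) : P N σ x = x ^ Nat.card N := by
  have h : ∀ n : N, ((n : MulAut V) * σ * (n : MulAut V)⁻¹ * σ⁻¹) x = x :=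
    fun n => hx (n : MulAut V) n.2
  simp only [P, h, Finset.prod_const, Finset.card_univ, Nat.card_eq_fintype_card]

variable {N}

theorem P_mem (hab : ∀ a ∈ N, ∀ b ∈ N, a * b = b * a) {σ : MulAut V}
    (hσ : ∀ n ∈ N, σ * n * σ⁻¹ ∈ N) (x : V) : P N σ x ∈ F N σ := by
  intro m hm
  rw [P, map_prod]
  have h1 : ∀ n : N, (m * σ * m⁻¹ * σ⁻¹) (((n : MulAut V) * σ * (n : MulAut V)⁻¹ * σ⁻¹) x)
      = ((((⟨m, hm⟩ * n : N) : MulAut V)) * σ * (((⟨m, hm⟩ * n : N) : MulAut V))⁻¹ * σ⁻¹) x := by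
    intro n
    rw [← MulAut.mul_apply]
    congr 1
    show (m * σ * m⁻¹ * σ⁻¹) * ((n : MulAut V) * σ * (n : MulAut V)⁻¹ * σ⁻¹)
      = (m * n) * σ * (m * n)⁻¹ * σ⁻¹
    have e1 : (σ * m⁻¹ * σ⁻¹) * (n : MulAut V) = n * (σ * m⁻¹ * σ⁻¹) :=
      hab _ (hσ _ (N.inv_mem hm)) _ n.2
    have e2 : (m : MulAut V)⁻¹ * (n : MulAut V)⁻¹ = (n : MulAut V)⁻¹ * m⁻¹ :=
      hab _ (N.inv_mem hm) _ (N.inv_mem n.2)
    calc (m * σ * m⁻¹ * σ⁻¹) * ((n : MulAut V) * σ * (n : MulAut V)⁻¹ * σ⁻¹)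
        = m * ((σ * m⁻¹ * σ⁻¹) * (n : MulAut V)) * σ * (n : MulAut V)⁻¹ * σ⁻¹ := by
          simp only [mul_assoc]
      _ = m * n * σ * (m⁻¹ * (n : MulAut V)⁻¹) * σ⁻¹ := by
          rw [e1]; simp only [mul_assoc, inv_mul_cancel_left]
      _ = (m * n) * σ * (m * n)⁻¹ * σ⁻¹ := by rw [e2, mul_inv_rev]
  rw [Finset.prod_congr rfl (fun n _ => h1 n)]
  exact (Group.mulLeft_bijective (⟨m, hm⟩ : N)).prod_comp
    (fun n : N => ((n : MulAut V) * σ * (n : MulAut V)⁻¹ * σ⁻¹) x)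

theorem P_comm (hab : ∀ a ∈ N, ∀ b ∈ N, a * b = b * a) {σ : MulAut V}
    (hσ : ∀ n ∈ N, σ * n * σ⁻¹ ∈ N) {m : MulAut V} (hm : m ∈ N) (x : V) :
    m (P N σ x) = P N σ (m x) := by
  rw [P, map_prod, P]
  refine Finset.prod_congr rfl (fun n _ => ?_)
  rw [← MulAut.mul_apply, ← MulAut.mul_apply]
  congr 1
  apply hab m hm
  have : (n : MulAut V) * σ * (n : MulAut V)⁻¹ * σ⁻¹ = n * (σ * (n : MulAut V)⁻¹ * σ⁻¹) := by
    simp only [mul_assoc]
  rw [this]
  exact N.mul_mem n.2 (hσ _ (N.inv_mem n.2))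

theorem comm_mem {σ : MulAut V} (hσ : ∀ n ∈ N, σ * n * σ⁻¹ ∈ N) {n : MulAut V} (hn : n ∈ N) :
    n * σ * n⁻¹ * σ⁻¹ ∈ N := by
  have : n * σ * n⁻¹ * σ⁻¹ = n * (σ * n⁻¹ * σ⁻¹) := by simp only [mul_assoc]
  rw [this]
  exact N.mul_mem hn (hσ _ (N.inv_mem hn))

/-- `P σ` preserves `F τ`. -/
theorem P_pres (hab : ∀ a ∈ N, ∀ b ∈ N, a * b = b * a) {σ τ : MulAut V}
    (hσ : ∀ n ∈ N, σ * n * σ⁻¹ ∈ N) (hτ : ∀ n ∈ N, τ * n * τ⁻¹ ∈ N) {x : V} (hx : x ∈ F N τ) :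
    P N σ x ∈ F N τ := by
  intro n hn
  rw [P_comm hab hσ (comm_mem hτ hn), hx n hn]

theorem F_inv (hab : ∀ a ∈ N, ∀ b ∈ N, a * b = b * a) {σ : MulAut V}
    (hσ : ∀ n ∈ N, σ⁻¹ * n * σ ∈ N) {x : V} (hx : x ∈ F N σ) : x ∈ F N σ⁻¹ := by
  intro n hn
  have hm := hσ _ (N.inv_mem hn)
  have h1 := hx _ hm
  have h2 : n * σ⁻¹ * n⁻¹ * σ⁻¹⁻¹ = (σ⁻¹ * n⁻¹ * σ) * σ * (σ⁻¹ * n⁻¹ * σ)⁻¹ * σ⁻¹ := by
    have h3 := hab _ hn _ hm
    calc n * σ⁻¹ * n⁻¹ * σ⁻¹⁻¹ = n * (σ⁻¹ * n⁻¹ * σ) := by rw [inv_inv]; simp only [mul_assoc]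
      _ = (σ⁻¹ * n⁻¹ * σ) * n := h3
      _ = _ := by group
  rw [h2]; exact h1

theorem F_conj {σ g : MulAut V} (hg : ∀ n ∈ N, g⁻¹ * n * g ∈ N) {x : V} (hx : x ∈ F N σ) :
    g x ∈ F N (g * σ * g⁻¹) := by
  intro n hn
  have h1 := hx _ (hg n hn)
  have h2 : (n * (g * σ * g⁻¹) * n⁻¹ * (g * σ * g⁻¹)⁻¹) (g x)
      = g (((g⁻¹ * n * g) * σ * (g⁻¹ * n * g)⁻¹ * σ⁻¹) x) := by
    rw [← MulAut.mul_apply, ← MulAut.mul_apply]; congr 1; group
  rw [h2, h1]

theorem P_conj (σ : MulAut V) (v : V) :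
    P N σ (σ v) = ∏ n : N, ((n : MulAut V) * σ * (n : MulAut V)⁻¹) v := by
  rw [P]
  refine Finset.prod_congr rfl (fun n _ => ?_)
  rw [← MulAut.mul_apply]
  congr 1
  group

omit [Fintype N] in
theorem fix_of_pow [Finite V] {n : ℕ} (hco : n.Coprime (Nat.card V)) {b : MulAut V} {v : V}
    (h : b (v ^ n) = v ^ n) : b v = v := by
  rw [map_pow] at h
  have h22 : (b v * v⁻¹) ^ n = 1 := by rw [mul_pow, h, inv_pow, mul_inv_cancel]
  have h23 : orderOf (b v * v⁻¹) ∣ 1 := by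
    rw [← hco]
    exact Nat.dvd_gcd (orderOf_dvd_of_pow_eq_one h22) (orderOf_dvd_natCard (b v * v⁻¹))
  exact mul_inv_eq_one.mp (orderOf_eq_one_iff.mp (Nat.dvd_one.mp h23))

omit [Fintype N] in
theorem mem_of_pow [Finite V] {n : ℕ} (hco : n.Coprime (Nat.card V)) {W : Subgroup V} {v : V}
    (h : v ^ n ∈ W) : v ∈ W := by
  have hco' : (orderOf v).Coprime n :=
    Nat.Coprime.coprime_dvd_left (orderOf_dvd_natCard v) hco.symm
  obtain ⟨m, hm⟩ := exists_pow_eq_self_of_coprime hco'.symm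
  rw [← hm]; exact W.pow_mem h m

theorem lemAb [Finite V] (r : MulAut V) (hr : r ^ 3 = 1) (hfV : ∀ v, r v = v → v = 1)
    (hab : ∀ a ∈ N, ∀ b ∈ N, a * b = b * a) (hN : ∀ n ∈ N, r * n * r⁻¹ ∈ N)
    (hco : (Nat.card N).Coprime (Nat.card V)) : ∀ n ∈ N, n * r = r * n := by
  classical
  have hN2 : ∀ n ∈ N, r ^ 2 * n * (r ^ 2)⁻¹ ∈ N := by
    intro n hn
    have := hN _ (hN n hn)
    have e : r * (r * n * r⁻¹) * r⁻¹ = r ^ 2 * n * (r ^ 2)⁻¹ := by rw [pow_two]; group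
    rwa [e] at this
  have hri : r⁻¹ = r ^ 2 := by
    rw [eq_comm, eq_inv_iff_mul_eq_one, ← pow_succ, hr]
  have hri2 : (r ^ 2)⁻¹ = r := by rw [← hri, inv_inv]
  have hN' : ∀ n ∈ N, r⁻¹ * n * r ∈ N := by
    intro n hn
    have := hN2 n hn
    rw [hri2] at this
    rw [hri]; exact this
  have key : ∀ v : V, v ^ Nat.card N ∈ F N r := by
    intro v
    have hb3 : ∀ b : N, ((b : MulAut V) * r * (b : MulAut V)⁻¹) ^ 3 = 1 := by
      intro b; rw [conj_pow, hr]; simp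
    have hbf : ∀ b : N, ∀ w, ((b : MulAut V) * r * (b : MulAut V)⁻¹) w = w → w = 1 := by
      intro b w hw
      have h14 : r ((b : MulAut V)⁻¹ w) = (b : MulAut V)⁻¹ w := by
        rw [MulAut.mul_apply, MulAut.mul_apply] at hw
        calc r ((b : MulAut V)⁻¹ w) = (b : MulAut V)⁻¹ ((b : MulAut V) (r ((b : MulAut V)⁻¹ w))) := by
              exact (MulAut.inv_apply_self V _ _).symm
          _ = (b : MulAut V)⁻¹ w := by rw [hw]
      have h15 := hfV _ h14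
      have h16 := congrArg (b : MulAut V) h15
      rwa [← MulAut.mul_apply, mul_inv_cancel, MulAut.one_apply, map_one] at h16
    have h17 : ∀ b : N, v * ((b : MulAut V) * r * (b : MulAut V)⁻¹) v *
        ((b : MulAut V) * r ^ 2 * (b : MulAut V)⁻¹) v = 1 := by
      intro b
      have := norm3 _ (hb3 b) (hbf b) v
      rw [conj_pow] at this
      exact this
    have h18 : ∏ b : N, (v * ((b : MulAut V) * r * (b : MulAut V)⁻¹) v *
        ((b : MulAut V) * r ^ 2 * (b : MulAut V)⁻¹) v) = 1 :=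
      Finset.prod_eq_one (fun b _ => h17 b)
    rw [Finset.prod_mul_distrib, Finset.prod_mul_distrib, Finset.prod_const, Finset.card_univ,
      ← Nat.card_eq_fintype_card, ← P_conj, ← P_conj] at h18
    have h19 : P N r (r v) ∈ F N r := P_mem hab hN _
    have h20 : P N (r ^ 2) ((r ^ 2) v) ∈ F N r := by
      have h21 : P N (r ^ 2) ((r ^ 2) v) ∈ F N (r ^ 2) := P_mem hab hN2 _
      have h22 := F_inv hab (σ := r ^ 2) (by
        intro n hn; rw [hri2, ← hri]; exact hN n hn) h21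
      rwa [hri2] at h22
    have h23 : v ^ Nat.card N = (P N r (r v) * P N (r ^ 2) ((r ^ 2) v))⁻¹ := by
      rw [eq_inv_iff_mul_eq_one, ← mul_assoc]; exact h18
    rw [h23]
    exact (F N r).inv_mem ((F N r).mul_mem h19 h20)
  intro n hn
  have h1 : n * r * n⁻¹ * r⁻¹ = 1 := by
    ext v
    exact fix_of_pow hco (key v n hn)
  rw [mul_inv_eq_one, mul_inv_eq_iff_eq_mul] at h1
  exact h1

theorem closure_comm {X : Type*} [Group X] {S : Set X} (hS : ∀ a ∈ S, ∀ b ∈ S, a * b = b * a) :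
    ∀ a ∈ Subgroup.closure S, ∀ b ∈ Subgroup.closure S, a * b = b * a := by
  have h1 : Subgroup.closure S ≤ Subgroup.centralizer (Subgroup.closure S : Set X) := by
    rw [Subgroup.closure_le, Subgroup.centralizer_closure]
    intro s hs
    rw [SetLike.mem_coe, Subgroup.mem_centralizer_iff]
    intro t ht
    exact hS t ht s hs
  intro a ha b hb
  exact (Subgroup.mem_centralizer_iff.mp (h1 ha) b hb).symm

omit [Fintype N] in
theorem lemQ [Finite V] (r : MulAut V) (hr : r ^ 3 = 1) (hfV : ∀ v, r v = v → v = 1)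
    (Q : Subgroup (MulAut V)) (hQ : ∀ q ∈ Q, r * q * r⁻¹ ∈ Q) (hnil : Group.IsNilpotent Q)
    (hco : (Nat.card Q).Coprime (Nat.card V)) (hodd : Odd (Nat.card Q))
    (h3 : (Nat.card Q).Coprime 3) : ∀ q ∈ Q, q * r = r * q := by
  classical
  intro h hh
  haveI : Finite Q := Nat.finite_of_card_ne_zero (by rcases hodd with ⟨k, hk⟩; omega)
  have hri : r⁻¹ = r ^ 2 := by
    rw [eq_comm, eq_inv_iff_mul_eq_one, ← pow_succ, hr]
  have hQm : ∀ x ∈ Q, x ^ Nat.card Q = 1 := by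
    intro x hx
    have h1 : (⟨x, hx⟩ : Q) ^ Nat.card Q = 1 := pow_card_eq_one'
    exact congrArg Subtype.val h1
  obtain ⟨u, hu⟩ : ∃ u, u = r * h * r⁻¹ * h⁻¹ := ⟨_, rfl⟩
  have huQ : u ∈ Q := by rw [hu]; exact Q.mul_mem (hQ h hh) (Q.inv_mem hh)
  obtain ⟨w, hw⟩ : ∃ w, w = r * u * r⁻¹ := ⟨_, rfl⟩
  have hwQ : w ∈ Q := by rw [hw]; exact hQ u huQ
  obtain ⟨w', hw'⟩ : ∃ w', w' = r * w * r⁻¹ := ⟨_, rfl⟩
  have hwQ' : w' ∈ Q := by rw [hw']; exact hQ w hwQ
  obtain ⟨b, hb⟩ : ∃ b, b = h * r * h⁻¹ := ⟨_, rfl⟩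
  have hb3 : b ^ 3 = 1 := by rw [hb, conj_pow, hr]; simp
  have hbf : ∀ v, b v = v → v = 1 := by
    intro v hv
    have h14 : r (h⁻¹ v) = h⁻¹ v := by
      rw [hb, MulAut.mul_apply, MulAut.mul_apply] at hv
      calc r (h⁻¹ v) = h⁻¹ (h (r (h⁻¹ v))) := (MulAut.inv_apply_self V _ _).symm
        _ = h⁻¹ v := by rw [hv]
    have h15 := hfV _ h14
    have h16 := congrArg h h15
    rwa [← MulAut.mul_apply, mul_inv_cancel, MulAut.one_apply, map_one] at h16
  have hA := phi3 r hr hfV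
  have hB := phi3 b hb3 hbf
  have hz := ring_id _ _ hA hB
  have hub : u = r * b ^ 2 := by
    have hbi : b ^ 2 = b⁻¹ := by rw [eq_inv_iff_mul_eq_one, ← pow_succ, hb3]
    rw [hbi, hu, hb]; group
  have hub' : u⁻¹ = b * r ^ 2 := by
    rw [← hri, hu, hb]; group
  have hS : phi u + phi u⁻¹ = phi r * phi b ^ 2 + phi b * phi r ^ 2 := by
    rw [hub', hub, map_mul, map_mul, map_pow, map_pow]
  rw [← hS] at hz
  have hSw : phi u + phi u⁻¹ = phi w + phi w⁻¹ := by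
    have e1 : phi w + phi w⁻¹ = phi r * (phi u + phi u⁻¹) * phi r⁻¹ := by
      have : w⁻¹ = r * u⁻¹ * r⁻¹ := by rw [hw]; group
      rw [this, hw, map_mul, map_mul, map_mul phi _ r⁻¹, map_mul phi r _, mul_add, add_mul]
    rw [e1, hz, mul_assoc, ← map_mul, mul_inv_cancel, map_one, mul_one]
  have huw : u * w = w * u := by
    have hX : Subgroup.closure {u, w} ≤ Q := by
      rw [Subgroup.closure_le]
      rintro x hx
      rcases hx with rfl | rfl
      · exact huQ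
      · exact hwQ
    refine abel_of hodd hco (Subgroup.closure {u, w}) (fun x hx => hQm x (hX hx)) ?_ rfl hSw
    haveI := hnil
    exact Subgroup.isNilpotent_of_ker_le_center (Subgroup.inclusion hX)
      (by rw [(MonoidHom.ker_eq_bot_iff _).mpr (Subgroup.inclusion_injective hX)]; exact bot_le)
  have hww' : w * w' = w' * w := by
    have e1 : w * w' = r * (u * w) * r⁻¹ := by rw [hw', hw]; group
    have e2 : w' * w = r * (w * u) * r⁻¹ := by rw [hw', hw]; group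
    rw [e1, e2, huw]
  have hw'u : r * w' * r⁻¹ = u := by
    have : r * w' * r⁻¹ = r ^ 3 * u * (r ^ 3)⁻¹ := by
      rw [hw', hw]; simp only [pow_succ, pow_zero, one_mul, mul_inv_rev, mul_assoc]
    rw [this, hr]; simp
  have hw'u2 : w' * u = u * w' := by
    have e1 : w' * u = r * (w * w') * r⁻¹ := by
      have : r * (w * w') * r⁻¹ = (r * w * r⁻¹) * (r * w' * r⁻¹) := by group
      rw [this, hw'u, ← hw']
    have e2 : u * w' = r * (w' * w) * r⁻¹ := by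
      have : r * (w' * w) * r⁻¹ = (r * w' * r⁻¹) * (r * w * r⁻¹) := by group
      rw [this, hw'u, ← hw']
    rw [e1, e2, hww']
  let B : Subgroup (MulAut V) := Subgroup.closure {u, w, w'}
  have hBQ : B ≤ Q := by
    rw [Subgroup.closure_le]
    rintro x hx
    rcases hx with rfl | rfl | rfl
    · exact huQ
    · exact hwQ
    · exact hwQ'
  haveI : Finite B := Finite.of_injective (Subgroup.inclusion hBQ) (Subgroup.inclusion_injective hBQ)
  letI : Fintype B := Fintype.ofFinite B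
  have hBab : ∀ x ∈ B, ∀ y ∈ B, x * y = y * x := by
    apply closure_comm
    rintro x hx y hy
    rcases hx with rfl | rfl | rfl <;> rcases hy with rfl | rfl | rfl <;>
      first | rfl | assumption | (symm; assumption)
  have hBr : ∀ x ∈ B, r * x * r⁻¹ ∈ B := by
    intro x hx
    refine Subgroup.closure_induction (p := fun x _ => r * x * r⁻¹ ∈ B) ?_ ?_ ?_ ?_ hx
    · rintro y hy
      rcases hy with rfl | rfl | rfl
      · rw [← hw]; exact Subgroup.subset_closure (by simp)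
      · rw [← hw']; exact Subgroup.subset_closure (by simp)
      · rw [hw'u]; exact Subgroup.subset_closure (by simp)
    · simp [B.one_mem]
    · intro a c _ _ ha hc
      have : r * (a * c) * r⁻¹ = (r * a * r⁻¹) * (r * c * r⁻¹) := by group
      rw [this]; exact B.mul_mem ha hc
    · intro a _ ha
      have : r * a⁻¹ * r⁻¹ = (r * a * r⁻¹)⁻¹ := by group
      rw [this]; exact B.inv_mem ha
  have huB := lemAb r hr hfV hBab hBr
    (Nat.Coprime.coprime_dvd_left (Subgroup.card_dvd_of_le hBQ) hco) u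
    (Subgroup.subset_closure (by simp))
  -- u commutes with r
  have h1 : r * h * r⁻¹ = u * h := by rw [hu]; group
  have h2 : r * (r * h * r⁻¹) * r⁻¹ = u * (u * h) := by
    have : r * (u * h) * r⁻¹ = (r * u * r⁻¹) * (r * h * r⁻¹) := by group
    rw [h1, this, h1, ← huB]; group
  have h3' : r * (r * (r * h * r⁻¹) * r⁻¹) * r⁻¹ = u * (u * (u * h)) := by
    have : r * (u * (u * h)) * r⁻¹ = (r * u * r⁻¹) * (r * (u * h) * r⁻¹) := by group
    rw [h2, this]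
    have e : r * (u * h) * r⁻¹ = u * (u * h) := by
      have h2c := h2
      rw [h1] at h2c; exact h2c
    rw [e, ← huB]; group
  have h4 : r * (r * (r * h * r⁻¹) * r⁻¹) * r⁻¹ = h := by
    have : r * (r * (r * h * r⁻¹) * r⁻¹) * r⁻¹ = r ^ 3 * h * (r ^ 3)⁻¹ := by
      simp only [pow_succ, pow_zero, one_mul, mul_inv_rev, mul_assoc]
    rw [this, hr]; simp
  have h5 : u ^ 3 = 1 := by
    rw [h4] at h3'
    have : u ^ 3 * h = 1 * h := by
      rw [one_mul, pow_succ, pow_two]; simp only [mul_assoc]; exact h3'.symm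
    exact mul_right_cancel this
  have h6 : u = 1 := by
    rw [← orderOf_eq_one_iff]
    apply Nat.dvd_one.mp
    rw [← h3]
    exact Nat.dvd_gcd (orderOf_dvd_of_pow_eq_one (hQm u huQ)) (orderOf_dvd_of_pow_eq_one h5)
  rw [h6, one_mul, mul_inv_eq_iff_eq_mul] at h1
  exact h1.symm

end V
end CfsgLib.H7S3
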