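import Cfsg.Agent.Lib.H7S3b
import Cfsg.Agent.Lib.Coprime

set_option autoImplicit false

namespace CfsgLib.H7S3
open Subgroup

universe u

theorem norm6 {W : Type u} [CommGroup W] (r t : MulAut W) (hr : r ^ 3 = 1) (ht : t ^ 2 = 1)
    (htr : t * r * t⁻¹ = r⁻¹) (hf : ∀ v, r v = v → t v = v → v = 1) (v : W) :
    v * r v * (r ^ 2) v * t v * (r * t) v * (r ^ 2 * t) v = 1 := by
  have hri : r⁻¹ = r ^ 2 := by
    rw [eq_comm, eq_inv_iff_mul_eq_one, ← pow_succ, hr]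
  have h1 : t * r = r ^ 2 * t := by rw [← hri, ← htr]; group
  have h2 : t * r ^ 2 = r * t := by
    have : t * r ^ 2 = (t * r) * r := by rw [pow_two]; group
    rw [this, h1]
    have : r ^ 2 * t * r = r ^ 2 * (t * r) := by group
    rw [this, h1, ← mul_assoc, ← pow_add]
    have : r ^ (2 + 2) = r ^ 3 * r := by rw [← pow_succ]
    rw [this, hr, one_mul]
  have ht2 : t * t = 1 := by rw [← pow_two]; exact ht
  apply hf
  · simp only [map_mul, ← MulAut.mul_apply]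
    have e1 : r * r ^ 2 = 1 := by rw [← pow_succ', hr]
    have e2 : r * (r * t) = r ^ 2 * t := by rw [← mul_assoc, ← pow_two]
    have e3 : r * (r ^ 2 * t) = t := by rw [← mul_assoc, e1, one_mul]
    have e4 : r * r = r ^ 2 := (pow_two r).symm
    rw [e1, e2, e3, e4, MulAut.one_apply]
    ac_rfl
  · simp only [map_mul, ← MulAut.mul_apply]
    have e1 : t * (r * t) = r ^ 2 := by rw [← mul_assoc, h1, mul_assoc, ht2, mul_one]
    have e2 : t * (r ^ 2 * t) = r := by rw [← mul_assoc, h2, mul_assoc, ht2, mul_one]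
    rw [e1, e2, h1, h2, ht2, MulAut.one_apply]
    ac_rfl

theorem six {W : Type u} [CommGroup W] (m a b c d e : W) (h : m⁻¹ * a * b * c * d * e = 1) :
    (m * a) * (m * b) * (m * c) * (m * d) * (m * e) = m ^ 6 := by
  have h1 : a * b * c * d * e = m := by
    have : m⁻¹ * (a * b * c * d * e) = 1 := by rw [← h]; simp only [mul_assoc]
    exact (inv_mul_eq_one.mp this).symm
  calc (m * a) * (m * b) * (m * c) * (m * d) * (m * e)
      = (m * m * m * m * m) * (a * b * c * d * e) := by ac_rfl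
    _ = m ^ 6 := by rw [h1]; simp only [pow_succ, pow_zero, one_mul]

section V
variable {V : Type u} [CommGroup V]

theorem nz {N : Subgroup (MulAut V)} {σ : MulAut V} (h : σ ∈ Subgroup.normalizer (N : Set (MulAut V))) :
    ∀ n ∈ N, σ * n * σ⁻¹ ∈ N := fun n hn => (Subgroup.mem_normalizer_iff.mp h n).mp hn

theorem nz' {N : Subgroup (MulAut V)} {σ : MulAut V} (h : σ ∈ Subgroup.normalizer (N : Set (MulAut V))) :
    ∀ n ∈ N, σ⁻¹ * n * σ ∈ N := by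
  intro n hn
  have := nz ((Subgroup.normalizer (N : Set (MulAut V))).inv_mem h) n hn
  rwa [inv_inv] at this

/-- cover lemma -/
theorem cover [Finite V] {A H : Subgroup (MulAut V)} (hc : CfsgLib.Coprime.CopAct A H) {x y : MulAut V}
    (hxy : Subgroup.closure {x, y} = A) {h : MulAut V} (hh : h ∈ H) :
    ∃ k ∈ H, ∀ a ∈ A, k⁻¹ * a * k ∈ Subgroup.closure {x, h * y * h⁻¹} := by
  classical
  set Y := Subgroup.closure {x, h * y * h⁻¹} with hY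
  have hxA : x ∈ A := by rw [← hxy]; exact Subgroup.subset_closure (by simp)
  have hyA : y ∈ A := by rw [← hxy]; exact Subgroup.subset_closure (by simp)
  have hAn : A ≤ Subgroup.normalizer (H : Set (MulAut V)) := hc.1
  have hHn : H ≤ Subgroup.normalizer (H : Set (MulAut V)) := Subgroup.le_normalizer
  have hYn : Y ≤ Subgroup.normalizer (H : Set (MulAut V)) := by
    rw [hY, Subgroup.closure_le]
    rintro z hz
    rcases hz with rfl | rfl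
    · exact hAn hxA
    · exact Subgroup.mul_mem _ (Subgroup.mul_mem _ (hHn hh) (hAn hyA)) (Subgroup.inv_mem _ (hHn hh))
  have hyY : h * y * h⁻¹ ∈ Y := Subgroup.subset_closure (by simp)
  have hcov : ∀ a ∈ A, ∃ k ∈ H, k⁻¹ * a ∈ Y := by
    intro a ha
    rw [← hxy] at ha
    refine Subgroup.closure_induction (p := fun a _ => ∃ k ∈ H, k⁻¹ * a ∈ Y) ?_ ?_ ?_ ?_ ha
    · rintro z hz
      rcases hz with rfl | rfl
      · exact ⟨1, H.one_mem, by rw [inv_one, one_mul]; exact Subgroup.subset_closure (by simp)⟩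
      · refine ⟨h⁻¹ * ((h * z * h⁻¹) * h * (h * z * h⁻¹)⁻¹), H.mul_mem (H.inv_mem hh)
          (nz (hYn hyY) h hh), ?_⟩
        have : (h⁻¹ * ((h * z * h⁻¹) * h * (h * z * h⁻¹)⁻¹))⁻¹ * z = h * z * h⁻¹ := by group
        rw [this]; exact hyY
    · exact ⟨1, H.one_mem, by rw [inv_one, one_mul]; exact Y.one_mem⟩
    · rintro a b _ _ ⟨k1, hk1, h1⟩ ⟨k2, hk2, h2⟩
      refine ⟨k1 * ((k1⁻¹ * a) * k2 * (k1⁻¹ * a)⁻¹), H.mul_mem hk1 (nz (hYn h1) k2 hk2), ?_⟩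
      have : (k1 * ((k1⁻¹ * a) * k2 * (k1⁻¹ * a)⁻¹))⁻¹ * (a * b) = (k1⁻¹ * a) * (k2⁻¹ * b) := by group
      rw [this]; exact Y.mul_mem h1 h2
    · rintro a _ ⟨k1, hk1, h1⟩
      refine ⟨(k1⁻¹ * a)⁻¹ * k1⁻¹ * (k1⁻¹ * a)⁻¹⁻¹, nz (Subgroup.inv_mem _ (hYn h1)) _ (H.inv_mem hk1), ?_⟩
      have : ((k1⁻¹ * a)⁻¹ * k1⁻¹ * (k1⁻¹ * a)⁻¹⁻¹)⁻¹ * a⁻¹ = (k1⁻¹ * a)⁻¹ := by group
      rw [this]; exact Y.inv_mem h1
  obtain ⟨s, ⟨k, hk, rfl⟩, hs⟩ := hc.exists_fixed (X := MulAut V ⧸ Y)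
    {s | ∃ k ∈ H, s = ((k : MulAut V) : MulAut V ⧸ Y)} ⟨_, 1, H.one_mem, rfl⟩ (by
      rintro a ha _ ⟨k, hk, rfl⟩
      obtain ⟨k', hk', h1⟩ := hcov a ha
      refine ⟨a * k * a⁻¹ * k', H.mul_mem (nz (hAn ha) k hk) hk', ?_⟩
      show ((a * k : MulAut V) : MulAut V ⧸ Y) = _
      symm
      rw [QuotientGroup.eq]
      have h2 : (a * k * a⁻¹ * k')⁻¹ * (a * k) = k'⁻¹ * a := by group
      rw [h2]; exact h1) (by
      rintro a ha _ ⟨k, hk, rfl⟩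
      exact ⟨a * k, H.mul_mem ha hk, rfl⟩) (by
      rintro _ ⟨k1, hk1, rfl⟩ _ ⟨k2, hk2, rfl⟩
      refine ⟨k2 * k1⁻¹, H.mul_mem hk2 (H.inv_mem hk1), ?_⟩
      show ((k2 * k1⁻¹ * k1 : MulAut V) : MulAut V ⧸ Y) = _
      rw [inv_mul_cancel_right])
  refine ⟨k, hk, fun a ha => ?_⟩
  have h1 : ((a * k : MulAut V) : MulAut V ⧸ Y) = ((k : MulAut V) : MulAut V ⧸ Y) := hs a ha
  have h2 := QuotientGroup.eq.mp h1.symm
  rw [← mul_assoc] at h2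
  exact h2

theorem F_closure {N : Subgroup (MulAut V)} [Finite N] (hab : ∀ a ∈ N, ∀ b ∈ N, a * b = b * a)
    {x y : MulAut V} (hx : x ∈ Subgroup.normalizer (N : Set (MulAut V)))
    (hy : y ∈ Subgroup.normalizer (N : Set (MulAut V))) {v : V} (hvx : v ∈ F N x) (hvy : v ∈ F N y) :
    ∀ σ ∈ Subgroup.closure {x, y}, σ ∈ Subgroup.normalizer (N : Set (MulAut V)) ∧ v ∈ F N σ := by
  letI : Fintype N := Fintype.ofFinite N
  intro σ hσ
  refine Subgroup.closure_induction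
    (p := fun σ _ => σ ∈ Subgroup.normalizer (N : Set (MulAut V)) ∧ v ∈ F N σ) ?_ ?_ ?_ ?_ hσ
  · rintro z hz
    rcases hz with rfl | rfl
    · exact ⟨hx, hvx⟩
    · exact ⟨hy, hvy⟩
  · refine ⟨Subgroup.one_mem _, fun n _ => ?_⟩
    simp
  · rintro a b _ _ ⟨ha, hva⟩ ⟨hb, hvb⟩
    refine ⟨Subgroup.mul_mem _ ha hb, fun n hn => ?_⟩
    have hm : n * b * n⁻¹ * b⁻¹ ∈ N := comm_mem (nz hb) hn
    have e1 : n * (a * b) * n⁻¹ * (a * b)⁻¹
        = (n * a * n⁻¹ * a⁻¹) * ((n * b * n⁻¹ * b⁻¹) * a * (n * b * n⁻¹ * b⁻¹)⁻¹ * a⁻¹)⁻¹ *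
          (n * b * n⁻¹ * b⁻¹) := by
      have e2 : ((n * b * n⁻¹ * b⁻¹) * a * (n * b * n⁻¹ * b⁻¹)⁻¹ * a⁻¹)⁻¹ * (n * b * n⁻¹ * b⁻¹)
          = a * (n * b * n⁻¹ * b⁻¹) * a⁻¹ := by
        have h3 : ((n * b * n⁻¹ * b⁻¹) * a * (n * b * n⁻¹ * b⁻¹)⁻¹ * a⁻¹)⁻¹
          = (a * (n * b * n⁻¹ * b⁻¹) * a⁻¹) * (n * b * n⁻¹ * b⁻¹)⁻¹ := by group
        rw [h3, inv_mul_cancel_right]
      rw [mul_assoc (n * a * n⁻¹ * a⁻¹), e2]
      -- n a b n⁻¹ b⁻¹ a⁻¹ = n a n⁻¹ a⁻¹ a (n b n⁻¹ b⁻¹) a⁻¹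
      group
    rw [e1, MulAut.mul_apply, MulAut.mul_apply, hvb n hn]
    have h4 : ((n * b * n⁻¹ * b⁻¹) * a * (n * b * n⁻¹ * b⁻¹)⁻¹ * a⁻¹)⁻¹ v = v := by
      have h5 := hva _ hm
      nth_rewrite 1 [← h5]
      exact MulAut.inv_apply_self V _ _
    rw [h4]
    exact hva n hn
  · rintro a _ ⟨ha, hva⟩
    exact ⟨Subgroup.inv_mem _ ha, F_inv hab (nz' ha) hva⟩

end V
end CfsgLib.H7S3
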