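import Cfsg.Agent.Lib.H7S3c

set_option autoImplicit false

namespace CfsgLib.H7S3
open Subgroup

universe u

section V
variable {V : Type u} [CommGroup V]

structure Dat (N H : Subgroup (MulAut V)) (r t : MulAut V) : Prop where
  hr : r ^ 3 = 1
  ht : t ^ 2 = 1
  htr : t * r * t⁻¹ = r⁻¹
  hfV : ∀ v, r v = v → t v = v → v = 1
  cop : CfsgLib.Coprime.CopAct (Subgroup.closure {r, t}) H
  hfH : ∀ h ∈ H, r * h * r⁻¹ = h → t * h * t⁻¹ = h → h = 1
  hNH : N ≤ H
  hN : ∀ a ∈ N, ∀ b ∈ N, a * b = b * a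
  hHN : H ≤ Subgroup.normalizer (N : Set (MulAut V))
  hrN : r ∈ Subgroup.normalizer (N : Set (MulAut V))
  htN : t ∈ Subgroup.normalizer (N : Set (MulAut V))
  hcoN : (Nat.card N).Coprime (Nat.card V)
  h6 : (Nat.card H).Coprime 6
  hCVN : ∀ v : V, (∀ n ∈ N, n v = v) → v = 1

variable {N H : Subgroup (MulAut V)} {r t : MulAut V}

theorem Dat.normN (D : Dat N H r t) (m : MulAut V) (hm : m ∈ N) :
    m * (r * m * r⁻¹) * (r ^ 2 * m * (r ^ 2)⁻¹) * (t * m * t⁻¹) * ((r * t) * m * (r * t)⁻¹) *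
      ((r ^ 2 * t) * m * (r ^ 2 * t)⁻¹) = 1 := by
  letI : CommGroup N := { (inferInstance : Group N) with
    mul_comm := fun a b => Subtype.ext (D.hN a a.2 b b.2) }
  let f := N.normalizerMonoidHom
  have hf : ∀ (σ : MulAut V) (h : σ ∈ Subgroup.normalizer (N : Set (MulAut V))) (n : N),
      ((f ⟨σ, h⟩ n : N) : MulAut V) = σ * n * σ⁻¹ := fun σ h n => rfl
  have h1 := norm6 (f ⟨r, D.hrN⟩) (f ⟨t, D.htN⟩) (by
    rw [← map_pow]
    have : (⟨r, D.hrN⟩ : Subgroup.normalizer (N : Set (MulAut V))) ^ 3 = 1 := Subtype.ext D.hr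
    rw [this, map_one]) (by
    rw [← map_pow]
    have : (⟨t, D.htN⟩ : Subgroup.normalizer (N : Set (MulAut V))) ^ 2 = 1 := Subtype.ext D.ht
    rw [this, map_one]) (by
    rw [← map_inv, ← map_mul, ← map_mul, ← map_inv]
    congr 1
    exact Subtype.ext D.htr) (by
    intro v h1 h2
    apply Subtype.ext
    exact D.hfH v (D.hNH v.2) (congrArg Subtype.val h1) (congrArg Subtype.val h2)) ⟨m, hm⟩
  rw [← map_pow, ← map_mul, ← map_mul] at h1
  exact congrArg Subtype.val h1

theorem Dat.sub_norm (D : Dat N H r t) :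
    Subgroup.closure {r, t} ≤ Subgroup.normalizer (N : Set (MulAut V)) := by
  rw [Subgroup.closure_le]
  rintro x hx
  rcases hx with rfl | rfl
  · exact D.hrN
  · exact D.htN

theorem Dat.six (D : Dat N H r t) {v : V} (hv : ∀ a ∈ Subgroup.closure {r, t}, v ∈ F N a) (m : MulAut V)
    (hm : m ∈ N) : (m ^ 6) v = v := by
  letI : CommGroup N := { (inferInstance : Group N) with
    mul_comm := fun a b => Subtype.ext (D.hN a a.2 b b.2) }
  have hA := D.sub_norm
  have hrA : r ∈ Subgroup.closure {r, t} := Subgroup.subset_closure (by simp)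
  have htA : t ∈ Subgroup.closure {r, t} := Subgroup.subset_closure (by simp)
  have hr2A := Subgroup.pow_mem _ hrA 2
  have h1A := Subgroup.mul_mem _ hrA htA
  have h2A := Subgroup.mul_mem _ hr2A htA
  have h1 := D.normN m⁻¹ (N.inv_mem hm)
  have h2 := CfsgLib.H7S3.six (W := N) ⟨m, hm⟩ ⟨_, nz (hA hrA) m⁻¹ (N.inv_mem hm)⟩
    ⟨_, nz (hA hr2A) m⁻¹ (N.inv_mem hm)⟩ ⟨_, nz (hA htA) m⁻¹ (N.inv_mem hm)⟩
    ⟨_, nz (hA h1A) m⁻¹ (N.inv_mem hm)⟩ ⟨_, nz (hA h2A) m⁻¹ (N.inv_mem hm)⟩ (Subtype.ext h1)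
  have h3 : (m * (r * m⁻¹ * r⁻¹)) * (m * (r ^ 2 * m⁻¹ * (r ^ 2)⁻¹)) * (m * (t * m⁻¹ * t⁻¹)) *
      (m * ((r * t) * m⁻¹ * (r * t)⁻¹)) * (m * ((r ^ 2 * t) * m⁻¹ * (r ^ 2 * t)⁻¹)) = m ^ 6 :=
    congrArg Subtype.val h2
  have h4 : ∀ a ∈ Subgroup.closure {r, t}, (m * (a * m⁻¹ * a⁻¹)) v = v := by
    intro a ha
    have := hv a ha m hm
    simpa only [mul_assoc] using this
  have hmul : ∀ a b : MulAut V, a v = v → b v = v → (a * b) v = v := by
    intro a b ha hb; rw [MulAut.mul_apply, hb, ha]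
  rw [← h3]
  exact hmul _ _ (hmul _ _ (hmul _ _ (hmul _ _ (h4 _ hrA) (h4 _ hr2A)) (h4 _ htA)) (h4 _ h1A))
    (h4 _ h2A)

theorem Dat.finN [Finite V] (_D : Dat N H r t) : Finite N := inferInstance

theorem Dat.disj [Finite V] (D : Dat N H r t) {x y : MulAut V}
    (hxy : Subgroup.closure {x, y} = Subgroup.closure {r, t}) {h : MulAut V} (hh : h ∈ H) {v : V}
    (hvx : v ∈ F N x) (hvy : v ∈ F N (h * y * h⁻¹)) : v = 1 := by
  have hA := D.sub_norm
  have hxA : x ∈ Subgroup.closure {r, t} := by rw [← hxy]; exact Subgroup.subset_closure (by simp)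
  have hyA : y ∈ Subgroup.closure {r, t} := by rw [← hxy]; exact Subgroup.subset_closure (by simp)
  have hhN := D.hHN hh
  obtain ⟨k, hk, hkA⟩ := cover D.cop hxy hh
  have hkN := D.hHN hk
  have hcl := F_closure D.hN (hA hxA) (Subgroup.mul_mem _ (Subgroup.mul_mem _ hhN (hA hyA))
    (Subgroup.inv_mem _ hhN)) hvx hvy
  have h1 : ∀ a ∈ Subgroup.closure {r, t}, k v ∈ F N a := by
    intro a ha
    have h2 := (hcl _ (hkA a ha)).2
    letI : Fintype N := Fintype.ofFinite N
    have h3 := F_conj (g := k) (nz' hkN) h2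
    have h4 : k * (k⁻¹ * a * k) * k⁻¹ = a := by group
    rwa [h4] at h3
  have h2 : k v = 1 := by
    apply D.hCVN
    intro n hn
    have h3 := D.six h1 n hn
    refine pow_fix (m := Nat.card H) D.h6 ?_ h3
    have h5 : (⟨n, D.hNH hn⟩ : H) ^ Nat.card H = 1 := pow_card_eq_one'
    exact congrArg Subtype.val h5
  exact (map_eq_one_iff k k.injective).mp h2

theorem gens (hr : r ^ 3 = 1) :
    (∀ x y : MulAut V, x ∈ Subgroup.closure {r, t} → y ∈ Subgroup.closure {r, t} →
      r ∈ Subgroup.closure {x, y} → t ∈ Subgroup.closure {x, y} →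
      Subgroup.closure {x, y} = Subgroup.closure {r, t}) := by
  intro x y hx hy h1 h2
  apply le_antisymm
  · rw [Subgroup.closure_le]
    rintro z hz
    rcases hz with rfl | rfl
    · exact hx
    · exact hy
  · rw [Subgroup.closure_le]
    rintro z hz
    rcases hz with rfl | rfl
    · exact h1
    · exact h2

/-- the four classes of elements -/
def T (r t : MulAut V) : Fin 4 → MulAut V := ![r, t, r * t, r ^ 2 * t]

theorem T_mem (r t : MulAut V) (i : Fin 4) : T r t i ∈ Subgroup.closure {r, t} := by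
  have hr : r ∈ Subgroup.closure {r, t} := Subgroup.subset_closure (by simp)
  have ht : t ∈ Subgroup.closure {r, t} := Subgroup.subset_closure (by simp)
  fin_cases i
  · exact hr
  · exact ht
  · exact Subgroup.mul_mem _ hr ht
  · exact Subgroup.mul_mem _ (Subgroup.pow_mem _ hr 2) ht

theorem T_gen (hr : r ^ 3 = 1) {i j : Fin 4} (hij : i ≠ j) :
    Subgroup.closure {T r t i, T r t j} = Subgroup.closure {r, t} := by
  have key : ∀ i j : Fin 4, i < j → Subgroup.closure {T r t i, T r t j} = Subgroup.closure {r, t} := by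
    intro i j hij
    refine gens hr _ _ (T_mem r t i) (T_mem r t j) ?_ ?_
    · have hi : T r t i ∈ Subgroup.closure {T r t i, T r t j} := Subgroup.subset_closure (by simp)
      have hj : T r t j ∈ Subgroup.closure {T r t i, T r t j} := Subgroup.subset_closure (by simp)
      generalize Subgroup.closure {T r t i, T r t j} = Y at hi hj
      have hr' : r ^ 2 ∈ Y → r ∈ Y := by
        intro h
        have := Y.mul_mem h h
        have e : r ^ 2 * r ^ 2 = r := by
          rw [← pow_add]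
          have : r ^ (2 + 2) = r ^ 3 * r := by rw [← pow_succ]
          rw [this, hr, one_mul]
        rwa [e] at this
      fin_cases i <;> fin_cases j <;> first | (exfalso; revert hij; decide) | skip
      · exact hi
      · exact hi
      · exact hi
      · have := Y.mul_mem hj (Y.inv_mem hi)
        have e : T r t 2 * (T r t 1)⁻¹ = r := by show r * t * t⁻¹ = r; group
        exact e ▸ this
      · apply hr'
        have := Y.mul_mem hj (Y.inv_mem hi)
        have e : T r t 3 * (T r t 1)⁻¹ = r ^ 2 := by show r ^ 2 * t * t⁻¹ = r ^ 2; group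
        exact e ▸ this
      · have := Y.mul_mem hj (Y.inv_mem hi)
        have e : T r t 3 * (T r t 2)⁻¹ = r := by show r ^ 2 * t * (r * t)⁻¹ = r; group
        exact e ▸ this
    · have hi : T r t i ∈ Subgroup.closure {T r t i, T r t j} := Subgroup.subset_closure (by simp)
      have hj : T r t j ∈ Subgroup.closure {T r t i, T r t j} := Subgroup.subset_closure (by simp)
      generalize Subgroup.closure {T r t i, T r t j} = Y at hi hj
      fin_cases i <;> fin_cases j <;> first | (exfalso; revert hij; decide) | skip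
      · exact hj
      · have := Y.mul_mem (Y.inv_mem hi) hj
        have e : (T r t 0)⁻¹ * T r t 2 = t := by show r⁻¹ * (r * t) = t; group
        exact e ▸ this
      · have := Y.mul_mem (Y.inv_mem (Y.pow_mem hi 2)) hj
        have e : (T r t 0 ^ 2)⁻¹ * T r t 3 = t := by show (r ^ 2)⁻¹ * (r ^ 2 * t) = t; group
        exact e ▸ this
      · exact hi
      · exact hi
      · have h1 := Y.mul_mem hj (Y.inv_mem hi)
        have h2 := Y.mul_mem (Y.inv_mem h1) hi
        have e : (T r t 3 * (T r t 2)⁻¹)⁻¹ * T r t 2 = t := by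
          show (r ^ 2 * t * (r * t)⁻¹)⁻¹ * (r * t) = t; group
        exact e ▸ h2
  rcases lt_or_gt_of_ne hij with h | h
  · exact key i j h
  · rw [Set.pair_comm]; exact key j i h

end V
end CfsgLib.H7S3
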