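import Cfsg.Agent.Lib.H7S3d

set_option autoImplicit false

namespace CfsgLib.H7S3
open Subgroup

universe u

section V
variable {V : Type u} [CommGroup V]
variable {N H : Subgroup (MulAut V)} {r t : MulAut V}

theorem P_one (N : Subgroup (MulAut V)) [Fintype N] (σ : MulAut V) : P N σ 1 = 1 := by
  simp [P]

theorem rels {G : Type*} [Group G] {r t : G} (hr : r ^ 3 = 1) (ht : t ^ 2 = 1)
    (htr : t * r * t⁻¹ = r⁻¹) :
    t * r = r ^ 2 * t ∧ t * r ^ 2 = r * t ∧ r * t * r⁻¹ = r ^ 2 * t ∧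
    r * (r ^ 2 * t) * r⁻¹ = r * t ∧ r * (r * t) * r⁻¹ = t ∧ t * (r * t) * t⁻¹ = r ^ 2 * t ∧
    t * (r ^ 2 * t) * t⁻¹ = r * t ∧ (r * t) * t * (r * t)⁻¹ = r ^ 2 * t ∧
    (r ^ 2 * t) * t * (r ^ 2 * t)⁻¹ = r * t ∧ r ^ 2 * t * (r ^ 2)⁻¹ = r * t := by
  have hri : r⁻¹ = r ^ 2 := by
    rw [eq_comm, eq_inv_iff_mul_eq_one, ← pow_succ, hr]
  have hr4 : r ^ 2 * r ^ 2 = r := by
    rw [← pow_add]
    have : r ^ (2 + 2) = r ^ 3 * r := by rw [← pow_succ]
    rw [this, hr, one_mul]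
  have hti : t⁻¹ = t := by rw [inv_eq_iff_mul_eq_one, ← pow_two]; exact ht
  have htt : t * t = 1 := by rw [← pow_two]; exact ht
  have h1 : t * r = r ^ 2 * t := by rw [← hri, ← htr]; group
  have h2 : t * r ^ 2 = r * t := by
    have : t * r ^ 2 = (t * r) * r := by rw [pow_two]; group
    rw [this, h1]
    have : r ^ 2 * t * r = r ^ 2 * (t * r) := by group
    rw [this, h1, ← mul_assoc, hr4]
  have h3 : r * t * r⁻¹ = r ^ 2 * t := by
    rw [hri, mul_assoc, h2, ← mul_assoc, ← pow_two]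
  have h10 : r ^ 2 * t * (r ^ 2)⁻¹ = r * t := by
    have : (r ^ 2)⁻¹ = r := by rw [← hri, inv_inv]
    rw [this, mul_assoc, h1, ← mul_assoc, hr4]
  have h5 : r * (r * t) * r⁻¹ = t := by
    have : r * (r * t) * r⁻¹ = r * (r * t * r⁻¹) := by group
    rw [this, h3, ← mul_assoc, ← pow_succ', hr, one_mul]
  refine ⟨h1, h2, h3, ?_, h5, ?_, ?_, ?_, ?_, h10⟩
  · have : r * (r ^ 2 * t) * r⁻¹ = r ^ 2 * (r * t * r⁻¹) := by
      rw [← mul_assoc, ← mul_assoc, ← mul_assoc]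
      congr 2
      rw [← pow_succ', ← pow_succ]
    rw [this, h3, ← mul_assoc, hr4]
  · rw [← mul_assoc, h1, mul_assoc, mul_assoc, mul_inv_cancel, mul_one]
  · rw [← mul_assoc, h2, mul_assoc, mul_assoc, mul_inv_cancel, mul_one]
  · have : (r * t) * t * (r * t)⁻¹ = r * t * r⁻¹ := by group
    rw [this, h3]
  · have : (r ^ 2 * t) * t * (r ^ 2 * t)⁻¹ = r ^ 2 * t * (r ^ 2)⁻¹ := by group
    rw [this, h10]

theorem Dat.decomp [Finite V] (D : Dat N H r t) (v : V) :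
    ∃ a b c d : V, a ∈ F N r ∧ b ∈ F N t ∧ c ∈ F N (r * t) ∧ d ∈ F N (r ^ 2 * t) ∧
      v ^ Nat.card N = a * b * c * d := by
  classical
  letI : Fintype N := Fintype.ofFinite N
  have hri : r⁻¹ = r ^ 2 := by
    rw [eq_comm, eq_inv_iff_mul_eq_one, ← pow_succ, D.hr]
  have hA := D.sub_norm
  have hrA : r ∈ Subgroup.closure {r, t} := Subgroup.subset_closure (by simp)
  have htA : t ∈ Subgroup.closure {r, t} := Subgroup.subset_closure (by simp)
  have hr2A := Subgroup.pow_mem _ hrA 2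
  have h1A := Subgroup.mul_mem _ hrA htA
  have h2A := Subgroup.mul_mem _ hr2A htA
  have h17 : ∀ b : N, v * ((b : MulAut V) * r * (b : MulAut V)⁻¹) v *
      ((b : MulAut V) * r ^ 2 * (b : MulAut V)⁻¹) v * ((b : MulAut V) * t * (b : MulAut V)⁻¹) v *
      ((b : MulAut V) * (r * t) * (b : MulAut V)⁻¹) v *
      ((b : MulAut V) * (r ^ 2 * t) * (b : MulAut V)⁻¹) v = 1 := by
    intro b
    have e1 : ((b : MulAut V) * r * (b : MulAut V)⁻¹) ^ 3 = 1 := by rw [conj_pow, D.hr]; simp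
    have e2 : ((b : MulAut V) * t * (b : MulAut V)⁻¹) ^ 2 = 1 := by rw [conj_pow, D.ht]; simp
    have e3 : ((b : MulAut V) * t * (b : MulAut V)⁻¹) * ((b : MulAut V) * r * (b : MulAut V)⁻¹) *
        ((b : MulAut V) * t * (b : MulAut V)⁻¹)⁻¹ = ((b : MulAut V) * r * (b : MulAut V)⁻¹)⁻¹ := by
      have : ((b : MulAut V) * t * (b : MulAut V)⁻¹) * ((b : MulAut V) * r * (b : MulAut V)⁻¹) *
        ((b : MulAut V) * t * (b : MulAut V)⁻¹)⁻¹ = b * (t * r * t⁻¹) * (b : MulAut V)⁻¹ := by group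
      rw [this, D.htr]; group
    have h := norm6 _ _ e1 e2 e3 (by
      intro w hw1 hw2
      have key : ∀ σ : MulAut V, ((b : MulAut V) * σ * (b : MulAut V)⁻¹) w = w →
          σ ((b : MulAut V)⁻¹ w) = (b : MulAut V)⁻¹ w := by
        intro σ hw
        rw [MulAut.mul_apply, MulAut.mul_apply] at hw
        calc σ ((b : MulAut V)⁻¹ w) = (b : MulAut V)⁻¹ ((b : MulAut V) (σ ((b : MulAut V)⁻¹ w))) :=
              (MulAut.inv_apply_self V _ _).symm
          _ = (b : MulAut V)⁻¹ w := by rw [hw]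
      have h15 := D.hfV _ (key r hw1) (key t hw2)
      have h16 := congrArg (b : MulAut V) h15
      rwa [← MulAut.mul_apply, mul_inv_cancel, MulAut.one_apply, map_one] at h16) v
    rw [conj_pow] at h
    have e4 : ((b : MulAut V) * r * (b : MulAut V)⁻¹) * ((b : MulAut V) * t * (b : MulAut V)⁻¹)
        = (b : MulAut V) * (r * t) * (b : MulAut V)⁻¹ := by group
    have e5 : ((b : MulAut V) * r ^ 2 * (b : MulAut V)⁻¹) * ((b : MulAut V) * t * (b : MulAut V)⁻¹)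
        = (b : MulAut V) * (r ^ 2 * t) * (b : MulAut V)⁻¹ := by group
    rw [e4, e5] at h
    exact h
  have h18 := Finset.prod_eq_one (s := (Finset.univ : Finset N)) (fun b _ => h17 b)
  simp only [Finset.prod_mul_distrib, Finset.prod_const, Finset.card_univ,
    ← Nat.card_eq_fintype_card, ← P_conj] at h18
  have m1 : P N r (r v) ∈ F N r := P_mem D.hN (nz (hA hrA)) _
  have m2 : P N (r ^ 2) ((r ^ 2) v) ∈ F N r := by
    have h21 : P N (r ^ 2) ((r ^ 2) v) ∈ F N (r ^ 2) := P_mem D.hN (nz (hA hr2A)) _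
    have h22 := F_inv D.hN (nz' (hA hr2A)) h21
    have h23 : (r ^ 2)⁻¹ = r := by rw [← hri, inv_inv]
    rwa [h23] at h22
  have m3 : P N t (t v) ∈ F N t := P_mem D.hN (nz (hA htA)) _
  have m4 : P N (r * t) ((r * t) v) ∈ F N (r * t) := P_mem D.hN (nz (hA h1A)) _
  have m5 : P N (r ^ 2 * t) ((r ^ 2 * t) v) ∈ F N (r ^ 2 * t) := P_mem D.hN (nz (hA h2A)) _
  refine ⟨(P N r (r v) * P N (r ^ 2) ((r ^ 2) v))⁻¹, (P N t (t v))⁻¹, (P N (r * t) ((r * t) v))⁻¹,
    (P N (r ^ 2 * t) ((r ^ 2 * t) v))⁻¹, (F N _).inv_mem ((F N _).mul_mem m1 m2),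
    (F N _).inv_mem m3, (F N _).inv_mem m4, (F N _).inv_mem m5, ?_⟩
  rw [← mul_inv, ← mul_inv, ← mul_inv, eq_inv_iff_mul_eq_one, ← mul_assoc, ← mul_assoc,
    ← mul_assoc, ← mul_assoc]
  exact h18

theorem Dat.inv1 [Finite V] (D : Dat N H r t) (i : Fin 4) {v : V} (hv : v ∈ F N (T r t i))
    {h : MulAut V} (hh : h ∈ H) : v ∈ F N (h * T r t i * h⁻¹) := by
  classical
  letI : Fintype N := Fintype.ofFinite N
  have hA := D.sub_norm
  have hhN := D.hHN hh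
  obtain ⟨a, b, c, d, ha, hb, hc, hd, habcd⟩ := D.decomp (h⁻¹ v)
  have hx : ∀ j : Fin 4, ∃ x : V, x ∈ F N (T r t j) ∧ (j = 0 → x = a) ∧ (j = 1 → x = b) ∧
      (j = 2 → x = c) ∧ (j = 3 → x = d) := by
    intro j
    fin_cases j
    · exact ⟨a, ha, by simp, by simp, by simp, by simp⟩
    · exact ⟨b, hb, by simp, by simp, by simp, by simp⟩
    · exact ⟨c, hc, by simp, by simp, by simp, by simp⟩
    · exact ⟨d, hd, by simp, by simp, by simp, by simp⟩
  choose f hf hf0 hf1 hf2 hf3 using hx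
  have hprod : (h⁻¹ v) ^ Nat.card N = f 0 * f 1 * f 2 * f 3 := by
    rw [habcd, hf0 0 rfl, hf1 1 rfl, hf2 2 rfl, hf3 3 rfl]
  have e1 : v ^ Nat.card N = h (f 0) * h (f 1) * h (f 2) * h (f 3) := by
    rw [← map_mul, ← map_mul, ← map_mul, ← hprod, map_pow, ← MulAut.mul_apply, mul_inv_cancel,
      MulAut.one_apply]
  have hm : ∀ j : Fin 4, h (f j) ∈ F N (h * T r t j * h⁻¹) := fun j =>
    F_conj (nz' hhN) (hf j)
  have hσ : ∀ j : Fin 4, T r t j ∈ Subgroup.normalizer (N : Set (MulAut V)) :=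
    fun j => hA (T_mem r t j)
  have hcσ : ∀ j : Fin 4, h * T r t j * h⁻¹ ∈ Subgroup.normalizer (N : Set (MulAut V)) :=
    fun j => Subgroup.mul_mem _ (Subgroup.mul_mem _ hhN (hσ j)) (Subgroup.inv_mem _ hhN)
  have hz : ∀ j : Fin 4, j ≠ i → P N (T r t i) (h (f j)) = 1 := by
    intro j hj
    exact D.disj (T_gen D.hr hj.symm) hh (P_mem D.hN (nz (hσ i)) _)
      (P_pres D.hN (nz (hσ i)) (nz (hcσ j)) (hm j))
  have hi : P N (T r t i) (h (f i)) ∈ F N (h * T r t i * h⁻¹) :=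
    P_pres D.hN (nz (hσ i)) (nz (hcσ i)) (hm i)
  have e2 : (v ^ Nat.card N) ^ Nat.card N = P N (T r t i) (h (f 0)) * P N (T r t i) (h (f 1)) *
      P N (T r t i) (h (f 2)) * P N (T r t i) (h (f 3)) := by
    rw [← P_of_mem N ((F N (T r t i)).pow_mem hv _), e1, P_mul, P_mul, P_mul]
  apply mem_of_pow D.hcoN
  apply mem_of_pow D.hcoN
  rw [e2]
  refine Subgroup.mul_mem _ (Subgroup.mul_mem _ (Subgroup.mul_mem _ ?_ ?_) ?_) ?_
  all_goals
    first
    | (by_cases hj : (0 : Fin 4) = i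
       · rw [← hj] at hi ⊢; exact hi
       · rw [hz 0 hj]; exact Subgroup.one_mem _)
    | (by_cases hj : (1 : Fin 4) = i
       · rw [← hj] at hi ⊢; exact hi
       · rw [hz 1 hj]; exact Subgroup.one_mem _)
    | (by_cases hj : (2 : Fin 4) = i
       · rw [← hj] at hi ⊢; exact hi
       · rw [hz 2 hj]; exact Subgroup.one_mem _)
    | (by_cases hj : (3 : Fin 4) = i
       · rw [← hj] at hi ⊢; exact hi
       · rw [hz 3 hj]; exact Subgroup.one_mem _)

theorem Dat.Hinv [Finite V] (D : Dat N H r t) (i : Fin 4) {v : V} (hv : v ∈ F N (T r t i))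
    {h : MulAut V} (hh : h ∈ H) : h v ∈ F N (T r t i) := by
  have h1 := D.inv1 i hv (H.inv_mem hh)
  letI : Fintype N := Fintype.ofFinite N
  have h2 := F_conj (nz' (D.hHN hh)) h1
  have h3 : h * (h⁻¹ * T r t i * h⁻¹⁻¹) * h⁻¹ = T r t i := by group
  rwa [h3] at h2

end V
end CfsgLib.H7S3
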