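import Cfsg.Agent.Lib.H7S3e

set_option autoImplicit false

namespace CfsgLib.H7S3
open Subgroup

universe u

section V
variable {V : Type u} [CommGroup V]
variable {N H : Subgroup (MulAut V)} {r t : MulAut V}

/-- elements of `H` trivial on `F N σ` -/
def C (N H : Subgroup (MulAut V)) (σ : MulAut V) : Subgroup (MulAut V) where
  carrier := {h | h ∈ H ∧ ∀ v ∈ F N σ, h v = v}
  one_mem' := ⟨H.one_mem, fun _ _ => rfl⟩
  mul_mem' := fun {x y} hx hy => ⟨H.mul_mem hx.1 hy.1, fun v hv => by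
    rw [MulAut.mul_apply, hy.2 v hv, hx.2 v hv]⟩
  inv_mem' := fun {x} hx => ⟨H.inv_mem hx.1, fun v hv => by
    have h1 := hx.2 v hv
    nth_rewrite 1 [← h1]
    exact MulAut.inv_apply_self V _ _⟩

theorem mem_C {σ h : MulAut V} : h ∈ C N H σ ↔ h ∈ H ∧ ∀ v ∈ F N σ, h v = v := Iff.rfl

theorem Dat.rH (D : Dat N H r t) : r ∈ Subgroup.normalizer (H : Set (MulAut V)) :=
  D.cop.1 (Subgroup.subset_closure (by simp))

theorem Dat.tH (D : Dat N H r t) : t ∈ Subgroup.normalizer (H : Set (MulAut V)) :=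
  D.cop.1 (Subgroup.subset_closure (by simp))

theorem C_conj [Finite V] {σ g h : MulAut V} (hgN : g ∈ Subgroup.normalizer (N : Set (MulAut V)))
    (hgH : g ∈ Subgroup.normalizer (H : Set (MulAut V))) (hh : h ∈ C N H σ) :
    g * h * g⁻¹ ∈ C N H (g * σ * g⁻¹) := by
  letI : Fintype N := Fintype.ofFinite N
  refine ⟨nz hgH h hh.1, fun v hv => ?_⟩
  have h1 := F_conj (g := g⁻¹) (by
    intro n hn; rw [inv_inv]; exact nz hgN n hn) hv
  have h2 : g⁻¹ * (g * σ * g⁻¹) * g⁻¹⁻¹ = σ := by group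
  rw [h2] at h1
  rw [MulAut.mul_apply, MulAut.mul_apply, hh.2 _ h1, ← MulAut.mul_apply, mul_inv_cancel,
    MulAut.one_apply]

theorem Dat.neg [Finite V] (D : Dat N H r t) {v : V} (hv : v ∈ F N t) : t v = v⁻¹ := by
  classical
  letI : Fintype N := Fintype.ofFinite N
  have hA := D.sub_norm
  have hrA : r ∈ Subgroup.closure {r, t} := Subgroup.subset_closure (by simp)
  have htA : t ∈ Subgroup.closure {r, t} := Subgroup.subset_closure (by simp)
  have hr2A := Subgroup.pow_mem _ hrA 2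
  have h1A := Subgroup.mul_mem _ hrA htA
  have h2A := Subgroup.mul_mem _ hr2A htA
  obtain ⟨-, -, a1, -, -, -, -, -, -, a10⟩ := rels D.hr D.ht D.htr
  obtain ⟨c, hc⟩ : ∃ c, c = v * t v := ⟨_, rfl⟩
  have htv : t v ∈ F N t := by
    have := F_conj (nz' (hA htA)) hv
    have e : t * t * t⁻¹ = t := by group
    rwa [e] at this
  have hcF : c ∈ F N t := by rw [hc]; exact (F N t).mul_mem hv htv
  have hc1 : r c ∈ F N (r ^ 2 * t) := by
    have := F_conj (nz' (hA hrA)) hcF
    rwa [a1] at this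
  have hc2 : (r ^ 2) c ∈ F N (r * t) := by
    have := F_conj (nz' (hA hr2A)) hcF
    rwa [a10] at this
  have h6 := norm6 r t D.hr D.ht D.htr D.hfV v
  have h7 : c * r c * (r ^ 2) c = 1 := by
    rw [← h6, hc, map_mul, map_mul, MulAut.mul_apply V r t v, MulAut.mul_apply V (r ^ 2) t v]
    ac_rfl
  have h8 : P N t (c * r c * (r ^ 2) c) = 1 := by rw [h7, P_one]
  rw [P_mul, P_mul] at h8
  have z1 : P N t (r c) = 1 := by
    refine D.disj (x := t) (y := r ^ 2 * t) (T_gen D.hr (i := 1) (j := 3) (by decide)) H.one_mem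
      (P_mem D.hN (nz (hA htA)) _) ?_
    have e : (1 : MulAut V) * (r ^ 2 * t) * 1⁻¹ = r ^ 2 * t := by group
    rw [e]
    exact P_pres D.hN (nz (hA htA)) (nz (hA h2A)) hc1
  have z2 : P N t ((r ^ 2) c) = 1 := by
    refine D.disj (x := t) (y := r * t) (T_gen D.hr (i := 1) (j := 2) (by decide)) H.one_mem
      (P_mem D.hN (nz (hA htA)) _) ?_
    have e : (1 : MulAut V) * (r * t) * 1⁻¹ = r * t := by group
    rw [e]
    exact P_pres D.hN (nz (hA htA)) (nz (hA h1A)) hc2
  rw [z1, z2, mul_one, mul_one, P_of_mem N hcF] at h8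
  have h9 : c ∈ (⊥ : Subgroup V) := mem_of_pow D.hcoN (by rw [h8]; exact Subgroup.one_mem _)
  rw [Subgroup.mem_bot, hc] at h9
  exact eq_inv_of_mul_eq_one_right h9

theorem Dat.neg' [Finite V] (D : Dat N H r t) (i : Fin 4) (hi : i ≠ 0) {v : V}
    (hv : v ∈ F N (T r t i)) : T r t i v = v⁻¹ := by
  classical
  letI : Fintype N := Fintype.ofFinite N
  have hA := D.sub_norm
  have hrA : r ∈ Subgroup.closure {r, t} := Subgroup.subset_closure (by simp)
  obtain ⟨-, -, a1, -, -, -, -, -, -, a10⟩ := rels D.hr D.ht D.htr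
  have key : ∀ g ∈ Subgroup.closure {r, t}, ∀ w ∈ F N (g * t * g⁻¹), (g * t * g⁻¹) w = w⁻¹ := by
    intro g hg w hw
    have h1 := F_conj (g := g⁻¹) (by
      intro n hn; rw [inv_inv]; exact nz (hA hg) n hn) hw
    have h2 : g⁻¹ * (g * t * g⁻¹) * g⁻¹⁻¹ = t := by group
    rw [h2] at h1
    rw [MulAut.mul_apply, MulAut.mul_apply, D.neg h1, map_inv, ← MulAut.mul_apply, mul_inv_cancel,
      MulAut.one_apply]
  fin_cases i
  · exact absurd rfl hi
  · exact D.neg hv
  · have := key (r ^ 2) (Subgroup.pow_mem _ hrA 2) v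
    rw [a10] at this
    exact this hv
  · have := key r hrA v
    rw [a1] at this
    exact this hv

theorem Dat.commT [Finite V] (D : Dat N H r t) (i : Fin 4) (hi : i ≠ 0) {h : MulAut V}
    (hh : h ∈ H) {v : V} (hv : v ∈ F N (T r t i)) :
    (T r t i * h * (T r t i)⁻¹) v = h v := by
  have h1 : (T r t i)⁻¹ v = v⁻¹ := by
    have h2 := D.neg' i hi ((F N _).inv_mem hv)
    rw [inv_inv] at h2
    nth_rewrite 1 [← h2]
    exact MulAut.inv_apply_self V _ _
  rw [MulAut.mul_apply, MulAut.mul_apply, h1, map_inv, map_inv, D.neg' i hi (D.Hinv i hv hh),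
    inv_inv]

theorem Dat.ext [Finite V] (D : Dat N H r t) (hF : F N r = ⊥) {h k : MulAut V}
    (h1 : ∀ v ∈ F N t, h v = k v) (h2 : ∀ v ∈ F N (r * t), h v = k v)
    (h3 : ∀ v ∈ F N (r ^ 2 * t), h v = k v) : h = k := by
  ext v
  obtain ⟨a, b, c, d, ha, hb, hc, hd, habcd⟩ := D.decomp v
  rw [hF, Subgroup.mem_bot] at ha
  have e1 : (k⁻¹ * h) (v ^ Nat.card N) = v ^ Nat.card N := by
    have f : ∀ w, h w = k w → (k⁻¹ * h) w = w := by
      intro w hw
      rw [MulAut.mul_apply, hw]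
      exact MulAut.inv_apply_self V _ _
    rw [habcd, ha, one_mul, map_mul, map_mul, f b (h1 b hb), f c (h2 c hc), f d (h3 d hd)]
  have e2 := fix_of_pow D.hcoN e1
  rw [MulAut.mul_apply] at e2
  have e3 := congrArg k e2
  rwa [← MulAut.mul_apply, mul_inv_cancel, MulAut.one_apply] at e3

theorem Dat.caseII [Finite V] (D : Dat N H r t) (hF : F N r = ⊥) :
    ∀ h ∈ H, ∀ k ∈ H, h * k = k * h := by
  classical
  letI : Fintype N := Fintype.ofFinite N
  have hA := D.sub_norm
  have hAH : Subgroup.closure {r, t} ≤ Subgroup.normalizer (H : Set (MulAut V)) := D.cop.1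
  have hrA : r ∈ Subgroup.closure {r, t} := Subgroup.subset_closure (by simp)
  have htA : t ∈ Subgroup.closure {r, t} := Subgroup.subset_closure (by simp)
  have hr2A := Subgroup.pow_mem _ hrA 2
  have h1A := Subgroup.mul_mem _ hrA htA
  have h2A := Subgroup.mul_mem _ hr2A htA
  obtain ⟨a1', a2', a3, a4, a5, a6, a7, a8, a9, a10⟩ := rels D.hr D.ht D.htr
  have hri : r⁻¹ = r ^ 2 := by
    rw [eq_comm, eq_inv_iff_mul_eq_one, ← pow_succ, D.hr]
  have att : t * t * t⁻¹ = t := by group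
  have cj : ∀ {g σ τ h : MulAut V}, g ∈ Subgroup.closure {r, t} → g * σ * g⁻¹ = τ →
      h ∈ C N H σ → g * h * g⁻¹ ∈ C N H τ := by
    intro g σ τ h hg e hh
    rw [← e]
    exact C_conj (hA hg) (hAH hg) hh
  -- (4) C2 ∩ C3 = 1
  have int23 : ∀ h, h ∈ C N H (r * t) → h ∈ C N H (r ^ 2 * t) → h = 1 := by
    intro h h2 h3
    obtain ⟨b, hb⟩ : ∃ b, b = r * h * r⁻¹ := ⟨_, rfl⟩
    obtain ⟨c, hc⟩ : ∃ c, c = r * b * r⁻¹ := ⟨_, rfl⟩
    have b1 : b ∈ C N H t := by rw [hb]; exact cj hrA a5 h2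
    have b2 : b ∈ C N H (r * t) := by rw [hb]; exact cj hrA a4 h3
    have c1 : c ∈ C N H t := by rw [hc]; exact cj hrA a5 b2
    have c3 : c ∈ C N H (r ^ 2 * t) := by rw [hc]; exact cj hrA a3 b1
    have hcr : r * c * r⁻¹ = h := by
      have : r * c * r⁻¹ = r ^ 3 * h * (r ^ 3)⁻¹ := by
        rw [hc, hb]; simp only [pow_succ, pow_zero, one_mul, mul_inv_rev, mul_assoc]
      rw [this, D.hr]; simp
    -- commutation
    have comm : ∀ {x y : MulAut V} {σ1 σ2 σ3 : MulAut V}, x ∈ H → y ∈ H → True := fun _ _ => trivial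
    have Hi1 : ∀ {x : MulAut V}, x ∈ H → ∀ v ∈ F N t, x v ∈ F N t := fun hx v hv => D.Hinv 1 hv hx
    have Hi2 : ∀ {x : MulAut V}, x ∈ H → ∀ v ∈ F N (r * t), x v ∈ F N (r * t) :=
      fun hx v hv => D.Hinv 2 hv hx
    have Hi3 : ∀ {x : MulAut V}, x ∈ H → ∀ v ∈ F N (r ^ 2 * t), x v ∈ F N (r ^ 2 * t) :=
      fun hx v hv => D.Hinv 3 hv hx
    have hbc : b * c = c * b := by
      apply D.ext hF
      · intro v hv
        rw [MulAut.mul_apply, MulAut.mul_apply, c1.2 v hv, b1.2 v hv, c1.2 v hv]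
      · intro v hv
        rw [MulAut.mul_apply, MulAut.mul_apply, b2.2 v hv, b2.2 _ (Hi2 c1.1 v hv)]
      · intro v hv
        rw [MulAut.mul_apply, MulAut.mul_apply, c3.2 v hv, c3.2 _ (Hi3 b1.1 v hv)]
    have hhb : h * b = b * h := by
      apply D.ext hF
      · intro v hv
        rw [MulAut.mul_apply, MulAut.mul_apply, b1.2 v hv, b1.2 _ (Hi1 h2.1 v hv)]
      · intro v hv
        rw [MulAut.mul_apply, MulAut.mul_apply, b2.2 v hv, h2.2 v hv, b2.2 v hv]
      · intro v hv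
        rw [MulAut.mul_apply, MulAut.mul_apply, h3.2 v hv, h3.2 _ (Hi3 b1.1 v hv)]
    have hhc : h * c = c * h := by
      apply D.ext hF
      · intro v hv
        rw [MulAut.mul_apply, MulAut.mul_apply, c1.2 v hv, c1.2 _ (Hi1 h2.1 v hv)]
      · intro v hv
        rw [MulAut.mul_apply, MulAut.mul_apply, h2.2 v hv, h2.2 _ (Hi2 c1.1 v hv)]
      · intro v hv
        rw [MulAut.mul_apply, MulAut.mul_apply, c3.2 v hv, h3.2 v hv, c3.2 v hv]
    have hth : t * h * t⁻¹ = h := by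
      have k3 : t * h * t⁻¹ ∈ C N H (r ^ 2 * t) := cj htA a6 h2
      have k2 : t * h * t⁻¹ ∈ C N H (r * t) := cj htA a7 h3
      apply D.ext hF
      · intro v hv
        exact D.commT 1 (by decide) h2.1 hv
      · intro v hv
        rw [k2.2 v hv, h2.2 v hv]
      · intro v hv
        rw [k3.2 v hv, h3.2 v hv]
    have htri : t * r⁻¹ = r * t := by rw [hri]; exact a2'
    have htb : t * b * t⁻¹ = c := by
      have : t * b * t⁻¹ = (t * r) * (t⁻¹ * (t * h * t⁻¹) * t) * (t * r)⁻¹ := by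
        rw [hb]; group
      rw [this, hth, a1']
      have : r ^ 2 * t * (t⁻¹ * h * t) * (r ^ 2 * t)⁻¹ = r ^ 2 * h * (r ^ 2)⁻¹ := by group
      rw [this, hc, hb, pow_two]; group
    have htc : t * c * t⁻¹ = b := by
      have htt : t * t = 1 := by rw [← pow_two]; exact D.ht
      rw [← htb]
      have : t * (t * b * t⁻¹) * t⁻¹ = (t * t) * b * (t * t)⁻¹ := by group
      rw [this, htt]; simp
    have hp : h * b * c = 1 := by
      apply D.hfH _ (H.mul_mem (H.mul_mem h2.1 b1.1) c1.1)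
      · have : r * (h * b * c) * r⁻¹ = (r * h * r⁻¹) * (r * b * r⁻¹) * (r * c * r⁻¹) := by group
        rw [this, ← hb, ← hc, hcr, mul_assoc, ← hhc, ← mul_assoc, ← hhb]
      · have : t * (h * b * c) * t⁻¹ = (t * h * t⁻¹) * (t * b * t⁻¹) * (t * c * t⁻¹) := by group
        rw [this, hth, htb, htc, mul_assoc, ← hbc, ← mul_assoc]
    apply D.ext hF
    · intro v hv
      have := congrArg (fun f : MulAut V => f v) hp
      simp only [MulAut.mul_apply] at this
      rw [c1.2 v hv, b1.2 v hv] at this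
      exact this
    · intro v hv
      rw [h2.2 v hv]; rfl
    · intro v hv
      rw [h3.2 v hv]; rfl
  have int12 : ∀ h, h ∈ C N H t → h ∈ C N H (r * t) → h = 1 := by
    intro h h1 h2
    have k1 := cj (g := r⁻¹) (σ := t) (τ := r * t) (Subgroup.inv_mem _ hrA) (by
        conv_lhs => rw [← a5]
        group) h1
    have k2 := cj (g := r⁻¹) (σ := r * t) (τ := r ^ 2 * t) (Subgroup.inv_mem _ hrA)
      (by
        conv_lhs => rw [← a4]
        group) h2
    have := int23 _ k1 k2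
    have e : h = r * (r⁻¹ * h * r⁻¹⁻¹) * r⁻¹ := by group
    rw [e, this]; group
  have int13 : ∀ h, h ∈ C N H t → h ∈ C N H (r ^ 2 * t) → h = 1 := by
    intro h h1 h3
    have k1 := cj hrA a3 h1
    have k2 := cj hrA a4 h3
    have := int23 _ k2 k1
    have e : h = r⁻¹ * (r * h * r⁻¹) * r := by group
    rw [e, this]; group
  -- (5) commuting
  have cc : ∀ (i j : Fin 4), (∀ h, h ∈ C N H (T r t i) → h ∈ C N H (T r t j) → h = 1) →
      ∀ h ∈ C N H (T r t i), ∀ k ∈ C N H (T r t j), h * k = k * h := by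
    intro i j hij h hh k hk
    have e1 : h * k * h⁻¹ * k⁻¹ = 1 := by
      apply hij
      · refine ⟨H.mul_mem (H.mul_mem (H.mul_mem hh.1 hk.1) (H.inv_mem hh.1)) (H.inv_mem hk.1), ?_⟩
        intro v hv
        have w1 : k⁻¹ v ∈ F N (T r t i) := D.Hinv i hv (H.inv_mem hk.1)
        have w2 : h⁻¹ (k⁻¹ v) = k⁻¹ v := ((C N H (T r t i)).inv_mem hh).2 _ w1
        rw [MulAut.mul_apply, MulAut.mul_apply, MulAut.mul_apply, w2, ← MulAut.mul_apply V k k⁻¹,
          mul_inv_cancel, MulAut.one_apply, hh.2 v hv]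
      · refine ⟨H.mul_mem (H.mul_mem (H.mul_mem hh.1 hk.1) (H.inv_mem hh.1)) (H.inv_mem hk.1), ?_⟩
        intro v hv
        have w0 : k⁻¹ v = v := ((C N H (T r t j)).inv_mem hk).2 _ hv
        have w1 : h⁻¹ v ∈ F N (T r t j) := D.Hinv j hv (H.inv_mem hh.1)
        rw [MulAut.mul_apply, MulAut.mul_apply, MulAut.mul_apply, w0, hk.2 _ w1,
          ← MulAut.mul_apply V h h⁻¹, mul_inv_cancel, MulAut.one_apply]
    rw [mul_inv_eq_one, mul_inv_eq_iff_eq_mul] at e1
    exact e1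
  have c12 : ∀ h ∈ C N H t, ∀ k ∈ C N H (r * t), h * k = k * h := cc 1 2 int12
  have c13 : ∀ h ∈ C N H t, ∀ k ∈ C N H (r ^ 2 * t), h * k = k * h := cc 1 3 int13
  have c23 : ∀ h ∈ C N H (r * t), ∀ k ∈ C N H (r ^ 2 * t), h * k = k * h := cc 2 3 int23
  -- (6) abelian
  have c11 : ∀ h ∈ C N H t, ∀ k ∈ C N H t, h * k = k * h := by
    intro h hh k hk
    apply D.ext hF
    · intro v hv
      rw [MulAut.mul_apply, MulAut.mul_apply, hk.2 v hv, hh.2 v hv, hk.2 v hv]
    · intro v hv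
      have k' : (r * t) * k * (r * t)⁻¹ ∈ C N H (r ^ 2 * t) := cj h1A a8 hk
      have e1 := D.commT 2 (by decide) hk.1 hv
      have e2 := D.commT 2 (by decide) hk.1 (D.Hinv 2 hv hh.1)
      have e3 := congrArg (fun f : MulAut V => f v) (c13 h hh _ k')
      simp only [MulAut.mul_apply V h, MulAut.mul_apply V _ h] at e3
      rw [MulAut.mul_apply, MulAut.mul_apply, ← e1, ← e2]
      exact e3
    · intro v hv
      have k' : (r ^ 2 * t) * k * (r ^ 2 * t)⁻¹ ∈ C N H (r * t) := cj h2A a9 hk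
      have e1 := D.commT 3 (by decide) hk.1 hv
      have e2 := D.commT 3 (by decide) hk.1 (D.Hinv 3 hv hh.1)
      have e3 := congrArg (fun f : MulAut V => f v) (c12 h hh _ k')
      simp only [MulAut.mul_apply V h, MulAut.mul_apply V _ h] at e3
      rw [MulAut.mul_apply, MulAut.mul_apply, ← e1, ← e2]
      exact e3
  have cback : ∀ h k : MulAut V, (r * h * r⁻¹) * (r * k * r⁻¹) = (r * k * r⁻¹) * (r * h * r⁻¹) →
      h * k = k * h := by
    intro h k e
    have e1 : (r * h * r⁻¹) * (r * k * r⁻¹) = r * (h * k) * r⁻¹ := by group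
    have e2 : (r * k * r⁻¹) * (r * h * r⁻¹) = r * (k * h) * r⁻¹ := by group
    rw [e1, e2] at e
    exact mul_left_cancel (mul_right_cancel e)
  have c22 : ∀ h ∈ C N H (r * t), ∀ k ∈ C N H (r * t), h * k = k * h := by
    intro h hh k hk
    exact cback _ _ (c11 _ (cj hrA a5 hh) _ (cj hrA a5 hk))
  have c33 : ∀ h ∈ C N H (r ^ 2 * t), ∀ k ∈ C N H (r ^ 2 * t), h * k = k * h := by
    intro h hh k hk
    exact cback _ _ (c22 _ (cj hrA a4 hh) _ (cj hrA a4 hk))
  let S : Set (MulAut V) := {h | h ∈ C N H t ∨ h ∈ C N H (r * t) ∨ h ∈ C N H (r ^ 2 * t)}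
  let J : Subgroup (MulAut V) := Subgroup.closure S
  have hJab : ∀ a ∈ J, ∀ b ∈ J, a * b = b * a := by
    apply closure_comm
    rintro a (ha | ha | ha) b (hb | hb | hb)
    · exact c11 a ha b hb
    · exact c12 a ha b hb
    · exact c13 a ha b hb
    · exact (c12 b hb a ha).symm
    · exact c22 a ha b hb
    · exact c23 a ha b hb
    · exact (c13 b hb a ha).symm
    · exact (c23 b hb a ha).symm
    · exact c33 a ha b hb
  have hJH : J ≤ H := by
    rw [Subgroup.closure_le]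
    rintro a (ha | ha | ha) <;> exact ha.1
  have hJn : ∀ g : MulAut V, (∀ s ∈ S, g * s * g⁻¹ ∈ S) → g ∈ Subgroup.normalizer (J : Set (MulAut V)) := by
    intro g hg
    have h1 : ∀ x ∈ J, g * x * g⁻¹ ∈ J := by
      intro x hx
      refine Subgroup.closure_induction (p := fun x _ => g * x * g⁻¹ ∈ J) ?_ ?_ ?_ ?_ hx
      · intro y hy; exact Subgroup.subset_closure (hg y hy)
      · simp [J.one_mem]
      · intro a c _ _ ha hc
        have : g * (a * c) * g⁻¹ = (g * a * g⁻¹) * (g * c * g⁻¹) := by group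
        rw [this]; exact J.mul_mem ha hc
      · intro a _ ha
        have : g * a⁻¹ * g⁻¹ = (g * a * g⁻¹)⁻¹ := by group
        rw [this]; exact J.inv_mem ha
    have h2 : J.map (MulAut.conj g).toMonoidHom ≤ J := by
      rintro _ ⟨x, hx, rfl⟩
      exact h1 x hx
    have h3 : J.map (MulAut.conj g).toMonoidHom = J := by
      apply Subgroup.eq_of_le_of_card_ge h2
      rw [Subgroup.card_map_of_injective (MulAut.conj g).injective]
    rw [Subgroup.mem_normalizer_iff]
    intro x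
    constructor
    · exact h1 x
    · intro hx
      have hx' : g * x * g⁻¹ ∈ J.map (MulAut.conj g).toMonoidHom := by rw [h3]; exact hx
      obtain ⟨y, hy, e⟩ := hx'
      have e' : g * y * g⁻¹ = g * x * g⁻¹ := e
      have : y = x := mul_left_cancel (mul_right_cancel e')
      rw [← this]; exact hy
  have hAJ : Subgroup.closure {r, t} ≤ Subgroup.normalizer (J : Set (MulAut V)) := by
    rw [Subgroup.closure_le]
    rintro g hg
    rcases hg with rfl | rfl
    · apply hJn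
      rintro s (hs | hs | hs)
      · exact Or.inr (Or.inr (cj hrA a3 hs))
      · exact Or.inl (cj hrA a5 hs)
      · exact Or.inr (Or.inl (cj hrA a4 hs))
    · apply hJn
      rintro s (hs | hs | hs)
      · exact Or.inl (cj htA att hs)
      · exact Or.inr (Or.inr (cj htA a6 hs))
      · exact Or.inr (Or.inl (cj htA a7 hs))
  -- generators act trivially modulo J
  have htriv : ∀ a ∈ Subgroup.closure {r, t}, ∀ k ∈ H, k⁻¹ * (a * k * a⁻¹) ∈ J := by
    have hg : ∀ i : Fin 4, i ≠ 0 → ∀ k ∈ H, k⁻¹ * (T r t i * k * (T r t i)⁻¹) ∈ C N H (T r t i) := by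
      intro i hi k hk
      refine ⟨H.mul_mem (H.inv_mem hk) (nz (hAH (T_mem r t i)) k hk), fun v hv => ?_⟩
      rw [MulAut.mul_apply, D.commT i hi hk hv]
      exact MulAut.inv_apply_self V _ _
    intro a ha
    rw [← T_gen D.hr (i := 1) (j := 3) (by decide)] at ha
    have hmem : ∀ x ∈ Subgroup.closure {T r t 1, T r t 3}, x ∈ Subgroup.closure {r, t} := by
      intro x hx
      rwa [← T_gen D.hr (i := 1) (j := 3) (by decide)]
    refine Subgroup.closure_induction
      (p := fun a _ => ∀ k ∈ H, k⁻¹ * (a * k * a⁻¹) ∈ J) ?_ ?_ ?_ ?_ ha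
    · intro y hy k hk
      rcases hy with rfl | rfl
      · exact Subgroup.subset_closure (Or.inl (hg 1 (by decide) k hk))
      · exact Subgroup.subset_closure (Or.inr (Or.inr (hg 3 (by decide) k hk)))
    · intro k hk; simp [J.one_mem]
    · intro a b _ hbA ha hb k hk
      have hbk : b * k * b⁻¹ ∈ H := nz (hAH (hmem b hbA)) k hk
      have : k⁻¹ * (a * b * k * (a * b)⁻¹) =
        (k⁻¹ * (b * k * b⁻¹)) * ((b * k * b⁻¹)⁻¹ * (a * (b * k * b⁻¹) * a⁻¹)) := by group
      rw [this]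
      exact J.mul_mem (hb k hk) (ha _ hbk)
    · intro a haA ha k hk
      have hak : a⁻¹ * k * a ∈ H := nz' (hAH (hmem a haA)) k hk
      have := J.inv_mem (ha _ hak)
      have e : ((a⁻¹ * k * a)⁻¹ * (a * (a⁻¹ * k * a) * a⁻¹))⁻¹ = k⁻¹ * (a⁻¹ * k * a⁻¹⁻¹) := by group
      rwa [e] at this
  have hHJ : ∀ h ∈ H, h ∈ J := by
    intro h hh
    obtain ⟨c, ⟨hcH, hcA⟩, hc⟩ := D.cop.exists_fixed_in_left_coset hJH hAJ hh
      (fun a ha => htriv a ha h hh)
    have hc1 : c = 1 := by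
      have hcA' : c ∈ Subgroup.centralizer ((Subgroup.closure {r, t} : Subgroup (MulAut V)) : Set (MulAut V)) := hcA
      rw [Subgroup.mem_centralizer_iff] at hcA'
      apply D.hfH c hcH
      · rw [mul_inv_eq_iff_eq_mul]; exact hcA' r hrA
      · rw [mul_inv_eq_iff_eq_mul]; exact hcA' t htA
    rw [hc1, mul_one] at hc
    simpa using J.inv_mem hc
  intro h hh k hk
  exact hJab h (hHJ h hh) k (hHJ k hk)

end V
end CfsgLib.H7S3
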