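import Cfsg.Agent.Lib.H7S3f
import Cfsg.Agent.Lib.SolvStr
import Cfsg.Agent.Lib.Core2
import Cfsg.Agent.Lib.H7Mult3
import Cfsg.Agent.Lib.H7GH
import Cfsg.Agent.Lib.H9Sig

set_option autoImplicit false

namespace CfsgLib.H7S3
open Subgroup

universe u

theorem char_norm {X : Type*} [Group X] [Finite X] {H : Subgroup X} (K : Subgroup H)
    (hK : K.Characteristic) {g : X} (hg : g ∈ Subgroup.normalizer (H : Set X)) :
    ∀ k ∈ K.map H.subtype, g * k * g⁻¹ ∈ K.map H.subtype := by
  rintro _ ⟨k, hk, rfl⟩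
  have h1 : K.map (H.normalizerMonoidHom ⟨g, hg⟩ : H ≃* H).toMonoidHom = K :=
    Subgroup.characteristic_iff_map_eq.mp hK _
  have h2 : (H.normalizerMonoidHom ⟨g, hg⟩) k ∈ K := by
    rw [← h1]; exact ⟨k, hk, rfl⟩
  exact ⟨_, h2, rfl⟩

section V
variable {V : Type u} [CommGroup V]
variable {N H : Subgroup (MulAut V)} {r t : MulAut V}

theorem Dat.caseI [Finite V] (D : Dat N H r t) (hF : F N r = ⊤) (hsol : Group.IsSolvable H)
    (hcoF : (Nat.card (Cfsg.fittingSubgroup H)).Coprime (Nat.card V)) :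
    ∀ h ∈ H, ∀ k ∈ H, h * k = k * h := by
  classical
  letI : Fintype N := Fintype.ofFinite N
  have hA := D.sub_norm
  have hrA : r ∈ Subgroup.closure {r, t} := Subgroup.subset_closure (by simp)
  have htA : t ∈ Subgroup.closure {r, t} := Subgroup.subset_closure (by simp)
  have hti : t⁻¹ = t := by rw [inv_eq_iff_mul_eq_one, ← pow_two]; exact D.ht
  have htt : t * t = 1 := by rw [← pow_two]; exact D.ht
  have hrn : ∀ n ∈ N, n * r = r * n := by
    intro n hn
    have h1 : n * r * n⁻¹ * r⁻¹ = 1 := by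
      ext v
      have hv : v ∈ F N r := by rw [hF]; exact Subgroup.mem_top v
      exact hv n hn
    rw [mul_inv_eq_one, mul_inv_eq_iff_eq_mul] at h1
    exact h1
  have hfr : ∀ v, r v = v → v = 1 := by
    intro v hv
    have hneg : ∀ w, r w = w → t w = w⁻¹ := by
      intro w hw
      have hrt : r * t = t * r⁻¹ := by
        calc r * t = (t * t) * r * t⁻¹ := by rw [htt, one_mul, hti]
          _ = t * (t * r * t⁻¹) := by simp only [mul_assoc]
          _ = t * r⁻¹ := by rw [D.htr]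
      have e1 : r (t w) = t w := by
        rw [← MulAut.mul_apply, hrt, MulAut.mul_apply]
        congr 1
        nth_rewrite 1 [← hw]
        exact MulAut.inv_apply_self V _ _
      have e2 : w * t w = 1 := by
        apply D.hfV
        · rw [map_mul, hw, e1]
        · rw [map_mul, ← MulAut.mul_apply, htt, MulAut.one_apply, mul_comm]
      exact eq_inv_of_mul_eq_one_right e2
    have hvt : v ∈ F N t := by
      intro n hn
      have hw : r (n⁻¹ v) = n⁻¹ v := by
        rw [← MulAut.mul_apply, ← hrn _ (N.inv_mem hn), MulAut.mul_apply, hv]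
      have e1 := hneg _ hw
      -- t n⁻¹ v = (n⁻¹ v)⁻¹
      have e2 : (t * n⁻¹ * t⁻¹) v = n⁻¹ v := by
        rw [MulAut.mul_apply, MulAut.mul_apply, hti, hneg v hv, map_inv, map_inv, e1, inv_inv]
      have e3 : n * t * n⁻¹ * t⁻¹ = n * (t * n⁻¹ * t⁻¹) := by group
      rw [e3, MulAut.mul_apply, e2, ← MulAut.mul_apply, mul_inv_cancel, MulAut.one_apply]
    refine D.disj (x := r) (y := t) rfl H.one_mem (by rw [hF]; exact Subgroup.mem_top v) ?_
    have e : (1 : MulAut V) * t * 1⁻¹ = t := by group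
    rw [e]; exact hvt
  have hoddH : Odd (Nat.card H) := by
    have : (Nat.card H).Coprime 2 := Nat.Coprime.coprime_dvd_right (by norm_num) D.h6
    exact Nat.coprime_two_right.mp this
  have h3H : (Nat.card H).Coprime 3 := Nat.Coprime.coprime_dvd_right (by norm_num) D.h6
  -- Fitting
  let Q : Subgroup (MulAut V) := (Cfsg.fittingSubgroup H).map H.subtype
  have hQc : Nat.card Q = Nat.card (Cfsg.fittingSubgroup H) :=
    Subgroup.card_map_of_injective H.subtype_injective
  have hQd : Nat.card Q ∣ Nat.card H := by rw [hQc]; exact Subgroup.card_subgroup_dvd_card _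
  have hQnil : Group.IsNilpotent Q := by
    haveI := CfsgLib.Core.fitting_nilpotent H
    exact Group.isNilpotent_congr (Subgroup.equivMapOfInjective (Cfsg.fittingSubgroup H) H.subtype H.subtype_injective) |>.mp this
  have hQr := lemQ r D.hr hfr Q (char_norm _ (CfsgLib.Core.fitting_characteristic H) D.rH) hQnil
    (by rw [hQc]; exact hcoF) (Odd.of_dvd_nat hoddH hQd) (Nat.Coprime.coprime_dvd_left hQd h3H)
  have hrH : ∀ h ∈ H, r * h * r⁻¹ = h := by
    have h1 := CfsgLib.SolvStr.aut_trivial hsol (H.normalizerMonoidHom ⟨r, D.rH⟩ : H ≃* H) (by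
      intro x hx
      apply Subtype.ext
      show r * x * r⁻¹ = x
      rw [mul_inv_eq_iff_eq_mul]
      exact (hQr x ⟨x, hx, rfl⟩).symm) (by
      refine Nat.Coprime.coprime_dvd_left (orderOf_dvd_of_pow_eq_one (n := 3) ?_) h3H.symm
      show (H.normalizerMonoidHom ⟨r, D.rH⟩ : MulAut H) ^ 3 = 1
      rw [← map_pow]
      have : (⟨r, D.rH⟩ : Subgroup.normalizer (H : Set (MulAut V))) ^ 3 = 1 := Subtype.ext D.hr
      rw [this, map_one])
    intro h hh
    have h2 := congrArg (fun f : H ≃* H => ((f ⟨h, hh⟩ : H) : MulAut V)) h1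
    exact h2
  -- t is fixed-point-free on H
  have hHt : ∀ h ∈ H, t * h * t⁻¹ ∈ H := nz D.tH
  have hft : ∀ h ∈ H, t * h * t⁻¹ = h → h = 1 := fun h hh e => D.hfH h hh (hrH h hh) e
  have hHinv : ∀ h ∈ H, t * h * t⁻¹ = h⁻¹ := by
    let f : H → H := fun x => ⟨(x : MulAut V)⁻¹ * (t * x * t⁻¹),
      H.mul_mem (H.inv_mem x.2) (hHt x x.2)⟩
    have hf : Function.Injective f := by
      intro x y hxy
      have h1 : (x : MulAut V)⁻¹ * (t * x * t⁻¹) = (y : MulAut V)⁻¹ * (t * y * t⁻¹) :=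
        congrArg Subtype.val hxy
      have h2 : t * ((y : MulAut V) * (x : MulAut V)⁻¹) * t⁻¹ = (y : MulAut V) * (x : MulAut V)⁻¹ := by
        have h3 : t * ((y : MulAut V) * (x : MulAut V)⁻¹) * t⁻¹
            = y * ((y : MulAut V)⁻¹ * (t * y * t⁻¹)) * (t * (x : MulAut V) * t⁻¹)⁻¹ := by
          simp only [mul_inv_rev, mul_assoc, inv_inv, mul_inv_cancel_left, inv_mul_cancel_left]
        rw [h3, ← h1]; group
      have h4 := hft _ (H.mul_mem y.2 (H.inv_mem x.2)) h2
      exact Subtype.ext (mul_inv_eq_one.mp h4).symm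
    have hsurj : Function.Surjective f := Finite.surjective_of_injective hf
    intro h hh
    obtain ⟨x, hx⟩ := hsurj ⟨h, hh⟩
    have hx' : (x : MulAut V)⁻¹ * (t * x * t⁻¹) = h := congrArg Subtype.val hx
    rw [← hx']
    have h5 : t * ((x : MulAut V)⁻¹ * (t * x * t⁻¹)) * t⁻¹
        = (t * x * t⁻¹)⁻¹ * ((t * t) * x * (t * t)⁻¹) := by group
    rw [h5, htt, mul_inv_rev (x : MulAut V)⁻¹, inv_inv (x : MulAut V)]
    simp
  intro h hh k hk
  have h1 := hHinv _ (H.mul_mem hh hk)
  have h2 : t * (h * k) * t⁻¹ = (t * h * t⁻¹) * (t * k * t⁻¹) := by group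
  rw [h2, hHinv h hh, hHinv k hk, ← mul_inv_rev, inv_inj] at h1
  exact h1.symm

end V
end CfsgLib.H7S3
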