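import Cfsg.Agent.Lib.H7S3g

set_option autoImplicit false

namespace CfsgLib.H7S3
open Subgroup
open scoped commutatorElement

universe u

theorem core {V : Type u} [CommGroup V] [Finite V] (q : ℕ) (hq : q.Prime) (hqV : IsPGroup q V)
    (hVne : Nontrivial V) (r t : MulAut V) (hr : r ^ 3 = 1) (ht : t ^ 2 = 1)
    (htr : t * r * t⁻¹ = r⁻¹)
    (hfV : ∀ v, r v = v → t v = v → v = 1)
    (H : Subgroup (MulAut V)) (hHr : ∀ h ∈ H, r * h * r⁻¹ ∈ H) (hHt : ∀ h ∈ H, t * h * t⁻¹ ∈ H)
    (hfH : ∀ h ∈ H, r * h * r⁻¹ = h → t * h * t⁻¹ = h → h = 1) (h6 : (Nat.card H).Coprime 6)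
    (hsol : Group.IsSolvable H)
    (hirr : ∀ W : Subgroup V, (∀ w ∈ W, r w ∈ W) → (∀ w ∈ W, t w ∈ W) →
      (∀ h ∈ H, ∀ w ∈ W, h w ∈ W) → W = ⊥ ∨ W = ⊤) :
    ∀ h ∈ H, ∀ k ∈ H, h * k = k * h := by
  classical
  haveI : Fact q.Prime := ⟨hq⟩
  by_cases hHb : H = ⊥
  · intro h hh k hk
    rw [hHb, Subgroup.mem_bot] at hh hk
    rw [hh, hk]
  have hrH : r ∈ Subgroup.normalizer (H : Set (MulAut V)) := CfsgLib.H7Mult.mem_norm_of_le hHr
  have htH : t ∈ Subgroup.normalizer (H : Set (MulAut V)) := CfsgLib.H7Mult.mem_norm_of_le hHt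
  -- fixed points
  have hfix : ∀ Q : Subgroup (MulAut V), r ∈ Subgroup.normalizer (Q : Set (MulAut V)) →
      t ∈ Subgroup.normalizer (Q : Set (MulAut V)) → H ≤ Subgroup.normalizer (Q : Set (MulAut V)) →
      Q ≠ ⊥ → ∀ v : V, (∀ a ∈ Q, a v = v) → v = 1 := by
    intro Q hrQ htQ hHQ hQ1 v hv
    let W : Subgroup V :=
      { carrier := {v | ∀ a ∈ Q, a v = v}
        one_mem' := fun a _ => map_one a
        mul_mem' := fun {x y} hx hy a ha => by
          rw [map_mul, hx a ha, hy a ha]
        inv_mem' := fun {x} hx a ha => by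
          rw [map_inv, hx a ha] }
    have hW : ∀ g : MulAut V, g ∈ Subgroup.normalizer (Q : Set (MulAut V)) → ∀ w ∈ W, g w ∈ W := by
      intro g hg w hw a ha
      have h1 := hw _ (nz' hg a ha)
      have h2 : g ((g⁻¹ * a * g) w) = a (g w) := by
        rw [← MulAut.mul_apply, ← MulAut.mul_apply]; congr 1; group
      rw [h1] at h2
      exact h2.symm
    rcases hirr W (hW r hrQ) (hW t htQ) (fun h hh => hW h (hHQ hh)) with h | h
    · have : v ∈ W := hv
      rw [h] at this
      exact Subgroup.mem_bot.mp this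
    · exfalso
      apply hQ1
      rw [eq_bot_iff]
      intro a ha
      rw [Subgroup.mem_bot]
      ext v
      have : v ∈ W := by rw [h]; exact Subgroup.mem_top v
      exact this a ha
  -- pCore
  have hHH : H ≤ Subgroup.normalizer (H : Set (MulAut V)) := Subgroup.le_normalizer
  have hcore : Cfsg.pCore q H = ⊥ := by
    by_contra hne
    let R : Subgroup (MulAut V) := (Cfsg.pCore q H).map H.subtype
    have hR1 : R ≠ ⊥ := by
      intro h
      exact hne ((Subgroup.map_eq_bot_iff_of_injective _ H.subtype_injective).mp h)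
    have hRn : ∀ g ∈ Subgroup.normalizer (H : Set (MulAut V)),
        g ∈ Subgroup.normalizer (R : Set (MulAut V)) := fun g hg =>
      CfsgLib.H7Mult.mem_norm_of_le (char_norm _ (CfsgLib.Core.pCore_characteristic q H) hg)
    have hRp : IsPGroup q R := by
      have h1 : IsPGroup q (Cfsg.pCore q H) := CfsgLib.Core.pCore_isPGroup q H
      exact h1.map _
    have hfp := hRp.card_modEq_card_fixedPoints V
    have hqc : q ∣ Nat.card V := by
      obtain ⟨n, hn⟩ := hqV.exists_card_eq
      rw [hn]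
      have : n ≠ 0 := by
        rintro rfl
        rw [pow_zero] at hn
        exact (Finite.one_lt_card (α := V)).ne' hn
      exact dvd_pow_self q this
    have hne1 : (1 : V) ∈ MulAction.fixedPoints R V := by
      intro a; exact map_one (a : MulAut V)
    obtain ⟨v, hv, hv1⟩ := hRp.exists_fixed_point_of_prime_dvd_card_of_fixed_point V hqc hne1
    apply hv1
    refine (hfix R (hRn r hrH) (hRn t htH) (fun h hh => hRn h (hHH hh)) hR1 v ?_).symm
    intro a ha
    exact hv ⟨a, ha⟩
  have hcoF : (Nat.card (Cfsg.fittingSubgroup H)).Coprime (Nat.card V) := by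
    obtain ⟨n, hn⟩ := hqV.exists_card_eq
    rw [hn]
    exact Nat.Coprime.pow_right n
      ((Nat.Prime.coprime_iff_not_dvd hq).mpr (CfsgLib.Core2.not_dvd_card_fitting hcore)).symm
  -- minimal abelian N
  let S' : Set (MulAut V →* MulAut V) := {f | f = (MulAut.conj r).toMonoidHom ∨
    f = (MulAut.conj t).toMonoidHom ∨ ∃ h ∈ H, f = (MulAut.conj h).toMonoidHom}
  obtain ⟨N, hNH, hN1, hNab, hNinv, -⟩ := CfsgLib.H7GH.exists_min_inv H hsol hHb S' (by
    rintro f (rfl | rfl | ⟨k, hk, rfl⟩) h hh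
    · exact hHr h hh
    · exact hHt h hh
    · exact H.mul_mem (H.mul_mem hk hh) (H.inv_mem hk))
  have hrN : r ∈ Subgroup.normalizer (N : Set (MulAut V)) :=
    CfsgLib.H7Mult.mem_norm_of_le (fun m hm => hNinv _ (Or.inl rfl) m hm)
  have htN : t ∈ Subgroup.normalizer (N : Set (MulAut V)) :=
    CfsgLib.H7Mult.mem_norm_of_le (fun m hm => hNinv _ (Or.inr (Or.inl rfl)) m hm)
  have hHN : H ≤ Subgroup.normalizer (N : Set (MulAut V)) := fun h hh =>
    CfsgLib.H7Mult.mem_norm_of_le (fun m hm => hNinv _ (Or.inr (Or.inr ⟨h, hh, rfl⟩)) m hm)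
  have hNF : Nat.card N ∣ Nat.card (Cfsg.fittingSubgroup H) := by
    have h1 : N.subgroupOf H ≤ Cfsg.fittingSubgroup H := by
      apply CfsgLib.Core.le_fitting
      · exact (Subgroup.normal_subgroupOf_iff_le_normalizer hNH).mpr hHN
      · haveI : IsMulCommutative (N.subgroupOf H) := ⟨⟨fun a b => by
          apply Subtype.ext; apply Subtype.ext
          exact hNab _ a.2 _ b.2⟩⟩
        letI : CommGroup (N.subgroupOf H) := { (inferInstance : Group (N.subgroupOf H)) with
          mul_comm := fun a b => by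
            apply Subtype.ext; apply Subtype.ext
            exact hNab _ a.2 _ b.2 }
        infer_instance
    have h2 := Subgroup.card_dvd_of_le h1
    rwa [Nat.card_congr (Subgroup.subgroupOfEquivOfLe hNH).toEquiv] at h2
  have hcoN : (Nat.card N).Coprime (Nat.card V) := Nat.Coprime.coprime_dvd_left hNF hcoF
  -- CopAct
  have hAcard : Nat.card (Subgroup.closure {r, t} : Subgroup (MulAut V)) ∣ 6 := by
    have e : (Subgroup.closure {r, t} : Subgroup (MulAut V)) = zpowers r ⊔ zpowers t := by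
      rw [Set.insert_eq, Subgroup.closure_union, ← Subgroup.zpowers_eq_closure,
        ← Subgroup.zpowers_eq_closure]
    rw [e]
    have hn : zpowers t ≤ Subgroup.normalizer ((zpowers r : Subgroup (MulAut V)) : Set (MulAut V)) := by
      rw [Subgroup.zpowers_le]
      apply CfsgLib.H7Mult.mem_norm_of_le
      rintro _ ⟨k, rfl⟩
      refine ⟨-k, ?_⟩
      show r ^ (-k) = t * r ^ k * t⁻¹
      rw [← conj_zpow, htr, inv_zpow, zpow_neg]
    have h1 := CfsgLib.H9Sig.card_sup_dvd hn
    rw [Nat.card_zpowers, Nat.card_zpowers] at h1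
    exact h1.trans (by
      have := mul_dvd_mul (orderOf_dvd_of_pow_eq_one hr) (orderOf_dvd_of_pow_eq_one ht)
      simpa using this)
  have cop : CfsgLib.Coprime.CopAct (Subgroup.closure {r, t}) H := by
    refine ⟨?_, Nat.Coprime.coprime_dvd_left hAcard h6.symm, Or.inr hsol⟩
    rw [Subgroup.closure_le]
    rintro x hx
    rcases hx with rfl | rfl
    · exact hrH
    · exact htH
  have D : Dat N H r t :=
    { hr := hr, ht := ht, htr := htr, hfV := hfV, cop := cop, hfH := hfH, hNH := hNH, hN := hNab,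
      hHN := hHN, hrN := hrN, htN := htN, hcoN := hcoN, h6 := h6,
      hCVN := hfix N hrN htN hHN hN1 }
  -- irreducibility of F N r
  letI : Fintype N := Fintype.ofFinite N
  rcases hirr (F N r) (by
    intro w hw
    have := F_conj (nz' hrN) hw
    have e : r * r * r⁻¹ = r := by group
    rwa [e] at this) (by
    intro w hw
    have h1 := F_conj (nz' htN) hw
    rw [htr] at h1
    have h2 := F_inv hNab (σ := r⁻¹) (by
      intro n hn; rw [inv_inv]; exact nz hrN n hn) h1
    rwa [inv_inv] at h2) (fun h hh w hw => D.Hinv 0 hw hh) with h | h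
  · exact D.caseII h
  · exact D.caseI h hsol hcoF

theorem mem_of_fix {G : Type u} [Group G] [Finite G] (hsol : Group.IsSolvable G)
    (A : Subgroup (MulAut G)) (hcop : (Nat.card A).Coprime (Nat.card G))
    (hf : ∀ g, (∀ a ∈ A, a g = g) → g = 1) (N : Subgroup G) (hN : ∀ a ∈ A, ∀ n ∈ N, a n ∈ N)
    (g : G) (hg : ∀ a ∈ A, g⁻¹ * a g ∈ N) : g ∈ N := by
  classical
  let φ : MulAut G →* MulAut G := MonoidHom.id _
  let Γ := SemidirectProduct G (MulAut G) φ
  haveI : Finite Γ := Finite.of_equiv _ (SemidirectProduct.equivProd (φ := φ)).symm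
  let K : Subgroup Γ := (SemidirectProduct.inl : G →* Γ).range
  let A' : Subgroup Γ := A.map (SemidirectProduct.inr : MulAut G →* Γ)
  let N' : Subgroup Γ := N.map (SemidirectProduct.inl : G →* Γ)
  have hconj : ∀ (a : MulAut G) (x : G), (SemidirectProduct.inr a : Γ) * SemidirectProduct.inl x *
      (SemidirectProduct.inr a)⁻¹ = SemidirectProduct.inl (a x) := by
    intro a x
    rw [← map_inv]
    exact (SemidirectProduct.inl_aut (φ := φ) a x).symm
  have hcA : CfsgLib.Coprime.CopAct A' K := by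
    refine ⟨?_, ?_, ?_⟩
    · rintro _ ⟨a, ha, rfl⟩
      apply CfsgLib.H7Mult.mem_norm_of_le
      rintro _ ⟨x, rfl⟩
      rw [hconj]; exact ⟨_, rfl⟩
    · have e1 : Nat.card A' = Nat.card A := Subgroup.card_map_of_injective SemidirectProduct.inr_injective
      have e2 : Nat.card K = Nat.card G :=
        (Nat.card_congr (MonoidHom.ofInjective (SemidirectProduct.inl_injective (φ := φ))).toEquiv).symm
      rw [e1, e2]; exact hcop
    · right
      haveI := hsol
      exact Group.isSolvable_of_surjective (SemidirectProduct.inl : G →* Γ).rangeRestrict_surjective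
  obtain ⟨c, ⟨⟨c0, hc0⟩, hcA'⟩, hc⟩ := hcA.exists_fixed_in_left_coset (N := N')
    (by rintro _ ⟨x, _, rfl⟩; exact ⟨x, rfl⟩)
    (by
      rintro _ ⟨a, ha, rfl⟩
      apply CfsgLib.H7Mult.mem_norm_of_le
      rintro _ ⟨x, hx, rfl⟩
      rw [hconj]; exact ⟨_, hN a ha x hx, rfl⟩)
    (k := SemidirectProduct.inl g) ⟨g, rfl⟩ (by
      rintro _ ⟨a, ha, rfl⟩
      rw [hconj]
      exact ⟨_, hg a ha, by rw [map_mul, map_inv]⟩)
  have hcA'' : c ∈ Subgroup.centralizer (A' : Set Γ) := hcA'
  rw [Subgroup.mem_centralizer_iff] at hcA''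
  have hc1 : c0 = 1 := by
    apply hf
    intro a ha
    have h1 := hcA'' (SemidirectProduct.inr a) ⟨a, ha, rfl⟩
    rw [← hc0] at h1
    have h2 := hconj a c0
    rw [h1, mul_inv_cancel_right] at h2
    exact (SemidirectProduct.inl_injective h2).symm
  rw [← hc0, hc1, map_one, mul_one] at hc
  obtain ⟨y, hy, hy'⟩ := hc
  have hy2 : y = g⁻¹ := by
    apply SemidirectProduct.inl_injective (φ := φ)
    rw [map_inv]; exact hy'
  rw [hy2] at hy
  simpa using N.inv_mem hy

theorem card_clos {X : Type*} [Group X] [Finite X] {r t : X} (hr : r ^ 3 = 1) (ht : t ^ 2 = 1)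
    (htr : t * r * t⁻¹ = r⁻¹) : Nat.card (Subgroup.closure {r, t} : Subgroup X) ∣ 6 := by
  have e : (Subgroup.closure {r, t} : Subgroup X) = zpowers r ⊔ zpowers t := by
    rw [Set.insert_eq, Subgroup.closure_union, ← Subgroup.zpowers_eq_closure,
      ← Subgroup.zpowers_eq_closure]
  rw [e]
  have hn : zpowers t ≤ Subgroup.normalizer ((zpowers r : Subgroup X) : Set X) := by
    rw [Subgroup.zpowers_le]
    apply CfsgLib.H7Mult.mem_norm_of_le
    rintro _ ⟨k, rfl⟩
    refine ⟨-k, ?_⟩
    show r ^ (-k) = t * r ^ k * t⁻¹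
    rw [← conj_zpow, htr, inv_zpow, zpow_neg]
  have h1 := CfsgLib.H9Sig.card_sup_dvd hn
  rw [Nat.card_zpowers, Nat.card_zpowers] at h1
  exact h1.trans (by
    have := mul_dvd_mul (orderOf_dvd_of_pow_eq_one hr) (orderOf_dvd_of_pow_eq_one ht)
    simpa using this)

theorem mem_of_fix3 {G : Type u} [Group G] [Finite G] (hsol : Group.IsSolvable G)
    (h6 : (Nat.card G).Coprime 6) {r t : MulAut G} (hr : r ^ 3 = 1) (ht : t ^ 2 = 1)
    (htr : t * r * t⁻¹ = r⁻¹) (hf : ∀ g, r g = g → t g = g → g = 1) (N : Subgroup G)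
    (hNr : ∀ n ∈ N, r n ∈ N) (hNt : ∀ n ∈ N, t n ∈ N) (g : G) (hgr : g⁻¹ * r g ∈ N)
    (hgt : g⁻¹ * t g ∈ N) : g ∈ N := by
  have hrA : r ∈ Subgroup.closure {r, t} := Subgroup.subset_closure (by simp)
  have htA : t ∈ Subgroup.closure {r, t} := Subgroup.subset_closure (by simp)
  have hinv : ∀ a ∈ Subgroup.closure {r, t}, ∀ n, n ∈ N ↔ a n ∈ N := by
    intro a ha
    refine Subgroup.closure_induction (p := fun a _ => ∀ n, n ∈ N ↔ a n ∈ N) ?_ ?_ ?_ ?_ ha
    · rintro x hx n
      rcases hx with rfl | rfl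
      · refine ⟨hNr n, fun h => ?_⟩
        have h1 := hNr _ (hNr _ h)
        rwa [← MulAut.mul_apply, ← MulAut.mul_apply, ← pow_three', hr] at h1
      · refine ⟨hNt n, fun h => ?_⟩
        have h1 := hNt _ h
        rwa [← MulAut.mul_apply, ← pow_two, ht] at h1
    · intro n; rfl
    · intro a b _ _ ha hb n
      rw [hb n, ha (b n), MulAut.mul_apply]
    · intro a _ ha n
      rw [ha (a⁻¹ n), ← MulAut.mul_apply, mul_inv_cancel, MulAut.one_apply]
  refine mem_of_fix hsol (Subgroup.closure {r, t})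
    (Nat.Coprime.coprime_dvd_left (card_clos hr ht htr) h6.symm)
    (fun g hg => hf g (hg r hrA) (hg t htA)) N (fun a ha n hn => (hinv a ha n).mp hn) g ?_
  intro a ha
  have hp : a ∈ Subgroup.closure {r, t} ∧ g⁻¹ * a g ∈ N := by
    refine Subgroup.closure_induction
      (p := fun a _ => a ∈ Subgroup.closure {r, t} ∧ g⁻¹ * a g ∈ N) ?_ ?_ ?_ ?_ ha
    · rintro x hx
      rcases hx with rfl | rfl
      · exact ⟨hrA, hgr⟩
      · exact ⟨htA, hgt⟩
    · refine ⟨Subgroup.one_mem _, ?_⟩
      rw [MulAut.one_apply, inv_mul_cancel]; exact N.one_mem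
    · rintro a b _ _ ⟨ha, ha'⟩ ⟨hb, hb'⟩
      refine ⟨Subgroup.mul_mem _ ha hb, ?_⟩
      have h1 := (hinv a ha _).mp hb'
      have e : g⁻¹ * (a * b) g = (g⁻¹ * a g) * a (g⁻¹ * b g) := by
        rw [map_mul, map_inv, MulAut.mul_apply]; group
      rw [e]; exact N.mul_mem ha' h1
    · rintro a _ ⟨ha, ha'⟩
      refine ⟨Subgroup.inv_mem _ ha, ?_⟩
      have h1 := (hinv _ (Subgroup.inv_mem _ ha) _).mp ha'
      rw [map_mul, map_inv, ← MulAut.mul_apply, inv_mul_cancel, MulAut.one_apply] at h1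
      have h2 := N.inv_mem h1
      rwa [mul_inv_rev, inv_inv] at h2
  exact hp.2

noncomputable def res {G : Type u} [Group G] (V : Subgroup G) [Finite V] (σ : MulAut G)
    (h : ∀ v ∈ V, σ v ∈ V) : MulAut V :=
  MulEquiv.ofBijective ((σ.toMonoidHom.comp V.subtype).codRestrict V (fun v => h v v.2))
    (Finite.injective_iff_bijective.mp (by
      intro a b hab
      have h1 : σ a = σ b := congrArg Subtype.val hab
      exact Subtype.ext (σ.injective h1)))

theorem res_coe {G : Type u} [Group G] (V : Subgroup G) [Finite V] (σ : MulAut G)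
    (h : ∀ v ∈ V, σ v ∈ V) (v : V) : ((res V σ h v : V) : G) = σ v := rfl

theorem map_eq_of {G : Type u} [Group G] [Finite G] (V : Subgroup G) (σ : MulAut G)
    (h : ∀ v ∈ V, σ v ∈ V) : V.map (σ : G ≃* G).toMonoidHom = V := by
  apply Subgroup.eq_of_le_of_card_ge
  · rintro _ ⟨v, hv, rfl⟩; exact h v hv
  · rw [Subgroup.card_map_of_injective (f := (σ : G ≃* G).toMonoidHom) σ.injective]

theorem main (n : ℕ) : ∀ (G : Type u) [Group G] [Finite G], Nat.card G ≤ n → Group.IsSolvable G →
    (Nat.card G).Coprime 6 → ∀ r t : MulAut G, r ^ 3 = 1 → t ^ 2 = 1 → t * r * t⁻¹ = r⁻¹ →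
    (∀ g, r g = g → t g = g → g = 1) → Group.IsNilpotent (commutator G) := by
  classical
  induction n with
  | zero =>
    intro G _ _ h
    have := Nat.card_pos (α := G)
    omega
  | succ n ih =>
    intro G _ _ hcard hsol h6 r t hr ht htr hf
    by_cases htriv : Nontrivial G
    swap
    · haveI := not_nontrivial_iff_subsingleton.mp htriv
      infer_instance
    have htr' : t * r = r⁻¹ * t := by rw [← htr]; group
    let S : Set (G →* G) := {f | f = r.toMonoidHom ∨ f = t.toMonoidHom ∨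
      ∃ g : G, f = (MulAut.conj g).toMonoidHom}
    haveI : Finite (⊤ : Subgroup G) := inferInstance
    obtain ⟨V, -, hV1, hVab, hVinv, hVmin⟩ := CfsgLib.H7GH.exists_min_inv (⊤ : Subgroup G)
      (haveI := hsol; Group.isSolvable_of_isSolvable_injective (Subgroup.subtype_injective _))
      top_ne_bot S (fun _ _ _ _ => Subgroup.mem_top _)
    have hVr : ∀ v ∈ V, r v ∈ V := fun v hv => hVinv _ (Or.inl rfl) v hv
    have hVt : ∀ v ∈ V, t v ∈ V := fun v hv => hVinv _ (Or.inr (Or.inl rfl)) v hv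
    haveI hVn : V.Normal := ⟨fun v hv g => hVinv _ (Or.inr (Or.inr ⟨g, rfl⟩)) v hv⟩
    letI : CommGroup V := { (inferInstance : Group V) with
      mul_comm := fun a b => Subtype.ext (hVab a a.2 b b.2) }
    haveI hVnt : Nontrivial V := (Subgroup.nontrivial_iff_ne_bot V).mpr hV1
    -- prime q
    obtain ⟨q, hq, hqd⟩ := Nat.exists_prime_and_dvd (Finite.one_lt_card (α := V)).ne'
    haveI : Fact q.Prime := ⟨hq⟩
    have hqV : IsPGroup q V := by
      let W : Subgroup G :=
        { carrier := {a | a ∈ V ∧ a ^ q = 1}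
          one_mem' := ⟨V.one_mem, one_pow q⟩
          mul_mem' := fun {x y} hx hy => ⟨V.mul_mem hx.1 hy.1, by
            rw [(show Commute x y from hVab x hx.1 y hy.1).mul_pow, hx.2, hy.2, one_mul]⟩
          inv_mem' := fun {x} hx => ⟨V.inv_mem hx.1, by rw [inv_pow, hx.2, inv_one]⟩ }
      have hW : W = ⊥ ∨ W = V := by
        apply hVmin
        · intro a ha; exact ha.1
        · rintro f hf a ha
          refine ⟨hVinv f hf a ha.1, ?_⟩
          rw [← map_pow, ha.2, map_one]
      rcases hW with h | h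
      · exfalso
        obtain ⟨x, hx⟩ := exists_prime_orderOf_dvd_card' q hqd
        have h1 : (x : G) ∈ W := ⟨x.2, by
          have := pow_orderOf_eq_one x
          rw [hx] at this
          exact congrArg Subtype.val this⟩
        rw [h, Subgroup.mem_bot] at h1
        have h2 : x = 1 := Subtype.ext h1
        rw [h2, orderOf_one] at hx
        exact hq.one_lt.ne hx
      · intro x
        refine ⟨1, ?_⟩
        rw [pow_one]
        have : (x : G) ∈ W := by rw [h]; exact x.2
        exact Subtype.ext this.2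
    have hr3 : ∀ g, r (r (r g)) = g := by
      intro g
      rw [← MulAut.mul_apply, ← MulAut.mul_apply, ← pow_three', hr, MulAut.one_apply]
    have ht2 : ∀ g, t (t g) = g := by
      intro g
      rw [← MulAut.mul_apply, ← pow_two, ht, MulAut.one_apply]
    have hri : r⁻¹ = r * r := by rw [eq_comm, eq_inv_iff_mul_eq_one, mul_assoc, ← pow_three, hr]
    have htr2 : ∀ g, t (r g) = r (r (t g)) := by
      intro g
      rw [← MulAut.mul_apply, htr', hri]; rfl
    -- restrictions
    let s1 : MulAut V := res V r hVr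
    let s2 : MulAut V := res V t hVt
    have hs1 : ∀ v : V, ((s1 v : V) : G) = r v := fun v => rfl
    have hs2 : ∀ v : V, ((s2 v : V) : G) = t v := fun v => rfl
    have hs13 : s1 ^ 3 = 1 := by
      ext v
      rw [pow_three, MulAut.mul_apply, MulAut.mul_apply, hs1, hs1, hs1, hr3]; rfl
    have hs22 : s2 ^ 2 = 1 := by
      ext v
      rw [pow_two, MulAut.mul_apply, hs2, hs2, ht2]; rfl
    have hs12 : s2 * s1 * s2⁻¹ = s1⁻¹ := by
      have h1 : s1⁻¹ = s1 * s1 := by
        rw [eq_comm, eq_inv_iff_mul_eq_one, mul_assoc, ← pow_three, hs13]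
      rw [h1, mul_inv_eq_iff_eq_mul]
      ext v
      rw [MulAut.mul_apply, hs2, hs1, htr2]; rfl
    have hfV : ∀ v, s1 v = v → s2 v = v → v = 1 := by
      intro v h1 h2
      exact Subtype.ext (hf _ (congrArg Subtype.val h1) (congrArg Subtype.val h2))
    let c : G →* MulAut V := MulAut.conjNormal
    have hc : ∀ g (v : V), ((c g v : V) : G) = g * v * g⁻¹ := fun g v => MulAut.conjNormal_apply g v
    have hsc1 : ∀ g, s1 * c g * s1⁻¹ = c (r g) := by
      intro g
      rw [mul_inv_eq_iff_eq_mul]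
      ext v
      rw [MulAut.mul_apply, MulAut.mul_apply, hs1, hc, hc, hs1, map_mul, map_mul, map_inv]
    have hsc2 : ∀ g, s2 * c g * s2⁻¹ = c (t g) := by
      intro g
      rw [mul_inv_eq_iff_eq_mul]
      ext v
      rw [MulAut.mul_apply, MulAut.mul_apply, hs2, hc, hc, hs2, map_mul, map_mul, map_inv]
    let H : Subgroup (MulAut V) := c.range
    have hab : ∀ h ∈ H, ∀ k ∈ H, h * k = k * h := by
      have hHsol : Group.IsSolvable H :=
        haveI := hsol; Group.isSolvable_of_surjective c.rangeRestrict_surjective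
      refine core q hq hqV hVnt s1 s2 hs13 hs22 hs12 hfV H ?_ ?_ ?_ ?_ hHsol ?_
      · rintro _ ⟨g, rfl⟩
        rw [hsc1]; exact ⟨_, rfl⟩
      · rintro _ ⟨g, rfl⟩
        rw [hsc2]; exact ⟨_, rfl⟩
      · rintro _ ⟨g, rfl⟩ h h'
        rw [hsc1] at h
        rw [hsc2] at h'
        have h1 : g⁻¹ * r g ∈ c.ker := by
          rw [MonoidHom.mem_ker, map_mul, map_inv, h, inv_mul_cancel]
        have h1' : g⁻¹ * t g ∈ c.ker := by
          rw [MonoidHom.mem_ker, map_mul, map_inv, h', inv_mul_cancel]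
        have h2 : ∀ n ∈ c.ker, r n ∈ c.ker := by
          intro n hn
          rw [MonoidHom.mem_ker] at hn ⊢
          rw [← hsc1, hn]; simp
        have h2' : ∀ n ∈ c.ker, t n ∈ c.ker := by
          intro n hn
          rw [MonoidHom.mem_ker] at hn ⊢
          rw [← hsc2, hn]; simp
        exact MonoidHom.mem_ker.mp (mem_of_fix3 hsol h6 hr ht htr hf c.ker h2 h2' g h1 h1')
      · exact Nat.Coprime.coprime_dvd_left (Subgroup.card_range_dvd c) h6
      · intro W hW1 hW1' hW2
        have hi1 : W.map V.subtype ≤ V := by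
          rintro _ ⟨w, _, rfl⟩; exact w.2
        have hi2 : ∀ f ∈ S, ∀ a ∈ W.map V.subtype, f a ∈ W.map V.subtype := by
          rintro f (rfl | rfl | ⟨g, rfl⟩) _ ⟨w, hw, rfl⟩
          · exact ⟨s1 w, hW1 w hw, rfl⟩
          · exact ⟨s2 w, hW1' w hw, rfl⟩
          · exact ⟨c g w, hW2 _ ⟨g, rfl⟩ w hw, rfl⟩
        rcases hVmin (W.map V.subtype) hi1 hi2 with h | h
        · left
          exact (Subgroup.map_eq_bot_iff_of_injective W V.subtype_injective).mp h
        · right
          apply Subgroup.map_injective V.subtype_injective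
          rw [h, ← MonoidHom.range_eq_map, Subgroup.range_subtype]
    have hG' : commutator G ≤ c.ker := by
      rw [_root_.commutator_def, Subgroup.commutator_le]
      intro g _ h _
      rw [MonoidHom.mem_ker, map_commutatorElement, commutatorElement_eq_one_iff_mul_comm]
      exact hab _ ⟨g, rfl⟩ _ ⟨h, rfl⟩
    -- quotient
    let r' : MulAut (G ⧸ V) := QuotientGroup.congr V V r (map_eq_of V r hVr)
    let t' : MulAut (G ⧸ V) := QuotientGroup.congr V V t (map_eq_of V t hVt)
    have hr'c : ∀ g : G, r' (g : G ⧸ V) = ((r g : G) : G ⧸ V) := fun g => rfl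
    have ht'c : ∀ g : G, t' (g : G ⧸ V) = ((t g : G) : G ⧸ V) := fun g => rfl
    have hr'3 : r' ^ 3 = 1 := by
      apply MulEquiv.ext
      intro x
      obtain ⟨g, rfl⟩ := QuotientGroup.mk_surjective x
      rw [pow_three, MulAut.mul_apply, MulAut.mul_apply, hr'c, hr'c, hr'c, hr3]; rfl
    have ht'2 : t' ^ 2 = 1 := by
      apply MulEquiv.ext
      intro x
      obtain ⟨g, rfl⟩ := QuotientGroup.mk_surjective x
      rw [pow_two, MulAut.mul_apply, ht'c, ht'c, ht2]; rfl
    have htr'' : t' * r' * t'⁻¹ = r'⁻¹ := by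
      have h1 : r'⁻¹ = r' * r' := by
        rw [eq_comm, eq_inv_iff_mul_eq_one, mul_assoc, ← pow_three, hr'3]
      rw [h1, mul_inv_eq_iff_eq_mul]
      apply MulEquiv.ext
      intro x
      obtain ⟨g, rfl⟩ := QuotientGroup.mk_surjective x
      rw [MulAut.mul_apply, hr'c, ht'c, htr2]; rfl
    have hτf : ∀ x, r' x = x → t' x = x → x = 1 := by
      intro x hx hx'
      obtain ⟨g, rfl⟩ := QuotientGroup.mk_surjective x
      rw [hr'c] at hx
      rw [ht'c] at hx'
      have h1 : g⁻¹ * r g ∈ V := QuotientGroup.eq.mp hx.symm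
      have h1' : g⁻¹ * t g ∈ V := QuotientGroup.eq.mp hx'.symm
      exact (QuotientGroup.eq_one_iff g).mpr (mem_of_fix3 hsol h6 hr ht htr hf V hVr hVt g h1 h1')
    have hcard2 : Nat.card (G ⧸ V) ≤ n := by
      have h1 := Subgroup.card_eq_card_quotient_mul_card_subgroup V
      have h2 : 1 < Nat.card V := Finite.one_lt_card
      have h3 : 0 < Nat.card (G ⧸ V) := Nat.card_pos
      nlinarith
    have hQ := ih (G ⧸ V) hcard2 (haveI := hsol; Group.isSolvable_of_surjective
      (QuotientGroup.mk'_surjective V)) (Nat.Coprime.coprime_dvd_left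
        (Subgroup.card_quotient_dvd_card V) h6) r' t' hr'3 ht'2 htr'' hτf
    have hm : (commutator G).map (QuotientGroup.mk' V) ≤ commutator (G ⧸ V) := by
      rw [_root_.commutator_def, _root_.commutator_def, Subgroup.map_commutator]
      exact Subgroup.commutator_mono le_top le_top
    let f : ↥(commutator G) →* ↥(commutator (G ⧸ V)) :=
      ((QuotientGroup.mk' V).comp (commutator G).subtype).codRestrict _
        (fun x => hm ⟨x, x.2, rfl⟩)
    haveI := hQ
    refine Subgroup.isNilpotent_of_ker_le_center f ?_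
    intro x hx
    rw [Subgroup.mem_center_iff]
    intro y
    have h1 : (QuotientGroup.mk' V) (x : G) = 1 := congrArg Subtype.val (MonoidHom.mem_ker.mp hx)
    have h2 : (x : G) ∈ V := (QuotientGroup.eq_one_iff _).mp h1
    have h3 : c (y : G) = 1 := MonoidHom.mem_ker.mp (hG' y.2)
    have h4 := hc (y : G) ⟨x, h2⟩
    rw [h3, MulAut.one_apply] at h4
    apply Subtype.ext
    show (y : G) * x = x * y
    exact (mul_inv_eq_iff_eq_mul.mp h4.symm)

end CfsgLib.H7S3
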