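import Mathlib
import Cfsg.Agent.Lib.H7SR
import Cfsg.Agent.Lib.AutPSL8
import Cfsg.Prelude.Def_KGroupFacts

/-!
# The Suzuki groups: automorphisms
-/

set_option autoImplicit false
set_option linter.style.haveILetI false
set_option linter.unusedSectionVars false

open MulAction Cfsg Matrix
open scoped Pointwise commutatorElement

namespace CfsgLib.H7S

universe u v

theorem card_out_congr {G : Type*} {H : Type*} [Group G] [Group H] (e : G ≃* H) : Nat.card (Out G) = Nat.card (Out H) := by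
  refine Nat.card_congr (QuotientGroup.congr (Inn G) (Inn H) (MulAut.congr e) ?_).toEquiv
  ext f
  constructor
  · rintro ⟨_, ⟨g, rfl⟩, rfl⟩
    refine ⟨e g, ?_⟩
    ext x
    show e g * x * (e g)⁻¹ = e (g * e.symm x * g⁻¹)
    simp
  · rintro ⟨h, rfl⟩
    refine ⟨MulAut.conj (e.symm h), ⟨_, rfl⟩, ?_⟩
    ext x
    show e (e.symm h * e.symm x * (e.symm h)⁻¹) = h * x * h⁻¹
    simp

variable {F : Type u} [Field F] [Fintype F] {m : ℕ}

/-- field automorphisms -/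
theorem exists_Fa (hm : 1 ≤ m) (hF : Fintype.card F = 2 ^ (2 * m + 1)) : ∃ Fa : RingAut F →* MulAut (Sz F m), ∀ (σ : RingAut F) (g : Sz F m) (i j : Fin 4),
    ((Fa σ g : Sz F m) : SpecialLinearGroup (Fin 4) F).1 i j = σ ((g : SpecialLinearGroup (Fin 4) F).1 i j) := by
  obtain ⟨D⟩ := exists_SD hF
  have hmem : ∀ (σ : RingAut F) (g : Sz F m), Matrix.SpecialLinearGroup.map (n := Fin 4) (σ : F ≃+* F).toRingHom (g : SpecialLinearGroup (Fin 4) F) ∈ Sz F m :=
    fun σ g => map_mem _ D D (fun x => D.t_comm _ x) hm hF g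
  obtain ⟨f, hf⟩ : ∃ f : RingAut F → Sz F m → Sz F m, ∀ (σ : RingAut F) (g : Sz F m) (i j : Fin 4),
      ((f σ g : Sz F m) : SpecialLinearGroup (Fin 4) F).1 i j = σ ((g : SpecialLinearGroup (Fin 4) F).1 i j) :=
    ⟨fun σ g => ⟨_, hmem σ g⟩, fun σ g i j => rfl⟩
  have hext : ∀ a b : Sz F m, (∀ i j, (a : SpecialLinearGroup (Fin 4) F).1 i j = (b : SpecialLinearGroup (Fin 4) F).1 i j) → a = b := by
    intro a b h
    exact Subtype.ext (Matrix.SpecialLinearGroup.ext _ _ h)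
  have hmul : ∀ (σ : RingAut F) (a b : Sz F m), f σ (a * b) = f σ a * f σ b := by
    intro σ a b
    apply hext
    intro i j
    rw [hf]
    show σ (((a : SpecialLinearGroup (Fin 4) F).1 * (b : SpecialLinearGroup (Fin 4) F).1) i j) =
      ((f σ a : SpecialLinearGroup (Fin 4) F).1 * (f σ b : SpecialLinearGroup (Fin 4) F).1) i j
    rw [Matrix.mul_apply, Matrix.mul_apply, map_sum]
    refine Finset.sum_congr rfl fun x _ => ?_
    rw [map_mul, hf, hf]
  have hcomp : ∀ (σ τ : RingAut F) (a : Sz F m), f (σ * τ) a = f σ (f τ a) := by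
    intro σ τ a
    apply hext
    intro i j
    rw [hf, hf, hf]
    rfl
  have hone : ∀ a : Sz F m, f 1 a = a := by
    intro a
    apply hext
    intro i j
    rw [hf]
    rfl
  refine ⟨MonoidHom.mk' (fun σ => ({ toFun := f σ, invFun := f σ⁻¹, left_inv := fun a => ?_, right_inv := fun a => ?_, map_mul' := hmul σ } : Sz F m ≃* Sz F m)) ?_, hf⟩
  · rw [← hcomp, inv_mul_cancel, hone]
  · rw [← hcomp, mul_inv_cancel, hone]
  · intro σ τ
    ext a : 1
    exact hcomp σ τ a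

section

variable {D : SD F m} {Fa : RingAut F →* MulAut (Sz F m)}
  (hFa : ∀ (σ : RingAut F) (g : Sz F m) (i j : Fin 4), ((Fa σ g : Sz F m) : SpecialLinearGroup (Fin 4) F).1 i j = σ ((g : SpecialLinearGroup (Fin 4) F).1 i j))

include hFa

theorem Fa_T (σ : RingAut F) (a b : F) : Fa σ (D.T a b) = D.T (σ a) (σ b) := by
  apply Subtype.ext
  apply Matrix.SpecialLinearGroup.ext
  intro i j
  have hσt : ∀ x, σ (D.t x) = D.t (σ x) := fun x => D.t_comm (σ : F ≃+* F).toRingHom x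
  rw [hFa]
  show σ ((!![1, a, b + D.t a * a, a * b + D.t a * a ^ 2 + D.t b; 0, 1, D.t a, b; 0, 0, 1, a; 0, 0, 0, 1] : Matrix (Fin 4) (Fin 4) F) i j) =
    (!![1, σ a, σ b + D.t (σ a) * σ a, σ a * σ b + D.t (σ a) * (σ a) ^ 2 + D.t (σ b); 0, 1, D.t (σ a), σ b; 0, 0, 1, σ a; 0, 0, 0, 1] : Matrix (Fin 4) (Fin 4) F) i j
  fin_cases i <;> fin_cases j <;> simp [hσt]

theorem Fa_h (σ : RingAut F) (μ : Fˣ) : Fa σ (D.h μ) = D.h (Units.map (σ : F ≃+* F).toRingHom.toMonoidHom μ) := by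
  apply Subtype.ext
  apply Matrix.SpecialLinearGroup.ext
  intro i j
  have hσt : ∀ x, σ (D.t x) = D.t (σ x) := fun x => D.t_comm (σ : F ≃+* F).toRingHom x
  rw [hFa]
  show σ ((!![(μ : F) * D.t μ, 0, 0, 0; 0, (μ : F), 0, 0; 0, 0, (μ : F)⁻¹, 0; 0, 0, 0, ((μ : F) * D.t μ)⁻¹] : Matrix (Fin 4) (Fin 4) F) i j) =
    (!![σ (μ : F) * D.t (σ μ), 0, 0, 0; 0, σ (μ : F), 0, 0; 0, 0, (σ (μ : F))⁻¹, 0; 0, 0, 0, (σ (μ : F) * D.t (σ μ))⁻¹] : Matrix (Fin 4) (Fin 4) F) i j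
  fin_cases i <;> fin_cases j <;> simp [hσt]

/-- field automorphisms are outer -/
theorem Fa_outer (hm : 1 ≤ m) (hF : Fintype.card F = 2 ^ (2 * m + 1)) {σ : RingAut F} (h : Fa σ ∈ Inn (Sz F m)) : σ = 1 := by
  obtain ⟨D⟩ := exists_SD hF
  obtain ⟨g, hg⟩ := h
  have hg' : ∀ x, g * x * g⁻¹ = Fa σ x := fun x => by rw [← hg]; rfl
  have h1 := hg' (D.T 0 1)
  rw [Fa_T hFa, map_zero, map_one] at h1
  have hgi : g • oinf F m = oinf F m := by
    have h2 : D.T 0 1 • (g • oinf F m) = g • oinf F m := by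
      rw [← h1, mul_smul, mul_smul, inv_smul_smul, D.T_inf]
    exact D.T_fix (fun h => one_ne_zero h.2) h2
  obtain ⟨μ0, hμ0⟩ := SD.exists_unit_ne (F := F) (m := m) hm hF
  have hg0 : g • opt m (0 : F) 0 = opt m (0 : F) 0 := by
    have h2 := hg' (D.h μ0)
    rw [Fa_h hFa] at h2
    have h3 : D.h (Units.map (σ : F ≃+* F).toRingHom.toMonoidHom μ0) • (g • opt m (0 : F) 0) = g • opt m (0 : F) 0 := by
      rw [← h2, mul_smul, mul_smul, inv_smul_smul, D.h_pt, mul_zero, mul_zero]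
    rcases oex (g • opt m (0 : F) 0) with h4 | ⟨x, y, h4⟩
    · exfalso
      have := smul_left_cancel g (h4.trans hgi.symm)
      exact opt_ne_inf _ _ this
    · rw [h4] at h3 ⊢
      by_contra hne
      have hxy : ¬ (x = 0 ∧ y = 0) := by
        rintro ⟨rfl, rfl⟩
        exact hne rfl
      have h5 := D.h_fix hxy h3
      apply hμ0
      apply Units.ext
      apply (σ : F ≃+* F).injective
      rw [Units.val_one, map_one]
      exact congrArg Units.val h5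
  obtain ⟨ν, rfl⟩ := D.stab2' hm hF hgi hg0
  rw [D.h_conj_T, D.T_inj] at h1
  have h2 : ν = 1 := by
    apply Units.ext
    apply D.N_inj (by rw [Units.val_one]; exact one_ne_zero)
    rw [Units.val_one, map_one]
    linear_combination h1.2
  rw [h2, D.h_one] at hg'
  ext x
  have h3 := hg' (D.T 0 x)
  rw [Fa_T hFa, one_mul, inv_one, mul_one, D.T_inj] at h3
  exact h3.2.symm

/-- every automorphism is a product of an inner and a field automorphism -/
theorem aut_form (hm : 1 ≤ m) (hF : Fintype.card F = 2 ^ (2 * m + 1)) (φ : MulAut (Sz F m)) : ∃ (σ : RingAut F) (g : Sz F m), φ = MulAut.conj g * Fa σ := by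
  obtain ⟨D⟩ := exists_SD hF
  haveI : Fact (Nat.Prime 2) := ⟨Nat.prime_two⟩
  have hZ := D.zassenhaus hm hF
  -- step 1: preserve the Sylow subgroup
  have step1 : ∃ k : Sz F m, ∀ x, (MulAut.conj k * φ) x ∈ D.P ↔ x ∈ D.P := by
    have hsur : Function.Surjective φ.toMonoidHom := φ.surjective
    obtain ⟨k, hk⟩ := sylow_conj hm hF D ((D.PS hm hF).mapSurjective hsur)
    refine ⟨k, fun x => ?_⟩
    have h1 := hk (φ x)
    rw [Sylow.coe_mapSurjective, SD.PS_coe, Subgroup.mem_map] at h1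
    show k * φ x * k⁻¹ ∈ D.P ↔ _
    rw [← h1]
    constructor
    · rintro ⟨y, hy, hyx⟩
      rwa [φ.injective hyx] at hy
    · intro hx
      exact ⟨x, hx, rfl⟩
  obtain ⟨k, hk⟩ := step1
  obtain ⟨φ1, hφ1⟩ : ∃ φ1, φ1 = MulAut.conj k * φ := ⟨_, rfl⟩
  rw [← hφ1] at hk
  have hN : Subgroup.normalizer (D.P : Set (Sz F m)) = stabilizer (Sz F m) (oinf F m) :=
    normalizer_sylow hm hF D.P_le D.P_card_add D.P_fix
  -- automorphisms preserving the Sylow subgroup preserve the point stabilizer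
  have hst : ∀ ψ : MulAut (Sz F m), (∀ x, ψ x ∈ D.P ↔ x ∈ D.P) → ∀ x, ψ x • oinf F m = oinf F m ↔ x • oinf F m = oinf F m := by
    intro ψ hψ x
    rw [← mem_stabilizer_iff, ← mem_stabilizer_iff, ← hN, Subgroup.mem_normalizer_iff, Subgroup.mem_normalizer_iff]
    constructor
    · intro h y
      rw [← hψ y, h (ψ y), ← map_inv, ← map_mul, ← map_mul, hψ]
    · intro h y
      obtain ⟨z, rfl⟩ := ψ.surjective y
      rw [hψ, h z, ← map_inv, ← map_mul, ← map_mul, hψ]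
  -- step 2: preserve the torus
  obtain ⟨μ0, hμ0⟩ := SD.exists_unit_ne (F := F) (m := m) hm hF
  have hhP : ∀ μ : Fˣ, D.h μ ∈ D.P → μ = 1 := by
    intro μ hμ
    obtain ⟨a, b, hab⟩ := D.mem_P.mp hμ
    have : D.T 0 0 * D.h μ = D.T a b * D.h 1 := by rw [D.T_zero, one_mul, D.h_one, mul_one, hab]
    exact T_h_unique this
  have step2 : ∃ u : Sz F m, u ∈ D.P ∧ (u * φ1 (D.h μ0) * u⁻¹) • opt m (0 : F) 0 = opt m (0 : F) 0 := by
    have hμ0o : Odd (orderOf (φ1 (D.h μ0))) := by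
      rw [φ1.orderOf_eq]
      exact Odd.of_dvd_nat (D.odd_E hm hF) (Subgroup.orderOf_dvd_natCard _ (D.h_mem μ0))
    have hne : φ1 (D.h μ0) ≠ 1 := by
      intro h
      have h2 : D.h μ0 = 1 := φ1.injective (by rw [h, map_one])
      exact hμ0 (D.h_inj (by rw [h2, D.h_one]))
    have hinf : φ1 (D.h μ0) • oinf F m = oinf F m := (hst φ1 hk _).mpr (D.h_inf μ0)
    rcases cent_odd hm hF hne hμ0o with ⟨c, d, hcd, hc, hd⟩ | hFP
    · have h3 : ∃ e : suzukiOvoid F m, e ≠ oinf F m ∧ φ1 (D.h μ0) • e = e := by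
        by_cases h : c = oinf F m
        · exact ⟨d, fun h' => hcd (h.trans h'.symm), hd⟩
        · exact ⟨c, h, hc⟩
      obtain ⟨e, he, hxe⟩ := h3
      rcases oex e with h | ⟨x, y, rfl⟩
      · exact absurd h he
      refine ⟨D.T x (y + D.t x * x), D.T_mem_P _ _, ?_⟩
      have h4 := D.T_to_zero x y
      rw [mul_smul, mul_smul, ← h4, inv_smul_smul, hxe]
    · exact absurd hinf (hFP _)
  obtain ⟨u, huP, hu0⟩ := step2
  obtain ⟨φ2, hφ2⟩ : ∃ φ2, φ2 = MulAut.conj u * φ1 := ⟨_, rfl⟩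
  have hφ2a : ∀ x, φ2 x = u * φ1 x * u⁻¹ := fun x => by rw [hφ2]; rfl
  have hk2 : ∀ x, φ2 x ∈ D.P ↔ x ∈ D.P := by
    intro x
    rw [hφ2a, ← hk x]
    constructor
    · intro h
      have := mul_mem (mul_mem (inv_mem huP) h) huP
      have e : u⁻¹ * (u * φ1 x * u⁻¹) * u = φ1 x := by group
      rwa [e] at this
    · intro h
      exact mul_mem (mul_mem huP h) (inv_mem huP)
  have hE : ∀ μ : Fˣ, ∃ ν : Fˣ, φ2 (D.h μ) = D.h ν := by
    have h0 : φ2 (D.h μ0) • opt m (0 : F) 0 = opt m (0 : F) 0 := by rw [hφ2a]; exact hu0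
    have hi : φ2 (D.h μ0) • oinf F m = oinf F m := (hst φ2 hk2 _).mpr (D.h_inf μ0)
    have hne : φ2 (D.h μ0) ≠ 1 := by
      intro h
      have h2 : D.h μ0 = 1 := φ2.injective (by rw [h, map_one])
      exact hμ0 (D.h_inj (by rw [h2, D.h_one]))
    intro μ
    have h1 := cent_EE hm hF inf_ne_zero hi h0 hne
    have h2 : φ2 (D.h μ) ∈ Subgroup.centralizer ({φ2 (D.h μ0)} : Set (Sz F m)) := by
      rw [Subgroup.mem_centralizer_singleton_iff, ← map_mul, ← map_mul, D.h_mul, D.h_mul, mul_comm]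
    rw [h1] at h2
    exact D.stab2' hm hF h2.1 h2.2
  -- step 3: the center
  have hinv : ∀ ψ : MulAut (Sz F m), (∀ x, ψ x ∈ D.P ↔ x ∈ D.P) → ∀ b : F, ∃ c : F, ψ (D.T 0 b) = D.T 0 c := by
    intro ψ hψ b
    obtain ⟨a, c, hac⟩ := D.mem_P.mp ((hψ _).mpr (D.T_mem_P 0 b))
    have h1 : ψ (D.T 0 b) * ψ (D.T 0 b) = 1 := by rw [← map_mul, D.T_sq, mul_zero, D.T_zero, map_one]
    rw [hac, D.T_sq, ← D.T_zero, D.T_inj] at h1
    have ha : a = 0 := by
      rcases mul_eq_zero.mp h1.2 with h | h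
      · exact D.t_eq_zero.mp h
      · exact h
    exact ⟨c, by rw [hac, ha]⟩
  obtain ⟨c1, hc1⟩ := hinv φ2 hk2 1
  have hc10 : c1 ≠ 0 := by
    rintro rfl
    rw [D.T_zero] at hc1
    have h2 : D.T 0 1 = 1 := φ2.injective (by rw [hc1, map_one])
    exact D.T_ne_one (fun h => one_ne_zero h.2) h2
  obtain ⟨ν, hν⟩ := exists_N D (inv_ne_zero hc10)
  obtain ⟨φ3, hφ3⟩ : ∃ φ3, φ3 = MulAut.conj (D.h ν) * φ2 := ⟨_, rfl⟩
  have hφ3a : ∀ x, φ3 x = D.h ν * φ2 x * (D.h ν)⁻¹ := fun x => by rw [hφ3]; rfl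
  have hk3 : ∀ x, φ3 x ∈ D.P ↔ x ∈ D.P := by
    intro x
    rw [hφ3a, ← hk2 x]
    have h1 : D.h ν ∈ Subgroup.normalizer (D.P : Set (Sz F m)) := by
      rw [hN]; exact D.h_inf ν
    exact (Subgroup.mem_normalizer_iff.mp h1 _).symm
  have h31 : φ3 (D.T 0 1) = D.T 0 1 := by
    rw [hφ3a, hc1, D.h_conj_T, mul_zero, hν, inv_mul_cancel₀ hc10]
  have hE3 : ∀ μ : Fˣ, ∃ ρ : Fˣ, φ3 (D.h μ) = D.h ρ := by
    intro μ
    obtain ⟨ρ, hρ⟩ := hE μ
    refine ⟨ρ, ?_⟩
    rw [hφ3a, hρ, D.h_mul, mul_comm, ← D.h_mul]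
    group
  choose α hα using hE3
  choose β hβ using hinv φ3 hk3
  have hβ1 : β 1 = 1 := by
    have := hβ 1
    rw [h31, D.T_inj] at this
    exact this.2.symm
  have hβadd : ∀ x y, β (x + y) = β x + β y := by
    intro x y
    have h1 : D.T 0 (x + y) = D.T 0 x * D.T 0 y := by
      rw [D.T_mul]; simp
    have h2 : φ3 (D.T 0 (x + y)) = D.T 0 (β x + β y) := by
      rw [h1, map_mul, hβ, hβ, D.T_mul]; simp
    rw [hβ, D.T_inj] at h2
    exact h2.2
  have hαmul : ∀ x y, α (x * y) = α x * α y := by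
    intro x y
    apply D.h_inj
    rw [← hα, ← D.h_mul, map_mul, hα, hα, D.h_mul]
  have hβN : ∀ μ : Fˣ, β ((μ : F) ^ 2 * D.t μ) = (α μ : F) ^ 2 * D.t (α μ) := by
    intro μ
    have h1 : φ3 (D.h μ * D.T 0 1 * (D.h μ)⁻¹) = D.h (α μ) * D.T 0 1 * (D.h (α μ))⁻¹ := by
      rw [map_mul, map_mul, map_inv, hα, h31]
    rw [D.h_conj_T, D.h_conj_T, mul_zero, mul_zero, mul_one, mul_one, hβ, D.T_inj] at h1
    exact h1.2
  obtain ⟨α', hα'⟩ : ∃ α' : Fˣ →* Fˣ, ∀ x, α' x = α x := ⟨MonoidHom.mk' α hαmul, fun _ => rfl⟩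
  have hβα : ∀ μ : Fˣ, β (μ : F) = α μ := by
    intro μ
    obtain ⟨ρ, hρ⟩ := exists_N D μ.ne_zero
    have h1 : μ = ρ ^ (2 + 2 ^ (m + 1)) := by
      apply Units.ext
      rw [Units.val_pow_eq_pow_val, pow_add, ← D.ht, hρ]
    have h2 : α μ = (α ρ) ^ (2 + 2 ^ (m + 1)) := by
      rw [← hα', ← hα', h1, map_pow]
    rw [h2, Units.val_pow_eq_pow_val, pow_add, ← D.ht, ← hβN, hρ]
  have hβ0 : β 0 = 0 := by
    have := hβadd 0 0
    rw [add_zero] at this
    linear_combination -this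
  have hβmul : ∀ x y, β (x * y) = β x * β y := by
    intro x y
    by_cases hx : x = 0
    · rw [hx, zero_mul, hβ0, zero_mul]
    by_cases hy : y = 0
    · rw [hy, mul_zero, hβ0, mul_zero]
    have h1 := hβα (Units.mk0 x hx * Units.mk0 y hy)
    rw [hαmul, Units.val_mul, Units.val_mul, ← hβα, ← hβα] at h1
    exact h1
  have hβinj : Function.Injective β := by
    intro x y h
    have h1 : φ3 (D.T 0 x) = φ3 (D.T 0 y) := by rw [hβ, hβ, h]
    have h2 := φ3.injective h1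
    rw [D.T_inj] at h2
    exact h2.2
  obtain ⟨σ, hσ⟩ : ∃ σ : RingAut F, ∀ x, σ x = β x :=
    ⟨RingEquiv.ofBijective ({ toFun := β, map_one' := hβ1, map_mul' := hβmul, map_zero' := hβ0, map_add' := hβadd } : F →+* F)
      ⟨hβinj, Finite.surjective_of_injective hβinj⟩, fun _ => rfl⟩
  -- step 4: divide by the field automorphism
  obtain ⟨φ4, hφ4⟩ : ∃ φ4, φ4 = Fa σ⁻¹ * φ3 := ⟨_, rfl⟩
  have hφ4a : ∀ x, φ4 x = Fa σ⁻¹ (φ3 x) := fun x => by rw [hφ4]; rfl
  have hσinv : ∀ x, σ⁻¹ (σ x) = x := fun x => by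
    have : (σ⁻¹ * σ) x = x := by rw [inv_mul_cancel]; rfl
    exact this
  have h40 : ∀ b, φ4 (D.T 0 b) = D.T 0 b := by
    intro b
    rw [hφ4a, hβ, Fa_T hFa, map_zero, ← hσ, hσinv]
  have h4h : ∀ μ, φ4 (D.h μ) = D.h μ := by
    intro μ
    rw [hφ4a, hα, Fa_h hFa]
    congr 1
    apply Units.ext
    show σ⁻¹ (α μ : F) = μ
    rw [← hβα, ← hσ, hσinv]
  have hk4 : ∀ x, φ4 x ∈ D.P ↔ x ∈ D.P := by
    have hFaP : ∀ (τ : RingAut F) (x : Sz F m), x ∈ D.P → Fa τ x ∈ D.P := by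
      intro τ x hx
      obtain ⟨a, b, rfl⟩ := D.mem_P.mp hx
      rw [Fa_T hFa]
      exact D.T_mem_P _ _
    intro x
    rw [hφ4a, ← hk3 x]
    constructor
    · intro h
      have h1 := hFaP σ _ h
      have h2 : Fa σ (Fa σ⁻¹ (φ3 x)) = φ3 x := by
        have : (Fa σ * Fa σ⁻¹) (φ3 x) = φ3 x := by rw [← map_mul, mul_inv_cancel, map_one]; rfl
        exact this
      rwa [h2] at h1
    · exact hFaP _ _
  -- the first coordinate
  have h4T : ∀ a : F, ∃ c : F, φ4 (D.T a 0) = D.T a c := by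
    intro a
    obtain ⟨a', c, hac⟩ := D.mem_P.mp ((hk4 _).mpr (D.T_mem_P a 0))
    have h1 : φ4 (D.T a 0) * φ4 (D.T a 0) = D.T 0 (D.t a * a) := by rw [← map_mul, D.T_sq, h40]
    rw [hac, D.T_sq, D.T_inj] at h1
    have ha : a' = a := by
      by_cases ha0 : a = 0
      · rw [ha0, map_zero, mul_zero] at h1
        rcases mul_eq_zero.mp h1.2 with h | h
        · rw [D.t_eq_zero.mp h, ha0]
        · rw [h, ha0]
      · have h3 : D.t a ≠ 0 := fun h => ha0 (D.t_eq_zero.mp h)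
        have h2 : D.t (a' / a) * (a' / a) = 1 := by
          rw [map_div₀]
          field_simp
          exact h1.2
        have h4 := D.eq_one_of_t_mul h2
        field_simp at h4
        exact h4
    exact ⟨c, by rw [hac, ha]⟩
  choose δ hδ using h4T
  have h4T' : ∀ a b : F, φ4 (D.T a b) = D.T a (δ a + b) := by
    intro a b
    have h1 : D.T a b = D.T a 0 * D.T 0 b := by rw [D.T_mul]; simp
    rw [h1, map_mul, hδ, h40, D.T_mul]
    simp
  have hδadd : ∀ a c, δ (a + c) = δ a + δ c := by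
    intro a c
    have h1 : φ4 (D.T a 0 * D.T c 0) = D.T a (δ a) * D.T c (δ c) := by rw [map_mul, hδ, hδ]
    rw [D.T_mul, h4T', D.T_mul, D.T_inj] at h1
    linear_combination h1.2
  have hδN : ∀ x : F, x ≠ 0 → δ x = x * D.t x * δ 1 := by
    intro x hx
    obtain ⟨μ, hμ⟩ := D.exists_t_unit (Units.mk0 x hx)
    rw [Units.val_mk0] at hμ
    have h1 : φ4 (D.h μ * D.T 1 0 * (D.h μ)⁻¹) = D.h μ * D.T 1 (δ 1) * (D.h μ)⁻¹ := by
      rw [map_mul, map_mul, map_inv, h4h, hδ]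
    rw [D.h_conj_T, D.h_conj_T, mul_zero, mul_one, h4T', D.T_inj, hμ] at h1
    have h2 : (μ : F) ^ 2 = D.t x := by rw [← D.tt, hμ]
    rw [h2] at h1
    linear_combination h1.2
  have hδ1 : δ 1 = 0 := by
    obtain ⟨x, hx0, hx1⟩ := SD.exists_ne (F := F) (m := m) hm hF
    have hx10 : x + 1 ≠ 0 := fun h => hx1 (D.add_eq_zero.mp h)
    have h1 := hδadd x 1
    rw [hδN (x + 1) hx10, hδN x hx0, map_add, map_one] at h1
    have h2 : (x + D.t x) * δ 1 = 0 := by linear_combination h1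
    rcases mul_eq_zero.mp h2 with h3 | h3
    · exfalso
      have h7 : D.t x = x := (D.add_eq_zero.mp h3).symm
      rcases D.t_fix h7 with h8 | h8
      · exact hx0 h8
      · exact hx1 h8
    · exact h3
  have hδ0 : ∀ x, δ x = 0 := by
    intro x
    by_cases hx : x = 0
    · rw [hx]
      have := hδadd 0 0
      rw [add_zero] at this
      linear_combination -this
    · rw [hδN x hx, hδ1, mul_zero]
  have h4P : ∀ a b, φ4 (D.T a b) = D.T a b := by
    intro a b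
    rw [h4T', hδ0, zero_add]
  have h4B : ∀ g, g • oinf F m = oinf F m → φ4 g = g := by
    intro g hg
    obtain ⟨a, b, μ, rfl⟩ := D.stab_inf hm hF hg
    rw [map_mul, h4P, h4h]
  have h4i : ∀ g, φ4 g • oinf F m = g • oinf F m := by
    intro g
    rcases oex (g • oinf F m) with h | ⟨x, y, h⟩
    · rw [h4B g h]
    · obtain ⟨k0, hk0⟩ : ∃ k0, k0 = D.T x y * D.h μ0 * (D.T x y)⁻¹ := ⟨_, rfl⟩
      have hTi : (D.T x y)⁻¹ • oinf F m = oinf F m := by rw [inv_smul_eq_iff, D.T_inf]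
      have hk0i : k0 • oinf F m = oinf F m := by rw [hk0, mul_smul, mul_smul, hTi, D.h_inf, D.T_inf]
      have hk0p : k0 • opt m x y = opt m x y := by
        rw [hk0, ← D.T_from_zero x y, mul_smul, mul_smul, inv_smul_smul, D.h_pt, mul_zero, mul_zero]
      have hk01 : k0 ≠ 1 := by
        intro h1
        apply hμ0
        apply D.h_inj
        rw [D.h_one]
        calc D.h μ0 = (D.T x y)⁻¹ * k0 * D.T x y := by rw [hk0]; group
          _ = 1 := by rw [h1]; group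
      have h1 : (g⁻¹ * k0 * g) • oinf F m = oinf F m := by
        rw [mul_smul, mul_smul, h, hk0p, ← h, inv_smul_smul]
      have h2 := h4B _ h1
      rw [map_mul, map_mul, map_inv, h4B k0 hk0i] at h2
      have h3 : ((φ4 g)⁻¹ * k0 * φ4 g) • oinf F m = oinf F m := by rw [h2]; exact h1
      rw [mul_smul, mul_smul, inv_smul_eq_iff] at h3
      rcases CfsgLib.H7Z.fix3 hZ hk01 (opt_ne_inf x y).symm hk0i hk0p h3 with h4 | h4
      · exfalso
        have h5 := (hst φ4 hk4 g).mp h4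
        exact opt_ne_inf _ _ (h.symm.trans h5)
      · rw [h4, h]
  have h4 : φ4 = 1 := by
    ext g : 1
    have h5 : ∀ p : suzukiOvoid F m, (g⁻¹ * φ4 g) • p = p := by
      intro p
      obtain ⟨l, hl⟩ := D.exists_to_inf p
      have h6 : p = l⁻¹ • oinf F m := by rw [← hl, inv_smul_smul]
      have h7 := h4i (g * l⁻¹)
      rw [map_mul, mul_smul, h4i, mul_smul, ← h6] at h7
      rw [mul_smul, h7, inv_smul_smul]
    have h6 := D.faithful hm hF h5
    exact (inv_mul_eq_one.mp h6).symm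
  refine ⟨σ, (D.h ν * u * k)⁻¹, ?_⟩
  have h5 : Fa σ⁻¹ * (MulAut.conj (D.h ν) * (MulAut.conj u * (MulAut.conj k * φ))) = 1 := by
    rw [← hφ1, ← hφ2, ← hφ3, ← hφ4, h4]
  rw [map_inv, map_mul, map_mul]
  have h6 : (MulAut.conj (D.h ν) * (MulAut.conj u * (MulAut.conj k * φ))) = Fa σ := by
    rw [map_inv, inv_mul_eq_one] at h5
    exact h5.symm
  rw [← h6]
  group

end

theorem card_out_Sz (hm : 1 ≤ m) (hF : Fintype.card F = 2 ^ (2 * m + 1)) : Nat.card (Out (Sz F m)) = 2 * m + 1 := by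
  obtain ⟨Fa, hFa⟩ := exists_Fa (F := F) hm hF
  haveI : Fact (Nat.Prime 2) := ⟨Nat.prime_two⟩
  rw [← CfsgLib.AutPSL.ringAut_card hF]
  refine Nat.card_congr (Equiv.symm (Equiv.ofBijective (fun σ : RingAut F => (QuotientGroup.mk (Fa σ) : Out (Sz F m))) ⟨?_, ?_⟩))
  · intro σ τ h
    have h1 : (Fa σ)⁻¹ * Fa τ ∈ Inn (Sz F m) := QuotientGroup.eq.mp h
    rw [← map_inv, ← map_mul] at h1
    have h2 := Fa_outer hFa hm hF h1
    exact (inv_mul_eq_one.mp h2)
  · intro x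
    obtain ⟨φ, rfl⟩ := QuotientGroup.mk_surjective x
    obtain ⟨σ, g, rfl⟩ := aut_form hFa hm hF φ
    refine ⟨σ, ?_⟩
    apply QuotientGroup.eq.mpr
    have hn : (Inn (Sz F m)).Normal := inferInstance
    have h1 : MulAut.conj g ∈ Inn (Sz F m) := ⟨g, rfl⟩
    have h2 := hn.conj_mem _ h1 (Fa σ)⁻¹
    rw [inv_inv] at h2
    rw [← mul_assoc]
    exact h2

end CfsgLib.H7S
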