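import Mathlib
import Cfsg.Agent.Lib.H7Z6

/-!
# Simple Zassenhaus groups with two-point stabilizer of odd order: classes avoiding the kernel
-/

set_option autoImplicit false
set_option linter.style.haveILetI false
set_option linter.unusedSectionVars false

open MulAction Cfsg CfsgLib.CharBasic
open scoped Pointwise commutatorElement

namespace CfsgLib.H7Z

universe u v

/-- an involution pair with product `z` consists of elements inverting `z` -/
theorem inv_of_pair {G : Type u} [Group G] {x y : G} (hx : orderOf x = 2) (hy : orderOf y = 2) : x * (x * y) * x⁻¹ = (x * y)⁻¹ := by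
  have hx2 := CfsgLib.Invol.mul_self_of_orderOf hx
  have hy2 := CfsgLib.Invol.mul_self_of_orderOf hy
  have h4 : x⁻¹ = x := inv_eq_of_mul_eq_one_left hx2
  have h5 : y⁻¹ = y := inv_eq_of_mul_eq_one_left hy2
  rw [mul_inv_rev, h5, h4, ← mul_assoc, hx2, one_mul]

open Classical in
theorem card_pairs_le_centralizer {G : Type u} [Group G] [Fintype G] (z : G) :
    (Finset.univ.filter (fun p : G × G => orderOf p.1 = 2 ∧ orderOf p.2 = 2 ∧ p.1 * p.2 = z)).card ≤ Nat.card (Subgroup.centralizer ({z} : Set G)) := by
  rcases Finset.eq_empty_or_nonempty (Finset.univ.filter (fun p : G × G => orderOf p.1 = 2 ∧ orderOf p.2 = 2 ∧ p.1 * p.2 = z)) with h | ⟨⟨x₀, y₀⟩, h⟩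
  · rw [h, Finset.card_empty]
    exact Nat.zero_le _
  · rw [Finset.mem_filter] at h
    obtain ⟨-, hx₀, hy₀, h₀⟩ := h
    simp only at hx₀ hy₀ h₀
    have h1 : Nat.card (Subgroup.centralizer ({z} : Set G)) = (Finset.univ.filter (fun g : G => g ∈ Subgroup.centralizer ({z} : Set G))).card := by
      rw [Nat.card_eq_fintype_card, Fintype.card_subtype]
    rw [h1]
    refine Finset.card_le_card_of_injOn (fun p => p.1 * x₀) ?_ ?_
    · rintro ⟨x, y⟩ hp
      rw [Finset.mem_coe, Finset.mem_filter] at hp
      obtain ⟨-, hx, hy, hxy⟩ := hp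
      simp only at hx hy hxy
      rw [Finset.mem_coe, Finset.mem_filter]
      refine ⟨Finset.mem_univ _, ?_⟩
      have e1 := inv_of_pair hx hy
      have e2 := inv_of_pair hx₀ hy₀
      rw [hxy] at e1
      rw [h₀] at e2
      rw [Subgroup.mem_centralizer_singleton_iff]
      have e3 : x * x₀ * z * (x * x₀)⁻¹ = z := by
        calc x * x₀ * z * (x * x₀)⁻¹ = x * (x₀ * z * x₀⁻¹) * x⁻¹ := by group
          _ = (x * z * x⁻¹)⁻¹ := by rw [e2]; group
          _ = z := by rw [e1, inv_inv]
      exact mul_inv_eq_iff_eq_mul.mp e3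
    · rintro ⟨x, y⟩ hp ⟨x', y'⟩ hp' heq
      rw [Finset.mem_coe, Finset.mem_filter] at hp hp'
      have h2 : x = x' := mul_right_cancel heq
      have h3 : x * y = x' * y' := hp.2.2.2.trans hp'.2.2.2.symm
      rw [h2] at h3
      exact Prod.ext h2 (mul_left_cancel h3)

open Classical in
theorem card_pairs_le {G : Type u} [Group G] [Fintype G] (S : Set (ConjClasses G)) :
    (Finset.univ.filter (fun p : G × G => orderOf p.1 = 2 ∧ orderOf p.2 = 2 ∧ ConjClasses.mk (p.1 * p.2) ∈ S)).card ≤ Nat.card S * Nat.card G := by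
  obtain ⟨A, hA⟩ : ∃ A, A = Finset.univ.filter (fun p : G × G => orderOf p.1 = 2 ∧ orderOf p.2 = 2 ∧ ConjClasses.mk (p.1 * p.2) ∈ S) := ⟨_, rfl⟩
  rw [← hA]
  have h1 : A.card = ∑ z : G, (A.filter (fun p => p.1 * p.2 = z)).card :=
    Finset.card_eq_sum_card_fiberwise (fun p _ => Finset.mem_univ _)
  have h2 : ∀ z : G, (A.filter (fun p => p.1 * p.2 = z)).card ≤ if ConjClasses.mk z ∈ S then Nat.card (Subgroup.centralizer ({z} : Set G)) else 0 := by
    intro z
    split_ifs with hz
    · refine le_trans (Finset.card_le_card ?_) (card_pairs_le_centralizer z)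
      intro p hp
      rw [hA, Finset.filter_filter, Finset.mem_filter] at hp
      rw [Finset.mem_filter]
      exact ⟨Finset.mem_univ _, hp.2.1.1, hp.2.1.2.1, hp.2.2⟩
    · rw [Nat.le_zero, Finset.card_eq_zero, Finset.filter_eq_empty_iff]
      intro p hp hpz
      rw [hA, Finset.mem_filter] at hp
      apply hz
      rw [← hpz]
      exact hp.2.2.2
  rw [h1]
  refine le_trans (Finset.sum_le_sum fun z _ => h2 z) (le_of_eq ?_)
  rw [← Finset.sum_fiberwise (Finset.univ : Finset G) (fun z : G => ConjClasses.mk z)]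
  have h3 : ∀ C : ConjClasses G, (∑ z ∈ Finset.univ.filter (fun z : G => ConjClasses.mk z = C), if ConjClasses.mk z ∈ S then Nat.card (Subgroup.centralizer ({z} : Set G)) else 0) =
      if C ∈ S then Nat.card G else 0 := by
    intro C
    split_ifs with hC
    · obtain ⟨g, rfl⟩ := ConjClasses.mk_surjective C
      have h4 : ∀ z ∈ Finset.univ.filter (fun z : G => ConjClasses.mk z = ConjClasses.mk g),
          (if ConjClasses.mk z ∈ S then Nat.card (Subgroup.centralizer ({z} : Set G)) else 0) = Nat.card (Subgroup.centralizer ({g} : Set G)) := by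
        intro z hz
        rw [Finset.mem_filter] at hz
        rw [hz.2, if_pos hC]
        have h5 : IsConj g z := ConjClasses.mk_eq_mk_iff_isConj.mp hz.2.symm
        have h6 := card_isConj_mul_card_centralizer g
        have h7 := card_isConj_mul_card_centralizer z
        have h8 : Nat.card {x : G // IsConj g x} = Nat.card {x : G // IsConj z x} := by
          apply Nat.card_congr
          apply Equiv.subtypeEquivRight
          intro x
          exact ⟨fun h => h5.symm.trans h, fun h => h5.trans h⟩
        rw [h8, ← h7] at h6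
        exact (Nat.eq_of_mul_eq_mul_left (card_isConj_pos z) h6).symm
      rw [Finset.sum_congr rfl h4, Finset.sum_const, smul_eq_mul]
      have h5 : (Finset.univ.filter (fun z : G => ConjClasses.mk z = ConjClasses.mk g)).card = Nat.card {x : G // IsConj g x} := by
        rw [Nat.card_eq_fintype_card, Fintype.card_subtype]
        congr 1
        ext z
        rw [Finset.mem_filter, Finset.mem_filter, ConjClasses.mk_eq_mk_iff_isConj]
        exact and_congr_right fun _ => isConj_comm
      rw [h5, card_isConj_mul_card_centralizer]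
    · refine Finset.sum_eq_zero fun z hz => ?_
      rw [Finset.mem_filter] at hz
      rw [hz.2, if_neg hC]
  rw [Finset.sum_congr rfl fun C _ => h3 C, ← Finset.sum_filter, Finset.sum_const, smul_eq_mul]
  congr 1
  rw [Nat.card_eq_fintype_card, Fintype.card_subtype]

variable {G : Type u} {Ω : Type v} [Group G] [MulAction G Ω] [Fintype G] [Fintype Ω]
variable {a b : Ω} {H : Subgroup G}

open Classical in
/-- involutions fixing a given point, for odd degree -/
theorem card_inv_fix (hZ : IsZassenhausGroup G Ω) (hab : a ≠ b) [IsSimpleGroup G] (hodd : Odd (Nat.card (stabilizer G a ⊓ stabilizer G b : Subgroup G)))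
    (hev : ¬ Even (Fintype.card Ω)) (c : Ω) :
    (Finset.univ.filter (fun x : G => orderOf x = 2 ∧ x • c = c)).card = Nat.card (stabilizer G a ⊓ stabilizer G b : Subgroup G) := by
  have h1 : ∀ d : Ω, (Finset.univ.filter (fun x : G => orderOf x = 2 ∧ x • d = d)).card = (Finset.univ.filter (fun x : G => orderOf x = 2 ∧ x • c = c)).card := by
    intro d
    haveI : IsPretransitive G Ω := by
      haveI := hZ.2.1
      exact MulAction.isPretransitive_of_is_two_pretransitive
    obtain ⟨g, hg⟩ := MulAction.exists_smul_eq G d c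
    refine Finset.card_bij (fun x _ => g * x * g⁻¹) ?_ ?_ ?_
    · intro x hx
      rw [Finset.mem_filter] at hx ⊢
      refine ⟨Finset.mem_univ _, ?_, ?_⟩
      · have := MulEquiv.orderOf_eq (MulAut.conj g) x
        rw [MulAut.conj_apply] at this
        rw [this, hx.2.1]
      · rw [← hg, conj_fix', hx.2.2]
    · intro x _ y _ h
      exact mul_left_cancel (mul_right_cancel h)
    · intro y hy
      rw [Finset.mem_filter] at hy
      refine ⟨g⁻¹ * y * g, ?_, by group⟩
      rw [Finset.mem_filter]
      refine ⟨Finset.mem_univ _, ?_, ?_⟩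
      · have := MulEquiv.orderOf_eq (MulAut.conj g⁻¹) y
        rw [MulAut.conj_apply, inv_inv] at this
        rw [this, hy.2.1]
      · rw [mul_smul, mul_smul, hg, hy.2.2, ← hg, inv_smul_smul]
  have h2 : ∑ d : Ω, (Finset.univ.filter (fun x : G => orderOf x = 2 ∧ x • d = d)).card = Nat.card {x : G // orderOf x = 2} := by
    have h3 : ∀ d : Ω, (Finset.univ.filter (fun x : G => orderOf x = 2 ∧ x • d = d)).card = ∑ x ∈ Finset.univ.filter (fun x : G => orderOf x = 2), if x • d = d then 1 else 0 := by
      intro d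
      rw [← Finset.card_filter, Finset.filter_filter]
    rw [Finset.sum_congr rfl fun d _ => h3 d, Finset.sum_comm]
    have h4 : ∀ x ∈ Finset.univ.filter (fun x : G => orderOf x = 2), (∑ d : Ω, if x • d = d then 1 else 0) = 1 := by
      intro x hx
      rw [← Finset.card_filter]
      have := kf_inv hZ hab hodd (Finset.mem_filter.mp hx).2
      rw [if_neg hev] at this
      exact this
    rw [Finset.sum_congr rfl h4, Finset.sum_const, smul_eq_mul, mul_one, Nat.card_eq_fintype_card, Fintype.card_subtype]
  rw [Finset.sum_congr rfl fun d _ => h1 d, Finset.sum_const, Finset.card_univ, smul_eq_mul, card_inv hZ hab hodd, if_neg hev, mul_comm] at h2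
  have h5 := CfsgLib.PermZ4.three_le hZ
  exact Nat.eq_of_mul_eq_mul_right (by omega) h2

/-- the classes avoiding `H` -/
def avoid (H : Subgroup G) : Set (ConjClasses G) := {C | ∀ g : G, ConjClasses.mk g = C → g ∉ H}

open Classical in
/-- number of pairs of involutions whose product is conjugate into `H` -/
theorem card_pairs_H (hZ : IsZassenhausGroup G Ω) (hab : a ≠ b) [IsSimpleGroup G] (hodd : Odd (Nat.card (stabilizer G a ⊓ stabilizer G b : Subgroup G)))
    (hHa : H ≤ stabilizer G a) (hHcard : Nat.card H + 1 = Fintype.card Ω)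
    (hHfix : ∀ u ∈ H, u ≠ 1 → ∀ c : Ω, u • c = c → c = a) :
    (Finset.univ.filter (fun p : G × G => orderOf p.1 = 2 ∧ orderOf p.2 = 2 ∧ ConjClasses.mk (p.1 * p.2) ∉ avoid H)).card ≤
      if Even (Fintype.card Ω) then Nat.card {x : G // orderOf x = 2} else Nat.card {x : G // orderOf x = 2} * Nat.card (stabilizer G a ⊓ stabilizer G b : Subgroup G) := by
  have key : ∀ x y : G, orderOf x = 2 → orderOf y = 2 → ConjClasses.mk (x * y) ∉ avoid H → x = y ∨ ∃ c : Ω, x • c = c ∧ y • c = c := by
    intro x y hx hy hxy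
    rw [avoid, Set.mem_setOf_eq] at hxy
    push Not at hxy
    obtain ⟨g, hg, hgH⟩ := hxy
    obtain ⟨k, hk⟩ := isConj_iff.mp (ConjClasses.mk_eq_mk_iff_isConj.mp hg)
    by_cases hxy1 : x * y = 1
    · left
      have h5 : y⁻¹ = y := inv_eq_of_mul_eq_one_left (CfsgLib.Invol.mul_self_of_orderOf hy)
      rw [mul_eq_one_iff_eq_inv, h5] at hxy1
      exact hxy1
    · right
      have hg1 : g ≠ 1 := by
        rintro rfl
        apply hxy1
        rw [← hk]; group
      have h1 : ∀ z : G, orderOf (k⁻¹ * z * k) = orderOf z := by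
        intro z
        have := MulEquiv.orderOf_eq (MulAut.conj k⁻¹) z
        rwa [MulAut.conj_apply, inv_inv] at this
      have h2 : (k⁻¹ * x * k) * (k⁻¹ * y * k) = g := by
        calc (k⁻¹ * x * k) * (k⁻¹ * y * k) = k⁻¹ * (x * y) * k := by group
          _ = g := by rw [← hk]; group
      obtain ⟨h3, h4⟩ := mul_inv_in_H hZ hab hodd hHa hHcard hHfix (x := k⁻¹ * x * k) (y := k⁻¹ * y * k) (by rw [h1, hx]) (by rw [h1, hy]) (by rw [h2]; exact hgH)
        (by rw [h2]; exact hg1)
      refine ⟨k • a, ?_, ?_⟩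
      · have := mem_stabilizer_iff.mp (hHa h3)
        rwa [mul_smul, mul_smul, inv_smul_eq_iff] at this
      · have := mem_stabilizer_iff.mp (hHa h4)
        rwa [mul_smul, mul_smul, inv_smul_eq_iff] at this
  have hI : Nat.card {x : G // orderOf x = 2} = (Finset.univ.filter (fun x : G => orderOf x = 2)).card := by
    rw [Nat.card_eq_fintype_card, Fintype.card_subtype]
  split_ifs with hev
  · rw [hI]
    refine Finset.card_le_card_of_injOn (fun p => p.1) ?_ ?_
    · intro p hp
      rw [Finset.mem_coe, Finset.mem_filter] at hp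
      rw [Finset.mem_coe, Finset.mem_filter]
      exact ⟨Finset.mem_univ _, hp.2.1⟩
    · have h1 : ∀ p ∈ (Finset.univ.filter (fun p : G × G => orderOf p.1 = 2 ∧ orderOf p.2 = 2 ∧ ConjClasses.mk (p.1 * p.2) ∉ avoid H)), p.1 = p.2 := by
        intro p hp
        rw [Finset.mem_filter] at hp
        rcases key p.1 p.2 hp.2.1 hp.2.2.1 hp.2.2.2 with h | ⟨c, hc, -⟩
        · exact h
        · exfalso
          have h2 := kf_inv hZ hab hodd hp.2.1
          rw [if_pos hev, kf_eq_zero] at h2
          exact h2 c hc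
      intro p hp q hq hpq
      have h2 := h1 p hp
      have h3 := h1 q hq
      have hpq : p.1 = q.1 := hpq
      exact Prod.ext hpq (h2.symm.trans (hpq.trans h3))
  · obtain ⟨A, hA⟩ : ∃ A, A = (Finset.univ.filter (fun p : G × G => orderOf p.1 = 2 ∧ orderOf p.2 = 2 ∧ ConjClasses.mk (p.1 * p.2) ∉ avoid H)) := ⟨_, rfl⟩
    rw [← hA]
    have h1 : A.card = ∑ x ∈ Finset.univ.filter (fun x : G => orderOf x = 2), (A.filter (fun p => p.1 = x)).card := by
      apply Finset.card_eq_sum_card_fiberwise
      intro p hp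
      rw [Finset.mem_coe, hA, Finset.mem_filter] at hp
      rw [Finset.mem_coe, Finset.mem_filter]
      exact ⟨Finset.mem_univ _, hp.2.1⟩
    have h2 : ∀ x ∈ Finset.univ.filter (fun x : G => orderOf x = 2), (A.filter (fun p => p.1 = x)).card ≤ Nat.card (stabilizer G a ⊓ stabilizer G b : Subgroup G) := by
      intro x hx
      have hx2 := (Finset.mem_filter.mp hx).2
      have h3 := kf_inv hZ hab hodd hx2
      rw [if_neg hev, kf, Finset.card_eq_one] at h3
      obtain ⟨c, hc⟩ := h3
      have hxc : x • c = c := (Finset.mem_filter.mp (by rw [hc]; simp : c ∈ Finset.univ.filter (fun c : Ω => x • c = c))).2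
      have huniq : ∀ d : Ω, x • d = d → d = c := by
        intro d hd
        have : d ∈ Finset.univ.filter (fun c : Ω => x • c = c) := by rw [Finset.mem_filter]; exact ⟨Finset.mem_univ _, hd⟩
        rw [hc, Finset.mem_singleton] at this
        exact this
      rw [← card_inv_fix hZ hab hodd hev c]
      refine Finset.card_le_card_of_injOn (fun p => p.2) ?_ ?_
      · intro p hp
        rw [Finset.mem_coe, Finset.mem_filter, hA, Finset.mem_filter] at hp
        rw [Finset.mem_coe, Finset.mem_filter]
        refine ⟨Finset.mem_univ _, hp.1.2.2.1, ?_⟩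
        rcases key p.1 p.2 hp.1.2.1 hp.1.2.2.1 hp.1.2.2.2 with h | ⟨d, hd, hd2⟩
        · show p.2 • c = c
          rw [← h, hp.2]
          exact hxc
        · show p.2 • c = c
          rw [hp.2] at hd
          rw [← huniq d hd]
          exact hd2
      · intro p hp q hq hpq
        rw [Finset.mem_coe, Finset.mem_filter] at hp hq
        exact Prod.ext (hp.2.trans hq.2.symm) hpq
    rw [h1]
    refine le_trans (Finset.sum_le_sum h2) ?_
    rw [Finset.sum_const, smul_eq_mul, hI]

theorem le_card_avoid (hZ : IsZassenhausGroup G Ω) (hab : a ≠ b) [IsSimpleGroup G] (hodd : Odd (Nat.card (stabilizer G a ⊓ stabilizer G b : Subgroup G)))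
    (hHa : H ≤ stabilizer G a) (hHcard : Nat.card H + 1 = Fintype.card Ω)
    (hHfix : ∀ u ∈ H, u ≠ 1 → ∀ c : Ω, u • c = c → c = a) (hlt : Nat.card (stabilizer G a ⊓ stabilizer G b : Subgroup G) < Nat.card H) :
    Nat.card (stabilizer G a ⊓ stabilizer G b : Subgroup G) ≤ Nat.card (avoid H) := by
  classical
  have h1 := card_pairs_le (G := G) (avoid H)
  have h2 := card_pairs_H hZ hab hodd hHa hHcard hHfix
  have hI : Nat.card {x : G // orderOf x = 2} = (Finset.univ.filter (fun x : G => orderOf x = 2)).card := by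
    rw [Nat.card_eq_fintype_card, Fintype.card_subtype]
  have h3 : (Finset.univ.filter (fun p : G × G => orderOf p.1 = 2 ∧ orderOf p.2 = 2 ∧ ConjClasses.mk (p.1 * p.2) ∈ avoid H)).card +
      (Finset.univ.filter (fun p : G × G => orderOf p.1 = 2 ∧ orderOf p.2 = 2 ∧ ConjClasses.mk (p.1 * p.2) ∉ avoid H)).card =
      Nat.card {x : G // orderOf x = 2} * Nat.card {x : G // orderOf x = 2} := by
    rw [hI, ← Finset.card_product]
    have e : (Finset.univ.filter (fun x : G => orderOf x = 2)) ×ˢ (Finset.univ.filter (fun x : G => orderOf x = 2)) =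
        Finset.univ.filter (fun p : G × G => orderOf p.1 = 2 ∧ orderOf p.2 = 2) := by
      ext p
      simp
    rw [e, ← Finset.card_filter_add_card_filter_not (s := Finset.univ.filter (fun p : G × G => orderOf p.1 = 2 ∧ orderOf p.2 = 2)) (fun p : G × G => ConjClasses.mk (p.1 * p.2) ∈ avoid H),
      Finset.filter_filter, Finset.filter_filter]
    congr 2
    · ext p; simp only [Finset.mem_filter]; tauto
    · ext p; simp only [Finset.mem_filter]; tauto
  have hG := card_G hZ hab
  have hi := card_inv hZ hab hodd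
  obtain ⟨e, he⟩ : ∃ e, e = Nat.card (stabilizer G a ⊓ stabilizer G b : Subgroup G) := ⟨_, rfl⟩
  obtain ⟨h, hh⟩ : ∃ h, h = Nat.card H := ⟨_, rfl⟩
  obtain ⟨N, hN⟩ : ∃ N, N = Nat.card (avoid H) := ⟨_, rfl⟩
  have he0 : 0 < e := by rw [he]; exact Nat.card_pos
  rw [← he] at hlt hG h2 hi ⊢
  rw [← hh] at hlt hHcard
  rw [← hHcard, Nat.add_sub_cancel] at hG hi
  rw [← hHcard] at h2
  rw [← hN] at h1 ⊢
  rw [hG] at h1
  rw [hi] at h2 h3
  by_cases hev : Even (h + 1)
  · rw [if_pos hev] at h2 h3
    rw [if_pos hev] at h2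
    by_contra hcon
    push Not at hcon
    have h4 : N + 1 ≤ e := hcon
    have h5 : e * h * (e * h) ≤ N * ((h + 1) * h * e) + e * h := by
      rw [← h3]
      exact Nat.add_le_add h1 h2
    have h6 : e * h ≤ N * (h + 1) + 1 := by
      have h0 : 0 < e * h := Nat.mul_pos he0 (by omega)
      apply Nat.le_of_mul_le_mul_left _ h0
      calc e * h * (e * h) ≤ N * ((h + 1) * h * e) + e * h := h5
        _ = e * h * (N * (h + 1) + 1) := by ring
    nlinarith
  · rw [if_neg hev] at h2 h3
    rw [if_neg hev] at h2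
    have h5 : e * (h + 1) * (e * (h + 1)) ≤ N * ((h + 1) * h * e) + e * (h + 1) * e := by
      rw [← h3]
      exact Nat.add_le_add h1 h2
    have h6 : e * h ≤ N * h := by
      have h0 : 0 < e * (h + 1) := Nat.mul_pos he0 (by omega)
      apply Nat.le_of_mul_le_mul_left _ h0
      have h7 : e * (h + 1) * (N * h) + e * (h + 1) * e = N * ((h + 1) * h * e) + e * (h + 1) * e := by ring
      have h8 : e * (h + 1) * (e * h) + e * (h + 1) * e = e * (h + 1) * (e * (h + 1)) := by ring
      omega
    exact Nat.le_of_mul_le_mul_right h6 (by omega)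

end CfsgLib.H7Z
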