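import Mathlib
import Cfsg.Agent.Lib.H7Z3
import Cfsg.Agent.Lib.H7Z6
import Cfsg.Agent.S0082

/-!
# Zassenhaus groups with two-point stabilizer of odd order and without normal `q`-complements
-/

set_option autoImplicit false
set_option linter.style.haveILetI false
set_option linter.unusedSectionVars false

open MulAction Cfsg
open scoped Pointwise commutatorElement

namespace CfsgLib.H7Z

universe u v

variable {G : Type u} {Ω : Type v} [Group G] [MulAction G Ω] [Finite G] [Fintype Ω]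
variable {a b : Ω} {H : Subgroup G}

/-- transfer extends homomorphisms of the normalizer of `E` to abelian groups of odd order -/
theorem transfer_ext (hZ : IsZassenhausGroup G Ω) (hab : a ≠ b)
    {A : Type*} [CommGroup A] (hA : ∀ x : A, x * x = 1 → x = 1)
    (φ : Subgroup.normalizer ((stabilizer G a ⊓ stabilizer G b : Subgroup G) : Set G) →* A)
    (m : Subgroup.normalizer ((stabilizer G a ⊓ stabilizer G b : Subgroup G) : Set G)) : MonoidHom.transfer φ (m : G) = φ m := by
  have hsq : ∀ x ∈ Subgroup.normalizer ((stabilizer G a ⊓ stabilizer G b : Subgroup G) : Set G), x * x ∈ stabilizer G a ⊓ stabilizer G b := by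
    intro x hx
    rw [mem_EE, mul_smul, mul_smul]
    rcases (mem_normalizer_iff hZ hab).mp hx with ⟨h1, h2⟩ | ⟨h1, h2⟩
    · rw [h1, h1, h2, h2]; exact ⟨rfl, rfl⟩
    · rw [h1, h2, h1]; exact ⟨rfl, rfl⟩
  apply CfsgLib.FrobWie.transfer_eq
  rintro g hg x ⟨y, hy, hyx⟩
  have hyx : g * y * g⁻¹ = x := hyx
  have hy : y ∈ Subgroup.normalizer ((stabilizer G a ⊓ stabilizer G b : Subgroup G) : Set G) := hy
  have h2 : y * y = 1 := by
    by_contra h1
    apply hg
    refine ti_EE hZ hab (hsq y hy) h1 ?_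
    have e : g * (y * y) * g⁻¹ = (x : G) * x := by rw [← hyx]; group
    rw [e]
    exact hsq x x.2
  apply hA
  rw [← map_mul]
  have : x * x = 1 := by
    apply Subtype.ext
    show (x : G) * x = 1
    rw [← hyx]
    have e : g * y * g⁻¹ * (g * y * g⁻¹) = g * (y * y) * g⁻¹ := by group
    rw [e, h2]; group
  rw [this, map_one]

/-- `E` is a Hall subgroup of odd order -/
theorem coprime_EE (hZ : IsZassenhausGroup G Ω) (hab : a ≠ b) (hodd : Odd (Nat.card (stabilizer G a ⊓ stabilizer G b : Subgroup G))) :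
    (Nat.card (stabilizer G a ⊓ stabilizer G b : Subgroup G)).Coprime (stabilizer G a ⊓ stabilizer G b : Subgroup G).index := by
  have h1 := card_E_dvd hZ hab
  have h2 := card_G hZ hab
  have h3 := CfsgLib.PermZ4.three_le hZ
  have h4 := (stabilizer G a ⊓ stabilizer G b : Subgroup G).card_mul_index
  obtain ⟨e, he⟩ : ∃ e, e = Nat.card (stabilizer G a ⊓ stabilizer G b : Subgroup G) := ⟨_, rfl⟩
  have he0 : 0 < e := by rw [he]; exact Nat.card_pos
  rw [← he] at h1 h2 h4 hodd ⊢
  have h5 : (stabilizer G a ⊓ stabilizer G b : Subgroup G).index = Fintype.card Ω * (Fintype.card Ω - 1) := by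
    apply Nat.eq_of_mul_eq_mul_left he0
    rw [h4, h2]; ring
  rw [h5]
  obtain ⟨m, hm⟩ : ∃ m, Fintype.card Ω = m + 3 := ⟨Fintype.card Ω - 3, by omega⟩
  rw [hm] at h1 ⊢
  have e3 : m + 3 - 2 = m + 1 := rfl
  have e2 : m + 3 - 1 = m + 2 := rfl
  rw [e3] at h1
  rw [e2]
  apply Nat.Coprime.mul_right
  · -- coprime to m + 3 = (m + 1) + 2
    rw [Nat.coprime_iff_gcd_eq_one]
    have h6 : e.gcd (m + 3) ∣ 2 := by
      have h7 : e.gcd (m + 3) ∣ m + 1 := (Nat.gcd_dvd_left _ _).trans h1
      have h8 := Nat.dvd_sub (Nat.gcd_dvd_right e (m + 3)) h7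
      have e4 : m + 3 - (m + 1) = 2 := by omega
      rwa [e4] at h8
    rcases (Nat.dvd_prime Nat.prime_two).mp h6 with h7 | h7
    · exact h7
    · exfalso
      have h8 : 2 ∣ e := by rw [← h7]; exact Nat.gcd_dvd_left _ _
      exact (Nat.not_even_iff_odd.mpr hodd) (even_iff_two_dvd.mpr h8)
  · rw [Nat.coprime_iff_gcd_eq_one]
    have h7 : e.gcd (m + 2) ∣ m + 1 := (Nat.gcd_dvd_left _ _).trans h1
    have h8 := Nat.dvd_sub (Nat.gcd_dvd_right e (m + 2)) h7
    have e4 : m + 2 - (m + 1) = 1 := by omega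
    rw [e4] at h8
    exact Nat.dvd_one.mp h8

/-- the main structural fact -/
theorem E_cyclic_inverted' (hZ : IsZassenhausGroup G Ω) (hab : a ≠ b) (hodd : Odd (Nat.card (stabilizer G a ⊓ stabilizer G b : Subgroup G)))
    (hnq : ∀ (A : Type u) [CommGroup A], Nat.card A ∣ Nat.card (stabilizer G a ⊓ stabilizer G b : Subgroup G) →
      ∀ φ : Subgroup.normalizer ((stabilizer G a ⊓ stabilizer G b : Subgroup G) : Set G) →* A, ∀ x, φ x = 1) :
    IsCyclic (stabilizer G a ⊓ stabilizer G b : Subgroup G) ∧ ∀ s : G, s • a = b → s • b = a →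
      orderOf s = 2 ∧ ∀ x ∈ stabilizer G a ⊓ stabilizer G b, s * x * s⁻¹ = x⁻¹ := by
  obtain ⟨E, hE⟩ : ∃ E : Subgroup G, E = stabilizer G a ⊓ stabilizer G b := ⟨_, rfl⟩
  have hZg := isZGroup_E hZ hab hodd
  have hmN := fun g : G => mem_normalizer_iff hZ hab (g := g)
  have hmE := fun g : G => mem_EE (a := a) (b := b) (g := g)
  rw [← hE] at hodd hZg hnq ⊢
  simp only [← hE] at hmN hmE
  obtain ⟨s, hs2, hsa, hsb⟩ := CfsgLib.PermZ4.exists_swap hZ hab
  have hss : s * s = 1 := CfsgLib.Invol.mul_self_of_orderOf hs2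
  have hsN : s ∈ Subgroup.normalizer (E : Set G) := (hmN s).mpr (Or.inr ⟨hsa, hsb⟩)
  have hsE : s ∉ E := by
    intro h
    rw [hmE, hsa] at h
    exact hab h.1.symm
  have hA : Subgroup.zpowers s ≤ Subgroup.normalizer (E : Set G) := by rwa [Subgroup.zpowers_le]
  have hcop : (Nat.card (Subgroup.zpowers s)).Coprime (Nat.card E) := by
    rw [Nat.card_zpowers, hs2]
    exact Nat.coprime_two_left.mpr hodd
  obtain ⟨-, hcyc, hinf, hsup, hnorm, hle⟩ := CfsgLib.H3ZAct.z_main (Subgroup.zpowers s) E hA hcop hZg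
  obtain ⟨D, hD⟩ : ∃ D : Subgroup G, D = ⁅E, Subgroup.zpowers s⁆ := ⟨_, rfl⟩
  rw [← hD] at hcyc hinf hsup hnorm hle
  -- `s` normalizes `D`
  have hsD : s ∈ Subgroup.normalizer (D : Set G) := by
    rw [hD]
    exact CfsgLib.PStabN.mem_normalizer_commutator hsN (Subgroup.le_normalizer (Subgroup.mem_zpowers s))
  obtain ⟨M, hM⟩ : ∃ M : Subgroup G, M = D ⊔ Subgroup.zpowers s := ⟨_, rfl⟩
  have hDM : D ≤ M := by rw [hM]; exact le_sup_left
  have hsM : s ∈ M := by rw [hM]; exact Subgroup.mem_sup_right (Subgroup.mem_zpowers s)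
  have hEM : E ≤ Subgroup.normalizer (M : Set G) := by
    rw [← hsup, sup_le_iff]
    refine ⟨hDM.trans Subgroup.le_normalizer, ?_⟩
    rintro g ⟨hgE, hgC⟩
    rw [Subgroup.mem_normalizer_iff]
    have h1 : ∀ g : G, g ∈ E → g ∈ Subgroup.centralizer (Subgroup.zpowers s : Set G) → ∀ x ∈ M, g * x * g⁻¹ ∈ M := by
      intro g hgE hgC x hx
      have h2 : M ≤ M.comap (MulAut.conj g).toMonoidHom := by
        nth_rewrite 1 [hM]
        rw [sup_le_iff]
        constructor
        · intro d hd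
          exact hDM ((Subgroup.mem_normalizer_iff.mp (hnorm hgE) d).mp hd)
        · rw [Subgroup.zpowers_le]
          show g * s * g⁻¹ ∈ M
          have := Subgroup.mem_centralizer_iff.mp hgC s (Subgroup.mem_zpowers s)
          rw [← this, mul_inv_cancel_right]
          exact hsM
      exact h2 hx
    intro x
    refine ⟨h1 g hgE hgC x, fun hx => ?_⟩
    have := h1 g⁻¹ (inv_mem hgE) (inv_mem hgC) _ hx
    have e : g⁻¹ * (g * x * g⁻¹) * g⁻¹⁻¹ = x := by group
    rwa [e] at this
  have hfacN : ∀ n ∈ Subgroup.normalizer (E : Set G), n ∈ E ∨ n * s ∈ E := by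
    intro n hn
    rw [hmE, hmE, mul_smul, mul_smul, hsa, hsb]
    rcases (hmN n).mp hn with h | ⟨h1, h2⟩
    · exact Or.inl h
    · exact Or.inr ⟨h2, h1⟩
  have hNM : Subgroup.normalizer (E : Set G) ≤ Subgroup.normalizer (M : Set G) := by
    intro n hn
    rcases hfacN n hn with h | h
    · exact hEM h
    · have h2 := mul_mem (hEM h) (inv_mem (Subgroup.le_normalizer hsM))
      rwa [mul_inv_cancel_right] at h2
  have hEN : E ≤ Subgroup.normalizer (E : Set G) := Subgroup.le_normalizer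
  haveI hMn : (M.subgroupOf (Subgroup.normalizer (E : Set G))).Normal := by
    constructor
    intro x hx g
    rw [Subgroup.mem_subgroupOf] at hx ⊢
    exact (Subgroup.mem_normalizer_iff.mp (hNM g.2) _).mp hx
  obtain ⟨f, hf⟩ : ∃ f : E →* (Subgroup.normalizer (E : Set G)) ⧸ (M.subgroupOf (Subgroup.normalizer (E : Set G))),
      f = (QuotientGroup.mk' _).comp (Subgroup.inclusion hEN) := ⟨_, rfl⟩
  have hfs : Function.Surjective f := by
    intro q
    obtain ⟨n, rfl⟩ := QuotientGroup.mk'_surjective _ q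
    rcases hfacN n n.2 with h | h
    · exact ⟨⟨n, h⟩, by rw [hf]; rfl⟩
    · refine ⟨⟨n * s, h⟩, ?_⟩
      rw [hf]
      show QuotientGroup.mk' _ (⟨(n : G) * s, hEN h⟩ : Subgroup.normalizer (E : Set G)) = _
      rw [QuotientGroup.mk'_eq_mk']
      refine ⟨⟨s⁻¹, inv_mem hsN⟩, ?_, ?_⟩
      · rw [Subgroup.mem_subgroupOf]; exact inv_mem hsM
      · apply Subtype.ext
        show (n : G) * s * s⁻¹ = n
        group
  haveI hsolvE : Group.IsSolvable E := inferInstance
  haveI hsolvR : Group.IsSolvable ((Subgroup.normalizer (E : Set G)) ⧸ (M.subgroupOf (Subgroup.normalizer (E : Set G)))) := Group.isSolvable_of_surjective hfs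
  have hoddR : Odd (Nat.card ((Subgroup.normalizer (E : Set G)) ⧸ (M.subgroupOf (Subgroup.normalizer (E : Set G))))) :=
    Odd.of_dvd_nat hodd (Subgroup.card_dvd_of_surjective f hfs)
  have hoddA : Odd (Nat.card (Abelianization ((Subgroup.normalizer (E : Set G)) ⧸ (M.subgroupOf (Subgroup.normalizer (E : Set G)))))) :=
    Odd.of_dvd_nat hoddR (Subgroup.card_dvd_of_surjective Abelianization.of (QuotientGroup.mk_surjective))
  have hRtriv : ∀ q : (Subgroup.normalizer (E : Set G)) ⧸ (M.subgroupOf (Subgroup.normalizer (E : Set G))), q = 1 := by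
    by_contra hcon
    push Not at hcon
    obtain ⟨q, hq⟩ := hcon
    haveI : Nontrivial ((Subgroup.normalizer (E : Set G)) ⧸ (M.subgroupOf (Subgroup.normalizer (E : Set G)))) := ⟨⟨q, 1, hq⟩⟩
    have h1 := Group.IsSolvable.commutator_lt_top_of_nontrivial ((Subgroup.normalizer (E : Set G)) ⧸ (M.subgroupOf (Subgroup.normalizer (E : Set G))))
    apply h1.ne
    rw [eq_top_iff]
    intro r _
    obtain ⟨n, rfl⟩ := QuotientGroup.mk'_surjective _ r
    have h2 := hnq (Abelianization ((Subgroup.normalizer (E : Set G)) ⧸ (M.subgroupOf (Subgroup.normalizer (E : Set G)))))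
      ((Subgroup.card_dvd_of_surjective Abelianization.of (QuotientGroup.mk_surjective)).trans (Subgroup.card_dvd_of_surjective f hfs))
      (Abelianization.of.comp (QuotientGroup.mk' _)) n
    rw [MonoidHom.comp_apply] at h2
    rw [← Abelianization.ker_of, MonoidHom.mem_ker]
    exact h2
  have hCE : ∀ c ∈ E, s * c = c * s → c = 1 := by
    intro c hcE hcs
    have h1 : c ∈ M := by
      have := hRtriv (QuotientGroup.mk' _ ⟨c, hEN hcE⟩)
      rw [← MonoidHom.mem_ker, QuotientGroup.ker_mk', Subgroup.mem_subgroupOf] at this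
      exact this
    have h2 : c ∈ D := by
      rw [hM] at h1
      have h3 : Subgroup.zpowers s ≤ Subgroup.normalizer (D : Set G) := by rwa [Subgroup.zpowers_le]
      obtain ⟨d, hd, t, ht, rfl⟩ := (CfsgLib.Coprime.mem_sup_iff h3 _).mp h1
      obtain ⟨i, rfl⟩ := Subgroup.mem_zpowers_iff.mp ht
      have h4 : s ^ i ∈ E := by
        have := mul_mem (inv_mem (hle hd)) hcE
        rwa [inv_mul_cancel_left] at this
      rcases Int.even_or_odd' i with ⟨j, rfl | rfl⟩
      · have : s ^ (2 * j) = 1 := by rw [zpow_mul, zpow_two, hss, one_zpow]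
        rw [this, mul_one]
        exact hd
      · exfalso
        apply hsE
        have : s ^ (2 * j + 1) = s := by rw [zpow_add, zpow_mul, zpow_two, hss, one_zpow, one_mul, zpow_one]
        rwa [this] at h4
    have h5 : c ∈ D ⊓ Subgroup.centralizer (Subgroup.zpowers s : Set G) := by
      refine ⟨h2, ?_⟩
      refine Subgroup.mem_centralizer_iff.mpr ?_
      rintro t ht
      obtain ⟨i, rfl⟩ := Subgroup.mem_zpowers_iff.mp ht
      exact (Commute.zpow_left (show Commute s c from hcs) i).eq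
    rw [hinf, Subgroup.mem_bot] at h5
    exact h5
  have hED : E = D := by
    have h1 : E ⊓ Subgroup.centralizer (Subgroup.zpowers s : Set G) = ⊥ := by
      rw [eq_bot_iff]
      rintro c ⟨hc, hc2⟩
      rw [Subgroup.mem_bot]
      exact hCE c hc (Subgroup.mem_centralizer_iff.mp hc2 s (Subgroup.mem_zpowers s))
    rw [h1, sup_bot_eq] at hsup
    exact hsup.symm
  have hEcyc : IsCyclic E := by rw [hED]; exact hcyc
  have hcomm : ∀ x ∈ E, ∀ y ∈ E, x * y = y * x := by
    intro x hx y hy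
    obtain ⟨g, hg⟩ := hEcyc.exists_generator
    obtain ⟨i, hi⟩ := Subgroup.mem_zpowers_iff.mp (hg ⟨x, hx⟩)
    obtain ⟨j, hj⟩ := Subgroup.mem_zpowers_iff.mp (hg ⟨y, hy⟩)
    have hi : (g : G) ^ i = x := by rw [← Subgroup.coe_zpow, hi]
    have hj : (g : G) ^ j = y := by rw [← Subgroup.coe_zpow, hj]
    rw [← hi, ← hj, ← zpow_add, ← zpow_add, add_comm]
  refine ⟨hEcyc, ?_⟩
  have hinv : ∀ x ∈ E, s * x * s⁻¹ = x⁻¹ := by
    intro x hx
    have hsi : s⁻¹ = s := inv_eq_of_mul_eq_one_left hss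
    have hxs : s * x * s⁻¹ ∈ E := (Subgroup.mem_normalizer_iff.mp hsN x).mp hx
    have h1 : s * (x * (s * x * s⁻¹)) = x * (s * x * s⁻¹) * s := by
      calc s * (x * (s * x * s⁻¹)) = s * x * s * x * s⁻¹ := by group
        _ = s * x * s * x * s := by rw [hsi]
        _ = (s * x * s⁻¹) * x * s := by rw [hsi]
        _ = x * (s * x * s⁻¹) * s := by rw [hcomm _ hxs x hx]
    have h2 := hCE _ (mul_mem hx hxs) h1
    exact eq_inv_of_mul_eq_one_right h2
  intro t hta htb
  have hts : t * s⁻¹ ∈ E := by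
    rw [hmE, mul_smul, mul_smul, inv_smul_eq_iff.mpr hsb.symm, inv_smul_eq_iff.mpr hsa.symm]
    exact ⟨htb, hta⟩
  obtain ⟨w, hw⟩ : ∃ w, w = t * s⁻¹ := ⟨_, rfl⟩
  have htw : t = w * s := by rw [hw]; group
  rw [← hw] at hts
  have h1 : t * t = 1 := by
    rw [htw]
    calc w * s * (w * s) = w * (s * w * s⁻¹) * (s * s) := by group
      _ = 1 := by rw [hinv w hts, hss]; group
  refine ⟨orderOf_eq_prime (by rw [pow_two, h1]) ?_, ?_⟩
  · rintro rfl
    rw [one_smul] at hta
    exact hab hta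
  · intro x hx
    rw [htw]
    calc w * s * x * (w * s)⁻¹ = w * (s * x * s⁻¹) * w⁻¹ := by group
      _ = x⁻¹ := by
        rw [hinv x hx, hcomm w hts x⁻¹ (inv_mem hx)]; group

end CfsgLib.H7Z
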