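import Mathlib
import Cfsg.Agent.Lib.H7Z7
import Cfsg.Agent.Lib.CharClifford
import Cfsg.Agent.Lib.FrobCoh

/-!
# Zassenhaus groups: counting classes and characters
-/

set_option autoImplicit false
set_option linter.style.haveILetI false
set_option linter.unusedSectionVars false

open MulAction Cfsg CfsgLib.CharBasic
open scoped Pointwise commutatorElement

namespace CfsgLib.H7Z

universe u v

variable {G : Type u} {Ω : Type v} [Group G] [MulAction G Ω] [Fintype G] [Fintype Ω]
variable {a b : Ω} {H : Subgroup G}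

theorem card_classes_le (hZ : IsZassenhausGroup G Ω) (hab : a ≠ b) (hHa : H ≤ stabilizer G a) (hHcard : Nat.card H + 1 = Fintype.card Ω)
    (hHfix : ∀ u ∈ H, u ≠ 1 → ∀ c : Ω, u • c = c → c = a) :
    Nat.card (ConjClasses (stabilizer G a)) + (Nat.card (avoid H) + 1) ≤ Nat.card (ConjClasses G) + Nat.card (stabilizer G a ⊓ stabilizer G b : Subgroup G) := by
  classical
  have hfac : ∀ n : stabilizer G a, ∃ x : (stabilizer G a ⊓ stabilizer G b : Subgroup G), ∃ u ∈ H, (n : G) = u * x := by
    intro n
    obtain ⟨u, hu, x, hx, h⟩ := exists_fac hZ hab hHa hHcard hHfix n.2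
    exact ⟨⟨x, hx⟩, u, hu, h⟩
  choose comp u hu hcomp using hfac
  obtain ⟨f, hf1, hf2⟩ : ∃ f : ConjClasses (stabilizer G a) → ConjClasses G ⊕ (stabilizer G a ⊓ stabilizer G b : Subgroup G),
      (∀ C, (((rep C : stabilizer G a) : G) ∈ H ∧ rep C ≠ 1) → f C = Sum.inl (ConjClasses.mk ((rep C : stabilizer G a) : G))) ∧
      (∀ C, ¬ (((rep C : stabilizer G a) : G) ∈ H ∧ rep C ≠ 1) → f C = Sum.inr (comp (rep C))) := by
    refine ⟨fun C => if (((rep C : stabilizer G a) : G) ∈ H ∧ rep C ≠ 1) then Sum.inl (ConjClasses.mk ((rep C : stabilizer G a) : G)) else Sum.inr (comp (rep C)), ?_, ?_⟩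
    · intro C hC
      simp only [if_pos hC]
    · intro C hC
      simp only [if_neg hC]
  obtain ⟨g, hg⟩ : ∃ g : ConjClasses (stabilizer G a) ⊕ (avoid H ⊕ Unit) → ConjClasses G ⊕ (stabilizer G a ⊓ stabilizer G b : Subgroup G),
      g = Sum.elim f (Sum.elim (fun C => Sum.inl C.1) (fun _ => Sum.inl (ConjClasses.mk 1))) := ⟨_, rfl⟩
  have hginj : Function.Injective g := by
    -- the classes of `N`
    have hfinj : Function.Injective f := by
      intro C D hCD
      by_cases hC : (((rep C : stabilizer G a) : G) ∈ H ∧ rep C ≠ 1) <;> by_cases hD : (((rep D : stabilizer G a) : G) ∈ H ∧ rep D ≠ 1)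
      · rw [hf1 C hC, hf1 D hD] at hCD
        have h1 := Sum.inl_injective hCD
        rw [ConjClasses.mk_eq_mk_iff_isConj, isConj_iff] at h1
        obtain ⟨k, hk⟩ := h1
        have hka : k ∈ stabilizer G a := H_ti hHfix hHa hC.1 (by rw [hk]; exact hD.1) (fun h => hC.2 (Subtype.ext h))
        rw [← mk_rep C, ← mk_rep D, ConjClasses.mk_eq_mk_iff_isConj, isConj_iff]
        exact ⟨⟨k, hka⟩, Subtype.ext hk⟩
      · rw [hf1 C hC, hf2 D hD] at hCD
        exact absurd hCD (by simp)
      · rw [hf2 C hC, hf1 D hD] at hCD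
        exact absurd hCD (by simp)
      · rw [hf2 C hC, hf2 D hD] at hCD
        have h1 := Sum.inr_injective hCD
        have key : ∀ E : ConjClasses (stabilizer G a), ¬ (((rep E : stabilizer G a) : G) ∈ H ∧ rep E ≠ 1) →
            IsConj (⟨comp (rep E), (comp (rep E)).2.1⟩ : stabilizer G a) (rep E) := by
          intro E hE
          by_cases hx : (comp (rep E) : (stabilizer G a ⊓ stabilizer G b : Subgroup G)) = 1
          · have h2 := hcomp (rep E)
            rw [hx] at h2
            have h3 : ((rep E : stabilizer G a) : G) ∈ H := by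
              rw [h2]
              show u (rep E) * 1 ∈ H
              rw [mul_one]
              exact hu _
            have h4 : rep E = 1 := by
              by_contra h
              exact hE ⟨h3, h⟩
            rw [h4]
            rw [h4] at hx
            have h5 : (⟨comp 1, (comp 1).2.1⟩ : stabilizer G a) = 1 := by
              apply Subtype.ext
              show ((comp 1 : (stabilizer G a ⊓ stabilizer G b : Subgroup G)) : G) = 1
              rw [hx]; rfl
            rw [h5]
          · obtain ⟨v, hv, hvx⟩ := exists_conj_of_mul hZ hab hHa hHcard hHfix (comp (rep E)).2 (fun h => hx (Subtype.ext h)) (hu (rep E))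
            rw [isConj_iff]
            refine ⟨⟨v, hHa hv⟩, Subtype.ext ?_⟩
            show v * (comp (rep E) : G) * v⁻¹ = rep E
            rw [hvx, ← hcomp]
        rw [← mk_rep C, ← mk_rep D, ConjClasses.mk_eq_mk_iff_isConj]
        have h2 := key C hC
        have h3 := key D hD
        rw [h1] at h2
        exact h2.symm.trans h3
    have hlr : ∀ C, ∀ D : ConjClasses G, D ∈ avoid H ∨ D = ConjClasses.mk 1 → f C ≠ Sum.inl D := by
      intro C D hD hCD
      by_cases hC : (((rep C : stabilizer G a) : G) ∈ H ∧ rep C ≠ 1)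
      · rw [hf1 C hC] at hCD
        have h1 := Sum.inl_injective hCD
        rcases hD with hD | hD
        · exact hD _ h1 hC.1
        · rw [hD, ConjClasses.mk_eq_mk_iff_isConj, isConj_comm, isConj_one_right] at h1
          exact hC.2 (Subtype.ext h1)
      · rw [hf2 C hC] at hCD
        exact absurd hCD (by simp)
    have hav : ∀ C ∈ avoid H, C ≠ ConjClasses.mk 1 := by
      rintro C hC rfl
      exact hC 1 rfl (one_mem _)
    rw [hg]
    rintro (C | C | C) (D | D | D) h
    · rw [hfinj h]
    · exact absurd h (hlr C D (Or.inl D.2))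
    · exact absurd h (hlr C _ (Or.inr rfl))
    · exact absurd h.symm (hlr D C (Or.inl C.2))
    · have : C.1 = D.1 := Sum.inl_injective h
      rw [Subtype.ext this]
    · have : C.1 = ConjClasses.mk 1 := Sum.inl_injective h
      exact absurd this (hav C C.2)
    · exact absurd h.symm (hlr D _ (Or.inr rfl))
    · have : ConjClasses.mk 1 = D.1 := Sum.inl_injective h
      exact absurd this.symm (hav D D.2)
    · rfl
  have := Nat.card_le_card_of_injective g hginj
  have hunit : Nat.card Unit = 1 := Nat.card_unique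
  rw [Nat.card_sum, Nat.card_sum, Nat.card_sum, hunit] at this
  exact this

theorem card_irr_N (hZ : IsZassenhausGroup G Ω) (hab : a ≠ b) (hHa : H ≤ stabilizer G a) (hHcard : Nat.card H + 1 = Fintype.card Ω)
    (hHfix : ∀ u ∈ H, u ≠ 1 → ∀ c : Ω, u • c = c → c = a) (hEc : ∀ x ∈ stabilizer G a ⊓ stabilizer G b, ∀ y ∈ stabilizer G a ⊓ stabilizer G b, x * y = y * x)
    [Fintype (stabilizer G a)] [(H.subgroupOf (stabilizer G a)).Normal] (F : Finset (stabilizer G a → ℂ))
    (hF : ∀ φ, φ ∈ F ↔ φ ∈ inducedIrrAbove (H.subgroupOf (stabilizer G a)) (⊥ : Subgroup (stabilizer G a))) :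
    F.card + Nat.card (stabilizer G a ⊓ stabilizer G b : Subgroup G) ≤ Nat.card (ConjClasses (stabilizer G a)) := by
  classical
  have hC : ∀ h ∈ H.subgroupOf (stabilizer G a), h ≠ 1 → Subgroup.centralizer ({h} : Set (stabilizer G a)) ≤ H.subgroupOf (stabilizer G a) := by
    intro h hh hh1 g hg
    rw [Subgroup.mem_centralizer_singleton_iff] at hg
    exact centralizer_le_H hZ hab hHa hHcard hHfix hh (fun h' => hh1 (Subtype.ext h')) (by
      rw [Subgroup.mem_centralizer_singleton_iff]
      exact congrArg Subtype.val hg)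
  have hset := CfsgLib.FrobCoh.frob_set hC
  -- the quotient
  have hQcomm : ∀ x y : stabilizer G a ⧸ H.subgroupOf (stabilizer G a), x * y = y * x := by
    intro x y
    obtain ⟨n, rfl⟩ := QuotientGroup.mk'_surjective _ x
    obtain ⟨m, rfl⟩ := QuotientGroup.mk'_surjective _ y
    have key : ∀ n : stabilizer G a, ∃ x : G, ∃ hx : x ∈ stabilizer G a ⊓ stabilizer G b, QuotientGroup.mk' (H.subgroupOf (stabilizer G a)) n =
        QuotientGroup.mk' (H.subgroupOf (stabilizer G a)) ⟨x, hx.1⟩ := by
      intro n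
      obtain ⟨u, hu, x, hx, h⟩ := exists_fac hZ hab hHa hHcard hHfix n.2
      refine ⟨x, hx, ?_⟩
      have e : n = ⟨u, hHa hu⟩ * ⟨x, hx.1⟩ := Subtype.ext h
      rw [e, map_mul]
      have : QuotientGroup.mk' (H.subgroupOf (stabilizer G a)) ⟨u, hHa hu⟩ = 1 := by
        rw [← MonoidHom.mem_ker, QuotientGroup.ker_mk']
        exact hu
      rw [this, one_mul]
    obtain ⟨x, hx, e1⟩ := key n
    obtain ⟨y, hy, e2⟩ := key m
    rw [e1, e2, ← map_mul, ← map_mul]
    congr 1
    exact Subtype.ext (hEc x hx y hy)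
  have hQcard : Nat.card (IrrCharacter (stabilizer G a ⧸ H.subgroupOf (stabilizer G a))) = Nat.card (stabilizer G a ⊓ stabilizer G b : Subgroup G) := by
    rw [card_irr_of_comm hQcomm, ← Subgroup.index_eq_card]
    have h1 := (H.subgroupOf (stabilizer G a)).card_mul_index
    rw [Nat.card_congr (Subgroup.subgroupOfEquivOfLe hHa).toEquiv, card_stab hZ hab, ← hHcard, Nat.add_sub_cancel] at h1
    exact Nat.eq_of_mul_eq_mul_left Nat.card_pos h1
  rw [← hQcard, ← card_irr]
  have hFirr : ∀ φ ∈ F, IsIrrCharacter (stabilizer G a) φ ∧ ∃ h ∈ H.subgroupOf (stabilizer G a), φ h ≠ φ 1 := by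
    intro φ hφ
    rw [hF, hset] at hφ
    exact hφ
  obtain ⟨g, hg⟩ : ∃ g : F ⊕ IrrCharacter (stabilizer G a ⧸ H.subgroupOf (stabilizer G a)) → IrrCharacter (stabilizer G a),
      g = Sum.elim (fun φ => ⟨φ.1, (hFirr φ.1 φ.2).1⟩) (fun χ => (irrQuotientEquiv (H.subgroupOf (stabilizer G a)) χ).1) := ⟨_, rfl⟩
  have hginj : Function.Injective g := by
    rw [hg]
    rintro (φ | χ) (ψ | θ) h
    · have h1 : φ.1 = ψ.1 := congrArg (Subtype.val : IrrCharacter (stabilizer G a) → _) h
      rw [Subtype.ext h1]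
    · exfalso
      obtain ⟨-, k, hk, hne⟩ := hFirr φ.1 φ.2
      have h1 : φ.1 = ((irrQuotientEquiv (H.subgroupOf (stabilizer G a)) θ).1 : stabilizer G a → ℂ) := congrArg (Subtype.val : IrrCharacter (stabilizer G a) → _) h
      apply hne
      rw [h1]
      exact (irrQuotientEquiv (H.subgroupOf (stabilizer G a)) θ).2 k hk
    · exfalso
      obtain ⟨-, k, hk, hne⟩ := hFirr ψ.1 ψ.2
      have h1 : ψ.1 = ((irrQuotientEquiv (H.subgroupOf (stabilizer G a)) χ).1 : stabilizer G a → ℂ) := congrArg (Subtype.val : IrrCharacter (stabilizer G a) → _) h.symm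
      apply hne
      rw [h1]
      exact (irrQuotientEquiv (H.subgroupOf (stabilizer G a)) χ).2 k hk
    · have h1 : (irrQuotientEquiv (H.subgroupOf (stabilizer G a)) χ).1 = (irrQuotientEquiv (H.subgroupOf (stabilizer G a)) θ).1 := h
      have h2 := (irrQuotientEquiv (H.subgroupOf (stabilizer G a))).injective (Subtype.ext h1)
      rw [h2]
  have h1 := Nat.card_le_card_of_injective g hginj
  rw [Nat.card_sum] at h1
  have h2 : Nat.card F = F.card := by rw [Nat.card_eq_fintype_card, Fintype.card_coe]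
  rw [h2] at h1
  exact h1

end CfsgLib.H7Z
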