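import Mathlib
import Cfsg.Agent.Lib.CNOdd4

/-!
# TI-subgroups with Frobenius normalizers: setup
-/

set_option autoImplicit false
set_option linter.style.haveILetI false
set_option linter.unusedSectionVars false

open scoped ComplexConjugate commutatorElement

namespace CfsgLib.TIFrob

open Cfsg CfsgLib.CharBasic CfsgLib.CharInd CfsgLib.CharClifford CfsgLib.CharCoh CfsgLib.FrobQuot CfsgLib.FrobCoh CfsgLib.CNOdd CfsgLib.CNOdd3 CfsgLib.CNOdd4

universe u v

variable {G : Type u} [Group G] [Fintype G] {K N : Subgroup G} [Fintype N] [hn : (K.subgroupOf N).Normal]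
  (hTI : ∀ g : G, g ∉ N → ∀ k ∈ K, g * k * g⁻¹ ∈ K → k = 1) (hlt : K < N)
  (hC : ∀ k ∈ K, k ≠ 1 → Subgroup.centralizer ({k} : Set G) ≤ K)

include hC hlt in
theorem sub_nilpotent : Group.IsNilpotent (K.subgroupOf N) := by
  have hKtop : K.subgroupOf N ≠ ⊤ := by
    intro h
    rw [Subgroup.subgroupOf_eq_top] at h
    exact hlt.not_ge h
  exact FrobNil.frob_nilpotent hKtop (CohTI.hC_sub hC)

include hC hlt in
theorem exists_zeta (hK : K ≠ ⊥) : ∃ ζ ∈ inducedIrrAbove (K.subgroupOf N) (⊥ : Subgroup N), ζ 1 = ((K.subgroupOf N).index : ℂ) := by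
  haveI := sub_nilpotent hlt hC
  have hsolv : Group.IsSolvable (K.subgroupOf N) := by infer_instance
  have hKbot : K.subgroupOf N ≠ ⊥ := by
    intro h
    apply hK
    rw [Subgroup.eq_bot_iff_forall]
    intro w hw
    have h1 : (⟨w, hlt.le hw⟩ : N) ∈ K.subgroupOf N := by rw [Subgroup.mem_subgroupOf]; exact hw
    rw [h, Subgroup.mem_bot] at h1
    exact congrArg (Subtype.val : N → G) h1
  obtain ⟨lam, l1, l2, l3, l4⟩ := exists_linear_above (K := K.subgroupOf N) (A := (⊥ : Subgroup N)) hsolv (fun h => hKbot (le_bot_iff.mp h))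
  exact ⟨indFun (K.subgroupOf N) lam, ⟨lam, l1, l2, l3, rfl⟩, by rw [indFun_one, l4, mul_one]⟩

omit hn in
theorem exists_m : ∃ m : (N → ℂ) → ℕ, ∀ χ ∈ inducedIrrAbove (K.subgroupOf N) (⊥ : Subgroup N), 0 < m χ ∧ χ 1 = ((K.subgroupOf N).index : ℂ) * m χ := by
  have hex : ∀ χ : N → ℂ, ∃ m : ℕ, χ ∈ inducedIrrAbove (K.subgroupOf N) (⊥ : Subgroup N) → (0 < m ∧ χ 1 = ((K.subgroupOf N).index : ℂ) * m) := by
    intro χ
    by_cases h : χ ∈ inducedIrrAbove (K.subgroupOf N) (⊥ : Subgroup N)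
    · obtain ⟨θ, h1, -, -, rfl⟩ := h
      obtain ⟨m, hm0, hm⟩ := IsIrrCharacter.exists_pos h1
      exact ⟨m, fun _ => ⟨hm0, by rw [indFun_one, hm]⟩⟩
    · exact ⟨0, fun h' => absurd h' h⟩
  choose m hm using hex
  exact ⟨m, fun χ hχ => hm χ hχ⟩

include hC in
theorem set_eq : {χ : N → ℂ | IsIrrCharacter N χ ∧ ∃ k : N, (k : G) ∈ K ∧ χ k ≠ χ 1} = inducedIrrAbove (K.subgroupOf N) (⊥ : Subgroup N) := by
  rw [frob_set (CohTI.hC_sub hC)]
  rfl

omit hn in
theorem mem_ne_one {χ : N → ℂ} (hχ : χ ∈ inducedIrrAbove (K.subgroupOf N) (⊥ : Subgroup N)) : K ≠ ⊥ := by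
  rintro rfl
  obtain ⟨θ, h1, h2, -, -⟩ := hχ
  apply h2
  funext x
  have hx : x = 1 := by
    apply Subtype.ext
    apply Subtype.ext
    have := x.2
    rw [Subgroup.mem_subgroupOf, Subgroup.mem_bot] at this
    exact this
  rw [hx]
  have h3 : ∀ a b : ((⊥ : Subgroup G).subgroupOf N), a * b = b * a := by
    intro a b
    have e : ∀ y : ((⊥ : Subgroup G).subgroupOf N), y = 1 := by
      intro y
      apply Subtype.ext
      apply Subtype.ext
      have := y.2
      rw [Subgroup.mem_subgroupOf, Subgroup.mem_bot] at this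
      exact this
    rw [e a, e b]
  exact IsIrrCharacter.degree_one_of_comm h1 h3

section star

variable {star : (N → ℂ) → (G → ℂ)} (hstar : IsLinearIsometryOn (zspan (inducedIrrAbove (K.subgroupOf N) (⊥ : Subgroup N))) star)
  (hext : ∀ α ∈ zspanOn (inducedIrrAbove (K.subgroupOf N) (⊥ : Subgroup N)) {1}ᶜ, star α = indFun N α)

include hTI hlt hC hstar hext

theorem star_iff (htwo : ∃ χ ∈ inducedIrrAbove (K.subgroupOf N) (⊥ : Subgroup N), ∃ ξ ∈ inducedIrrAbove (K.subgroupOf N) (⊥ : Subgroup N), χ ≠ ξ)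
    {ψ : G → ℂ} (hψ : IsIrrCharacter G ψ) :
    (∃ χ ∈ inducedIrrAbove (K.subgroupOf N) (⊥ : Subgroup N), ψ = star χ ∨ ψ = -star χ) ↔ ∃ a ∈ K, ∃ b ∈ K, a ≠ 1 ∧ b ≠ 1 ∧ ψ a ≠ ψ b := by
  have hCN := CohTI.hC_sub (N := N) hC
  have hψc : IsClassFunction G ψ := IsCharacter.isClassFunction (IsIrrCharacter.isCharacter hψ)
  constructor
  · rintro ⟨χ, hχ, hψχ⟩
    by_contra hno
    push Not at hno
    obtain ⟨ξ, hξ, hne⟩ : ∃ ξ ∈ inducedIrrAbove (K.subgroupOf N) (⊥ : Subgroup N), ξ ≠ χ := by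
      obtain ⟨a, ha, b, hb, hab⟩ := htwo
      by_cases h : a = χ
      · exact ⟨b, hb, fun h' => hab (by rw [h, h'])⟩
      · exact ⟨a, ha, h⟩
    obtain ⟨m, hm⟩ := exists_m (K := K) (N := N)
    obtain ⟨δ, hδ⟩ : ∃ δ : N → ℂ, δ = (m ξ : ℂ) • χ - (m χ : ℂ) • ξ := ⟨_, rfl⟩
    have hδm : δ ∈ zspanOn (inducedIrrAbove (K.subgroupOf N) (⊥ : Subgroup N)) {1}ᶜ := by
      rw [mem_zspanOn_one, hδ]
      constructor
      · have i1 : (m χ : ℂ) • ξ = ((m χ : ℕ) : ℤ) • ξ := by rw [zsmul_eq]; simp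
        have i2 : (m ξ : ℂ) • χ = ((m ξ : ℕ) : ℤ) • χ := by rw [zsmul_eq]; simp
        rw [i1, i2]
        exact zspan_sub (zspan_zsmul _ (mem_zspan_of_mem hχ)) (zspan_zsmul _ (mem_zspan_of_mem hξ))
      · rw [Pi.sub_apply, Pi.smul_apply, Pi.smul_apply, (hm χ hχ).2, (hm ξ hξ).2, smul_eq_mul, smul_eq_mul]; ring
    -- inner product of star χ with star δ
    have h1 : classInner (star χ) (indFun N δ) = m ξ := by
      rw [← hext δ hδm, hstar.2.2.1 _ (mem_zspan_of_mem hχ) _ hδm.1, hδ, classInner_sub_right, classInner_smul_right, classInner_smul_right,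
        IsIrrCharacter.inner_self (frob_isIrr hCN hχ), IsIrrCharacter.inner_eq_zero (frob_isIrr hCN hχ) (frob_isIrr hCN hξ) hne.symm, map_natCast]
      ring
    have h2 : classInner ψ (indFun N δ) = 0 := by
      rw [frobenius' N _ hψc]
      obtain ⟨⟨k, hk⟩, hk1'⟩ := Subgroup.ne_bot_iff_exists_ne_one.mp (mem_ne_one hχ)
      have hk1 : k ≠ 1 := fun h => hk1' (Subtype.ext h)
      have h3 : classInner (fun x : N => ψ x) δ = classInner (ψ k • (1 : N → ℂ)) δ := by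
        simp only [classInner]
        congr 1
        apply Finset.sum_congr rfl
        intro y _
        by_cases hy : (y : G) ∈ K
        · by_cases hy1 : y = 1
          · rw [hy1, (mem_zspanOn_one.mp hδm).2, map_zero, mul_zero, mul_zero]
          · rw [hno y hy k hk (fun h => hy1 (Subtype.ext h)) hk1, Pi.smul_apply, Pi.one_apply, smul_eq_mul, mul_one]
        · rw [CohTI.span_vanish hδm.1 y hy, map_zero, mul_zero, mul_zero]
      rw [h3, classInner_smul_left, hδ, classInner_sub_right, classInner_smul_right, classInner_smul_right, symm_zero (above_one hCN hχ), symm_zero (above_one hCN hξ)]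
      ring
    have h3 : (m ξ : ℂ) = 0 := by
      rcases hψχ with h | h
      · rw [← h1, ← h, h2]
      · rw [← h1]
        have h4 : star χ = -ψ := by rw [h, neg_neg]
        rw [h4, classInner_neg_left, h2, neg_zero]
    have h4 := (hm ξ hξ).1
    have h5 : m ξ = 0 := by exact_mod_cast h3
    omega
  · intro hne
    by_contra hno
    push Not at hno
    obtain ⟨χ₁, hχ₁, -⟩ := htwo
    obtain ⟨ζ, hζ, hζ1⟩ := exists_zeta hlt hC (mem_ne_one hχ₁)
    obtain ⟨m, hm⟩ := exists_m (K := K) (N := N)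
    have horth : ∀ χ ∈ inducedIrrAbove (K.subgroupOf N) (⊥ : Subgroup N), classInner ψ (star χ) = 0 := by
      intro χ hχ
      rcases Sibley.unit_inner (IsIrrCharacter.isGeneralized hψ) (sigma_gen hstar hχ) (IsIrrCharacter.inner_self hψ) (sigma_self hCN hstar hχ) with h | h | h
      · exact h
      · exact absurd h (hno χ hχ).1
      · exact absurd h (hno χ hχ).2
    have h2 : ∀ χ ∈ inducedIrrAbove (K.subgroupOf N) (⊥ : Subgroup N), classInner ψ (indFun N (χ - (m χ : ℂ) • ζ)) = 0 := by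
      intro χ hχ
      rw [ind_sub hζ hζ1 (fun χ hχ => (hm χ hχ).2) hstar hext hχ, classInner_sub_right, classInner_smul_right, horth χ hχ, horth ζ hζ, mul_zero, sub_zero]
    obtain ⟨a, ha, b, hb, ha1, hb1, hab⟩ := hne
    apply hab
    have h3 := const_of_orth hCN hζ hζ1 (fun χ hχ => (hm χ hχ).2) hψc h2 (x := ⟨a, hlt.le ha⟩) ha (fun h => ha1 (congrArg Subtype.val h))
    have h4 := const_of_orth hCN hζ hζ1 (fun χ hχ => (hm χ hχ).2) hψc h2 (x := ⟨b, hlt.le hb⟩) hb (fun h => hb1 (congrArg Subtype.val h))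
    rw [h3, h4]

theorem star_apply {χ₁ : N → ℂ} (hχ₁ : χ₁ ∈ inducedIrrAbove (K.subgroupOf N) (⊥ : Subgroup N)) :
    ∃ a : ℤ, ∀ χ ∈ inducedIrrAbove (K.subgroupOf N) (⊥ : Subgroup N), ∀ k : N, (k : G) ∈ K → k ≠ 1 → star χ k - χ k = (a : ℂ) * χ 1 / ((K.subgroupOf N).index : ℂ) := by
  have hCN := CohTI.hC_sub (N := N) hC
  obtain ⟨ζ, hζ, hζ1⟩ := exists_zeta hlt hC (mem_ne_one hχ₁)
  obtain ⟨m, hm⟩ := exists_m (K := K) (N := N)
  obtain ⟨c, hc⟩ := IsGeneralizedCharacter.inner_int (beta_gen hCN hζ) (sigma_gen hstar hζ)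
  have hI : ((K.subgroupOf N).index : ℂ) ≠ 0 := by
    have : (K.subgroupOf N).index ≠ 0 := Subgroup.index_ne_zero_of_finite
    exact_mod_cast this
  refine ⟨c + 1, ?_⟩
  intro χ hχ k hk hk1
  have h1 := sigma_zeta_apply hTI hCN hζ hζ1 (fun χ hχ => (hm χ hχ).2) hstar hext (a := c + 1) (by rw [hc]; push_cast; ring) hk hk1
  have h2 := ind_sub hζ hζ1 (fun χ hχ => (hm χ hχ).2) hstar hext hχ
  have hmem := sub_mem hζ hζ1 (fun χ hχ => (hm χ hχ).2) hχ
  have h3 := CohTI.ti_apply hTI (CohTI.span_class hmem.1) (CohTI.span_vanish hmem.1) hk hk1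
  rw [h2, Pi.sub_apply, Pi.smul_apply, Pi.sub_apply, Pi.smul_apply, h1, smul_eq_mul, smul_eq_mul] at h3
  rw [(hm χ hχ).2, mul_left_comm, mul_div_cancel_left₀ _ hI]
  linear_combination h3

end star

end CfsgLib.TIFrob
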