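import Mathlib
import Cfsg.Agent.Lib.CNOdd4
import Cfsg.Agent.Lib.TIFrob
import Cfsg.Agent.Lib.Sibley

/-!
# Coherent TI-subgroups: norm of `β`
-/

set_option autoImplicit false
set_option linter.style.haveILetI false
set_option linter.unusedSectionVars false

open scoped ComplexConjugate commutatorElement

namespace CfsgLib.H7Coh

open Cfsg CfsgLib.CharBasic CfsgLib.CharInd CfsgLib.CharClifford CfsgLib.CharCoh CfsgLib.FrobQuot CfsgLib.FrobCoh CfsgLib.CNOdd CfsgLib.CNOdd3 CfsgLib.CNOdd4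

universe u v

variable {G : Type u} [Group G] [Fintype G] {L H : Subgroup G} [Fintype L] [hn : (H.subgroupOf L).Normal]
variable (hTI : ∀ g : G, g ∉ L → ∀ k ∈ H, g * k * g⁻¹ ∈ H → k = 1)
  (hC : ∀ h ∈ H.subgroupOf L, h ≠ 1 → Subgroup.centralizer ({h} : Set L) ≤ H.subgroupOf L)
  {ζ : L → ℂ} (hζ : ζ ∈ inducedIrrAbove (H.subgroupOf L) (⊥ : Subgroup L)) (hζ1 : ζ 1 = ((H.subgroupOf L).index : ℂ))
  {m : (L → ℂ) → ℕ} (hm : ∀ χ ∈ inducedIrrAbove (H.subgroupOf L) (⊥ : Subgroup L), χ 1 = ((H.subgroupOf L).index : ℂ) * m χ)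
  {σ : (L → ℂ) → (G → ℂ)} (hσ : IsLinearIsometryOn (zspan (inducedIrrAbove (H.subgroupOf L) (⊥ : Subgroup L))) σ)
  (hσα : ∀ θ ∈ zspanOn (inducedIrrAbove (H.subgroupOf L) (⊥ : Subgroup L)) {1}ᶜ, σ θ = indFun L θ)
  (F : Finset (L → ℂ)) (hF : ∀ φ, φ ∈ F ↔ φ ∈ inducedIrrAbove (H.subgroupOf L) (⊥ : Subgroup L))

include hC hσ hF in
theorem exists_Phi : ∃ Φ : (L → ℂ) → IrrCharacter G, Set.InjOn Φ F ∧ ∀ χ ∈ F, σ χ = (Φ χ : G → ℂ) ∨ σ χ = -(Φ χ : G → ℂ) := by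
  classical
  have h1 : ∀ χ : L → ℂ, ∃ ψ : IrrCharacter G, χ ∈ F → σ χ = (ψ : G → ℂ) ∨ σ χ = -(ψ : G → ℂ) := by
    intro χ
    by_cases hχ : χ ∈ F
    · have hχ' := (hF χ).mp hχ
      rcases IsGeneralizedCharacter.irr_or_neg (sigma_gen hσ hχ') (sigma_self hC hσ hχ') with h | h
      · exact ⟨⟨_, h⟩, fun _ => Or.inl rfl⟩
      · exact ⟨⟨_, h⟩, fun _ => Or.inr (by simp)⟩
    · exact ⟨irrOne G, fun h => absurd h hχ⟩
  choose Φ hΦ using h1
  refine ⟨Φ, ?_, hΦ⟩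
  intro χ hχ χ' hχ' heq
  by_contra hne
  have h2 := sigma_inner hC hσ ((hF χ).mp hχ) ((hF χ').mp hχ') hne
  have h3 : classInner (Φ χ : G → ℂ) (Φ χ' : G → ℂ) = 1 := by
    rw [heq]
    exact IsIrrCharacter.inner_self (Φ χ').2
  rcases hΦ χ hχ with h4 | h4 <;> rcases hΦ χ' hχ' with h5 | h5 <;> rw [h4, h5] at h2 <;>
    simp only [classInner_neg_left, classInner_neg_right, h3] at h2 <;> norm_num at h2

include hTI hC hζ hζ1 hm hσ hσα hF in
theorem coh_main : ∃ (a : ℤ) (c : IrrCharacter G → ℤ) (Φ : (L → ℂ) → IrrCharacter G), Set.InjOn Φ F ∧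
    (∀ χ ∈ F, σ χ = (Φ χ : G → ℂ) ∨ σ χ = -(Φ χ : G → ℂ)) ∧
    (∀ χ ∈ F, ∀ k : L, (k : G) ∈ H → k ≠ 1 → σ χ k = χ k + a * m χ) ∧
    (∀ ψ : IrrCharacter G, (∀ χ ∈ F, Φ χ ≠ ψ) → ∀ k : G, k ∈ L → k ∈ H → k ≠ 1 → (ψ : G → ℂ) k = c ψ) ∧
    (∀ (s : Finset (IrrCharacter G)), (∀ ψ, ψ ∈ s ↔ ∀ χ ∈ F, Φ χ ≠ ψ) →
      ∑ ψ ∈ s, (c ψ) ^ 2 + 1 - 2 * a + a ^ 2 * (∑ χ ∈ F, (m χ : ℤ) ^ 2) = ((H.subgroupOf L).index : ℤ) + 1) := by
  classical
  obtain ⟨Φ, hinj, hΦ⟩ := exists_Phi hC hσ F hF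
  obtain ⟨a', ha'⟩ := IsGeneralizedCharacter.inner_int (beta_gen hC hζ) (sigma_gen hσ hζ)
  obtain ⟨a, ha⟩ : ∃ a : ℤ, a = a' + 1 := ⟨_, rfl⟩
  have haβ : classInner (beta H ζ) (σ ζ) = (a : ℂ) - 1 := by rw [ha', ha]; push_cast; ring
  obtain ⟨c, hc⟩ := isGeneralized_iff.mp (beta_gen (G := G) hC hζ)
  have hci : ∀ ψ : IrrCharacter G, classInner (beta H ζ) (ψ : G → ℂ) = c ψ := by
    intro ψ
    rw [hc, classInner_sum_left, Finset.sum_eq_single ψ]
    · rw [classInner_smul_left, IsIrrCharacter.inner_self ψ.2, mul_one]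
    · intro φ _ hne
      rw [classInner_smul_left, IsIrrCharacter.inner_eq_zero φ.2 ψ.2 (fun h => hne (Subtype.ext h)), mul_zero]
    · intro h
      exact absurd (Finset.mem_univ ψ) h
  have hI : ((H.subgroupOf L).index : ℂ) ≠ 0 := by
    have : (H.subgroupOf L).index ≠ 0 := Subgroup.index_ne_zero_of_finite
    exact_mod_cast this
  have hmζ : (m ζ : ℂ) = 1 := by
    have := hm ζ hζ
    rw [hζ1] at this
    have h3 : ((H.subgroupOf L).index : ℂ) * ((m ζ : ℂ) - 1) = 0 := by linear_combination -this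
    exact sub_eq_zero.mp ((mul_eq_zero.mp h3).resolve_left hI)
  refine ⟨a, c, Φ, hinj, hΦ, ?_, ?_, ?_⟩
  · intro χ hχ k hk hk1
    have hχ' := (hF χ).mp hχ
    have h1 := sigma_zeta_apply hTI hC hζ hζ1 hm hσ hσα haβ hk hk1
    have h2 := ind_sub hζ hζ1 hm hσ hσα hχ'
    have hmem := sub_mem hζ hζ1 hm hχ'
    have h3 := CohTI.ti_apply hTI (CohTI.span_class hmem.1) (CohTI.span_vanish hmem.1) hk hk1
    rw [h2, Pi.sub_apply, Pi.smul_apply, Pi.sub_apply, Pi.smul_apply, h1, smul_eq_mul, smul_eq_mul] at h3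
    linear_combination h3
  · intro ψ hψ k hkL hk hk1
    have hψc : IsClassFunction G (ψ : G → ℂ) := irr_isClassFunction ψ
    have h0 : ∀ χ ∈ inducedIrrAbove (H.subgroupOf L) (⊥ : Subgroup L), classInner (ψ : G → ℂ) (σ χ) = 0 := by
      intro χ hχ
      have h1 : classInner (ψ : G → ℂ) (Φ χ : G → ℂ) = 0 :=
        IsIrrCharacter.inner_eq_zero ψ.2 (Φ χ).2 (fun h => hψ χ ((hF χ).mpr hχ) (Subtype.ext h.symm))
      rcases hΦ χ ((hF χ).mpr hχ) with h2 | h2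
      · rw [h2, h1]
      · rw [h2, classInner_neg_right, h1, neg_zero]
    have h1 : ∀ χ ∈ inducedIrrAbove (H.subgroupOf L) (⊥ : Subgroup L), classInner (ψ : G → ℂ) (indFun L (χ - (m χ : ℂ) • ζ)) = 0 := by
      intro χ hχ
      rw [ind_sub hζ hζ1 hm hσ hσα hχ, classInner_sub_right, classInner_smul_right, h0 χ hχ, h0 ζ hζ, mul_zero, sub_zero]
    have h2 := const_of_orth hC hζ hζ1 hm hψc h1 (x := ⟨k, hkL⟩) hk (fun h => hk1 (congrArg Subtype.val h))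
    have h3 : (ψ : G → ℂ) k = classInner (ψ : G → ℂ) (beta H ζ) := h2
    rw [h3, ← classInner_conj_symm, hci]
    simp
  · intro s hs
    have hnorm := beta_norm hTI hC hζ hζ1
    rw [hc, classInner_sum_smul_sum_smul] at hnorm
    have h1 : ∑ ψ : IrrCharacter G, c ψ * c ψ = ((H.subgroupOf L).index : ℤ) + 1 := by
      simp only [map_intCast] at hnorm
      exact_mod_cast hnorm
    have h2 : (Finset.univ : Finset (IrrCharacter G)) = s ∪ F.image Φ := by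
      ext ψ
      rw [Finset.mem_union, hs, Finset.mem_image]
      constructor
      · intro _
        by_cases h : ∀ χ ∈ F, Φ χ ≠ ψ
        · exact Or.inl h
        · push Not at h
          exact Or.inr h
      · intro _
        exact Finset.mem_univ _
    have h3 : Disjoint s (F.image Φ) := by
      rw [Finset.disjoint_left]
      intro ψ hψ hψ'
      rw [Finset.mem_image] at hψ'
      obtain ⟨χ, hχ, he⟩ := hψ'
      exact (hs ψ).mp hψ χ hχ he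
    rw [h2, Finset.sum_union h3, Finset.sum_image hinj] at h1
    have h4 : ∀ χ ∈ F, c (Φ χ) * c (Φ χ) = if χ = ζ then (a - 1) ^ 2 else a ^ 2 * (m χ : ℤ) ^ 2 := by
      intro χ hχ
      have h5 : ((c (Φ χ) : ℤ) : ℂ) = classInner (beta H ζ) (σ χ) ∨ ((c (Φ χ) : ℤ) : ℂ) = -classInner (beta H ζ) (σ χ) := by
        rw [← hci]
        rcases hΦ χ hχ with h | h
        · left; rw [h]
        · right; rw [h, classInner_neg_right, neg_neg]
      split_ifs with he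
      · rw [he] at h5 ⊢
        rw [haβ] at h5
        rcases h5 with h | h
        · have : c (Φ ζ) = a - 1 := by exact_mod_cast h
          rw [this]; ring
        · have : c (Φ ζ) = -(a - 1) := by exact_mod_cast h
          rw [this]; ring
      · rw [beta_sigma hTI hC hζ hζ1 hm hσ hσα haβ ((hF χ).mp hχ) he] at h5
        rcases h5 with h | h
        · have : c (Φ χ) = a * m χ := by exact_mod_cast h
          rw [this]; ring
        · have : c (Φ χ) = -(a * m χ) := by exact_mod_cast h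
          rw [this]; ring
    rw [Finset.sum_congr rfl h4] at h1
    have hζF : ζ ∈ F := (hF ζ).mpr hζ
    have h5 : ∑ χ ∈ F, (if χ = ζ then (a - 1) ^ 2 else a ^ 2 * (m χ : ℤ) ^ 2) = 1 - 2 * a + a ^ 2 * ∑ χ ∈ F, (m χ : ℤ) ^ 2 := by
      rw [← Finset.add_sum_erase F _ hζF, ← Finset.add_sum_erase F (fun χ => (m χ : ℤ) ^ 2) hζF, if_pos rfl]
      have h6 : ∀ χ ∈ F.erase ζ, (if χ = ζ then (a - 1) ^ 2 else a ^ 2 * (m χ : ℤ) ^ 2) = a ^ 2 * (m χ : ℤ) ^ 2 := by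
        intro χ hχ
        rw [if_neg (Finset.ne_of_mem_erase hχ)]
      rw [Finset.sum_congr rfl h6, ← Finset.mul_sum]
      have h7 : (m ζ : ℤ) = 1 := by exact_mod_cast hmζ
      rw [h7]
      ring
    rw [h5] at h1
    have h6 : ∑ ψ ∈ s, c ψ ^ 2 = ∑ ψ ∈ s, c ψ * c ψ := Finset.sum_congr rfl fun ψ _ => by ring
    rw [h6]
    linarith

end CfsgLib.H7Coh
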