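import Mathlib
import Cfsg.Agent.Lib.H7ZA
import Cfsg.Agent.S0881
import Cfsg.Agent.Lib.BlockNormal

/-!
# Zassenhaus groups: characters with nonzero sum on the kernel
-/

set_option autoImplicit false
set_option linter.style.haveILetI false
set_option linter.unusedSectionVars false

open MulAction Cfsg CfsgLib.CharBasic CfsgLib.CharInd
open scoped Pointwise commutatorElement ComplexConjugate

namespace CfsgLib.H7Z

universe u v

variable {G : Type u} {Ω : Type v} [Group G] [MulAction G Ω] [Fintype G] [Fintype Ω]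
variable {a b : Ω} {H : Subgroup G}

theorem steinberg_aux (hZ : IsZassenhausGroup G Ω) (hab : a ≠ b) (hHa : H ≤ stabilizer G a) (hHcard : Nat.card H + 1 = Fintype.card Ω)
    (hHfix : ∀ u ∈ H, u ≠ 1 → ∀ c : Ω, u • c = c → c = a) [Fintype (stabilizer G a)] :
    classInner (indFun (stabilizer G a) (fun _ => 1)) (indFun (stabilizer G a) (fun _ => 1)) = 2 := by
  classical
  haveI : Fintype H := Fintype.ofFinite _
  haveI : Fintype (stabilizer G a ⊓ stabilizer G b : Subgroup G) := Fintype.ofFinite _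
  have hμc : IsClassFunction (stabilizer G a) (fun _ => (1 : ℂ)) := fun _ _ => rfl
  obtain ⟨s, hsa, hsb⟩ := exists_map2 hZ hab hab.symm
  have hval : ∀ u ∈ H, u ≠ 1 → indFun (stabilizer G a) (fun _ => (1 : ℂ)) u = 1 := by
    intro u hu hu1
    rw [ind_one_fix hμc (mem_stabilizer_iff.mp (hHa hu)) (hHfix u hu hu1)]
  have hvE : ∀ x (hx : x ∈ stabilizer G a ⊓ stabilizer G b), x ≠ 1 → indFun (stabilizer G a) (fun _ => (1 : ℂ)) x = 2 := by
    intro x hx hx1
    have h2 : s⁻¹ * x * s ∈ stabilizer G a := by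
      rw [mem_stabilizer_iff, mul_smul, mul_smul, hsa, mem_stabilizer_iff.mp hx.2, ← hsa, inv_smul_smul]
    rw [ind_EE hZ hab hμc hx hx1 hsa h2]
    norm_num
  have hidx : indFun (stabilizer G a) (fun _ => (1 : ℂ)) 1 = (Nat.card H : ℂ) + 1 := by
    rw [indFun_one, stab_index hZ, ← hHcard]
    push_cast; ring
  rw [CfsgLib.CharInd.frobenius _ _ (isClassFunction_indFun _ _), classInner]
  obtain ⟨F, hF⟩ : ∃ F : G → ℂ, F = fun g => conj (indFun (stabilizer G a) (fun _ => (1 : ℂ)) g) := ⟨_, rfl⟩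
  have hFc : ∀ g ∈ stabilizer G a, ∀ x, F (g * x * g⁻¹) = F x := by
    intro g hg x
    rw [hF]
    show conj (indFun (stabilizer G a) (fun _ => (1 : ℂ)) (g * x * g⁻¹)) = conj (indFun (stabilizer G a) (fun _ => (1 : ℂ)) x)
    rw [isClassFunction_indFun _ _ x g]
  have h1 : ∑ n : stabilizer G a, (1 : ℂ) * conj (indFun (stabilizer G a) (fun _ => (1 : ℂ)) (n : G)) = ∑ n : stabilizer G a, F n := by
    refine Finset.sum_congr rfl fun n _ => ?_
    rw [hF, one_mul]
  rw [h1, sum_stab hZ hab hHa hHcard hHfix F hFc]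
  have hF1 : F 1 = (Nat.card H : ℂ) + 1 := by
    rw [hF]
    simp only
    rw [hidx]
    simp
  have hFH : ∀ u : H, u ≠ 1 → F u = 1 := by
    intro u hu
    rw [hF]
    simp only
    rw [hval u u.2 (fun h => hu (Subtype.ext h))]
    simp
  have hFE : ∀ x : (stabilizer G a ⊓ stabilizer G b : Subgroup G), x ≠ 1 → F x = 2 := by
    intro x hx
    rw [hF]
    simp only
    rw [hvE x x.2 (fun h => hx (Subtype.ext h))]
    exact map_ofNat _ 2
  have hSH : ∑ u : H, F u = 2 * (Nat.card H : ℂ) := by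
    rw [← Finset.add_sum_erase Finset.univ _ (Finset.mem_univ (1 : H)), Finset.sum_congr rfl fun u hu => hFH u (Finset.ne_of_mem_erase hu), Finset.sum_const,
      Finset.card_erase_of_mem (Finset.mem_univ _), Finset.card_univ, nsmul_eq_mul, mul_one]
    have : ((1 : H) : G) = 1 := rfl
    rw [this, hF1, Nat.cast_sub Fintype.card_pos, Nat.card_eq_fintype_card]
    push_cast; ring
  have hSE : ∑ x : (stabilizer G a ⊓ stabilizer G b : Subgroup G), F x - F 1 = 2 * (Nat.card (stabilizer G a ⊓ stabilizer G b : Subgroup G) : ℂ) - 2 := by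
    rw [← Finset.add_sum_erase Finset.univ _ (Finset.mem_univ (1 : (stabilizer G a ⊓ stabilizer G b : Subgroup G)))]
    rw [Finset.sum_congr rfl fun x hx => hFE x (Finset.ne_of_mem_erase hx), Finset.sum_const,
      Finset.card_erase_of_mem (Finset.mem_univ _), Finset.card_univ, nsmul_eq_mul, Nat.cast_sub Fintype.card_pos, Nat.card_eq_fintype_card]
    have : ((1 : (stabilizer G a ⊓ stabilizer G b : Subgroup G)) : G) = 1 := rfl
    rw [this]
    push_cast
    ring
  rw [hSH, hSE, card_stab hZ hab, ← hHcard, Nat.add_sub_cancel]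
  have hH0 := card_sub_ne_zero H
  have hE0 := card_sub_ne_zero (stabilizer G a ⊓ stabilizer G b : Subgroup G)
  push_cast
  field_simp
  ring

theorem steinberg (hZ : IsZassenhausGroup G Ω) (hab : a ≠ b) (hHa : H ≤ stabilizer G a) (hHcard : Nat.card H + 1 = Fintype.card Ω)
    (hHfix : ∀ u ∈ H, u ≠ 1 → ∀ c : Ω, u • c = c → c = a) :
    IsIrrCharacter G (indFun (stabilizer G a) (fun _ => 1) - 1) := by
  classical
  haveI : Fintype (stabilizer G a) := Fintype.ofFinite _
  have h0 := steinberg_aux hZ hab hHa hHcard hHfix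
  have hchar : IsCharacter (stabilizer G a) (fun _ => (1 : ℂ)) := IsIrrCharacter.isCharacter (irrOne (stabilizer G a)).2
  have hgen : IsGeneralizedCharacter G (indFun (stabilizer G a) (fun _ => (1 : ℂ)) - 1) :=
    IsGeneralizedCharacter.sub (isGeneralized_indFun _ (IsCharacter.isGeneralized hchar)) (IsCharacter.isGeneralized (IsIrrCharacter.isCharacter (irrOne G).2))
  have hone : classInner (indFun (stabilizer G a) (fun _ => (1 : ℂ))) (1 : G → ℂ) = 1 := by
    rw [CfsgLib.CharInd.frobenius _ _ (fun _ _ => rfl)]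
    exact IsIrrCharacter.inner_self (irrOne (stabilizer G a)).2
  have hone' : classInner (1 : G → ℂ) (indFun (stabilizer G a) (fun _ => (1 : ℂ))) = 1 := by
    rw [← classInner_conj_symm, hone]; simp
  have h11 : classInner (1 : G → ℂ) (1 : G → ℂ) = 1 := IsIrrCharacter.inner_self (irrOne G).2
  refine IsGeneralizedCharacter.irr_of_pos hgen ?_ ?_
  · rw [classInner_sub_left, classInner_sub_right, classInner_sub_right, h0, hone, hone', h11]
    norm_num
  · rw [Pi.sub_apply, indFun_one, stab_index hZ, ← hHcard]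
    simp
    exact Fintype.card_pos

theorem EE_comm (hZ : IsZassenhausGroup G Ω) (hab : a ≠ b) [IsSimpleGroup G] (hodd : Odd (Nat.card (stabilizer G a ⊓ stabilizer G b : Subgroup G))) :
    ∀ x ∈ stabilizer G a ⊓ stabilizer G b, ∀ y ∈ stabilizer G a ⊓ stabilizer G b, x * y = y * x := by
  obtain ⟨hcyc, -⟩ := E_cyclic_inverted hZ hab hodd
  intro x hx y hy
  haveI := hcyc
  have := (IsCyclic.commGroup (α := (stabilizer G a ⊓ stabilizer G b : Subgroup G))).mul_comm ⟨x, hx⟩ ⟨y, hy⟩
  exact congrArg Subtype.val this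

theorem lin_of_ker (hZ : IsZassenhausGroup G Ω) (hab : a ≠ b) [IsSimpleGroup G] (hodd : Odd (Nat.card (stabilizer G a ⊓ stabilizer G b : Subgroup G)))
    (hHa : H ≤ stabilizer G a) (hHcard : Nat.card H + 1 = Fintype.card Ω)
    (hHfix : ∀ u ∈ H, u ≠ 1 → ∀ c : Ω, u • c = c → c = a) [(H.subgroupOf (stabilizer G a)).Normal] (χ : IrrCharacter (stabilizer G a))
    (hχ : ∀ u ∈ H.subgroupOf (stabilizer G a), (χ : stabilizer G a → ℂ) u = (χ : stabilizer G a → ℂ) 1) : (χ : stabilizer G a → ℂ) 1 = 1 := by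
  classical
  have hEc := EE_comm hZ hab hodd
  have hQcomm : ∀ x y : stabilizer G a ⧸ H.subgroupOf (stabilizer G a), x * y = y * x := by
    intro x y
    obtain ⟨n, rfl⟩ := QuotientGroup.mk'_surjective _ x
    obtain ⟨m, rfl⟩ := QuotientGroup.mk'_surjective _ y
    have key : ∀ n : stabilizer G a, ∃ x : G, ∃ hx : x ∈ stabilizer G a ⊓ stabilizer G b, QuotientGroup.mk' (H.subgroupOf (stabilizer G a)) n =
        QuotientGroup.mk' (H.subgroupOf (stabilizer G a)) ⟨x, hx.1⟩ := by
      intro n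
      obtain ⟨u, hu, x, hx, h⟩ := exists_fac hZ hab hHa hHcard hHfix n.2
      refine ⟨x, hx, ?_⟩
      have e : n = ⟨u, hHa hu⟩ * ⟨x, hx.1⟩ := Subtype.ext h
      rw [e, map_mul]
      have : QuotientGroup.mk' (H.subgroupOf (stabilizer G a)) ⟨u, hHa hu⟩ = 1 := by
        rw [← MonoidHom.mem_ker, QuotientGroup.ker_mk']
        exact hu
      rw [this, one_mul]
    obtain ⟨x, hx, e1⟩ := key n
    obtain ⟨y, hy, e2⟩ := key m
    rw [e1, e2, ← map_mul, ← map_mul]
    congr 1
    exact Subtype.ext (hEc x hx y hy)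
  obtain ⟨θ, hθ⟩ := (irrQuotientEquiv (H.subgroupOf (stabilizer G a))).surjective ⟨χ, hχ⟩
  have h1 : (χ : stabilizer G a → ℂ) 1 = (θ : _ → ℂ) ((1 : stabilizer G a) : stabilizer G a ⧸ H.subgroupOf (stabilizer G a)) := by
    rw [← irrQuotientEquiv_apply, hθ]
  rw [h1]
  exact IsIrrCharacter.degree_one_of_comm θ.2 hQcomm

/-- an irreducible character of `G` whose sum over `H` is nonzero is the Steinberg character or is `1` on `H \ 1` -/
theorem const_of_sum_ne (hZ : IsZassenhausGroup G Ω) (hab : a ≠ b) [IsSimpleGroup G] (hodd : Odd (Nat.card (stabilizer G a ⊓ stabilizer G b : Subgroup G)))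
    (hlt : Nat.card ↥(MulAction.stabilizer G a ⊓ MulAction.stabilizer G b : Subgroup G) < Fintype.card Ω - 2)
    (hHa : H ≤ stabilizer G a) (hHcard : Nat.card H + 1 = Fintype.card Ω)
    (hHfix : ∀ u ∈ H, u ≠ 1 → ∀ c : Ω, u • c = c → c = a) (ψ : IrrCharacter G) [Fintype H] (hsum : ∑ u : H, (ψ : G → ℂ) u ≠ 0) :
    (∀ u ∈ H, u ≠ 1 → (ψ : G → ℂ) u = 1) ∨ (ψ : G → ℂ) = indFun (stabilizer G a) (fun _ => 1) - 1 := by
  classical
  haveI : Fintype (stabilizer G a) := Fintype.ofFinite _
  haveI : Fintype (H.subgroupOf (stabilizer G a)) := Fintype.ofFinite _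
  haveI hnorm : (H.subgroupOf (stabilizer G a)).Normal := by
    constructor
    intro n hn g
    exact H_normal hZ hab hHa hHcard hHfix g.2 hn
  -- restriction
  have hres : IsCharacter (stabilizer G a) (fun n => (ψ : G → ℂ) n) := IsCharacter.restrict (IsIrrCharacter.isCharacter ψ.2) _
  obtain ⟨c, hc⟩ := isGeneralized_iff.mp (IsCharacter.isGeneralized hres)
  have hcv : ∀ n : stabilizer G a, (ψ : G → ℂ) n = ∑ χ : IrrCharacter (stabilizer G a), (c χ : ℂ) * (χ : stabilizer G a → ℂ) n := by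
    intro n
    have := congrFun hc n
    simp only [Finset.sum_apply, Pi.smul_apply, smul_eq_mul] at this
    exact this
  have hsum' : ∑ x : H.subgroupOf (stabilizer G a), (ψ : G → ℂ) ((x : stabilizer G a) : G) = ∑ u : H, (ψ : G → ℂ) u :=
    Fintype.sum_equiv (Subgroup.subgroupOfEquivOfLe hHa).toEquiv _ _ (fun x => rfl)
  have hex : ∃ χ : IrrCharacter (stabilizer G a), c χ ≠ 0 ∧ ∑ x : H.subgroupOf (stabilizer G a), (χ : stabilizer G a → ℂ) x ≠ 0 := by
    by_contra hcon
    push Not at hcon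
    apply hsum
    rw [← hsum', Finset.sum_congr rfl fun (x : H.subgroupOf (stabilizer G a)) _ => hcv (x : stabilizer G a), Finset.sum_comm]
    refine Finset.sum_eq_zero fun χ _ => ?_
    rw [← Finset.mul_sum]
    by_cases h : c χ = 0
    · rw [h]; simp
    · rw [hcon χ h, mul_zero]
  obtain ⟨χ, hcχ, hχs⟩ := hex
  have hχker := CfsgLib.Block.eq_one_of_sum_ne_zero (H.subgroupOf (stabilizer G a)) χ.2 hχs
  -- linear
  have hχ1 : (χ : stabilizer G a → ℂ) 1 = 1 := lin_of_ker hZ hab hodd hHa hHcard hHfix χ hχker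
  have hinner : classInner (ψ : G → ℂ) (indFun (stabilizer G a) (χ : stabilizer G a → ℂ)) ≠ 0 := by
    rw [CfsgLib.CharInd.frobenius' _ _ (irr_isClassFunction ψ), hc, classInner_sum_left, Finset.sum_eq_single χ]
    · rw [classInner_smul_left, IsIrrCharacter.inner_self χ.2, mul_one]
      exact_mod_cast hcχ
    · intro φ _ hne
      rw [classInner_smul_left, IsIrrCharacter.inner_eq_zero φ.2 χ.2 (fun h => hne (Subtype.ext h)), mul_zero]
    · intro h
      exact absurd (Finset.mem_univ χ) h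
  by_cases hone : (χ : stabilizer G a → ℂ) = fun _ => 1
  · rw [hone] at hinner
    by_cases hψ1 : (ψ : G → ℂ) = 1
    · left
      intro u _ _
      rw [hψ1]; rfl
    · right
      by_contra hne
      apply hinner
      have h1 := IsIrrCharacter.inner_eq_zero ψ.2 (steinberg hZ hab hHa hHcard hHfix) hne
      have h2 := IsIrrCharacter.inner_eq_zero ψ.2 (irrOne G).2 hψ1
      rw [classInner_sub_right] at h1
      have h3 : ((irrOne G : IrrCharacter G) : G → ℂ) = 1 := rfl
      rw [h3] at h2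
      rw [h2, sub_zero] at h1
      exact h1
  · left
    obtain ⟨h1, h2⟩ := Cfsg.Agent.S0881.result hZ hab hodd hlt H hHa hHcard hHfix (χ : stabilizer G a → ℂ) ⟨IsIrrCharacter.isCharacter χ.2, hχ1⟩
      (fun u hu => by rw [hχker u hu, hχ1]) hone
    have h3 : (ψ : G → ℂ) = indFun (stabilizer G a) (χ : stabilizer G a → ℂ) := by
      by_contra hne
      exact hinner (IsIrrCharacter.inner_eq_zero ψ.2 h1 hne)
    rw [h3]
    exact h2

end CfsgLib.H7Z
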