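import Mathlib
import Cfsg.Agent.Lib.H7ZB
import Cfsg.Agent.Lib.H7ZC
import Cfsg.Agent.Lib.CharCoh5

/-!
# Zassenhaus groups: numerical consequences of coherence
-/

set_option autoImplicit false
set_option linter.style.haveILetI false
set_option linter.unusedSectionVars false

open MulAction Cfsg CfsgLib.CharBasic CfsgLib.CharInd CfsgLib.CharCoh
open scoped Pointwise commutatorElement ComplexConjugate

namespace CfsgLib.H7Z

universe u v

variable {G : Type u} {Ω : Type v} [Group G] [MulAction G Ω] [Fintype G] [Fintype Ω]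
variable {a b : Ω} {H : Subgroup G}

theorem idx_H (hZ : IsZassenhausGroup G Ω) (hab : a ≠ b) (hHa : H ≤ stabilizer G a) (hHcard : Nat.card H + 1 = Fintype.card Ω) :
    (H.subgroupOf (stabilizer G a)).index = Nat.card (stabilizer G a ⊓ stabilizer G b : Subgroup G) := by
  have h1 := (H.subgroupOf (stabilizer G a)).card_mul_index
  rw [Nat.card_congr (Subgroup.subgroupOfEquivOfLe hHa).toEquiv, card_stab hZ hab, ← hHcard, Nat.add_sub_cancel] at h1
  exact Nat.eq_of_mul_eq_mul_left Nat.card_pos h1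

theorem arith_A {A : ℤ} {W : ℕ} (h3 : 3 ≤ W) (h2 : A ^ 2 * W ≤ 2 * A) : A = 0 := by
  have h3' : (3 : ℤ) ≤ W := by exact_mod_cast h3
  have h4 : A ^ 2 * 3 ≤ A ^ 2 * W := mul_le_mul_of_nonneg_left h3' (sq_nonneg A)
  have h5 : A ^ 2 * 3 ≤ 2 * A := h4.trans h2
  have h6 : 0 ≤ A := by have := sq_nonneg A; linarith
  rcases h6.eq_or_lt with h | h
  · exact h.symm
  · exfalso
    have h8 : A ≤ A ^ 2 := by rw [sq]; exact le_mul_of_one_le_left h.le h
    linarith

theorem coherent_data (hZ : IsZassenhausGroup G Ω) (hab : a ≠ b) [IsSimpleGroup G] (hodd : Odd (Nat.card (stabilizer G a ⊓ stabilizer G b : Subgroup G)))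
    (hHa : H ≤ stabilizer G a) (hHcard : Nat.card H + 1 = Fintype.card Ω)
    (hHfix : ∀ u ∈ H, u ≠ 1 → ∀ c : Ω, u • c = c → c = a) (hlt : 2 * Nat.card ↥(MulAction.stabilizer G a ⊓ MulAction.stabilizer G b : Subgroup G) < Nat.card H - 1)
    [Fintype (stabilizer G a)] [hn : (H.subgroupOf (stabilizer G a)).Normal]
    (hcoh : IsCoherent (inducedIrrAbove (H.subgroupOf (stabilizer G a)) (⊥ : Subgroup (stabilizer G a))) {1}ᶜ (fun α => indFun (stabilizer G a) α)) :
    ∃ (F : Finset (stabilizer G a → ℂ)) (σ : (stabilizer G a → ℂ) → (G → ℂ)) (c : IrrCharacter G → ℤ) (Φ : (stabilizer G a → ℂ) → IrrCharacter G) (s : Finset (IrrCharacter G)),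
      (∀ φ, φ ∈ F ↔ φ ∈ inducedIrrAbove (H.subgroupOf (stabilizer G a)) (⊥ : Subgroup (stabilizer G a))) ∧ Set.InjOn Φ F ∧
      (∀ χ ∈ F, σ χ = (Φ χ : G → ℂ) ∨ σ χ = -(Φ χ : G → ℂ)) ∧
      (∀ χ ∈ F, ∀ k : stabilizer G a, (k : G) ∈ H → σ χ k = χ k) ∧
      (∀ ψ, ψ ∈ s ↔ ∀ χ ∈ F, Φ χ ≠ ψ) ∧ (∀ ψ ∈ s, ∀ k ∈ H, k ≠ 1 → (ψ : G → ℂ) k = c ψ) ∧ (∀ ψ ∈ s, c ψ ^ 2 ≤ 1) ∧
      ∑ ψ ∈ s, c ψ ^ 2 = (Nat.card (stabilizer G a ⊓ stabilizer G b : Subgroup G) : ℤ) ∧
      Nat.card (avoid H) = Nat.card (stabilizer G a ⊓ stabilizer G b : Subgroup G) := by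
  classical
  haveI : Fintype H := Fintype.ofFinite _
  haveI : Fintype (H.subgroupOf (stabilizer G a)) := Fintype.ofFinite _
  have hTI : ∀ g : G, g ∉ stabilizer G a → ∀ k ∈ H, g * k * g⁻¹ ∈ H → k = 1 := by
    intro g hg k hk hgk
    by_contra hk1
    exact hg (H_ti hHfix hHa hk hgk hk1)
  have hC : ∀ h ∈ H.subgroupOf (stabilizer G a), h ≠ 1 → Subgroup.centralizer ({h} : Set (stabilizer G a)) ≤ H.subgroupOf (stabilizer G a) :=
    CohTI.hC_sub (fun k hk hk1 => centralizer_le_H hZ hab hHa hHcard hHfix hk hk1)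
  have hCG : ∀ k ∈ H, k ≠ 1 → Subgroup.centralizer ({k} : Set G) ≤ H := fun k hk hk1 => centralizer_le_H hZ hab hHa hHcard hHfix hk hk1
  obtain ⟨u₀, hu₀, hu₀1⟩ := H_ne_bot hZ hHcard (H := H)
  have hHbot : H ≠ ⊥ := by
    rintro rfl
    exact hu₀1 (Subgroup.mem_bot.mp hu₀)
  obtain ⟨x₀, hx₀, hx₀1⟩ := exists_ne_one_EE hZ hab
  have hltN : H < stabilizer G a := by
    refine lt_of_le_of_ne hHa ?_
    intro h
    have h1 : x₀ ∈ H := by rw [h]; exact hx₀.1
    exact hab.symm (hHfix x₀ h1 hx₀1 b hx₀.2)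
  have hidx := idx_H hZ hab hHa hHcard
  have hEc := EE_comm hZ hab hodd
  obtain ⟨e, he⟩ : ∃ e, e = Nat.card (stabilizer G a ⊓ stabilizer G b : Subgroup G) := ⟨_, rfl⟩
  have he0 : 0 < e := by rw [he]; exact Nat.card_pos
  obtain ⟨ζ, hζ, hζ1⟩ := TIFrob.exists_zeta hltN hCG hHbot
  obtain ⟨m, hm'⟩ := TIFrob.exists_m (K := H) (N := stabilizer G a)
  have hm := fun χ hχ => (hm' χ hχ).2
  obtain ⟨-, σ, hσ, hσα⟩ := hcoh
  obtain ⟨F, hF⟩ : ∃ F : Finset (stabilizer G a → ℂ), ∀ φ, φ ∈ F ↔ φ ∈ inducedIrrAbove (H.subgroupOf (stabilizer G a)) (⊥ : Subgroup (stabilizer G a)) :=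
    ⟨(above_finite (H.subgroupOf (stabilizer G a)) ⊥).toFinset, fun φ => Set.Finite.mem_toFinset _⟩
  obtain ⟨A, c, Φ, hinj, hΦ, hσv, hcv, hnorm⟩ := H7Coh.coh_main hTI hC hζ hζ1 hm hσ hσα F hF
  obtain ⟨s, hs⟩ : ∃ s : Finset (IrrCharacter G), ∀ ψ, ψ ∈ s ↔ ∀ χ ∈ F, Φ χ ≠ ψ :=
    ⟨Finset.univ.filter (fun ψ => ∀ χ ∈ F, Φ χ ≠ ψ), fun ψ => by simp⟩
  have hnorm := hnorm s hs
  -- the sum of squares
  have hW : e * ∑ χ ∈ F, m χ ^ 2 = Nat.card H - 1 := by
    have h1 := FrobCoh.frob_sum hC F hF (fun χ => e * m χ) (fun φ hφ => by rw [hm φ ((hF φ).mp hφ), hidx, ← he]; push_cast; ring)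
    rw [hidx, ← he, Subgroup.relIndex_bot_left, Nat.card_congr (Subgroup.subgroupOfEquivOfLe hHa).toEquiv] at h1
    apply Nat.eq_of_mul_eq_mul_left he0
    rw [← h1, ← mul_assoc, Finset.mul_sum]
    exact Finset.sum_congr rfl fun χ _ => by ring
  obtain ⟨W, hWd⟩ : ∃ W, W = ∑ χ ∈ F, m χ ^ 2 := ⟨_, rfl⟩
  rw [← hWd] at hW
  have hW3 : 3 ≤ W := by
    rw [← he, ← hW] at hlt
    by_contra hcon
    push Not at hcon
    have : W ≤ 2 := by omega
    have := Nat.mul_le_mul_left e this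
    omega
  -- counting
  have hk1 := card_classes_le hZ hab hHa hHcard hHfix
  have hk2 := card_irr_N hZ hab hHa hHcard hHfix hEc F hF
  have hk3 : e ≤ Nat.card (avoid H) := by
    rw [he]
    exact le_card_avoid hZ hab hodd hHa hHcard hHfix (by omega)
  rw [← he] at hk1 hk2
  have hk4 : s.card + F.card = Nat.card (ConjClasses G) := by
    rw [← card_irr, Nat.card_eq_fintype_card, ← Finset.card_univ, ← Finset.card_image_of_injOn hinj]
    rw [← Finset.card_union_of_disjoint]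
    · congr 1
      ext ψ
      rw [Finset.mem_union, hs, Finset.mem_image]
      constructor
      · intro _
        exact Finset.mem_univ _
      · intro _
        by_cases h : ∀ χ ∈ F, Φ χ ≠ ψ
        · exact Or.inl h
        · push Not at h
          exact Or.inr h
    · rw [Finset.disjoint_left]
      intro ψ hψ hψ'
      rw [Finset.mem_image] at hψ'
      obtain ⟨χ, hχ, he⟩ := hψ'
      exact (hs ψ).mp hψ χ hχ he
  have hlt' : Nat.card ↥(MulAction.stabilizer G a ⊓ MulAction.stabilizer G b : Subgroup G) < Fintype.card Ω - 2 := by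
    rw [← hHcard]
    omega
  -- at most one vanishes
  have huniq : (s.filter (fun ψ => c ψ = 0)).card ≤ 1 := by
    rw [Finset.card_le_one]
    have key : ∀ ψ ∈ s.filter (fun ψ => c ψ = 0), (ψ : G → ℂ) = indFun (stabilizer G a) (fun _ => 1) - 1 := by
      intro ψ hψ
      rw [Finset.mem_filter] at hψ
      have hv : ∀ k ∈ H, k ≠ 1 → (ψ : G → ℂ) k = 0 := by
        intro k hk hk1
        rw [hcv ψ ((hs ψ).mp hψ.1) k (hHa hk) hk hk1, hψ.2]
        simp
      have hsum : ∑ u : H, (ψ : G → ℂ) u ≠ 0 := by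
        rw [Finset.sum_eq_single (1 : H)]
        · obtain ⟨n, hn0, hn1⟩ := IsIrrCharacter.exists_pos ψ.2
          have h1 : (ψ : G → ℂ) ((1 : H) : G) = n := hn1
          rw [h1]
          exact_mod_cast hn0.ne'
        · intro k _ hk
          exact hv k k.2 (fun h => hk (Subtype.ext h))
        · intro h; exact absurd (Finset.mem_univ _) h
      rcases const_of_sum_ne hZ hab hodd hlt' hHa hHcard hHfix ψ hsum with h | h
      · exfalso
        have h1 := h u₀ hu₀ hu₀1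
        rw [hv u₀ hu₀ hu₀1] at h1
        exact zero_ne_one h1
      · exact h
    intro ψ hψ ψ' hψ'
    exact Subtype.ext ((key ψ hψ).trans (key ψ' hψ').symm)
  have hsq : ∀ ψ ∈ s.filter (fun ψ => ¬ c ψ = 0), 1 ≤ c ψ ^ 2 := by
    intro ψ hψ
    have := (Finset.mem_filter.mp hψ).2
    have : 0 < c ψ ^ 2 := by positivity
    omega
  have hsplit : ∑ ψ ∈ s, c ψ ^ 2 = ∑ ψ ∈ s.filter (fun ψ => ¬ c ψ = 0), c ψ ^ 2 := by
    rw [← Finset.sum_filter_add_sum_filter_not s (fun ψ => c ψ = 0)]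
    have : ∑ ψ ∈ s.filter (fun ψ => c ψ = 0), c ψ ^ 2 = 0 := Finset.sum_eq_zero fun ψ hψ => by rw [(Finset.mem_filter.mp hψ).2]; ring
    rw [this, zero_add]
  have hcardsplit := Finset.card_filter_add_card_filter_not (s := s) (fun ψ => c ψ = 0)
  have hlower : ((s.filter (fun ψ => ¬ c ψ = 0)).card : ℤ) ≤ ∑ ψ ∈ s, c ψ ^ 2 := by
    rw [hsplit, Finset.card_eq_sum_ones]
    push_cast
    exact Finset.sum_le_sum hsq
  have hge : Nat.card (avoid H) ≤ (s.filter (fun ψ => ¬ c ψ = 0)).card := by omega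
  have hcast : ((∑ χ ∈ F, (m χ : ℤ) ^ 2 : ℤ)) = (W : ℤ) := by rw [hWd]; push_cast; rfl
  rw [hcast, hidx, ← he] at hnorm
  have hA : A = 0 := by
    have h1 : (e : ℤ) ≤ ∑ ψ ∈ s, c ψ ^ 2 := by
      have : (e : ℤ) ≤ ((s.filter (fun ψ => ¬ c ψ = 0)).card : ℤ) := by exact_mod_cast hk3.trans hge
      linarith
    exact arith_A hW3 (by linarith)
  subst hA
  have hS : ∑ ψ ∈ s, c ψ ^ 2 = (e : ℤ) := by
    linarith
  have hav : Nat.card (avoid H) = e := by
    have h1 : (Nat.card (avoid H) : ℤ) ≤ e := by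
      rw [← hS]
      refine le_trans ?_ hlower
      exact_mod_cast hge
    have h2 : Nat.card (avoid H) ≤ e := by exact_mod_cast h1
    omega
  have hcard : ((s.filter (fun ψ => ¬ c ψ = 0)).card : ℤ) = e := by
    apply le_antisymm
    · rw [← hS]; exact hlower
    · have := hk3.trans hge
      exact_mod_cast this
  refine ⟨F, σ, c, Φ, s, hF, hinj, hΦ, ?_, hs, ?_, ?_, ?_, ?_⟩
  · have hσv' : ∀ χ ∈ F, ∀ k : stabilizer G a, (k : G) ∈ H → k ≠ 1 → σ χ k = χ k := by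
      intro χ hχ k hk hk1
      rw [hσv χ hχ k hk hk1]; simp
    have hζF : ζ ∈ F := (hF ζ).mpr hζ
    -- the sum of `ζ`
    have hζs : ∑ x : H.subgroupOf (stabilizer G a), ζ x = 0 := by
      by_contra hne
      have h1 := hζ
      rw [FrobCoh.frob_set hC] at h1
      obtain ⟨h2, k, hk, h3⟩ := h1
      exact h3 (CfsgLib.Block.eq_one_of_sum_ne_zero (H.subgroupOf (stabilizer G a)) h2 hne k hk)
    have hsumH : ∀ f : G → ℂ, ∑ x : H.subgroupOf (stabilizer G a), f ((x : stabilizer G a) : G) = ∑ u : H, f u :=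
      fun f => Fintype.sum_equiv (Subgroup.subgroupOfEquivOfLe hHa).toEquiv _ _ (fun x => rfl)
    have hσs : ∑ u : H, σ ζ u = σ ζ 1 - ζ 1 := by
      rw [← hsumH, ← Finset.add_sum_erase Finset.univ _ (Finset.mem_univ (1 : H.subgroupOf (stabilizer G a)))]
      rw [← Finset.add_sum_erase Finset.univ _ (Finset.mem_univ (1 : H.subgroupOf (stabilizer G a)))] at hζs
      have h1 : ∀ x ∈ Finset.univ.erase (1 : H.subgroupOf (stabilizer G a)), σ ζ ((x : stabilizer G a) : G) = ζ x := by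
        intro x hx
        exact hσv' ζ hζF x x.2 (fun h => (Finset.ne_of_mem_erase hx) (Subtype.ext h))
      rw [Finset.sum_congr rfl h1]
      have h2 : (((1 : H.subgroupOf (stabilizer G a)) : stabilizer G a) : G) = 1 := rfl
      have h3 : ((1 : H.subgroupOf (stabilizer G a)) : stabilizer G a) = 1 := rfl
      rw [h2]
      rw [h3] at hζs
      linear_combination hζs
    have hζ0 : σ ζ 1 = ζ 1 := by
      by_contra hne
      have h1 : ∑ u : H, (Φ ζ : G → ℂ) u ≠ 0 := by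
        intro h0
        apply hne
        rw [← sub_eq_zero, ← hσs]
        rcases hΦ ζ hζF with h | h
        · rw [h]; exact h0
        · rw [h]
          simp only [Pi.neg_apply, Finset.sum_neg_distrib]
          rw [h0, neg_zero]
      -- `ζ` is constant on `H \ 1`
      obtain ⟨t, ht, htc⟩ : ∃ t : ℤ, (t = 0 ∨ t = 1 ∨ t = -1) ∧ ∀ k : stabilizer G a, (k : G) ∈ H → k ≠ 1 → ζ k = t := by
        obtain ⟨t₀, ht₀, h2⟩ : ∃ t : ℤ, (t = 0 ∨ t = 1) ∧ ∀ k : stabilizer G a, (k : G) ∈ H → k ≠ 1 → (Φ ζ : G → ℂ) k = t := by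
          rcases const_of_sum_ne hZ hab hodd hlt' hHa hHcard hHfix (Φ ζ) h1 with h | h
          · exact ⟨1, Or.inr rfl, fun k hk hk1 => by rw [h k hk (fun h => hk1 (Subtype.ext h))]; simp⟩
          · refine ⟨0, Or.inl rfl, fun k hk hk1 => ?_⟩
            rw [h, Pi.sub_apply, ind_one_fix (fun _ _ => rfl) (mem_stabilizer_iff.mp (hHa hk)) (hHfix k hk (fun h => hk1 (Subtype.ext h)))]
            simp
        rcases hΦ ζ hζF with h | h
        · refine ⟨t₀, by tauto, fun k hk hk1 => ?_⟩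
          rw [← h2 k hk hk1, ← h, hσv' ζ hζF k hk hk1]
        · refine ⟨-t₀, by omega, fun k hk hk1 => ?_⟩
          rw [← hσv' ζ hζF k hk hk1, h, Pi.neg_apply, h2 k hk hk1]
          push_cast; ring
      rw [← Finset.add_sum_erase Finset.univ _ (Finset.mem_univ (1 : H.subgroupOf (stabilizer G a)))] at hζs
      have h2 : ∀ x ∈ Finset.univ.erase (1 : H.subgroupOf (stabilizer G a)), ζ x = t := by
        intro x hx
        exact htc x x.2 (fun h => (Finset.ne_of_mem_erase hx) (Subtype.ext h))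
      rw [Finset.sum_congr rfl h2, Finset.sum_const, Finset.card_erase_of_mem (Finset.mem_univ _), Finset.card_univ, nsmul_eq_mul] at hζs
      have h3 : ((1 : H.subgroupOf (stabilizer G a)) : stabilizer G a) = 1 := rfl
      have h4 : Fintype.card (H.subgroupOf (stabilizer G a)) = Nat.card H := by
        rw [← Nat.card_eq_fintype_card]
        exact Nat.card_congr (Subgroup.subgroupOfEquivOfLe hHa).toEquiv
      rw [h3, hζ1, hidx, ← he, h4] at hζs
      have h5 : (e : ℤ) + ((Nat.card H - 1 : ℕ) : ℤ) * t = 0 := by exact_mod_cast hζs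
      have h6 : 2 * e < Nat.card H - 1 := by rw [he]; exact hlt
      obtain ⟨y, hy⟩ : ∃ y, y = Nat.card H - 1 := ⟨_, rfl⟩
      rw [← hy] at h5 h6
      rcases ht with rfl | rfl | rfl <;> omega
    intro χ hχ k hk
    by_cases hk1 : k = 1
    · subst hk1
      have h1 := congrFun (CNOdd4.ind_sub hζ hζ1 hm hσ hσα ((hF χ).mp hχ)) 1
      rw [indFun_one, Pi.sub_apply, Pi.smul_apply, Pi.sub_apply, Pi.smul_apply, hm χ ((hF χ).mp hχ), hζ1, smul_eq_mul, smul_eq_mul, hζ0, hζ1] at h1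
      show σ χ 1 = χ 1
      rw [hm χ ((hF χ).mp hχ)]
      linear_combination -h1
    · exact hσv' χ hχ k hk hk1
  · intro ψ hψ k hk hk1
    exact hcv ψ ((hs ψ).mp hψ) k (hHa hk) hk hk1
  · intro ψ hψ
    by_cases h0 : c ψ = 0
    · rw [h0]; norm_num
    · by_contra hcon
      push Not at hcon
      have h1 : ((s.filter (fun ψ => ¬ c ψ = 0)).card : ℤ) < ∑ ψ ∈ s.filter (fun ψ => ¬ c ψ = 0), c ψ ^ 2 := by
        rw [Finset.card_eq_sum_ones]
        push_cast
        exact Finset.sum_lt_sum hsq ⟨ψ, Finset.mem_filter.mpr ⟨hψ, h0⟩, hcon⟩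
      rw [← hsplit, hS, hcard] at h1
      exact lt_irrefl _ h1
  · rw [hS, he]
  · rw [hav, he]

end CfsgLib.H7Z
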