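import Mathlib
import Cfsg.Agent.Lib.H7ZD
import Cfsg.Agent.Lib.CharCoh8

/-!
# Zassenhaus groups of odd degree: coherence is impossible
-/

set_option autoImplicit false
set_option linter.style.haveILetI false
set_option linter.unusedSectionVars false

open MulAction Cfsg CfsgLib.CharBasic CfsgLib.CharInd CfsgLib.CharCoh
open scoped Pointwise commutatorElement ComplexConjugate

namespace CfsgLib.H7Z

universe u v

variable {G : Type u} {Ω : Type v} [Group G] [MulAction G Ω] [Fintype G] [Fintype Ω]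
variable {a b : Ω} {H : Subgroup G}

theorem two_le_E (hZ : IsZassenhausGroup G Ω) (hab : a ≠ b) : 2 ≤ Nat.card (stabilizer G a ⊓ stabilizer G b : Subgroup G) := by
  obtain ⟨x₀, hx₀, hx₀1⟩ := exists_ne_one_EE hZ hab
  have h1 : 1 < Nat.card ↥(MulAction.stabilizer G a ⊓ MulAction.stabilizer G b : Subgroup G) := by
    rw [Finite.one_lt_card_iff_nontrivial]
    exact ⟨⟨⟨x₀, hx₀⟩, 1, fun h => hx₀1 (congrArg Subtype.val h)⟩⟩
  omega

/-- product of two involutions in `H` -/
theorem pair_sq (hZ : IsZassenhausGroup G Ω) (hab : a ≠ b) [IsSimpleGroup G] (hodd : Odd (Nat.card (stabilizer G a ⊓ stabilizer G b : Subgroup G)))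
    (hHa : H ≤ stabilizer G a) (hHcard : Nat.card H + 1 = Fintype.card Ω)
    (hHfix : ∀ u ∈ H, u ≠ 1 → ∀ c : Ω, u • c = c → c = a) {x y : G} (hx : orderOf x = 2) (hy : orderOf y = 2) (hxy : x * y ∈ H) :
    (x * y) * (x * y) = 1 := by
  by_cases h1 : x * y = 1
  · rw [h1, one_mul]
  · obtain ⟨hxH, hyH⟩ := mul_inv_in_H hZ hab hodd hHa hHcard hHfix hx hy hxy h1
    have h2 := inv_central hZ hab hodd hHa hHcard hHfix hxH hx y hyH
    have hx2 := CfsgLib.Invol.mul_self_of_orderOf hx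
    have hy2 := CfsgLib.Invol.mul_self_of_orderOf hy
    calc x * y * (x * y) = x * (y * x) * y := by group
      _ = x * (x * y) * y := by rw [h2]
      _ = (x * x) * (y * y) := by group
      _ = 1 := by rw [hx2, hy2, one_mul]

theorem orderOf_conj_eq {G : Type*} [Group G] {x y : G} (h : IsConj x y) : orderOf x = orderOf y := by
  obtain ⟨g, hg⟩ := isConj_iff.mp h
  have := MulEquiv.orderOf_eq (MulAut.conj g) x
  rw [MulAut.conj_apply, hg] at this
  exact this.symm

theorem sum_zero_of_card {K : Type u} [Group K] [Fintype K] {s t : K} (h : ∀ p q : K, IsConj s p → IsConj s q → p * q ≠ t) :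
    ∑ χ : IrrCharacter K, (χ : K → ℂ) s * (χ : K → ℂ) s * conj ((χ : K → ℂ) t) / (χ : K → ℂ) 1 = 0 := by
  have h1 := card_class_mul s s t
  have h2 : Nat.card {p : K × K // IsConj s p.1 ∧ IsConj s p.2 ∧ p.1 * p.2 = t} = 0 := by
    haveI : IsEmpty {p : K × K // IsConj s p.1 ∧ IsConj s p.2 ∧ p.1 * p.2 = t} := ⟨fun p => h p.1.1 p.1.2 p.2.1 p.2.2.1 p.2.2.2⟩
    exact Nat.card_of_isEmpty
  rw [h2, Nat.cast_zero] at h1
  have h3 : (Nat.card {x : K // IsConj s x} : ℂ) ≠ 0 := by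
    have := (card_isConj_pos s).ne'
    exact_mod_cast this
  have h4 : (Nat.card K : ℂ) ≠ 0 := card_ne_zero
  have h5 := (mul_eq_zero.mp h1.symm).resolve_left (div_ne_zero (mul_ne_zero h3 h3) h4)
  exact h5

theorem even_false (hZ : IsZassenhausGroup G Ω) (hab : a ≠ b) [IsSimpleGroup G] (hodd : Odd (Nat.card (stabilizer G a ⊓ stabilizer G b : Subgroup G)))
    (hHa : H ≤ stabilizer G a) (hHcard : Nat.card H + 1 = Fintype.card Ω)
    (hHfix : ∀ u ∈ H, u ≠ 1 → ∀ c : Ω, u • c = c → c = a) (hlt : 2 * Nat.card ↥(MulAction.stabilizer G a ⊓ MulAction.stabilizer G b : Subgroup G) < Nat.card H - 1)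
    [Fintype (stabilizer G a)] [hn : (H.subgroupOf (stabilizer G a)).Normal] (hev : ¬ Even (Fintype.card Ω))
    (hcoh : IsCoherent (inducedIrrAbove (H.subgroupOf (stabilizer G a)) (⊥ : Subgroup (stabilizer G a))) {1}ᶜ (fun α => indFun (stabilizer G a) α)) : False := by
  classical
  have hC : ∀ h ∈ H.subgroupOf (stabilizer G a), h ≠ 1 → Subgroup.centralizer ({h} : Set (stabilizer G a)) ≤ H.subgroupOf (stabilizer G a) :=
    CohTI.hC_sub (fun k hk hk1 => centralizer_le_H hZ hab hHa hHcard hHfix hk hk1)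
  obtain ⟨F, σ, c, Φ, s, hF, hinj, hΦ, hσ, hs, hcv, hc1, hcs, -⟩ := coherent_data hZ hab hodd hHa hHcard hHfix hlt hcoh
  have hE2 := two_le_E hZ hab
  have hinvcard := card_inv_fix hZ hab hodd hev a
  -- an involution
  obtain ⟨t, ht⟩ : ∃ t : G, t ∈ Finset.univ.filter (fun x : G => orderOf x = 2 ∧ x • a = a) := by
    have : 0 < (Finset.univ.filter (fun x : G => orderOf x = 2 ∧ x • a = a)).card := by rw [hinvcard]; omega
    exact (Finset.card_pos.mp this)
  rw [Finset.mem_filter] at ht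
  obtain ⟨-, ht2, hta⟩ := ht
  have htH : t ∈ H := mem_H_of_inv hZ hab hodd hHa hHcard hHfix ht2 hta
  have ht1 : t ≠ 1 := by
    rintro rfl
    rw [orderOf_one] at ht2
    omega
  -- a non-involution
  obtain ⟨u, huH, hu2⟩ : ∃ u ∈ H, u * u ≠ 1 := by
    by_contra hcon
    push Not at hcon
    have h1 : Nat.card H ≤ (insert (1 : G) (Finset.univ.filter (fun x : G => orderOf x = 2 ∧ x • a = a))).card := by
      have h2 : Nat.card H = (Finset.univ.filter (fun x : G => x ∈ H)).card := by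
        rw [Nat.card_eq_fintype_card, Fintype.card_subtype]
      rw [h2]
      apply Finset.card_le_card
      intro x hx
      rw [Finset.mem_filter] at hx
      rw [Finset.mem_insert, Finset.mem_filter]
      by_cases hx1 : x = 1
      · exact Or.inl hx1
      · right
        refine ⟨Finset.mem_univ _, ?_, mem_stabilizer_iff.mp (hHa hx.2)⟩
        exact orderOf_eq_prime (by rw [sq]; exact hcon x hx.2) hx1
    have h2 := Finset.card_insert_le (1 : G) (Finset.univ.filter (fun x : G => orderOf x = 2 ∧ x • a = a))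
    rw [hinvcard] at h2
    omega
  have hu1 : u ≠ 1 := by
    rintro rfl
    exact hu2 (one_mul _)
  -- structure constants
  have hG0 := sum_zero_of_card (K := G) (s := t) (t := u) (by
    intro p q hp hq hpq
    apply hu2
    rw [← hpq]
    exact pair_sq hZ hab hodd hHa hHcard hHfix (by rw [← orderOf_conj_eq hp, ht2]) (by rw [← orderOf_conj_eq hq, ht2]) (by rw [hpq]; exact huH))
  have hN0 := sum_zero_of_card (K := stabilizer G a) (s := ⟨t, hHa htH⟩) (t := ⟨u, hHa huH⟩) (by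
    intro p q hp hq hpq
    apply hu2
    have hpq' : (p : G) * q = u := congrArg Subtype.val hpq
    have hp2 : orderOf (p : G) = 2 := by rw [Subgroup.orderOf_coe, ← orderOf_conj_eq hp, ← Subgroup.orderOf_coe]; exact ht2
    have hq2 : orderOf (q : G) = 2 := by rw [Subgroup.orderOf_coe, ← orderOf_conj_eq hq, ← Subgroup.orderOf_coe]; exact ht2
    rw [← hpq']
    exact pair_sq hZ hab hodd hHa hHcard hHfix hp2 hq2 (by rw [hpq']; exact huH))
  -- the sum over `N`
  have hset := FrobCoh.frob_set hC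
  rw [← Finset.sum_filter_add_sum_filter_not Finset.univ (fun χ : IrrCharacter (stabilizer G a) => ∀ n ∈ H.subgroupOf (stabilizer G a), (χ : stabilizer G a → ℂ) n = (χ : stabilizer G a → ℂ) 1)] at hN0
  have hN1 := sum_irr_quot (H.subgroupOf (stabilizer G a))
  have hN2 : ∑ χ ∈ Finset.univ.filter (fun χ : IrrCharacter (stabilizer G a) => ∀ n ∈ H.subgroupOf (stabilizer G a), (χ : stabilizer G a → ℂ) n = (χ : stabilizer G a → ℂ) 1),
      (χ : stabilizer G a → ℂ) ⟨t, hHa htH⟩ * (χ : stabilizer G a → ℂ) ⟨t, hHa htH⟩ * conj ((χ : stabilizer G a → ℂ) ⟨u, hHa huH⟩) / (χ : stabilizer G a → ℂ) 1 =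
      (Nat.card (stabilizer G a ⊓ stabilizer G b : Subgroup G) : ℂ) := by
    rw [← idx_H hZ hab hHa hHcard, ← hN1]
    refine Finset.sum_congr rfl fun χ hχ => ?_
    rw [Finset.mem_filter] at hχ
    rw [hχ.2 ⟨t, hHa htH⟩ htH, hχ.2 ⟨u, hHa huH⟩ huH]
    obtain ⟨n, hn0, hn1⟩ := IsIrrCharacter.exists_pos χ.2
    rw [hn1]
    have : (n : ℂ) ≠ 0 := by exact_mod_cast hn0.ne'
    simp only [map_natCast]
    field_simp
  rw [hN2] at hN0
  have hN3 : ∑ χ ∈ Finset.univ.filter (fun χ : IrrCharacter (stabilizer G a) => ¬ ∀ n ∈ H.subgroupOf (stabilizer G a), (χ : stabilizer G a → ℂ) n = (χ : stabilizer G a → ℂ) 1),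
      (χ : stabilizer G a → ℂ) ⟨t, hHa htH⟩ * (χ : stabilizer G a → ℂ) ⟨t, hHa htH⟩ * conj ((χ : stabilizer G a → ℂ) ⟨u, hHa huH⟩) / (χ : stabilizer G a → ℂ) 1 =
      ∑ χ ∈ F, χ ⟨t, hHa htH⟩ * χ ⟨t, hHa htH⟩ * conj (χ ⟨u, hHa huH⟩) / χ 1 := by
    refine Finset.sum_bij (fun χ _ => (χ : stabilizer G a → ℂ)) ?_ ?_ ?_ ?_
    · intro χ hχ
      rw [Finset.mem_filter] at hχ
      rw [hF, hset]
      refine ⟨χ.2, ?_⟩
      have h1 := hχ.2
      push Not at h1
      exact h1
    · intro χ _ χ' _ h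
      exact Subtype.ext h
    · intro χ hχ
      rw [hF, hset] at hχ
      refine ⟨⟨χ, hχ.1⟩, ?_, rfl⟩
      rw [Finset.mem_filter]
      refine ⟨Finset.mem_univ _, ?_⟩
      push Not
      exact hχ.2
    · intro χ _
      rfl
  rw [hN3] at hN0
  -- the sum over `G`
  have hun : (Finset.univ : Finset (IrrCharacter G)) = s ∪ F.image Φ := by
    ext ψ
    rw [Finset.mem_union, hs, Finset.mem_image]
    constructor
    · intro _
      by_cases h : ∀ χ ∈ F, Φ χ ≠ ψ
      · exact Or.inl h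
      · push Not at h
        exact Or.inr h
    · intro _
      exact Finset.mem_univ _
  have hdj : Disjoint s (F.image Φ) := by
    rw [Finset.disjoint_left]
    intro ψ hψ hψ'
    rw [Finset.mem_image] at hψ'
    obtain ⟨χ, hχ, he⟩ := hψ'
    exact (hs ψ).mp hψ χ hχ he
  rw [hun, Finset.sum_union hdj, Finset.sum_image hinj] at hG0
  have hG1 : ∀ χ ∈ F, (Φ χ : G → ℂ) t * (Φ χ : G → ℂ) t * conj ((Φ χ : G → ℂ) u) / (Φ χ : G → ℂ) 1 =
      χ ⟨t, hHa htH⟩ * χ ⟨t, hHa htH⟩ * conj (χ ⟨u, hHa huH⟩) / χ 1 := by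
    intro χ hχ
    rw [← hσ χ hχ ⟨t, hHa htH⟩ htH, ← hσ χ hχ ⟨u, hHa huH⟩ huH, ← hσ χ hχ 1 (one_mem _)]
    rcases hΦ χ hχ with h | h
    · rw [h]; rfl
    · rw [h]
      simp only [Pi.neg_apply, map_neg]
      have h2 : (((1 : stabilizer G a)) : G) = 1 := rfl
      rw [h2]
      rw [neg_mul_neg, mul_neg, neg_div_neg_eq]
  rw [Finset.sum_congr rfl hG1] at hG0
  have hG2 : ∑ ψ ∈ s, (ψ : G → ℂ) t * (ψ : G → ℂ) t * conj ((ψ : G → ℂ) u) / (ψ : G → ℂ) 1 =
      (Nat.card (stabilizer G a ⊓ stabilizer G b : Subgroup G) : ℂ) := by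
    linear_combination hG0 - hN0
  have hd : ∀ ψ : IrrCharacter G, ∃ n : ℕ, 0 < n ∧ (ψ : G → ℂ) 1 = n := fun ψ => IsIrrCharacter.exists_pos ψ.2
  choose d hd0 hd1 using hd
  have hG3 : ∑ ψ ∈ s, ((c ψ : ℝ) ^ 3 / (d ψ : ℝ)) = (Nat.card (stabilizer G a ⊓ stabilizer G b : Subgroup G) : ℝ) := by
    have h1 : ∀ ψ ∈ s, (ψ : G → ℂ) t * (ψ : G → ℂ) t * conj ((ψ : G → ℂ) u) / (ψ : G → ℂ) 1 = (((c ψ : ℝ) ^ 3 / (d ψ : ℝ) : ℝ) : ℂ) := by
      intro ψ hψ
      rw [hcv ψ hψ t htH ht1, hcv ψ hψ u huH hu1, hd1]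
      push_cast
      simp only [map_intCast]
      ring
    rw [Finset.sum_congr rfl h1] at hG2
    exact_mod_cast hG2
  -- nontrivial characters have degree at least two
  have hcomm : commutator G = ⊤ := by
    rcases IsSimpleGroup.eq_bot_or_eq_top_of_normal (commutator G) inferInstance with h | h
    · exfalso
      apply not_comm hZ hab
      intro x y
      have : ⁅x, y⁆ ∈ commutator G := Subgroup.commutator_mem_commutator (Subgroup.mem_top x) (Subgroup.mem_top y)
      rw [h, Subgroup.mem_bot, commutatorElement_eq_one_iff_mul_comm] at this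
      exact this
    · exact h
  have hdeg : ∀ ψ : IrrCharacter G, ψ ≠ irrOne G → 2 ≤ d ψ := by
    intro ψ hψ
    by_contra hcon
    have h1 : d ψ = 1 := by have := hd0 ψ; omega
    have h2 : (ψ : G → ℂ) 1 = 1 := by rw [hd1, h1]; simp
    apply hψ
    apply Subtype.ext
    funext g
    rw [IsCharacter.eq_one_of_mem_commutator (IsIrrCharacter.isCharacter ψ.2) h2 (by rw [hcomm]; exact Subgroup.mem_top g)]
    rfl
  have hbound : ∀ ψ ∈ s, (c ψ : ℝ) ^ 3 / (d ψ : ℝ) ≤ (c ψ : ℝ) ^ 2 / 2 + (if ψ = irrOne G then 1 / 2 else 0) := by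
    intro ψ hψ
    have h1 := hc1 ψ hψ
    have h2 : c ψ = 0 ∨ c ψ = 1 ∨ c ψ = -1 := by
      have : c ψ ≤ 1 := by nlinarith
      have : -1 ≤ c ψ := by nlinarith
      omega
    have h3 : (0 : ℝ) < d ψ := by exact_mod_cast hd0 ψ
    split_ifs with h4
    · rcases h2 with h | h | h <;> rw [h]
      · norm_num
      · have h5 : (1 : ℝ) ≤ d ψ := by exact_mod_cast hd0 ψ
        push_cast
        have : (1 : ℝ) ^ 3 / d ψ ≤ 1 := by
          rw [one_pow, div_le_one h3]; exact h5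
        linarith
      · push_cast
        have : (-1 : ℝ) ^ 3 / d ψ ≤ 0 := by
          apply div_nonpos_of_nonpos_of_nonneg
          · norm_num
          · exact h3.le
        linarith
    · have h5 : (2 : ℝ) ≤ d ψ := by exact_mod_cast hdeg ψ h4
      rcases h2 with h | h | h <;> rw [h]
      · norm_num
      · push_cast
        have : (1 : ℝ) ^ 3 / d ψ ≤ 1 / 2 := by
          rw [one_pow]
          exact one_div_le_one_div_of_le (by norm_num) h5
        linarith
      · push_cast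
        have : (-1 : ℝ) ^ 3 / d ψ ≤ 0 := by
          apply div_nonpos_of_nonpos_of_nonneg
          · norm_num
          · exact h3.le
        linarith
  have hfin := Finset.sum_le_sum hbound
  rw [hG3, Finset.sum_add_distrib, ← Finset.sum_div] at hfin
  have h5 : ∑ ψ ∈ s, (c ψ : ℝ) ^ 2 = (Nat.card (stabilizer G a ⊓ stabilizer G b : Subgroup G) : ℝ) := by exact_mod_cast hcs
  rw [h5] at hfin
  have h6 : ∑ ψ ∈ s, (if ψ = irrOne G then (1 / 2 : ℝ) else 0) ≤ 1 / 2 := by
    rw [Finset.sum_ite_eq' s (irrOne G) (fun _ => (1 / 2 : ℝ))]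
    split_ifs <;> norm_num
  have h7 : (2 : ℝ) ≤ (Nat.card (stabilizer G a ⊓ stabilizer G b : Subgroup G) : ℝ) := by exact_mod_cast hE2
  linarith

end CfsgLib.H7Z
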