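import Mathlib
import Cfsg.Agent.Lib.H7ZD

/-!
# Zassenhaus groups of even degree: many involutions commute
-/

set_option autoImplicit false
set_option linter.style.haveILetI false
set_option linter.unusedSectionVars false

open MulAction Cfsg CfsgLib.CharBasic
open scoped Pointwise commutatorElement

namespace CfsgLib.H7Z

universe u v

/-- a group in which more than three quarters of the elements have square one is elementary abelian -/
theorem sq_of_three_quarters {K : Type u} [Group K] [Fintype K] [DecidableEq K]
    (h : 3 * Nat.card K < 4 * (Finset.univ.filter (fun x : K => x * x = 1)).card) : (∀ x : K, x * x = 1) ∧ ∀ x y : K, x * y = y * x := by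
  classical
  have hK : Nat.card K = (Finset.univ : Finset K).card := by rw [Nat.card_eq_fintype_card, Finset.card_univ]
  have hbig : ∀ S : Subgroup K, Nat.card K < 2 * Nat.card S → S = ⊤ := by
    intro S hS
    rw [← Subgroup.index_eq_one]
    have h1 := S.card_mul_index
    have h2 : 0 < Nat.card S := Nat.card_pos
    rw [← h1, mul_comm] at hS
    have h3 := Nat.lt_of_mul_lt_mul_right hS
    have h4 : S.index ≠ 0 := Subgroup.index_ne_zero_of_finite
    omega
  have hfc : ∀ (S : Subgroup K) (A : Finset K), (∀ x ∈ A, x ∈ S) → A.card ≤ Nat.card S := by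
    intro S A hA
    rw [← Fintype.card_coe, ← Nat.card_eq_fintype_card]
    exact Nat.card_le_card_of_injective (fun x : A => (⟨x.1, hA x.1 x.2⟩ : S)) (fun x y hxy => Subtype.ext (congrArg (fun z : S => (z : K)) hxy))
  have hcen : ∀ x : K, x * x = 1 → ∀ y : K, x * y = y * x := by
    intro x hx
    have h1 : Nat.card K < 2 * Nat.card (Subgroup.centralizer ({x} : Set K)) := by
      have h2 : ((Finset.univ.filter (fun y : K => y * y = 1)) ∩ (Finset.univ.filter (fun y : K => (x * y) * (x * y) = 1))).card ≤
          Nat.card (Subgroup.centralizer ({x} : Set K)) := by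
        apply hfc
        intro y hy
        rw [Finset.mem_inter, Finset.mem_filter, Finset.mem_filter] at hy
        rw [Subgroup.mem_centralizer_singleton_iff]
        have e1 : x⁻¹ = x := inv_eq_of_mul_eq_one_left hx
        have e2 : y⁻¹ = y := inv_eq_of_mul_eq_one_left hy.1.2
        have e3 : (x * y)⁻¹ = x * y := inv_eq_of_mul_eq_one_left hy.2.2
        rw [mul_inv_rev, e1, e2] at e3
        exact e3
      have h3 : (Finset.univ.filter (fun y : K => (x * y) * (x * y) = 1)).card = (Finset.univ.filter (fun y : K => y * y = 1)).card := by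
        apply Finset.card_bij (fun y _ => x * y)
        · intro y hy
          rw [Finset.mem_filter] at hy ⊢
          exact ⟨Finset.mem_univ _, hy.2⟩
        · intro y _ z _ hyz
          exact mul_left_cancel hyz
        · intro z hz
          refine ⟨x⁻¹ * z, ?_, by group⟩
          rw [Finset.mem_filter] at hz ⊢
          refine ⟨Finset.mem_univ _, ?_⟩
          rw [mul_inv_cancel_left]
          exact hz.2
      have h4 := Finset.card_union_add_card_inter (Finset.univ.filter (fun y : K => y * y = 1)) (Finset.univ.filter (fun y : K => (x * y) * (x * y) = 1))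
      have h5 : ((Finset.univ.filter (fun y : K => y * y = 1)) ∪ (Finset.univ.filter (fun y : K => (x * y) * (x * y) = 1))).card ≤ Nat.card K := by
        rw [hK]
        exact Finset.card_le_card (Finset.subset_univ _)
      omega
    have h2 := hbig _ h1
    intro y
    have h3 : y ∈ Subgroup.centralizer ({x} : Set K) := by rw [h2]; exact Subgroup.mem_top y
    rw [Subgroup.mem_centralizer_singleton_iff] at h3
    exact h3.symm
  have hcenter : Subgroup.center K = ⊤ := by
    apply hbig
    have h1 : (Finset.univ.filter (fun x : K => x * x = 1)).card ≤ Nat.card (Subgroup.center K) := by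
      apply hfc
      intro x hx
      rw [Finset.mem_filter] at hx
      rw [Subgroup.mem_center_iff]
      intro y
      exact (hcen x hx.2 y).symm
    omega
  have hcomm : ∀ x y : K, x * y = y * x := by
    intro x y
    have : y ∈ Subgroup.center K := by rw [hcenter]; exact Subgroup.mem_top y
    exact Subgroup.mem_center_iff.mp this x
  refine ⟨?_, hcomm⟩
  obtain ⟨T, hT⟩ : ∃ T : Subgroup K, ∀ x, x ∈ T ↔ x * x = 1 := by
    refine ⟨{ carrier := {x | x * x = 1}, mul_mem' := ?_, one_mem' := one_mul _, inv_mem' := ?_ }, fun x => Iff.rfl⟩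
    · intro x y hx hy
      show x * y * (x * y) = 1
      have hx : x * x = 1 := hx
      have hy : y * y = 1 := hy
      calc x * y * (x * y) = x * (y * x) * y := by group
        _ = x * (x * y) * y := by rw [hcomm y x]
        _ = (x * x) * (y * y) := by group
        _ = 1 := by rw [hx, hy, one_mul]
    · intro x hx
      show x⁻¹ * x⁻¹ = 1
      have hx : x * x = 1 := hx
      rw [← mul_inv_rev, hx, inv_one]
  have hTt : T = ⊤ := by
    apply hbig
    have h1 : (Finset.univ.filter (fun x : K => x * x = 1)).card ≤ Nat.card T := by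
      apply hfc
      intro x hx
      rw [Finset.mem_filter] at hx
      exact (hT x).mpr hx.2
    omega
  intro x
  rw [← hT, hTt]
  exact Subgroup.mem_top x

variable {G : Type u} {Ω : Type v} [Group G] [MulAction G Ω] [Fintype G] [Fintype Ω]
variable {a b : Ω} {H : Subgroup G}

/-- the final contradiction: all involution centralizers elementary abelian -/
theorem ti_false {G : Type u} [Group G] [Fintype G] {e h : ℕ} (h2 : 2 ≤ e) (hlt : 2 * e < h - 1) (hI : Nat.card {x : G // orderOf x = 2} = e * h)
    (hcard : ∀ z : G, orderOf z = 2 → Nat.card (Subgroup.centralizer ({z} : Set G)) = h + 1)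
    (hsq : ∀ z : G, orderOf z = 2 → ∀ x ∈ Subgroup.centralizer ({z} : Set G), x * x = 1)
    (hcomm : ∀ z : G, orderOf z = 2 → ∀ x ∈ Subgroup.centralizer ({z} : Set G), ∀ y ∈ Subgroup.centralizer ({z} : Set G), x * y = y * x) : False := by
  classical
  have hpos : 0 < e * h := Nat.mul_pos (by omega) (by omega)
  have hmemc : ∀ z : G, z ∈ Subgroup.centralizer ({z} : Set G) := fun z => Subgroup.mem_centralizer_singleton_iff.mpr rfl
  have hord : ∀ z : G, orderOf z = 2 → ∀ x ∈ Subgroup.centralizer ({z} : Set G), x ≠ 1 → orderOf x = 2 := by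
    intro z hz x hx hx1
    exact orderOf_eq_prime (by rw [sq]; exact hsq z hz x hx) hx1
  have hC : ∀ z w : G, orderOf z = 2 → w ∈ Subgroup.centralizer ({z} : Set G) → w ≠ 1 → Subgroup.centralizer ({w} : Set G) = Subgroup.centralizer ({z} : Set G) := by
    intro z w hz hw hw1
    symm
    apply Subgroup.eq_of_le_of_card_ge
    · intro x hx
      rw [Subgroup.mem_centralizer_singleton_iff]
      exact hcomm z hz x hx w hw
    · rw [hcard z hz, hcard w (hord z hz w hw hw1)]
  haveI : Nonempty {x : G // orderOf x = 2} := Finite.card_pos_iff.mp (by rw [hI]; exact hpos)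
  obtain ⟨⟨s, hs⟩⟩ := (inferInstance : Nonempty {x : G // orderOf x = 2})
  -- an involution outside `C(s)`
  obtain ⟨t, ht, hts⟩ : ∃ t : G, orderOf t = 2 ∧ t ∉ Subgroup.centralizer ({s} : Set G) := by
    by_contra hcon
    push Not at hcon
    have h1 : Nat.card {x : G // orderOf x = 2} ≤ Nat.card (Subgroup.centralizer ({s} : Set G)) :=
      Nat.card_le_card_of_injective (fun x => (⟨x.1, hcon x.1 x.2⟩ : Subgroup.centralizer ({s} : Set G))) (fun x y hxy => Subtype.ext (congrArg (fun z : Subgroup.centralizer ({s} : Set G) => (z : G)) hxy))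
    rw [hI, hcard s hs] at h1
    have := Nat.mul_le_mul_right h h2
    omega
  have hint : ∀ y, y ∈ Subgroup.centralizer ({s} : Set G) → y ∈ Subgroup.centralizer ({t} : Set G) → y = 1 := by
    intro y hys hyt
    by_contra hy1
    apply hts
    rw [← hC s y hs hys hy1, hC t y ht hyt hy1]
    exact hmemc t
  -- the counting map
  have hinj : Function.Injective (fun p : Subgroup.centralizer ({s} : Set G) × {x : Subgroup.centralizer ({t} : Set G) // x ≠ 1} =>
      (⟨(p.1 : G) * ((p.2 : Subgroup.centralizer ({t} : Set G)) : G) * (p.1 : G)⁻¹, by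
        have := MulEquiv.orderOf_eq (MulAut.conj (p.1 : G)) ((p.2 : Subgroup.centralizer ({t} : Set G)) : G)
        rw [MulAut.conj_apply] at this
        rw [this]
        exact hord t ht _ (p.2 : Subgroup.centralizer ({t} : Set G)).2 (fun h => p.2.2 (Subtype.ext h))⟩ : {x : G // orderOf x = 2})) := by
    rintro ⟨⟨g, hg⟩, ⟨⟨x, hx⟩, hx1⟩⟩ ⟨⟨g', hg'⟩, ⟨⟨x', hx'⟩, hx1'⟩⟩ heq
    have heq : g * x * g⁻¹ = g' * x' * g'⁻¹ := congrArg Subtype.val heq
    have hx1 : x ≠ 1 := fun h => hx1 (Subtype.ext h)
    have hx1' : x' ≠ 1 := fun h => hx1' (Subtype.ext h)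
    obtain ⟨y, hy⟩ : ∃ y, y = g'⁻¹ * g := ⟨_, rfl⟩
    have hyT : y ∈ Subgroup.centralizer ({s} : Set G) := by rw [hy]; exact mul_mem (inv_mem hg') hg
    have hyx : y * x * y⁻¹ = x' := by
      rw [hy]
      calc g'⁻¹ * g * x * (g'⁻¹ * g)⁻¹ = g'⁻¹ * (g * x * g⁻¹) * g' := by group
        _ = g'⁻¹ * (g' * x' * g'⁻¹) * g' := by rw [heq]
        _ = x' := by group
    have hyy : y * y = 1 := hsq s hs y hyT
    have hyi : y⁻¹ = y := inv_eq_of_mul_eq_one_left hyy
    have hyx' : y * x' * y⁻¹ = x := by
      rw [← hyx, hyi]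
      calc y * (y * x * y) * y = (y * y) * x * (y * y) := by group
        _ = x := by rw [hyy, one_mul, mul_one]
    -- a fixed element
    obtain ⟨w, hw, hw1, hyw⟩ : ∃ w ∈ Subgroup.centralizer ({t} : Set G), w ≠ 1 ∧ y * w * y⁻¹ = w := by
      by_cases hxx : x = x'
      · exact ⟨x, hx, hx1, by rw [hyx, hxx]⟩
      · refine ⟨x * x', mul_mem hx hx', ?_, ?_⟩
        · intro h
          apply hxx
          have h3 : x'⁻¹ = x' := inv_eq_of_mul_eq_one_left (hsq t ht x' hx')
          rw [mul_eq_one_iff_eq_inv, h3] at h
          exact h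
        · calc y * (x * x') * y⁻¹ = (y * x * y⁻¹) * (y * x' * y⁻¹) := by group
            _ = x' * x := by rw [hyx, hyx']
            _ = x * x' := hcomm t ht x' hx' x hx
    have hyt : y ∈ Subgroup.centralizer ({t} : Set G) := by
      rw [← hC t w ht hw hw1, Subgroup.mem_centralizer_singleton_iff]
      exact mul_inv_eq_iff_eq_mul.mp hyw
    have hy1 := hint y hyT hyt
    have hgg : g = g' := by
      rw [hy1] at hy
      exact (inv_mul_eq_one.mp hy.symm).symm
    have hxx : x = x' := by rw [← hyx, hy1]; group
    subst hgg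
    subst hxx
    rfl
  have h1 := Nat.card_le_card_of_injective _ hinj
  have h3 : Nat.card {x : Subgroup.centralizer ({t} : Set G) // x ≠ 1} = h := by
    have h4 : Nat.card {x : Subgroup.centralizer ({t} : Set G) // x ≠ 1} = Nat.card (Subgroup.centralizer ({t} : Set G)) - 1 := by
      rw [Nat.card_eq_fintype_card, Nat.card_eq_fintype_card, Fintype.card_subtype_compl, Fintype.card_subtype_eq]
    rw [h4, hcard t ht, Nat.add_sub_cancel]
  rw [Nat.card_prod, h3, hI, hcard s hs] at h1
  have h5 := Nat.le_of_mul_le_mul_right h1 (by omega)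
  omega

end CfsgLib.H7Z
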