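import Mathlib
import Cfsg.Agent.Lib.H7ZE
import Cfsg.Agent.Lib.H7ZF

/-!
# Zassenhaus groups of even degree: coherence is impossible
-/

set_option autoImplicit false
set_option linter.style.haveILetI false
set_option linter.unusedSectionVars false

open MulAction Cfsg CfsgLib.CharBasic CfsgLib.CharInd
open scoped Pointwise commutatorElement

namespace CfsgLib.H7Z

universe u v

variable {G : Type u} {Ω : Type v} [Group G] [MulAction G Ω] [Fintype G] [Fintype Ω]
variable {a b : Ω} {H : Subgroup G}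

open Classical in
/-- the number of `x` with `x ^ 2 = 1` commuting with `z` -/
noncomputable def sqCent {G : Type u} [Group G] [Fintype G] (z : G) : ℕ := (Finset.univ.filter (fun x : G => x * x = 1 ∧ x * z = z * x)).card

theorem sqCent_conj {G : Type u} [Group G] [Fintype G] {y z : G} (h : IsConj y z) : sqCent y = sqCent z := by
  classical
  obtain ⟨g, rfl⟩ := isConj_iff.mp h
  rw [sqCent, sqCent]
  apply Finset.card_bij (fun x _ => g * x * g⁻¹)
  · intro x hx
    rw [Finset.mem_filter] at hx ⊢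
    refine ⟨Finset.mem_univ _, ?_, ?_⟩
    · calc g * x * g⁻¹ * (g * x * g⁻¹) = g * (x * x) * g⁻¹ := by group
        _ = 1 := by rw [hx.2.1]; group
    · calc g * x * g⁻¹ * (g * y * g⁻¹) = g * (x * y) * g⁻¹ := by group
        _ = g * (y * x) * g⁻¹ := by rw [hx.2.2]
        _ = g * y * g⁻¹ * (g * x * g⁻¹) := by group
  · intro x _ x' _ hxx
    exact mul_left_cancel (mul_right_cancel hxx)
  · intro w hw
    refine ⟨g⁻¹ * w * g, ?_, by group⟩
    rw [Finset.mem_filter] at hw ⊢
    refine ⟨Finset.mem_univ _, ?_, ?_⟩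
    · calc g⁻¹ * w * g * (g⁻¹ * w * g) = g⁻¹ * (w * w) * g := by group
        _ = 1 := by rw [hw.2.1]; group
    · calc g⁻¹ * w * g * y = g⁻¹ * (w * (g * y * g⁻¹)) * g := by group
        _ = g⁻¹ * (g * y * g⁻¹ * w) * g := by rw [hw.2.2]
        _ = y * (g⁻¹ * w * g) := by group

open Classical in
theorem fiber_le {G : Type u} [Group G] [Fintype G] {z : G} (hz : orderOf z = 2) :
    (Finset.univ.filter (fun p : G × G => orderOf p.1 = 2 ∧ orderOf p.2 = 2 ∧ p.1 * p.2 = z)).card + 2 ≤ sqCent z := by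
  have hz2 := CfsgLib.Invol.mul_self_of_orderOf hz
  have hz1 : z ≠ 1 := by
    rintro rfl
    rw [orderOf_one] at hz
    omega
  have h1 : (Finset.univ.filter (fun p : G × G => orderOf p.1 = 2 ∧ orderOf p.2 = 2 ∧ p.1 * p.2 = z)).card ≤
      (((Finset.univ.filter (fun x : G => x * x = 1 ∧ x * z = z * x)).erase 1).erase z).card := by
    refine Finset.card_le_card_of_injOn (fun p => p.1) ?_ ?_
    · rintro ⟨x, y⟩ hp
      rw [Finset.mem_coe, Finset.mem_filter] at hp
      obtain ⟨-, hx, hy, hxy⟩ := hp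
      simp only at hx hy hxy
      have hx2 := CfsgLib.Invol.mul_self_of_orderOf hx
      have hy2 := CfsgLib.Invol.mul_self_of_orderOf hy
      rw [Finset.mem_coe, Finset.mem_erase, Finset.mem_erase, Finset.mem_filter]
      refine ⟨?_, ?_, Finset.mem_univ _, hx2, ?_⟩
      · intro h
        have h : x = z := h
        rw [h] at hxy
        have : y = 1 := mul_left_cancel (hxy.trans (mul_one z).symm)
        rw [this, orderOf_one] at hy
        omega
      · intro h
        have h : x = 1 := h
        rw [h, orderOf_one] at hx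
        omega
      · show x * z = z * x
        have e1 : y = x * z := by rw [← hxy, ← mul_assoc, hx2, one_mul]
        have e2 : x * z * (x * z) = 1 := by rw [← e1]; exact hy2
        have e3 : (x * z)⁻¹ = x * z := inv_eq_of_mul_eq_one_left e2
        rw [mul_inv_rev, inv_eq_of_mul_eq_one_left hx2, inv_eq_of_mul_eq_one_left hz2] at e3
        exact e3.symm
    · rintro ⟨x, y⟩ hp ⟨x', y'⟩ hp' heq
      rw [Finset.mem_coe, Finset.mem_filter] at hp hp'
      have heq : x = x' := heq
      have h3 : x * y = x' * y' := hp.2.2.2.trans hp'.2.2.2.symm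
      rw [heq] at h3
      exact Prod.ext heq (mul_left_cancel h3)
  have h2 : z ∈ (Finset.univ.filter (fun x : G => x * x = 1 ∧ x * z = z * x)).erase 1 := by
    rw [Finset.mem_erase, Finset.mem_filter]
    exact ⟨hz1, Finset.mem_univ _, hz2, rfl⟩
  have h3 : (1 : G) ∈ Finset.univ.filter (fun x : G => x * x = 1 ∧ x * z = z * x) := by
    rw [Finset.mem_filter]
    exact ⟨Finset.mem_univ _, one_mul _, by rw [one_mul, mul_one]⟩
  have h4 := Finset.card_erase_add_one h2
  have h5 := Finset.card_erase_add_one h3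
  rw [sqCent]
  omega

open Classical in
theorem sqCent_bound (hZ : IsZassenhausGroup G Ω) (hab : a ≠ b) [IsSimpleGroup G] (hodd : Odd (Nat.card (stabilizer G a ⊓ stabilizer G b : Subgroup G)))
    (hHa : H ≤ stabilizer G a) (hHcard : Nat.card H + 1 = Fintype.card Ω)
    (hHfix : ∀ u ∈ H, u ≠ 1 → ∀ c : Ω, u • c = c → c = a) (hev : Even (Fintype.card Ω))
    (hav : Nat.card (avoid H) = Nat.card (stabilizer G a ⊓ stabilizer G b : Subgroup G)) {s : G} (hs : orderOf s = 2) :
    Nat.card H + 2 ≤ sqCent s + Nat.card (stabilizer G a ⊓ stabilizer G b : Subgroup G) := by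
  have hsav : ConjClasses.mk s ∈ avoid H := by
    intro g hg hgH
    have h1 : orderOf g = 2 := by rw [orderOf_conj_eq (ConjClasses.mk_eq_mk_iff_isConj.mp hg), hs]
    have h2 := kf_inv hZ hab hodd h1
    rw [if_pos hev, kf_eq_zero] at h2
    exact h2 a (hHa hgH)
  obtain ⟨S, hS⟩ : ∃ S : Set (ConjClasses G), S = avoid H \ {ConjClasses.mk s} := ⟨_, rfl⟩
  have h1 := card_pairs_le (G := G) S
  have h2 := card_pairs_H hZ hab hodd hHa hHcard hHfix
  have hI : Nat.card {x : G // orderOf x = 2} = (Finset.univ.filter (fun x : G => orderOf x = 2)).card := by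
    rw [Nat.card_eq_fintype_card, Fintype.card_subtype]
  have hcav : Nat.card S + 1 = Nat.card (stabilizer G a ⊓ stabilizer G b : Subgroup G) := by
    rw [← hav, hS, Nat.card_coe_set_eq, Nat.card_coe_set_eq]
    exact Set.ncard_diff_singleton_add_one hsav (Set.toFinite _)
  -- the pairs with involutory product
  obtain ⟨A, hA⟩ : ∃ A, A = Finset.univ.filter (fun p : G × G => orderOf p.1 = 2 ∧ orderOf p.2 = 2 ∧ ConjClasses.mk (p.1 * p.2) = ConjClasses.mk s) := ⟨_, rfl⟩
  have hA1 : A.card + 2 * Nat.card {x : G // orderOf x = 2} ≤ Nat.card {x : G // orderOf x = 2} * sqCent s := by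
    have h3 : A.card = ∑ z ∈ Finset.univ.filter (fun x : G => orderOf x = 2), (A.filter (fun p => p.1 * p.2 = z)).card := by
      apply Finset.card_eq_sum_card_fiberwise
      intro p hp
      rw [Finset.mem_coe, hA, Finset.mem_filter] at hp
      rw [Finset.mem_coe, Finset.mem_filter]
      refine ⟨Finset.mem_univ _, ?_⟩
      rw [orderOf_conj_eq (ConjClasses.mk_eq_mk_iff_isConj.mp hp.2.2.2), hs]
    have h4 : ∀ z ∈ Finset.univ.filter (fun x : G => orderOf x = 2), (A.filter (fun p => p.1 * p.2 = z)).card + 2 ≤ sqCent s := by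
      intro z hz
      rw [Finset.mem_filter] at hz
      rw [sqCent_conj (inv_conj hZ hab hodd hs hz.2)]
      refine le_trans (Nat.add_le_add_right (Finset.card_le_card ?_) 2) (fiber_le hz.2)
      intro p hp
      rw [Finset.mem_filter, hA, Finset.mem_filter] at hp
      rw [Finset.mem_filter]
      exact ⟨Finset.mem_univ _, hp.1.2.1, hp.1.2.2.1, hp.2⟩
    have h5 := Finset.sum_le_sum h4
    rw [Finset.sum_add_distrib, ← h3, Finset.sum_const, Finset.sum_const, smul_eq_mul, smul_eq_mul, ← hI] at h5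
    rw [mul_comm 2]
    exact h5
  -- all pairs
  have h3 : (Finset.univ.filter (fun p : G × G => orderOf p.1 = 2 ∧ orderOf p.2 = 2 ∧ ConjClasses.mk (p.1 * p.2) ∈ S)).card + A.card +
      (Finset.univ.filter (fun p : G × G => orderOf p.1 = 2 ∧ orderOf p.2 = 2 ∧ ConjClasses.mk (p.1 * p.2) ∉ avoid H)).card =
      Nat.card {x : G // orderOf x = 2} * Nat.card {x : G // orderOf x = 2} := by
    rw [hI, ← Finset.card_product]
    have e : (Finset.univ.filter (fun x : G => orderOf x = 2)) ×ˢ (Finset.univ.filter (fun x : G => orderOf x = 2)) =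
        Finset.univ.filter (fun p : G × G => orderOf p.1 = 2 ∧ orderOf p.2 = 2) := by
      ext p
      simp
    rw [e, ← Finset.card_filter_add_card_filter_not (s := Finset.univ.filter (fun p : G × G => orderOf p.1 = 2 ∧ orderOf p.2 = 2)) (fun p : G × G => ConjClasses.mk (p.1 * p.2) ∈ avoid H),
      Finset.filter_filter, Finset.filter_filter,
      ← Finset.card_filter_add_card_filter_not (s := Finset.univ.filter (fun p : G × G => (orderOf p.1 = 2 ∧ orderOf p.2 = 2) ∧ ConjClasses.mk (p.1 * p.2) ∈ avoid H)) (fun p : G × G => ConjClasses.mk (p.1 * p.2) = ConjClasses.mk s),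
      Finset.filter_filter, Finset.filter_filter, add_comm (Finset.card _) A.card, hA]
    congr 2
    · congr 1
      ext p; simp only [Finset.mem_filter]
      constructor
      · rintro ⟨h1, h2, h3, h4⟩
        exact ⟨h1, ⟨⟨h2, h3⟩, by rw [h4]; exact hsav⟩, h4⟩
      · rintro ⟨h1, ⟨⟨h2, h3⟩, -⟩, h4⟩
        exact ⟨h1, h2, h3, h4⟩
    · congr 1
      ext p; simp only [Finset.mem_filter, hS, Set.mem_diff, Set.mem_singleton_iff]; tauto
    · ext p; simp only [Finset.mem_filter]; tauto
  have hG := card_G hZ hab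
  have hi := card_inv hZ hab hodd
  obtain ⟨e, he⟩ : ∃ e, e = Nat.card (stabilizer G a ⊓ stabilizer G b : Subgroup G) := ⟨_, rfl⟩
  obtain ⟨h, hh⟩ : ∃ h, h = Nat.card H := ⟨_, rfl⟩
  have he0 : 0 < e := by rw [he]; exact Nat.card_pos
  have hh0 : 0 < h := by rw [hh]; exact Nat.card_pos
  rw [← he] at hG h2 hi hcav ⊢
  rw [← hh] at hHcard ⊢
  rw [← hHcard] at hev
  rw [← hHcard, Nat.add_sub_cancel] at hG hi
  rw [← hHcard, if_pos hev] at h2
  rw [if_pos hev] at hi
  rw [hG] at h1
  rw [hi] at h2 h3 hA1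
  obtain ⟨N, hN⟩ : ∃ N, N = Nat.card S := ⟨_, rfl⟩
  rw [← hN] at h1 hcav
  have h5 : e * h * (e * h) + 2 * (e * h) ≤ N * ((h + 1) * h * e) + e * h * sqCent s + e * h := by omega
  have h6 : e * h + 2 ≤ N * (h + 1) + sqCent s + 1 := by
    have h0 : 0 < e * h := Nat.mul_pos he0 hh0
    apply Nat.le_of_mul_le_mul_left _ h0
    calc e * h * (e * h + 2) = e * h * (e * h) + 2 * (e * h) := by ring
      _ ≤ N * ((h + 1) * h * e) + e * h * sqCent s + e * h := h5
      _ = e * h * (N * (h + 1) + sqCent s + 1) := by ring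
  rw [← hcav] at h6 ⊢
  nlinarith

theorem odd_false (hZ : IsZassenhausGroup G Ω) (hab : a ≠ b) [IsSimpleGroup G] (hodd : Odd (Nat.card (stabilizer G a ⊓ stabilizer G b : Subgroup G)))
    (hHa : H ≤ stabilizer G a) (hHcard : Nat.card H + 1 = Fintype.card Ω)
    (hHfix : ∀ u ∈ H, u ≠ 1 → ∀ c : Ω, u • c = c → c = a) (hlt : 2 * Nat.card ↥(MulAction.stabilizer G a ⊓ MulAction.stabilizer G b : Subgroup G) < Nat.card H - 1)
    (hev : Even (Fintype.card Ω))
    (hav : Nat.card (avoid H) = Nat.card (stabilizer G a ⊓ stabilizer G b : Subgroup G)) : False := by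
  classical
  have hG := card_G hZ hab
  have hi := card_inv hZ hab hodd
  have hdv := coprime_EH hZ hab hHa hHcard hHfix
  have h2 := two_le_E hZ hab
  obtain ⟨e, he⟩ : ∃ e, e = Nat.card (stabilizer G a ⊓ stabilizer G b : Subgroup G) := ⟨_, rfl⟩
  obtain ⟨h, hh⟩ : ∃ h, h = Nat.card H := ⟨_, rfl⟩
  rw [← he] at hG hi h2 hlt hdv
  rw [← hh] at hlt hdv
  rw [← hHcard, Nat.add_sub_cancel, ← hh] at hG
  rw [if_pos hev, ← hHcard, Nat.add_sub_cancel, ← hh] at hi
  have hcard : ∀ z : G, orderOf z = 2 → Nat.card (Subgroup.centralizer ({z} : Set G)) = h + 1 := by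
    intro z hz
    have h1 := card_isConj_mul_card_centralizer z
    have h3 : Nat.card {x : G // IsConj z x} = e * h := by
      rw [← hi]
      apply Nat.card_congr
      apply Equiv.subtypeEquivRight
      intro x
      exact ⟨fun hx => by rw [← orderOf_conj_eq hx, hz], fun hx => inv_conj hZ hab hodd hz hx⟩
    rw [h3, hG] at h1
    have h4 : 0 < e * h := Nat.mul_pos (by omega) (by omega)
    apply Nat.eq_of_mul_eq_mul_left h4
    rw [h1]; ring
  -- at least four classes
  have h4 : 4 * e + 1 ≤ h := by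
    obtain ⟨w, hw⟩ := hdv
    have hodd' : Odd e := by rw [he]; exact hodd
    rw [← hHcard, ← hh] at hev
    have hw2 : Even w := by
      have h5 : Even (h - 1) := by
        obtain ⟨k, hk⟩ := hev
        exact ⟨k - 1, by omega⟩
      rw [hw, Nat.even_mul] at h5
      rcases h5 with h5 | h5
      · exact absurd h5 (Nat.not_even_iff_odd.mpr hodd')
      · exact h5
    have hw3 : 2 < w := by
      rw [hw] at hlt
      by_contra hcon
      push Not at hcon
      have := Nat.mul_le_mul_left e hcon
      omega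
    have hw4 : 4 ≤ w := by
      obtain ⟨k, hk⟩ := hw2
      omega
    have := Nat.mul_le_mul_left e hw4
    omega
  have key : ∀ z : G, orderOf z = 2 → (∀ x : Subgroup.centralizer ({z} : Set G), x * x = 1) ∧ ∀ x y : Subgroup.centralizer ({z} : Set G), x * y = y * x := by
    intro z hz
    apply sq_of_three_quarters
    have h5 := sqCent_bound hZ hab hodd hHa hHcard hHfix hev hav hz
    rw [← hh, ← he] at h5
    have h6 : sqCent z = (Finset.univ.filter (fun x : Subgroup.centralizer ({z} : Set G) => x * x = 1)).card := by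
      rw [sqCent]
      symm
      apply Finset.card_bij (fun (x : Subgroup.centralizer ({z} : Set G)) _ => (x : G))
      · intro x hx
        rw [Finset.mem_filter] at hx ⊢
        refine ⟨Finset.mem_univ _, congrArg Subtype.val hx.2, ?_⟩
        exact (Subgroup.mem_centralizer_singleton_iff.mp x.2)
      · intro x _ y _ hxy
        exact Subtype.ext hxy
      · intro x hx
        rw [Finset.mem_filter] at hx
        refine ⟨⟨x, Subgroup.mem_centralizer_singleton_iff.mpr hx.2.2⟩, ?_, rfl⟩
        rw [Finset.mem_filter]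
        exact ⟨Finset.mem_univ _, Subtype.ext hx.2.1⟩
    rw [hcard z hz, ← h6]
    omega
  refine ti_false h2 hlt hi hcard ?_ ?_
  · intro z hz x hx
    exact congrArg Subtype.val ((key z hz).1 ⟨x, hx⟩)
  · intro z hz x hx y hy
    exact congrArg Subtype.val ((key z hz).2 ⟨x, hx⟩ ⟨y, hy⟩)

/-- coherence is impossible -/
theorem coherent_false (hZ : IsZassenhausGroup G Ω) (hab : a ≠ b) [IsSimpleGroup G] (hodd : Odd (Nat.card (stabilizer G a ⊓ stabilizer G b : Subgroup G)))
    (hHa : H ≤ stabilizer G a) (hHcard : Nat.card H + 1 = Fintype.card Ω)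
    (hHfix : ∀ u ∈ H, u ≠ 1 → ∀ c : Ω, u • c = c → c = a) (hlt : 2 * Nat.card ↥(MulAction.stabilizer G a ⊓ MulAction.stabilizer G b : Subgroup G) < Nat.card H - 1)
    [Fintype (stabilizer G a)] [hn : (H.subgroupOf (stabilizer G a)).Normal]
    (hcoh : IsCoherent (inducedIrrAbove (H.subgroupOf (stabilizer G a)) (⊥ : Subgroup (stabilizer G a))) {1}ᶜ (fun α => indFun (stabilizer G a) α)) : False := by
  by_cases hev : Even (Fintype.card Ω)
  · obtain ⟨-, -, -, -, -, -, -, -, -, -, -, -, -, hav⟩ := coherent_data hZ hab hodd hHa hHcard hHfix hlt hcoh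
    exact odd_false hZ hab hodd hHa hHcard hHfix hlt hev hav
  · exact even_false hZ hab hodd hHa hHcard hHfix hlt hev hcoh

end CfsgLib.H7Z
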