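import Mathlib
import Cfsg.Prelude.Def_Characters
import Cfsg.Prelude.Def_OddOrderLocal
import Cfsg.Agent.Lib.CharBasic
import Cfsg.Agent.Lib.CharBasic2
import Cfsg.Agent.Lib.CharInd
import Cfsg.Agent.Lib.CharClifford

/-!
# Peterfalvi (6.7): characters constant on a central subgroup of a TI Sylow subgroup
-/

set_option autoImplicit false
set_option linter.style.haveILetI false

open scoped ComplexConjugate

namespace CfsgLib.TIMod

open Cfsg CfsgLib.CharBasic CfsgLib.CharInd CfsgLib.CharClifford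

universe u v

/-- sums of invariant integral functions over free actions -/
theorem sum_free {P : Type u} {Ω : Type v} [Group P] [Fintype P] [Fintype Ω] [MulAction P Ω] (hfree : ∀ (x : Ω) (g : P), g • x = x → g = 1)
    (F : Ω → ℂ) (hinv : ∀ (g : P) (x : Ω), F (g • x) = F x) (hint : ∀ x, IsIntegral ℤ (F x)) :
    ∃ ω : ℂ, IsIntegral ℤ ω ∧ ∑ x, F x = (Nat.card P : ℂ) * ω := by
  classical
  haveI : Fintype (Quotient (MulAction.orbitRel P Ω)) := Fintype.ofFinite _
  refine ⟨∑ q : Quotient (MulAction.orbitRel P Ω), F q.out, IsIntegral.sum _ fun q _ => hint _, ?_⟩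
  rw [← Finset.sum_fiberwise Finset.univ (fun x : Ω => (Quotient.mk (MulAction.orbitRel P Ω) x)) F, Finset.mul_sum]
  apply Finset.sum_congr rfl
  intro q _
  have himg : Finset.univ.filter (fun x : Ω => Quotient.mk (MulAction.orbitRel P Ω) x = q) = Finset.univ.image (fun g : P => g • q.out) := by
    ext x
    rw [Finset.mem_filter, Finset.mem_image]
    constructor
    · rintro ⟨-, hx⟩
      have h1 : (Quotient.mk (MulAction.orbitRel P Ω) x) = Quotient.mk (MulAction.orbitRel P Ω) q.out := by rw [hx, Quotient.out_eq]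
      have h2 := Quotient.exact h1
      obtain ⟨g, hg⟩ := h2
      exact ⟨g, Finset.mem_univ _, hg⟩
    · rintro ⟨g, -, rfl⟩
      refine ⟨Finset.mem_univ _, ?_⟩
      have h2 : (Quotient.mk (MulAction.orbitRel P Ω) (g • q.out)) = Quotient.mk (MulAction.orbitRel P Ω) q.out :=
        Quotient.sound (show (MulAction.orbitRel P Ω).r _ _ from ⟨g, rfl⟩)
      rw [h2, Quotient.out_eq]
  have hinj : Set.InjOn (fun g : P => g • q.out) (Finset.univ : Finset P) := by
    intro g _ h _ hgh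
    have h1 : (h⁻¹ * g) • q.out = q.out := by
      rw [mul_smul]
      have hgh' : g • q.out = h • q.out := hgh
      rw [hgh', inv_smul_smul]
    have := hfree _ _ h1
    rw [inv_mul_eq_one] at this
    exact this.symm
  rw [himg, Finset.sum_image hinj, Finset.sum_congr rfl (fun g _ => hinv g q.out), Finset.sum_const, Finset.card_univ, nsmul_eq_mul, Nat.card_eq_fintype_card]

/-- a nontrivial element of odd order is not conjugate to its inverse in a group of odd order -/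
theorem not_conj_inv {G : Type u} [Group G] [Finite G] (hodd : Odd (Nat.card G)) {z x : G} (h : x * z * x⁻¹ = z⁻¹) : z = 1 := by
  have h2 : (x * x) * z * (x * x)⁻¹ = z := by
    have : (x * x) * z * (x * x)⁻¹ = x * (x * z * x⁻¹) * x⁻¹ := by group
    rw [this, h]
    have : x * z⁻¹ * x⁻¹ = (x * z * x⁻¹)⁻¹ := by group
    rw [this, h, inv_inv]
  have hc : Commute (x * x) z := by
    have : x * x * z = z * (x * x) := by
      calc x * x * z = ((x * x) * z * (x * x)⁻¹) * (x * x) := by group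
        _ = z * (x * x) := by rw [h2]
    exact this
  obtain ⟨m, hm⟩ := Odd.of_dvd_nat hodd (orderOf_dvd_natCard x)
  have hx : x = (x * x) ^ (m + 1) := by
    rw [← sq, ← pow_mul]
    have : 2 * (m + 1) = orderOf x + 1 := by omega
    rw [this, pow_succ, pow_orderOf_eq_one, one_mul]
  have hc2 : Commute x z := by
    rw [hx]; exact hc.pow_left _
  have h3 : z = z⁻¹ := by
    rw [← h, hc2.eq]; group
  have h4 : z ^ 2 = 1 := by
    rw [sq]; nth_rewrite 2 [h3]; exact mul_inv_cancel z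
  have h5 := orderOf_dvd_of_pow_eq_one h4
  have h6 := orderOf_dvd_natCard z
  rw [← orderOf_eq_one_iff]
  have h7 : Odd (orderOf z) := Odd.of_dvd_nat hodd h6
  rcases (Nat.dvd_prime Nat.prime_two).mp h5 with h8 | h8
  · exact h8
  · rw [h8] at h7; exact absurd h7 (by decide)

section main

variable {G : Type u} [Group G]

/-- pairs of elements of two classes -/
theorem sum_pairs [Fintype G] {ψ : G → ℂ} (hψ : IsIrrCharacter G ψ) (z w : G)
    [DecidablePred fun q : G × G => IsConj z q.1 ∧ IsConj w q.2] :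
    ∑ q ∈ Finset.univ.filter (fun q : G × G => IsConj z q.1 ∧ IsConj w q.2), ψ (q.1 * q.2) =
      ((Nat.card {x : G // IsConj z x} : ℂ) * ψ z) * ((Nat.card {x : G // IsConj w x} : ℂ) * ψ w) / ψ 1 := by
  classical
  have hcl := IsCharacter.isClassFunction (IsIrrCharacter.isCharacter hψ)
  rw [← sum_classInd_mul hcl z, ← sum_classInd_mul hcl w, ← IsIrrCharacter.sum_sum_mul_mul hψ (isClassFunction_classInd z) (classInd w), Finset.sum_filter,
    ← Finset.univ_product_univ, Finset.sum_product_right]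
  apply Finset.sum_congr rfl
  intro y _
  apply Finset.sum_congr rfl
  intro x _
  by_cases h1 : IsConj z x
  · by_cases h2 : IsConj w y
    · rw [if_pos ⟨h1, h2⟩, classInd_of_isConj h1, classInd_of_isConj h2]; ring
    · rw [if_neg (fun h => h2 h.2), classInd_of_not_isConj h2]; ring
  · rw [if_neg (fun h => h1 h.1), classInd_of_not_isConj h1]; ring

variable {p : ℕ} [Fact p.Prime] {P : Sylow p G}

/-- centralizers of nonidentity elements of a TI-subgroup -/
theorem mem_normalizer_of_commute {K : Subgroup G} (hTI : IsTISubset (K : Set G)) {z g : G} (hz : z ∈ K) (hz1 : z ≠ 1) (hg : g * z * g⁻¹ ∈ K) :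
    g ∈ Subgroup.normalizer (K : Set G) := by
  by_contra hno
  exact hz1 (hTI g hno z hz hg)

theorem mem_sylow_of_mem_normalizer [Finite G] {y : G} (hy : y ∈ Subgroup.normalizer ((P : Subgroup G) : Set G)) {z : G} (hz : z ∈ (P : Subgroup G)) (hzy : IsConj z y) :
    y ∈ (P : Subgroup G) := by
  obtain ⟨g, hg⟩ := isConj_iff.mp hzy
  have hyp : IsPGroup p (Subgroup.zpowers y) := by
    have h1 : IsPGroup p ((P : Subgroup G).map (MulAut.conj g).toMonoidHom) := P.isPGroup'.map _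
    apply h1.to_le
    rw [Subgroup.zpowers_le]
    exact ⟨z, hz, by simpa using hg⟩
  have h2 : Subgroup.zpowers y ⊓ Subgroup.normalizer ((P : Subgroup G) : Set G) = Subgroup.zpowers y ⊓ P := IsPGroup.inf_normalizer_sylow hyp P
  have h3 : y ∈ Subgroup.zpowers y ⊓ Subgroup.normalizer ((P : Subgroup G) : Set G) := Subgroup.mem_inf.mpr ⟨Subgroup.mem_zpowers y, hy⟩
  rw [h2] at h3
  exact (Subgroup.mem_inf.mp h3).2

/-- the part of the pair sum off `Z × Z` -/
theorem sum_off [Fintype G] (hTI : IsTISubset ((P : Subgroup G) : Set G)) (Z : Subgroup G) (hZP : Z ≤ P)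
    (hZn : ∀ x ∈ Subgroup.normalizer ((P : Subgroup G) : Set G), ∀ z ∈ Z, x * z * x⁻¹ ∈ Z)
    {ψ : G → ℂ} (hψ : IsIrrCharacter G ψ) {z w : G} (hz : z ∈ Z) (hz1 : z ≠ 1) (hw : w ∈ Z) (hw1 : w ≠ 1)
    [DecidablePred fun q : G × G => (IsConj z q.1 ∧ IsConj w q.2) ∧ ¬ (q.1 ∈ Z ∧ q.2 ∈ Z)] :
    ∃ ω : ℂ, IsIntegral ℤ ω ∧ ∑ q ∈ Finset.univ.filter (fun q : G × G => (IsConj z q.1 ∧ IsConj w q.2) ∧ ¬ (q.1 ∈ Z ∧ q.2 ∈ Z)), ψ (q.1 * q.2) =
      (Nat.card (P : Subgroup G) : ℂ) * ω := by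
  classical
  haveI : Fintype (P : Subgroup G) := Fintype.ofFinite _
  have hcl := IsCharacter.isClassFunction (IsIrrCharacter.isCharacter hψ)
  have hPn : (P : Subgroup G) ≤ Subgroup.normalizer ((P : Subgroup G) : Set G) := Subgroup.le_normalizer
  have hZnP : ∀ g ∈ (P : Subgroup G), ∀ x : G, g * x * g⁻¹ ∈ Z → x ∈ Z := by
    intro g hg x hx
    have h1 := hZn g⁻¹ (inv_mem (hPn hg)) _ hx
    have e : g⁻¹ * (g * x * g⁻¹) * g⁻¹⁻¹ = x := by group
    rw [e] at h1; exact h1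
  have hconj : ∀ (a g x : G), IsConj a x → IsConj a (g * x * g⁻¹) := fun a g x h => isConj_conj_right.mpr h
  let Ω := {q : G × G // (IsConj z q.1 ∧ IsConj w q.2) ∧ ¬ (q.1 ∈ Z ∧ q.2 ∈ Z)}
  letI act : MulAction (P : Subgroup G) Ω :=
    { smul := fun g q => ⟨((g : G) * q.1.1 * (g : G)⁻¹, (g : G) * q.1.2 * (g : G)⁻¹),
        ⟨hconj _ _ _ q.2.1.1, hconj _ _ _ q.2.1.2⟩, fun h => q.2.2 ⟨hZnP g g.2 _ h.1, hZnP g g.2 _ h.2⟩⟩
      one_smul := by
        intro q
        apply Subtype.ext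
        show (((1 : (P : Subgroup G)) : G) * q.1.1 * ((1 : (P : Subgroup G)) : G)⁻¹, ((1 : (P : Subgroup G)) : G) * q.1.2 * ((1 : (P : Subgroup G)) : G)⁻¹) = q.1
        rw [Subgroup.coe_one, inv_one, one_mul, mul_one, one_mul, mul_one]
      mul_smul := by
        intro g h q
        apply Subtype.ext
        show (((g * h : (P : Subgroup G)) : G) * q.1.1 * ((g * h : (P : Subgroup G)) : G)⁻¹, ((g * h : (P : Subgroup G)) : G) * q.1.2 * ((g * h : (P : Subgroup G)) : G)⁻¹) =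
          ((g : G) * ((h : G) * q.1.1 * (h : G)⁻¹) * (g : G)⁻¹, (g : G) * ((h : G) * q.1.2 * (h : G)⁻¹) * (g : G)⁻¹)
        rw [Subgroup.coe_mul]
        congr 1 <;> group }
  have hsmul1 : ∀ (g : (P : Subgroup G)) (q : Ω), (g • q).1.1 = (g : G) * q.1.1 * (g : G)⁻¹ := fun g q => rfl
  have hsmul2 : ∀ (g : (P : Subgroup G)) (q : Ω), (g • q).1.2 = (g : G) * q.1.2 * (g : G)⁻¹ := fun g q => rfl
  -- elements of the classes commuting with a nonidentity element of `P`
  have hcomm : ∀ (g y a : G), g ∈ (P : Subgroup G) → g ≠ 1 → a ∈ Z → a ≠ 1 → IsConj a y → g * y * g⁻¹ = y → y ∈ Z := by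
    intro g y a hg hg1 ha ha1 hay hgy
    have h1 : y * g * y⁻¹ = g := by
      have : g * y = y * g := by
        calc g * y = (g * y * g⁻¹) * g := by group
          _ = y * g := by rw [hgy]
      rw [← this]; group
    have h2 : y ∈ Subgroup.normalizer ((P : Subgroup G) : Set G) := mem_normalizer_of_commute hTI hg hg1 (by rw [h1]; exact hg)
    have h3 : y ∈ (P : Subgroup G) := mem_sylow_of_mem_normalizer h2 (hZP ha) hay
    obtain ⟨x, hx⟩ := isConj_iff.mp hay
    have h4 : x ∈ Subgroup.normalizer ((P : Subgroup G) : Set G) := mem_normalizer_of_commute hTI (hZP ha) ha1 (by rw [hx]; exact h3)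
    rw [← hx]
    exact hZn x h4 a ha
  obtain ⟨ω, hω, hsum⟩ := sum_free (P := (P : Subgroup G)) (Ω := Ω) (by
      intro q g hg
      by_contra hg1
      have hg1' : (g : G) ≠ 1 := fun h => hg1 (Subtype.ext h)
      have e1 : (g : G) * q.1.1 * (g : G)⁻¹ = q.1.1 := by rw [← hsmul1, hg]
      have e2 : (g : G) * q.1.2 * (g : G)⁻¹ = q.1.2 := by rw [← hsmul2, hg]
      exact q.2.2 ⟨hcomm g _ z g.2 hg1' hz hz1 q.2.1.1 e1, hcomm g _ w g.2 hg1' hw hw1 q.2.1.2 e2⟩)
    (fun q : Ω => ψ (q.1.1 * q.1.2)) (by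
      intro g q
      show ψ ((g • q).1.1 * (g • q).1.2) = ψ (q.1.1 * q.1.2)
      rw [hsmul1, hsmul2]
      have e : (g : G) * q.1.1 * (g : G)⁻¹ * ((g : G) * q.1.2 * (g : G)⁻¹) = (g : G) * (q.1.1 * q.1.2) * (g : G)⁻¹ := by group
      rw [e, hcl]) (fun q => IsCharacter.isIntegral (IsIrrCharacter.isCharacter hψ) _)
  refine ⟨ω, hω, ?_⟩
  rw [← hsum]
  rw [← Finset.sum_subtype_eq_sum_filter]
  apply Finset.sum_congr
  · ext x; simp
  · intro _ _; rfl

/-- Peterfalvi (6.7) -/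
theorem six_seven [Finite G] (hTI : IsTISubset ((P : Subgroup G) : Set G)) (hodd : Odd (Nat.card (Subgroup.normalizer ((P : Subgroup G) : Set G))))
    (Z : Subgroup G) (hZP : Z ≤ P)
    (hZn : ∀ x ∈ Subgroup.normalizer ((P : Subgroup G) : Set G), ∀ z ∈ Z, x * z * x⁻¹ ∈ Z) (hZc : ∀ z ∈ Z, ∀ y ∈ (P : Subgroup G), z * y = y * z)
    {ψ : G → ℂ} (hψ : IsIrrCharacter G ψ) (hconst : ∀ z ∈ Z, ∀ z' ∈ Z, z ≠ 1 → z' ≠ 1 → ψ z = ψ z') (z : G) (hz : z ∈ Z) (hz1 : z ≠ 1) :
    ∃ n d : ℤ, ψ z = n ∧ ψ 1 = d ∧ (Nat.card (P : Subgroup G) : ℤ) ∣ d - n := by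
  classical
  haveI : Fintype G := Fintype.ofFinite G
  haveI : Fintype Z := Fintype.ofFinite Z
  have hψc := IsIrrCharacter.isCharacter hψ
  have hcl := IsCharacter.isClassFunction hψc
  obtain ⟨d, hd0, hd⟩ := IsIrrCharacter.exists_pos hψ
  -- the value on `Z` is an integer
  obtain ⟨n, hn⟩ : ∃ n : ℤ, ψ z = n := by
    have hres := IsCharacter.restrict hψc Z
    obtain ⟨k, hk⟩ := IsCharacter.inner_nat hres (isCharacter_one (G := Z))
    have hsum : ∑ x : Z, ψ x = (d : ℂ) + ((Nat.card Z : ℂ) - 1) * ψ z := by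
      rw [← Finset.add_sum_erase Finset.univ _ (Finset.mem_univ (1 : Z)), Subgroup.coe_one, hd]
      congr 1
      rw [Finset.sum_congr rfl (fun (x : Z) hx => hconst (x : G) x.2 z hz (fun h => (Finset.mem_erase.mp hx).1 (Subtype.ext h)) hz1), Finset.sum_const,
        Finset.card_erase_of_mem (Finset.mem_univ _), Finset.card_univ, nsmul_eq_mul, Nat.card_eq_fintype_card, Nat.cast_sub Fintype.card_pos]
      simp
    have hk' : (Nat.card Z : ℂ)⁻¹ * ∑ x : Z, ψ x = k := by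
      rw [← hk]
      simp only [classInner, Pi.one_apply, map_one, mul_one]
    have hZ0 : (Nat.card Z : ℂ) ≠ 0 := by exact_mod_cast Nat.card_pos.ne'
    have h1 : ((Nat.card Z : ℂ) - 1) * ψ z = (Nat.card Z : ℂ) * k - d := by
      have h2 : ∑ x : Z, ψ x = (Nat.card Z : ℂ) * k := by rw [← hk', ← mul_assoc, mul_inv_cancel₀ hZ0, one_mul]
      rw [hsum] at h2
      linear_combination h2
    have hZ1 : (Nat.card Z : ℂ) - 1 ≠ 0 := by
      intro h
      have h2 : (Nat.card Z : ℂ) = ((1 : ℕ) : ℂ) := by push_cast; linear_combination h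
      have h3 : Nat.card Z = 1 := by exact_mod_cast h2
      rw [Subgroup.card_eq_one] at h3
      rw [h3, Subgroup.mem_bot] at hz
      exact hz1 hz
    apply isInt_of_isIntegral_of_rat (IsCharacter.isIntegral hψc z) (q := ((Nat.card Z : ℚ) * k - d) / ((Nat.card Z : ℚ) - 1))
    push_cast
    rw [eq_div_iff hZ1, mul_comm]
    exact h1
  refine ⟨n, d, hn, by rw [hd]; simp, ?_⟩
  -- the classes
  have hzinv : z⁻¹ ∈ Z := inv_mem hz
  have hzinv1 : z⁻¹ ≠ 1 := inv_ne_one.mpr hz1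
  have hinvconj : ∀ {a b : G}, IsConj a b → IsConj a⁻¹ b⁻¹ := by
    intro a b h
    obtain ⟨c, hc⟩ := isConj_iff.mp h
    exact isConj_iff.mpr ⟨c, by rw [← hc]; group⟩
  have hcardinv : Nat.card {x : G // IsConj z⁻¹ x} = Nat.card {x : G // IsConj z x} := by
    refine Nat.card_congr ⟨fun x => ⟨(x : G)⁻¹, ?_⟩, fun x => ⟨(x : G)⁻¹, hinvconj x.2⟩, fun x => Subtype.ext (inv_inv _), fun x => Subtype.ext (inv_inv _)⟩
    have := hinvconj x.2
    rwa [inv_inv] at this
  have hψinv : ψ z⁻¹ = n := by rw [← hn]; exact hconst _ hzinv _ hz hzinv1 hz1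
  have t1 := sum_pairs hψ z z
  have t2 := sum_pairs hψ z z⁻¹
  rw [hcardinv, hψinv] at t2
  rw [hn] at t1 t2
  obtain ⟨ω₁, hω₁, s1⟩ := sum_off (P := P) hTI Z hZP hZn hψ hz hz1 hz hz1
  obtain ⟨ω₂, hω₂, s2⟩ := sum_off (P := P) hTI Z hZP hZn hψ hz hz1 hzinv hzinv1
  -- the class inside Z
  obtain ⟨C, hC⟩ : ∃ C : Finset G, C = Finset.univ.filter (fun x => IsConj z x ∧ x ∈ Z) := ⟨_, rfl⟩
  have hCmem : ∀ x, x ∈ C ↔ IsConj z x ∧ x ∈ Z := fun x => by rw [hC, Finset.mem_filter]; simp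
  -- not conjugate to the inverse
  have hnotinv : ∀ x y : G, IsConj z x → x ∈ Z → IsConj z y → y ∈ Z → x * y ≠ 1 := by
    intro x y hx hxZ hy hyZ hxy
    have hyx : y = x⁻¹ := by rw [eq_inv_iff_mul_eq_one]; exact (mul_eq_one_iff_eq_inv.mp hxy) ▸ (by simp)
    have h1 : IsConj x x⁻¹ := by rw [← hyx]; exact hx.symm.trans hy
    obtain ⟨g, hg⟩ := isConj_iff.mp h1
    have hx1 : x ≠ 1 := by rintro rfl; exact hz1 (isConj_one_left.mp hx)
    have hgN : g ∈ Subgroup.normalizer ((P : Subgroup G) : Set G) := mem_normalizer_of_commute hTI (hZP hxZ) hx1 (by rw [hg]; exact inv_mem (hZP hxZ))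
    have hxN : x ∈ Subgroup.normalizer ((P : Subgroup G) : Set G) := Subgroup.le_normalizer (hZP hxZ)
    have := not_conj_inv (G := Subgroup.normalizer ((P : Subgroup G) : Set G)) hodd (z := ⟨x, hxN⟩) (x := ⟨g, hgN⟩) (Subtype.ext hg)
    exact hx1 (congrArg Subtype.val this)
  -- on-diagonal sums
  have u1 : ∑ q ∈ Finset.univ.filter (fun q : G × G => (IsConj z q.1 ∧ IsConj z q.2) ∧ (q.1 ∈ Z ∧ q.2 ∈ Z)), ψ (q.1 * q.2) = (C.card : ℂ) * C.card * n := by
    have e1 : Finset.univ.filter (fun q : G × G => (IsConj z q.1 ∧ IsConj z q.2) ∧ (q.1 ∈ Z ∧ q.2 ∈ Z)) = C ×ˢ C := by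
      ext q; rw [Finset.mem_filter, Finset.mem_product, hCmem, hCmem]; simp; tauto
    have e2 : ∀ q ∈ C ×ˢ C, ψ (q.1 * q.2) = (n : ℂ) := by
      intro q hq
      obtain ⟨h1, h2⟩ := Finset.mem_product.mp hq
      rw [hCmem] at h1 h2
      rw [← hn]
      exact hconst _ (mul_mem h1.2 h2.2) _ hz (hnotinv _ _ h1.1 h1.2 h2.1 h2.2) hz1
    rw [e1, Finset.sum_congr rfl e2, Finset.sum_const, Finset.card_product, nsmul_eq_mul]
    push_cast; ring
  have u2 : ∑ q ∈ Finset.univ.filter (fun q : G × G => (IsConj z q.1 ∧ IsConj z⁻¹ q.2) ∧ (q.1 ∈ Z ∧ q.2 ∈ Z)), ψ (q.1 * q.2) = (C.card : ℂ) * d + ((C.card : ℂ) * C.card - C.card) * n := by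
    have e1 : Finset.univ.filter (fun q : G × G => (IsConj z q.1 ∧ IsConj z⁻¹ q.2) ∧ (q.1 ∈ Z ∧ q.2 ∈ Z)) = C ×ˢ (C.image (fun x => x⁻¹)) := by
      ext q
      rw [Finset.mem_filter, Finset.mem_product, hCmem, Finset.mem_image]
      constructor
      · rintro ⟨-, ⟨h1, h2⟩, h3, h4⟩
        refine ⟨⟨h1, h3⟩, q.2⁻¹, (hCmem _).mpr ⟨?_, inv_mem h4⟩, inv_inv _⟩
        have := hinvconj h2
        rwa [inv_inv] at this
      · rintro ⟨⟨h1, h2⟩, x, hx, hxq⟩
        rw [hCmem] at hx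
        rw [← hxq]
        exact ⟨Finset.mem_univ _, ⟨h1, hinvconj hx.1⟩, h2, inv_mem hx.2⟩
    rw [e1, Finset.sum_product]
    have e2 : ∀ x ∈ C, ∑ y ∈ C.image (fun x => x⁻¹), ψ (x * y) = d + ((C.card : ℂ) - 1) * n := by
      intro x hx
      rw [Finset.sum_image (fun a _ b _ h => inv_injective h), ← Finset.add_sum_erase C _ hx, mul_inv_cancel, hd]
      congr 1
      have e3 : ∀ y ∈ C.erase x, ψ (x * y⁻¹) = (n : ℂ) := by
        intro y hy
        obtain ⟨h1, h2⟩ := Finset.mem_erase.mp hy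
        rw [← hn]
        refine hconst _ (mul_mem ((hCmem x).mp hx).2 (inv_mem ((hCmem y).mp h2).2)) _ hz ?_ hz1
        intro h
        exact h1 (mul_inv_eq_one.mp h).symm
      rw [Finset.sum_congr rfl e3, Finset.sum_const, Finset.card_erase_of_mem hx, nsmul_eq_mul, Nat.cast_sub (Finset.card_pos.mpr ⟨x, hx⟩)]
      push_cast; ring
    rw [Finset.sum_congr rfl e2, Finset.sum_const, nsmul_eq_mul]
    ring
  have key : ((C.card : ℂ)) * ((d : ℂ) - n) = (Nat.card (P : Subgroup G) : ℂ) * (ω₁ - ω₂) := by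
    have v1 := Finset.sum_filter_add_sum_filter_not (Finset.univ.filter (fun q : G × G => IsConj z q.1 ∧ IsConj z q.2)) (fun q => q.1 ∈ Z ∧ q.2 ∈ Z) (fun q => ψ (q.1 * q.2))
    have v2 := Finset.sum_filter_add_sum_filter_not (Finset.univ.filter (fun q : G × G => IsConj z q.1 ∧ IsConj z⁻¹ q.2)) (fun q => q.1 ∈ Z ∧ q.2 ∈ Z) (fun q => ψ (q.1 * q.2))
    rw [Finset.filter_filter, Finset.filter_filter] at v1 v2
    rw [u1, s1, t1] at v1
    rw [u2, s2, t2] at v2
    linear_combination v2 - v1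
  -- |P| divides |C| (d - n)
  have hPpos : (Nat.card (P : Subgroup G) : ℂ) ≠ 0 := by exact_mod_cast Nat.card_pos.ne'
  have hdvd : (Nat.card (P : Subgroup G) : ℤ) ∣ (C.card : ℤ) * (d - n) := by
    obtain ⟨m, hm⟩ := isInt_of_isIntegral_of_rat (hω₁.sub hω₂) (q := ((C.card : ℚ) * (d - n)) / (Nat.card (P : Subgroup G) : ℚ)) (by
      push_cast
      rw [eq_div_iff hPpos, mul_comm, ← key])
    refine ⟨m, ?_⟩
    rw [hm] at key
    exact_mod_cast key
  -- |C| is prime to p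
  have hcop : IsCoprime (Nat.card (P : Subgroup G) : ℤ) (C.card : ℤ) := by
    rw [Nat.isCoprime_iff_coprime]
    obtain ⟨N, hN⟩ : ∃ N : Subgroup G, N = Subgroup.normalizer ((P : Subgroup G) : Set G) := ⟨_, rfl⟩
    have hPN : (P : Subgroup G) ≤ N := by rw [hN]; exact Subgroup.le_normalizer
    have hzN : z ∈ N := hPN (hZP hz)
    have h1 : C.card = Nat.card {x : N // IsConj (⟨z, hzN⟩ : N) x} := by
      have h2 : C.card = Nat.card {x : G // x ∈ C} := by rw [Nat.card_eq_fintype_card, Fintype.card_coe]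
      rw [h2]
      refine Nat.card_congr ⟨fun x => ⟨⟨(x : G), hPN (hZP ((hCmem _).mp x.2).2)⟩, ?_⟩, fun x => ⟨((x : N) : G), ?_⟩, fun x => rfl, fun x => rfl⟩
      · obtain ⟨h3, h4⟩ := (hCmem _).mp x.2
        obtain ⟨g, hg⟩ := isConj_iff.mp h3
        have hgN : g ∈ N := by rw [hN]; exact mem_normalizer_of_commute hTI (hZP hz) hz1 (by rw [hg]; exact hZP h4)
        exact isConj_iff.mpr ⟨⟨g, hgN⟩, Subtype.ext hg⟩
      · obtain ⟨g, hg⟩ := isConj_iff.mp x.2
        have hg' : (g : G) * z * (g : G)⁻¹ = ((x : N) : G) := congrArg Subtype.val hg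
        rw [hCmem]
        refine ⟨isConj_iff.mpr ⟨g, hg'⟩, ?_⟩
        rw [← hg']
        exact hZn g (by rw [← hN]; exact g.2) z hz
    rw [h1, card_isConj_eq_index]
    have h3 : (P : Subgroup G).subgroupOf N ≤ Subgroup.centralizer ({(⟨z, hzN⟩ : N)} : Set N) := by
      intro x hx
      rw [Subgroup.mem_centralizer_iff]
      intro y hy
      rw [Set.mem_singleton_iff] at hy
      rw [hy]
      apply Subtype.ext
      exact hZc z hz x (Subgroup.mem_subgroupOf.mp hx)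
    have h4 := Subgroup.index_dvd_of_le h3
    have h5 : ((P : Subgroup G).subgroupOf N).index ∣ (P : Subgroup G).index := by
      rw [← Subgroup.relIndex_mul_index hPN]; exact Dvd.intro _ rfl
    have h6 : Nat.Coprime (Nat.card (P : Subgroup G)) (P : Subgroup G).index := by
      obtain ⟨k, hk⟩ := IsPGroup.iff_card.mp P.isPGroup'
      rw [hk]
      apply Nat.Coprime.pow_left
      rw [Nat.Prime.coprime_iff_not_dvd Fact.out]
      exact P.not_dvd_index
    exact h6.of_dvd_right (h4.trans h5)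
  exact hcop.dvd_of_dvd_mul_left hdvd

end main

end CfsgLib.TIMod
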