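import Mathlib
import Cfsg.Agent.Lib.Sibley
import Cfsg.Agent.Lib.TIMod
import Cfsg.Agent.Lib.CharFS
import Cfsg.Agent.Lib.CharCoh10
import Cfsg.Agent.Lib.PG

/-!
# Sibley's theorem for nonabelian p-groups
-/

set_option autoImplicit false
set_option linter.style.haveILetI false
set_option linter.unusedSectionVars false

open scoped ComplexConjugate commutatorElement

namespace CfsgLib.Sibley2

open Cfsg CfsgLib.CharBasic CfsgLib.CharInd CfsgLib.CharClifford CfsgLib.CharCoh CfsgLib.FrobQuot CfsgLib.FrobCoh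

universe u v

section frob

variable {N : Type u} [Group N] [Finite N] {H : Subgroup N} [H.Normal]

theorem index_odd (hC : ∀ h ∈ H, h ≠ 1 → Subgroup.centralizer ({h} : Set N) ≤ H) (hodd : Odd (Nat.card H)) (hna : ⁅H, H⁆ ≠ ⊥) : Odd H.index := by
  rw [← Nat.not_even_iff_odd]
  intro hev
  have h1 : 2 ∣ Nat.card N := (even_iff_two_dvd.mp hev).trans (Subgroup.index_dvd_card H)
  haveI : Fact (Nat.Prime 2) := ⟨Nat.prime_two⟩
  obtain ⟨t, ht⟩ := exists_prime_orderOf_dvd_card' 2 h1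
  have htH : t ∉ H := by
    intro h
    have h2 : 2 ∣ Nat.card H := by
      rw [← ht, ← Subgroup.orderOf_mk t h]
      exact orderOf_dvd_natCard _
    exact (Nat.not_even_iff_odd.mpr hodd) (even_iff_two_dvd.mpr h2)
  have ht2 : t * t = 1 := by rw [← pow_two, ← ht, pow_orderOf_eq_one]
  have htinv : t⁻¹ = t := inv_eq_of_mul_eq_one_left ht2
  have hmem : ∀ h ∈ H, t * h * t ∈ H := by
    intro h hh
    have := (inferInstance : H.Normal).conj_mem h hh t
    rwa [htinv] at this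
  have hinj : Function.Injective (fun h : H => (⟨(h : N)⁻¹ * (t * h * t), H.mul_mem (H.inv_mem h.2) (hmem h h.2)⟩ : H)) := by
    intro h h' heq
    have h2 : (h : N)⁻¹ * (t * h * t) = (h' : N)⁻¹ * (t * h' * t) := congrArg Subtype.val heq
    by_contra hne
    have h3 : (h' : N) * (h : N)⁻¹ ≠ 1 := fun h3 => hne (Subtype.ext (mul_inv_eq_one.mp h3).symm)
    have h4 : (h' : N) * (h : N)⁻¹ ∈ H := H.mul_mem h'.2 (H.inv_mem h.2)
    apply htH
    apply hC _ h4 h3
    rw [Subgroup.mem_centralizer_iff]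
    intro y hy
    rw [Set.mem_singleton_iff] at hy
    rw [hy]
    have h5 : (h' : N) * (h : N)⁻¹ * (t * h * t) = t * h' * t := by
      calc (h' : N) * (h : N)⁻¹ * (t * h * t) = h' * ((h : N)⁻¹ * (t * h * t)) := by group
        _ = h' * ((h' : N)⁻¹ * (t * h' * t)) := by rw [h2]
        _ = t * h' * t := by group
    calc (h' : N) * (h : N)⁻¹ * t = (h' : N) * (h : N)⁻¹ * (t * h * t) * t⁻¹ * (h : N)⁻¹ := by group
      _ = t * h' * t * t⁻¹ * (h : N)⁻¹ := by rw [h5]
      _ = t * ((h' : N) * (h : N)⁻¹) := by group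
  have hsurj := Finite.surjective_of_injective hinj
  have hinvert : ∀ x ∈ H, t * x * t = x⁻¹ := by
    intro x hx
    obtain ⟨h, hh⟩ := hsurj ⟨x, hx⟩
    have h2 : (h : N)⁻¹ * (t * h * t) = x := congrArg Subtype.val hh
    rw [← h2]
    calc t * ((h : N)⁻¹ * (t * h * t)) * t = t * (h : N)⁻¹ * t * h * (t * t) := by group
      _ = t * (h : N)⁻¹ * t * h := by rw [ht2, mul_one]
      _ = t⁻¹ * (h : N)⁻¹ * t⁻¹ * h := by rw [htinv]
      _ = ((h : N)⁻¹ * (t * h * t))⁻¹ := by group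
  apply hna
  rw [Subgroup.commutator_eq_bot_iff_le_centralizer]
  intro x hx
  rw [Subgroup.mem_centralizer_iff]
  intro y hy
  have h1 := hinvert (x * y) (H.mul_mem hx hy)
  have h2 : t * (x * y) * t = (t * x * t) * (t * y * t) := by
    calc t * (x * y) * t = t * x * 1 * y * t := by group
      _ = t * x * (t * t) * y * t := by rw [ht2]
      _ = (t * x * t) * (t * y * t) := by group
  rw [h2, hinvert x hx, hinvert y hy] at h1
  have h3 := congrArg (·⁻¹) h1
  simp only [mul_inv_rev, inv_inv] at h3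
  exact h3

theorem inf_centralizer_ne_bot (hnil : Group.IsNilpotent H) (hna : ⁅H, H⁆ ≠ ⊥) : ⁅H, H⁆ ⊓ Subgroup.centralizer (H : Set N) ≠ ⊥ := by
  have hmap : (commutator H).map H.subtype = ⁅H, H⁆ := Subgroup.map_subtype_commutator H
  have h1 : commutator H ≠ ⊥ := by
    intro h
    apply hna
    rw [← hmap, h, Subgroup.map_bot]
  have h2 := CfsgLib.PG.inf_center_ne_bot_of_nilpotent hnil (commutator H) h1
  intro h3
  apply h2
  rw [Subgroup.eq_bot_iff_forall]
  intro x hx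
  have h4 : (x : N) ∈ ⁅H, H⁆ ⊓ Subgroup.centralizer (H : Set N) := by
    refine Subgroup.mem_inf.mpr ⟨?_, ?_⟩
    · rw [← hmap]
      exact Subgroup.mem_map_of_mem _ hx.1
    · rw [Subgroup.mem_centralizer_iff]
      intro y hy
      exact congrArg Subtype.val (Subgroup.mem_center_iff.mp hx.2 ⟨y, hy⟩)
  rw [h3, Subgroup.mem_bot] at h4
  exact Subtype.ext h4

end frob

section main

variable {G : Type u} [Group G] [Fintype G] {p : ℕ} [Fact p.Prime] {P : Sylow p G}

theorem sibley (hp : p ≠ 2) (hTI : IsTISubset ((P : Subgroup G) : Set G)) (hC : ∀ k ∈ (P : Subgroup G), k ≠ 1 → Subgroup.centralizer ({k} : Set G) ≤ (P : Subgroup G))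
    (N : Subgroup G) [Fintype N] (hN : N = Subgroup.normalizer ((P : Subgroup G) : Set G)) (H : Subgroup N) [H.Normal] (hH : H = (P : Subgroup G).subgroupOf N)
    (hlt : H ≠ ⊤) (hna : ⁅H, H⁆ ≠ ⊥) : IsCoherent (inducedIrrAbove H (⊥ : Subgroup N)) {1}ᶜ (fun α => indFun N α) := by
  classical
  have hpp : p.Prime := Fact.out
  have hPN : (P : Subgroup G) ≤ N := by rw [hN]; exact Subgroup.le_normalizer
  haveI hnorm' : ((P : Subgroup G).subgroupOf N).Normal := by rw [← hH]; infer_instance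
  have hCN : ∀ h ∈ H, h ≠ 1 → Subgroup.centralizer ({h} : Set N) ≤ H := by
    rw [hH]; exact CohTI.hC_sub hC
  have hTI' : ∀ g : G, g ∉ N → ∀ k ∈ (P : Subgroup G), g * k * g⁻¹ ∈ (P : Subgroup G) → k = 1 := by
    intro g hg k hk hgk
    by_contra hk1
    apply hg
    rw [hN]
    exact TIMod.mem_normalizer_of_commute hTI hk hk1 hgk
  have hiso : IsLinearIsometryOn (zspanOn (inducedIrrAbove H (⊥ : Subgroup N)) {1}ᶜ) (fun α => indFun N α) := by
    rw [hH]; exact CohTI.ti_isometry hTI'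
  have hone : ∀ α ∈ zspanOn (inducedIrrAbove H (⊥ : Subgroup N)) {1}ᶜ, (fun α => indFun N α) α 1 = 0 := by
    rw [hH]; exact fun α hα => CohTI.ti_one hα
  -- orders
  have hcardP : Nat.card H = Nat.card (P : Subgroup G) := by
    rw [hH]; exact Nat.card_congr (Subgroup.subgroupOfEquivOfLe hPN).toEquiv
  obtain ⟨m, hm⟩ : ∃ m : ℕ, Nat.card H = p ^ m := by
    rw [hcardP]; exact IsPGroup.iff_card.mp P.isPGroup'
  have hpH : IsPGroup p H := IsPGroup.iff_card.mpr ⟨m, hm⟩
  have hnil : Group.IsNilpotent H := hpH.isNilpotent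
  have hoddp : Odd p := hpp.odd_of_ne_two hp
  have hoddH : Odd (Nat.card H) := by rw [hm]; exact hoddp.pow
  have hoddI : Odd H.index := index_odd hCN hoddH hna
  have hoddN : Odd (Nat.card N) := by rw [← Subgroup.card_mul_index H]; exact hoddH.mul hoddI
  have hle : ⁅H, H⁆ ≤ H := Subgroup.commutator_le_self H
  have hH1 : H ≠ ⊥ := fun h => hna (by rw [h]; exact Subgroup.commutator_bot_left _)
  have hcop : Nat.Coprime p H.index := by
    have h1 := CohTI.hall hCN
    rw [hm] at h1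
    have hm0 : m ≠ 0 := by
      rintro rfl
      rw [pow_zero] at hm
      exact hH1 (Subgroup.card_eq_one.mp hm)
    exact Nat.Coprime.coprime_dvd_left (dvd_pow_self p hm0) h1
  -- the central subgroup
  obtain ⟨Z, hZ⟩ : ∃ Z : Subgroup N, Z = ⁅H, H⁆ ⊓ Subgroup.centralizer (H : Set N) := ⟨_, rfl⟩
  haveI hZn : Z.Normal := by rw [hZ]; infer_instance
  have hZ1 : Z ≠ ⊥ := by rw [hZ]; exact inf_centralizer_ne_bot hnil hna
  have hZc : Z ≤ ⁅H, H⁆ := by rw [hZ]; exact inf_le_left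
  have hZH : Z ≤ H := hZc.trans hle
  have hZcent : ∀ z ∈ Z, ∀ k ∈ H, z * k = k * z := by
    intro z hz k hk
    rw [hZ] at hz
    exact ((Subgroup.mem_centralizer_iff.mp (Subgroup.mem_inf.mp hz).2) k hk).symm
  have hirrS : ∀ χ ∈ inducedIrrAbove H (⊥ : Subgroup N), IsIrrCharacter N χ := fun χ hχ => frob_isIrr hCN hχ
  -- the sets
  obtain ⟨X, hX⟩ : ∃ X : Set (N → ℂ), X = {χ : N → ℂ | IsIrrCharacter N χ ∧ ∃ z ∈ Z, χ z ≠ χ 1} := ⟨_, rfl⟩
  have hXdiff : X = inducedIrrAbove H (⊥ : Subgroup N) \ inducedIrrAbove H Z := by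
    rw [hX, diff_above_eq hZH (fun χ hχ => hirrS χ hχ.1)]
  obtain ⟨Y, hY⟩ : ∃ Y : Set (N → ℂ), Y = inducedIrrAbove H ⁅H, H⁆ := ⟨_, rfl⟩
  have hXS : X ⊆ inducedIrrAbove H (⊥ : Subgroup N) := by rw [hXdiff]; exact Set.diff_subset
  have hYS : Y ⊆ inducedIrrAbove H (⊥ : Subgroup N) := by rw [hY]; exact above_mono (fun k _ hk => by rw [Subgroup.mem_bot.mp hk]; exact Subgroup.one_mem _)
  have hXY : Disjoint X Y := by
    rw [Set.disjoint_left]
    intro φ h1 h2
    rw [hXdiff] at h1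
    apply h1.2
    rw [hY] at h2
    exact above_mono (fun k _ hk => hZc hk) h2
  have hconj : ∀ χ ∈ inducedIrrAbove H (⊥ : Subgroup N), conjFun χ ≠ χ := by
    intro χ hχ heq
    have h1 := hirrS χ hχ
    have h2 : χ = fun _ => 1 := by
      apply CharFS.real_odd hoddN h1
      intro g
      have h3 := congrFun heq g
      exact Complex.conj_eq_iff_im.mp h3
    rw [frob_set hCN] at hχ
    obtain ⟨-, h, -, hne⟩ := hχ
    exact hne (by rw [h2])
  have hconjX : ∀ χ ∈ X, conjFun χ ∈ X := by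
    intro χ hχ
    rw [hX] at hχ ⊢
    obtain ⟨h1, z, hz, hne⟩ := hχ
    refine ⟨isIrr_conjFun h1, z, hz, fun h => hne ?_⟩
    exact (starRingEnd ℂ).injective h
  have hXne : ∃ χ, χ ∈ X := by
    obtain ⟨χ, z, hz, hne⟩ := exists_irr_not_trivial hZ1
    exact ⟨χ, by rw [hX]; exact ⟨χ.2, z, hz, hne⟩⟩
  have hsolv : Group.IsSolvable H := by haveI := hnil; infer_instance
  have hltH : ¬ H ≤ ⁅H, H⁆ := by
    intro h
    haveI : Nontrivial H := (Subgroup.nontrivial_iff_ne_bot _).mpr hH1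
    have h1 := (Group.IsSolvable.commutator_lt_top_of_nontrivial H).ne
    apply h1
    apply Subgroup.map_injective H.subtype_injective
    rw [Subgroup.map_subtype_commutator H, le_antisymm hle h, ← MonoidHom.range_eq_map, Subgroup.range_subtype]
  have hYne : ∃ η, η ∈ Y := by
    obtain ⟨lam, h1, h2, h3, -⟩ := exists_linear_above (K := H) (A := ⁅H, H⁆) hsolv hltH
    exact ⟨_, by rw [hY]; exact ⟨lam, h1, h2, h3, rfl⟩⟩
  obtain ⟨η₀, hη₀⟩ := hYne
  have hY2 : ∃ a ∈ Y, ∃ b ∈ Y, a ≠ b := ⟨η₀, hη₀, conjFun η₀, by rw [hY] at hη₀ ⊢; exact above_conj hη₀, (hconj _ (hYS hη₀)).symm⟩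
  have hX2 : ∃ a ∈ X, ∃ b ∈ X, a ≠ b := by
    obtain ⟨χ, hχ⟩ := hXne
    exact ⟨χ, hχ, conjFun χ, hconjX χ hχ, (hconj _ (hXS hχ)).symm⟩
  -- finite versions
  have hfin : (inducedIrrAbove H (⊥ : Subgroup N)).Finite := above_finite H ⊥
  obtain ⟨F, hF⟩ := hfin.exists_finset_coe
  have hFm : ∀ φ, φ ∈ F ↔ φ ∈ inducedIrrAbove H (⊥ : Subgroup N) := fun φ => by rw [← hF, Finset.mem_coe]
  obtain ⟨FX, hFX⟩ := (hfin.subset hXS).exists_finset_coe
  have hFXm : ∀ φ, φ ∈ FX ↔ φ ∈ X := fun φ => by rw [← hFX, Finset.mem_coe]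
  -- degrees
  obtain ⟨d, hd⟩ := exists_deg (inducedIrrAbove H (⊥ : Subgroup N)) (fun χ hχ => above_char hχ)
  have hdX : ∀ χ ∈ X, ∃ k : ℕ, d χ = H.index * p ^ k ∧ k ≠ 0 := by
    intro χ hχ
    obtain ⟨θ, h1, h2, h3, h4⟩ := hXS hχ
    obtain ⟨k, hk, -⟩ := central_data hpp hm hZH hZcent h1 h4
    refine ⟨k, ?_, ?_⟩
    · rw [hd χ (hXS hχ)] at hk
      exact_mod_cast hk
    · rintro rfl
      have h5 := indFun_one H θ
      rw [← h4, hk] at h5
      have hI : (H.index : ℂ) ≠ 0 := by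
        have : H.index ≠ 0 := Subgroup.index_ne_zero_of_finite
        exact_mod_cast this
      have h6 : θ 1 = 1 := by
        rw [pow_zero, mul_one] at h5
        have h6 : (H.index : ℂ) * (θ 1 - 1) = 0 := by linear_combination -h5
        exact sub_eq_zero.mp ((mul_eq_zero.mp h6).resolve_left hI)
      rw [hXdiff] at hχ
      apply hχ.2
      refine ⟨θ, h1, h2, ?_, h4⟩
      intro a ha
      rw [h6]
      apply IsCharacter.eq_one_of_mem_commutator (IsIrrCharacter.isCharacter h1) h6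
      have h7 : (a : N) ∈ (commutator H).map H.subtype := by
        rw [Subgroup.map_subtype_commutator H]; exact hZc ha
      obtain ⟨b, hb, hba⟩ := Subgroup.mem_map.mp h7
      rwa [Subtype.ext hba] at hb
  have hIpos : 0 < H.index := Nat.pos_of_ne_zero Subgroup.index_ne_zero_of_finite
  obtain ⟨χ₀, hχ₀F, hmin⟩ := Finset.exists_min_image FX d (by obtain ⟨χ, hχ⟩ := hXne; exact ⟨χ, (hFXm χ).mpr hχ⟩)
  have hχ₀ : χ₀ ∈ X := (hFXm _).mp hχ₀F
  obtain ⟨k₀, hk₀, hk₀0⟩ := hdX χ₀ hχ₀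
  have ha2 : 2 ≤ p ^ k₀ := hpp.two_le.trans (Nat.le_self_pow hk₀0 p)
  have hYdeg : ∀ η ∈ Y, η 1 = (H.index : ℂ) := by
    intro η hη
    rw [hY] at hη
    exact linear_degree le_rfl hη
  -- coherence of X
  have hXset : ∀ φ, φ ∈ FX ↔ (IsIrrCharacter N φ ∧ ∃ z ∈ Z, φ z ≠ φ 1) := by
    intro φ; rw [hFXm, hX]; rfl
  have hisoX : IsLinearIsometryOn (zspanOn (↑FX : Set (N → ℂ)) {1}ᶜ) (fun α => indFun N α) :=
    iso_mono hiso (zspanOn_mono (by rw [hFX]; exact hXS))
  have hcohX : IsCoherent (↑FX : Set (N → ℂ)) {1}ᶜ (fun α => indFun N α) := by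
    refine irr_central hpp hp hm hcop hZH hZcent ?_ FX hXset ?_ _ hisoX (fun α hα => hone α (zspanOn_mono (by rw [hFX]; exact hXS) hα))
    · intro χ h1 h2
      have h3 : χ ∈ X := by rw [hX]; exact ⟨h1, h2⟩
      obtain ⟨θ, h4, -, -, h5⟩ := hXS h3
      exact ⟨θ, h4, h5⟩
    · obtain ⟨a, ha, b, hb, hab⟩ := hX2
      exact Finset.one_lt_card.mpr ⟨a, (hFXm a).mpr ha, b, (hFXm b).mpr hb, hab⟩
  rw [hFX] at hcohX
  have hcohY : IsCoherent Y {1}ᶜ (fun α => indFun N α) := by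
    rw [hY]
    refine frob_base hCN hiso hone le_rfl (lt_of_le_of_ne hle fun h => hltH h.symm.le) ?_
    intro h
    have h1 : Odd ((⁅H, H⁆).relIndex H) := hoddH.of_dvd_nat (Subgroup.relIndex_dvd_card _ _)
    rw [h] at h1
    exact (Nat.not_even_iff_odd.mpr h1) (hoddI.add_odd odd_one)
  obtain ⟨-, σ, hσ, hσα⟩ := hcohX
  obtain ⟨-, τ, hτ, hτα⟩ := hcohY
  -- the divisibility
  have hdiv : ∀ ψ : G → ℂ, IsIrrCharacter G ψ → (∀ χ ∈ X, classInner ψ (σ χ) = 0) →
      ∃ k : ℤ, classInner ((fun α => indFun N α) (χ₀ - ((p ^ k₀ : ℕ) : ℂ) • η₀)) ψ = (((p ^ k₀ : ℕ) : ℤ) : ℂ) * k := by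
    intro ψ hψ hperp
    obtain ⟨ψN, hψN⟩ : ∃ ψN : N → ℂ, ψN = fun x : N => ψ x := ⟨_, rfl⟩
    have hψc : IsCharacter N ψN := by rw [hψN]; exact IsCharacter.restrict (IsIrrCharacter.isCharacter hψ) N
    have hfrob : ∀ δ : N → ℂ, classInner (indFun N δ) ψ = classInner δ ψN := by
      intro δ
      rw [hψN]
      exact frobenius N δ (IsCharacter.isClassFunction (IsIrrCharacter.isCharacter hψ))
    have hcc : ∀ χ : N → ℂ, ∃ c : ℕ, χ ∈ inducedIrrAbove H (⊥ : Subgroup N) → classInner χ ψN = c := by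
      intro χ
      by_cases h : χ ∈ inducedIrrAbove H (⊥ : Subgroup N)
      · obtain ⟨c, hc⟩ := IsCharacter.inner_nat (above_char h) hψc
        exact ⟨c, fun _ => hc⟩
      · exact ⟨0, fun h' => absurd h' h⟩
    choose c hc using hcc
    have hrel : ∀ χ ∈ X, (d χ₀ : ℂ) * c χ = d χ * c χ₀ := by
      intro χ hχ
      have hm' := sub_smul_mem (S := X) d (fun φ hφ => hd φ (hXS hφ)) hχ hχ₀
      have k1 := hfrob ((d χ₀ : ℂ) • χ - (d χ : ℂ) • χ₀)
      have k2 := hσα _ hm'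
      simp only at k2
      rw [← k2] at k1
      have i1 : (d χ₀ : ℂ) • χ = (((d χ₀ : ℕ) : ℤ) : ℂ) • χ := by simp
      have i2 : (d χ : ℂ) • χ₀ = (((d χ : ℕ) : ℤ) : ℂ) • χ₀ := by simp
      rw [i1, i2, iso_sub (isZClosed_zspan _) hσ (by rw [← zsmul_eq]; exact zspan_zsmul _ (mem_zspan_of_mem hχ)) (by rw [← zsmul_eq]; exact zspan_zsmul _ (mem_zspan_of_mem hχ₀)),
        iso_smul hσ (mem_zspan_of_mem hχ), iso_smul hσ (mem_zspan_of_mem hχ₀), classInner_sub_left, classInner_smul_left, classInner_smul_left,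
        symm_zero (hperp χ hχ), symm_zero (hperp χ₀ hχ₀), classInner_sub_left, classInner_smul_left, classInner_smul_left, hc χ (hXS hχ), hc χ₀ (hXS hχ₀)] at k1
      push_cast at k1
      linear_combination -k1
    have hd0 : (d χ₀ : ℂ) ≠ 0 := by
      rw [hk₀]
      have : H.index * p ^ k₀ ≠ 0 := Nat.mul_ne_zero hIpos.ne' (by positivity)
      exact_mod_cast this
    -- values on Z
    have hval : ∀ z ∈ Z, z ≠ 1 → (d χ₀ : ℂ) * (ψN 1 - ψN z) = c χ₀ * Nat.card N := by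
      intro z hz hz1
      have h1 := eq_sum_inner (IsCharacter.isClassFunction hψc)
      have h2 : ψN 1 - ψN z = ∑ φ : IrrCharacter N, classInner ψN φ * ((φ : N → ℂ) 1 - (φ : N → ℂ) z) := by
        have h3 := congrFun h1 1
        have h4 := congrFun h1 z
        rw [Finset.sum_apply] at h3 h4
        simp only [Pi.smul_apply, smul_eq_mul] at h3 h4
        rw [h3, h4, ← Finset.sum_sub_distrib]
        apply Finset.sum_congr rfl
        intro φ _
        ring
      have h5 : ∀ φ ∈ (Finset.univ : Finset (IrrCharacter N)), (d χ₀ : ℂ) * (classInner ψN φ * ((φ : N → ℂ) 1 - (φ : N → ℂ) z)) =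
          c χ₀ * ((φ : N → ℂ) 1 ^ 2) - c χ₀ * ((φ : N → ℂ) 1 * (φ : N → ℂ) z) := by
        intro φ _
        by_cases hφ : (φ : N → ℂ) ∈ X
        · have h6 := hrel φ hφ
          rw [← hc φ (hXS hφ), ← hd φ (hXS hφ)] at h6
          have h7 : classInner ψN (φ : N → ℂ) = classInner (φ : N → ℂ) ψN := IsCharacter.inner_comm hψc (IsIrrCharacter.isCharacter φ.2)
          rw [h7]
          linear_combination ((φ : N → ℂ) 1 - (φ : N → ℂ) z) * h6
        · have h6 : (φ : N → ℂ) z = (φ : N → ℂ) 1 := by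
            by_contra hne
            apply hφ
            rw [hX]
            exact ⟨φ.2, z, hz, hne⟩
          rw [h6]
          ring
      rw [h2, Finset.mul_sum, Finset.sum_congr rfl h5, Finset.sum_sub_distrib, ← Finset.mul_sum, ← Finset.mul_sum, sum_irr_one_sq N, sum_irr_one_mul z, if_neg hz1]
      ring
    obtain ⟨⟨z₁, hz₁⟩, hz₁1'⟩ := Subgroup.ne_bot_iff_exists_ne_one.mp hZ1
    have hz₁1 : z₁ ≠ 1 := fun h => hz₁1' (Subtype.ext h)
    -- apply the modular result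
    have hmemZ : ∀ g : G, g ∈ Z.map N.subtype ↔ ∃ hg : g ∈ N, (⟨g, hg⟩ : N) ∈ Z := by
      intro g
      constructor
      · rintro ⟨y, hy, rfl⟩
        exact ⟨y.2, hy⟩
      · rintro ⟨hg, hgz⟩
        exact ⟨⟨g, hg⟩, hgz, rfl⟩
    have hsix := TIMod.six_seven (P := P) hTI (by rw [← hN]; exact hoddN) (Z.map N.subtype)
      (by
        intro g hg
        obtain ⟨hg1, hg2⟩ := (hmemZ g).mp hg
        have := hZH hg2
        rw [hH, Subgroup.mem_subgroupOf] at this
        exact this)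
      (by
        intro x hx z hz
        rw [← hN] at hx
        obtain ⟨hg1, hg2⟩ := (hmemZ z).mp hz
        rw [hmemZ]
        exact ⟨N.mul_mem (N.mul_mem hx hg1) (N.inv_mem hx), hZn.conj_mem _ hg2 ⟨x, hx⟩⟩)
      (by
        intro z hz y hy
        obtain ⟨hg1, hg2⟩ := (hmemZ z).mp hz
        have := hZcent _ hg2 ⟨y, hPN hy⟩ (by rw [hH, Subgroup.mem_subgroupOf]; exact hy)
        exact congrArg Subtype.val this)
      hψ
      (by
        intro z hz z' hz' h1 h1'
        obtain ⟨hg1, hg2⟩ := (hmemZ z).mp hz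
        obtain ⟨hg1', hg2'⟩ := (hmemZ z').mp hz'
        have e1 := hval _ hg2 (fun h => h1 (congrArg Subtype.val h))
        have e2 := hval _ hg2' (fun h => h1' (congrArg Subtype.val h))
        have e3 : (d χ₀ : ℂ) * (ψN ⟨z', hg1'⟩ - ψN ⟨z, hg1⟩) = 0 := by linear_combination e1 - e2
        have e4 := sub_eq_zero.mp ((mul_eq_zero.mp e3).resolve_left hd0)
        rw [hψN] at e4
        exact e4.symm)
      z₁ (Subgroup.mem_map_of_mem N.subtype hz₁) (fun h => hz₁1 (Subtype.ext h))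
    obtain ⟨n, dd, hn, hdd, t, ht⟩ := hsix
    have hfinal := hval z₁ hz₁ hz₁1
    have e1 : ψN 1 = dd := by rw [hψN]; exact hdd
    have e2 : ψN z₁ = n := by rw [hψN]; exact hn
    rw [e1, e2, hk₀, ← Subgroup.card_mul_index H, hcardP] at hfinal
    have hfinal' : ((H.index * p ^ k₀ : ℕ) : ℤ) * (dd - n) = c χ₀ * (Nat.card (P : Subgroup G) * H.index : ℕ) := by
      exact_mod_cast hfinal
    rw [ht] at hfinal'
    have hP0 : (Nat.card (P : Subgroup G) : ℤ) ≠ 0 := by
      have : Nat.card (P : Subgroup G) ≠ 0 := Nat.card_pos.ne'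
      exact_mod_cast this
    have hI0 : (H.index : ℤ) ≠ 0 := by exact_mod_cast hIpos.ne'
    have hc0 : (c χ₀ : ℤ) = ((p ^ k₀ : ℕ) : ℤ) * t := by
      push_cast at hfinal' ⊢
      have : ((Nat.card (P : Subgroup G) : ℤ) * H.index) * (c χ₀ - (p : ℤ) ^ k₀ * t) = 0 := by linear_combination -hfinal'
      rcases mul_eq_zero.mp this with h | h
      · exact absurd h (mul_ne_zero hP0 hI0)
      · linarith
    refine ⟨t - c η₀, ?_⟩
    show classInner (indFun N (χ₀ - ((p ^ k₀ : ℕ) : ℂ) • η₀)) ψ = _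
    rw [hfrob, classInner_sub_left, classInner_smul_left, hc χ₀ (hXS hχ₀), hc η₀ (hYS hη₀)]
    have hc0' : (c χ₀ : ℂ) = ((p ^ k₀ : ℕ) : ℂ) * t := by exact_mod_cast hc0
    rw [hc0']
    push_cast
    ring
  have hcohXY := Sibley.glue (inducedIrrAbove H (⊥ : Subgroup N)) X Y hirrS hXS hYS hXY hX2 hY2 (fun α => indFun N α) hiso hone σ τ hσ hσα hτ hτα hχ₀ hη₀ (e := H.index) (a := p ^ k₀)
    ha2 hIpos (by rw [hd χ₀ (hXS hχ₀), hk₀, mul_comm]) hYdeg hdiv
  -- add the remaining characters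
  obtain ⟨S₀, hS₀⟩ := (hfin.subset (Set.union_subset hXS hYS)).exists_finset_coe
  have hS₀m : ∀ φ, φ ∈ S₀ ↔ φ ∈ X ∪ Y := fun φ => by rw [← hS₀, Finset.mem_coe]
  rw [← hS₀] at hcohXY
  have hdη : d η₀ = H.index := by
    have := hYdeg η₀ hη₀
    rw [hd η₀ (hYS hη₀)] at this
    exact_mod_cast this
  have hsumX : ∑ φ ∈ FX, d φ ^ 2 + Z.index = Nat.card N := sum_card_index FX hXset d (fun φ hφ => hd φ (hXS ((hFXm φ).mp hφ)))
  have hsub : FX ⊆ S₀ := fun φ hφ => (hS₀m φ).mpr (Or.inl ((hFXm φ).mp hφ))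
  have hbound : ∀ ψ ∈ F, 2 * d η₀ * d ψ < ∑ φ ∈ FX, d φ ^ 2 := by
    intro ψ hψ
    obtain ⟨θ, h1, h2, h3, h4⟩ := (hFm ψ).mp hψ
    obtain ⟨m', hm'0, hm'⟩ := IsIrrCharacter.exists_pos h1
    have h5 : d ψ = H.index * m' := by
      have := indFun_one H θ
      rw [← h4, hd ψ ((hFm ψ).mp hψ), hm'] at this
      exact_mod_cast this
    have h6 : m' ^ 2 ≤ Z.relIndex H := by
      refine degree_bound (A := Z) (B := ⊥) bot_le hZH ?_ h1 (fun a ha => ?_) hm'
      · rw [Subgroup.commutator_le]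
        intro z hz k hk
        rw [Subgroup.mem_bot, commutatorElement_eq_one_iff_mul_comm]
        exact hZcent z hz k hk
      · rw [Subgroup.mem_bot] at ha
        have : a = 1 := Subtype.ext ha
        rw [this]
    have h7 : Z.relIndex H ≠ 1 := by
      intro h
      rw [Subgroup.relIndex_eq_one] at h
      exact hltH (h.trans hZc)
    have h8 : m' < Z.relIndex H := by
      by_contra h
      push Not at h
      have h9 : 0 < Z.relIndex H := lt_of_lt_of_le (pow_pos hm'0 2) h6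
      have h10 : 2 ≤ Z.relIndex H := by omega
      nlinarith
    -- the size of Z
    have h9 : H.index ∣ Nat.card Z - 1 := by
      have := frob_index_dvd hCN (A := ⊥) (B := Z) bot_le hZH
      rwa [Subgroup.relIndex_bot_left] at this
    have h10 : Odd (Nat.card Z) := by
      apply hoddN.of_dvd_nat
      exact Subgroup.card_subgroup_dvd_card Z
    have h11 : Nat.card Z ≠ 1 := fun h => hZ1 (Subgroup.card_eq_one.mp h)
    obtain ⟨t, ht⟩ := h9
    obtain ⟨j, hj⟩ := h10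
    have hj0 : j ≠ 0 := by
      rintro rfl
      exact h11 (by omega)
    have h12 : H.index * t = 2 * j := by rw [← ht]; omega
    have h13 : 2 ∣ t := by
      have : 2 ∣ H.index * t := ⟨j, h12⟩
      exact (Nat.prime_two.dvd_mul.mp this).resolve_left (fun h => (Nat.not_even_iff_odd.mpr hoddI) (even_iff_two_dvd.mpr h))
    obtain ⟨s, hs⟩ := h13
    have hs0 : 1 ≤ s := by
      rcases Nat.eq_zero_or_pos s with h | h
      · rw [hs, h] at h12
        omega
      · exact h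
    have h14 : Nat.card Z = H.index * (2 * s) + 1 := by
      rw [← hs, h12]; exact hj
    have h15 : Nat.card Z * Z.relIndex H * H.index = Nat.card N := by
      rw [mul_assoc, Subgroup.relIndex_mul_index hZH, Subgroup.card_mul_index]
    have h16 : Z.relIndex H * H.index = Z.index := Subgroup.relIndex_mul_index hZH
    rw [← h15, h14, ← h16] at hsumX
    have h17 : ∑ φ ∈ FX, d φ ^ 2 = H.index * (2 * s) * (Z.relIndex H * H.index) := by
      have : (H.index * (2 * s) + 1) * Z.relIndex H * H.index = H.index * (2 * s) * (Z.relIndex H * H.index) + Z.relIndex H * H.index := by ring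
      omega
    rw [h17, hdη, h5]
    have h18 : 2 * H.index * (H.index * m') = (2 * (H.index * H.index)) * m' := by ring
    have h19 : H.index * (2 * s) * (Z.relIndex H * H.index) = (2 * (H.index * H.index)) * (s * Z.relIndex H) := by ring
    rw [h18, h19]
    apply Nat.mul_lt_mul_of_pos_left
    · exact lt_of_lt_of_le h8 (Nat.le_mul_of_pos_left _ hs0)
    · positivity
  have hdvd : ∀ φ ∈ F, d η₀ ∣ d φ := by
    intro φ hφ
    rw [hdη]
    exact above_degree_dvd ((hFm φ).mp hφ) (hd φ ((hFm φ).mp hφ))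
  obtain ⟨S₂, h1, h2, h3, h4⟩ := irr_add F (fun ξ hξ => hirrS ξ ((hFm ξ).mp hξ)) d (fun ξ hξ => hd ξ ((hFm ξ).mp hξ)) (fun α => indFun N α)
    (iso_mono hiso (by rw [hF])) (fun α hα => hone α (by rw [hF] at hα; exact hα)) η₀ hdvd F S₀ (Finset.Subset.refl F)
    (fun φ hφ => (hFm φ).mpr ((Set.union_subset hXS hYS) ((hS₀m φ).mp hφ))) ((hS₀m _).mpr (Or.inr hη₀)) hcohXY (∑ φ ∈ FX, d φ ^ 2)
    (Finset.sum_le_sum_of_subset hsub) hbound
  have h5 : S₂ = F := Finset.Subset.antisymm h3 h2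
  rw [h5, hF] at h4
  exact h4

end main

end CfsgLib.Sibley2
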