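import Mathlib
import Cfsg.Agent.Lib.Sibley2
import Cfsg.Agent.Lib.Frobenius7
import Cfsg.Prelude.Def_Transfer

/-!
# The small case of Feit's theorem and consequences
-/

set_option autoImplicit false
set_option linter.style.haveILetI false
set_option linter.unusedSectionVars false

open scoped ComplexConjugate commutatorElement

namespace CfsgLib.Sibley3

open Cfsg CfsgLib.CharBasic CfsgLib.CharInd CfsgLib.CharClifford CfsgLib.CharCoh CfsgLib.FrobQuot CfsgLib.FrobCoh CfsgLib.Sibley2

universe u v

theorem small_case {N : Type u} [Group N] [Finite N] {H : Subgroup N} [H.Normal] (hH1 : H ≠ ⊥) (hC : ∀ h ∈ H, h ≠ 1 → Subgroup.centralizer ({h} : Set N) ≤ H)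
    (hcard : Nat.card H = H.index + 1) : (∀ a ∈ H, ∀ b ∈ H, a * b = b * a) ∧ ∃ p : ℕ, p.Prime ∧ ∀ a ∈ H, a ^ p = 1 := by
  classical
  haveI : Fintype N := Fintype.ofFinite N
  have hI0 : H.index ≠ 0 := Subgroup.index_ne_zero_of_finite
  have key : ∀ h ∈ H, h ≠ 1 → H ≤ Subgroup.centralizer ({h} : Set N) ∧ ∀ k ∈ H, k ≠ 1 → IsConj h k := by
    intro h hh hh1
    have h1 := card_isConj_eq_index h
    have h2 : (Subgroup.centralizer ({h} : Set N)).relIndex H * H.index = (Subgroup.centralizer ({h} : Set N)).index := Subgroup.relIndex_mul_index (hC h hh hh1)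
    obtain ⟨A, hA⟩ : ∃ A : Finset N, A = Finset.univ.filter (fun x => IsConj h x) := ⟨_, rfl⟩
    obtain ⟨B, hB⟩ : ∃ B : Finset N, B = (Finset.univ.filter (fun x => x ∈ H)).erase 1 := ⟨_, rfl⟩
    have hcA : A.card = (Subgroup.centralizer ({h} : Set N)).index := by
      rw [← h1, hA, Nat.card_eq_fintype_card, Fintype.card_subtype]
    have hcB : B.card = H.index := by
      have h3 : (Finset.univ.filter (fun x => x ∈ H)).card = Nat.card H := by
        rw [Nat.card_eq_fintype_card, Fintype.card_subtype]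
      rw [hB, Finset.card_erase_of_mem (by simp [H.one_mem]), h3, hcard]
      rfl
    have hAB : A ⊆ B := by
      intro x hx
      rw [hA, Finset.mem_filter] at hx
      obtain ⟨c, hc⟩ := isConj_iff.mp hx.2
      rw [hB, Finset.mem_erase, Finset.mem_filter]
      refine ⟨?_, Finset.mem_univ _, ?_⟩
      · rintro rfl
        apply hh1
        exact conj_eq_one_iff.mp hc
      · rw [← hc]
        exact (inferInstance : H.Normal).conj_mem h hh c
    have hle := Finset.card_le_card hAB
    rw [hcA, hcB, ← h2] at hle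
    have h3 : (Subgroup.centralizer ({h} : Set N)).relIndex H ≠ 0 := by
      intro h0
      rw [h0, zero_mul] at h2
      exact Subgroup.index_ne_zero_of_finite h2.symm
    have h4 : (Subgroup.centralizer ({h} : Set N)).relIndex H = 1 := by
      have h5 : (Subgroup.centralizer ({h} : Set N)).relIndex H * H.index ≤ 1 * H.index := by rw [one_mul]; exact hle
      have h6 := Nat.le_of_mul_le_mul_right h5 (Nat.pos_of_ne_zero hI0)
      omega
    refine ⟨Subgroup.relIndex_eq_one.mp h4, ?_⟩
    intro k hk hk1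
    have h5 : A = B := by
      apply Finset.eq_of_subset_of_card_le hAB
      rw [hcA, hcB, ← h2, h4, one_mul]
    have h6 : k ∈ B := by rw [hB, Finset.mem_erase, Finset.mem_filter]; exact ⟨hk1, Finset.mem_univ _, hk⟩
    rw [← h5, hA, Finset.mem_filter] at h6
    exact h6.2
  constructor
  · intro a ha b hb
    by_cases hb1 : b = 1
    · rw [hb1, mul_one, one_mul]
    · have h1 := (key b hb hb1).1 ha
      rw [Subgroup.mem_centralizer_iff] at h1
      exact (h1 b rfl).symm
  · have h1 : Nat.card H ≠ 1 := fun h => hH1 (Subgroup.card_eq_one.mp h)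
    obtain ⟨p, hp, hpd⟩ := Nat.exists_prime_and_dvd h1
    haveI := Fact.mk hp
    obtain ⟨x, hx⟩ := exists_prime_orderOf_dvd_card' p hpd
    have hxG : orderOf (x : N) = p := (Subgroup.orderOf_coe x).trans hx
    have hx1 : (x : N) ≠ 1 := by
      intro h
      rw [h, orderOf_one] at hxG
      exact hp.one_lt.ne hxG
    refine ⟨p, hp, fun a ha => ?_⟩
    by_cases ha1 : a = 1
    · rw [ha1, one_pow]
    · obtain ⟨c, hc⟩ := isConj_iff.mp ((key x x.2 hx1).2 a ha ha1)
      rw [← hc, conj_pow, ← hxG, pow_orderOf_eq_one, mul_one, mul_inv_cancel]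

/-- centralizers in Frobenius groups given by complements -/
theorem centralizer_le_of_compl {L : Type u} [Group L] [Finite L] {H W : Subgroup L} [H.Normal] (hsup : H ⊔ W = ⊤)
    (hfpf : ∀ w ∈ W, w ≠ 1 → ∀ h ∈ H, w * h = h * w → h = 1) : ∀ h ∈ H, h ≠ 1 → Subgroup.centralizer ({h} : Set L) ≤ H := by
  intro h hh hh1 x hx
  have hx1 : x ∈ H ⊔ W := by rw [hsup]; trivial
  obtain ⟨k, hk, w, hw, rfl⟩ := Subgroup.mem_sup_of_normal_left.mp hx1
  by_cases hw1 : w = 1
  · rw [hw1, mul_one]; exact hk
  · exfalso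
    obtain ⟨k', hk', he⟩ := Frobenius7.exists_conj_of_fpf (K := H) (h := w) (hfpf w hw hw1) (y := k * w) (by rw [mul_inv_cancel_right]; exact hk)
    rw [he, Subgroup.mem_centralizer_iff] at hx
    have h1 := hx h rfl
    apply hh1
    have h2 : k'⁻¹ * h * k' = 1 := by
      apply hfpf w hw hw1
      · have := (inferInstance : H.Normal).conj_mem h hh k'⁻¹
        simpa using this
      · calc w * (k'⁻¹ * h * k') = k'⁻¹ * (k' * w * k'⁻¹ * h) * k' := by group
          _ = k'⁻¹ * (h * (k' * w * k'⁻¹)) * k' := by rw [h1]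
          _ = k'⁻¹ * h * k' * w := by group
    calc h = k' * (k'⁻¹ * h * k') * k'⁻¹ := by group
      _ = 1 := by rw [h2, mul_one, mul_inv_cancel]

end CfsgLib.Sibley3
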