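import Mathlib
import Cfsg.Agent.Lib.H7ZG
import Cfsg.Agent.Lib.H7Z9
import Cfsg.Agent.S1534
import Cfsg.Agent.S1535

/-!
# Feit's inequality for Zassenhaus groups
-/

set_option autoImplicit false
set_option linter.style.haveILetI false
set_option linter.unusedSectionVars false

open MulAction Cfsg CfsgLib.CharBasic CfsgLib.CharInd
open scoped Pointwise commutatorElement

namespace CfsgLib.H7Z

universe u v

variable {G : Type u} {Ω : Type v} [Group G] [MulAction G Ω] [Fintype G] [Fintype Ω]
variable {a b : Ω} {H : Subgroup G}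

theorem feit_simple (hZ : IsZassenhausGroup G Ω) (hab : a ≠ b) [IsSimpleGroup G] (hodd : Odd (Nat.card (stabilizer G a ⊓ stabilizer G b : Subgroup G)))
    (hHa : H ≤ stabilizer G a) (hHcard : Nat.card H + 1 = Fintype.card Ω)
    (hHfix : ∀ u ∈ H, u ≠ 1 → ∀ c : Ω, u • c = c → c = a) (hlt : 2 * Nat.card ↥(MulAction.stabilizer G a ⊓ MulAction.stabilizer G b : Subgroup G) < Nat.card H - 1) :
    IsPGroup 2 H ∧ (∃ u v : H, u * v ≠ v * u) ∧ (commutator H).index ≤ 4 * Nat.card (stabilizer G a ⊓ stabilizer G b : Subgroup G) ^ 2 + 1 := by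
  classical
  haveI : Fintype (stabilizer G a) := Fintype.ofFinite _
  haveI hn : (H.subgroupOf (stabilizer G a)).Normal := by
    constructor
    intro n hn g
    exact H_normal hZ hab hHa hHcard hHfix g.2 hn
  have hTI : ∀ g : G, g ∉ stabilizer G a → ∀ k ∈ H, g * k * g⁻¹ ∈ H → k = 1 := by
    intro g hg k hk hgk
    by_contra hk1
    exact hg (H_ti hHfix hHa hk hgk hk1)
  have hCG : ∀ k ∈ H, k ≠ 1 → Subgroup.centralizer ({k} : Set G) ≤ H := fun k hk hk1 => centralizer_le_H hZ hab hHa hHcard hHfix hk hk1
  have hC : ∀ h ∈ H.subgroupOf (stabilizer G a), h ≠ 1 → Subgroup.centralizer ({h} : Set (stabilizer G a)) ≤ H.subgroupOf (stabilizer G a) :=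
    CohTI.hC_sub hCG
  obtain ⟨u₀, hu₀, hu₀1⟩ := H_ne_bot hZ hHcard (H := H)
  have hHbot : H ≠ ⊥ := by
    rintro rfl
    exact hu₀1 (Subgroup.mem_bot.mp hu₀)
  obtain ⟨x₀, hx₀, hx₀1⟩ := exists_ne_one_EE hZ hab
  have hltN : H < stabilizer G a := by
    refine lt_of_le_of_ne hHa ?_
    intro h
    have h1 : x₀ ∈ H := by rw [h]; exact hx₀.1
    exact hab.symm (hHfix x₀ h1 hx₀1 b hx₀.2)
  have hNorm := normalizer_H hZ hab hHa hHcard hHfix
  have hidx := idx_H hZ hab hHa hHcard
  have hset := TIFrob.set_eq (K := H) (N := stabilizer G a) hCG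
  have hTIS : IsTISubset (H : Set G) := by
    intro g hg x hx hgx
    rw [hNorm] at hg
    exact hTI g hg x hx hgx
  have key : ∀ N : Subgroup G, N = Subgroup.normalizer (H : Set G) → ∀ [Fintype N],
      (Nat.card {χ : N → ℂ // IsIrrCharacter N χ ∧ ∃ k : N, (k : G) ∈ H ∧ χ k ≠ χ 1} = 1 ∧ Nat.card H = (H.subgroupOf N).index + 1 ∧ ∃ p : ℕ, p.Prime ∧ IsElementaryAbelian p H) ∨
      (Nat.card H = 2 ^ (Nat.card G).factorization 2 ∧ (⁅H, H⁆.subgroupOf H).index < 4 * (H.subgroupOf N).index ^ 2) ∨
      IsCoherent {χ : N → ℂ | IsIrrCharacter N χ ∧ ∃ k : N, (k : G) ∈ H ∧ χ k ≠ χ 1} {1}ᶜ (fun α => indFun N α) := by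
    rintro N rfl hF
    exact Cfsg.Agent.S1534.result H hHbot (H_nilpotent hZ hab hHa hHcard hHfix) hTIS (by rw [hNorm]; exact hltN) hCG
  rcases key (stabilizer G a) hNorm.symm with ⟨-, h1, -⟩ | ⟨h1, h2⟩ | h
  · exfalso
    rw [hidx] at h1
    omega
  · by_cases hcomm : ∀ u v : H, u * v = v * u
    · exfalso
      have h3 := Cfsg.Agent.S1535.result (N := stabilizer G a) (G := G) (H.subgroupOf (stabilizer G a)) (by
          intro h
          apply hHbot
          rw [Subgroup.eq_bot_iff_forall]
          intro w hw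
          have h1 : (⟨w, hHa hw⟩ : stabilizer G a) ∈ H.subgroupOf (stabilizer G a) := by rw [Subgroup.mem_subgroupOf]; exact hw
          rw [h, Subgroup.mem_bot] at h1
          exact congrArg Subtype.val h1) (by
          intro h
          rw [Subgroup.subgroupOf_eq_top] at h
          exact hltN.not_ge h) hC (by
          rw [hidx, Nat.card_congr (Subgroup.subgroupOfEquivOfLe hHa).toEquiv]
          omega) (fun α => indFun (stabilizer G a) α) (by
          rw [← FrobCoh.frob_set hC]
          exact CohTI.ti_isometry hTI) (by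
          intro α hα
          rw [← FrobCoh.frob_set hC] at hα
          exact CohTI.ti_one hα)
      rcases h3 with h3 | ⟨p, -, -, h4, -⟩
      · rw [← FrobCoh.frob_set hC] at h3
        exact coherent_false hZ hab hodd hHa hHcard hHfix hlt h3
      · apply h4
        constructor
        constructor
        intro x y
        have := hcomm ⟨(x : stabilizer G a), x.2⟩ ⟨(y : stabilizer G a), y.2⟩
        apply Subtype.ext
        apply Subtype.ext
        exact congrArg (fun z : H => (z : G)) this
    · push Not at hcomm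
      refine ⟨?_, hcomm, ?_⟩
      · exact IsPGroup.of_card h1
      · have h3 : commutator H = ⁅H, H⁆.subgroupOf H := by
          rw [← Subgroup.map_subtype_commutator]
          exact (Subgroup.comap_map_eq_self_of_injective H.subtype_injective _).symm
        rw [h3]
        rw [hidx] at h2
        omega
  · rw [hset] at h
    exact absurd (coherent_false hZ hab hodd hHa hHcard hHfix hlt h) id

theorem feit_main {n : ℕ} : ∀ {G : Type u} [Group G] [Finite G] [MulAction G Ω] (_ : Nat.card G ≤ n) (_ : IsZassenhausGroup G Ω) {a b : Ω} (_ : a ≠ b)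
    (_ : Odd (Nat.card (stabilizer G a ⊓ stabilizer G b : Subgroup G))) {H : Subgroup G}
    (_ : H ≤ stabilizer G a) (_ : Nat.card H + 1 = Fintype.card Ω)
    (_ : ∀ u ∈ H, u ≠ 1 → ∀ c : Ω, u • c = c → c = a) (_ : 2 * Nat.card ↥(MulAction.stabilizer G a ⊓ MulAction.stabilizer G b : Subgroup G) < Nat.card H - 1),
    IsPGroup 2 H ∧ (∃ u v : H, u * v ≠ v * u) ∧ (commutator H).index ≤ 4 * Nat.card (stabilizer G a ⊓ stabilizer G b : Subgroup G) ^ 2 + 1 := by
  induction n with
  | zero =>
    intro G _ _ _ hn
    have : 0 < Nat.card G := Nat.card_pos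
    omega
  | succ n ih =>
    intro G _ _ _ hn hZ a b hab hodd H hHa hHcard hHfix hlt
    classical
    haveI : Fintype G := Fintype.ofFinite G
    by_cases hS : ∀ K : Subgroup G, K.Normal → K = ⊥ ∨ K = ⊤
    · haveI : Nontrivial G := by
        obtain ⟨x, -, hx1⟩ := exists_ne_one_EE hZ hab
        exact ⟨⟨x, 1, hx1⟩⟩
      haveI : IsSimpleGroup G := { eq_bot_or_eq_top_of_normal := fun K hK => hS K hK }
      exact feit_simple hZ hab hodd hHa hHcard hHfix hlt
    · push Not at hS
      obtain ⟨K, hK, hK1, hKt⟩ := hS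
      have hZK := normal_zassenhaus hZ hK hK1
      have hHK := H_le_normal hZ hHa hHcard hHfix hK hK1
      have hcardK : Nat.card K ≤ n := by
        have h1 : Nat.card K < Nat.card G := by
          by_contra hcon
          push Not at hcon
          exact hKt (Subgroup.eq_top_of_le_card K hcon)
        omega
      have hstab : ∀ c : Ω, stabilizer K c = (stabilizer G c).subgroupOf K := by
        intro c
        ext x
        rw [mem_stabilizer_iff, Subgroup.mem_subgroupOf, mem_stabilizer_iff]
        rfl
      have hdvd : Nat.card (stabilizer K a ⊓ stabilizer K b : Subgroup K) ∣ Nat.card (stabilizer G a ⊓ stabilizer G b : Subgroup G) := by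
        rw [hstab, hstab]
        have h1 : ((stabilizer G a).subgroupOf K ⊓ (stabilizer G b).subgroupOf K) = (stabilizer G a ⊓ stabilizer G b).subgroupOf K := rfl
        rw [h1]
        have h2 : Nat.card ((stabilizer G a ⊓ stabilizer G b).subgroupOf K) = Nat.card ((stabilizer G a ⊓ stabilizer G b) ⊓ K : Subgroup G) := by
          rw [← Subgroup.inf_subgroupOf_right]
          exact Nat.card_congr (Subgroup.subgroupOfEquivOfLe inf_le_right).toEquiv
        rw [h2]
        exact Subgroup.card_dvd_of_le inf_le_left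
      have hle := Nat.le_of_dvd Nat.card_pos hdvd
      have heq : H.subgroupOf K ≃* H := Subgroup.subgroupOfEquivOfLe hHK
      have hc : Nat.card (H.subgroupOf K) = Nat.card H := Nat.card_congr heq.toEquiv
      obtain ⟨h1, h2, h3⟩ := ih hcardK hZK hab (Odd.of_dvd_nat hodd hdvd) (H := H.subgroupOf K) (by
          rw [hstab]
          exact fun x hx => hHa hx) (by rw [hc]; exact hHcard) (by
          intro u hu hu1 c hc
          exact hHfix u hu (fun h => hu1 (Subtype.ext h)) c hc) (by rw [hc]; omega)
      refine ⟨h1.of_equiv heq, ?_, ?_⟩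
      · obtain ⟨u, v, huv⟩ := h2
        refine ⟨heq u, heq v, ?_⟩
        intro h
        apply huv
        apply heq.injective
        rw [map_mul, map_mul, h]
      · have h4 : (commutator H).index = (commutator (H.subgroupOf K)).index := by
          have h5 : (commutator (H.subgroupOf K)).map heq.toMonoidHom = commutator H := by
            rw [commutator_def, commutator_def, Subgroup.map_commutator, Subgroup.map_top_of_surjective _ heq.surjective]
          rw [← h5]
          exact Subgroup.index_map_equiv _ heq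
        rw [h4]
        refine h3.trans ?_
        have := Nat.pow_le_pow_left hle 2
        omega

end CfsgLib.H7Z
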