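import Cfsg.Agent.Lib.Core
import Cfsg.Agent.Lib.Coprime
import Cfsg.Agent.Lib.H7Basic
import Cfsg.Prelude.Def_CaseTheorems
set_option autoImplicit false
set_option maxHeartbeats 400000

/-! k-generated p-cores. -/

namespace CfsgLib.H9KC

open Subgroup CfsgLib.Coprime
open scoped Pointwise

universe u

variable {G : Type u} [Group G] [Finite G] {p : ℕ} [hp : Fact p.Prime]

/-- `X` has `p`-rank more than `m` -/
def Rk (p m : ℕ) (X : Subgroup G) : Prop :=
  ∃ A : Subgroup G, A ≤ X ∧ (∀ a ∈ A, ∀ b ∈ A, a * b = b * a) ∧ (∀ a ∈ A, a ^ p = 1) ∧ p ^ m < Nat.card A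

omit [Finite G] hp in
theorem rk_iff {m : ℕ} {X : Subgroup G} : ¬ Cfsg.PRankLE p m ↥X ↔ Rk p m X := by
  unfold Cfsg.PRankLE
  push Not
  constructor
  · rintro ⟨A, hA, hAp, hc⟩
    refine ⟨A.map X.subtype, map_subtype_le A, ?_, ?_, ?_⟩
    · rintro _ ⟨a, ha, rfl⟩ _ ⟨b, hb, rfl⟩
      have := congrArg Subtype.val (hA.is_comm.comm ⟨a, ha⟩ ⟨b, hb⟩)
      exact congrArg Subtype.val this
    · rintro _ ⟨a, ha, rfl⟩
      rw [← map_pow, hAp a ha, map_one]
    · rwa [card_map_of_injective X.subtype_injective]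
  · rintro ⟨A, hAX, hA, hAp, hc⟩
    refine ⟨A.subgroupOf X, ⟨⟨?_⟩⟩, ?_, ?_⟩
    · rintro ⟨⟨a, haX⟩, ha⟩ ⟨⟨b, hbX⟩, hb⟩
      exact Subtype.ext (Subtype.ext (hA a ha b hb))
    · rintro ⟨a, haX⟩ ha
      exact Subtype.ext (hAp a ha)
    · rwa [Nat.card_congr (subgroupOfEquivOfLe hAX).toEquiv]

omit [Finite G] hp in
theorem Rk.mono {m : ℕ} {X Y : Subgroup G} (h : Rk p m X) (hXY : X ≤ Y) : Rk p m Y := by
  obtain ⟨A, hA, h1⟩ := h
  exact ⟨A, hA.trans hXY, h1⟩

omit [Finite G] hp in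
theorem Rk.conj {m : ℕ} {X : Subgroup G} (h : Rk p m X) (g : G) : Rk p m (X.map (MulAut.conj g).toMonoidHom) := by
  obtain ⟨A, hA, h1, h2, h3⟩ := h
  refine ⟨A.map (MulAut.conj g).toMonoidHom, map_mono hA, ?_, ?_, ?_⟩
  · rintro _ ⟨a, ha, rfl⟩ _ ⟨b, hb, rfl⟩
    rw [← map_mul, ← map_mul, h1 a ha b hb]
  · rintro _ ⟨a, ha, rfl⟩
    rw [← map_pow, h2 a ha, map_one]
  · rwa [card_map_of_injective (MulAut.conj g).injective]

/-- S1231 -/
theorem s1231 (m : ℕ) (H : Subgroup G) (P : Sylow p ↥H) : (∀ X : Subgroup G, X ≤ (P : Subgroup ↥H).map H.subtype → ¬ Cfsg.PRankLE p m ↥X → normalizer (X : Set G) ≤ H) ↔ (∀ g : G, g ∉ H → Cfsg.PRankLE p m ↥(H ⊓ H.map (MulAut.conj g).toMonoidHom)) := by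
  have hPs := isSyl_of_sylow P
  set P₀ := (P : Subgroup H).map H.subtype with hP₀
  constructor
  · intro hN
    -- extend to all `p`-subgroups of `H`
    have hN' : ∀ X : Subgroup G, X ≤ H → IsPGroup p X → Rk p m X → normalizer (X : Set G) ≤ H := by
      intro X hX hXp hR n hn
      obtain ⟨Q, hQ, hXQ⟩ := exists_isSyl_ge hX hXp
      obtain ⟨h, hh, hhQ⟩ := hQ.exists_conj hPs
      rw [CfsgLib.Core.smul_eq_map_conj] at hhQ
      have h1 : X.map (MulAut.conj h).toMonoidHom ≤ P₀ := by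
        rw [← hhQ]; exact map_mono hXQ
      have h2 := hN _ h1 (rk_iff.2 (hR.conj h))
      have h3 : h * n * h⁻¹ ∈ normalizer ((X.map (MulAut.conj h).toMonoidHom : Subgroup G) : Set G) := by
        rw [← CfsgLib.Core.map_conj_eq_iff, CfsgLib.Core.map_conj_mul]
        have e : h * n * h⁻¹ * h = h * n := by group
        rw [e, ← CfsgLib.Core.map_conj_mul, CfsgLib.Core.map_conj_eq_iff.2 hn]
      have h4 := H.mul_mem (H.mul_mem (H.inv_mem hh) (h2 h3)) hh
      have e : h⁻¹ * (h * n * h⁻¹) * h = n := by group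
      rwa [e] at h4
    by_contra hcon
    push Not at hcon
    obtain ⟨g, hg, hgR⟩ := hcon
    rw [rk_iff] at hgR
    obtain ⟨A, hA, h1, h2, h3⟩ := hgR
    have hAp : IsPGroup p A := by
      rintro ⟨a, ha⟩
      exact ⟨1, Subtype.ext (by
        show a ^ p ^ 1 = 1
        rw [pow_one]; exact h2 a ha)⟩
    have hex : ∃ X : Subgroup G, X ≤ H ∧ IsPGroup p X ∧ Rk p m X ∧ ∃ g : G, g ∉ H ∧ X.map (MulAut.conj g).toMonoidHom ≤ H := by
      refine ⟨A, hA.trans inf_le_left, hAp, ⟨A, le_rfl, h1, h2, h3⟩, g⁻¹, fun h => hg (by simpa using H.inv_mem h), ?_⟩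
      have h4 := map_mono (f := (MulAut.conj g⁻¹).toMonoidHom) (hA.trans inf_le_right)
      rwa [CfsgLib.Core.map_conj_mul, inv_mul_cancel, CfsgLib.Core.map_conj_one] at h4
    obtain ⟨X, ⟨hXH, hXp, hXR, g, hg, hgX⟩, hmax⟩ := (Set.toFinite {X : Subgroup G | X ≤ H ∧ IsPGroup p X ∧ Rk p m X ∧
      ∃ g : G, g ∉ H ∧ X.map (MulAut.conj g).toMonoidHom ≤ H}).exists_maximal hex
    obtain ⟨Q, hQ, hXQ⟩ := exists_isSyl_ge hXH hXp
    have hYp : IsPGroup p (X.map (MulAut.conj g).toMonoidHom) := hXp.map _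
    have hYN := hN' _ hgX hYp (hXR.conj g)
    by_cases hXQ' : X = Q
    · -- `X` Sylow
      have hY : IsSyl p (X.map (MulAut.conj g).toMonoidHom) H := ⟨hgX, by rw [card_map_of_injective (MulAut.conj g).injective, hXQ', hQ.2]⟩
      obtain ⟨h, hh, hhQ⟩ := hY.exists_conj hQ
      rw [CfsgLib.Core.smul_eq_map_conj, CfsgLib.Core.map_conj_mul, ← hXQ', CfsgLib.Core.map_conj_eq_iff] at hhQ
      have h4 := hN' X hXH hXp hXR hhQ
      apply hg
      have h5 := H.mul_mem (H.inv_mem hh) h4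
      rwa [inv_mul_cancel_left] at h5
    · have hlt : X < Q ⊓ normalizer (X : Set G) := by
        exact exists_normalizer_gt hQ.isPGroup (lt_of_le_of_ne hXQ hXQ')
      have h4 := hmax (y := Q ⊓ normalizer (X : Set G)) ⟨inf_le_left.trans hQ.1, hQ.isPGroup.to_le inf_le_left, hXR.mono hlt.le, g, hg, ?_⟩ hlt.le
      · exact absurd h4 (not_le_of_gt hlt)
      · refine le_trans ?_ hYN
        have h5 : (normalizer (X : Set G)).map (MulAut.conj g).toMonoidHom ≤ normalizer ((X.map (MulAut.conj g).toMonoidHom : Subgroup G) : Set G) := by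
          rintro _ ⟨n, hn, rfl⟩
          show g * n * g⁻¹ ∈ _
          rw [← CfsgLib.Core.map_conj_eq_iff, CfsgLib.Core.map_conj_mul]
          have e : g * n * g⁻¹ * g = g * n := by group
          rw [e, ← CfsgLib.Core.map_conj_mul, CfsgLib.Core.map_conj_eq_iff.2 hn]
        exact (map_mono inf_le_right).trans h5
  · intro hR X hX hXR g hg
    by_contra hgH
    apply hXR
    by_contra hXR'
    have h1 := rk_iff.1 hXR'
    have h2 : X ≤ H ⊓ H.map (MulAut.conj g).toMonoidHom := by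
      apply le_inf (hX.trans (map_subtype_le _))
      rw [← CfsgLib.Core.map_conj_eq_iff.2 hg]
      exact map_mono (hX.trans (map_subtype_le _))
    exact (rk_iff.2 (h1.mono h2)) (hR g hgH)

end CfsgLib.H9KC
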