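import Cfsg.Agent.Lib.Transfer3
import Cfsg.Agent.Lib.H9KC
set_option autoImplicit false
set_option maxHeartbeats 400000

/-! abelian Sylow 2-subgroups: involutions are conjugate into subgroups of rank one less. -/

namespace CfsgLib.H9Ab

open Subgroup
open scoped Pointwise

variable {G : Type*} [Group G] [Finite G]

/-- `Ω₁` of a commutative subgroup -/
def Om (S : Subgroup G) (hS : IsMulCommutative S) : Subgroup G where
  carrier := {x | x ∈ S ∧ x ^ 2 = 1}
  mul_mem' := by
    rintro a b ⟨ha, ha2⟩ ⟨hb, hb2⟩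
    refine ⟨S.mul_mem ha hb, ?_⟩
    have h : a * b = b * a := congrArg Subtype.val (hS.is_comm.comm ⟨a, ha⟩ ⟨b, hb⟩)
    have h2 : Commute a b := h
    rw [h2.mul_pow, ha2, hb2, one_mul]
  one_mem' := ⟨S.one_mem, one_pow _⟩
  inv_mem' := by
    rintro a ⟨ha, ha2⟩
    exact ⟨S.inv_mem ha, by rw [inv_pow, ha2, inv_one]⟩

omit [Finite G] in
theorem cm {S : Subgroup G} (hS : IsMulCommutative S) {a b : G} (ha : a ∈ S) (hb : b ∈ S) : a * b = b * a :=
  congrArg Subtype.val (hS.is_comm.comm (⟨a, ha⟩ : S) ⟨b, hb⟩)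

/-- cardinality of `Ω₁` from the rank -/
theorem card_Om {S : Subgroup G} (hS : IsMulCommutative S) {r : ℕ} (h1 : Cfsg.PRankLE 2 r ↥S)
    (h2 : r = 0 ∨ ¬ Cfsg.PRankLE 2 (r - 1) ↥S) : Nat.card (Om S hS) = 2 ^ r := by
  haveI : Fact (Nat.Prime 2) := ⟨Nat.prime_two⟩
  have hle : Om S hS ≤ S := fun x hx => hx.1
  have hcm : IsMulCommutative (Om S hS) := ⟨⟨fun a b => Subtype.ext (cm hS a.2.1 b.2.1)⟩⟩
  have hub : Nat.card (Om S hS) ≤ 2 ^ r := by
    have := h1 ((Om S hS).subgroupOf S) ⟨⟨by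
      rintro ⟨⟨a, haX⟩, ha⟩ ⟨⟨b, hbX⟩, hb⟩
      exact Subtype.ext (hS.is_comm.comm ⟨a, haX⟩ ⟨b, hbX⟩)⟩⟩ (by
      rintro ⟨a, haX⟩ ha
      exact Subtype.ext ha.2)
    rwa [Nat.card_congr (subgroupOfEquivOfLe hle).toEquiv] at this
  have hP : IsPGroup 2 (Om S hS) := by
    intro x
    exact ⟨1, Subtype.ext (by simpa using x.2.2)⟩
  obtain ⟨k, hk⟩ := (IsPGroup.iff_card (p := 2)).mp hP
  rw [hk] at hub ⊢
  have hkr : k ≤ r := (Nat.pow_le_pow_iff_right (by norm_num)).mp hub
  rcases h2 with h2 | h2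
  · have : k = 0 := by omega
    rw [this, h2]
  · rcases Nat.eq_zero_or_pos r with h0 | h0
    · have : k = 0 := by omega
      rw [this, h0]
    · obtain ⟨A, hAS, hAc, hA2, hlt⟩ := H9KC.rk_iff.mp h2
      have hAle : A ≤ Om S hS := fun x hx => ⟨hAS hx, hA2 x hx⟩
      have h3 := Nat.le_of_dvd Nat.card_pos (Subgroup.card_dvd_of_le hAle)
      rw [hk] at h3
      have h4 : r - 1 < k := (Nat.pow_lt_pow_iff_right (by norm_num)).mp (lt_of_lt_of_le hlt h3)
      have : k = r := by omega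
      rw [this]

theorem prod_mem_iff {V : Type*} [CommGroup V] (W : Subgroup V) (hW : W.index = 2) (F : Finset V) :
    (∀ x ∈ F, x ∉ W) → ((∏ x ∈ F, x) ∈ W ↔ Even F.card) := by
  classical
  induction F using Finset.induction_on with
  | empty => intro _; simp [W.one_mem]
  | insert a F ha ih =>
    intro h
    rw [Finset.prod_insert ha, Finset.card_insert_of_notMem ha, Subgroup.mul_mem_iff_of_index_two hW,
      ih (fun x hx => h x (Finset.mem_insert_of_mem hx)), Nat.even_add_one]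
    have := h a (Finset.mem_insert_self a F)
    tauto

/-- abelian Sylow 2-subgroup of a group without subgroup of index two: nothing central in the normalizer -/
theorem cent_eq_bot (hG : ∀ H : Subgroup G, H.index ≠ 2) (S : Sylow 2 G) (hS : IsMulCommutative (S : Subgroup G)) :
    (S : Subgroup G) ⊓ Subgroup.centralizer (Subgroup.normalizer ((S : Subgroup G) : Set G) : Set G) = ⊥ := by
  haveI : Fact (Nat.Prime 2) := ⟨Nat.prime_two⟩
  obtain ⟨N, hN, ⟨e⟩⟩ := CfsgLib.Transfer3.exists_quotient S hS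
  set C := (S : Subgroup G) ⊓ Subgroup.centralizer (Subgroup.normalizer ((S : Subgroup G) : Set G) : Set G) with hC
  by_contra hne
  have hP : IsPGroup 2 C := S.isPGroup'.to_le inf_le_left
  have h1 : Nat.card C ≠ 1 := fun h => hne ((Subgroup.card_eq_one).mp h)
  obtain ⟨k, hk⟩ := (IsPGroup.iff_card (p := 2)).mp hP
  have hk0 : k ≠ 0 := by rintro rfl; exact h1 (by simpa using hk)
  -- subgroup of index 2
  obtain ⟨D, hD⟩ : ∃ D : Subgroup C, D.index = 2 := by
    obtain ⟨k', rfl⟩ := Nat.exists_eq_succ_of_ne_zero hk0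
    obtain ⟨D, hD⟩ := Sylow.exists_subgroup_card_pow_prime (G := C) 2 (n := k') (by rw [hk]; exact pow_dvd_pow 2 (Nat.le_succ _))
    refine ⟨D, ?_⟩
    have := D.card_mul_index
    rw [hD, hk, pow_succ] at this
    exact Nat.eq_of_mul_eq_mul_left (pow_pos (by norm_num) k') this
  refine hG (D.comap (e.toMonoidHom.comp (QuotientGroup.mk' N))) ?_
  rw [Subgroup.index_comap_of_surjective _ (e.surjective.comp (QuotientGroup.mk'_surjective N)), hD]

/-- S1244 -/
theorem s1244 (hG : ∀ H : Subgroup G, H.index ≠ 2) (S : Sylow 2 G) (hS : IsMulCommutative (S : Subgroup G)) (r : ℕ) (hr1 : 1 ≤ r) (hSr : Cfsg.PRankLE 2 r (S : Subgroup G) ∧ ¬ Cfsg.PRankLE 2 (r - 1) (S : Subgroup G)) (R : Subgroup G) (hRS : R ≤ S) (hRr : Cfsg.PRankLE 2 (r - 1) R ∧ (r = 1 ∨ ¬ Cfsg.PRankLE 2 (r - 2) R)) (t : G) (ht : orderOf t = 2) (htS : t ∈ S) : ∃ n ∈ Subgroup.normalizer ((S : Subgroup G) : Set G), n * t * n⁻¹ ∈ R := by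
  classical
  haveI : Fact (Nat.Prime 2) := ⟨Nat.prime_two⟩
  have hR : IsMulCommutative R := ⟨⟨fun a b => Subtype.ext (cm hS (hRS a.2) (hRS b.2))⟩⟩
  have hV := card_Om hS hSr.1 (Or.inr hSr.2)
  have hW := card_Om hR hRr.1 (by
    rcases hRr.2 with h | h
    · left; omega
    · right; exact h)
  set V := Om (S : Subgroup G) hS with hVdef
  set W := Om R hR with hWdef
  have hWV : W ≤ V := fun x hx => ⟨hRS hx.1, hx.2⟩
  have hidx : (W.subgroupOf V).index = 2 := by
    have h1 : W.relIndex V * Nat.card W = Nat.card V := by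
      have := (W.subgroupOf V).card_mul_index
      rw [Nat.card_congr (subgroupOfEquivOfLe hWV).toEquiv, mul_comm] at this
      exact this
    have h1' : (W.subgroupOf V).index = W.relIndex V := rfl
    rw [h1']
    rw [hW, hV] at h1
    obtain ⟨r', rfl⟩ := Nat.exists_eq_succ_of_ne_zero (show r ≠ 0 by omega)
    have h2 : (2 : ℕ) ^ (r' + 1) = 2 * 2 ^ r' := by rw [pow_succ, mul_comm]
    simp only [Nat.succ_eq_add_one, Nat.add_sub_cancel] at h1
    rw [h2] at h1
    exact Nat.eq_of_mul_eq_mul_right (pow_pos (by norm_num) r') h1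
  by_contra hno
  push Not at hno
  set N := Subgroup.normalizer ((S : Subgroup G) : Set G) with hN
  have hSN : (S : Subgroup G) ≤ N := Subgroup.le_normalizer
  have hVN : ∀ n ∈ N, ∀ x ∈ V, n * x * n⁻¹ ∈ V := by
    intro n hn x hx
    refine ⟨(Subgroup.mem_normalizer_iff.mp hn x).mp hx.1, ?_⟩
    rw [conj_pow, hx.2, mul_one, mul_inv_cancel]
  have htV : t ∈ V := ⟨htS, by rw [← ht]; exact pow_orderOf_eq_one t⟩
  letI iV : CommGroup V := { (inferInstance : Group V) with mul_comm := fun a b => Subtype.ext (cm hS a.2.1 b.2.1) }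
  let f : N → V := fun n => ⟨n.1 * t * n.1⁻¹, hVN n.1 n.2 t htV⟩
  haveI : Fintype N := Fintype.ofFinite N
  let O : Finset V := Finset.image f Finset.univ
  have hOW : ∀ x ∈ O, x ∉ W.subgroupOf V := by
    intro x hx hxW
    obtain ⟨n, -, rfl⟩ := Finset.mem_image.mp hx
    exact hno n.1 n.2 hxW.1
  have hpar := prod_mem_iff (W.subgroupOf V) hidx O hOW
  -- the product is fixed by N
  let cj : N → (V →* V) := fun n =>
    { toFun := fun x => ⟨n.1 * x.1 * n.1⁻¹, hVN n.1 n.2 x.1 x.2⟩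
      map_one' := Subtype.ext (by simp)
      map_mul' := fun x y => Subtype.ext (by simp [mul_assoc]) }
  have himg : ∀ n : N, O.image (cj n) = O := by
    intro n
    ext x
    simp only [O, Finset.mem_image, Finset.mem_univ, true_and]
    constructor
    · rintro ⟨y, ⟨m, rfl⟩, rfl⟩
      refine ⟨n * m, Subtype.ext ?_⟩
      show (n * m : N).1 * t * (n * m : N).1⁻¹ = n.1 * (m.1 * t * m.1⁻¹) * n.1⁻¹
      simp [mul_assoc]
    · rintro ⟨m, rfl⟩
      refine ⟨_, ⟨n⁻¹ * m, rfl⟩, Subtype.ext ?_⟩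
      show n.1 * ((n⁻¹ * m : N).1 * t * (n⁻¹ * m : N).1⁻¹) * n.1⁻¹ = m.1 * t * m.1⁻¹
      simp [mul_assoc]
  have hcjinj : ∀ n : N, Function.Injective (cj n) := by
    intro n x y hxy
    have := congrArg Subtype.val hxy
    have h2 : n.1 * x.1 * n.1⁻¹ = n.1 * y.1 * n.1⁻¹ := this
    have h3 : n.1 * x.1 = n.1 * y.1 := mul_right_cancel h2
    exact Subtype.ext (mul_left_cancel h3)
  have hfix : ∀ n : N, cj n (∏ x ∈ O, x) = ∏ x ∈ O, x := by
    intro n
    rw [map_prod]
    conv_rhs => rw [← himg n]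
    rw [Finset.prod_image (fun x _ y _ h => hcjinj n h)]
  have hone : (∏ x ∈ O, x) = 1 := by
    have h1 : ((∏ x ∈ O, x : V) : G) ∈ (S : Subgroup G) ⊓ Subgroup.centralizer (N : Set G) := by
      refine ⟨(∏ x ∈ O, x : V).2.1, Subgroup.mem_centralizer_iff.mpr ?_⟩
      intro n hn
      have := congrArg Subtype.val (hfix ⟨n, hn⟩)
      have h2 : n * ((∏ x ∈ O, x : V) : G) * n⁻¹ = ((∏ x ∈ O, x : V) : G) := this
      exact mul_inv_eq_iff_eq_mul.mp h2
    rw [cent_eq_bot hG S hS, Subgroup.mem_bot] at h1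
    exact Subtype.ext h1
  rw [hone] at hpar
  have hev : Even O.card := hpar.mp (Subgroup.one_mem _)
  -- the orbit has odd size
  letI act : MulAction N G := MulAction.compHom G ((MulAut.conj).comp N.subtype)
  have hsm : ∀ (n : N) (x : G), n • x = n.1 * x * n.1⁻¹ := fun n x => rfl
  have hcard : O.card = (MulAction.stabilizer N t).index := by
    rw [MulAction.index_stabilizer]
    have h1 : O.card = Nat.card (O.image (Subtype.val : V → G)) := by
      rw [Nat.card_eq_fintype_card, Fintype.card_coe, Finset.card_image_of_injective _ Subtype.val_injective]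
    rw [h1]
    have h2 : ((O.image (Subtype.val : V → G) : Finset G) : Set G) = MulAction.orbit N t := by
      ext x
      rw [Finset.mem_coe, Finset.mem_image]
      constructor
      · rintro ⟨y, hy, rfl⟩
        obtain ⟨n, -, rfl⟩ := Finset.mem_image.mp hy
        exact ⟨n, rfl⟩
      · rintro ⟨n, rfl⟩
        exact ⟨f n, Finset.mem_image.mpr ⟨n, Finset.mem_univ _, rfl⟩, rfl⟩
    rw [← h2]
    rfl
  have hst : (S : Subgroup G).subgroupOf N ≤ MulAction.stabilizer N t := by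
    intro x hx
    rw [MulAction.mem_stabilizer_iff, hsm]
    have h1 : x.1 * t = t * x.1 := congrArg Subtype.val (hS.is_comm.comm ⟨x.1, hx⟩ ⟨t, htS⟩)
    rw [h1, mul_inv_cancel_right]
  have hdvd : (MulAction.stabilizer N t).index ∣ (S : Subgroup G).index :=
    (Subgroup.index_dvd_of_le hst).trans (Subgroup.relIndex_dvd_index_of_le hSN)
  rw [hcard] at hev
  have h2 : 2 ∣ (S : Subgroup G).index := (even_iff_two_dvd.mp hev).trans hdvd
  exact S.not_dvd_index h2

end CfsgLib.H9Ab
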