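import Cfsg.Agent.Lib.H9Dih
import Cfsg.Agent.Lib.Alperin
import Cfsg.Agent.Lib.PSolv
import Cfsg.Agent.Lib.H9QD3
import Cfsg.Agent.Lib.H9Sig
set_option autoImplicit false

/-! fusion of four-groups in groups with dihedral Sylow 2-subgroups. -/

namespace CfsgLib.H9Dih2

open Subgroup CfsgLib.Coprime CfsgLib.Alperin
open scoped commutatorElement Pointwise

universe u v

variable {G : Type u} [Group G]

/-- dihedral data -/
structure DD (S : Subgroup G) (ρ : G) : Prop where
  mem : ρ ∈ S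
  sq : ∀ s ∈ S, s ∉ zpowers ρ → s ^ 2 = 1
  quot : ∀ s ∈ S, ∀ t ∈ S, s ∉ zpowers ρ → t ∉ zpowers ρ → s * t⁻¹ ∈ zpowers ρ
  cent : ∀ U ≤ S, IsKleinFour U → ∀ d ∈ S, (∀ u ∈ U, u * d = d * u) → d ∈ U

theorem pgroup_mulAut_cyclic {C : Type u} [Group C] [Finite C] [h : IsCyclic C] (h2 : IsPGroup 2 C) : IsPGroup 2 (MulAut C) := by
  haveI : Fact (Nat.Prime 2) := ⟨Nat.prime_two⟩
  obtain ⟨k, hk⟩ := IsPGroup.iff_card.1 h2
  apply IsPGroup.iff_card.2
  rcases k with _ | k
  · exact ⟨0, by rw [IsCyclic.card_mulAut, hk]; simp⟩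
  · refine ⟨k, ?_⟩
    rw [IsCyclic.card_mulAut, hk, Nat.totient_prime_pow_succ Nat.prime_two]; simp

variable [Finite G]

theorem odd_cent {S : Subgroup G} {ρ : G} (h : DD S ρ) (hS : IsPGroup 2 S) {D : Subgroup G} (hD : D ≤ S) {c : G} (hcD : c ∈ D)
    (hc : c ∈ zpowers ρ) (hc2 : c ^ 2 ≠ 1) {g : G} (hg : g ∈ normalizer (D : Set G)) (ho : (orderOf g).Coprime 2) :
    g ∈ centralizer (D : Set G) := by
  haveI : Fact (Nat.Prime 2) := ⟨Nat.prime_two⟩
  set C := D ⊓ zpowers ρ with hC
  have hCcyc : IsCyclic C := by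
    have h1 : IsCyclic (C.subgroupOf (zpowers ρ)) := inferInstance
    exact isCyclic_of_surjective (subgroupOfEquivOfLe (inf_le_right : C ≤ zpowers ρ)) (subgroupOfEquivOfLe (inf_le_right : C ≤ zpowers ρ)).surjective
  have hDp : IsPGroup 2 D := hS.to_le hD
  have hCp : IsPGroup 2 C := hDp.to_le inf_le_left
  obtain ⟨⟨c', hc'⟩, hgen⟩ := hCcyc.exists_generator
  have hgen' : ∀ y ∈ C, y ∈ zpowers c' := by
    intro y hy
    obtain ⟨k, hk⟩ := hgen ⟨y, hy⟩
    exact ⟨k, congrArg Subtype.val hk⟩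
  have hc'2 : c' ^ 2 ≠ 1 := by
    intro h1
    apply hc2
    obtain ⟨k, rfl⟩ := hgen' c ⟨hcD, hc⟩
    show (c' ^ k) ^ 2 = 1
    rw [← zpow_natCast, ← zpow_mul, mul_comm, zpow_mul, zpow_natCast, h1, one_zpow]
  have hconj : ∀ g ∈ normalizer (D : Set G), ∀ y ∈ C, g * y * g⁻¹ ∈ C := by
    intro g hg y hy
    have h1 : g * c' * g⁻¹ ∈ C := by
      have h2 : g * c' * g⁻¹ ∈ D := (mem_normalizer_iff.1 hg c').1 hc'.1
      refine ⟨h2, ?_⟩
      by_contra h3
      have h4 := h.sq _ (hD h2) h3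
      apply hc'2
      have h5 : (g * c' * g⁻¹) ^ 2 = g * c' ^ 2 * g⁻¹ := by rw [conj_pow]
      rw [h5] at h4
      have := congrArg (fun t => g⁻¹ * t * g) h4
      simpa [mul_assoc] using this
    obtain ⟨k, rfl⟩ := hgen' y hy
    show g * c' ^ k * g⁻¹ ∈ C
    rw [← conj_zpow]
    exact C.zpow_mem h1 k
  have hNC : normalizer (D : Set G) ≤ normalizer (C : Set G) := by
    intro g hg
    apply CfsgLib.H7Basic.mem_normalizer_of_conj_mem
    exact hconj g hg
  have hgC : g ∈ centralizer (C : Set G) := by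
    have h1 : Subgroup.normalizerMonoidHom C ⟨g, hNC hg⟩ = 1 := by
      have h2 : orderOf (Subgroup.normalizerMonoidHom C ⟨g, hNC hg⟩) ∣ orderOf g := by
        have := orderOf_map_dvd (Subgroup.normalizerMonoidHom C) ⟨g, hNC hg⟩
        rwa [orderOf_mk] at this
      haveI := hCcyc
      obtain ⟨k, hk⟩ := IsPGroup.iff_card.1 (pgroup_mulAut_cyclic hCp)
      have h3 := _root_.orderOf_dvd_natCard (Subgroup.normalizerMonoidHom C ⟨g, hNC hg⟩)
      rw [hk] at h3
      exact orderOf_eq_one_iff.1 (Nat.eq_one_of_dvd_coprimes (ho.pow_right k) h2 h3)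
    have h2 : (⟨g, hNC hg⟩ : normalizer (C : Set G)) ∈ (Subgroup.normalizerMonoidHom C).ker := h1
    rw [Subgroup.normalizerMonoidHom_ker] at h2
    exact h2
  have hzC : ∀ a ∈ zpowers g, ∀ y ∈ C, a * y * a⁻¹ = y := by
    intro a ha y hy
    have h1 : zpowers g ≤ centralizer (C : Set G) := (zpowers_le).2 hgC
    rw [← mem_centralizer_iff.1 (h1 ha) y hy]; group
  have hcop : CopAct (zpowers g) D := by
    refine ⟨(zpowers_le).2 hg, ?_, Or.inl (CfsgLib.H9Sig.solv_zpowers _)⟩
    obtain ⟨k, hk⟩ := IsPGroup.iff_card.1 hDp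
    rw [Nat.card_zpowers, hk]
    exact ho.pow_right k
  have h1 := hcop.le_centralizer_of_quotient (N := C) (by
    intro a ha
    rw [mem_centralizer_iff]
    intro y hy
    have h2 := hzC a ha y hy
    rw [mul_inv_eq_iff_eq_mul] at h2
    exact h2.symm) (by
    rw [commutator_le]
    intro d hd a ha
    have haN : a ∈ normalizer (D : Set G) := (zpowers_le.2 hg) ha
    have h2 : a * d * a⁻¹ ∈ D := (mem_normalizer_iff.1 haN d).1 hd
    have h3 : ⁅d, a⁆ = d * (a * d * a⁻¹)⁻¹ := by rw [commutatorElement_def]; group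
    rw [h3]
    by_cases hdR : d ∈ zpowers ρ
    · rw [hzC a ha d ⟨hd, hdR⟩, mul_inv_cancel]; exact C.one_mem
    · have h4 : a * d * a⁻¹ ∉ zpowers ρ := by
        intro h5
        have h6 := hzC a⁻¹ ((zpowers g).inv_mem ha) _ ⟨h2, h5⟩
        have h7 : a⁻¹ * (a * d * a⁻¹) * a⁻¹⁻¹ = d := by group
        rw [h7] at h6
        rw [← h6] at h5
        exact hdR h5
      exact ⟨D.mul_mem hd (D.inv_mem h2), h.quot _ (hD hd) _ (hD h2) hdR h4⟩)
  exact h1 (mem_zpowers g)

theorem step {P : Subgroup G} {ρ : G} (h : DD P ρ) (hP : IsPGroup 2 P) {D : Subgroup G} (hD : D ≤ P) {c : G} (hcD : c ∈ D)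
    (hc : c ∈ zpowers ρ) (hc2 : c ^ 2 ≠ 1) (hsyl : IsSyl 2 (P ⊓ normalizer (D : Set G)) (normalizer (D : Set G))) {x : G} (hx : x ∈ normalizer (D : Set G)) :
    ∃ s ∈ P, ∀ u ∈ D, x⁻¹ * u * x = s⁻¹ * u * s := by
  haveI : Fact (Nat.Prime 2) := ⟨Nat.prime_two⟩
  haveI hCn := CfsgLib.H9QD3.cent_normal D
  have hCN : centralizer (D : Set G) ≤ normalizer (D : Set G) := centralizer_le_normalizer _
  obtain ⟨k, hk⟩ : ∃ k, (centralizer (D : Set G)).relIndex (normalizer (D : Set G)) = 2 ^ k := by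
    have h1 : IsPGroup 2 (normalizer (D : Set G) ⧸ (centralizer (D : Set G)).subgroupOf (normalizer (D : Set G))) := by
      intro q
      obtain ⟨⟨g, hg⟩, rfl⟩ := QuotientGroup.mk'_surjective _ q
      obtain ⟨m, hm1, hm2, hm3⟩ := Nat.exists_eq_pow_mul_and_not_dvd (orderOf_pos g).ne' 2 (by norm_num)
      refine ⟨m, ?_⟩
      rw [← map_pow]
      apply (QuotientGroup.eq_one_iff _).2
      show g ^ 2 ^ m ∈ centralizer (D : Set G)
      apply odd_cent h hP hD hcD hc hc2 ((normalizer (D : Set G)).pow_mem hg _)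
      rw [orderOf_pow_of_dvd (by positivity) ⟨hm1, hm3⟩, hm3, Nat.mul_div_cancel_left _ (by positivity)]
      exact ((Nat.Prime.coprime_iff_not_dvd Nat.prime_two).2 hm2).symm
    exact IsPGroup.iff_card.1 h1
  have h1 := CfsgLib.PSolv.isSyl_sup_eq hsyl hCN ((normal_subgroupOf_iff_le_normalizer hCN).1 hCn) hk
  rw [← h1, sup_comm] at hx
  obtain ⟨c, hc, s, hs, rfl⟩ := (mem_sup_iff (inf_le_right.trans ((normal_subgroupOf_iff_le_normalizer hCN).1 hCn)) x).1 hx
  refine ⟨s, hs.1, fun u hu => ?_⟩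
  have h2 := mem_centralizer_iff.1 hc u hu
  calc (c * s)⁻¹ * u * (c * s) = s⁻¹ * c⁻¹ * (u * c) * s := by group
    _ = s⁻¹ * c⁻¹ * (c * u) * s := by rw [h2]
    _ = _ := by group

theorem klein_cj {U : Subgroup G} (hU : IsKleinFour U) (g : G) : IsKleinFour (U.map (MulAut.conj g).toMonoidHom) := by
  have e := (U.equivMapOfInjective (MulAut.conj g).toMonoidHom (MulAut.conj g).injective)
  refine ⟨?_, ?_⟩
  · rw [← Nat.card_congr e.toEquiv]; exact hU.card_four
  · rw [← Monoid.exponent_eq_of_mulEquiv e]; exact hU.exponent_two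

theorem klein_comm {U : Subgroup G} (hU : IsKleinFour U) {a b : G} (ha : a ∈ U) (hb : b ∈ U) : a * b = b * a := by
  haveI := hU
  exact congrArg Subtype.val (IsKleinFour.isMulCommutative.is_comm.comm (⟨a, ha⟩ : U) ⟨b, hb⟩)

theorem chain {P : Sylow 2 G} {ρ : G} (h : DD (P : Subgroup G) ρ) {A : Set G} {g : G} (hc : Chain P A g) :
    ∀ U : Subgroup G, IsKleinFour U → U ≤ P → A = (U : Set G) → ∃ s ∈ (P : Subgroup G), cj g A = cj s A := by
  haveI : Fact (Nat.Prime 2) := ⟨Nat.prime_two⟩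
  induction hc with
  | nil A => intro U hU hUP hA; exact ⟨1, one_mem _, rfl⟩
  | @cons A Q x g ht hx hA hch ih =>
    intro U hU hUP hAU
    subst hAU
    set D := (P : Subgroup G) ⊓ (Q : Subgroup G) with hD
    have hDP : D ≤ P := inf_le_left
    have hUD : U ≤ D := hA
    -- the first step
    obtain ⟨s, hs, hsU⟩ : ∃ s ∈ (P : Subgroup G), cj x (U : Set G) = cj s U := by
      by_cases hc : ∃ c ∈ D, c ∈ zpowers ρ ∧ c ^ 2 ≠ 1
      · obtain ⟨c, hcD, hc1, hc2⟩ := hc
        obtain ⟨R, hR, hRU⟩ := exists_isSyl_ge (K := normalizer (D : Set G)) (U := (P : Subgroup G) ⊓ normalizer (D : Set G)) inf_le_right (P.isPGroup'.to_le inf_le_left)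
        have hsyl : IsSyl 2 ((P : Subgroup G) ⊓ normalizer (D : Set G)) (normalizer (D : Set G)) := by
          have h3 : (P : Subgroup G) ⊓ normalizer (D : Set G) = R := by
            by_contra hne
            have hlt := lt_of_le_of_ne hRU hne
            apply ht.1
            have h4 : ((P : Subgroup G) ⊓ normalizer (D : Set G)).relIndex R ∣ ((P : Subgroup G) ⊓ normalizer (D : Set G)).relIndex (normalizer (D : Set G)) :=
              Dvd.intro _ (relIndex_mul_relIndex _ _ _ hRU hR.1)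
            refine dvd_trans ?_ h4
            obtain ⟨a, ha⟩ := IsPGroup.iff_card.1 hR.isPGroup
            have h5 := CfsgLib.H7Basic.card_mul_relIndex hRU
            have h6 : ((P : Subgroup G) ⊓ normalizer (D : Set G)).relIndex R ∣ 2 ^ a := by rw [← ha, ← h5]; exact dvd_mul_left _ _
            obtain ⟨b, -, hb⟩ := (Nat.dvd_prime_pow Nat.prime_two).1 h6
            rw [hb]
            rcases b with _ | b
            · exfalso
              rw [pow_zero] at hb
              exact hne (le_antisymm hRU (relIndex_eq_one.1 hb))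
            · exact dvd_pow_self 2 (by omega)
          rw [h3]; exact hR
        obtain ⟨s, hs, hsu⟩ := step h P.isPGroup' hDP hcD hc1 hc2 hsyl hx
        refine ⟨s, hs, ?_⟩
        apply Set.image_congr
        intro u hu
        exact hsu u (hUD hu)
      · push_neg at hc
        have hall : ∀ d ∈ D, d ^ 2 = 1 := by
          intro d hd
          by_cases hdR : d ∈ zpowers ρ
          · exact hc d hd hdR
          · exact h.sq d (hDP hd) hdR
        have hDU : D ≤ U := by
          intro d hd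
          apply h.cent U hUP hU d (hDP hd)
          intro u hu
          have h1 := hall _ (D.mul_mem (hUD hu) hd)
          have h2 := hall _ (hUD hu)
          have h3 := hall _ hd
          rw [pow_two] at h1 h2 h3
          have h4 : (u * d)⁻¹ = u * d := inv_eq_of_mul_eq_one_left h1
          rw [mul_inv_rev, inv_eq_of_mul_eq_one_left h2, inv_eq_of_mul_eq_one_left h3] at h4
          exact h4.symm
        have hDU' : D = U := le_antisymm hDU hUD
        refine ⟨1, one_mem _, ?_⟩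
        rw [← hDU', CfsgLib.Alperin.cj_one, ← coe_conj_inv]
        have h1 : MulAut.conj x⁻¹ • D = D := by
          have := (CfsgLib.Core.map_conj_eq_iff (K := D) (g := x⁻¹)).2 ((normalizer (D : Set G)).inv_mem hx)
          exact this
        rw [h1]
    -- the rest
    have hU' : IsKleinFour (U.map (MulAut.conj s⁻¹).toMonoidHom) := klein_cj hU _
    have hU'P : U.map (MulAut.conj s⁻¹).toMonoidHom ≤ P := by
      rintro _ ⟨u, hu, rfl⟩
      exact (P : Subgroup G).mul_mem ((P : Subgroup G).mul_mem ((P : Subgroup G).inv_mem hs) (hUP hu)) ((P : Subgroup G).inv_mem ((P : Subgroup G).inv_mem hs))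
    obtain ⟨s', hs', hs'e⟩ := ih _ hU' hU'P (by rw [hsU, ← coe_conj_inv]; rfl)
    refine ⟨s * s', (P : Subgroup G).mul_mem hs hs', ?_⟩
    rw [cj_mul, hs'e, hsU, ← cj_mul]

theorem fuse {P : Sylow 2 G} {ρ : G} (h : DD (P : Subgroup G) ρ) {U V : Subgroup G} (hU : IsKleinFour U) (hUP : U ≤ P) (hVP : V ≤ P)
    {x : G} (hx : U.map (MulAut.conj x).toMonoidHom = V) : ∃ s ∈ (P : Subgroup G), U.map (MulAut.conj s).toMonoidHom = V := by
  haveI : Fact (Nat.Prime 2) := ⟨Nat.prime_two⟩
  have h1 : cj x⁻¹ (U : Set G) = V := by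
    rw [← coe_conj_inv, inv_inv, ← hx]; rfl
  obtain ⟨s, hs, hse⟩ := chain h (alperin P (U : Set G) x⁻¹ hUP (by rw [h1]; exact hVP)) U hU hUP rfl
  refine ⟨s⁻¹, (P : Subgroup G).inv_mem hs, ?_⟩
  rw [h1, ← coe_conj_inv] at hse
  exact SetLike.coe_injective hse.symm

/-! ### four-groups of dihedral groups -/

section dih
open DihedralGroup
open CfsgLib.H9Dih (zmod_two klein klein_cent isKleinFour)

variable {m : ℕ}

/-- parity of residues -/
def par (hm : 2 ∣ m) : ZMod m →+* ZMod 2 := ZMod.castHom hm (ZMod 2)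

theorem par_two (hm : 2 ∣ m) (i : ZMod m) : par hm (i + i) = 0 := by
  rw [map_add]; exact CharTwo.add_self_eq_zero _

theorem par_half (hm : 4 ∣ m) (h0 : 0 < m) {j : ZMod m} (hj : j + j = 0) : par ((by norm_num : 2 ∣ 4).trans hm) j = 0 := by
  obtain ⟨n, rfl⟩ := hm
  haveI : NeZero (4 * n) := ⟨by omega⟩
  by_cases hj0 : j = 0
  · rw [hj0, map_zero]
  · have h1 : ((2 * n : ℕ) : ZMod (4 * n)) + ((2 * n : ℕ) : ZMod (4 * n)) = 0 := by
      rw [← Nat.cast_add, show 2 * n + 2 * n = 4 * n by ring]; exact ZMod.natCast_self _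
    have h2 : ((2 * n : ℕ) : ZMod (4 * n)) ≠ 0 := by
      rw [Ne, ZMod.natCast_eq_zero_iff]
      intro h3
      have := Nat.le_of_dvd (by omega) h3
      omega
    rw [zmod_two h0 hj h1 hj0 h2, map_natCast]
    rw [ZMod.natCast_eq_zero_iff]
    exact ⟨n, rfl⟩

theorem par_ker (hm : 2 ∣ m) (h0 : 0 < m) {i : ZMod m} (hi : par hm i = 0) : ∃ k, i = k + k := by
  haveI : NeZero m := ⟨by omega⟩
  have h1 : par hm i = ((i.val : ℕ) : ZMod 2) := by
    conv_lhs => rw [← ZMod.natCast_zmod_val i]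
    exact map_natCast _ _
  rw [h1, ZMod.natCast_eq_zero_iff] at hi
  obtain ⟨t, ht⟩ := hi
  refine ⟨(t : ZMod m), ?_⟩
  rw [← Nat.cast_add, ← two_mul, ← ht, ZMod.natCast_zmod_val]

theorem klein_mem (h0 : 0 < m) {T : Subgroup (DihedralGroup m)} (hT : IsKleinFour T) {i j : ZMod m} (hj : j ≠ 0) (hjj : j + j = 0)
    (hi : sr i ∈ T) (g : DihedralGroup m) : g ∈ T ↔ g = 1 ∨ g = r j ∨ g = sr i ∨ g = sr (i + j) := by
  have hrj : r j ∈ T := by
    obtain ⟨i', j', hj'0, hj', -, h1⟩ := klein h0 hT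
    rwa [zmod_two h0 hjj hj' hj hj'0]
  have hsub : ({1, r j, sr i, sr (i + j)} : Set (DihedralGroup m)) ⊆ T := by
    rintro g (rfl | rfl | rfl | rfl)
    · exact T.one_mem
    · exact hrj
    · exact hi
    · have := T.mul_mem hi hrj
      rwa [sr_mul_r] at this
  have hcard : (T : Set (DihedralGroup m)).ncard = 4 := by rw [← Nat.card_coe_set_eq]; exact hT.card_four
  have h4 : ({1, r j, sr i, sr (i + j)} : Set (DihedralGroup m)).ncard = 4 := by
    rw [Set.ncard_insert_of_notMem, Set.ncard_insert_of_notMem, Set.ncard_insert_of_notMem, Set.ncard_singleton]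
    · intro h
      have := sr.inj h
      exact hj (by simpa using this.symm)
    · rintro (h | h) <;> cases h
    · rintro (h | h | h)
      · rw [one_def] at h
        exact hj (r.inj h).symm
      · cases h
      · cases h
  haveI : Finite (DihedralGroup m) := by
    haveI : NeZero m := ⟨by omega⟩
    infer_instance
  have h5 := Set.eq_of_subset_of_ncard_le hsub (by rw [hcard, h4])
  rw [← SetLike.mem_coe, ← h5]
  simp

/-- the four-group through `sr i` -/
theorem exists_klein (hm : 2 ∣ m) (h0 : 0 < m) (i : ZMod m) : ∃ T : Subgroup (DihedralGroup m), IsKleinFour T ∧ sr i ∈ T := by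
  obtain ⟨n, rfl⟩ := hm
  set j : ZMod (2 * n) := (n : ZMod (2 * n)) with hj
  have hjj : j + j = 0 := by
    rw [hj, ← Nat.cast_add, ← two_mul]; exact ZMod.natCast_self _
  have hj0 : j ≠ 0 := by
    rw [hj, Ne, ZMod.natCast_eq_zero_iff]
    intro h3
    have := Nat.le_of_dvd (by omega) h3
    omega
  have hjn : -j = j := neg_eq_of_add_eq_zero_left hjj
  let T : Subgroup (DihedralGroup (2 * n)) :=
    { carrier := {1, r j, sr i, sr (i + j)}
      one_mem' := by simp
      mul_mem' := by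
        have e1 : i - (i + j) = j := by rw [sub_add_eq_sub_sub, sub_self, zero_sub, hjn]
        have e2 : i + j - i = j := by ring
        have e3 : i - j = i + j := by rw [sub_eq_add_neg, hjn]
        have e4 : i + j + j = i := by rw [add_assoc, hjj, add_zero]
        rintro a b (rfl | rfl | rfl | rfl) (rfl | rfl | rfl | rfl) <;>
          simp only [mul_one, one_mul, r_mul_r, r_mul_sr, sr_mul_r, sr_mul_sr, hjj, e1, e2, e3, e4, sub_self, add_sub_cancel_right, Set.mem_insert_iff, Set.mem_singleton_iff, one_def, true_or, or_true, add_zero, zero_add, sub_zero]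
      inv_mem' := by
        rintro a (rfl | rfl | rfl | rfl) <;> simp [hjn] }
  have hcard : Nat.card T = 4 := by
    have h4 : ({1, r j, sr i, sr (i + j)} : Set (DihedralGroup (2 * n))).ncard = 4 := by
      rw [Set.ncard_insert_of_notMem, Set.ncard_insert_of_notMem, Set.ncard_insert_of_notMem, Set.ncard_singleton]
      · intro h
        have := sr.inj h
        exact hj0 (by simpa using this.symm)
      · rintro (h | h) <;> cases h
      · rintro (h | h | h)
        · rw [one_def] at h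
          exact hj0 (r.inj h).symm
        · cases h
        · cases h
    rw [← h4]; exact Nat.card_coe_set_eq _
  refine ⟨T, isKleinFour T hcard ?_, Or.inr (Or.inr (Or.inl rfl))⟩
  rintro k (rfl | rfl | rfl | rfl)
  · exact one_pow 2
  · rw [pow_two, r_mul_r, hjj]; rfl
  · rw [pow_two, sr_mul_self]
  · rw [pow_two, sr_mul_self]

theorem par_const (hm : 4 ∣ m) (h0 : 0 < m) {T : Subgroup (DihedralGroup m)} (hT : IsKleinFour T) {i i' : ZMod m} (hi : sr i ∈ T) (hi' : sr i' ∈ T) :
    par ((by norm_num : 2 ∣ 4).trans hm) i = par ((by norm_num : 2 ∣ 4).trans hm) i' := by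
  have h1 := T.mul_mem hi hi'
  rw [sr_mul_sr] at h1
  obtain ⟨a, j, hj0, hj, ha, hrj⟩ := klein h0 hT
  have h2 : (i' - i) + (i' - i) = 0 := by
    rcases (klein_mem h0 hT hj0 hj ha _).1 h1 with h | h | h | h
    · rw [one_def] at h
      rw [r.inj h]; simp
    · rw [r.inj h]; exact hj
    · cases h
    · cases h
  have h3 := par_half hm h0 h2
  rw [map_sub, sub_eq_zero] at h3
  exact h3.symm

theorem par_conj (hm : 2 ∣ m) (g : DihedralGroup m) (i : ZMod m) : ∃ i', g * sr i * g⁻¹ = sr i' ∧ par hm i' = par hm i := by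
  rcases g with k | k
  · refine ⟨i - k - k, ?_, ?_⟩
    · rw [inv_r, r_mul_sr, sr_mul_r]; congr 1; ring
    · rw [sub_sub, map_sub, par_two, sub_zero]
  · refine ⟨k - (i - k), ?_, ?_⟩
    · rw [inv_sr, sr_mul_sr, r_mul_sr]
    · have : k - (i - k) = (k + k) + -i := by ring
      rw [this, map_add, par_two, zero_add, map_neg]
      exact CharTwo.neg_eq _

theorem conj_of_par (hm : 2 ∣ m) (h0 : 0 < m) {T T' : Subgroup (DihedralGroup m)} (hT : IsKleinFour T) (hT' : IsKleinFour T')
    {i i' : ZMod m} (hi : sr i ∈ T) (hi' : sr i' ∈ T') (hp : par hm i = par hm i') :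
    ∃ g : DihedralGroup m, T.map (MulAut.conj g).toMonoidHom = T' := by
  obtain ⟨k, hk⟩ := par_ker hm h0 (i := i - i') (by rw [map_sub, hp, sub_self])
  have hkc : (r k : DihedralGroup m) * sr i * (r k)⁻¹ = sr i' := by
    rw [inv_r, r_mul_sr, sr_mul_r]
    congr 1
    have : i - k + -k = i - (k + k) := by ring
    rw [this, ← hk]; ring
  haveI : Finite (DihedralGroup m) := by
    haveI : NeZero m := ⟨by omega⟩
    infer_instance
  refine ⟨r k, ?_⟩
  obtain ⟨a, j, hj0, hj, ha, hrj⟩ := klein h0 hT'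
  have hT1 := CfsgLib.H9Dih2.klein_cj hT (r k)
  have h1 : sr i' ∈ T.map (MulAut.conj (r k)).toMonoidHom := ⟨sr i, hi, hkc⟩
  ext g
  rw [klein_mem h0 hT1 hj0 hj h1, klein_mem h0 hT' hj0 hj hi']

end dih

/-- the dihedral data of a dihedral subgroup -/
theorem dd_of {P : Subgroup G} {m : ℕ} (h0 : 0 < m) (e : P ≃* DihedralGroup m) : DD P (e.symm (DihedralGroup.r 1)) := by
  have hmem : ∀ s (hs : s ∈ P), s ∈ zpowers ((e.symm (DihedralGroup.r 1) : P) : G) ↔ ∃ i, e ⟨s, hs⟩ = DihedralGroup.r i := by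
    intro s hs
    constructor
    · rintro ⟨k, hk⟩
      refine ⟨(k : ZMod m), ?_⟩
      have h1 : (⟨s, hs⟩ : P) = (e.symm (DihedralGroup.r 1)) ^ k := Subtype.ext hk.symm
      rw [h1, map_zpow, e.apply_symm_apply, DihedralGroup.r_one_zpow]
    · rintro ⟨i, hi⟩
      haveI : NeZero m := ⟨by omega⟩
      refine ⟨(i.val : ℤ), ?_⟩
      have h1 : (⟨s, hs⟩ : P) = (e.symm (DihedralGroup.r 1)) ^ (i.val : ℤ) := by
        apply e.injective
        rw [hi, map_zpow, e.apply_symm_apply, DihedralGroup.r_one_zpow]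
        simp
      exact (congrArg Subtype.val h1).symm
  refine ⟨(e.symm (DihedralGroup.r 1)).2, ?_, ?_, ?_⟩
  · intro s hs hsn
    rw [hmem s hs] at hsn
    have h1 : (⟨s, hs⟩ : P) ^ 2 = 1 := by
      apply e.injective
      rw [map_pow, map_one]
      rcases hes : e ⟨s, hs⟩ with i | i
      · exact absurd ⟨i, hes⟩ hsn
      · rw [pow_two, DihedralGroup.sr_mul_self]
    exact congrArg Subtype.val h1
  · intro s hs t ht hsn htn
    rw [hmem s hs] at hsn
    rw [hmem t ht] at htn
    rw [hmem _ (P.mul_mem hs (P.inv_mem ht))]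
    have h1 : e ⟨s * t⁻¹, P.mul_mem hs (P.inv_mem ht)⟩ = e ⟨s, hs⟩ * (e ⟨t, ht⟩)⁻¹ := by
      rw [← map_inv, ← map_mul]; rfl
    rw [h1]
    rcases hes : e ⟨s, hs⟩ with i | i
    · exact absurd ⟨i, hes⟩ hsn
    · rcases het : e ⟨t, ht⟩ with j | j
      · exact absurd ⟨j, het⟩ htn
      · rw [DihedralGroup.inv_sr, DihedralGroup.sr_mul_sr]; exact ⟨_, rfl⟩
  · intro U hUP hU d hd hdc
    have hk : IsKleinFour ((U.subgroupOf P).map e.toMonoidHom) := by
      have e1 := ((subgroupOfEquivOfLe hUP).symm.trans ((U.subgroupOf P).equivMapOfInjective e.toMonoidHom e.injective))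
      refine ⟨?_, ?_⟩
      · rw [← Nat.card_congr e1.toEquiv]; exact hU.card_four
      · rw [← Monoid.exponent_eq_of_mulEquiv e1]; exact hU.exponent_two
    have h1 : e ⟨d, hd⟩ ∈ centralizer (((U.subgroupOf P).map e.toMonoidHom : Subgroup (DihedralGroup m)) : Set (DihedralGroup m)) := by
      rw [mem_centralizer_iff]
      rintro _ ⟨u, hu, rfl⟩
      show e u * e ⟨d, hd⟩ = e ⟨d, hd⟩ * e u
      rw [← map_mul, ← map_mul]
      congr 1
      exact Subtype.ext (hdc u hu)
    rw [CfsgLib.H9Dih.klein_cent h0 hk] at h1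
    obtain ⟨u, hu, hue⟩ := h1
    have := e.injective hue
    rw [this] at hu
    exact hu

theorem main (S : Sylow 2 G) (m : ℕ) (hm : 2 ≤ m) (eS : (S : Subgroup G) ≃* DihedralGroup m) : (Nat.card S = 4 → ∀ U V : Subgroup G, IsKleinFour U → IsKleinFour V → (∃ x : G, U.map (MulAut.conj x).toMonoidHom = V)) ∧ (4 < Nat.card S → ∃ U₁ U₂ : Subgroup G, IsKleinFour U₁ ∧ IsKleinFour U₂ ∧ ¬ (∃ x : G, U₁.map (MulAut.conj x).toMonoidHom = U₂) ∧ ∀ V : Subgroup G, IsKleinFour V → (∃ x : G, V.map (MulAut.conj x).toMonoidHom = U₁) ∨ (∃ x : G, V.map (MulAut.conj x).toMonoidHom = U₂)) := by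
  have h2g : ∀ U : Subgroup G, IsKleinFour U → IsPGroup 2 U := by
    intro U hU
    apply IsPGroup.iff_card.2
    exact ⟨2, by rw [hU.card_four]; norm_num⟩
  have hcardS : Nat.card S = 2 * m := by
    rw [Nat.card_congr eS.toEquiv, DihedralGroup.nat_card]
  constructor
  · intro h4 U V hU hV
    have key : ∀ U : Subgroup G, IsKleinFour U → ∃ x : G, U.map (MulAut.conj x).toMonoidHom = S := by
      intro U hU
      obtain ⟨Q, hQ⟩ := (h2g U hU).exists_le_sylow
      obtain ⟨x, hx⟩ := MulAction.exists_smul_eq G Q S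
      refine ⟨x, ?_⟩
      have h1 : U = Q := by
        apply eq_of_le_of_card_ge hQ
        rw [hU.card_four, ← h4]
        exact (Nat.card_congr (Q.equiv S).toEquiv).le
      rw [h1, ← hx]; rfl
    obtain ⟨x, hx⟩ := key U hU
    obtain ⟨y, hy⟩ := key V hV
    refine ⟨y⁻¹ * x, ?_⟩
    rw [← CfsgLib.Core.map_conj_mul, hx, ← hy, CfsgLib.Core.map_conj_mul, inv_mul_cancel, CfsgLib.Core.map_conj_one]
  · intro h4
    have hm4 : 4 ∣ m := by
      obtain ⟨a, ha⟩ := IsPGroup.iff_card.1 S.isPGroup'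
      have h1 : 2 * m = 2 ^ a := by rw [← hcardS]; exact ha
      rw [hcardS] at h4
      have h2 : 3 ≤ a := by
        by_contra h
        have : a ≤ 2 := by omega
        have := Nat.pow_le_pow_right (show 0 < 2 by norm_num) this
        omega
      obtain ⟨b, rfl⟩ : ∃ b, a = b + 3 := ⟨a - 3, by omega⟩
      refine ⟨2 ^ b, ?_⟩
      rw [pow_add] at h1
      omega
    have h0 : 0 < m := by omega
    have h2m : 2 ∣ m := (by norm_num : 2 ∣ 4).trans hm4
    have hdd := dd_of h0 eS
    obtain ⟨T₁, hT₁, hi₁⟩ := exists_klein h2m h0 0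
    obtain ⟨T₂, hT₂, hi₂⟩ := exists_klein h2m h0 1
    -- transport
    let τ : DihedralGroup m →* G := (S : Subgroup G).subtype.comp eS.symm.toMonoidHom
    have hτ : Function.Injective τ := fun a b h => eS.symm.injective (Subtype.ext h)
    have hτS : ∀ d, τ d ∈ (S : Subgroup G) := fun d => (eS.symm d).2
    have hτs : ∀ s ∈ (S : Subgroup G), ∃ d, τ d = s := fun s hs => ⟨eS ⟨s, hs⟩, by
      show ((eS.symm (eS ⟨s, hs⟩) : (S : Subgroup G)) : G) = s
      rw [eS.symm_apply_apply]⟩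
    have hkl : ∀ T : Subgroup (DihedralGroup m), IsKleinFour T → IsKleinFour (T.map τ) := by
      intro T hT
      have e1 := T.equivMapOfInjective τ hτ
      refine ⟨?_, ?_⟩
      · rw [← Nat.card_congr e1.toEquiv]; exact hT.card_four
      · rw [← Monoid.exponent_eq_of_mulEquiv e1]; exact hT.exponent_two
    have hconj : ∀ (T : Subgroup (DihedralGroup m)) (g : DihedralGroup m), (T.map (MulAut.conj g).toMonoidHom).map τ = (T.map τ).map (MulAut.conj (τ g)).toMonoidHom := by
      intro T g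
      rw [Subgroup.map_map, Subgroup.map_map]
      congr 1
      ext x
      show τ (g * x * g⁻¹) = τ g * τ x * (τ g)⁻¹
      rw [map_mul, map_mul, map_inv]
    refine ⟨T₁.map τ, T₂.map τ, hkl _ hT₁, hkl _ hT₂, ?_, ?_⟩
    · rintro ⟨x, hx⟩
      obtain ⟨s, hs, hse⟩ := fuse hdd (hkl _ hT₁) (by rintro _ ⟨t, -, rfl⟩; exact hτS t) (by rintro _ ⟨t, -, rfl⟩; exact hτS t) hx
      obtain ⟨d, rfl⟩ := hτs s hs
      rw [← hconj] at hse
      have h1 : T₁.map (MulAut.conj d).toMonoidHom = T₂ := Subgroup.map_injective hτ hse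
      obtain ⟨i', hi', hp⟩ := par_conj h2m d 0
      have h3 : DihedralGroup.sr i' ∈ T₂ := by
        rw [← h1]; exact ⟨_, hi₁, hi'⟩
      have h4 := par_const hm4 h0 hT₂ h3 hi₂
      rw [hp, map_zero, map_one] at h4
      exact zero_ne_one h4
    · intro V hV
      obtain ⟨Q, hQ⟩ := (h2g V hV).exists_le_sylow
      obtain ⟨x, hx⟩ := MulAction.exists_smul_eq G Q S
      have hVS : V.map (MulAut.conj x).toMonoidHom ≤ S := by
        rw [← hx]; exact Subgroup.map_mono hQ
      -- pull back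
      set W := (V.map (MulAut.conj x).toMonoidHom).comap τ with hW
      have hWe : W.map τ = V.map (MulAut.conj x).toMonoidHom := by
        apply le_antisymm (map_comap_le _ _)
        intro s hs
        obtain ⟨d, rfl⟩ := hτs s (hVS hs)
        exact ⟨d, hs, rfl⟩
      have hWk : IsKleinFour W := by
        have e1 := W.equivMapOfInjective τ hτ
        have h5 : IsKleinFour (W.map τ) := by rw [hWe]; exact klein_cj hV x
        refine ⟨?_, ?_⟩
        · rw [Nat.card_congr e1.toEquiv]; exact h5.card_four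
        · rw [Monoid.exponent_eq_of_mulEquiv e1]; exact h5.exponent_two
      obtain ⟨i, j, -, -, hi, -⟩ := CfsgLib.H9Dih.klein h0 hWk
      have hcase : par h2m i = par h2m 0 ∨ par h2m i = par h2m 1 := by
        rw [map_zero, map_one]
        generalize par h2m i = t
        revert t; decide
      have fin : ∀ (T : Subgroup (DihedralGroup m)) (g : DihedralGroup m), W.map (MulAut.conj g).toMonoidHom = T →
          ∃ y : G, V.map (MulAut.conj y).toMonoidHom = T.map τ := by
        intro T g hg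
        refine ⟨τ g * x, ?_⟩
        rw [← hg, hconj, hWe, CfsgLib.Core.map_conj_mul]
      rcases hcase with h | h
      · obtain ⟨g, hg⟩ := conj_of_par h2m h0 hWk hT₁ hi hi₁ h
        exact Or.inl (fin _ g hg)
      · obtain ⟨g, hg⟩ := conj_of_par h2m h0 hWk hT₂ hi hi₂ h
        exact Or.inr (fin _ g hg)

end CfsgLib.H9Dih2
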