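import Cfsg.Agent.Lib.H9LFa
/-!
A criterion for the simplicity of the fusion system of a group (of Lie type in its own characteristic), II.
-/
set_option autoImplicit false
set_option maxHeartbeats 400000

namespace CfsgLib.H9LF

open Cfsg Cfsg.FusionSystem CfsgLib.Fusion CfsgLib.SylowIn

variable {G : Type*} [Group G]

theorem mem_norm_map {S : Subgroup G} (e : G ≃* G) {g : G} (hg : g ∈ Subgroup.normalizer (S : Set G)) :
    e g ∈ Subgroup.normalizer ((S.map e.toMonoidHom : Subgroup G) : Set G) := by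
  rw [Subgroup.mem_normalizer_iff] at hg ⊢
  intro h
  constructor
  · rintro ⟨x, hx, rfl⟩
    exact ⟨g * x * g⁻¹, (hg x).1 hx, by simp⟩
  · rintro ⟨x, hx, hxe⟩
    have hx' : e x = e g * h * (e g)⁻¹ := hxe
    refine ⟨g⁻¹ * x * g, ?_, ?_⟩
    · apply (hg _).2
      have : g * (g⁻¹ * x * g) * g⁻¹ = x := by group
      rw [this]; exact hx
    · show e (g⁻¹ * x * g) = h
      rw [map_mul, map_mul, map_inv, hx']
      group

theorem adm_map {p : ℕ} {S : Subgroup G} (e : G ≃* G) {g : G} (hg : g ∈ Adm p S) : e g ∈ Adm p (S.map e.toMonoidHom) := by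
  obtain ⟨h1, Q, h2, h3, h4, h5⟩ := hg
  refine ⟨mem_norm_map e h1, Q.map e.toMonoidHom, Subgroup.map_mono h2, ?_, ?_, ?_⟩
  · rintro _ ⟨x, hx, rfl⟩
    exact mem_norm_map e (h3 hx)
  · rintro _ ⟨x, hx, rfl⟩ hxy
    refine ⟨x, h4 x hx fun y hy => ?_, rfl⟩
    have := hxy (e y) ⟨y, hy, rfl⟩
    have h6 : e (x * y) = e (y * x) := by rw [map_mul, map_mul]; exact this
    exact e.injective h6
  · have h6 : e.toMonoidHom g ∈ (Subgroup.closure {y | y ∈ Subgroup.normalizer (Q : Set G) ∧ ∃ k : ℕ, y ^ p ^ k = 1}).map e.toMonoidHom :=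
      ⟨g, h5, rfl⟩
    rw [MonoidHom.map_closure] at h6
    refine Subgroup.closure_mono ?_ h6
    rintro _ ⟨y, ⟨hy, k, hk⟩, rfl⟩
    refine ⟨mem_norm_map e hy, k, ?_⟩
    show (e y) ^ p ^ k = 1
    rw [← map_pow, hk, map_one]

theorem crit' [Finite G] {p : ℕ} [Fact p.Prime] {S₀ : Subgroup G} (hp : IsPGroup p S₀) (hS1 : S₀ ≠ ⊥)
    (hN : ∀ y ∈ Subgroup.normalizer (S₀ : Set G), ∀ k : ℕ, y ^ p ^ k = 1 → y ∈ S₀)
    (hA : ∀ T : Subgroup G, T ≤ S₀ → T ≠ ⊥ → (∀ x ∈ T, ∀ g : G, g * x * g⁻¹ ∈ S₀ → g * x * g⁻¹ ∈ T) → T = S₀)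
    (hB : Subgroup.normalizer (S₀ : Set G) ≤ Subgroup.closure ((S₀ : Set G) ∪ Adm p S₀)) (S : Sylow p G) :
    (groupFusionSystem (S : Subgroup G)).IsSimple p := by
  obtain ⟨P, hP⟩ := hp.exists_le_sylow
  have hPS : (P : Subgroup G) = S₀ := by
    by_contra hne
    have hlt : S₀ < P := lt_of_le_of_ne hP (Ne.symm hne)
    have hnil : Group.IsNilpotent P := P.2.isNilpotent
    have hnc : NormalizerCondition P := Group.normalizerCondition_of_isNilpotent
    have h1 : S₀.subgroupOf P < ⊤ := by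
      rw [lt_top_iff_ne_top]
      intro h
      rw [Subgroup.subgroupOf_eq_top] at h
      exact absurd hlt (not_lt_of_ge h)
    obtain ⟨x, hx, hx'⟩ := SetLike.exists_of_lt (hnc _ h1)
    apply hx'
    rw [Subgroup.mem_subgroupOf]
    obtain ⟨k, hk⟩ := P.2 x
    refine hN x ?_ k (by simpa using congrArg Subtype.val hk)
    have hfin : Finite S₀ := inferInstance
    apply mem_normalizer_of_conj_mem
    intro y hy
    exact (Subgroup.mem_normalizer_iff.1 hx ⟨y, hP hy⟩).1 hy
  obtain ⟨c, hc⟩ := MulAction.exists_smul_eq G P S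
  set e := MulAut.conj c with he
  have hSe : (S : Subgroup G) = S₀.map e.toMonoidHom := by
    rw [← hc, Sylow.coe_subgroup_smul, hPS]
    rfl
  apply crit S
  · rw [hSe]
    intro h
    apply hS1
    rw [Subgroup.map_eq_bot_iff_of_injective] at h
    · exact h
    · exact e.injective
  · intro T hT hT1 hsc
    have hT2 : T.comap e.toMonoidHom = S₀ := by
      apply hA
      · intro x hx
        have h1 := hT hx
        rw [hSe] at h1
        obtain ⟨y, hy, hyx⟩ := h1
        rw [← e.injective hyx]; exact hy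
      · intro h
        apply hT1
        rw [eq_bot_iff]
        intro x hx
        have h1 : e.symm x ∈ T.comap e.toMonoidHom := by
          show e (e.symm x) ∈ T
          rw [MulEquiv.apply_symm_apply]; exact hx
        rw [h, Subgroup.mem_bot] at h1
        have h2 := congrArg e h1
        rw [MulEquiv.apply_symm_apply, map_one] at h2
        rw [h2]; exact Subgroup.one_mem _
      · intro x hx g hg
        have h1 : e g * e x * (e g)⁻¹ ∈ (S : Subgroup G) := by
          rw [hSe]
          exact ⟨_, hg, by simp⟩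
        have h2 := hsc (e x) hx (e g) h1
        show e (g * x * g⁻¹) ∈ T
        rw [map_mul, map_mul, map_inv]
        exact h2
    rw [hSe, ← hT2, Subgroup.map_comap_eq_self]
    intro x _
    exact ⟨e.symm x, e.apply_symm_apply x⟩
  · intro y hy
    have h1 : e.symm y ∈ Subgroup.normalizer (S₀ : Set G) := by
      have h2 := mem_norm_map e.symm hy
      rw [hSe] at h2
      have h3 : (S₀.map e.toMonoidHom).map e.symm.toMonoidHom = S₀ := by
        rw [Subgroup.map_map]
        have : e.symm.toMonoidHom.comp e.toMonoidHom = MonoidHom.id G := by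
          ext x; exact e.symm_apply_apply x
        rw [this, Subgroup.map_id]
      rw [h3] at h2
      exact h2
    have h2 : e.toMonoidHom (e.symm y) ∈ (Subgroup.closure ((S₀ : Set G) ∪ Adm p S₀)).map e.toMonoidHom := ⟨_, hB h1, rfl⟩
    rw [MonoidHom.map_closure] at h2
    have h3 : e.toMonoidHom (e.symm y) = y := e.apply_symm_apply y
    rw [h3] at h2
    refine Subgroup.closure_mono ?_ h2
    rintro _ ⟨z, (hz | hz), rfl⟩
    · left
      rw [hSe]
      exact ⟨z, hz, rfl⟩
    · right
      rw [hSe]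
      exact adm_map e hz

end CfsgLib.H9LF
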