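import Cfsg.Agent.Lib.H9LFc
import Cfsg.Agent.Lib.AutPSL2
import Cfsg.Agent.Lib.Linear
import Cfsg.Agent.Lib.PGrp
/-!
The fusion system of `PSL_n(q)` in the natural characteristic: the Borel subgroup.
-/
set_option autoImplicit false
set_option maxHeartbeats 400000

namespace CfsgLib.H9LF

open Matrix CfsgLib.AutPSL

variable {F : Type*} [Field F] {n : ℕ}

local notation "SLn" => Matrix.SpecialLinearGroup (Fin n) F

/-- upper triangular -/
def UT (s : SLn) : Prop := ∀ i j, j < i → s.1 i j = 0

theorem UT.mul_diag {s t : SLn} (hs : UT s) (ht : UT t) (i : Fin n) : (s * t).1 i i = s.1 i i * t.1 i i := by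
  rw [Matrix.SpecialLinearGroup.coe_mul, mul_apply, Finset.sum_eq_single i]
  · intro k _ hk
    rcases lt_or_gt_of_ne hk with h | h
    · rw [hs i k h, zero_mul]
    · rw [ht k i h, mul_zero]
  · intro h; exact absurd (Finset.mem_univ _) h

theorem UT.mul {s t : SLn} (hs : UT s) (ht : UT t) : UT (s * t) := by
  intro i j hij
  rw [Matrix.SpecialLinearGroup.coe_mul, mul_apply]
  apply Finset.sum_eq_zero
  intro k _
  rcases lt_or_ge k i with h1 | h1
  · rw [hs i k h1, zero_mul]
  · rw [ht k j (hij.trans_le h1), mul_zero]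

theorem UT.one : UT (1 : SLn) := fun i j h => by
  rw [Matrix.SpecialLinearGroup.coe_one, one_apply_ne h.ne']

theorem UT.pow {s : SLn} (hs : UT s) (k : ℕ) : UT (s ^ k) ∧ ∀ i, (s ^ k).1 i i = (s.1 i i) ^ k := by
  induction k with
  | zero => exact ⟨by rw [pow_zero]; exact UT.one, fun i => by rw [pow_zero, pow_zero]; exact one_apply_eq i⟩
  | succ k ih =>
    refine ⟨by rw [pow_succ]; exact ih.1.mul hs, fun i => ?_⟩
    rw [pow_succ, ih.1.mul_diag hs, ih.2, pow_succ]

variable [Finite F]

theorem UT.inv {s : SLn} (hs : UT s) : UT s⁻¹ := by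
  have h1 : s⁻¹ = s ^ (orderOf s - 1) := by
    apply inv_eq_of_mul_eq_one_right
    rw [← pow_succ', Nat.sub_add_cancel (orderOf_pos s), pow_orderOf_eq_one]
  rw [h1]
  exact (hs.pow _).1

theorem UT.diag_ne {s : SLn} (hs : UT s) (i : Fin n) : s.1 i i * (s⁻¹).1 i i = 1 := by
  rw [← hs.mul_diag hs.inv, mul_inv_cancel]
  exact one_apply_eq i

theorem mem_U_iff {s : SLn} : s ∈ U F n ↔ UT s ∧ ∀ i, s.1 i i = 1 := by
  constructor
  · intro h
    exact ⟨fun i j hij => by rw [h i j hij.le, one_apply_ne hij.ne'], fun i => by rw [h i i le_rfl, one_apply_eq]⟩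
  · rintro ⟨h1, h2⟩ i j hij
    rcases eq_or_lt_of_le hij with h | h
    · subst h; rw [h2, one_apply_eq]
    · rw [h1 i j h, one_apply_ne h.ne']

theorem UT.normalizer {s : SLn} (hs : UT s) : s ∈ Subgroup.normalizer ((U F n : Subgroup SLn) : Set SLn) := by
  apply CfsgLib.Fusion.mem_normalizer_of_conj_mem
  intro x hx
  rw [mem_U_iff] at hx ⊢
  refine ⟨(hs.mul hx.1).mul hs.inv, fun i => ?_⟩
  rw [(hs.mul hx.1).mul_diag hs.inv, hs.mul_diag hx.1, hx.2, mul_one, hs.diag_ne]

theorem transvection_mem_U {i j : Fin n} (hij : i < j) (c : F) : Matrix.SpecialLinearGroup.transvection hij.ne c ∈ U F n := by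
  intro k l hkl
  rw [Matrix.SpecialLinearGroup.transvection_coe, Matrix.add_apply, add_eq_left, Matrix.single_apply]
  rw [if_neg]
  rintro ⟨rfl, rfl⟩
  exact absurd hij (not_lt.2 hkl)

theorem UT_of_normalizer {g : SLn} (hg : g ∈ Subgroup.normalizer ((U F n : Subgroup SLn) : Set SLn)) : UT g := by
  have hg' : g⁻¹ ∈ Subgroup.normalizer ((U F n : Subgroup SLn) : Set SLn) := Subgroup.inv_mem _ hg
  have key : ∀ i : ℕ, ∀ x : Fin n → F, (∀ k : Fin n, i ≤ k.1 → x k = 0) → ∀ k : Fin n, i ≤ k.1 → (g.1 *ᵥ x) k = 0 := by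
    intro i
    induction i with
    | zero =>
      intro x hx k _
      have : x = 0 := funext fun k => hx k (Nat.zero_le _)
      rw [this, mulVec_zero]; rfl
    | succ i ih =>
      intro x hx k hk
      have hk1 : 0 < k.1 := by omega
      let l : Fin n := ⟨k.1 - 1, by omega⟩
      have hlk : l < k := by show k.1 - 1 < k.1; omega
      set u : SLn := Matrix.SpecialLinearGroup.transvection hlk.ne (1 : F) with hu
      have huU : u ∈ U F n := transvection_mem_U hlk 1
      set u' : SLn := g⁻¹ * u * g with hu'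
      have hu'U : u' ∈ U F n := by
        have := mem_norm hg' huU
        rwa [inv_inv] at this
      have h1 : ∀ k : Fin n, i ≤ k.1 → (u'.1 *ᵥ x - x) k = 0 := by
        intro k hk
        rw [Pi.sub_apply, mulVec, dotProduct, Finset.sum_eq_single k]
        · rw [hu'U k k le_rfl, one_apply_eq, one_mul, sub_self]
        · intro m _ hm
          rcases lt_or_gt_of_ne hm with h | h
          · rw [hu'U k m h.le, one_apply_ne h.ne', zero_mul]
          · rw [hx m (by have : k.1 < m.1 := h; omega), mul_zero]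
        · intro h; exact absurd (Finset.mem_univ _) h
      have h2 := ih _ h1 l (by show i ≤ k.1 - 1; omega)
      have h3 : g.1 *ᵥ (u'.1 *ᵥ x - x) = u.1 *ᵥ (g.1 *ᵥ x) - g.1 *ᵥ x := by
        rw [mulVec_sub, mulVec_mulVec, mulVec_mulVec]
        congr 2
        have h4 : g * u' = u * g := by rw [hu']; group
        exact congrArg Subtype.val h4
      rw [h3, hu, Matrix.SpecialLinearGroup.transvection_coe, add_mulVec, one_mulVec, add_sub_cancel_left] at h2
      rw [Matrix.single_mulVec_eq, Pi.smul_apply] at h2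
      simpa using h2
  intro i j hij
  have h1 := key (j.1 + 1) (Pi.single j 1) (fun k hk => by
    rw [Pi.single_eq_of_ne]
    intro h
    rw [h] at hk
    omega) i (by have : j.1 < i.1 := hij; omega)
  simpa using h1

end CfsgLib.H9LF
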