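import Cfsg.Agent.Lib.H9LFd
/-!
The fusion system of `PSL_n(q)` in the natural characteristic: the Borel subgroup, II.
-/
set_option autoImplicit false
set_option maxHeartbeats 400000

namespace CfsgLib.H9LF

open Matrix CfsgLib.AutPSL

variable {F : Type*} [Field F] {n : ℕ}

local notation "SLn" => Matrix.SpecialLinearGroup (Fin n) F

theorem sl_mul_mulVec (s t : SLn) (x : Fin n → F) : (s * t).1 *ᵥ x = s.1 *ᵥ (t.1 *ᵥ x) := by
  rw [Matrix.SpecialLinearGroup.coe_mul, mulVec_mulVec]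

theorem sl_one_mulVec (x : Fin n → F) : (1 : SLn).1 *ᵥ x = x := by
  rw [Matrix.SpecialLinearGroup.coe_one, one_mulVec]

theorem sl_inv_mulVec (s : SLn) (x : Fin n → F) : (s⁻¹).1 *ᵥ (s.1 *ᵥ x) = x := by
  rw [← sl_mul_mulVec, inv_mul_cancel, sl_one_mulVec]

theorem sl_mulVec_inv (s : SLn) (x : Fin n → F) : s.1 *ᵥ ((s⁻¹).1 *ᵥ x) = x := by
  rw [← sl_mul_mulVec, mul_inv_cancel, sl_one_mulVec]

theorem sl_ext {s t : SLn} (h : ∀ i, s.1 *ᵥ (Pi.single i 1) = t.1 *ᵥ (Pi.single i 1)) : s = t := by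
  apply Subtype.ext
  ext i j
  have := congrFun (h j) i
  simpa using this

/-- the unipotent radical of the stabilizer of a vector -/
def QV (v : Fin n → F) : Subgroup SLn where
  carrier := {s | s.1 *ᵥ v = v ∧ ∀ x, ∃ a : F, s.1 *ᵥ x = x + a • v}
  one_mem' := ⟨sl_one_mulVec v, fun x => ⟨0, by rw [sl_one_mulVec, zero_smul, add_zero]⟩⟩
  mul_mem' := by
    rintro s t ⟨h1, h2⟩ ⟨h3, h4⟩
    refine ⟨by rw [sl_mul_mulVec, h3, h1], fun x => ?_⟩
    obtain ⟨a, ha⟩ := h4 x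
    obtain ⟨b, hb⟩ := h2 x
    exact ⟨a + b, by rw [sl_mul_mulVec, ha, mulVec_add, mulVec_smul, h1, hb]; module⟩
  inv_mem' := by
    rintro s ⟨h1, h2⟩
    have h3 : (s⁻¹).1 *ᵥ v = v := by conv_lhs => rw [← h1]; rw [sl_inv_mulVec]
    refine ⟨h3, fun x => ?_⟩
    obtain ⟨a, ha⟩ := h2 x
    refine ⟨-a, ?_⟩
    have h4 := sl_inv_mulVec s x
    rw [ha, mulVec_add, mulVec_smul, h3] at h4
    rw [neg_smul, ← sub_eq_add_neg, eq_sub_iff_add_eq]
    exact h4

/-- the unipotent radical of the stabilizer of a hyperplane -/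
def QH (φ : Fin n → F) : Subgroup SLn where
  carrier := {s | (∀ x, φ ⬝ᵥ (s.1 *ᵥ x) = φ ⬝ᵥ x) ∧ ∀ x, φ ⬝ᵥ x = 0 → s.1 *ᵥ x = x}
  one_mem' := ⟨fun x => by rw [sl_one_mulVec], fun x _ => sl_one_mulVec x⟩
  mul_mem' := by
    rintro s t ⟨h1, h2⟩ ⟨h3, h4⟩
    refine ⟨fun x => by rw [sl_mul_mulVec, h1, h3], fun x hx => ?_⟩
    rw [sl_mul_mulVec, h4 x hx, h2 x hx]
  inv_mem' := by
    rintro s ⟨h1, h2⟩
    refine ⟨fun x => by rw [← h1, sl_mulVec_inv], fun x hx => ?_⟩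
    conv_lhs => rw [← h2 x hx]
    rw [sl_inv_mulVec]

theorem norm_QV {v : Fin n → F} [Finite F] {g : SLn} (hg : g.1 *ᵥ v = v) : g ∈ Subgroup.normalizer ((QV v : Subgroup SLn) : Set SLn) := by
  apply CfsgLib.Fusion.mem_normalizer_of_conj_mem
  rintro s ⟨h1, h2⟩
  have h3 : (g⁻¹).1 *ᵥ v = v := by conv_lhs => rw [← hg]; rw [sl_inv_mulVec]
  refine ⟨by rw [sl_mul_mulVec, sl_mul_mulVec, h3, h1, hg], fun x => ?_⟩
  obtain ⟨a, ha⟩ := h2 ((g⁻¹).1 *ᵥ x)
  exact ⟨a, by rw [sl_mul_mulVec, sl_mul_mulVec, ha, mulVec_add, mulVec_smul, hg, sl_mulVec_inv]⟩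

theorem norm_QH {φ : Fin n → F} [Finite F] {g : SLn} (hg : ∀ x, φ ⬝ᵥ (g.1 *ᵥ x) = φ ⬝ᵥ x) :
    g ∈ Subgroup.normalizer ((QH φ : Subgroup SLn) : Set SLn) := by
  apply CfsgLib.Fusion.mem_normalizer_of_conj_mem
  rintro s ⟨h1, h2⟩
  have h3 : ∀ x, φ ⬝ᵥ ((g⁻¹).1 *ᵥ x) = φ ⬝ᵥ x := fun x => by rw [← hg, sl_mulVec_inv]
  refine ⟨fun x => by rw [sl_mul_mulVec, sl_mul_mulVec, hg, h1, h3], fun x hx => ?_⟩
  rw [sl_mul_mulVec, sl_mul_mulVec, h2 _ (by rw [h3, hx]), sl_mulVec_inv]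

theorem trans_mulVec {i j : Fin n} (hij : i ≠ j) (c : F) (x : Fin n → F) :
    (Matrix.SpecialLinearGroup.transvection hij c).1 *ᵥ x = x + (c * x j) • Pi.single i 1 := by
  rw [Matrix.SpecialLinearGroup.transvection_coe, add_mulVec, one_mulVec, Matrix.single_mulVec_eq]

theorem trans_pow {p : ℕ} [Fact p.Prime] [CharP F p] {i j : Fin n} (hij : i ≠ j) (c : F) :
    (Matrix.SpecialLinearGroup.transvection hij c : SLn) ^ p ^ 1 = 1 := by
  have h1 : ∀ k : ℕ, ∀ x : Fin n → F, ((Matrix.SpecialLinearGroup.transvection hij c : SLn) ^ k).1 *ᵥ x = x + ((k : F) * c * x j) • Pi.single i 1 := by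
    intro k
    induction k with
    | zero => intro x; rw [pow_zero, sl_one_mulVec, Nat.cast_zero, zero_mul, zero_mul, zero_smul, add_zero]
    | succ k ih =>
      intro x
      rw [pow_succ, sl_mul_mulVec, trans_mulVec, ih, Pi.add_apply, Pi.smul_apply, Pi.single_eq_of_ne hij.symm, smul_zero, add_zero,
        Nat.cast_succ]
      module
  apply sl_ext
  intro k
  rw [pow_one, h1, CharP.cast_eq_zero, zero_mul, zero_mul, zero_smul, add_zero, sl_one_mulVec]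

variable [Finite F]

theorem U_fix_first (hn : 0 < n) {s : SLn} (hs : s ∈ U F n) : s.1 *ᵥ (Pi.single ⟨0, hn⟩ 1) = Pi.single ⟨0, hn⟩ 1 := by
  rw [mulVec_single_one]
  ext i
  show s.1 i _ = _
  rw [hs i _ (Nat.zero_le _), one_apply, Pi.single_apply]

theorem U_fix_last (hn : 0 < n) {s : SLn} (hs : s ∈ U F n) (x : Fin n → F) :
    (Pi.single ⟨n - 1, by omega⟩ 1) ⬝ᵥ (s.1 *ᵥ x) = (Pi.single ⟨n - 1, by omega⟩ (1 : F)) ⬝ᵥ x := by
  rw [single_one_dotProduct, single_one_dotProduct, mulVec, dotProduct, Finset.sum_eq_single ⟨n - 1, by omega⟩]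
  · rw [hs _ _ le_rfl, one_apply_eq, one_mul]
  · intro k _ hk
    rw [hs _ k (by show k.1 ≤ n - 1; omega), one_apply_ne (Ne.symm hk), zero_mul]
  · intro h; exact absurd (Finset.mem_univ _) h

theorem QV_le_U (hn : 0 < n) : QV (Pi.single ⟨0, hn⟩ 1) ≤ U F n := by
  rintro s ⟨h1, h2⟩ i j hij
  obtain ⟨a, ha⟩ := h2 (Pi.single j 1)
  rw [mulVec_single_one] at ha
  have h3 : s.1 i j = _ := congrFun ha i
  rw [h3, Pi.add_apply, Pi.smul_apply]
  by_cases hi : i = ⟨0, hn⟩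
  · have hj : j = i := le_antisymm hij (by rw [hi]; exact Nat.zero_le _)
    subst hj
    rw [← hi] at h1 ha ⊢
    rw [mulVec_single_one] at h1
    have h4 := congrFun h1 j
    rw [Pi.single_eq_same] at h4
    have h5 : s.1 j j = 1 := h4
    rw [Pi.add_apply, Pi.smul_apply] at h3
    rw [← hi] at h3
    rw [← h3, h5, one_apply_eq]
  · rw [Pi.single_eq_of_ne hi, smul_zero, add_zero, one_apply, Pi.single_apply]

theorem QH_le_U (hn : 0 < n) : QH (Pi.single ⟨n - 1, by omega⟩ 1) ≤ U F n := by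
  rintro s ⟨h1, h2⟩ i j hij
  by_cases hj : j = ⟨n - 1, by omega⟩
  · have hi : i = j := le_antisymm (by rw [hj]; show i.1 ≤ n - 1; omega) hij
    subst hi
    have h3 := h1 (Pi.single i 1)
    rw [← hj, single_one_dotProduct, single_one_dotProduct, mulVec_single_one, Pi.single_eq_same] at h3
    rw [one_apply_eq]
    exact h3
  · have h3 := h2 (Pi.single j 1) (by rw [single_one_dotProduct, Pi.single_eq_of_ne (Ne.symm hj)])
    rw [mulVec_single_one] at h3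
    have h4 : s.1 i j = _ := congrFun h3 i
    rw [h4, one_apply, Pi.single_apply]

/-- the centralizer of `QV` in `U` -/
theorem cent_QV (hn : 2 ≤ n) {s : SLn} (hs : s ∈ U F n)
    (hc : ∀ y ∈ QV (F := F) (Pi.single (⟨0, by omega⟩ : Fin n) 1), s * y = y * s) : s ∈ QV (F := F) (Pi.single (⟨0, by omega⟩ : Fin n) 1) := by
  refine ⟨U_fix_first (by omega) hs, ?_⟩
  have hrow : ∀ k : Fin n, k ≠ ⟨0, by omega⟩ → ∀ x, (s.1 *ᵥ x) k = x k := by
    intro k hk x
    have hk' : (⟨0, by omega⟩ : Fin n) ≠ k := Ne.symm hk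
    set t : SLn := Matrix.SpecialLinearGroup.transvection hk' (1 : F) with ht
    have htQ : t ∈ QV (F := F) (Pi.single (⟨0, by omega⟩ : Fin n) 1) := by
      refine ⟨?_, fun x => ⟨_, trans_mulVec hk' 1 x⟩⟩
      rw [ht, trans_mulVec, Pi.single_eq_of_ne hk, mul_zero, zero_smul, add_zero]
    have h1 := congrArg (fun z : SLn => z.1 *ᵥ x) (hc t htQ)
    simp only [sl_mul_mulVec] at h1
    rw [ht, trans_mulVec, trans_mulVec, mulVec_add, mulVec_smul, U_fix_first (by omega) hs] at h1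
    have h2 := congrFun (add_left_cancel h1) ⟨0, by omega⟩
    rw [Pi.smul_apply, Pi.smul_apply, Pi.single_eq_same, smul_eq_mul, smul_eq_mul] at h2
    simpa using h2.symm
  intro x
  refine ⟨(s.1 *ᵥ x) ⟨0, by omega⟩ - x ⟨0, by omega⟩, ?_⟩
  ext k
  rw [Pi.add_apply, Pi.smul_apply]
  by_cases hk : k = ⟨0, by omega⟩
  · subst hk
    rw [Pi.single_eq_same, smul_eq_mul]
    ring
  · rw [Pi.single_eq_of_ne hk, smul_zero, add_zero, hrow k hk]

theorem cent_QH (hn : 2 ≤ n) {s : SLn} (hs : s ∈ U F n)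
    (hc : ∀ y ∈ QH (F := F) (Pi.single (⟨n - 1, by omega⟩ : Fin n) 1), s * y = y * s) :
    s ∈ QH (F := F) (Pi.single (⟨n - 1, by omega⟩ : Fin n) 1) := by
  have hlast := fun x => U_fix_last (F := F) (by omega) hs x
  refine ⟨hlast, ?_⟩
  have hcol : ∀ k : Fin n, k ≠ ⟨n - 1, by omega⟩ → s.1 *ᵥ (Pi.single k 1) = Pi.single k 1 := by
    intro k hk
    set t : SLn := Matrix.SpecialLinearGroup.transvection hk (1 : F) with ht
    have htQ : t ∈ QH (F := F) (Pi.single (⟨n - 1, by omega⟩ : Fin n) 1) := by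
      refine ⟨fun x => ?_, fun x hx => ?_⟩
      · rw [ht, trans_mulVec, dotProduct_add, dotProduct_smul, single_one_dotProduct ⟨n - 1, by omega⟩ (Pi.single k (1 : F)),
          Pi.single_eq_of_ne (Ne.symm hk), smul_zero, add_zero]
      · rw [single_one_dotProduct] at hx
        rw [ht, trans_mulVec, hx, mul_zero, zero_smul, add_zero]
    have h1 := congrArg (fun z : SLn => z.1 *ᵥ (Pi.single (⟨n - 1, by omega⟩ : Fin n) 1)) (hc t htQ)
    simp only [sl_mul_mulVec] at h1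
    rw [ht, trans_mulVec, trans_mulVec, mulVec_add, mulVec_smul, Pi.single_eq_same, mul_one, one_smul] at h1
    have h2 := add_left_cancel h1
    have h3 := hlast (Pi.single ⟨n - 1, by omega⟩ 1)
    rw [single_one_dotProduct, single_one_dotProduct, Pi.single_eq_same] at h3
    rw [h3, mul_one, one_smul] at h2
    exact h2
  intro x hx
  rw [single_one_dotProduct] at hx
  have hx' : x = ∑ k, x k • (Pi.single k 1 : Fin n → F) := by
    ext k
    simp [Finset.sum_apply, Pi.single_apply]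
  rw [hx', mulVec_sum]
  apply Finset.sum_congr rfl
  intro k _
  rw [mulVec_smul]
  by_cases hk : k = ⟨n - 1, by omega⟩
  · rw [hk, hx, zero_smul, zero_smul]
  · rw [hcol k hk]

end CfsgLib.H9LF
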