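import Cfsg.Agent.Lib.H9LFe
import Cfsg.Agent.Lib.LinearGL
/-!
The fusion system of `PSL_n(q)` in the natural characteristic: the Borel subgroup, III.
-/
set_option autoImplicit false
set_option maxHeartbeats 400000

namespace CfsgLib.H9LF

open Matrix CfsgLib.AutPSL

variable {F : Type*} [Field F] [Finite F] {n : ℕ}

local notation "SLn" => Matrix.SpecialLinearGroup (Fin n) F

theorem pow_one_of_char {p : ℕ} [Fact p.Prime] [CharP F p] {a : F} {k : ℕ} (h : a ^ p ^ k = 1) : a = 1 := by
  have : ExpChar F p := ExpChar.prime Fact.out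
  have h1 := (ExpChar.pow_prime_pow_mul_eq_one_iff p k 1 a).1 (by rw [mul_one]; exact h)
  rwa [pow_one] at h1

theorem hN_SL {p : ℕ} [Fact p.Prime] [CharP F p] {y : SLn} (hy : y ∈ Subgroup.normalizer ((U F n : Subgroup SLn) : Set SLn)) {k : ℕ}
    (hk : y ^ p ^ k = 1) : y ∈ U F n := by
  have hu := UT_of_normalizer hy
  rw [mem_U_iff]
  refine ⟨hu, fun i => ?_⟩
  have h1 := (hu.pow (p ^ k)).2 i
  rw [hk, Matrix.SpecialLinearGroup.coe_one, one_apply_eq] at h1
  exact pow_one_of_char h1.symm

theorem diag_adm {p : ℕ} [Fact p.Prime] [CharP F p] (hn : 3 ≤ n) {i : Fin n} (hi : i ≠ ⟨1, by omega⟩) (a : F) (ha : a ≠ 0) :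
    Matrix.SpecialLinearGroup.diag2n hi a ha ∈ Adm p (U F n) := by
  have hUT : UT (Matrix.SpecialLinearGroup.diag2n hi a ha) := by
    intro k l hkl
    rw [Matrix.SpecialLinearGroup.diag2n_coe, diagonal_apply_ne _ hkl.ne']
  have hmem : ∀ Q : Subgroup SLn, (∀ c : F, Matrix.SpecialLinearGroup.transvection hi c ∈ Subgroup.normalizer (Q : Set SLn)) →
      (∀ c : F, Matrix.SpecialLinearGroup.transvection hi.symm c ∈ Subgroup.normalizer (Q : Set SLn)) →
      Matrix.SpecialLinearGroup.diag2n hi a ha ∈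
        Subgroup.closure {y : SLn | y ∈ Subgroup.normalizer (Q : Set SLn) ∧ ∃ k : ℕ, y ^ p ^ k = 1} := by
    intro Q h1 h2
    have k1 : ∀ c : F, (Matrix.SpecialLinearGroup.transvection hi c : SLn) ∈
        Subgroup.closure {y : SLn | y ∈ Subgroup.normalizer (Q : Set SLn) ∧ ∃ k : ℕ, y ^ p ^ k = 1} :=
      fun c => Subgroup.subset_closure ⟨h1 c, 1, trans_pow hi c⟩
    have k2 : ∀ c : F, (Matrix.SpecialLinearGroup.transvection hi.symm c : SLn) ∈
        Subgroup.closure {y : SLn | y ∈ Subgroup.normalizer (Q : Set SLn) ∧ ∃ k : ℕ, y ^ p ^ k = 1} :=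
      fun c => Subgroup.subset_closure ⟨h2 c, 1, trans_pow hi.symm c⟩
    rw [CfsgLib.Linear.diag2n_decompose]
    exact Subgroup.mul_mem _ (Subgroup.mul_mem _ (Subgroup.mul_mem _ (Subgroup.mul_mem _ (Subgroup.mul_mem _ (k1 _) (k2 _)) (k1 _)) (k1 _)) (k2 _)) (k1 _)
  refine ⟨hUT.normalizer, ?_⟩
  by_cases hi0 : i = ⟨0, by omega⟩
  · refine ⟨QH (Pi.single ⟨n - 1, by omega⟩ 1), QH_le_U (by omega), ?_, ?_, ?_⟩
    · intro s hs
      exact norm_QH fun x => U_fix_last (by omega) hs x
    · intro x hx hxy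
      exact cent_QH (by omega) hx hxy
    · apply hmem
      · intro c
        apply norm_QH
        intro x
        rw [trans_mulVec, dotProduct_add, dotProduct_smul, single_one_dotProduct ⟨n - 1, by omega⟩ (Pi.single i (1 : F)),
          Pi.single_eq_of_ne, smul_zero, add_zero]
        rw [hi0]; intro h; have := congrArg Fin.val h; simp only at this; omega
      · intro c
        apply norm_QH
        intro x
        rw [trans_mulVec, dotProduct_add, dotProduct_smul, single_one_dotProduct (⟨n - 1, by omega⟩ : Fin n)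
          (Pi.single (⟨1, by omega⟩ : Fin n) (1 : F)),
          Pi.single_eq_of_ne, smul_zero, add_zero]
        intro h; have := congrArg Fin.val h; simp only at this; omega
  · refine ⟨QV (Pi.single ⟨0, by omega⟩ 1), QV_le_U (by omega), ?_, ?_, ?_⟩
    · intro s hs
      exact norm_QV (U_fix_first (by omega) hs)
    · intro x hx hxy
      exact cent_QV (by omega) hx hxy
    · apply hmem
      · intro c
        apply norm_QV
        rw [trans_mulVec, Pi.single_eq_of_ne, mul_zero, zero_smul, add_zero]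
        intro h; have := congrArg Fin.val h; simp only at this; omega
      · intro c
        apply norm_QV
        rw [trans_mulVec, Pi.single_eq_of_ne hi0, mul_zero, zero_smul, add_zero]

theorem hB_SL {p : ℕ} [Fact p.Prime] [CharP F p] (hn : 3 ≤ n) : Subgroup.normalizer ((U F n : Subgroup SLn) : Set SLn) ≤
    Subgroup.closure (((U F n : Subgroup SLn) : Set SLn) ∪ ((Subgroup.center SLn : Subgroup SLn) : Set SLn) ∪ Adm p (U F n)) := by
  intro g hg
  have hu := UT_of_normalizer hg
  have hdet : det (diagonal fun i => g.1 i i) = 1 := by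
    rw [det_diagonal]
    have h1 : g.1.det = 1 := g.2
    rw [det_of_isUpperTriangular (fun i j hij => hu i j hij)] at h1
    exact h1
  set d : SLn := ⟨diagonal fun i => g.1 i i, hdet⟩ with hd
  have hdUT : UT d := fun i j hij => diagonal_apply_ne _ hij.ne'
  have hdc : d ∈ Subgroup.closure (((U F n : Subgroup SLn) : Set SLn) ∪ ((Subgroup.center SLn : Subgroup SLn) : Set SLn) ∪ Adm p (U F n)) := by
    rw [hd, Matrix.SpecialLinearGroup.diag_eq_diag2n_prod ⟨1, by omega⟩ _ hdet]
    apply Subgroup.noncommProd_mem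
    intro i hi
    have hi' : i ≠ ⟨1, by omega⟩ := (Finset.mem_filter.1 hi).2
    rw [dif_pos hi']
    exact Subgroup.subset_closure (Or.inr (diag_adm hn hi' _ _))
  have hgd : g * d⁻¹ ∈ U F n := by
    rw [mem_U_iff]
    refine ⟨hu.mul hdUT.inv, fun i => ?_⟩
    rw [hu.mul_diag hdUT.inv]
    have h1 := hdUT.diag_ne i
    have h2 : d.1 i i = g.1 i i := diagonal_apply_eq _ i
    rw [h2] at h1
    exact h1
  have : g = (g * d⁻¹) * d := by group
  rw [this]
  exact Subgroup.mul_mem _ (Subgroup.subset_closure (Or.inl (Or.inl hgd))) hdc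

/-- all transvections of `U` lie in a strongly closed subgroup -/
theorem trans_mem (hn : 3 ≤ n) {T : Subgroup SLn} (hsc : ∀ x ∈ T, ∀ g : SLn, g * x * g⁻¹ ∈ U F n → g * x * g⁻¹ ∈ T)
    {z : SLn} (hzT : z ∈ T) {c : F} (hz : Tr (Pi.single ⟨0, by omega⟩ c) (Pi.single ⟨n - 1, by omega⟩ 1) z)
    {s : SLn} {v φ : Fin n → F} (hs : Tr v φ s) (hsU : s ∈ U F n) : s ∈ T := by
  obtain ⟨g, hg⟩ := exists_GL_conj hz hs
  have hg1 := congrArg Subtype.val hg
  rw [semi_coe] at hg1
  have h2 : (z : Matrix (Fin n) (Fin n) F).map (RingEquiv.refl F) = z := by ext i j; rfl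
  rw [h2] at hg1
  -- the correcting diagonal matrix
  set a : Fˣ := (Matrix.GeneralLinearGroup.det g)⁻¹ with ha
  set d : GL (Fin n) F := CfsgLib.LinearGL.diagOne ⟨1, by omega⟩ a with hd
  have hdz : d.1 * z.1 = z.1 * d.1 := by
    have e1 : d.1 *ᵥ (Pi.single (⟨0, by omega⟩ : Fin n) c) = Pi.single ⟨0, by omega⟩ c := by
      rw [hd, CfsgLib.LinearGL.diagOne_coe]
      ext i
      rw [mulVec_diagonal]
      by_cases h : i = ⟨0, by omega⟩
      · subst h
        rw [Function.update_of_ne (by intro h; have := congrArg Fin.val h; simp at this), Pi.one_apply, one_mul]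
      · rw [Pi.single_eq_of_ne h, mul_zero]
    have e2 : (Pi.single (⟨n - 1, by omega⟩ : Fin n) (1 : F)) ᵥ* d.1 = Pi.single ⟨n - 1, by omega⟩ 1 := by
      rw [hd, CfsgLib.LinearGL.diagOne_coe]
      ext i
      rw [vecMul_diagonal]
      by_cases h : i = ⟨n - 1, by omega⟩
      · subst h
        rw [Function.update_of_ne (by intro h; have := congrArg Fin.val h; simp only at this; omega), Pi.one_apply, mul_one]
      · rw [Pi.single_eq_of_ne h, zero_mul]
    rw [hz.2.2, mul_add, add_mul, mul_one, one_mul, mul_vecMulVec, vecMulVec_mul, e1, e2]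
  have hdet : (g.1 * d.1).det = 1 := by
    have h3 : Matrix.GeneralLinearGroup.det (g * d) = 1 := by
      rw [map_mul, hd, CfsgLib.LinearGL.det_diagOne, ha, mul_inv_cancel]
    have h4 := congrArg Units.val h3
    exact h4
  set g' : SLn := ⟨g.1 * d.1, hdet⟩ with hg'
  have h5 : g' * z = s * g' := by
    apply Subtype.ext
    show g.1 * d.1 * z.1 = s.1 * (g.1 * d.1)
    have h6 : (g⁻¹).1 * g.1 = 1 := g.inv_mul
    have h7 : g.1 * z.1 * (g⁻¹).1 = s.1 := hg1
    rw [← h7, mul_assoc, hdz]
    simp only [mul_assoc]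
    rw [← mul_assoc (g⁻¹).1, h6, one_mul]
  have h6 : g' * z * g'⁻¹ = s := mul_inv_eq_iff_eq_mul.2 h5
  rw [← h6] at hsU ⊢
  exact hsc z hzT g' hsU

/-- a normal subgroup containing all transvections of `U` is `U` -/
theorem U_le (hn : 2 ≤ n) {T : Subgroup SLn} (hT : ∀ s ∈ U F n, ∀ v φ, Tr v φ s → s ∈ T) : U F n ≤ T := by
  have key : ∀ m j : ℕ, m + j = n → ∀ u ∈ U F n, (∀ l : Fin n, l.1 < j → u.1 *ᵥ (Pi.single l 1) = Pi.single l 1) → u ∈ T := by
    intro m
    induction m with
    | zero =>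
      intro j hj u _ hl
      have : u = 1 := sl_ext fun i => by rw [hl i (by omega), sl_one_mulVec]
      rw [this]; exact Subgroup.one_mem _
    | succ m ih =>
      intro j hj u hu hl
      let k : Fin n := ⟨j, by omega⟩
      by_cases hc : u.1 *ᵥ (Pi.single k 1) = Pi.single k 1
      · refine ih (j + 1) (by omega) u hu fun l hlj => ?_
        rcases Nat.lt_succ_iff_lt_or_eq.1 hlj with h | h
        · exact hl l h
        · have : l = k := Fin.ext h
          rw [this, hc]
      · set w := u.1 *ᵥ (Pi.single k 1) - Pi.single k 1 with hw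
        have hw0 : w ≠ 0 := fun h => hc (sub_eq_zero.1 h)
        have hk0 : (Pi.single k 1 : Fin n → F) ≠ 0 := by
          intro h; have := congrFun h k; simp at this
        have hwi : ∀ i : Fin n, k ≤ i → w i = 0 := by
          intro i hi
          rw [hw, Pi.sub_apply, mulVec_single_one]
          show u.1 i k - _ = 0
          rw [hu i k hi, one_apply, Pi.single_apply, sub_self]
        obtain ⟨t, ht⟩ := exists_Tr (F := F) hw0 hk0 (by rw [single_one_dotProduct, hwi k le_rfl])
        have htU : t ∈ U F n := by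
          intro i l hil
          rw [ht.2.2, Matrix.add_apply, vecMulVec_apply, add_eq_left]
          by_cases hlk : l = k
          · subst hlk
            rw [hwi i hil, zero_mul]
          · rw [Pi.single_eq_of_ne hlk, mul_zero]
        have htT := hT t htU _ _ ht
        have htm : ∀ x, t.1 *ᵥ x = x + x k • w := by
          intro x
          rw [ht.2.2, add_mulVec, one_mulVec, tmv, single_one_dotProduct]
        have h1 : t⁻¹ * u ∈ T := by
          refine ih (j + 1) (by omega) _ (Subgroup.mul_mem _ (Subgroup.inv_mem _ htU) hu) fun l hlj => ?_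
          rw [sl_mul_mulVec]
          rcases Nat.lt_succ_iff_lt_or_eq.1 hlj with h | h
          · rw [hl l h]
            have h2 : t.1 *ᵥ (Pi.single l 1) = Pi.single l 1 := by
              rw [htm, Pi.single_eq_of_ne (by intro h'; rw [← h'] at h; exact lt_irrefl _ h), zero_smul, add_zero]
            conv_lhs => rw [← h2]
            rw [sl_inv_mulVec]
          · have hlk : l = k := Fin.ext h
            rw [hlk]
            have h2 : t.1 *ᵥ (Pi.single k 1) = u.1 *ᵥ (Pi.single k 1) := by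
              rw [htm, Pi.single_eq_same, one_smul, hw, add_sub_cancel]
            rw [← h2, sl_inv_mulVec]
        have h2 : u = t * (t⁻¹ * u) := by group
        rw [h2]
        exact Subgroup.mul_mem _ htT h1
  intro u hu
  exact key n 0 (by omega) u hu fun l hl => absurd hl (Nat.not_lt_zero _)

theorem exists_central_mem {A : Type*} [Group A] {p : ℕ} [Fact p.Prime] {S T : Subgroup A} [Finite S] (hS : IsPGroup p S)
    (hT : T ≤ S) (hT1 : T ≠ ⊥) (hn : ∀ x ∈ T, ∀ g ∈ S, g * x * g⁻¹ ∈ T) : ∃ z ∈ T, z ≠ 1 ∧ ∀ y ∈ S, z * y = y * z := by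
  have hTn : (T.subgroupOf S).Normal := ⟨fun x hx g => hn x hx g g.2⟩
  have hne : T.subgroupOf S ≠ ⊥ := by
    intro h
    apply hT1
    rw [eq_bot_iff]
    intro x hx
    have h1 : (⟨x, hT hx⟩ : S) ∈ T.subgroupOf S := hx
    rw [h, Subgroup.mem_bot] at h1
    rw [Subgroup.mem_bot]
    exact congrArg Subtype.val h1
  have hc := CfsgLib.PGrp.inf_center_ne_bot hS hTn hne
  rcases Subgroup.bot_or_exists_ne_one (T.subgroupOf S ⊓ Subgroup.center S) with h | ⟨z, ⟨hz, hzc⟩, hz1⟩
  · exact absurd h hc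
  · refine ⟨z, hz, fun h => hz1 (Subtype.ext h), fun y hy => ?_⟩
    exact (congrArg Subtype.val (Subgroup.mem_center_iff.1 hzc ⟨y, hy⟩)).symm

theorem hA_SL {p : ℕ} [Fact p.Prime] [CharP F p] (hn : 3 ≤ n) (T : Subgroup SLn) (hT : T ≤ U F n) (hT1 : T ≠ ⊥)
    (hsc : ∀ x ∈ T, ∀ g : SLn, g * x * g⁻¹ ∈ U F n → g * x * g⁻¹ ∈ T) : T = U F n := by
  obtain ⟨z, hzT, hz1, hzc⟩ := exists_central_mem (U_isPGroup (F := F) (n := n) p) hT hT1
    (fun x hx g hg => hsc x hx g ((U F n).mul_mem ((U F n).mul_mem hg (hT hx)) ((U F n).inv_mem hg)))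
  have h1 := cent_QV (by omega) (hT hzT) fun y hy => hzc y (QV_le_U (by omega) hy)
  have h2 := cent_QH (by omega) (hT hzT) fun y hy => hzc y (QH_le_U (by omega) hy)
  obtain ⟨c, hc⟩ := h1.2 (Pi.single ⟨n - 1, by omega⟩ 1)
  have hcol : ∀ k : Fin n, k ≠ ⟨n - 1, by omega⟩ → z.1 *ᵥ (Pi.single k 1) = Pi.single k 1 := by
    intro k hk
    apply h2.2
    rw [single_one_dotProduct, Pi.single_eq_of_ne (Ne.symm hk)]
  have hc0 : c ≠ 0 := by
    rintro rfl
    apply hz1
    apply sl_ext
    intro i
    rw [sl_one_mulVec]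
    by_cases hi : i = ⟨n - 1, by omega⟩
    · rw [hi, hc, zero_smul, add_zero]
    · exact hcol i hi
  have hz : Tr (Pi.single ⟨0, by omega⟩ c) (Pi.single ⟨n - 1, by omega⟩ 1) z := by
    refine ⟨?_, ?_, ?_⟩
    · intro h; have := congrFun h ⟨0, by omega⟩; rw [Pi.single_eq_same] at this; exact hc0 this
    · intro h; have := congrFun h ⟨n - 1, by omega⟩; rw [Pi.single_eq_same] at this; exact one_ne_zero this
    · ext i j
      rw [Matrix.add_apply, vecMulVec_apply]
      by_cases hj : j = ⟨n - 1, by omega⟩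
      · subst hj
        have h3 := congrFun hc i
        rw [mulVec_single_one] at h3
        have h4 : z.1 i ⟨n - 1, by omega⟩ = _ := h3
        rw [h4, Pi.add_apply, Pi.smul_apply, Pi.single_eq_same, mul_one, one_apply, Pi.single_apply, Pi.single_apply, Pi.single_apply]
        congr 1
        rw [smul_eq_mul, mul_ite, mul_one, mul_zero]
      · have h3 := congrFun (hcol j hj) i
        rw [mulVec_single_one] at h3
        have h4 : z.1 i j = _ := h3
        rw [h4, Pi.single_eq_of_ne hj, mul_zero, add_zero, one_apply, Pi.single_apply]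
  apply le_antisymm hT
  apply U_le (by omega)
  intro s hs v φ hsT
  exact trans_mem hn hsc hzT hz hsT hs

theorem s5163 (p : ℕ) [Fact p.Prime] [CharP F p] (hn : 3 ≤ n) (S : Sylow p (Matrix.ProjectiveSpecialLinearGroup (Fin n) F)) :
    (Cfsg.groupFusionSystem (S : Subgroup (Matrix.ProjectiveSpecialLinearGroup (Fin n) F))).IsSimple p := by
  refine crit2 (A := SLn) (Z := Subgroup.center SLn) le_rfl ?_ (S₀ := U F n) (U_isPGroup p) ?_ ?_ ?_ ?_ S
  · intro z hz k hk
    obtain ⟨r, -, hr⟩ := Matrix.SpecialLinearGroup.mem_center_iff.1 hz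
    have h1 : ∀ m : ℕ, (z ^ m).1 = Matrix.scalar (Fin n) (r ^ m) := by
      intro m
      rw [map_pow, hr]
      exact Matrix.SpecialLinearGroup.coe_pow z m
    have h2 := h1 (p ^ k)
    rw [hk] at h2
    have h3 : r ^ p ^ k = 1 := by
      have h4 := congrFun (congrFun h2 ⟨0, by omega⟩) ⟨0, by omega⟩
      rw [Matrix.scalar_apply, diagonal_apply_eq] at h4
      rw [← h4]
      exact one_apply_eq _
    have h4 := pow_one_of_char h3
    apply Subtype.ext
    rw [← hr, h4, map_one]
    rfl
  · intro h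
    have h1 : (Matrix.SpecialLinearGroup.transvection (show (⟨0, by omega⟩ : Fin n) ≠ ⟨1, by omega⟩ by
      intro h; have := congrArg Fin.val h; simp at this) (1 : F)) ∈ U F n := transvection_mem_U (show (⟨0, by omega⟩ : Fin n) < ⟨1, by omega⟩ from Nat.zero_lt_one) 1
    rw [h, Subgroup.mem_bot] at h1
    have h2 := congrArg (fun s : SLn => (s.1 *ᵥ (Pi.single ⟨1, by omega⟩ 1)) ⟨0, by omega⟩) h1
    simp only at h2
    rw [trans_mulVec, sl_one_mulVec, Pi.add_apply, add_eq_left, Pi.smul_apply, Pi.single_eq_same, Pi.single_eq_same] at h2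
    simp at h2
  · intro y hy k hk
    exact hN_SL hy hk
  · exact hA_SL (p := p) hn
  · exact hB_SL hn

end CfsgLib.H9LF
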