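import Cfsg.Agent.Lib.H9LFc
/-!
A criterion for the simplicity of the fusion system of a group, IV: central quotients, by a homomorphism.
-/
set_option autoImplicit false
set_option maxHeartbeats 400000

namespace CfsgLib.H9LF

open Cfsg Cfsg.FusionSystem CfsgLib.Fusion CfsgLib.SylowIn

variable {A : Type*} [Group A]

theorem kz3 {H : Type*} [Group H] {p : ℕ} (π : A →* H) (hZ : π.ker ≤ Subgroup.center A)
    (hZp : ∀ z ∈ π.ker, ∀ k : ℕ, z ^ p ^ k = 1 → z = 1) {x y : A} {k l : ℕ} (hx : x ^ p ^ k = 1) (hy : y ^ p ^ l = 1)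
    (h : π x = π y) : x = y := by
  have hz : x⁻¹ * y ∈ π.ker := by rw [MonoidHom.mem_ker, map_mul, map_inv, h, inv_mul_cancel]
  have hc : Commute x (x⁻¹ * y) := Subgroup.mem_center_iff.1 (hZ hz) x
  have h1 : (x⁻¹ * y) ^ p ^ (k + l) = 1 := by
    have h2 : (x * (x⁻¹ * y)) ^ p ^ (k + l) = x ^ p ^ (k + l) * (x⁻¹ * y) ^ p ^ (k + l) := hc.mul_pow _
    rw [mul_inv_cancel_left, pow_add p k l, mul_comm (p ^ k) (p ^ l), pow_mul y, hy, one_pow, mul_comm (p ^ l) (p ^ k),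
      pow_mul x, hx, one_pow, one_mul] at h2
    rw [pow_add]
    exact h2.symm
  have h3 := hZp _ hz _ h1
  exact (inv_mul_eq_one.1 h3)

theorem crit3 [Finite A] {H : Type*} [Group H] [Finite H] {p : ℕ} [Fact p.Prime] (π : A →* H) (hπ : Function.Surjective π) (hZ : π.ker ≤ Subgroup.center A)
    (hZp : ∀ z ∈ π.ker, ∀ k : ℕ, z ^ p ^ k = 1 → z = 1)
    {S₀ : Subgroup A} (hp : IsPGroup p S₀) (hS1 : S₀ ≠ ⊥)
    (hN : ∀ y ∈ Subgroup.normalizer (S₀ : Set A), ∀ k : ℕ, y ^ p ^ k = 1 → y ∈ S₀)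
    (hA : ∀ T : Subgroup A, T ≤ S₀ → T ≠ ⊥ → (∀ x ∈ T, ∀ g : A, g * x * g⁻¹ ∈ S₀ → g * x * g⁻¹ ∈ T) → T = S₀)
    (hB : Subgroup.normalizer (S₀ : Set A) ≤ Subgroup.closure ((S₀ : Set A) ∪ ((π.ker : Subgroup A) : Set A) ∪ Adm p S₀))
    (S : Sylow p H) : (groupFusionSystem (S : Subgroup H)).IsSimple p := by
  have hpow : ∀ x ∈ S₀, ∃ k : ℕ, x ^ p ^ k = 1 := fun x hx => by
    obtain ⟨k, hk⟩ := hp ⟨x, hx⟩
    exact ⟨k, congrArg Subtype.val hk⟩
  have hconj : ∀ g x : A, ∀ k : ℕ, x ^ k = 1 → (g * x * g⁻¹) ^ k = 1 := by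
    intro g x k h
    rw [conj_pow, h, mul_one, mul_inv_cancel]
  -- elements of the image with a representative of `p`-power order
  have hrep : ∀ x : A, ∀ k : ℕ, x ^ p ^ k = 1 → π x ∈ S₀.map π → x ∈ S₀ := by
    rintro x k hx ⟨y, hy, hyx⟩
    obtain ⟨l, hl⟩ := hpow y hy
    have : y = x := kz3 π hZ hZp hl hx hyx
    rw [← this]; exact hy
  have hmkn : ∀ y : A, π y ∈ Subgroup.normalizer ((S₀.map π : Subgroup H) : Set H) →
      y ∈ Subgroup.normalizer (S₀ : Set A) := by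
    intro y hy
    apply mem_normalizer_of_conj_mem
    intro x hx
    obtain ⟨k, hk⟩ := hpow x hx
    refine hrep _ k (hconj _ _ _ hk) ?_
    rw [map_mul, map_mul, map_inv]
    exact (Subgroup.mem_normalizer_iff.1 hy (π x)).1 ⟨x, hx, rfl⟩
  have hnmk : ∀ (Q : Subgroup A) (y : A), y ∈ Subgroup.normalizer (Q : Set A) →
      π y ∈ Subgroup.normalizer ((Q.map π : Subgroup H) : Set H) := by
    intro Q y hy
    apply mem_normalizer_of_conj_mem
    rintro _ ⟨x, hx, rfl⟩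
    exact ⟨y * x * y⁻¹, mem_norm hy hx, by rw [map_mul, map_mul, map_inv]⟩
  apply crit' (S₀ := S₀.map π) (hp.map _)
  · intro h
    apply hS1
    rw [eq_bot_iff]
    intro x hx
    obtain ⟨k, hk⟩ := hpow x hx
    have h1 : π x ∈ S₀.map π := ⟨x, hx, rfl⟩
    rw [h, Subgroup.mem_bot] at h1
    exact kz3 π hZ hZp (k := k) (l := 0) hk (one_pow _) (by rw [h1, map_one])
  · intro y hy k hk
    obtain ⟨y, rfl⟩ := hπ y
    have hyn := hmkn y hy
    have hyz : y ^ p ^ k ∈ π.ker := by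
      rw [MonoidHom.mem_ker, map_pow]
      exact hk
    -- surjectivity of the power map on `Z`
    have hinj : Function.Injective (fun z : π.ker => (⟨(z : A) ^ p ^ k, Subgroup.pow_mem _ z.2 _⟩ : π.ker)) := by
      intro a b hab
      have h1 : (a : A) ^ p ^ k = (b : A) ^ p ^ k := congrArg Subtype.val hab
      have hc : Commute (a : A) ((b : A)⁻¹) := (Subgroup.mem_center_iff.1 (hZ (Subgroup.inv_mem _ b.2)) a)
      have h2 : ((a : A) * (b : A)⁻¹) ^ p ^ k = 1 := by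
        rw [hc.mul_pow, h1, inv_pow, mul_inv_cancel]
      exact Subtype.ext (mul_inv_eq_one.1 (hZp _ (Subgroup.mul_mem _ a.2 (Subgroup.inv_mem _ b.2)) _ h2))
    obtain ⟨z, hz⟩ := Finite.surjective_of_injective hinj ⟨(y ^ p ^ k)⁻¹, Subgroup.inv_mem _ hyz⟩
    have hz' : (z : A) ^ p ^ k = (y ^ p ^ k)⁻¹ := congrArg Subtype.val hz
    have hc : Commute y (z : A) := (Subgroup.mem_center_iff.1 (hZ z.2) y)
    have h1 : (y * z) ^ p ^ k = 1 := by rw [hc.mul_pow, hz', mul_inv_cancel]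
    have h2 := hN (y * z) (mul_central_mem_normalizer hZ hyn z.2) k h1
    refine ⟨y * z, h2, ?_⟩
    rw [map_mul, MonoidHom.mem_ker.1 z.2, mul_one]
  · intro T hT hT1 hsc
    have h1 : S₀ ⊓ T.comap π = S₀ := by
      apply hA _ inf_le_left
      · intro h
        apply hT1
        rw [eq_bot_iff]
        intro t ht
        obtain ⟨x, hx, rfl⟩ := hT ht
        have h2 : x ∈ S₀ ⊓ T.comap π := ⟨hx, ht⟩
        rw [h, Subgroup.mem_bot] at h2
        rw [h2, map_one]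
        exact Subgroup.one_mem _
      · rintro x ⟨hx, hxT⟩ g hg
        exact ⟨hg, (by
          show π (g * x * g⁻¹) ∈ T
          rw [map_mul, map_mul, map_inv]
          exact hsc _ hxT (π g) ⟨_, hg, by rw [map_mul, map_mul, map_inv]⟩)⟩
    apply le_antisymm hT
    rintro _ ⟨x, hx, rfl⟩
    rw [← h1] at hx
    exact hx.2
  · intro y hy
    obtain ⟨y, rfl⟩ := hπ y
    have hyn := hmkn y hy
    have h2 : π y ∈ (Subgroup.closure ((S₀ : Set A) ∪ ((π.ker : Subgroup A) : Set A) ∪ Adm p S₀)).map π := ⟨_, hB hyn, rfl⟩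
    have h3 : (Subgroup.closure ((S₀ : Set A) ∪ ((π.ker : Subgroup A) : Set A) ∪ Adm p S₀)).map π ≤
        Subgroup.closure ((((S₀.map π : Subgroup H) : Set H)) ∪ Adm p (S₀.map π)) := by
      rw [MonoidHom.map_closure, Subgroup.closure_le]
      rintro _ ⟨w, ((hw | hw) | hw), rfl⟩
      · exact Subgroup.subset_closure (Or.inl ⟨w, hw, rfl⟩)
      · have : π w = 1 := hw
        rw [this]
        exact Subgroup.one_mem _
      · apply Subgroup.subset_closure
        right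
        obtain ⟨h1, Q, h2, h3, h4, h5⟩ := hw
        refine ⟨hnmk _ _ h1, Q.map π, Subgroup.map_mono h2, ?_, ?_, ?_⟩
        · rintro _ ⟨x, hx, rfl⟩
          exact hnmk _ _ (h3 hx)
        · rintro _ ⟨x, hx, rfl⟩ hxy
          refine ⟨x, h4 x hx fun y hy => ?_, rfl⟩
          have h6 := hxy (π y) ⟨y, hy, rfl⟩
          obtain ⟨k, hk⟩ := hpow y (h2 hy)
          have h7 : π (x * y * x⁻¹) = π y := by
            rw [map_mul, map_mul, map_inv, h6, mul_assoc, mul_inv_cancel, mul_one]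
          have h8 := kz3 π hZ hZp (hconj x y _ hk) hk h7
          exact mul_inv_eq_iff_eq_mul.1 h8
        · have h6 : π w ∈ (Subgroup.closure {y | y ∈ Subgroup.normalizer (Q : Set A) ∧ ∃ k : ℕ, y ^ p ^ k = 1}).map π :=
            ⟨w, h5, rfl⟩
          rw [MonoidHom.map_closure] at h6
          refine Subgroup.closure_mono ?_ h6
          rintro _ ⟨y, ⟨hy, k, hk⟩, rfl⟩
          refine ⟨hnmk _ _ hy, k, ?_⟩
          rw [← map_pow, hk, map_one]
    exact h3 h2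

end CfsgLib.H9LF
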