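import Mathlib
import Cfsg.Prelude.Def_Involutions
import Cfsg.Agent.Lib.Invol
set_option autoImplicit false
set_option maxHeartbeats 400000

/-! strongly embedded subgroups: counting involutions. -/

namespace CfsgLib.H9SE

open CfsgLib.Invol

universe u

variable {G : Type u} [Group G] {H : Subgroup G}

theorem orderOf_conj_inv (g y : G) : orderOf (g⁻¹ * y * g) = orderOf y := by
  have := CfsgLib.Invol.orderOf_conj g⁻¹ y
  rwa [inv_inv] at this

theorem smul_mk {g a : G} : g • (QuotientGroup.mk a : G ⧸ H) = QuotientGroup.mk a ↔ a⁻¹ * g * a ∈ H := by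
  rw [MulAction.Quotient.smul_mk, eq_comm, QuotientGroup.eq, smul_eq_mul, mul_assoc]

variable [Finite G]

/-- conjugates of involutions -/
theorem mem_of_inv (hH : Cfsg.IsStronglyEmbedded H) {s g : G} (hs : orderOf s = 2) (hsH : s ∈ H) (hg : g⁻¹ * s * g ∈ H) : g ∈ H := by
  by_contra hgH
  have h1 := hH.2.2 g hgH
  rw [← Nat.not_even_iff_odd] at h1
  apply h1
  have h2 : s ∈ H ⊓ H.map (MulAut.conj g).toMonoidHom := by
    refine ⟨hsH, g⁻¹ * s * g, hg, ?_⟩
    show g * (g⁻¹ * s * g) * g⁻¹ = s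
    group
  have h3 := _root_.orderOf_dvd_natCard (⟨s, h2⟩ : (H ⊓ H.map (MulAut.conj g).toMonoidHom : Subgroup G))
  rw [Subgroup.orderOf_mk, hs] at h3
  exact even_iff_two_dvd.2 h3

theorem fix_unique (hH : Cfsg.IsStronglyEmbedded H) {s : G} (hs : orderOf s = 2) {x y : G ⧸ H} (hx : s • x = x) (hy : s • y = y) : x = y := by
  obtain ⟨a, rfl⟩ := QuotientGroup.mk_surjective x
  obtain ⟨b, rfl⟩ := QuotientGroup.mk_surjective y
  rw [smul_mk] at hx hy
  rw [QuotientGroup.eq]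
  refine mem_of_inv hH (s := a⁻¹ * s * a) ?_ hx ?_
  · rw [orderOf_conj_inv]; exact hs
  · have e : (a⁻¹ * b)⁻¹ * (a⁻¹ * s * a) * (a⁻¹ * b) = b⁻¹ * s * b := by group
    rw [e]; exact hy

theorem fix_comm (hH : Cfsg.IsStronglyEmbedded H) {s g : G} (hs : orderOf s = 2) {x : G ⧸ H} (hx : s • x = x) (hc : Commute g s) : g • x = x := by
  apply fix_unique hH hs _ hx
  rw [← mul_smul, ← hc.eq, mul_smul, hx]

/-- `s` fixes `x`, `j` does not: `s j` has odd order -/
theorem odd_mul (hH : Cfsg.IsStronglyEmbedded H) {s j : G} (hs : orderOf s = 2) (hj : orderOf j = 2) {x : G ⧸ H} (hx : s • x = x) (hjx : j • x ≠ x) :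
    Odd (orderOf (s * j)) := by
  rw [← Nat.not_even_iff_odd]
  intro he
  have h1 := orderOf_zi he
  have h2 := zi_comm_left (mul_self_of_orderOf hs) (mul_self_of_orderOf hj) he
  have h3 := zi_comm_right (mul_self_of_orderOf hs) (mul_self_of_orderOf hj) he
  exact hjx (fix_comm hH h1 (fix_comm hH hs hx h2) h3.symm)

/-- every involution fixes a point -/
theorem exists_fix (hH : Cfsg.IsStronglyEmbedded H) {s : G} (hs : orderOf s = 2) : ∃ x : G ⧸ H, s • x = x := by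
  haveI : Fact (Nat.Prime 2) := ⟨Nat.prime_two⟩
  obtain ⟨⟨t, htH⟩, ht⟩ := exists_prime_orderOf_dvd_card' 2 (even_iff_two_dvd.1 hH.2.1)
  rw [Subgroup.orderOf_mk] at ht
  have htx : t • (QuotientGroup.mk 1 : G ⧸ H) = QuotientGroup.mk 1 := by
    rw [smul_mk, inv_one, one_mul, mul_one]; exact htH
  by_cases he : Even (orderOf (t * s))
  · have h1 := orderOf_zi he
    have h2 := zi_comm_left (mul_self_of_orderOf ht) (mul_self_of_orderOf hs) he
    have h3 := zi_comm_right (mul_self_of_orderOf ht) (mul_self_of_orderOf hs) he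
    exact ⟨_, fix_comm hH h1 (fix_comm hH ht htx h2) h3.symm⟩
  · rw [Nat.not_even_iff_odd] at he
    obtain ⟨d, -, hd⟩ := conj_of_odd (mul_self_of_orderOf ht) (mul_self_of_orderOf hs) he
    refine ⟨QuotientGroup.mk d, ?_⟩
    rw [smul_mk, ← hd]
    have e : d⁻¹ * (d * t * d⁻¹) * d = t := by group
    rw [e]; exact htH

/-- the involution swapping the fixed points of two involutions -/
theorem exists_swap (hH : Cfsg.IsStronglyEmbedded H) {s t : G} (hs : orderOf s = 2) (ht : orderOf t = 2) {x y : G ⧸ H} (hx : s • x = x) (hy : t • y = y)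
    (hxy : x ≠ y) : ∃ i : G, orderOf i = 2 ∧ i • x = y ∧ i * s * i⁻¹ = t := by
  have htx : t • x ≠ x := fun h => hxy (fix_unique hH ht h hy)
  obtain ⟨m, hm⟩ := odd_mul hH hs ht hx htx
  have hs2 := mul_self_of_orderOf hs
  have ht2 := mul_self_of_orderOf ht
  have hsinv : s⁻¹ = s := inv_eq_of_mul_self hs2
  set c := s * t with hc
  have hk : ∀ k : ℕ, s * c ^ k * s = (c ^ k)⁻¹ := by
    intro k
    have h1 := conj_mul_zpow hs2 ht2 (k : ℤ)
    rw [zpow_neg, zpow_natCast, hsinv] at h1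
    exact h1
  have hcm : c ^ (2 * (m + 1)) = c := by
    rw [show 2 * (m + 1) = (2 * m + 1) + 1 by ring, pow_succ, ← hm, pow_orderOf_eq_one, one_mul]
  have hii : (s * c ^ (m + 1)) * (s * c ^ (m + 1)) = 1 := by
    have : (s * c ^ (m + 1)) * (s * c ^ (m + 1)) = (s * c ^ (m + 1) * s) * c ^ (m + 1) := by group
    rw [this, hk, inv_mul_cancel]
  have hi1 : s * c ^ (m + 1) ≠ 1 := by
    intro h
    have h2 : c ^ (m + 1) = s := by
      have := congrArg (fun z => s * z) h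
      simp only [mul_one] at this
      rw [← mul_assoc, hs2, one_mul] at this
      exact this
    have h3 : orderOf s ∣ orderOf c := by
      rw [← h2]; exact orderOf_pow_dvd _
    rw [hs, hm] at h3
    omega
  have hord : orderOf (s * c ^ (m + 1)) = 2 := orderOf_eq_prime (by rw [sq]; exact hii) hi1
  have hconj : (s * c ^ (m + 1)) * s * (s * c ^ (m + 1))⁻¹ = t := by
    rw [inv_eq_of_mul_self hii]
    calc (s * c ^ (m + 1)) * s * (s * c ^ (m + 1)) = (s * c ^ (m + 1)) * (s * s) * c ^ (m + 1) := by group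
      _ = s * (c ^ (m + 1) * c ^ (m + 1)) := by rw [hs2, mul_one, mul_assoc]
      _ = s * c := by rw [← pow_add, ← two_mul, hcm]
      _ = t := by rw [hc, ← mul_assoc, hs2, one_mul]
  refine ⟨s * c ^ (m + 1), hord, ?_, hconj⟩
  apply fix_unique hH ht _ hy
  rw [← hconj]
  rw [mul_smul, mul_smul, inv_smul_smul, hx]

/-- uniqueness of the swapping involution -/
theorem swap_unique (hH : Cfsg.IsStronglyEmbedded H) {s i j : G} (hs : orderOf s = 2) (hi : orderOf i = 2) (hj : orderOf j = 2) {x : G ⧸ H} (hx : s • x = x)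
    (hix : i • x ≠ x) (hjx : j • x ≠ x) (h : i * s * i⁻¹ = j * s * j⁻¹) : i = j := by
  have hs2 := mul_self_of_orderOf hs
  have hi2 := mul_self_of_orderOf hi
  have hj2 := mul_self_of_orderOf hj
  obtain ⟨m, hm⟩ := odd_mul hH hs hi hx hix
  obtain ⟨n, hn⟩ := odd_mul hH hs hj hx hjx
  rw [inv_eq_of_mul_self hi2, inv_eq_of_mul_self hj2] at h
  have h1 : (s * i) ^ 2 = (s * j) ^ 2 := by
    have e1 : (s * i) ^ 2 = s * (i * s * i) := by rw [sq]; group
    have e2 : (s * j) ^ 2 = s * (j * s * j) := by rw [sq]; group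
    rw [e1, e2, h]
  have h2 : ∀ z : G, ∀ k : ℕ, orderOf z = 2 * k + 1 → z = (z ^ 2) ^ (k + 1) := by
    intro z k hz
    rw [← pow_mul, show 2 * (k + 1) = (2 * k + 1) + 1 by ring, pow_succ, ← hz, pow_orderOf_eq_one, one_mul]
  have h3 : orderOf (s * i) = orderOf (s * j) := by
    have e1 : orderOf ((s * i) ^ 2) = orderOf (s * i) := by
      apply Nat.Coprime.orderOf_pow
      rw [hm]; exact (Nat.coprime_two_right.2 ⟨m, rfl⟩)
    have e2 : orderOf ((s * j) ^ 2) = orderOf (s * j) := by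
      apply Nat.Coprime.orderOf_pow
      rw [hn]; exact (Nat.coprime_two_right.2 ⟨n, rfl⟩)
    rw [← e1, h1, e2]
  have h4 : m = n := by omega
  subst h4
  have h5 : s * i = s * j := by
    rw [h2 _ m hm, h2 _ m hn, h1]
  exact mul_left_cancel h5

/-- S1224 -/
theorem card_swap (hH : Cfsg.IsStronglyEmbedded H) (x y : G ⧸ H) (hxy : x ≠ y) :
    Nat.card {i : G // orderOf i = 2 ∧ i • x = y} = Nat.card {t : G // orderOf t = 2 ∧ t ∈ H} := by
  haveI : Fact (Nat.Prime 2) := ⟨Nat.prime_two⟩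
  obtain ⟨⟨t₀, ht₀H⟩, ht₀⟩ := exists_prime_orderOf_dvd_card' 2 (even_iff_two_dvd.1 hH.2.1)
  rw [Subgroup.orderOf_mk] at ht₀
  obtain ⟨a, rfl⟩ := QuotientGroup.mk_surjective x
  obtain ⟨b, rfl⟩ := QuotientGroup.mk_surjective y
  set s := a * t₀ * a⁻¹ with hs'
  have hs : orderOf s = 2 := by rw [hs', CfsgLib.Invol.orderOf_conj]; exact ht₀
  have hx : s • (QuotientGroup.mk a : G ⧸ H) = QuotientGroup.mk a := by
    rw [smul_mk, hs']
    have e : a⁻¹ * (a * t₀ * a⁻¹) * a = t₀ := by group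
    rw [e]; exact ht₀H
  have hfix : ∀ i : G, i • (QuotientGroup.mk a : G ⧸ H) = QuotientGroup.mk b → (i * s * i⁻¹) • (QuotientGroup.mk b : G ⧸ H) = QuotientGroup.mk b := by
    intro i hi
    rw [← hi, mul_smul, mul_smul, inv_smul_smul, hx]
  apply Nat.card_congr
  refine Equiv.ofBijective (fun i => ⟨b⁻¹ * ((i : G) * s * (i : G)⁻¹) * b, ?_, ?_⟩) ⟨?_, ?_⟩
  · rw [orderOf_conj_inv, CfsgLib.Invol.orderOf_conj]; exact hs
  · exact smul_mk.1 (hfix _ i.2.2)
  · rintro ⟨i, hi, hix⟩ ⟨j, hj, hjx⟩ h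
    have h1 : b⁻¹ * (i * s * i⁻¹) * b = b⁻¹ * (j * s * j⁻¹) * b := congrArg Subtype.val h
    have h2 : i * s * i⁻¹ = j * s * j⁻¹ := mul_left_cancel (mul_right_cancel h1)
    apply Subtype.ext
    refine swap_unique hH hs hi hj hx ?_ ?_ h2
    · rw [hix]; exact hxy.symm
    · rw [hjx]; exact hxy.symm
  · rintro ⟨t, ht, htH⟩
    have hy : (b * t * b⁻¹) • (QuotientGroup.mk b : G ⧸ H) = QuotientGroup.mk b := by
      rw [smul_mk]
      have e : b⁻¹ * (b * t * b⁻¹) * b = t := by group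
      rw [e]; exact htH
    obtain ⟨i, hi, hix, his⟩ := exists_swap hH hs (t := b * t * b⁻¹) (by rw [CfsgLib.Invol.orderOf_conj]; exact ht) hx hy hxy
    refine ⟨⟨i, hi, hix⟩, Subtype.ext ?_⟩
    show b⁻¹ * (i * s * i⁻¹) * b = t
    rw [his]; group

theorem mem_conj_map {u d : G} : d ∈ H.map (MulAut.conj u).toMonoidHom ↔ d • (QuotientGroup.mk u : G ⧸ H) = QuotientGroup.mk u := by
  rw [smul_mk]
  constructor
  · rintro ⟨h, hh, rfl⟩
    show u⁻¹ * (u * h * u⁻¹) * u ∈ H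
    have e : u⁻¹ * (u * h * u⁻¹) * u = h := by group
    rw [e]; exact hh
  · intro h
    exact ⟨_, h, by show u * (u⁻¹ * d * u) * u⁻¹ = d; group⟩

theorem mem_iff_fix {d : G} : d ∈ H ↔ d • (QuotientGroup.mk 1 : G ⧸ H) = QuotientGroup.mk 1 := by
  rw [smul_mk, inv_one, one_mul, mul_one]

/-- S1225, first part -/
theorem conj_in_D (hH : Cfsg.IsStronglyEmbedded H) {u : G} (hu : orderOf u = 2) (huH : u ∉ H) {s t : G} (hs : orderOf s = 2) (hsH : s ∈ H)
    (ht : orderOf t = 2) (htH : t ∈ H) : ∃ d ∈ (H ⊓ H.map (MulAut.conj u).toMonoidHom), d * s * d⁻¹ = t := by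
  have hxy : (QuotientGroup.mk 1 : G ⧸ H) ≠ QuotientGroup.mk u := by
    rw [Ne, QuotientGroup.eq, inv_one, one_mul]; exact huH
  have hu2 := mul_self_of_orderOf hu
  have hy : (u * t * u⁻¹) • (QuotientGroup.mk u : G ⧸ H) = QuotientGroup.mk u := by
    rw [smul_mk]
    have e : u⁻¹ * (u * t * u⁻¹) * u = t := by group
    rw [e]; exact htH
  obtain ⟨i, hi, hix, his⟩ := exists_swap hH hs (t := u * t * u⁻¹) (by rw [CfsgLib.Invol.orderOf_conj]; exact ht) (mem_iff_fix.1 hsH) hy hxy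
  have hux : u • (QuotientGroup.mk 1 : G ⧸ H) = QuotientGroup.mk u := by
    rw [MulAction.Quotient.smul_mk, smul_eq_mul, mul_one]
  have huy : u • (QuotientGroup.mk u : G ⧸ H) = QuotientGroup.mk 1 := by
    rw [← hux, ← mul_smul, hu2, one_smul]
  have hiy : i • (QuotientGroup.mk u : G ⧸ H) = QuotientGroup.mk 1 := by
    rw [← hix, ← mul_smul, mul_self_of_orderOf hi, one_smul]
  refine ⟨u * i, ⟨?_, ?_⟩, ?_⟩
  · apply mem_iff_fix.2
    rw [mul_smul, hix, huy]
  · apply mem_conj_map.2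
    rw [mul_smul, hiy, hux]
  · have e : u * i * s * (u * i)⁻¹ = u * (i * s * i⁻¹) * u⁻¹ := by group
    rw [e, his, inv_eq_of_mul_self hu2]
    calc u * (u * t * u) * u = (u * u) * t * (u * u) := by group
      _ = t := by rw [hu2, one_mul, mul_one]

theorem isConj_of (hH : Cfsg.IsStronglyEmbedded H) {u : G} (hu : orderOf u = 2) (huH : u ∉ H) {a b : G} (ha : orderOf a = 2) (hb : orderOf b = 2) : IsConj a b := by
  obtain ⟨x, hx⟩ := exists_fix hH ha
  obtain ⟨y, hy⟩ := exists_fix hH hb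
  obtain ⟨g, rfl⟩ := QuotientGroup.mk_surjective x
  obtain ⟨k, rfl⟩ := QuotientGroup.mk_surjective y
  rw [smul_mk] at hx hy
  obtain ⟨d, -, hd⟩ := conj_in_D hH hu huH (s := g⁻¹ * a * g) (t := k⁻¹ * b * k) (by rw [orderOf_conj_inv]; exact ha) hx
    (by rw [orderOf_conj_inv]; exact hb) hy
  rw [isConj_iff]
  refine ⟨k * d * g⁻¹, ?_⟩
  have e : k * d * g⁻¹ * a * (k * d * g⁻¹)⁻¹ = k * (d * (g⁻¹ * a * g) * d⁻¹) * k⁻¹ := by group
  rw [e, hd]; group

end CfsgLib.H9SE
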