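import Cfsg.Agent.Lib.PSolv
set_option autoImplicit false

/-! SL(2,3). -/

namespace CfsgLib.H9SL23

open Subgroup Matrix

abbrev X := SpecialLinearGroup (Fin 2) (ZMod 3)

abbrev q (a b c d : ZMod 3) : Prop := a + d = 0 ∨ (b = 0 ∧ c = 0)

theorem q_mul : ∀ a b c d : ZMod 3, a * d - b * c = 1 → q a b c d → ∀ a' b' c' d' : ZMod 3, a' * d' - b' * c' = 1 → q a' b' c' d' →
    q (a * a' + b * c') (a * b' + b * d') (c * a' + d * c') (c * b' + d * d') := by
  decide +kernel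

theorem q_conj : ∀ a b c d : ZMod 3, a * d - b * c = 1 → q a b c d → ∀ a' b' c' d' : ZMod 3, a' * d' - b' * c' = 1 →
    q ((a' * a + b' * c) * d' - (a' * b + b' * d) * c') (-(a' * a + b' * c) * b' + (a' * b + b' * d) * a')
      ((c' * a + d' * c) * d' - (c' * b + d' * d) * c') (-(c' * a + d' * c) * b' + (c' * b + d' * d) * a') := by
  decide +kernel

theorem q_pow0 : ∀ a b c d : ZMod 3, a * d - b * c = 1 → q a b c d →
    (a * a + b * c) * (a * a + b * c) + (a * b + b * d) * (c * a + d * c) = 1 ∧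
    (a * a + b * c) * (a * b + b * d) + (a * b + b * d) * (c * b + d * d) = 0 ∧
    (c * a + d * c) * (a * a + b * c) + (c * b + d * d) * (c * a + d * c) = 0 ∧
    (c * a + d * c) * (a * b + b * d) + (c * b + d * d) * (c * b + d * d) = 1 := by
  decide +kernel

theorem q_pow (a b c d : ZMod 3) (h : a * d - b * c = 1) (h' : q a b c d)
   (A B C D : ZMod 3) (h1 : A = a * a + b * c) (h2 : B = a * b + b * d) (h3 : C = c * a + d * c) (h4 : D = c * b + d * d) :
    A * A + B * C = 1 ∧ A * B + B * D = 0 ∧ C * A + D * C = 0 ∧ C * B + D * D = 1 := by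
  subst h1 h2 h3 h4
  exact q_pow0 a b c d h h'

theorem q_inv : ∀ a b c d : ZMod 3, q a b c d → q d (-b) (-c) a := by
  decide +kernel

theorem two_tor : ∀ a b c d : ZMod 3, a * d - b * c = 1 → a * a + b * c = 1 → a * b + b * d = 0 → c * a + d * c = 0 → c * b + d * d = 1 →
    b = 0 ∧ c = 0 ∧ a = d := by
  decide +kernel

theorem cent : ∀ a b c d : ZMod 3, a * d - b * c = 1 →
   (a * 0 + b * 1 = 0 * a + (-1) * c ∧ a * (-1) + b * 0 = 0 * b + (-1) * d ∧ c * 0 + d * 1 = 1 * a + 0 * c ∧ c * (-1) + d * 0 = 1 * b + 0 * d) →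
   (a * 1 + b * 1 = 1 * a + 1 * c ∧ a * 1 + b * (-1) = 1 * b + 1 * d ∧ c * 1 + d * 1 = 1 * a + (-1) * c ∧ c * 1 + d * (-1) = 1 * b + (-1) * d) →
    q a b c d := by
  decide +kernel

theorem det (g : X) : g 0 0 * g 1 1 - g 0 1 * g 1 0 = 1 := by
  have := g.det_coe
  rwa [det_fin_two] at this

theorem mul_ent (g h : X) (i j : Fin 2) : (g * h) i j = g i 0 * h 0 j + g i 1 * h 1 j := by
  change (g.1 * h.1) i j = _
  rw [Matrix.mul_apply, Fin.sum_univ_two]

theorem inv_ent (g : X) : g⁻¹ 0 0 = g 1 1 ∧ g⁻¹ 0 1 = -g 0 1 ∧ g⁻¹ 1 0 = -g 1 0 ∧ g⁻¹ 1 1 = g 0 0 := by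
  have h : (g⁻¹ : X).1 = adjugate g.1 := rfl
  rw [adjugate_fin_two] at h
  refine ⟨?_, ?_, ?_, ?_⟩
  · change (g⁻¹ : X).1 0 0 = _; rw [h]; rfl
  · change (g⁻¹ : X).1 0 1 = _; rw [h]; rfl
  · change (g⁻¹ : X).1 1 0 = _; rw [h]; rfl
  · change (g⁻¹ : X).1 1 1 = _; rw [h]; rfl

theorem ext_ent {g h : X} (h1 : g 0 0 = h 0 0) (h2 : g 0 1 = h 0 1) (h3 : g 1 0 = h 1 0) (h4 : g 1 1 = h 1 1) : g = h := by
  ext i j
  fin_cases i <;> fin_cases j <;> assumption

def Q : Subgroup X where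
  carrier := {g | q (g 0 0) (g 0 1) (g 1 0) (g 1 1)}
  one_mem' := Or.inr ⟨rfl, rfl⟩
  mul_mem' := by
    intro g h hg hh
    have := q_mul _ _ _ _ (det g) hg _ _ _ _ (det h) hh
    simp only [← mul_ent] at this
    exact this
  inv_mem' := by
    intro g hg
    obtain ⟨h1, h2, h3, h4⟩ := inv_ent g
    show q (g⁻¹ 0 0) (g⁻¹ 0 1) (g⁻¹ 1 0) (g⁻¹ 1 1)
    rw [h1, h2, h3, h4]
    exact q_inv _ _ _ _ hg

theorem Q_normal : Q.Normal := by
  refine ⟨fun g hg h => ?_⟩
  obtain ⟨h1, h2, h3, h4⟩ := inv_ent h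
  have := q_conj _ _ _ _ (det g) hg _ _ _ _ (det h)
  show q ((h * g * h⁻¹) 0 0) ((h * g * h⁻¹) 0 1) ((h * g * h⁻¹) 1 0) ((h * g * h⁻¹) 1 1)
  rw [mul_ent (h * g), mul_ent (h * g), mul_ent (h * g), mul_ent (h * g), h1, h2, h3, h4]
  simp only [mul_ent h g]
  convert this using 1 <;> ring_nf

theorem Q_pow {g : X} (hg : g ∈ Q) : g ^ 4 = 1 := by
  have h1 := q_pow _ _ _ _ (det g) hg _ _ _ _ (mul_ent g g 0 0) (mul_ent g g 0 1) (mul_ent g g 1 0) (mul_ent g g 1 1)
  have h2 : g ^ 4 = (g * g) * (g * g) := by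
    rw [← pow_two, ← pow_two, ← pow_mul]
  rw [h2]
  apply ext_ent
  · rw [mul_ent]; exact h1.1
  · rw [mul_ent]; exact h1.2.1
  · rw [mul_ent]; exact h1.2.2.1
  · rw [mul_ent]; exact h1.2.2.2

theorem Q_pgroup : IsPGroup 2 Q := fun x => ⟨2, Subtype.ext (Q_pow x.2)⟩

def i₀ : X := ⟨!![0, -1; 1, 0], by simp [det_fin_two]⟩
def j₀ : X := ⟨!![1, 1; 1, -1], by rw [det_fin_two]; decide⟩

theorem cent_Q {g : X} (hg : g ∈ centralizer (Q : Set X)) : g ∈ Q := by
  have h1 := mem_centralizer_iff.1 hg i₀ (show q 0 (-1) 1 0 from by decide)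
  have h2 := mem_centralizer_iff.1 hg j₀ (show q 1 1 1 (-1) from by decide)
  refine cent _ _ _ _ (det g) ⟨?_, ?_, ?_, ?_⟩ ⟨?_, ?_, ?_, ?_⟩
  · have := congrArg (fun t : X => t 0 0) h1
    simp only [mul_ent] at this
    exact this.symm
  · have := congrArg (fun t : X => t 0 1) h1
    simp only [mul_ent] at this
    exact this.symm
  · have := congrArg (fun t : X => t 1 0) h1
    simp only [mul_ent] at this
    exact this.symm
  · have := congrArg (fun t : X => t 1 1) h1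
    simp only [mul_ent] at this
    exact this.symm
  · have := congrArg (fun t : X => t 0 0) h2
    simp only [mul_ent] at this
    exact this.symm
  · have := congrArg (fun t : X => t 0 1) h2
    simp only [mul_ent] at this
    exact this.symm
  · have := congrArg (fun t : X => t 1 0) h2
    simp only [mul_ent] at this
    exact this.symm
  · have := congrArg (fun t : X => t 1 1) h2
    simp only [mul_ent] at this
    exact this.symm

theorem invol {t : X} (ht : orderOf t = 2) : t ∈ center X := by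
  have h2 : t * t = 1 := by
    rw [← pow_two]
    exact orderOf_dvd_iff_pow_eq_one.1 (dvd_of_eq ht)
  have e1 := congrArg (fun t : X => t 0 0) h2
  have e2 := congrArg (fun t : X => t 0 1) h2
  have e3 := congrArg (fun t : X => t 1 0) h2
  have e4 := congrArg (fun t : X => t 1 1) h2
  simp only [mul_ent] at e1 e2 e3 e4
  obtain ⟨hb, hc, had⟩ := two_tor _ _ _ _ (det t) e1 e2 e3 e4
  rw [mem_center_iff]
  intro g
  apply ext_ent <;> simp only [mul_ent, hb, hc, had] <;> ring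

theorem core_bot : Cfsg.pPrimeCore 2 X = ⊥ := by
  haveI : Fact (Nat.Prime 2) := ⟨Nat.prime_two⟩
  have hn := CfsgLib.Core.pPrimeCore_normal 2 X
  have hc := CfsgLib.Core.card_pPrimeCore_coprime 2 X
  have hdisj : Disjoint (Cfsg.pPrimeCore 2 X) Q := by
    rw [disjoint_iff, eq_bot_iff]
    rintro x ⟨hx1, hx2⟩
    have h1 : x ^ 4 = 1 := Q_pow hx2
    have h2 : orderOf x ∣ 4 := orderOf_dvd_of_pow_eq_one h1
    have h3 : orderOf x ∣ Nat.card (Cfsg.pPrimeCore 2 X) := orderOf_dvd_natCard _ hx1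
    have h4 : orderOf x = 1 := Nat.eq_one_of_dvd_coprimes (hc.pow_right 2) h3 h2
    exact orderOf_eq_one_iff.1 h4
  rw [eq_bot_iff]
  intro x hx
  have h1 : x ∈ centralizer (Q : Set X) := by
    rw [mem_centralizer_iff]
    intro y hy
    exact (commute_of_normal_of_disjoint _ _ hn Q_normal hdisj x y hx hy).symm
  exact (disjoint_iff_inf_le.1 hdisj) ⟨hx, cent_Q h1⟩

theorem constrained : Cfsg.IsPConstrained 2 X := by
  haveI : Fact (Nat.Prime 2) := ⟨Nat.prime_two⟩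
  rw [CfsgLib.PSolv.isPConstrained_iff_of_eq_bot core_bot]
  have h1 : Q ≤ Cfsg.pCore 2 X := CfsgLib.Core.le_pCore Q_normal Q_pgroup
  intro x hx
  exact h1 (cent_Q (centralizer_le h1 hx))

end CfsgLib.H9SL23
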