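import Cfsg.Agent.Lib.H9LFf
/-!
General lemmas on Sylow subgroups and fixed vectors.
-/
set_option autoImplicit false
set_option maxHeartbeats 400000

namespace CfsgLib.H9SP

open CfsgLib.SylowIn

section grp
variable {A : Type*} [Group A] {p : ℕ} [Fact p.Prime]

theorem le_of_normalized (P : Sylow p A) {Q : Subgroup A} (hQ : IsPGroup p Q)
    (h : (P : Subgroup A) ≤ Subgroup.normalizer (Q : Set A)) : Q ≤ P := by
  have h1 : IsPGroup p ((P : Subgroup A) ⊔ Q : Subgroup A) := P.2.to_sup_of_normal_right' hQ h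
  rw [← P.3 h1 le_sup_left]
  exact le_sup_right

theorem sylow_hN (P : Sylow p A) {y : A} (hy : y ∈ Subgroup.normalizer ((P : Subgroup A) : Set A)) {k : ℕ} (hk : y ^ p ^ k = 1) :
    y ∈ (P : Subgroup A) := by
  have hz : IsPGroup p (Subgroup.zpowers y) := by
    rintro ⟨_, n, rfl⟩
    refine ⟨k, Subtype.ext ?_⟩
    show (y ^ n) ^ p ^ k = 1
    rw [← zpow_natCast, ← zpow_mul, mul_comm, zpow_mul, zpow_natCast, hk, one_zpow]
  have h1 : IsPGroup p (Subgroup.zpowers y ⊔ (P : Subgroup A) : Subgroup A) :=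
    hz.to_sup_of_normal_right' P.2 (Subgroup.zpowers_le.2 hy)
  rw [← P.3 h1 le_sup_right]
  exact (le_sup_left : Subgroup.zpowers y ≤ _) (Subgroup.mem_zpowers y)

theorem frattini_adm [Finite A] (P : Sylow p A) {K : Subgroup A} (hPK : (P : Subgroup A) ≤ K) {r : A}
    (hr : ∀ x ∈ (P : Subgroup A), r * x * r⁻¹ ∈ K) : ∃ k ∈ K, k * r ∈ Subgroup.normalizer ((P : Subgroup A) : Set A) := by
  have h1 : IsSylowIn p (P : Subgroup A) K := ⟨hPK, P.2, fun T _ hTp => P.isSylowIn_top.2.2 T le_top hTp⟩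
  have h2 : IsPGroup p ((P : Subgroup A).map (MulAut.conj r).toMonoidHom) := P.2.map _
  have h3 : (P : Subgroup A).map (MulAut.conj r).toMonoidHom ≤ K := by
    rintro _ ⟨x, hx, rfl⟩
    exact hr x hx
  obtain ⟨k, hk, hkx⟩ := h1.exists_conj h3 h2
  refine ⟨k, hk, CfsgLib.Fusion.mem_normalizer_of_conj_mem fun x hx => ?_⟩
  have := hkx (r * x * r⁻¹) ⟨x, hx, rfl⟩
  have e : k * r * x * (k * r)⁻¹ = k * (r * x * r⁻¹) * k⁻¹ := by group
  rw [e]; exact this

end grp

section fix

variable {F V : Type*} [Field F] [Finite F] [AddCommGroup V] [Module F V] [FiniteDimensional F V]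
  {p : ℕ} [Fact p.Prime] [CharP F p] {P : Type*} [Group P]

theorem dvd_card : p ∣ Nat.card F := by
  have h1 : (Nat.card F : F) = 0 := by
    have := Fintype.ofFinite F
    rw [Nat.card_eq_fintype_card]
    exact Nat.cast_card_eq_zero F
  exact (CharP.cast_eq_zero_iff F p _).1 h1

/-- a `p`-group fixes a nonzero vector of a nonzero quotient module -/
theorem exists_fixed_mod (hP : IsPGroup p P) (ρ : P →* Module.End F V) {U W : Submodule F V} (hUW : U < W)
    (hU : ∀ g, ∀ x ∈ U, ρ g x ∈ U) (hW : ∀ g, ∀ x ∈ W, ρ g x ∈ W) : ∃ w ∈ W, w ∉ U ∧ ∀ g, ρ g w - w ∈ U := by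
  have hfinV : Finite V := Module.finite_of_finite F
  let U' : Submodule F W := U.comap W.subtype
  let f : P → (W ⧸ U') →ₗ[F] (W ⧸ U') := fun g => Submodule.mapQ U' U' ((ρ g).restrict (hW g)) (fun x hx => hU g x.1 hx)
  have hf : ∀ g (w : W), f g (Submodule.Quotient.mk w) = Submodule.Quotient.mk ⟨ρ g w.1, hW g w.1 w.2⟩ := fun g w => rfl
  let _ : MulAction P (W ⧸ U') :=
    { smul := fun g x => f g x
      one_smul := fun x => by
        obtain ⟨w, rfl⟩ := Submodule.Quotient.mk_surjective _ x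
        show f 1 _ = _
        rw [hf]
        congr 1
        apply Subtype.ext
        show ρ 1 w.1 = w.1
        rw [map_one]; rfl
      mul_smul := fun g k x => by
        obtain ⟨w, rfl⟩ := Submodule.Quotient.mk_surjective _ x
        show f (g * k) _ = f g (f k _)
        rw [hf, hf, hf]
        congr 1
        apply Subtype.ext
        show ρ (g * k) w.1 = ρ g (ρ k w.1)
        rw [map_mul]; rfl }
  have hWp : p ∣ Nat.card (W ⧸ U') := by
    rw [Module.natCard_eq_pow_finrank (K := F)]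
    apply dvd_pow dvd_card
    intro h0
    have hs : Subsingleton (W ⧸ U') := Module.finrank_zero_iff.1 h0
    have h1 : U' = ⊤ := Submodule.Quotient.subsingleton_iff.1 hs
    obtain ⟨w, hw, hwU⟩ := SetLike.exists_of_lt hUW
    apply hwU
    have h2 : (⟨w, hw⟩ : W) ∈ U' := by rw [h1]; trivial
    exact h2
  have hfq : Finite (W ⧸ U') := Module.finite_of_finite F
  have h0 : (0 : W ⧸ U') ∈ MulAction.fixedPoints P (W ⧸ U') := by
    intro g
    show f g 0 = 0
    exact map_zero _
  obtain ⟨x, hx, hx0⟩ := hP.exists_fixed_point_of_prime_dvd_card_of_fixed_point (W ⧸ U') hWp h0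
  obtain ⟨w, rfl⟩ := Submodule.Quotient.mk_surjective _ x
  refine ⟨w.1, w.2, fun h => hx0 ?_, fun g => ?_⟩
  · exact ((Submodule.Quotient.mk_eq_zero U').2 h).symm
  · have h1 : f g (Submodule.Quotient.mk w) = Submodule.Quotient.mk w := hx g
    rw [hf, Submodule.Quotient.eq] at h1
    exact h1

end fix

end CfsgLib.H9SP
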