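import Cfsg.Agent.Lib.H9SPa
import Cfsg.Agent.Lib.AutPSp2
/-!
Symplectic groups: pointwise stabilizers are generated by transvections; Sylow subgroups are generated by
elements of unipotent radicals of point stabilizers.
-/
set_option autoImplicit false
set_option maxHeartbeats 400000
set_option linter.unusedSectionVars false

namespace CfsgLib.H9SP

open Module Matrix Cfsg CfsgLib.Symp CfsgLib.AutPSp CfsgLib.AltForm CfsgLib.Fusion

variable {F : Type*} [Field F] {m : ℕ}

local notation "V" => (Fin m ⊕ Fin m → F)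
local notation "G" => Matrix.symplecticGroup (Fin m) F

theorem conj_X (g : G) (v w : V) (c : F) : g * X v w c * g⁻¹ = X (g.1 *ᵥ v) (g.1 *ᵥ w) c := by
  rw [X, X, ← Matrix.mulVec_add, ← conj_tr, ← conj_tr, ← conj_tr]
  group

theorem X_mul {v w w' : V} (h : sympB m F v w = 0) (h' : sympB m F v w' = 0) (c c' : F) :
    X v w c * X v w' c' = X v (w + w') (c + c' + sympB m F w' w) := by
  have hwv : sympB m F w v = 0 := by rw [B_swap, h, neg_zero]
  have hwv' : sympB m F w' v = 0 := by rw [B_swap, h', neg_zero]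
  apply G_ext
  intro x
  rw [mul_mulVec, X_mulVec h, X_mulVec h', X_mulVec (by rw [map_add, h, h', add_zero])]
  simp only [map_add, map_smul, LinearMap.add_apply, LinearMap.smul_apply, B_self, h, h', hwv, hwv', smul_eq_mul, mul_zero, add_zero]
  module

theorem X_smul (v : V) (a c : F) : X v (a • v) c = tr v (c + 2 * a) := by
  apply G_ext
  intro x
  rw [X_mulVec (by rw [map_smul, B_self, smul_zero]), tr_mulVec, map_smul, smul_eq_mul]
  module

theorem fix_of_point [Finite F] {p : ℕ} [Fact p.Prime] [CharP F p] {g : G} {v : V} (hv : v ≠ 0) {a : F} (hg : g.1 *ᵥ v = a • v) {k : ℕ}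
    (hk : g ^ (p ^ k) = 1) : g.1 *ᵥ v = v := by
  have h1 : ∀ n : ℕ, (g ^ n).1 *ᵥ v = a ^ n • v := by
    intro n
    induction n with
    | zero => rw [pow_zero, one_mulVec', pow_zero, one_smul]
    | succ n ih => rw [pow_succ, mul_mulVec, hg, Matrix.mulVec_smul, ih, smul_smul, pow_succ, mul_comm]
  have h2 : a ^ (p ^ k) = 1 := by
    have h3 := h1 (p ^ k)
    rw [hk, one_mulVec'] at h3
    have h4 : (a ^ (p ^ k) - 1) • v = 0 := by rw [sub_smul, ← h3, one_smul, sub_self]
    rcases smul_eq_zero.1 h4 with h5 | h5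
    · exact sub_eq_zero.1 h5
    · exact absurd h5 hv
  rw [hg, CfsgLib.H9LF.pow_one_of_char h2, one_smul]

/-- group generated by the transvections fixing `X` pointwise -/
def KX (X : Submodule F V) : Subgroup G := Subgroup.closure {g | ∃ w c, (∀ x ∈ X, sympB m F x w = 0) ∧ g = tr w c}

theorem KX_anti {X Y : Submodule F V} (h : X ≤ Y) : KX Y ≤ KX X := by
  apply Subgroup.closure_mono
  rintro g ⟨w, c, hw, rfl⟩
  exact ⟨w, c, fun x hx => hw x (h hx), rfl⟩

/-- pointwise stabilizer -/
def Fix (X : Submodule F V) : Subgroup G where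
  carrier := {g | ∀ x ∈ X, g.1 *ᵥ x = x}
  one_mem' := fun x _ => one_mulVec' x
  mul_mem' := by
    intro a b ha hb x hx
    rw [mul_mulVec, hb x hx, ha x hx]
  inv_mem' := by
    intro a ha x hx
    conv_lhs => rw [← ha x hx]
    rw [inv_mulVec]

theorem KX_le_Fix (X : Submodule F V) : KX X ≤ Fix X := by
  refine (Subgroup.closure_le _).2 ?_
  rintro g ⟨w, c, hw, rfl⟩ x hx
  rw [tr_mulVec, hw x hx, mul_zero, zero_smul, add_zero]

theorem step1 {X : Submodule F V} {x y : V} (hxy : sympB m F x y ≠ 0) (hX : ∀ z ∈ X, sympB m F z x = sympB m F z y) :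
    ∃ t ∈ KX X, t.1 *ᵥ x = y := by
  refine ⟨tr (y - x) (sympB m F x y)⁻¹, Subgroup.subset_closure ⟨_, _, fun z hz => ?_, rfl⟩, ?_⟩
  · rw [map_sub, hX z hz, sub_self]
  · rw [tr_mulVec, map_sub, B_self, sub_zero, inv_mul_cancel₀ hxy, one_smul, add_sub_cancel]

theorem step2 {X : Submodule F V} {x y : V} (hx : x ∉ X) (hy : y ∉ X) (hX : ∀ z ∈ X, sympB m F z x = sympB m F z y) :
    ∃ t ∈ KX X, t.1 *ᵥ x = y := by
  by_cases hxy : sympB m F x y = 0
  · obtain ⟨r, hr, hrx, hry⟩ := exists_orthogonal_ne_zero_two sympB_nondegenerate (sympB_isAlt (m := m) (F := F)).isRefl hx hy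
    rw [LinearMap.BilinForm.mem_orthogonal_iff] at hr
    obtain ⟨t₁, ht₁, h2⟩ := step1 (X := X) (x := x) (y := x + r) (by
      rw [map_add, B_self, zero_add, B_swap]
      exact neg_ne_zero.mpr hrx) (by
      intro z hz
      rw [map_add, show sympB m F z r = 0 from hr z hz, add_zero])
    obtain ⟨t₂, ht₂, h4⟩ := step1 (X := X) (x := x + r) (y := y) (by
      rw [map_add, LinearMap.add_apply, hxy, zero_add]
      exact hry) (by
      intro z hz
      rw [map_add, show sympB m F z r = 0 from hr z hz, add_zero, hX z hz])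
    exact ⟨t₂ * t₁, mul_mem ht₂ ht₁, by rw [mul_mulVec, h2, h4]⟩
  · exact step1 hxy hX

/-- the pointwise stabilizer of a subspace is generated by transvections -/
theorem Fix_le_KX (X : Submodule F V) : Fix X ≤ KX X := by
  have key : ∀ n : ℕ, ∀ X : Submodule F V, finrank F V - finrank F X ≤ n → Fix X ≤ KX X := by
    intro n
    induction n with
    | zero =>
      intro X hX g hg
      have hle := Submodule.finrank_le X
      have hX' : X = ⊤ := Submodule.eq_top_of_finrank_eq (by omega)
      have : g = 1 := G_ext fun x => by rw [hg x (by rw [hX']; trivial), one_mulVec']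
      rw [this]; exact Subgroup.one_mem _
    | succ n ih =>
      intro X hX g hg
      by_cases htop : X = ⊤
      · have : g = 1 := G_ext fun x => by rw [hg x (by rw [htop]; trivial), one_mulVec']
        rw [this]; exact Subgroup.one_mem _
      · obtain ⟨x, -, hx⟩ := SetLike.exists_of_lt (lt_top_iff_ne_top.2 htop)
        have hy : g.1 *ᵥ x ∉ X := by
          intro hy
          have h1 := hg _ hy
          have h2 := mulVec_inj g h1
          rw [h2] at hy
          exact hx hy
        obtain ⟨t, ht, htx⟩ := step2 hx hy (fun z hz => by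
          conv_rhs => rw [← hg z hz]
          rw [G_pres])
        have h1 : t⁻¹ * g ∈ Fix (X ⊔ Submodule.span F {x}) := by
          intro z hz
          obtain ⟨a, ha, b, hb, rfl⟩ := Submodule.mem_sup.1 hz
          obtain ⟨c, rfl⟩ := Submodule.mem_span_singleton.1 hb
          have h2 : (t⁻¹).1 *ᵥ a = a := (Fix X).inv_mem (KX_le_Fix X ht) a ha
          rw [mul_mulVec, Matrix.mulVec_add, Matrix.mulVec_smul, hg a ha, Matrix.mulVec_add, Matrix.mulVec_smul, h2, ← htx, inv_mulVec]
        have hlt : finrank F X < finrank F (X ⊔ Submodule.span F {x} : Submodule F V) := by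
          apply Submodule.finrank_lt_finrank_of_lt
          refine lt_of_le_of_ne le_sup_left fun h => hx ?_
          rw [h]
          exact (le_sup_right : Submodule.span F {x} ≤ _) (Submodule.mem_span_singleton_self x)
        have h2 := ih _ (by omega) h1
        have h3 := KX_anti (le_sup_left : X ≤ X ⊔ Submodule.span F {x}) h2
        have e : g = t * (t⁻¹ * g) := by group
        rw [e]
        exact mul_mem ht h3
  exact key _ X le_rfl

theorem Q_finite [Finite F] (v : V) : Finite (Q v) := inferInstance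

theorem norm_Q [Finite F] {v : V} {g : G} (hg : g.1 *ᵥ v = v) : g ∈ Subgroup.normalizer ((Q v : Subgroup G) : Set G) :=
  mem_normalizer_of_conj_mem fun _ hx => conj_mem_Q hg hx

/-- elements of `Q v` -/
theorem X_of_Q {v : V} (hv : v ≠ 0) {g : G} (hg : g ∈ Q v) : ∃ w c, sympB m F v w = 0 ∧ g = X v w c := by
  obtain ⟨f, hf⟩ := exists_B_ne hv
  obtain ⟨hgv, hg'⟩ := hg
  have hvf : sympB m F v f = -1 := by rw [B_swap, hf]
  have hw : sympB m F v (g.1 *ᵥ f - f) = 0 := by
    rw [map_sub]
    have := G_pres g v f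
    rw [hgv] at this
    rw [this, sub_self]
  have hgy : ∀ y, sympB m F y v = 0 → g.1 *ᵥ y = y + sympB m F y (g.1 *ᵥ f - f) • v := by
    intro y hy
    obtain ⟨a, ha⟩ := hg' y hy
    have h2 := G_pres g y f
    have h3 : sympB m F v (g.1 *ᵥ f) = -1 := by
      have := G_pres g v f
      rw [hgv] at this
      rw [this, hvf]
    rw [ha, map_add, map_smul, LinearMap.add_apply, LinearMap.smul_apply, h3, smul_eq_mul] at h2
    have h4 : a = sympB m F y (g.1 *ᵥ f) - sympB m F y f := by
      rw [← h2]
      ring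
    rw [ha, h4, map_sub]
  refine ⟨g.1 *ᵥ f - f, - sympB m F f (g.1 *ᵥ f - f), hw, ?_⟩
  apply G_ext
  intro x
  have h2 := hgy (x - sympB m F x v • f) (by
    rw [map_sub, map_smul, LinearMap.sub_apply, LinearMap.smul_apply, hf, smul_eq_mul, mul_one, sub_self])
  have h3 : g.1 *ᵥ x = g.1 *ᵥ (x - sympB m F x v • f) + sympB m F x v • (g.1 *ᵥ f) := by
    rw [← Matrix.mulVec_smul, ← Matrix.mulVec_add, sub_add_cancel]
  have hzf : g.1 *ᵥ f = f + (g.1 *ᵥ f - f) := by abel
  rw [h3, h2, X_mulVec hw]
  generalize g.1 *ᵥ f - f = w at hw hzf ⊢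
  rw [hzf, map_sub, map_smul, LinearMap.sub_apply, LinearMap.smul_apply, smul_eq_mul]
  module

/-- the natural representation restricted to a subgroup -/
noncomputable def rep (R : Subgroup G) : R →* Module.End F V where
  toFun g := Matrix.mulVecLin g.1.1
  map_one' := by
    apply LinearMap.ext
    intro x
    exact one_mulVec' x
  map_mul' := by
    intro a b
    apply LinearMap.ext
    intro x
    exact mul_mulVec a.1 b.1 x

theorem rep_apply (R : Subgroup G) (g : R) (x : V) : rep R g x = g.1.1 *ᵥ x := rfl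

end CfsgLib.H9SP
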