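import Cfsg.Agent.Lib.H9SPb
/-!
Symplectic groups: Sylow subgroups are generated by elements of unipotent radicals of point stabilizers.
-/
set_option autoImplicit false
set_option maxHeartbeats 400000
set_option linter.unusedSectionVars false

namespace CfsgLib.H9SP

open Module Matrix Cfsg CfsgLib.Symp CfsgLib.AutPSp CfsgLib.AltForm CfsgLib.Fusion

variable {F : Type*} [Field F] {m : ℕ} [Finite F] {p : ℕ} [Fact p.Prime] [CharP F p]

local notation "V" => (Fin m ⊕ Fin m → F)
local notation "G" => Matrix.symplecticGroup (Fin m) F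

theorem gen {T : Subgroup G} : ∀ (n : ℕ) (X : Submodule F V) (R : Subgroup G), finrank F V - finrank F X ≤ n →
    (∀ x ∈ X, (∀ y ∈ X, sympB m F y x = 0) → x = 0) → IsPGroup p R → R ≤ Fix X →
    (∀ R' : Subgroup G, IsPGroup p R' → R' ≤ Fix X → R ≤ R' → R' ≤ R) → (∀ a : V, a ≠ 0 → Q a ⊓ R ≤ T) → R ≤ T := by
  intro n
  induction n with
  | zero =>
    intro X R hX _ _ hRX _ _ g hg
    have hle := Submodule.finrank_le X
    have hX' : X = ⊤ := Submodule.eq_top_of_finrank_eq (by omega)
    have : g = 1 := G_ext fun x => by rw [hRX hg x (by rw [hX']; trivial), one_mulVec']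
    rw [this]; exact Subgroup.one_mem _
  | succ n ih =>
    intro X R hX hXn hRp hRX hRmax hT
    by_cases htop : X = ⊤
    · intro g hg
      have : g = 1 := G_ext fun x => by rw [hRX hg x (by rw [htop]; trivial), one_mulVec']
      rw [this]; exact Subgroup.one_mem _
    obtain ⟨x, -, hx⟩ := SetLike.exists_of_lt (lt_top_iff_ne_top.2 htop)
    set Y : Submodule F V := (sympB m F).orthogonal X with hY
    have hYm : ∀ y, y ∈ Y ↔ ∀ x ∈ X, sympB m F x y = 0 := fun y => LinearMap.BilinForm.mem_orthogonal_iff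
    have hY0 : (⊥ : Submodule F V) < Y := by
      obtain ⟨r, hr, hrx⟩ := exists_orthogonal_ne_zero sympB_nondegenerate (sympB_isAlt (m := m) (F := F)).isRefl hx
      rw [bot_lt_iff_ne_bot]
      intro h
      have hr' : r ∈ Y := hr
      rw [h, Submodule.mem_bot] at hr'
      rw [hr', map_zero] at hrx
      exact hrx rfl
    have hRY : ∀ g ∈ R, ∀ y ∈ Y, g.1 *ᵥ y ∈ Y := by
      intro g hg y hy
      rw [hYm] at hy ⊢
      intro x hx
      have h1 := hRX hg x hx
      conv_lhs => rw [← h1]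
      rw [G_pres, hy x hx]
    obtain ⟨a, haY, ha0, hafix⟩ := exists_fixed_mod (p := p) hRp (rep R) hY0 (fun g x hx => by
      rw [Submodule.mem_bot] at hx ⊢
      rw [hx, map_zero]) (fun g y hy => by rw [rep_apply]; exact hRY g.1 g.2 y hy)
    rw [Submodule.mem_bot] at ha0
    have haR : ∀ g ∈ R, g.1 *ᵥ a = a := fun g hg => by
      have := hafix ⟨g, hg⟩
      rw [Submodule.mem_bot, rep_apply, sub_eq_zero] at this
      exact this
    have hXa : ∀ x ∈ X, sympB m F x a = 0 := (hYm a).1 haY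
    have haX : a ∉ X := fun h => ha0 (hXn a h hXa)
    obtain ⟨r, hr, hra⟩ := exists_orthogonal_ne_zero sympB_nondegenerate (sympB_isAlt (m := m) (F := F)).isRefl haX
    obtain ⟨f, hfY, hf⟩ : ∃ f ∈ Y, sympB m F f a = 1 := by
      refine ⟨(sympB m F r a)⁻¹ • r, Y.smul_mem _ hr, ?_⟩
      rw [map_smul, LinearMap.smul_apply, smul_eq_mul, inv_mul_cancel₀ hra]
    have haf : sympB m F a f = -1 := by rw [B_swap, hf]
    -- the normal subgroup
    have hQp : IsPGroup p (Q a ⊓ Fix X : Subgroup G) := (isPGroup_Q a).to_le inf_le_left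
    have hnorm : ∀ g : G, g.1 *ᵥ a = a → g ∈ Fix X → g ∈ Subgroup.normalizer (((Q a ⊓ Fix X : Subgroup G)) : Set G) := by
      intro g hga hgX
      apply mem_normalizer_of_conj_mem
      rintro s ⟨hs1, hs2⟩
      exact ⟨conj_mem_Q hga hs1, (Fix X).mul_mem ((Fix X).mul_mem hgX hs2) ((Fix X).inv_mem hgX)⟩
    have hQR : Q a ⊓ Fix X ≤ R := by
      have h1 : IsPGroup p (R ⊔ (Q a ⊓ Fix X) : Subgroup G) :=
        hRp.to_sup_of_normal_right' hQp fun g hg => hnorm g (haR g hg) (hRX hg)
      exact le_sup_right.trans (hRmax _ h1 (sup_le hRX inf_le_right) le_sup_left)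
    -- decomposition
    have hdec : ∀ g ∈ R, ∃ s ∈ Q a ⊓ Fix X, (s⁻¹ * g).1 *ᵥ f = f := by
      intro g hg
      have hgf : g.1 *ᵥ f ∈ Y := hRY g hg f hfY
      set w := g.1 *ᵥ f - f with hw
      have hwY : w ∈ Y := Y.sub_mem hgf hfY
      have haw : sympB m F a w = 0 := by
        rw [hw, map_sub]
        have := G_pres g a f
        rw [haR g hg] at this
        rw [this, sub_self]
      refine ⟨CfsgLib.AutPSp.X a w (-sympB m F f w), ⟨X_mem_Q haw _, ?_⟩, ?_⟩
      · intro x hx
        rw [X_mulVec haw, hXa x hx, (hYm w).1 hwY x hx, zero_smul, zero_smul, mul_zero, zero_smul, add_zero, add_zero, add_zero]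
      · have h1 : (CfsgLib.AutPSp.X a w (-sympB m F f w)).1 *ᵥ f = g.1 *ᵥ f := by
          rw [X_mulVec haw, hf, mul_one, one_smul, hw]
          module
        rw [mul_mulVec, ← h1, inv_mulVec]
    set X' : Submodule F V := X ⊔ Submodule.span F {a, f} with hX'
    have hmemX' : ∀ x, x ∈ X' ↔ ∃ y ∈ X, ∃ α γ : F, x = y + (α • a + γ • f) := by
      intro x
      rw [hX', Submodule.mem_sup]
      constructor
      · rintro ⟨y, hy, z, hz, rfl⟩
        obtain ⟨α, γ, rfl⟩ := Submodule.mem_span_pair.1 hz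
        exact ⟨y, hy, α, γ, rfl⟩
      · rintro ⟨y, hy, α, γ, rfl⟩
        exact ⟨y, hy, _, Submodule.mem_span_pair.2 ⟨α, γ, rfl⟩, rfl⟩
    have haX' : a ∈ X' := (hmemX' a).2 ⟨0, X.zero_mem, 1, 0, by rw [one_smul, zero_smul, add_zero, zero_add]⟩
    have hfX' : f ∈ X' := (hmemX' f).2 ⟨0, X.zero_mem, 0, 1, by rw [one_smul, zero_smul, zero_add, zero_add]⟩
    have hXX' : X ≤ X' := le_sup_left
    have hFix' : ∀ g : G, g ∈ Fix X → g.1 *ᵥ a = a → g.1 *ᵥ f = f → g ∈ Fix X' := by
      intro g h1 h2 h3 x hx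
      obtain ⟨y, hy, α, γ, rfl⟩ := (hmemX' x).1 hx
      rw [Matrix.mulVec_add, Matrix.mulVec_add, Matrix.mulVec_smul, Matrix.mulVec_smul, h1 y hy, h2, h3]
    have hdec' : ∀ g ∈ R, ∃ s ∈ Q a ⊓ Fix X, s⁻¹ * g ∈ R ⊓ Fix X' := by
      intro g hg
      obtain ⟨s, hs, hsf⟩ := hdec g hg
      have h1 : s⁻¹ * g ∈ R := R.mul_mem (R.inv_mem (hQR hs)) hg
      exact ⟨s, hs, h1, hFix' _ (hRX h1) (haR _ h1) hsf⟩
    have hlt : finrank F X < finrank F X' := by
      apply Submodule.finrank_lt_finrank_of_lt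
      refine lt_of_le_of_ne hXX' fun h => haX ?_
      rw [h]; exact haX'
    have hIH : R ⊓ Fix X' ≤ T := by
      apply ih X' (R ⊓ Fix X') (by omega)
      · intro x hx hxy
        obtain ⟨y, hy, α, γ, rfl⟩ := (hmemX' x).1 hx
        have h1 := hxy a haX'
        have hya : sympB m F a y = 0 := by rw [B_swap, hXa y hy, neg_zero]
        rw [map_add, map_add, map_smul, map_smul, B_self, haf, hya, smul_eq_mul, smul_eq_mul, mul_zero, zero_add, zero_add] at h1
        have hγ : γ = 0 := by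
          rw [mul_neg, mul_one] at h1
          exact neg_eq_zero.1 h1
        have h2 := hxy f hfX'
        have hyf : sympB m F f y = 0 := by rw [B_swap, (hYm f).1 hfY y hy, neg_zero]
        rw [map_add, map_add, map_smul, map_smul, B_self, hf, hyf, smul_eq_mul, smul_eq_mul, mul_zero, add_zero, zero_add, mul_one] at h2
        have h3 : y = 0 := by
          apply hXn y hy
          intro z hz
          have h4 := hxy z (hXX' hz)
          rw [h2, hγ, zero_smul, zero_smul, add_zero, add_zero] at h4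
          exact h4
        rw [h2, hγ, h3, zero_smul, zero_smul, add_zero, add_zero]
      · exact hRp.to_le inf_le_left
      · exact inf_le_right
      · intro R'' hp'' hfix'' hle
        have hRa : ∀ g ∈ R'', g.1 *ᵥ a = a := fun g hg => hfix'' hg a haX'
        have hRX'' : R'' ≤ Fix X := fun g hg x hx => hfix'' hg x (hXX' hx)
        have h1 : IsPGroup p (R'' ⊔ (Q a ⊓ Fix X) : Subgroup G) :=
          hp''.to_sup_of_normal_right' hQp fun g hg => hnorm g (hRa g hg) (hRX'' hg)
        have h2 : R ≤ R'' ⊔ (Q a ⊓ Fix X) := by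
          intro g hg
          obtain ⟨s, hs, hsg⟩ := hdec' g hg
          have e : g = s * (s⁻¹ * g) := by group
          rw [e]
          exact Subgroup.mul_mem _ ((le_sup_right : Q a ⊓ Fix X ≤ _) hs) ((le_sup_left : R'' ≤ _) (hle hsg))
        have h3 := hRmax _ h1 (sup_le hRX'' inf_le_right) h2
        exact le_inf (le_sup_left.trans h3) hfix''
      · intro b hb
        exact (inf_le_inf_left _ inf_le_left).trans (hT b hb)
    intro g hg
    obtain ⟨s, hs, hsg⟩ := hdec' g hg
    have e : g = s * (s⁻¹ * g) := by group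
    rw [e]
    exact T.mul_mem (hT a ha0 ⟨hs.1, hQR hs⟩) (hIH hsg)

theorem gen_sylow {T : Subgroup G} (P : Sylow p G) (hT : ∀ a : V, a ≠ 0 → Q a ⊓ (P : Subgroup G) ≤ T) : (P : Subgroup G) ≤ T := by
  apply gen (p := p) (finrank F V) ⊥ (P : Subgroup G) (Nat.sub_le _ _) (fun x hx _ => (Submodule.mem_bot F).1 hx) P.2
  · intro g _ x hx
    rw [(Submodule.mem_bot F).1 hx, Matrix.mulVec_zero]
  · intro R' h1 _ h2
    rw [P.3 h1 h2]
  · exact hT

end CfsgLib.H9SP
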