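import Cfsg.Agent.Lib.H9SPc
/-!
Symplectic groups: the normalizer of a Sylow subgroup.
-/
set_option autoImplicit false
set_option maxHeartbeats 400000
set_option linter.unusedSectionVars false

namespace CfsgLib.H9SP

open Module Matrix Cfsg CfsgLib.Symp CfsgLib.AutPSp CfsgLib.AltForm CfsgLib.Fusion CfsgLib.H9LF

variable {F : Type*} [Field F] {m : ℕ}

local notation "V" => (Fin m ⊕ Fin m → F)
local notation "G" => Matrix.symplecticGroup (Fin m) F

/-- the unipotent radical of the stabilizer of an isotropic subspace -/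
def QW (W : Submodule F V) : Subgroup G where
  carrier := {g | (∀ x ∈ W, g.1 *ᵥ x = x) ∧ ∀ y, (∀ x ∈ W, sympB m F x y = 0) → g.1 *ᵥ y - y ∈ W}
  one_mem' := ⟨fun x _ => one_mulVec' x, fun y _ => by rw [one_mulVec', sub_self]; exact W.zero_mem⟩
  mul_mem' := by
    rintro g h ⟨hg, hg'⟩ ⟨hh, hh'⟩
    refine ⟨fun x hx => by rw [mul_mulVec, hh x hx, hg x hx], fun y hy => ?_⟩
    have h1 := hh' y hy
    have h2 : g.1 *ᵥ (h.1 *ᵥ y - y) = h.1 *ᵥ y - y := hg _ h1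
    rw [Matrix.mulVec_sub] at h2
    have h3 : (g * h).1 *ᵥ y - y = (h.1 *ᵥ y - y) + (g.1 *ᵥ y - y) := by
      rw [mul_mulVec, ← h2]; abel
    rw [h3]
    exact W.add_mem h1 (hg' y hy)
  inv_mem' := by
    rintro g ⟨hg, hg'⟩
    have h0 : ∀ x ∈ W, (g⁻¹).1 *ᵥ x = x := fun x hx => by conv_lhs => rw [← hg x hx]; rw [inv_mulVec]
    refine ⟨h0, fun y hy => ?_⟩
    have h1 := hg' y hy
    have h2 := h0 _ h1
    rw [Matrix.mulVec_sub, inv_mulVec] at h2
    have h3 : (g⁻¹).1 *ᵥ y - y = -(g.1 *ᵥ y - y) := by rw [← h2]; abel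
    rw [h3]
    exact W.neg_mem h1

variable {p : ℕ} [Fact p.Prime] [CharP F p]

theorem isPGroup_QW (W : Submodule F V) : IsPGroup p (QW W) := by
  rintro ⟨g, hg, hg'⟩
  refine ⟨2, Subtype.ext ?_⟩
  show g ^ (p ^ 2) = 1
  have h1 : (g.1 - 1) ^ 3 = 0 := by
    apply mulVec_injective_matrix
    intro x
    rw [pow_succ, pow_two, ← mulVec_mulVec, ← mulVec_mulVec, Matrix.zero_mulVec]
    simp only [Matrix.sub_mulVec, Matrix.one_mulVec]
    have h2 : ∀ w ∈ W, sympB m F w (g.1 *ᵥ x - x) = 0 := by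
      intro w hw
      rw [map_sub]
      nth_rewrite 1 [← hg w hw]
      rw [G_pres, sub_self]
    have h3 := hg' _ h2
    have h4 := hg _ h3
    rw [h4, sub_self]
  have h2 : g.1 ^ (p ^ 2) = 1 := by
    rcases Nat.eq_zero_or_pos m with hm | hm
    · subst hm
      exact Subsingleton.elim _ _
    have : Nonempty (Fin m ⊕ Fin m) := ⟨Sum.inl ⟨0, hm⟩⟩
    have h3 : g.1 = 1 + (g.1 - 1) := by abel
    rw [h3, add_pow_char_pow_of_commute p 2 (Commute.one_left _), one_pow]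
    have h4 : 3 ≤ p ^ 2 := by
      have := (Fact.out : p.Prime).two_le
      nlinarith
    rw [← Nat.sub_add_cancel h4, pow_add, h1, mul_zero, add_zero]
  apply Subtype.ext
  rw [SubmonoidClass.coe_pow]
  exact h2

variable [Finite F]

theorem stab_inv {W : Submodule F V} {g : G} (hg : ∀ x ∈ W, g.1 *ᵥ x ∈ W) : ∀ x ∈ W, (g⁻¹).1 *ᵥ x ∈ W := by
  have h1 : g⁻¹ = g ^ (orderOf g - 1) := by
    apply inv_eq_of_mul_eq_one_right
    rw [← pow_succ', Nat.sub_add_cancel (orderOf_pos g), pow_orderOf_eq_one]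
  rw [h1]
  generalize orderOf g - 1 = k
  induction k with
  | zero => intro x hx; rw [pow_zero, one_mulVec']; exact hx
  | succ k ih =>
    intro x hx
    rw [pow_succ, mul_mulVec]
    exact ih _ (hg x hx)

theorem norm_QW {W : Submodule F V} {g : G} (hg : ∀ x ∈ W, g.1 *ᵥ x ∈ W) :
    g ∈ Subgroup.normalizer ((QW W : Subgroup G) : Set G) := by
  have hgi := stab_inv hg
  apply mem_normalizer_of_conj_mem
  rintro s ⟨h1, h2⟩
  refine ⟨fun x hx => ?_, fun y hy => ?_⟩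
  · rw [mul_mulVec, mul_mulVec, h1 _ (hgi x hx), mulVec_inv]
  · have h3 := h2 ((g⁻¹).1 *ᵥ y) (fun x hx => by
      have := G_pres g x ((g⁻¹).1 *ᵥ y)
      rw [mulVec_inv] at this
      rw [← this]
      exact hy _ (hg x hx))
    have h4 := hg _ h3
    rw [Matrix.mulVec_sub, mulVec_inv] at h4
    rw [mul_mulVec, mul_mulVec]
    exact h4

theorem X_mem_QW {W : Submodule F V} (hiso : ∀ x ∈ W, ∀ y ∈ W, sympB m F x y = 0) {w b : V} (hw : w ∈ W)
    (hb : ∀ x ∈ W, sympB m F x b = 0) (c : F) : X w b c ∈ QW W := by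
  refine ⟨fun x hx => ?_, fun y hy => ?_⟩
  · rw [X_mulVec (hb w hw), hiso x hx w hw, hb x hx, zero_smul, zero_smul, mul_zero, zero_smul, add_zero, add_zero, add_zero]
  · rw [X_mulVec (hb w hw), B_swap y w, hy w hw, neg_zero, zero_smul, mul_zero, zero_smul, add_zero, add_zero, add_sub_cancel_left]
    exact W.smul_mem _ hw

theorem tr_mem_QW {W : Submodule F V} (hiso : ∀ x ∈ W, ∀ y ∈ W, sympB m F x y = 0) {w : V} (hw : w ∈ W) (c : F) : tr w c ∈ QW W := by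
  refine ⟨fun x hx => ?_, fun y hy => ?_⟩
  · rw [tr_mulVec, hiso x hx w hw, mul_zero, zero_smul, add_zero]
  · rw [tr_mulVec, B_swap y w, hy w hw, neg_zero, mul_zero, zero_smul, add_zero, sub_self]
    exact W.zero_mem

/-- `QW` is centric -/
theorem cent_QW {W : Submodule F V} (hiso : ∀ x ∈ W, ∀ y ∈ W, sympB m F x y = 0) (hW : ∃ w ∈ W, w ≠ 0) {z : G} {k : ℕ} (hk : z ^ (p ^ k) = 1)
    (hc : ∀ y ∈ QW W, z * y = y * z) : z ∈ QW W := by
  have h1 : ∀ w ∈ W, z.1 *ᵥ w = w := by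
    intro w hw
    by_cases hw0 : w = 0
    · rw [hw0, Matrix.mulVec_zero]
    have h2 := hc _ (tr_mem_QW hiso hw 1)
    have h3 : z * tr w 1 * z⁻¹ = tr w 1 := by rw [h2, mul_inv_cancel_right]
    rw [conj_tr] at h3
    obtain ⟨x, hx⟩ := exists_B_ne hw0
    have h4 : (tr (z.1 *ᵥ w) 1).1 *ᵥ x = (tr w 1).1 *ᵥ x := by rw [h3]
    rw [tr_mulVec, tr_mulVec, hx, one_mul, one_mul, one_smul, add_right_inj] at h4
    set b := sympB m F x (z.1 *ᵥ w) with hb
    have hb0 : b ≠ 0 := by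
      intro h
      rw [h, zero_smul] at h4
      exact hw0 h4.symm
    refine fix_of_point (p := p) hw0 (a := b⁻¹) ?_ hk
    calc z.1 *ᵥ w = b⁻¹ • (b • z.1 *ᵥ w) := by rw [smul_smul, inv_mul_cancel₀ hb0, one_smul]
      _ = b⁻¹ • w := by rw [h4]
  refine ⟨h1, fun b hb => ?_⟩
  obtain ⟨w, hw, hw0⟩ := hW
  obtain ⟨x, hx⟩ := exists_B_ne hw0
  have h2 := hc _ (X_mem_QW hiso hw hb 0)
  have h3 : z * X w b 0 * z⁻¹ = X w b 0 := by rw [h2, mul_inv_cancel_right]
  rw [conj_X, h1 w hw] at h3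
  have hwb : sympB m F w (z.1 *ᵥ b) = 0 := by
    have := G_pres z w b
    rw [h1 w hw] at this
    rw [this, hb w hw]
  have h4 : (X w (z.1 *ᵥ b) 0).1 *ᵥ x = (X w b 0).1 *ᵥ x := by rw [h3]
  rw [X_mulVec hwb, X_mulVec (hb w hw), hx, one_smul, one_smul] at h4
  have h5 : z.1 *ᵥ b - b = (sympB m F x b - sympB m F x (z.1 *ᵥ b)) • w := by
    have h6 := sub_eq_zero.2 h4
    rw [← sub_eq_zero, ← h6]
    module
  rw [h5]
  exact W.smul_mem _ hw

end CfsgLib.H9SP
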