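import Cfsg.Agent.Lib.H9SPd
/-!
Symplectic groups: the normalizer of a Sylow subgroup, II.
-/
set_option autoImplicit false
set_option maxHeartbeats 400000
set_option linter.unusedSectionVars false

namespace CfsgLib.H9SP

open Module Matrix Cfsg CfsgLib.Symp CfsgLib.AutPSp CfsgLib.AltForm CfsgLib.Fusion CfsgLib.H9LF

variable {F : Type*} [Field F] {m : ℕ} {p : ℕ} [Fact p.Prime] [CharP F p] [Finite F]

local notation "V" => (Fin m ⊕ Fin m → F)
local notation "G" => Matrix.symplecticGroup (Fin m) F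

theorem stab_closure {v : V} {g : G} (hgv : g.1 *ᵥ v = v) :
    g ∈ Subgroup.closure {y : G | y ∈ Subgroup.normalizer ((Q v : Subgroup G) : Set G) ∧ ∃ k : ℕ, y ^ p ^ k = 1} := by
  have h1 : g ∈ Fix (Submodule.span F {v}) := by
    intro x hx
    obtain ⟨a, rfl⟩ := Submodule.mem_span_singleton.1 hx
    rw [Matrix.mulVec_smul, hgv]
  refine Subgroup.closure_mono ?_ (Fix_le_KX _ h1)
  rintro _ ⟨w, c, hw, rfl⟩
  refine ⟨norm_Q ?_, 2, pow_mem_Q (tr_mem_Q w c)⟩
  rw [tr_mulVec, hw v (Submodule.mem_span_singleton_self v), mul_zero, zero_smul, add_zero]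

theorem stab_adm {P : Sylow p G} {v : V} (hv : v ≠ 0) (hfix : ∀ g ∈ P, g.1 *ᵥ v = v) (hQ : Q v ≤ P) {g : G}
    (hg : g ∈ Subgroup.normalizer ((P : Subgroup G) : Set G)) (hgv : g.1 *ᵥ v = v) : g ∈ Adm p (P : Subgroup G) := by
  refine ⟨hg, Q v, hQ, fun x hx => norm_Q (hfix x hx), ?_, stab_closure hgv⟩
  intro z hz hzc
  obtain ⟨w, c, h1, rfl, -⟩ := central_form hv (hfix z hz) hzc
  exact X_mem_Q h1 c

/-- the vectors fixed by `Q v` -/
theorem fixed_Q {v : V} (hv : v ≠ 0) {u : V} (hu : ∀ g ∈ Q v, g.1 *ᵥ u = u) : ∃ t : F, u = t • v := by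
  obtain ⟨f, hf⟩ := exists_B_ne hv
  have h1 : sympB m F u v = 0 := by
    have h2 := hu _ (tr_mem_Q v 1)
    rw [tr_mulVec, one_mul, add_eq_left] at h2
    rcases smul_eq_zero.1 h2 with h3 | h3
    · exact h3
    · exact absurd h3 hv
  refine ⟨_, perp_perp hf fun w hw => ?_⟩
  have hvw : sympB m F v w = 0 := by rw [B_swap, hw, neg_zero]
  have h2 := hu _ (X_mem_Q hvw 0)
  rw [X_mulVec hvw, h1, zero_smul, mul_zero, zero_smul, add_zero, add_zero, add_eq_left] at h2
  rcases smul_eq_zero.1 h2 with h3 | h3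
  · rw [B_swap, h3, neg_zero]
  · exact absurd h3 hv

theorem line_of_norm {P : Sylow p G} {v : V} (hv : v ≠ 0) (hfix : ∀ g ∈ P, g.1 *ᵥ v = v) (hQ : Q v ≤ P) {g : G}
    (hg : g ∈ Subgroup.normalizer ((P : Subgroup G) : Set G)) : ∃ t : F, t ≠ 0 ∧ g.1 *ᵥ v = t • v := by
  obtain ⟨t, ht⟩ := fixed_Q hv (u := g.1 *ᵥ v) (by
    intro x hx
    have h1 : g⁻¹ * x * g ∈ (P : Subgroup G) := by
      have := mem_norm (Subgroup.inv_mem _ hg) (hQ hx)
      rwa [inv_inv] at this
    have h2 := hfix _ h1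
    have h3 : (g * (g⁻¹ * x * g)).1 *ᵥ v = g.1 *ᵥ v := by rw [mul_mulVec, h2]
    have e : g * (g⁻¹ * x * g) = x * g := by group
    rw [e, mul_mulVec] at h3
    exact h3)
  refine ⟨t, ?_, ht⟩
  rintro rfl
  rw [zero_smul] at ht
  exact mulVec_ne_zero g hv ht

/-- an invariant isotropic plane -/
theorem exists_plane (hm : 2 ≤ m) {P : Sylow p G} {v : V} (hv : v ≠ 0) (hfix : ∀ g ∈ P, g.1 *ᵥ v = v) :
    ∃ w : V, sympB m F v w = 0 ∧ (∀ a : F, w ≠ a • v) ∧ ∀ g ∈ P, ∃ a : F, g.1 *ᵥ w = w + a • v := by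
  let Y : Submodule F V := LinearMap.ker (sympB m F v)
  have hY : ∀ y, y ∈ Y ↔ sympB m F v y = 0 := fun y => LinearMap.mem_ker
  have hlt : Submodule.span F {v} < Y := by
    refine lt_of_le_of_ne ?_ ?_
    · rw [Submodule.span_singleton_le_iff_mem, hY, B_self]
    · intro h
      have h1 := LinearMap.finrank_range_add_finrank_ker (sympB m F v)
      have h2 : finrank F (LinearMap.range (sympB m F v)) ≤ 1 := by
        have := Submodule.finrank_le (LinearMap.range (sympB m F v))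
        rwa [Module.finrank_self] at this
      have h3 : finrank F (LinearMap.ker (sympB m F v)) = 1 := by
        show finrank F Y = 1
        rw [← h]
        exact finrank_span_singleton hv
      rw [finrank_symp, h3] at h1
      omega
  obtain ⟨w, hwY, hwU, hw⟩ := exists_fixed_mod (p := p) P.2 (rep (P : Subgroup G)) hlt (fun g x hx => by
      obtain ⟨a, rfl⟩ := Submodule.mem_span_singleton.1 hx
      rw [map_smul, rep_apply, hfix g.1 g.2]
      exact Submodule.smul_mem _ _ (Submodule.mem_span_singleton_self v))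
    (fun g x hx => by
      rw [hY] at hx ⊢
      rw [rep_apply]
      conv_lhs => rw [← hfix g.1 g.2]
      rw [G_pres, hx])
  refine ⟨w, (hY w).1 hwY, fun a h => hwU ?_, fun g hg => ?_⟩
  · rw [h]; exact Submodule.smul_mem _ _ (Submodule.mem_span_singleton_self v)
  · obtain ⟨a, ha⟩ := Submodule.mem_span_singleton.1 (hw ⟨g, hg⟩)
    refine ⟨a, ?_⟩
    rw [ha, rep_apply]
    abel

/-- dual vectors -/
theorem exists_dual {v w : V} (hw : ∀ a : F, w ≠ a • v) : ∃ f : V, sympB m F v f = 0 ∧ sympB m F w f = 1 := by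
  have hwX : w ∉ Submodule.span F {v} := by
    intro h
    obtain ⟨a, ha⟩ := Submodule.mem_span_singleton.1 h
    exact hw a ha.symm
  obtain ⟨r, hr, hrw⟩ := exists_orthogonal_ne_zero sympB_nondegenerate (sympB_isAlt (m := m) (F := F)).isRefl hwX
  rw [LinearMap.BilinForm.mem_orthogonal_iff] at hr
  have h1 : sympB m F v r = 0 := hr v (Submodule.mem_span_singleton_self v)
  have h2 : sympB m F w r ≠ 0 := by rw [B_swap]; exact neg_ne_zero.2 hrw
  refine ⟨(sympB m F w r)⁻¹ • r, by rw [map_smul, h1, smul_zero], by rw [map_smul, smul_eq_mul, inv_mul_cancel₀ h2]⟩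

theorem mem_plane {v w x : V} : x ∈ Submodule.span F {v, w} ↔ ∃ a b : F, x = a • v + b • w := by
  rw [Submodule.mem_span_pair]
  constructor
  · rintro ⟨a, b, h⟩; exact ⟨a, b, h.symm⟩
  · rintro ⟨a, b, h⟩; exact ⟨a, b, h.symm⟩

theorem plane_iso {v w : V} (h : sympB m F v w = 0) : ∀ x ∈ Submodule.span F {v, w}, ∀ y ∈ Submodule.span F {v, w}, sympB m F x y = 0 := by
  intro x hx y hy
  obtain ⟨a, b, rfl⟩ := mem_plane.1 hx
  obtain ⟨c, d, rfl⟩ := mem_plane.1 hy
  have h' : sympB m F w v = 0 := by rw [B_swap, h, neg_zero]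
  simp only [map_add, map_smul, LinearMap.add_apply, LinearMap.smul_apply, B_self, h, h', smul_zero, add_zero]

/-- an element of the closure with prescribed action on `v` -/
theorem exists_torus {v w : V} (hvw : sympB m F v w = 0) (hv : v ≠ 0) (hw : ∀ a : F, w ≠ a • v) {t : F} (ht : t ≠ 0) :
    ∃ r ∈ Subgroup.closure {y : G | y ∈ Subgroup.normalizer ((QW (Submodule.span F {v, w}) : Subgroup G) : Set G) ∧ ∃ k : ℕ, y ^ p ^ k = 1},
      r.1 *ᵥ v = t • v := by
  have hwv : sympB m F w v = 0 := by rw [B_swap, hvw, neg_zero]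
  have hw0 : w ≠ 0 := fun h => hw 0 (by rw [h, zero_smul])
  have hv' : ∀ a : F, v ≠ a • w := by
    intro a h
    have ha : a ≠ 0 := by rintro rfl; rw [zero_smul] at h; exact hv h
    exact hw a⁻¹ (by rw [h, smul_smul, inv_mul_cancel₀ ha, one_smul])
  obtain ⟨f₁, h1, h2⟩ := exists_dual hv'
  obtain ⟨f₂, h3, h4⟩ := exists_dual hw
  have hiso := plane_iso hvw
  have hmem : ∀ a b : V, a ∈ Submodule.span F {v, w} → sympB m F a b = 0 →
      X a b 0 ∈ Subgroup.closure {y : G | y ∈ Subgroup.normalizer ((QW (Submodule.span F {v, w}) : Subgroup G) : Set G) ∧ ∃ k : ℕ, y ^ p ^ k = 1} := by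
    intro a b ha hab
    refine Subgroup.subset_closure ⟨norm_QW fun x hx => ?_, 2, pow_mem_Q (X_mem_Q hab 0)⟩
    rw [X_mulVec hab, hiso x hx a ha, zero_smul, mul_zero, zero_smul, add_zero, add_zero]
    exact Submodule.add_mem _ hx (Submodule.smul_mem _ _ ha)
  have hvm : v ∈ Submodule.span F {v, w} := mem_plane.2 ⟨1, 0, by rw [one_smul, zero_smul, add_zero]⟩
  have hwm : w ∈ Submodule.span F {v, w} := mem_plane.2 ⟨0, 1, by rw [one_smul, zero_smul, zero_add]⟩
  have k1 : ∀ s : F, sympB m F w (s • f₁) = 0 := fun s => by rw [map_smul, h1, smul_zero]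
  have k2 : ∀ s : F, sympB m F v (s • f₂) = 0 := fun s => by rw [map_smul, h3, smul_zero]
  have e1 : ∀ (s : F) (a b : F), (X w (s • f₁) 0).1 *ᵥ (a • v + b • w) = a • v + (b + s * a) • w := by
    intro s a b
    rw [X_mulVec (k1 s)]
    simp only [map_add, map_smul, LinearMap.add_apply, LinearMap.smul_apply, B_self, hvw, hwv, h1, h2, smul_eq_mul, mul_zero, add_zero, zero_mul, mul_one]
    module
  have e2 : ∀ (s : F) (a b : F), (X v (s • f₂) 0).1 *ᵥ (a • v + b • w) = (a + s * b) • v + b • w := by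
    intro s a b
    rw [X_mulVec (k2 s)]
    simp only [map_add, map_smul, LinearMap.add_apply, LinearMap.smul_apply, B_self, hvw, hwv, h3, h4, smul_eq_mul, mul_zero, add_zero, zero_mul, mul_one]
    module
  refine ⟨X w ((-t⁻¹) • f₁) 0 * (X v ((t - 1) • f₂) 0 * X w ((1 : F) • f₁) 0), mul_mem (hmem _ _ hwm (k1 _)) (mul_mem (hmem _ _ hvm (k2 _)) (hmem _ _ hwm (k1 _))), ?_⟩
  have e3 : v = (1 : F) • v + (0 : F) • w := by rw [one_smul, zero_smul, add_zero]
  have s1 := e1 1 1 0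
  rw [← e3] at s1
  rw [mul_mulVec, mul_mulVec, s1, e2, e1]
  have e4 : (0 : F) + 1 * 1 + -t⁻¹ * (1 + (t - 1) * (0 + 1 * 1)) = 0 := by field_simp; ring
  have e5 : (1 : F) + (t - 1) * (0 + 1 * 1) = t := by ring
  rw [e4, e5, zero_smul, add_zero]

theorem hB_Sp (hm : 2 ≤ m) {P : Sylow p G} {v : V} (hv : v ≠ 0) (hfix : ∀ g ∈ P, g.1 *ᵥ v = v) (hQ : Q v ≤ P) :
    Subgroup.normalizer ((P : Subgroup G) : Set G) ≤
      Subgroup.closure (((P : Subgroup G) : Set G) ∪ ((Subgroup.center G : Subgroup G) : Set G) ∪ Adm p (P : Subgroup G)) := by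
  intro g hg
  obtain ⟨t, ht, hgt⟩ := line_of_norm hv hfix hQ hg
  obtain ⟨w, hvw, hw, hPw⟩ := exists_plane hm hv hfix
  set W := Submodule.span F {v, w} with hW
  have hiso := plane_iso hvw
  have hPW : ∀ x ∈ (P : Subgroup G), ∀ y ∈ W, x.1 *ᵥ y ∈ W := by
    intro x hx y hy
    obtain ⟨a, b, rfl⟩ := mem_plane.1 hy
    obtain ⟨c, hc⟩ := hPw x hx
    rw [Matrix.mulVec_add, Matrix.mulVec_smul, Matrix.mulVec_smul, hfix x hx, hc]
    exact mem_plane.2 ⟨a + b * c, b, by module⟩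
  have hPN : (P : Subgroup G) ≤ Subgroup.normalizer ((QW W : Subgroup G) : Set G) := fun x hx => norm_QW (hPW x hx)
  have hQW : QW W ≤ (P : Subgroup G) := le_of_normalized P (isPGroup_QW W) hPN
  set R := Subgroup.closure {y : G | y ∈ Subgroup.normalizer ((QW W : Subgroup G) : Set G) ∧ ∃ k : ℕ, y ^ p ^ k = 1} with hR
  have hPpow : ∀ x ∈ (P : Subgroup G), ∃ k : ℕ, x ^ p ^ k = 1 := fun x hx => by
    obtain ⟨k, hk⟩ := P.2 ⟨x, hx⟩
    exact ⟨k, congrArg Subtype.val hk⟩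
  have hPR : (P : Subgroup G) ≤ R := fun x hx => Subgroup.subset_closure ⟨hPN hx, hPpow x hx⟩
  obtain ⟨r, hr, hrv⟩ := exists_torus (p := p) hvw hv hw ht
  have hriv : (r⁻¹).1 *ᵥ v = t⁻¹ • v := by
    apply mulVec_inj r
    rw [mulVec_inv, Matrix.mulVec_smul, hrv, smul_smul, inv_mul_cancel₀ ht, one_smul]
  obtain ⟨k, hk, hkr⟩ := frattini_adm P (K := R ⊓ Fix (Submodule.span F {v})) (r := r) (le_inf hPR (by
      intro x hx y hy
      obtain ⟨a, rfl⟩ := Submodule.mem_span_singleton.1 hy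
      rw [Matrix.mulVec_smul, hfix x hx])) (by
      intro x hx
      refine ⟨R.mul_mem (R.mul_mem hr (hPR hx)) (R.inv_mem hr), ?_⟩
      intro y hy
      obtain ⟨a, rfl⟩ := Submodule.mem_span_singleton.1 hy
      rw [mul_mulVec, mul_mulVec, Matrix.mulVec_smul, hriv, Matrix.mulVec_smul, Matrix.mulVec_smul, Matrix.mulVec_smul, Matrix.mulVec_smul, hfix x hx, hrv, smul_smul,
        smul_smul, mul_assoc, inv_mul_cancel₀ ht, mul_one])
  have hkv : k.1 *ᵥ v = v := hk.2 v (Submodule.mem_span_singleton_self v)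
  have hkrv : (k * r).1 *ᵥ v = t • v := by rw [mul_mulVec, hrv, Matrix.mulVec_smul, hkv]
  have hadm : k * r ∈ Adm p (P : Subgroup G) := by
    refine ⟨hkr, QW W, hQW, hPN, ?_, R.mul_mem hk.1 hr⟩
    intro z hz hzc
    obtain ⟨l, hl⟩ := hPpow z hz
    exact cent_QW hiso ⟨v, Submodule.subset_span (Set.mem_insert _ _), hv⟩ hl hzc
  have hadm2 : (k * r)⁻¹ * g ∈ Adm p (P : Subgroup G) := by
    apply stab_adm hv hfix hQ (Subgroup.mul_mem _ (Subgroup.inv_mem _ hkr) hg)
    rw [mul_mulVec, hgt, ← hkrv, inv_mulVec]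
  have e : g = (k * r) * ((k * r)⁻¹ * g) := by group
  rw [e]
  exact Subgroup.mul_mem _ (Subgroup.subset_closure (Or.inr hadm)) (Subgroup.subset_closure (Or.inr hadm2))

end CfsgLib.H9SP
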