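import Cfsg.Agent.Lib.H9SPe
import Cfsg.Agent.Lib.PSL2Fus
/-!
Symplectic groups: strongly closed subgroups of a Sylow subgroup.
-/
set_option autoImplicit false
set_option maxHeartbeats 400000
set_option linter.unusedSectionVars false

namespace CfsgLib.H9SP

open Module Matrix Cfsg CfsgLib.Symp CfsgLib.AutPSp CfsgLib.AltForm CfsgLib.Fusion CfsgLib.H9LF

theorem every_two_sq {F : Type*} [Field F] [Finite F] (c : F) : ∃ a b : F, a ^ 2 + b ^ 2 = c := by
  have := Fintype.ofFinite F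
  rcases Nat.mod_two_eq_zero_or_one (Fintype.card F) with h | h
  · have h2 : ringChar F = 2 := (FiniteField.even_card_iff_char_two (F := F)).2 h
    obtain ⟨a, ha⟩ := FiniteField.isSquare_of_char_two h2 c
    exact ⟨a, 0, by rw [ha]; ring⟩
  · exact CfsgLib.PSL2Fus.sum_two_squares h c

variable {F : Type*} [Field F] {m : ℕ} {p : ℕ} [Fact p.Prime] [CharP F p] [Finite F]

local notation "V" => (Fin m ⊕ Fin m → F)
local notation "G" => Matrix.symplecticGroup (Fin m) F

omit [Finite F] in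
theorem tr_smul (v : V) (a c : F) : tr (a • v) c = tr v (c * a ^ 2) := by
  apply G_ext
  intro x
  rw [tr_mulVec, tr_mulVec, map_smul, smul_eq_mul]
  module

theorem tr_all {P : Sylow p G} {v : V} (hv : v ≠ 0) (hQ : Q v ≤ P) {T : Subgroup G}
    (hsc : ∀ x ∈ T, ∀ g : G, g * x * g⁻¹ ∈ (P : Subgroup G) → g * x * g⁻¹ ∈ T) {c : F} (hc : c ≠ 0) (hT : tr v c ∈ T) (d : F) :
    tr v d ∈ T := by
  have h1 : ∀ a : F, tr v (c * a ^ 2) ∈ T := by
    intro a
    by_cases ha : a = 0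
    · rw [ha, zero_pow two_ne_zero, mul_zero, tr_zero]; exact T.one_mem
    obtain ⟨g, hg⟩ := exists_mulVec_eq v (a • v) hv (smul_ne_zero ha hv)
    have h2 := hsc _ hT g (by
      rw [conj_tr, show g.1 *ᵥ v = a • v from hg, tr_smul]
      exact hQ (tr_mem_Q v _))
    rwa [conj_tr, show g.1 *ᵥ v = a • v from hg, tr_smul] at h2
  obtain ⟨a, b, hab⟩ := every_two_sq (d / c)
  have h2 : d = c * a ^ 2 + c * b ^ 2 := by
    rw [← mul_add, hab]; field_simp
  rw [h2, ← tr_mul]
  exact T.mul_mem (h1 a) (h1 b)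

theorem tr_any {P : Sylow p G} {v : V} (hv : v ≠ 0) {T : Subgroup G}
    (hsc : ∀ x ∈ T, ∀ g : G, g * x * g⁻¹ ∈ (P : Subgroup G) → g * x * g⁻¹ ∈ T) (hT : ∀ d, tr v d ∈ T) {u : V} {d : F}
    (hu : tr u d ∈ (P : Subgroup G)) : tr u d ∈ T := by
  by_cases hu0 : u = 0
  · have : tr u d = 1 := by
      apply G_ext
      intro x
      rw [tr_mulVec, hu0, smul_zero, add_zero, one_mulVec']
    rw [this]; exact T.one_mem
  obtain ⟨g, hg⟩ := exists_mulVec_eq v u hv hu0
  have e : tr u d = g * tr v d * g⁻¹ := by rw [conj_tr]; congr 1; exact hg.symm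
  rw [e] at hu ⊢
  exact hsc _ (hT d) g hu

omit [Finite F] in
theorem exists_move {v w w' : V} (hv : v ≠ 0) (hvw : sympB m F v w = 0) (hvw' : sympB m F v w' = 0) (hw : ∀ a : F, w ≠ a • v)
    (hw' : ∀ a : F, w' ≠ a • v) : ∃ g : G, g.1 *ᵥ v = v ∧ g.1 *ᵥ w = w' := by
  have hli : ∀ u : V, (∀ a : F, u ≠ a • v) → LinearIndependent F ![v, u] := by
    intro u hu
    rw [LinearIndependent.pair_iff]
    intro s t hst
    have ht : t = 0 := by
      by_contra ht
      apply hu (-(t⁻¹ * s))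
      have h1 : t • u = -(s • v) := by rw [eq_neg_iff_add_eq_zero, add_comm]; exact hst
      calc u = t⁻¹ • (t • u) := by rw [smul_smul, inv_mul_cancel₀ ht, one_smul]
        _ = (-(t⁻¹ * s)) • v := by rw [h1]; module
    refine ⟨?_, ht⟩
    rw [ht, zero_smul, add_zero] at hst
    rcases smul_eq_zero.1 hst with h | h
    · exact h
    · exact absurd h hv
  obtain ⟨A, hA⟩ := exists_symp_family (m := m) ![v, w] ![v, w'] (hli w hw) (hli w' hw') (by
    intro i j
    rw [← sympB_apply, ← sympB_apply]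
    fin_cases i <;> fin_cases j
    · rfl
    · show sympB m F v w = sympB m F v w'
      rw [hvw, hvw']
    · show sympB m F w v = sympB m F w' v
      rw [B_swap, hvw, B_swap w', hvw']
    · show sympB m F w w = sympB m F w' w'
      rw [B_self, B_self])
  exact ⟨A, hA 0, hA 1⟩

theorem X_any {P : Sylow p G} {v w w' : V} (hv : v ≠ 0) (hQ : Q v ≤ P) {T : Subgroup G}
    (hsc : ∀ x ∈ T, ∀ g : G, g * x * g⁻¹ ∈ (P : Subgroup G) → g * x * g⁻¹ ∈ T) {c : F}
    (hvw : sympB m F v w = 0) (hvw' : sympB m F v w' = 0) (hw : ∀ a : F, w ≠ a • v)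
    (hw' : ∀ a : F, w' ≠ a • v) (hT : X v w c ∈ T) : X v w' c ∈ T := by
  obtain ⟨g, h1, h2⟩ := exists_move hv hvw hvw' hw hw'
  have h3 := hsc _ hT g (by rw [conj_X, h1, h2]; exact hQ (X_mem_Q hvw' c))
  rwa [conj_X, h1, h2] at h3

/-- a nontrivial strongly closed subgroup contains a transvection -/
theorem exists_tr (hm : 2 ≤ m) (hex : m = 2 → ∃ a : F, a ≠ 0 ∧ a ≠ 1) {P : Sylow p G} {v : V} (hv : v ≠ 0)
    (hfix : ∀ g ∈ P, g.1 *ᵥ v = v) (hQ : Q v ≤ P) {T : Subgroup G} (hTP : T ≤ (P : Subgroup G)) (hT1 : T ≠ ⊥)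
    (hsc : ∀ x ∈ T, ∀ g : G, g * x * g⁻¹ ∈ (P : Subgroup G) → g * x * g⁻¹ ∈ T) : ∃ c : F, c ≠ 0 ∧ tr v c ∈ T := by
  obtain ⟨z, hzT, hz1, hzc⟩ := exists_central_mem P.2 hTP hT1
    (fun x hx g hg => hsc x hx g (P.mul_mem (P.mul_mem hg (hTP hx)) (P.inv_mem hg)))
  obtain ⟨w, c, hvw, rfl, h2⟩ := central_form hv (hfix z (hTP hzT)) fun g hg => hzc g (hQ hg)
  by_cases hw : ∃ a : F, w = a • v
  · obtain ⟨a, rfl⟩ := hw
    rw [X_smul] at hzT hz1
    refine ⟨_, fun h => hz1 ?_, hzT⟩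
    rw [h, tr_zero]
  push Not at hw
  obtain ⟨f, hvf, hwf⟩ := exists_dual hw
  have h20 : (2 : F) = 0 := by
    have h3 := h2 f (by rw [B_swap, hvf, neg_zero])
    rw [B_swap, hwf] at h3
    have h4 : (2 : F) * -1 = -2 := by ring
    rw [h4] at h3
    exact neg_eq_zero.1 h3
  have hmain : ∀ w' : V, sympB m F v w' = 0 → (∀ a : F, w' ≠ a • v) → (∀ a : F, w + w' ≠ a • v) → c + c + sympB m F w' w + c ≠ 0 →
      ∃ c : F, c ≠ 0 ∧ tr v c ∈ T := by
    intro w' h3 h4 h5 h6
    have h7 := X_any hv hQ hsc hvw h3 hw h4 hzT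
    have h8 := X_any hv hQ hsc (w' := w + w') hvw (by rw [map_add, hvw, h3, add_zero]) hw h5 hzT
    have h9 := T.mul_mem (T.mul_mem hzT h7) h8
    rw [X_mul hvw h3, X_mul (by rw [map_add, hvw, h3, add_zero]) (by rw [map_add, hvw, h3, add_zero]), B_self] at h9
    have h10 : w + w' + (w + w') = (0 : F) • v := by
      rw [← two_smul F (w + w'), h20, zero_smul, zero_smul]
    rw [h10, X_smul, mul_zero, add_zero, add_zero] at h9
    exact ⟨_, h6, h9⟩
  have hwv : sympB m F w v = 0 := by rw [B_swap, hvw, neg_zero]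
  by_cases hd : ∃ d : F, d ≠ 0 ∧ d ≠ c + c + c
  · obtain ⟨d, hd0, hdc⟩ := hd
    apply hmain (d • f)
    · rw [map_smul, hvf, smul_zero]
    · intro a ha
      have := congrArg (sympB m F w) ha
      rw [map_smul, map_smul, hwf, hwv, smul_zero, smul_eq_mul, mul_one] at this
      exact hd0 this
    · intro a ha
      have := congrArg (sympB m F w) ha
      rw [map_add, B_self, map_smul, map_smul, hwf, hwv, smul_zero, smul_eq_mul, mul_one, zero_add] at this
      exact hd0 this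
    · rw [B_swap, map_smul, hwf, smul_eq_mul, mul_one]
      intro h
      apply hdc
      linear_combination -h
  · push Not at hd
    have h1 := hd 1 one_ne_zero
    have hm3 : 3 ≤ m := by
      by_contra hlt
      obtain ⟨a, ha0, ha1⟩ := hex (by omega)
      exact ha1 (by rw [hd a ha0, h1])
    -- a vector orthogonal to `v`, `w` outside their span
    let L : V →ₗ[F] (Fin 2 → F) := LinearMap.pi ![sympB m F v, sympB m F w]
    have h3 := LinearMap.finrank_range_add_finrank_ker L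
    have h4 : finrank F (LinearMap.range L) ≤ 2 := by
      have := Submodule.finrank_le (LinearMap.range L)
      rwa [Module.finrank_fin_fun] at this
    classical
    have h5 : finrank F (Submodule.span F ({v, w} : Set V)) ≤ 2 := by
      have h6 := finrank_span_finset_le_card (R := F) ({v, w} : Finset V)
      have h7 : (({v, w} : Finset V) : Set V) = {v, w} := by simp
      rw [Set.finrank, h7] at h6
      exact h6.trans Finset.card_le_two
    have h6 : ¬ LinearMap.ker L ≤ Submodule.span F ({v, w} : Set V) := by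
      intro hle
      have h7 := Submodule.finrank_mono hle
      rw [finrank_symp] at h3
      omega
    obtain ⟨w', hw', hw'n⟩ := SetLike.not_le_iff_exists.1 h6
    have hL : ∀ x, x ∈ LinearMap.ker L ↔ sympB m F v x = 0 ∧ sympB m F w x = 0 := by
      intro x
      rw [LinearMap.mem_ker]
      constructor
      · intro h
        exact ⟨congrFun h 0, congrFun h 1⟩
      · rintro ⟨h, h'⟩
        ext i
        fin_cases i
        · exact h
        · exact h'
    obtain ⟨h7, h8⟩ := (hL w').1 hw'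
    apply hmain w' h7
    · intro a ha
      apply hw'n
      rw [ha]
      exact Submodule.smul_mem _ _ (Submodule.subset_span (Set.mem_insert _ _))
    · intro a ha
      apply hw'n
      have : w' = a • v - w := by rw [← ha]; abel
      rw [this]
      exact Submodule.sub_mem _ (Submodule.smul_mem _ _ (Submodule.subset_span (Set.mem_insert _ _)))
        (Submodule.subset_span (Set.mem_insert_of_mem _ rfl))
    · rw [B_swap, h8, neg_zero, add_zero, ← h1]
      exact one_ne_zero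

theorem hA_Sp (hm : 2 ≤ m) (hex : m = 2 → ∃ a : F, a ≠ 0 ∧ a ≠ 1) {P : Sylow p G} {v : V} (hv : v ≠ 0)
    (hfix : ∀ g ∈ P, g.1 *ᵥ v = v) (hQ : Q v ≤ P) (T : Subgroup G) (hTP : T ≤ (P : Subgroup G)) (hT1 : T ≠ ⊥)
    (hsc : ∀ x ∈ T, ∀ g : G, g * x * g⁻¹ ∈ (P : Subgroup G) → g * x * g⁻¹ ∈ T) : T = (P : Subgroup G) := by
  obtain ⟨c, hc, hcT⟩ := exists_tr hm hex hv hfix hQ hTP hT1 hsc
  have h1 := tr_all hv hQ hsc hc hcT
  have h2 : ∀ {u : V} {d : F}, tr u d ∈ (P : Subgroup G) → tr u d ∈ T := fun hu => tr_any hv hsc h1 hu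
  obtain ⟨w, hvw, hw, hPw⟩ := exists_plane hm hv hfix
  set W := Submodule.span F {v, w} with hW
  have hiso := plane_iso hvw
  have hPW : ∀ x ∈ (P : Subgroup G), ∀ y ∈ W, x.1 *ᵥ y ∈ W := by
    intro x hx y hy
    obtain ⟨a, b, rfl⟩ := mem_plane.1 hy
    obtain ⟨c, hc⟩ := hPw x hx
    rw [Matrix.mulVec_add, Matrix.mulVec_smul, Matrix.mulVec_smul, hfix x hx, hc]
    exact mem_plane.2 ⟨a + b * c, b, by module⟩
  have hPN : (P : Subgroup G) ≤ Subgroup.normalizer ((QW W : Subgroup G) : Set G) := fun x hx => norm_QW (hPW x hx)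
  have hQW : QW W ≤ (P : Subgroup G) := le_of_normalized P (isPGroup_QW W) hPN
  have hvm : v ∈ W := mem_plane.2 ⟨1, 0, by rw [one_smul, zero_smul, add_zero]⟩
  have hwm : w ∈ W := mem_plane.2 ⟨0, 1, by rw [one_smul, zero_smul, zero_add]⟩
  have h3 : ∀ c, X v w c ∈ T := by
    intro c
    exact T.mul_mem (T.mul_mem (h2 (hQW (tr_mem_QW hiso (W.add_mem hvm hwm) _))) (h2 (hQW (tr_mem_QW hiso hvm _))))
      (h2 (hQW (tr_mem_QW hiso hwm _)))
  have h4 : ∀ w' c, sympB m F v w' = 0 → X v w' c ∈ T := by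
    intro w' c hw'
    by_cases h : ∃ a : F, w' = a • v
    · obtain ⟨a, rfl⟩ := h
      rw [X_smul]; exact h1 _
    · push Not at h
      exact X_any hv hQ hsc hvw hw' hw h (h3 c)
  apply le_antisymm hTP
  apply gen_sylow
  rintro a ha g ⟨hgQ, hgP⟩
  obtain ⟨u, c, hu, rfl⟩ := X_of_Q ha hgQ
  obtain ⟨k, hk⟩ := exists_mulVec_eq v a hv ha
  have hk' : k.1 *ᵥ v = a := hk
  have e : X a u c = k * X v ((k⁻¹).1 *ᵥ u) c * k⁻¹ := by rw [conj_X, hk', mulVec_inv]
  have h5 : sympB m F v ((k⁻¹).1 *ᵥ u) = 0 := by rw [← G_pres k, hk', mulVec_inv, hu]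
  rw [e] at hgP ⊢
  exact hsc _ (h4 _ _ h5) k hgP

theorem s5171 [Fintype F] (hm : 2 ≤ m) (hex : m = 2 → 3 ≤ Fintype.card F) (S : Sylow p (PSp m F)) :
    (groupFusionSystem (S : Subgroup (PSp m F))).IsSimple p := by
  obtain ⟨P, v, hv, hfix, hQ⟩ := exists_sylow (F := F) (m := m) (p := p) (by omega)
  have hex' : m = 2 → ∃ a : F, a ≠ 0 ∧ a ≠ 1 := fun h => exists_ne_zero_ne_one (hex h)
  refine crit2 (A := G) (Z := Subgroup.center G) le_rfl ?_ (S₀ := (P : Subgroup G)) P.2 ?_ ?_ ?_ ?_ S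
  · intro z hz k hk
    exact center_p (by omega) hz hk
  · intro h
    have h1 : tr v 1 ∈ (P : Subgroup G) := hQ (tr_mem_Q v 1)
    rw [h, Subgroup.mem_bot] at h1
    obtain ⟨f, hf⟩ := exists_B_ne hv
    have h2 : (tr v 1).1 *ᵥ f = (1 : G).1 *ᵥ f := by rw [h1]
    rw [tr_mulVec, one_mulVec', add_eq_left, hf, one_mul, one_smul] at h2
    exact hv h2
  · intro y hy k hk
    exact sylow_hN P hy hk
  · exact hA_Sp hm hex' hv hfix hQ
  · exact hB_Sp hm hv hfix hQ

end CfsgLib.H9SP
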