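import Cfsg.Agent.Lib.H9SPa
import Cfsg.Agent.Lib.AutPSU3
/-!
Unitary groups: Sylow subgroups are generated by elements of unipotent radicals of point stabilizers.
-/
set_option autoImplicit false
set_option maxHeartbeats 400000
set_option linter.unusedSectionVars false

namespace CfsgLib.H9SU

open Module CfsgLib.Herm CfsgLib.AutPSU CfsgLib.Fusion CfsgLib.H9SP CfsgLib.H9LF

variable {F V : Type*} [Field F] [AddCommGroup V] [Module F V] [FiniteDimensional F V]
  {σ : F →+* F} {q : ℕ} {B : V →ₛₗ[σ] V →ₗ[F] F} {p : ℕ} [Fact p.Prime] [CharP F p]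

theorem finV [Finite F] : Finite V := Module.finite_of_finite F

instance finSUL [Finite F] : Finite (SUL B) := by
  have : Finite V := Module.finite_of_finite F
  have : Finite (V ≃ₗ[F] V) := Finite.of_injective (fun g => (g : V → V)) DFunLike.coe_injective
  infer_instance

/-- pointwise stabilizer -/
def Fix (X : Submodule F V) : Subgroup (SUL B) where
  carrier := {g | ∀ x ∈ X, g.1 x = x}
  one_mem' := fun x _ => rfl
  mul_mem' := by
    intro a b ha hb x hx
    rw [mul_apply', hb x hx, ha x hx]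
  inv_mem' := by
    intro a ha x hx
    conv_lhs => rw [← ha x hx]
    rw [inv_apply']

theorem norm_Q [Finite F] {v : V} {g : SUL B} {l : F} (hl : l ≠ 0) (hg : g.1 v = l • v) :
    g ∈ Subgroup.normalizer ((Q B v : Subgroup (SUL B)) : Set (SUL B)) :=
  mem_normalizer_of_conj_mem fun _ hx => conj_mem_Q hl hg hx

theorem norm_Q' [Finite F] {v : V} {g : SUL B} (hg : g.1 v = v) :
    g ∈ Subgroup.normalizer ((Q B v : Subgroup (SUL B)) : Set (SUL B)) :=
  norm_Q one_ne_zero (by rw [hg, one_smul])

/-- elements of `Q v` -/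
theorem si_of_Q (hq : QConj σ q) (h : HForm B) {v : V} (hv : v ≠ 0) (hv0 : B v v = 0) {g : SUL B} (hg : g ∈ Q B v) :
    ∃ w c, B v w = 0 ∧ c + σ c + B w w = 0 ∧ g = si h v w c := by
  obtain ⟨f, hf0, hf⟩ := h.exists_partner hq hv hv0
  have hfv : B f v = 1 := by rw [← h.symm, hf, map_one]
  obtain ⟨hgv, hg'⟩ := hg
  obtain ⟨w, hw⟩ : ∃ w, g.1 f = f + w := ⟨g.1 f - f, by abel⟩
  have hvw : B v w = 0 := by
    have h2 := pres g v f
    rw [hgv, hw, map_add_right] at h2
    exact add_eq_left.1 h2
  have hwv : B w v = 0 := comm0 h hvw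
  have hc : B w f + σ (B w f) + B w w = 0 := by
    have h2 := pres g f f
    rw [hw, map_add_left, map_add_right, map_add_right, hf0] at h2
    rw [h.symm w f]
    linear_combination h2
  refine ⟨w, B w f, hvw, hc, ?_⟩
  apply K_ext
  intro x
  have hy : ∀ y, B v y = 0 → g.1 y = y - B w y • v := by
    intro y hy
    obtain ⟨a, ha⟩ := hg' y hy
    have h3 := pres g f y
    rw [hw, ha, map_add_left, map_add_right, map_add_right, map_smul_right, map_smul_right, hfv, hwv, mul_one,
      mul_zero, add_zero] at h3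
    rw [ha]
    have : a = - B w y := by linear_combination h3
    rw [this]
    module
  have h6 := hy (x - B v x • f) (by rw [map_sub_right, map_smul_right, hf, mul_one, sub_self])
  rw [map_sub, map_smul, hw, map_sub_right, map_smul_right] at h6
  rw [si_apply h hv0 hvw hc]
  have h7 : g.1 x = x - B v x • f - (B w x - B v x * B w f) • v + B v x • (f + w) := by rw [← h6]; abel
  rw [h7]
  module

/-- partner inside a perpendicular subspace -/
theorem exists_partner_in (hq : QConj σ q) (h : HForm B) {X : Submodule F V} {a : V} (haX : a ∉ X) (ha : B a a = 0)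
    (hXa : ∀ x ∈ X, B x a = 0) : ∃ f, (∀ x ∈ X, B x f = 0) ∧ B f f = 0 ∧ B a f = 1 := by
  have := hq.finite
  obtain ⟨r, hr, hra⟩ := h.exists_orth_ne_zero haX
  have har : B a r ≠ 0 := fun h0 => hra (comm0 h h0)
  set f₀ := (B a r)⁻¹ • r with hf₀
  have h1 : B a f₀ = 1 := by rw [hf₀, map_smul_right, inv_mul_cancel₀ har]
  have h1' : B f₀ a = 1 := by rw [← h.symm, h1, map_one]
  have h2 : ∀ x ∈ X, B x f₀ = 0 := fun x hx => by rw [hf₀, map_smul_right, comm0 h (hr x hx), mul_zero]
  clear_value f₀
  obtain ⟨l, hl⟩ := hq.exists_trace (c := - B f₀ f₀) (by rw [map_neg, h.symm])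
  refine ⟨f₀ + l • a, fun x hx => ?_, ?_, ?_⟩
  · rw [map_add_right, map_smul_right, h2 x hx, hXa x hx, mul_zero, add_zero]
  · rw [map_add_left, map_add_right, map_add_right, map_smul_left, map_smul_left, map_smul_right, map_smul_right, ha, h1, h1']
    linear_combination hl
  · rw [map_add_right, map_smul_right, ha, h1, mul_zero, add_zero]

theorem gen (hq : QConj σ q) (h : HForm B) {T : Subgroup (SUL B)} : ∀ (n : ℕ) (X : Submodule F V) (R : Subgroup (SUL B)), finrank F V - finrank F X ≤ n →
    (∀ x ∈ X, (∀ y ∈ X, B y x = 0) → x = 0) → IsPGroup p R → R ≤ Fix X →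
    (∀ R' : Subgroup (SUL B), IsPGroup p R' → R' ≤ Fix X → R ≤ R' → R' ≤ R) →
    (∀ a : V, a ≠ 0 → B a a = 0 → Q B a ⊓ R ≤ T) → R ≤ T := by
  have hfin := hq.finite
  intro n
  induction n with
  | zero =>
    intro X R hX _ _ hRX _ _ g hg
    have hle := Submodule.finrank_le X
    have hX' : X = ⊤ := Submodule.eq_top_of_finrank_eq (by omega)
    have : g = 1 := K_ext fun x => by rw [hRX hg x (by rw [hX']; trivial), one_apply']
    rw [this]; exact Subgroup.one_mem _
  | succ n ih =>
    intro X R hX hXn hRp hRX hRmax hT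
    by_cases htop : X = ⊤
    · intro g hg
      have : g = 1 := K_ext fun x => by rw [hRX hg x (by rw [htop]; trivial), one_apply']
      rw [this]; exact Subgroup.one_mem _
    obtain ⟨x, -, hx⟩ := SetLike.exists_of_lt (lt_top_iff_ne_top.2 htop)
    have hnt : Nontrivial V := ⟨⟨x, 0, fun h0 => hx (by rw [h0]; exact X.zero_mem)⟩⟩
    have hY0 : perp B X ≠ ⊥ := by
      obtain ⟨r, hr, hrx⟩ := h.exists_orth_ne_zero hx
      intro h0
      have hr' : r ∈ perp B X := fun y hy => comm0 h (hr y hy)
      rw [h0, Submodule.mem_bot] at hr'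
      rw [hr', map_zero_left] at hrx
      exact hrx rfl
    have hRY : ∀ g ∈ R, ∀ y ∈ perp B X, g.1 y ∈ perp B X := by
      intro g hg y hy x hx
      have h1 := hRX hg x hx
      conv_lhs => rw [← h1]
      rw [pres, hy x hx]
    obtain ⟨a, haY, ha0, haR⟩ := exists_fixed (p := p) R hRp (perp B X) hY0 hRY
    have hXa : ∀ x ∈ X, B x a = 0 := haY
    have haX : a ∉ X := fun h' => ha0 (hXn a h' hXa)
    by_cases haa : B a a = 0
    swap
    · -- anisotropic fixed vector
      have hmemX' : ∀ x, x ∈ X ⊔ Submodule.span F {a} ↔ ∃ y ∈ X, ∃ α : F, x = y + α • a := by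
        intro x
        rw [Submodule.mem_sup]
        constructor
        · rintro ⟨y, hy, z, hz, rfl⟩
          obtain ⟨α, rfl⟩ := Submodule.mem_span_singleton.1 hz
          exact ⟨y, hy, α, rfl⟩
        · rintro ⟨y, hy, α, rfl⟩
          exact ⟨y, hy, _, Submodule.mem_span_singleton.2 ⟨α, rfl⟩, rfl⟩
      have haX' : a ∈ X ⊔ Submodule.span F {a} := (le_sup_right : Submodule.span F {a} ≤ _) (Submodule.mem_span_singleton_self a)
      have hlt : finrank F X < finrank F (X ⊔ Submodule.span F {a} : Submodule F V) := by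
        apply Submodule.finrank_lt_finrank_of_lt
        refine lt_of_le_of_ne le_sup_left fun h' => haX ?_
        rw [h']; exact haX'
      apply ih (X ⊔ Submodule.span F {a}) R (by omega) ?_ hRp ?_ ?_ hT
      · intro x hx hxy
        obtain ⟨y, hy, α, rfl⟩ := (hmemX' x).1 hx
        have h1 := hxy a haX'
        rw [map_add_right, map_smul_right, comm0 h (hXa y hy), zero_add] at h1
        have hα : α = 0 := by
          rcases mul_eq_zero.1 h1 with h2 | h2
          · exact h2
          · exact absurd h2 haa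
        have h3 : y = 0 := by
          apply hXn y hy
          intro z hz
          have h4 := hxy z ((le_sup_left : X ≤ _) hz)
          rw [hα, zero_smul, add_zero] at h4
          exact h4
        rw [hα, h3, zero_smul, add_zero]
      · intro g hg x hx
        obtain ⟨y, hy, α, rfl⟩ := (hmemX' x).1 hx
        rw [map_add, map_smul, hRX hg y hy, haR g hg]
      · intro R' h1 h2 h3
        exact hRmax R' h1 (fun g hg x hx => h2 hg x ((le_sup_left : X ≤ _) hx)) h3
    obtain ⟨f, hfY, hff, haf⟩ := exists_partner_in hq h haX haa hXa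
    have hfa : B f a = 1 := by rw [← h.symm, haf, map_one]
    have hQp : IsPGroup p (Q B a ⊓ Fix X : Subgroup (SUL B)) := (isPGroup_Q a).to_le inf_le_left
    have hnorm : ∀ g : SUL B, g.1 a = a → g ∈ Fix X → g ∈ Subgroup.normalizer (((Q B a ⊓ Fix X : Subgroup (SUL B))) : Set (SUL B)) := by
      intro g hga hgX
      apply mem_normalizer_of_conj_mem
      rintro s ⟨hs1, hs2⟩
      exact ⟨conj_mem_Q one_ne_zero (by rw [hga, one_smul]) hs1, (Fix X).mul_mem ((Fix X).mul_mem hgX hs2) ((Fix X).inv_mem hgX)⟩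
    have hQR : Q B a ⊓ Fix X ≤ R := by
      have h1 : IsPGroup p (R ⊔ (Q B a ⊓ Fix X) : Subgroup (SUL B)) :=
        hRp.to_sup_of_normal_right' hQp fun g hg => hnorm g (haR g hg) (hRX hg)
      exact le_sup_right.trans (hRmax _ h1 (sup_le hRX inf_le_right) le_sup_left)
    have hdec : ∀ g ∈ R, ∃ s ∈ Q B a ⊓ Fix X, (s⁻¹ * g).1 f = f := by
      intro g hg
      have hgf : ∀ x ∈ X, B x (g.1 f) = 0 := hRY g hg f hfY
      obtain ⟨w, hw⟩ : ∃ w, g.1 f = f + w := ⟨g.1 f - f, by abel⟩
      have hwY : ∀ x ∈ X, B x w = 0 := by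
        intro x hx
        have h1 := hgf x hx
        rw [hw, map_add_right, hfY x hx, zero_add] at h1
        exact h1
      have haw : B a w = 0 := by
        have h2 := pres g a f
        rw [haR g hg, hw, map_add_right] at h2
        exact add_eq_left.1 h2
      have hc : B w f + σ (B w f) + B w w = 0 := by
        have h2 := pres g f f
        rw [hw, map_add_left, map_add_right, map_add_right, hff] at h2
        rw [h.symm w f]
        linear_combination h2
      refine ⟨si h a w (B w f), ⟨si_mem_Q h haa haw hc, ?_⟩, ?_⟩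
      · intro x hx
        rw [si_apply h haa haw hc, comm0 h (hXa x hx), comm0 h (hwY x hx), zero_smul, mul_zero, sub_zero, zero_smul, add_zero, add_zero]
      · have h1 : (si h a w (B w f)).1 f = g.1 f := by
          rw [si_apply h haa haw hc, haf, mul_one, one_smul, hw, sub_self, zero_smul, add_zero]
        rw [mul_apply', ← h1, inv_apply']
    set X' : Submodule F V := X ⊔ Submodule.span F {a, f} with hX'
    have hmemX' : ∀ x, x ∈ X' ↔ ∃ y ∈ X, ∃ α γ : F, x = y + (α • a + γ • f) := by
      intro x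
      rw [hX', Submodule.mem_sup]
      constructor
      · rintro ⟨y, hy, z, hz, rfl⟩
        obtain ⟨α, γ, rfl⟩ := Submodule.mem_span_pair.1 hz
        exact ⟨y, hy, α, γ, rfl⟩
      · rintro ⟨y, hy, α, γ, rfl⟩
        exact ⟨y, hy, _, Submodule.mem_span_pair.2 ⟨α, γ, rfl⟩, rfl⟩
    have haX' : a ∈ X' := (hmemX' a).2 ⟨0, X.zero_mem, 1, 0, by rw [one_smul, zero_smul, add_zero, zero_add]⟩
    have hfX' : f ∈ X' := (hmemX' f).2 ⟨0, X.zero_mem, 0, 1, by rw [one_smul, zero_smul, zero_add, zero_add]⟩
    have hXX' : X ≤ X' := le_sup_left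
    have hFix' : ∀ g : SUL B, g ∈ Fix X → g.1 a = a → g.1 f = f → g ∈ Fix X' := by
      intro g h1 h2 h3 x hx
      obtain ⟨y, hy, α, γ, rfl⟩ := (hmemX' x).1 hx
      rw [map_add, map_add, map_smul, map_smul, h1 y hy, h2, h3]
    have hdec' : ∀ g ∈ R, ∃ s ∈ Q B a ⊓ Fix X, s⁻¹ * g ∈ R ⊓ Fix X' := by
      intro g hg
      obtain ⟨s, hs, hsf⟩ := hdec g hg
      have h1 : s⁻¹ * g ∈ R := R.mul_mem (R.inv_mem (hQR hs)) hg
      exact ⟨s, hs, h1, hFix' _ (hRX h1) (haR _ h1) hsf⟩
    have hlt : finrank F X < finrank F X' := by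
      apply Submodule.finrank_lt_finrank_of_lt
      refine lt_of_le_of_ne hXX' fun h' => haX ?_
      rw [h']; exact haX'
    have hIH : R ⊓ Fix X' ≤ T := by
      apply ih X' (R ⊓ Fix X') (by omega)
      · intro x hx hxy
        obtain ⟨y, hy, α, γ, rfl⟩ := (hmemX' x).1 hx
        have h1 := hxy a haX'
        rw [map_add_right, map_add_right, map_smul_right, map_smul_right, haa, haf, comm0 h (hXa y hy), mul_zero, mul_one, zero_add, zero_add] at h1
        have h2 := hxy f hfX'
        rw [map_add_right, map_add_right, map_smul_right, map_smul_right, hff, hfa, comm0 h (hfY y hy), mul_zero, mul_one, add_zero, zero_add] at h2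
        have h3 : y = 0 := by
          apply hXn y hy
          intro z hz
          have h4 := hxy z (hXX' hz)
          rw [h1, h2, zero_smul, zero_smul, add_zero, add_zero] at h4
          exact h4
        rw [h1, h2, h3, zero_smul, zero_smul, add_zero, add_zero]
      · exact hRp.to_le inf_le_left
      · exact inf_le_right
      · intro R'' hp'' hfix'' hle
        have hRa : ∀ g ∈ R'', g.1 a = a := fun g hg => hfix'' hg a haX'
        have hRX'' : R'' ≤ Fix X := fun g hg x hx => hfix'' hg x (hXX' hx)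
        have h1 : IsPGroup p (R'' ⊔ (Q B a ⊓ Fix X) : Subgroup (SUL B)) :=
          hp''.to_sup_of_normal_right' hQp fun g hg => hnorm g (hRa g hg) (hRX'' hg)
        have h2 : R ≤ R'' ⊔ (Q B a ⊓ Fix X) := by
          intro g hg
          obtain ⟨s, hs, hsg⟩ := hdec' g hg
          have e : g = s * (s⁻¹ * g) := by group
          rw [e]
          exact Subgroup.mul_mem _ ((le_sup_right : Q B a ⊓ Fix X ≤ _) hs) ((le_sup_left : R'' ≤ _) (hle hsg))
        have h3 := hRmax _ h1 (sup_le hRX'' inf_le_right) h2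
        exact le_inf (le_sup_left.trans h3) hfix''
      · intro b hb hbb
        exact (inf_le_inf_left _ inf_le_left).trans (hT b hb hbb)
    intro g hg
    obtain ⟨s, hs, hsg⟩ := hdec' g hg
    have e : g = s * (s⁻¹ * g) := by group
    rw [e]
    exact T.mul_mem (hT a ha0 haa ⟨hs.1, hQR hs⟩) (hIH hsg)

theorem gen_sylow (hq : QConj σ q) (h : HForm B) {T : Subgroup (SUL B)} (P : Sylow p (SUL B))
    (hT : ∀ a : V, a ≠ 0 → B a a = 0 → Q B a ⊓ (P : Subgroup (SUL B)) ≤ T) : (P : Subgroup (SUL B)) ≤ T := by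
  apply gen (p := p) hq h (finrank F V) ⊥ (P : Subgroup (SUL B)) (Nat.sub_le _ _) (fun x hx _ => (Submodule.mem_bot F).1 hx) P.2
  · intro g _ x hx
    rw [(Submodule.mem_bot F).1 hx, map_zero]
  · intro R' h1 _ h2
    rw [P.3 h1 h2]
  · exact hT

end CfsgLib.H9SU
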