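import Cfsg.Agent.Lib.H9SUa
/-!
Unitary groups: stabilizers.
-/
set_option autoImplicit false
set_option maxHeartbeats 400000
set_option linter.unusedSectionVars false

namespace CfsgLib.H9SU

open Module CfsgLib.Herm CfsgLib.AutPSU CfsgLib.Fusion CfsgLib.H9SP CfsgLib.H9LF CfsgLib.IsomDecomp

variable {F V : Type*} [Field F] [AddCommGroup V] [Module F V] [FiniteDimensional F V]
  {σ : F →+* F} {q : ℕ} {B : V →ₛₗ[σ] V →ₗ[F] F} {p : ℕ} [Fact p.Prime] [CharP F p]

theorem inv_fix {s : SUL B} {v : V} (h : s.1 v = v) : (s⁻¹).1 v = v := by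
  have := inv_apply' s v
  rwa [h] at this

/-- the group generated by the `p`-elements normalizing `R` -/
noncomputable def Cl (p : ℕ) (R : Subgroup (SUL B)) : Subgroup (SUL B) :=
  Subgroup.closure {y : SUL B | y ∈ Subgroup.normalizer (R : Set (SUL B)) ∧ ∃ k : ℕ, y ^ p ^ k = 1}

theorem si_mem_Cl [Nontrivial V] (h : HForm B) {R : Subgroup (SUL B)} {u y : V} {c : F} (hu : B u u = 0) (hy : B u y = 0)
    (hc : c + σ c + B y y = 0) (hn : si h u y c ∈ Subgroup.normalizer (R : Set (SUL B))) : si h u y c ∈ Cl p R :=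
  Subgroup.subset_closure ⟨hn, 2, pow_mem_Q inferInstance (si_mem_Q h hu hy hc)⟩

/-- the stabilizer of a hyperbolic pair -/
theorem stab_pair (hq : QConj σ q) (h : HForm B) (hV : 4 ≤ finrank F V) {v f : V} (hv : B v v = 0) (hf : B f f = 0) (hvf : B v f = 1)
    {g : SUL B} (hgv : g.1 v = v) (hgf : g.1 f = f) : g ∈ Cl p (Q B v) := by
  have := hq.finite
  have hnt : Nontrivial V := Module.nontrivial_of_finrank_pos (R := F) (by omega)
  set W := Submodule.span F {v, f} with hW
  set W' := hpp B v f with hW'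
  have hcc : IsCompl W W' := isCompl_perp hq h (hform_pair h hv hf hvf)
  have hh' : HForm (resB B W') := hpp_hform hq h hv hf hvf
  have hdim : finrank F W' + 2 = finrank F V := finrank_hpp hq h hv hf hvf
  obtain ⟨hgU, hgdet⟩ := mem_SUL.mp g.2
  have hgi : (g⁻¹).1 v = v := by conv_lhs => rw [← hgv]; rw [inv_apply']
  have hgif : (g⁻¹).1 f = f := by conv_lhs => rw [← hgf]; rw [inv_apply']
  have hWfix : ∀ (k : SUL B), k.1 v = v → k.1 f = f → ∀ y ∈ W, k.1 y = y := by
    intro k h1 h2 y hy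
    obtain ⟨a, b, rfl⟩ := Submodule.mem_span_pair.1 hy
    rw [map_add, map_smul, map_smul, h1, h2]
  have h1 : ∀ y, y ∈ W ↔ g.1 y ∈ W := by
    intro y
    constructor
    · intro hy; rw [hWfix g hgv hgf y hy]; exact hy
    · intro hy
      have := hWfix g⁻¹ hgi hgif _ hy
      rw [inv_apply'] at this
      rw [this]; exact hy
  have h2 : ∀ y, y ∈ W' ↔ g.1 y ∈ W' := by
    intro y
    rw [hW', mem_hpp, mem_hpp]
    have e1 := pres g v y
    have e2 := pres g f y
    rw [hgv] at e1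
    rw [hgf] at e2
    rw [e1, e2]
  have h3 := glue_comp hcc g.1 h1 h2
  have h4 : comp g.1 W h1 = 1 := by
    ext y
    rw [comp_apply]
    exact hWfix g hgv hgf y y.2
  rw [h4, glue_symm] at h3
  have h5 : comp g.1 W' h2 ∈ SUL (resB B W') := by
    rw [mem_SUL]
    refine ⟨fun y z => ?_, ?_⟩
    · change B (comp g.1 W' h2 y : V) (comp g.1 W' h2 z : V) = B (y : V) (z : V)
      rw [comp_apply, comp_apply]
      exact mem_U.mp hgU _ _
    · have h6 := det_glue hcc.symm (comp g.1 W' h2) (1 : W ≃ₗ[F] W)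
      rw [h3, hgdet] at h6
      have h7 : LinearMap.det ((1 : W ≃ₗ[F] W) : W →ₗ[F] W) = 1 := LinearMap.det_id
      rw [h7, mul_one] at h6
      exact h6.symm
  rw [← EG_eq hq hh' (by omega)] at h5
  have hperp : ∀ x ∈ W', ∀ y ∈ W, B x y = 0 := by
    intro x hx y hy
    obtain ⟨a, b, rfl⟩ := Submodule.mem_span_pair.1 hy
    obtain ⟨k1, k2⟩ := mem_hpp.1 hx
    rw [map_add_right, map_smul_right, map_smul_right, comm0 h k1, comm0 h k2, mul_zero, mul_zero, add_zero]
  have key : EG (resB B W') ≤ ((Cl p (Q B v)).map (SUL B).subtype).comap ((glue hcc.symm).comp (MonoidHom.inl _ _)) := by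
    rw [EG, Subgroup.closure_le]
    rintro t ⟨u, y, c, hu, huy, hc, ht⟩
    have hu' : B (u : V) (u : V) = 0 := hu
    have huy' : B (u : V) (y : V) = 0 := huy
    have hc' : c + σ c + B (y : V) (y : V) = 0 := hc
    have hsv : (si h (u : V) y c).1 v = v := by
      rw [si_apply h hu' huy' hc', hperp u u.2 v (Submodule.subset_span (by simp)), hperp y y.2 v (Submodule.subset_span (by simp)),
        zero_smul, mul_zero, sub_zero, zero_smul, add_zero, add_zero]
    refine ⟨si h (u : V) y c, si_mem_Cl h hu' huy' hc' (norm_Q' hsv), ?_⟩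
    apply LinearEquiv.ext
    intro x
    obtain ⟨a, b, rfl⟩ := exists_add_of_isCompl hcc.symm x
    change (si h (u : V) y c).1 (a + b : V) = glue hcc.symm (t, 1) (a + b : V)
    rw [glue_apply, si_apply h hu' huy' hc', map_add_right, map_add_right, hperp u.1 u.2 b.1 b.2,
      hperp y.1 y.2 b.1 b.2, add_zero, add_zero]
    have h1 := congrArg Subtype.val (ht a)
    change (t a : V) = (a : V) + B (u : V) (a : V) • (y : V) +
      (c * B (u : V) (a : V) - B (y : V) (a : V)) • (u : V) at h1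
    change _ = (t a : V) + (b : V)
    rw [h1]
    abel
  obtain ⟨k, hk, hkg⟩ := key h5
  have : k = g := by
    apply Subtype.ext
    exact hkg.trans h3
  rw [← this]
  exact hk

/-- the stabilizer of an isotropic vector -/
theorem stab_vec (hq : QConj σ q) (h : HForm B) (hV : 4 ≤ finrank F V) {v : V} (hv : v ≠ 0) (hv0 : B v v = 0)
    {g : SUL B} (hgv : g.1 v = v) : g ∈ Cl p (Q B v) := by
  have := hq.finite
  have hnt : Nontrivial V := Module.nontrivial_of_finrank_pos (R := F) (by omega)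
  obtain ⟨f, hf0, hf⟩ := h.exists_partner hq hv hv0
  obtain ⟨w, hw⟩ : ∃ w, g.1 f = f + w := ⟨g.1 f - f, by abel⟩
  have hvw : B v w = 0 := by
    have h2 := pres g v f
    rw [hgv, hw, map_add_right] at h2
    exact add_eq_left.1 h2
  have hc : B w f + σ (B w f) + B w w = 0 := by
    have h2 := pres g f f
    rw [hw, map_add_left, map_add_right, map_add_right, hf0] at h2
    rw [h.symm w f]
    linear_combination h2
  have hsQ := si_mem_Q h hv0 hvw hc
  have hs1 : (si h v w (B w f)).1 v = v := hsQ.1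
  have hsf : (si h v w (B w f)).1 f = g.1 f := by
    rw [si_apply h hv0 hvw hc, hf, mul_one, one_smul, hw, sub_self, zero_smul, add_zero]
  have hs : si h v w (B w f) ∈ Cl p (Q B v) := si_mem_Cl h hv0 hvw hc (norm_Q' hs1)
  have h1 : (si h v w (B w f))⁻¹ * g ∈ Cl p (Q B v) := by
    apply stab_pair hq h hV hv0 hf0 hf
    · rw [mul_apply', hgv]
      exact inv_fix hs1
    · rw [mul_apply', ← hsf, inv_apply']
  have e : g = si h v w (B w f) * ((si h v w (B w f))⁻¹ * g) := by group
  rw [e]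
  exact mul_mem hs h1

theorem stab_adm (hq : QConj σ q) (h : HForm B) (hV : 4 ≤ finrank F V) {P : Sylow p (SUL B)} {v : V} (hv : v ≠ 0) (hv0 : B v v = 0)
    (hfix : ∀ g ∈ P, g.1 v = v) (hQ : Q B v ≤ P) {g : SUL B}
    (hg : g ∈ Subgroup.normalizer ((P : Subgroup (SUL B)) : Set (SUL B))) (hgv : g.1 v = v) : g ∈ Adm p (P : Subgroup (SUL B)) := by
  have := hq.finite
  refine ⟨hg, Q B v, hQ, fun x hx => norm_Q' (hfix x hx), ?_, stab_vec hq h hV hv hv0 hgv⟩
  intro z hz hzc
  obtain ⟨c, h1, rfl⟩ := central_form hq h hv hv0 (hfix z hz) hzc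
  exact tv_mem_Q h hv0 h1

/-- the vectors fixed by `Q v` -/
theorem fixed_Q (hq : QConj σ q) (h : HForm B) {v : V} (hv : v ≠ 0) (hv0 : B v v = 0) {u : V} (hu : ∀ g ∈ Q B v, g.1 u = u) :
    ∃ t : F, u = t • v := by
  have := hq.finite
  obtain ⟨f, hf0, hf⟩ := h.exists_partner hq hv hv0
  obtain ⟨c, hc0, hc⟩ := hq.exists_trace_ne_zero (map_zero σ)
  have h1 : B v u = 0 := by
    have h2 := hu _ (tv_mem_Q h hv0 hc)
    rw [tv_apply h hv0 hc, add_eq_left] at h2
    rcases smul_eq_zero.1 h2 with h3 | h3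
    · rcases mul_eq_zero.1 h3 with h4 | h4
      · exact absurd h4 hc0
      · exact h4
    · exact absurd h3 hv
  apply perp_perp h hf
  intro w hw
  obtain ⟨d, hd⟩ := hq.exists_trace (c := - B w w) (by rw [map_neg, h.symm])
  have hd' : d + σ d + B w w = 0 := by rw [hd, neg_add_cancel]
  have h2 := hu _ (si_mem_Q h hv0 hw hd')
  rw [si_apply h hv0 hw hd', h1, zero_smul, mul_zero, zero_sub, add_zero, add_eq_left] at h2
  rcases smul_eq_zero.1 h2 with h3 | h3
  · exact comm0 h (neg_eq_zero.1 h3)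
  · exact absurd h3 hv

theorem line_of_norm (hq : QConj σ q) (h : HForm B) {P : Sylow p (SUL B)} {v : V} (hv : v ≠ 0) (hv0 : B v v = 0)
    (hfix : ∀ g ∈ P, g.1 v = v) (hQ : Q B v ≤ P) {g : SUL B}
    (hg : g ∈ Subgroup.normalizer ((P : Subgroup (SUL B)) : Set (SUL B))) : ∃ t : F, t ≠ 0 ∧ g.1 v = t • v := by
  obtain ⟨t, ht⟩ := fixed_Q hq h hv hv0 (u := g.1 v) (by
    intro x hx
    have h1 : g⁻¹ * x * g ∈ (P : Subgroup (SUL B)) := by
      have := mem_norm (Subgroup.inv_mem _ hg) (hQ hx)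
      rwa [inv_inv] at this
    have h2 := hfix _ h1
    have h3 : (g * (g⁻¹ * x * g)).1 v = g.1 v := by rw [mul_apply', h2]
    have e : g * (g⁻¹ * x * g) = x * g := by group
    rw [e, mul_apply'] at h3
    exact h3)
  refine ⟨t, ?_, ht⟩
  rintro rfl
  rw [zero_smul] at ht
  exact apply_ne_zero g hv ht

end CfsgLib.H9SU
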