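import Cfsg.Agent.Lib.H9SUb
/-!
Unitary groups: the normalizer of a Sylow subgroup.
-/
set_option autoImplicit false
set_option maxHeartbeats 400000
set_option linter.unusedSectionVars false

namespace CfsgLib.H9SU

open Module CfsgLib.Herm CfsgLib.AutPSU CfsgLib.Fusion CfsgLib.H9SP CfsgLib.H9LF

variable {F V : Type*} [Field F] [AddCommGroup V] [Module F V] [FiniteDimensional F V]
  {σ : F →+* F} {q : ℕ} {B : V →ₛₗ[σ] V →ₗ[F] F} {p : ℕ} [Fact p.Prime] [CharP F p]

/-- the unipotent radical of the stabilizer of an isotropic subspace -/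
def QW (B : V →ₛₗ[σ] V →ₗ[F] F) (W : Submodule F V) : Subgroup (SUL B) where
  carrier := {g | (∀ x ∈ W, g.1 x = x) ∧ ∀ y, (∀ x ∈ W, B x y = 0) → g.1 y - y ∈ W}
  one_mem' := ⟨fun x _ => rfl, fun y _ => by rw [one_apply', sub_self]; exact W.zero_mem⟩
  mul_mem' := by
    rintro g h ⟨hg, hg'⟩ ⟨hh, hh'⟩
    refine ⟨fun x hx => by rw [mul_apply', hh x hx, hg x hx], fun y hy => ?_⟩
    have h1 := hh' y hy
    have h2 : g.1 (h.1 y - y) = h.1 y - y := hg _ h1
    rw [map_sub] at h2
    have h3 : (g * h).1 y - y = (h.1 y - y) + (g.1 y - y) := by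
      rw [mul_apply', ← h2]; abel
    rw [h3]
    exact W.add_mem h1 (hg' y hy)
  inv_mem' := by
    rintro g ⟨hg, hg'⟩
    have h0 : ∀ x ∈ W, (g⁻¹).1 x = x := fun x hx => inv_fix (hg x hx)
    refine ⟨h0, fun y hy => ?_⟩
    have h1 := hg' y hy
    have h2 := h0 _ h1
    rw [map_sub, inv_apply'] at h2
    have h3 : (g⁻¹).1 y - y = -(g.1 y - y) := by rw [← h2]; abel
    rw [h3]
    exact W.neg_mem h1

theorem isPGroup_QW [Nontrivial V] (W : Submodule F V) : IsPGroup p (QW B W) := by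
  rintro ⟨g, hg, hg'⟩
  refine ⟨2, Subtype.ext ?_⟩
  show g ^ (p ^ 2) = 1
  let N : V →ₗ[F] V := (g.1 : V →ₗ[F] V) - 1
  have hN : ∀ x, N x = g.1 x - x := fun x => rfl
  have h1 : N ^ 3 = 0 := by
    apply LinearMap.ext
    intro x
    rw [pow_succ, pow_two, LinearMap.zero_apply]
    change N (N (N x)) = 0
    have h2 : ∀ w ∈ W, B w (N x) = 0 := by
      intro w hw
      rw [hN, map_sub_right]
      nth_rewrite 1 [← hg w hw]
      rw [pres, sub_self]
    have h3 := hg' _ h2
    have h4 := hg _ h3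
    rw [hN (N (N x)), hN (N x), h4, sub_self]
  have h2 : (g.1 : V →ₗ[F] V) ^ (p ^ 2) = 1 := by
    have h3 : (g.1 : V →ₗ[F] V) = 1 + N := by simp only [N]; abel
    rw [h3]
    have : CharP (Module.End F V) p := charP_of_injective_algebraMap (algebraMap F (Module.End F V)).injective p
    rw [add_pow_char_pow_of_commute p 2 (Commute.one_left N), one_pow]
    have h4 : 3 ≤ p ^ 2 := by
      have := (Fact.out : p.Prime).two_le
      nlinarith
    rw [← Nat.sub_add_cancel h4, pow_add, h1, mul_zero, add_zero]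
  have h5 : ∀ (n : ℕ) (x : V), (g ^ n).1 x = ((g.1 : V →ₗ[F] V) ^ n) x := by
    intro n
    induction n with
    | zero => intro x; rfl
    | succ n ih => intro x; rw [pow_succ, mul_apply', ih, pow_succ]; rfl
  apply K_ext
  intro x
  rw [h5, h2]
  rfl

variable [Finite F]

theorem stab_inv {W : Submodule F V} {g : SUL B} (hg : ∀ x ∈ W, g.1 x ∈ W) : ∀ x ∈ W, (g⁻¹).1 x ∈ W := by
  have h1 : g⁻¹ = g ^ (orderOf g - 1) := by
    apply inv_eq_of_mul_eq_one_right
    rw [← pow_succ', Nat.sub_add_cancel (orderOf_pos g), pow_orderOf_eq_one]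
  rw [h1]
  generalize orderOf g - 1 = k
  induction k with
  | zero => intro x hx; rw [pow_zero, one_apply']; exact hx
  | succ k ih =>
    intro x hx
    rw [pow_succ, mul_apply']
    exact ih _ (hg x hx)

theorem norm_QW {W : Submodule F V} {g : SUL B} (hg : ∀ x ∈ W, g.1 x ∈ W) :
    g ∈ Subgroup.normalizer ((QW B W : Subgroup (SUL B)) : Set (SUL B)) := by
  have hgi := stab_inv hg
  apply mem_normalizer_of_conj_mem
  rintro s ⟨h1, h2⟩
  refine ⟨fun x hx => ?_, fun y hy => ?_⟩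
  · rw [mul_apply', mul_apply', h1 _ (hgi x hx), apply_inv']
  · have h3 := h2 ((g⁻¹).1 y) (fun x hx => by
      have := pres g x ((g⁻¹).1 y)
      rw [apply_inv'] at this
      rw [← this]
      exact hy _ (hg x hx))
    have h4 := hg _ h3
    rw [map_sub, apply_inv'] at h4
    rw [mul_apply', mul_apply']
    exact h4

theorem si_mem_QW (h : HForm B) {W : Submodule F V} (hiso : ∀ x ∈ W, ∀ y ∈ W, B x y = 0) {w b : V} (hw : w ∈ W)
    (hb : ∀ x ∈ W, B x b = 0) {c : F} (hc : c + σ c + B b b = 0) : si h w b c ∈ QW B W := by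
  refine ⟨fun x hx => ?_, fun y hy => ?_⟩
  · rw [si_apply h (hiso w hw w hw) (hb w hw) hc, hiso w hw x hx, comm0 h (hb x hx), zero_smul, mul_zero, sub_zero, zero_smul, add_zero, add_zero]
  · rw [si_apply h (hiso w hw w hw) (hb w hw) hc, hy w hw, zero_smul, mul_zero, add_zero, add_sub_cancel_left]
    exact W.smul_mem _ hw

theorem tv_mem_QW (h : HForm B) {W : Submodule F V} (hiso : ∀ x ∈ W, ∀ y ∈ W, B x y = 0) {w : V} (hw : w ∈ W) {c : F}
    (hc : c + σ c = 0) : tv h w c ∈ QW B W := by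
  refine ⟨fun x hx => ?_, fun y hy => ?_⟩
  · rw [tv_apply h (hiso w hw w hw) hc, hiso w hw x hx, mul_zero, zero_smul, add_zero]
  · rw [tv_apply h (hiso w hw w hw) hc, hy w hw, mul_zero, zero_smul, add_zero, sub_self]
    exact W.zero_mem

/-- `QW` is centric -/
theorem cent_QW (hq : QConj σ q) (h : HForm B) {W : Submodule F V} (hiso : ∀ x ∈ W, ∀ y ∈ W, B x y = 0) (hW : ∃ w ∈ W, w ≠ 0) {z : SUL B}
    {k : ℕ} (hk : z ^ (p ^ k) = 1) (hc : ∀ y ∈ QW B W, z * y = y * z) : z ∈ QW B W := by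
  have h1 : ∀ w ∈ W, z.1 w = w := by
    intro w hw
    by_cases hw0 : w = 0
    · rw [hw0, map_zero]
    have hww := hiso w hw w hw
    obtain ⟨c, hc0, hcc⟩ := hq.exists_trace_ne_zero (map_zero σ)
    have h2 := hc _ (tv_mem_QW h hiso hw hcc)
    have h3 : z * tv h w c * z⁻¹ = tv h w c := by rw [h2, mul_inv_cancel_right]
    rw [conj_tv h z hww hcc] at h3
    obtain ⟨x, hx⟩ := exists_B_one h hw0
    have h4 : (tv h (z.1 w) c).1 x = (tv h w c).1 x := by rw [h3]
    rw [tv_apply h (by rw [pres, hww]) hcc, tv_apply h hww hcc, hx, mul_one, add_right_inj] at h4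
    set b := c * B (z.1 w) x with hb
    have hb0 : b ≠ 0 := by
      intro h'
      rw [h', zero_smul] at h4
      rcases smul_eq_zero.1 h4.symm with h5 | h5
      · exact hc0 h5
      · exact hw0 h5
    refine AutPSU.fix_of_point (p := p) hw0 (a := b⁻¹ * c) ?_ hk
    calc z.1 w = b⁻¹ • (b • z.1 w) := by rw [smul_smul, inv_mul_cancel₀ hb0, one_smul]
      _ = (b⁻¹ * c) • w := by rw [h4, smul_smul]
  refine ⟨h1, fun b hb => ?_⟩
  obtain ⟨w, hw, hw0⟩ := hW
  have hww := hiso w hw w hw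
  obtain ⟨x, hx⟩ := exists_B_one h hw0
  obtain ⟨d, hd⟩ := hq.exists_trace (c := - B b b) (by rw [map_neg, h.symm])
  have hd' : d + σ d + B b b = 0 := by rw [hd, neg_add_cancel]
  have h2 := hc _ (si_mem_QW h hiso hw hb hd')
  have h3 : z * si h w b d * z⁻¹ = si h w b d := by rw [h2, mul_inv_cancel_right]
  rw [conj_si h z hww (hb w hw) hd', h1 w hw] at h3
  have hwb : B w (z.1 b) = 0 := by
    have := pres z w b
    rw [h1 w hw] at this
    rw [this, hb w hw]
  have h4 : (si h w (z.1 b) d).1 x = (si h w b d).1 x := by rw [h3]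
  rw [si_apply h hww hwb (by rw [pres, hd']), si_apply h hww (hb w hw) hd', hx, one_smul, one_smul] at h4
  have h5 : z.1 b - b = (B (z.1 b) x - B b x) • w := by
    have h6 := sub_eq_zero.2 h4
    rw [← sub_eq_zero, ← h6]
    module
  rw [h5]
  exact W.smul_mem _ hw

/-- an invariant totally isotropic plane -/
theorem exists_plane (hq : QConj σ q) (h : HForm B) (hV : 4 ≤ finrank F V) {P : Sylow p (SUL B)} {v : V} (hv : v ≠ 0) (hv0 : B v v = 0)
    (hfix : ∀ g ∈ P, g.1 v = v) :
    ∃ w : V, B v w = 0 ∧ B w w = 0 ∧ (∀ a : F, w ≠ a • v) ∧ ∀ g ∈ P, ∃ a : F, g.1 w = w + a • v := by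
  let ρ : (P : Subgroup (SUL B)) →* Module.End F V :=
    { toFun := fun g => (g.1.1 : V →ₗ[F] V)
      map_one' := rfl
      map_mul' := fun _ _ => rfl }
  have hρ : ∀ (g : (P : Subgroup (SUL B))) x, ρ g x = g.1.1 x := fun g x => rfl
  -- general step
  have step : ∀ Y : Submodule F V, v ∈ Y → 2 ≤ finrank F Y → (∀ g ∈ P, ∀ y ∈ Y, g.1 y ∈ Y) →
      ∃ w ∈ Y, (∀ a : F, w ≠ a • v) ∧ ∀ g ∈ P, ∃ a : F, g.1 w = w + a • v := by
    intro Y hvY hY hPY
    have hlt : Submodule.span F {v} < Y := by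
      refine lt_of_le_of_ne ?_ ?_
      · rwa [Submodule.span_singleton_le_iff_mem]
      · intro h'
        have h1 : finrank F (Submodule.span F {v}) = 1 := finrank_span_singleton hv
        rw [h'] at h1
        omega
    obtain ⟨w, hwY, hwU, hw⟩ := exists_fixed_mod (p := p) P.2 ρ hlt (fun g x hx => by
        obtain ⟨a, rfl⟩ := Submodule.mem_span_singleton.1 hx
        rw [map_smul, hρ, hfix g.1 g.2]
        exact Submodule.smul_mem _ _ (Submodule.mem_span_singleton_self v))
      (fun g x hx => by rw [hρ]; exact hPY g.1 g.2 x hx)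
    refine ⟨w, hwY, fun a h' => hwU ?_, fun g hg => ?_⟩
    · rw [h']; exact Submodule.smul_mem _ _ (Submodule.mem_span_singleton_self v)
    · obtain ⟨a, ha⟩ := Submodule.mem_span_singleton.1 (hw ⟨g, hg⟩)
      refine ⟨a, ?_⟩
      rw [ha, hρ]
      abel
  have hker : ∀ u : V, finrank F (LinearMap.ker (B u)) + 1 ≥ finrank F V := by
    intro u
    have h1 := LinearMap.finrank_range_add_finrank_ker (B u)
    have h2 : finrank F (LinearMap.range (B u)) ≤ 1 := by
      have := Submodule.finrank_le (LinearMap.range (B u))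
      rwa [Module.finrank_self] at this
    omega
  obtain ⟨u, huY, hu, hPu⟩ := step (LinearMap.ker (B v)) (LinearMap.mem_ker.2 hv0) (by have := hker v; omega) (fun g hg y hy => by
    rw [LinearMap.mem_ker] at hy ⊢
    have h1 := pres g v y
    rw [hfix g hg] at h1
    rw [h1, hy])
  have hvu : B v u = 0 := LinearMap.mem_ker.1 huY
  by_cases huu : B u u = 0
  · exact ⟨u, hvu, huu, hu, hPu⟩
  -- the orthogonal of `v`, `u`
  let L : V →ₗ[F] (Fin 2 → F) := LinearMap.pi ![B v, B u]
  have hL : ∀ x, x ∈ LinearMap.ker L ↔ B v x = 0 ∧ B u x = 0 := by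
    intro x
    rw [LinearMap.mem_ker]
    constructor
    · intro h'
      exact ⟨congrFun h' 0, congrFun h' 1⟩
    · rintro ⟨h', h''⟩
      ext i
      fin_cases i
      · exact h'
      · exact h''
  have hLd : 2 ≤ finrank F (LinearMap.ker L) := by
    have h3 := LinearMap.finrank_range_add_finrank_ker L
    have h4 : finrank F (LinearMap.range L) ≤ 2 := by
      have := Submodule.finrank_le (LinearMap.range L)
      rwa [Module.finrank_fin_fun] at this
    omega
  obtain ⟨w, hwY, hw, hPw⟩ := step (LinearMap.ker L) ((hL v).2 ⟨hv0, comm0 h hvu⟩) hLd (fun g hg y hy => by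
    obtain ⟨h1, h2⟩ := (hL y).1 hy
    obtain ⟨a, ha⟩ := hPu g hg
    have h3 : B v (g.1 y) = 0 := by
      have := pres g v y
      rw [hfix g hg] at this
      rw [this, h1]
    refine (hL _).2 ⟨h3, ?_⟩
    have h4 := pres g u y
    rw [ha, map_add_left, map_smul_left, h3, mul_zero, add_zero, h2] at h4
    exact h4)
  obtain ⟨hvw, huw⟩ := (hL w).1 hwY
  by_cases hww : B w w = 0
  · exact ⟨w, hvw, hww, hw, hPw⟩
  obtain ⟨c, hc⟩ := hq.exists_norm (c := - B u u / B w w) (by
    rw [map_div₀, map_neg, h.symm, h.symm])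
  refine ⟨u + c • w, ?_, ?_, ?_, ?_⟩
  · rw [map_add_right, map_smul_right, hvu, hvw, mul_zero, add_zero]
  · rw [map_add_left, map_add_right, map_add_right, map_smul_left, map_smul_left, map_smul_right, map_smul_right, huw,
      comm0 h huw, mul_zero, mul_zero, add_zero, zero_add, ← mul_assoc, mul_comm (σ c), hc, div_mul_cancel₀ _ hww,
      add_neg_cancel]
  · intro a ha
    have h1 := congrArg (B u) ha
    rw [map_add_right, map_smul_right, map_smul_right, huw, comm0 h hvu, mul_zero, mul_zero, add_zero] at h1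
    exact huu h1
  · intro g hg
    obtain ⟨a, ha⟩ := hPu g hg
    obtain ⟨b, hb⟩ := hPw g hg
    exact ⟨a + c * b, by rw [map_add, map_smul, ha, hb]; module⟩

theorem mem_plane {v w x : V} : x ∈ Submodule.span F {v, w} ↔ ∃ a b : F, x = a • v + b • w := by
  rw [Submodule.mem_span_pair]
  constructor
  · rintro ⟨a, b, h⟩; exact ⟨a, b, h.symm⟩
  · rintro ⟨a, b, h⟩; exact ⟨a, b, h.symm⟩

theorem plane_iso (h : HForm B) {v w : V} (hv0 : B v v = 0) (hw0 : B w w = 0) (hvw : B v w = 0) :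
    ∀ x ∈ Submodule.span F {v, w}, ∀ y ∈ Submodule.span F {v, w}, B x y = 0 := by
  intro x hx y hy
  obtain ⟨a, b, rfl⟩ := mem_plane.1 hx
  obtain ⟨c, d, rfl⟩ := mem_plane.1 hy
  simp only [map_add_left, map_add_right, map_smul_left, map_smul_right, hv0, hw0, hvw, comm0 h hvw, mul_zero, add_zero]

/-- dual vectors -/
theorem exists_dual (h : HForm B) {v w : V} (hw : ∀ a : F, w ≠ a • v) : ∃ f : V, B v f = 0 ∧ B f w = 1 := by
  have hwX : w ∉ Submodule.span F {v} := by
    intro h'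
    obtain ⟨a, ha⟩ := Submodule.mem_span_singleton.1 h'
    exact hw a ha.symm
  obtain ⟨r, hr, hrw⟩ := h.exists_orth_ne_zero hwX
  have h1 : B r v = 0 := hr v (Submodule.mem_span_singleton_self v)
  have h2 : B w r ≠ 0 := fun h' => hrw (comm0 h h')
  have h3 : B w ((B w r)⁻¹ • r) = 1 := by rw [map_smul_right, inv_mul_cancel₀ h2]
  exact ⟨(B w r)⁻¹ • r, by rw [map_smul_right, comm0 h h1, mul_zero], by rw [← h.symm, h3, map_one]⟩

end CfsgLib.H9SU
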