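import Cfsg.Agent.Lib.H9SUc
/-!
Unitary groups: the normalizer of a Sylow subgroup, II.
-/
set_option autoImplicit false
set_option maxHeartbeats 400000
set_option linter.unusedSectionVars false

namespace CfsgLib.H9SU

open Module CfsgLib.Herm CfsgLib.AutPSU CfsgLib.Fusion CfsgLib.H9SP CfsgLib.H9LF

variable {F V : Type*} [Field F] [AddCommGroup V] [Module F V] [FiniteDimensional F V]
  {σ : F →+* F} {q : ℕ} {B : V →ₛₗ[σ] V →ₗ[F] F} {p : ℕ} [Fact p.Prime] [CharP F p] [Finite F]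

/-- transvection-like elements on an isotropic plane -/
theorem exists_elem [Nontrivial V] (hq : QConj σ q) (h : HForm B) {W : Submodule F V} (hiso : ∀ x ∈ W, ∀ y ∈ W, B x y = 0) {a v : V} (haW : a ∈ W)
    (hvW : v ∈ W) (hav : ∀ t : F, v ≠ t • a) (s : F) : ∃ r ∈ Cl p (QW B W), r.1 v = v + s • a ∧ r.1 a = a := by
  obtain ⟨f, hf1, hf2⟩ := exists_dual h hav
  set b := σ (-s) • f with hb
  have h1 : B a b = 0 := by rw [hb, map_smul_right, hf1, mul_zero]
  have h2 : B b v = -s := by rw [hb, map_smul_left, hf2, mul_one, hq.invol]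
  clear_value b
  obtain ⟨d, hd⟩ := hq.exists_trace (c := - B b b) (by rw [map_neg, h.symm])
  have hd' : d + σ d + B b b = 0 := by rw [hd, neg_add_cancel]
  have haa := hiso a haW a haW
  have hx : ∀ x ∈ W, (si h a b d).1 x = x - B b x • a := by
    intro x hx
    rw [si_apply h haa h1 hd', hiso a haW x hx, zero_smul, mul_zero, zero_sub, neg_smul, add_zero, sub_eq_add_neg]
  refine ⟨si h a b d, si_mem_Cl h haa h1 hd' (norm_QW fun x hxW => ?_), ?_, ?_⟩
  · rw [hx x hxW]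
    exact W.sub_mem hxW (W.smul_mem _ haW)
  · rw [hx v hvW, h2, neg_smul, sub_neg_eq_add]
  · rw [hx a haW, comm0 h h1, zero_smul, sub_zero]

theorem exists_torus [Nontrivial V] (hq : QConj σ q) (h : HForm B) {v w : V} (hv : v ≠ 0) (hv0 : B v v = 0) (hw0 : B w w = 0) (hvw : B v w = 0)
    (hw : ∀ a : F, w ≠ a • v) {t : F} (ht : t ≠ 0) :
    ∃ r ∈ Cl p (QW B (Submodule.span F {v, w})), r.1 v = t • v := by
  have hwne : w ≠ 0 := fun h' => hw 0 (by rw [h', zero_smul])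
  have hv' : ∀ a : F, v ≠ a • w := by
    intro a h'
    have ha : a ≠ 0 := by rintro rfl; rw [zero_smul] at h'; exact hv h'
    exact hw a⁻¹ (by rw [h', smul_smul, inv_mul_cancel₀ ha, one_smul])
  have hiso := plane_iso h hv0 hw0 hvw
  have hvm : v ∈ Submodule.span F {v, w} := mem_plane.2 ⟨1, 0, by rw [one_smul, zero_smul, add_zero]⟩
  have hwm : w ∈ Submodule.span F {v, w} := mem_plane.2 ⟨0, 1, by rw [one_smul, zero_smul, zero_add]⟩
  obtain ⟨r1, m1, a1, b1⟩ := exists_elem (p := p) hq h hiso hwm hvm hv' 1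
  obtain ⟨r2, m2, a2, b2⟩ := exists_elem (p := p) hq h hiso hvm hwm hw (t - 1)
  obtain ⟨r3, m3, a3, b3⟩ := exists_elem (p := p) hq h hiso hwm hvm hv' (-t⁻¹)
  refine ⟨r3 * (r2 * r1), mul_mem m3 (mul_mem m2 m1), ?_⟩
  rw [mul_apply', mul_apply', a1, map_add, map_smul, a2, b2, one_smul, map_add, map_add, map_smul, a3, b3]
  have e : v + -t⁻¹ • w + (w + (t - 1) • (v + -t⁻¹ • w)) = t • v + (1 - t * t⁻¹) • w := by module
  rw [e, mul_inv_cancel₀ ht, sub_self, zero_smul, add_zero]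

theorem hB_SU (hq : QConj σ q) (h : HForm B) (hV : 4 ≤ finrank F V) {P : Sylow p (SUL B)} {v : V} (hv : v ≠ 0) (hv0 : B v v = 0)
    (hfix : ∀ g ∈ P, g.1 v = v) (hQ : Q B v ≤ P) :
    Subgroup.normalizer ((P : Subgroup (SUL B)) : Set (SUL B)) ≤
      Subgroup.closure (((P : Subgroup (SUL B)) : Set (SUL B)) ∪ ((Subgroup.center (SUL B) : Subgroup (SUL B)) : Set (SUL B)) ∪
        Adm p (P : Subgroup (SUL B))) := by
  have hnt : Nontrivial V := Module.nontrivial_of_finrank_pos (R := F) (by omega)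
  intro g hg
  obtain ⟨t, ht, hgt⟩ := line_of_norm hq h hv hv0 hfix hQ hg
  obtain ⟨w, hvw, hw0, hw, hPw⟩ := exists_plane hq h hV hv hv0 hfix
  set W := Submodule.span F {v, w} with hW
  have hiso := plane_iso h hv0 hw0 hvw
  have hPW : ∀ x ∈ (P : Subgroup (SUL B)), ∀ y ∈ W, x.1 y ∈ W := by
    intro x hx y hy
    obtain ⟨a, b, rfl⟩ := mem_plane.1 hy
    obtain ⟨c, hc⟩ := hPw x hx
    rw [map_add, map_smul, map_smul, hfix x hx, hc]
    exact mem_plane.2 ⟨a + b * c, b, by module⟩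
  have hPN : (P : Subgroup (SUL B)) ≤ Subgroup.normalizer ((QW B W : Subgroup (SUL B)) : Set (SUL B)) := fun x hx => norm_QW (hPW x hx)
  have hQW : QW B W ≤ (P : Subgroup (SUL B)) := le_of_normalized P (isPGroup_QW W) hPN
  have hPpow : ∀ x ∈ (P : Subgroup (SUL B)), ∃ k : ℕ, x ^ p ^ k = 1 := fun x hx => by
    obtain ⟨k, hk⟩ := P.2 ⟨x, hx⟩
    exact ⟨k, congrArg Subtype.val hk⟩
  have hPR : (P : Subgroup (SUL B)) ≤ Cl p (QW B W) := fun x hx => Subgroup.subset_closure ⟨hPN hx, hPpow x hx⟩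
  obtain ⟨r, hr, hrv⟩ := exists_torus (p := p) hq h hv hv0 hw0 hvw hw ht
  have hriv : (r⁻¹).1 v = t⁻¹ • v := by
    apply r.1.injective
    rw [apply_inv', map_smul, hrv, smul_smul, inv_mul_cancel₀ ht, one_smul]
  obtain ⟨k, hk, hkr⟩ := frattini_adm P (K := Cl p (QW B W) ⊓ Fix (Submodule.span F {v})) (r := r) (le_inf hPR (by
      intro x hx y hy
      obtain ⟨a, rfl⟩ := Submodule.mem_span_singleton.1 hy
      rw [map_smul, hfix x hx])) (by
      intro x hx
      refine ⟨(Cl p (QW B W)).mul_mem ((Cl p (QW B W)).mul_mem hr (hPR hx)) ((Cl p (QW B W)).inv_mem hr), ?_⟩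
      intro y hy
      obtain ⟨a, rfl⟩ := Submodule.mem_span_singleton.1 hy
      rw [mul_apply', mul_apply', map_smul, hriv, map_smul, map_smul, map_smul, map_smul, hfix x hx, hrv, smul_smul,
        smul_smul, mul_assoc, inv_mul_cancel₀ ht, mul_one])
  have hkv : k.1 v = v := hk.2 v (Submodule.mem_span_singleton_self v)
  have hkrv : (k * r).1 v = t • v := by rw [mul_apply', hrv, map_smul, hkv]
  have hadm : k * r ∈ Adm p (P : Subgroup (SUL B)) := by
    refine ⟨hkr, QW B W, hQW, hPN, ?_, mul_mem hk.1 hr⟩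
    intro z hz hzc
    obtain ⟨l, hl⟩ := hPpow z hz
    exact cent_QW hq h hiso ⟨v, Submodule.subset_span (Set.mem_insert _ _), hv⟩ hl hzc
  have hadm2 : (k * r)⁻¹ * g ∈ Adm p (P : Subgroup (SUL B)) := by
    apply stab_adm hq h hV hv hv0 hfix hQ (Subgroup.mul_mem _ (Subgroup.inv_mem _ hkr) hg)
    rw [mul_apply', hgt, ← hkrv, inv_apply']
  have e : g = (k * r) * ((k * r)⁻¹ * g) := by group
  rw [e]
  exact Subgroup.mul_mem _ (Subgroup.subset_closure (Or.inr hadm)) (Subgroup.subset_closure (Or.inr hadm2))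

end CfsgLib.H9SU
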