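import Cfsg.Agent.Lib.H9SUd
/-!
Unitary groups: strongly closed subgroups.
-/
set_option autoImplicit false
set_option maxHeartbeats 400000
set_option linter.unusedSectionVars false

namespace CfsgLib.H9SU

open Module CfsgLib.Herm CfsgLib.AutPSU CfsgLib.Fusion CfsgLib.H9SP CfsgLib.H9LF

variable {F V : Type*} [Field F] [AddCommGroup V] [Module F V] [FiniteDimensional F V]
  {σ : F →+* F} {q : ℕ} {B : V →ₛₗ[σ] V →ₗ[F] F} {p : ℕ} [Fact p.Prime] [CharP F p] [Finite F]

theorem tv_smul (h : HForm B) {v : V} (hv0 : B v v = 0) (a : F) {c : F} (hc : c + σ c = 0)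
    (hc' : c * (a * σ a) + σ (c * (a * σ a)) = 0) : tv h (a • v) c = tv h v (c * (a * σ a)) := by
  apply K_ext
  intro x
  rw [tv_apply h (by rw [map_smul_left, map_smul_right, hv0, mul_zero, mul_zero]) hc, tv_apply h hv0 hc', map_smul_left]
  module

theorem trace_mul (hq : QConj σ q) {c n : F} (hc : c + σ c = 0) (hn : σ n = n) : c * n + σ (c * n) = 0 := by
  rw [map_mul, hn, ← add_mul, hc, zero_mul]

theorem tv_all (hq : QConj σ q) (h : HForm B) (hV : 4 ≤ finrank F V) {P : Sylow p (SUL B)} {v : V} (hv : v ≠ 0) (hv0 : B v v = 0)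
    (hQ : Q B v ≤ P) {T : Subgroup (SUL B)}
    (hsc : ∀ x ∈ T, ∀ g : SUL B, g * x * g⁻¹ ∈ (P : Subgroup (SUL B)) → g * x * g⁻¹ ∈ T) {c : F} (hc0 : c ≠ 0) (hc : c + σ c = 0)
    (hT : tv h v c ∈ T) {d : F} (hd : d + σ d = 0) : tv h v d ∈ T := by
  by_cases hd0 : d = 0
  · rw [hd0, tv_zero]; exact T.one_mem
  have hfix : σ (d / c) = d / c := by
    rw [map_div₀, show σ d = -d by linear_combination hd, show σ c = -c by linear_combination hc, neg_div_neg_eq]
  obtain ⟨a, ha0, ha⟩ := hq.exists_norm_ne hfix (div_ne_zero hd0 hc0)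
  obtain ⟨g, hgS, hg⟩ := exists_SUL_isotropic hq h (by omega) hv hv0 (e' := a • v) (smul_ne_zero ha0 hv)
    (by rw [map_smul_left, map_smul_right, hv0, mul_zero, mul_zero])
  have e1 : c * (a * σ a) = d := by rw [ha]; field_simp
  have e2 : (⟨g, hgS⟩ : SUL B) * tv h v c * (⟨g, hgS⟩ : SUL B)⁻¹ = tv h v d := by
    rw [conj_tv h _ hv0 hc]
    show tv h (g v) c = _
    rw [hg, tv_smul h hv0 a hc (by rw [e1]; exact hd), e1]
  rw [← e2]
  apply hsc _ hT
  rw [e2]
  exact hQ (tv_mem_Q h hv0 hd)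

theorem tv_any (hq : QConj σ q) (h : HForm B) (hV : 4 ≤ finrank F V) {P : Sylow p (SUL B)} {v : V} (hv : v ≠ 0) (hv0 : B v v = 0)
    {T : Subgroup (SUL B)}
    (hsc : ∀ x ∈ T, ∀ g : SUL B, g * x * g⁻¹ ∈ (P : Subgroup (SUL B)) → g * x * g⁻¹ ∈ T)
    (hT : ∀ d, d + σ d = 0 → tv h v d ∈ T) {u : V} (hu0 : B u u = 0) {d : F} (hd : d + σ d = 0)
    (hu : tv h u d ∈ (P : Subgroup (SUL B))) : tv h u d ∈ T := by
  by_cases hune : u = 0
  · have : tv h u d = 1 := by
      apply K_ext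
      intro x
      rw [tv_apply h hu0 hd, hune, smul_zero, add_zero, one_apply']
    rw [this]; exact T.one_mem
  obtain ⟨g, hgS, hg⟩ := exists_SUL_isotropic hq h (by omega) hv hv0 hune hu0
  have e2 : (⟨g, hgS⟩ : SUL B) * tv h v d * (⟨g, hgS⟩ : SUL B)⁻¹ = tv h u d := by
    rw [conj_tv h _ hv0 hd]
    show tv h (g v) d = _
    rw [hg]
  rw [← e2] at hu ⊢
  exact hsc _ (hT d hd) _ hu

/-- the vectors `y` with all Siegel elements on `(v, F y)` in `T` -/
def D (h : HForm B) (v : V) (T : Subgroup (SUL B)) (y : V) : Prop :=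
  B v y = 0 ∧ ∀ l c : F, c + σ c + B (l • y) (l • y) = 0 → si h v (l • y) c ∈ T

theorem D.smul {h : HForm B} {v : V} {T : Subgroup (SUL B)} {y : V} (hy : D h v T y) (m : F) : D h v T (m • y) := by
  refine ⟨by rw [map_smul_right, hy.1, mul_zero], fun l c hc => ?_⟩
  rw [smul_smul] at hc ⊢
  exact hy.2 _ c hc

theorem D.add {h : HForm B} (hq : QConj σ q) {v : V} (hv0 : B v v = 0) {T : Subgroup (SUL B)} {y y' : V} (hy : D h v T y) (hy' : D h v T y') :
    D h v T (y + y') := by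
  refine ⟨by rw [map_add_right, hy.1, hy'.1, add_zero], fun l c hc => ?_⟩
  obtain ⟨c₁, hc₁⟩ := hq.exists_trace (c := - B (l • y) (l • y)) (by rw [map_neg, h.symm])
  have hc₁' : c₁ + σ c₁ + B (l • y) (l • y) = 0 := by rw [hc₁, neg_add_cancel]
  have hc₂ : (c - c₁ + B (l • y) (l • y')) + σ (c - c₁ + B (l • y) (l • y')) + B (l • y') (l • y') = 0 := by
    rw [smul_add, map_add_left, map_add_right, map_add_right] at hc
    rw [map_add, map_sub, h.symm (l • y) (l • y')]
    linear_combination hc - hc₁'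
  have h1 := T.mul_mem (hy.2 l c₁ hc₁') (hy'.2 l _ hc₂)
  rw [si_mul h hv0 (by rw [map_smul_right, hy.1, mul_zero]) hc₁' (by rw [map_smul_right, hy'.1, mul_zero]) hc₂, ← smul_add] at h1
  have e : c₁ + (c - c₁ + B (l • y) (l • y')) - B (l • y) (l • y') = c := by ring
  rw [e] at h1
  exact h1

theorem D.of_tv {h : HForm B} {v : V} (hv0 : B v v = 0) {T : Subgroup (SUL B)}
    (hT : ∀ d, d + σ d = 0 → tv h v d ∈ T) {y : V} (hvy : B v y = 0)
    (hy : ∀ l : F, ∃ c : F, c + σ c + B (l • y) (l • y) = 0 ∧ si h v (l • y) c ∈ T) : D h v T y := by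
  refine ⟨hvy, fun l c hc => ?_⟩
  obtain ⟨c', hc', hs⟩ := hy l
  have hd : (c - c') + σ (c - c') = 0 := by rw [map_sub]; linear_combination hc - hc'
  have h1 := T.mul_mem hs (hT _ hd)
  rw [← si_zero h hv0 hd, si_mul h hv0 (by rw [map_smul_right, hvy, mul_zero]) hc' (map_zero _) (by rw [map_zero, add_zero, hd]), add_zero,
    map_zero, sub_zero, add_sub_cancel] at h1
  exact h1

theorem D.self {h : HForm B} (hq : QConj σ q) {v : V} (hv0 : B v v = 0) {T : Subgroup (SUL B)}
    (hT : ∀ d, d + σ d = 0 → tv h v d ∈ T) : D h v T v := by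
  refine ⟨hv0, fun l c hc => ?_⟩
  have hc0 : B (l • v) (l • v) = 0 := by rw [map_smul_left, map_smul_right, hv0, mul_zero, mul_zero]
  have hd : (c + l - σ l) + σ (c + l - σ l) = 0 := by
    rw [map_sub, map_add, hq.invol]
    rw [hc0, add_zero] at hc
    linear_combination hc
  have e : si h v (l • v) c = tv h v (c + l - σ l) := by
    apply K_ext
    intro x
    rw [si_apply h hv0 (by rw [map_smul_right, hv0, mul_zero]) hc, tv_apply h hv0 hd, map_smul_left]
    module
  rw [e]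
  exact hT _ hd

theorem D.conj {h : HForm B} {P : Sylow p (SUL B)} {v : V} (hv0 : B v v = 0) (hQ : Q B v ≤ P) {T : Subgroup (SUL B)}
    (hsc : ∀ x ∈ T, ∀ g : SUL B, g * x * g⁻¹ ∈ (P : Subgroup (SUL B)) → g * x * g⁻¹ ∈ T) {y : V} (hy : D h v T y) {k : SUL B}
    (hk : k.1 v = v) : D h v T (k.1 y) := by
  have hvk : B v (k.1 y) = 0 := by
    have := pres k v y
    rw [hk] at this
    rw [this, hy.1]
  refine ⟨hvk, fun l c hc => ?_⟩
  have hc' : c + σ c + B (l • y) (l • y) = 0 := by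
    rw [← map_smul, pres] at hc
    exact hc
  have e : k * si h v (l • y) c * k⁻¹ = si h v (l • k.1 y) c := by
    rw [conj_si h k hv0 (by rw [map_smul_right, hy.1, mul_zero]) hc', hk, map_smul]
  rw [← e]
  apply hsc _ (hy.2 l c hc')
  rw [e]
  exact hQ (si_mem_Q h hv0 (by rw [map_smul_right, hvk, mul_zero]) hc)

theorem D.move {h : HForm B} (hq : QConj σ q) {P : Sylow p (SUL B)} {v : V} (hv0 : B v v = 0) (hQ : Q B v ≤ P) {T : Subgroup (SUL B)}
    (hsc : ∀ x ∈ T, ∀ g : SUL B, g * x * g⁻¹ ∈ (P : Subgroup (SUL B)) → g * x * g⁻¹ ∈ T) {y u : V} (hy : D h v T y)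
    (hvu : B v u = 0) (huu : B u u = 0) (huy : B u y ≠ 0) : D h v T u := by
  obtain ⟨c, hc0, hc⟩ := hq.exists_trace_ne_zero (map_zero σ)
  have hk : (tv h u c).1 v = v := by
    rw [tv_apply h huu hc, comm0 h hvu, mul_zero, zero_smul, add_zero]
  have h1 := D.conj hv0 hQ hsc hy hk
  rw [tv_apply h huu hc] at h1
  have h2 := D.add hq hv0 h1 (hy.smul (-1))
  have e : y + (c * B u y) • u + (-1 : F) • y = (c * B u y) • u := by module
  rw [e] at h2
  have h3 := h2.smul (c * B u y)⁻¹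
  rwa [smul_smul, inv_mul_cancel₀ (mul_ne_zero hc0 huy), one_smul] at h3

/-- in a totally isotropic plane -/
theorem si_of_tv (hq : QConj σ q) (h : HForm B) {v w : V} (hv0 : B v v = 0) (hw0 : B w w = 0) (hvw : B v w = 0) {c : F} (hc0 : c ≠ 0)
    (hc : c + σ c = 0) (a : F) : tv h (v + a • w) c * tv h v (-c) * tv h w (-(c * (a * σ a))) = si h v ((c * a) • w) 0 := by
  have hwv := comm0 h hvw
  have hva : B (v + a • w) (v + a • w) = 0 := by
    rw [map_add_left, map_add_right, map_add_right, map_smul_left, map_smul_left, map_smul_right, map_smul_right, hv0, hw0, hvw, hwv]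
    ring
  have h1 : -c + σ (-c) = 0 := by rw [map_neg]; linear_combination -hc
  have h2 : -(c * (a * σ a)) + σ (-(c * (a * σ a))) = 0 := by
    have := trace_mul hq hc (hq.norm_fixed a)
    rw [map_neg]; linear_combination -this
  have h3 : B ((c * a) • w) ((c * a) • w) = 0 := by rw [map_smul_left, map_smul_right, hw0, mul_zero, mul_zero]
  apply K_ext
  intro x
  rw [mul_apply', mul_apply', tv_apply h hw0 h2, tv_apply h hv0 h1, tv_apply h hva hc,
    si_apply h hv0 (by rw [map_smul_right, hvw, mul_zero]) (by rw [map_zero, h3, add_zero, add_zero])]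
  simp only [map_add_left, map_add_right, map_smul_left, map_smul_right, hv0, hw0, hvw, hwv, mul_zero, add_zero, zero_mul, map_mul,
    show σ c = -c by linear_combination hc]
  module

end CfsgLib.H9SU
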