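import Cfsg.Agent.Lib.H9SUe
import Cfsg.Agent.Lib.H9LFg
import Cfsg.Agent.Lib.AutPSU10
/-!
Unitary groups: strongly closed subgroups, II.
-/
set_option autoImplicit false
set_option maxHeartbeats 400000
set_option linter.unusedSectionVars false

namespace CfsgLib.H9SU

open Module Cfsg CfsgLib.Herm CfsgLib.AutPSU CfsgLib.Fusion CfsgLib.H9SP CfsgLib.H9LF

variable {F V : Type*} [Field F] [AddCommGroup V] [Module F V] [FiniteDimensional F V]
  {σ : F →+* F} {q : ℕ} {B : V →ₛₗ[σ] V →ₗ[F] F} {p : ℕ} [Fact p.Prime] [CharP F p] [Finite F]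

theorem hA_SU (hq : QConj σ q) (h : HForm B) (hV : 4 ≤ finrank F V) {P : Sylow p (SUL B)} {v : V} (hv : v ≠ 0) (hv0 : B v v = 0)
    (hfix : ∀ g ∈ P, g.1 v = v) (hQ : Q B v ≤ P) (T : Subgroup (SUL B)) (hTP : T ≤ (P : Subgroup (SUL B))) (hT1 : T ≠ ⊥)
    (hsc : ∀ x ∈ T, ∀ g : SUL B, g * x * g⁻¹ ∈ (P : Subgroup (SUL B)) → g * x * g⁻¹ ∈ T) : T = (P : Subgroup (SUL B)) := by
  have hnt : Nontrivial V := Module.nontrivial_of_finrank_pos (R := F) (by omega)
  obtain ⟨z, hzT, hz1, hzc⟩ := exists_central_mem P.2 hTP hT1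
    (fun x hx g hg => hsc x hx g (P.mul_mem (P.mul_mem hg (hTP hx)) (P.inv_mem hg)))
  obtain ⟨c, hc, rfl⟩ := central_form hq h hv hv0 (hfix z (hTP hzT)) fun g hg => hzc g (hQ hg)
  have hc0 : c ≠ 0 := by rintro rfl; exact hz1 (tv_zero h v)
  have h1 : ∀ d, d + σ d = 0 → tv h v d ∈ T := fun d hd => tv_all hq h hV hv hv0 hQ hsc hc0 hc hzT hd
  have h2 : ∀ {u : V} {d : F}, B u u = 0 → d + σ d = 0 → tv h u d ∈ (P : Subgroup (SUL B)) → tv h u d ∈ T :=
    fun hu hd hm => tv_any hq h hV hv hv0 hsc h1 hu hd hm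
  obtain ⟨w, hvw, hw0, hw, hPw⟩ := exists_plane hq h hV hv hv0 hfix
  set W := Submodule.span F {v, w} with hW
  have hiso := plane_iso h hv0 hw0 hvw
  have hPW : ∀ x ∈ (P : Subgroup (SUL B)), ∀ y ∈ W, x.1 y ∈ W := by
    intro x hx y hy
    obtain ⟨a, b, rfl⟩ := mem_plane.1 hy
    obtain ⟨c, hc⟩ := hPw x hx
    rw [map_add, map_smul, map_smul, hfix x hx, hc]
    exact mem_plane.2 ⟨a + b * c, b, by module⟩
  have hPN : (P : Subgroup (SUL B)) ≤ Subgroup.normalizer ((QW B W : Subgroup (SUL B)) : Set (SUL B)) := fun x hx => norm_QW (hPW x hx)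
  have hQW : QW B W ≤ (P : Subgroup (SUL B)) := le_of_normalized P (isPGroup_QW W) hPN
  have hvm : v ∈ W := mem_plane.2 ⟨1, 0, by rw [one_smul, zero_smul, add_zero]⟩
  have hwm : w ∈ W := mem_plane.2 ⟨0, 1, by rw [one_smul, zero_smul, zero_add]⟩
  have hQWT : ∀ u ∈ W, ∀ d, d + σ d = 0 → tv h u d ∈ T := fun u hu d hd =>
    h2 (hiso u hu u hu) hd (hQW (tv_mem_QW h hiso hu hd))
  -- the plane
  have hDw : D h v T w := by
    apply D.of_tv hv0 h1 hvw
    intro l
    refine ⟨0, by rw [map_zero, map_smul_left, map_smul_right, hw0, mul_zero, mul_zero, add_zero, add_zero], ?_⟩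
    have e : l • w = (c * (c⁻¹ * l)) • w := by rw [mul_inv_cancel_left₀ hc0]
    rw [e, ← si_of_tv hq h hv0 hw0 hvw hc0 hc]
    refine T.mul_mem (T.mul_mem (hQWT _ (W.add_mem hvm (W.smul_mem _ hwm)) _ hc) (hQWT _ hvm _ ?_)) (hQWT _ hwm _ ?_)
    · rw [map_neg]; linear_combination -hc
    · have := trace_mul hq hc (hq.norm_fixed (c⁻¹ * l))
      rw [map_neg]; linear_combination -this
  have hDv : D h v T v := D.self hq hv0 h1
  -- isotropic vectors
  have hDi : ∀ u, B v u = 0 → B u u = 0 → D h v T u := by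
    intro u hvu huu
    by_cases hu : ∃ t : F, u = t • v
    · obtain ⟨t, rfl⟩ := hu
      exact hDv.smul t
    push Not at hu
    have hns : ∀ u : V, (∀ a : F, u ≠ a • v) → u ∉ Submodule.span F {v} := by
      intro u hu h'
      obtain ⟨a, ha⟩ := Submodule.mem_span_singleton.1 h'
      exact hu a ha.symm
    have hXv : ∀ u : V, B v u = 0 → ∀ x ∈ Submodule.span F {v}, B x u = 0 := by
      intro u hu x hx
      obtain ⟨a, rfl⟩ := Submodule.mem_span_singleton.1 hx
      rw [map_smul_left, hu, mul_zero]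
    obtain ⟨a, ha1, ha2, ha3⟩ := exists_partner_in hq h (hns w hw) hw0 (hXv w hvw)
    obtain ⟨b, hb1, hb2, hb3⟩ := exists_partner_in hq h (hns u hu) huu (hXv u hvu)
    have ha1' : B v a = 0 := ha1 v (Submodule.mem_span_singleton_self v)
    have hb1' : B v b = 0 := hb1 v (Submodule.mem_span_singleton_self v)
    have haw : B a w = 1 := by rw [← h.symm, ha3, map_one]
    have hx : ∃ x, B v x = 0 ∧ B x x = 0 ∧ B x w ≠ 0 ∧ B u x ≠ 0 := by
      by_cases hua : B u a = 0
      · by_cases hbw : B b w = 0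
        · obtain ⟨t, ht0, ht⟩ := exists_isotropic_comb hq h ha2 hb2
          refine ⟨a + t • b, by rw [map_add_right, map_smul_right, ha1', hb1', mul_zero, add_zero], ht, ?_, ?_⟩
          · rw [map_add_left, map_smul_left, haw, hbw, mul_zero, add_zero]; exact one_ne_zero
          · rw [map_add_right, map_smul_right, hua, hb3, mul_one, zero_add]; exact ht0
        · exact ⟨b, hb1', hb2, hbw, by rw [hb3]; exact one_ne_zero⟩
      · exact ⟨a, ha1', ha2, by rw [haw]; exact one_ne_zero, hua⟩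
    obtain ⟨x, hx1, hx2, hx3, hx4⟩ := hx
    exact D.move hq hv0 hQ hsc (D.move hq hv0 hQ hsc hDw hx1 hx2 hx3) hvu huu hx4
  obtain ⟨f, hf0, hf⟩ := h.exists_partner hq hv hv0
  have hh' := hpp_hform hq h hv0 hf0 hf
  have hdim := finrank_hpp hq h hv0 hf0 hf
  have hDall : ∀ y, B v y = 0 → D h v T y := by
    intro y hy
    have h3 := hpp_decomp h hv0 hf0 hf y
    rw [hy, zero_smul, sub_zero] at h3
    have h4 : ∀ z : hpp B v f, D h v T z.1 := by
      intro z
      refine isotropic_induction hq hh' (by omega) (P := fun z => D h v T z.1) ?_ ?_ z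
      · intro z hz
        exact hDi z.1 (mem_hpp.1 z.2).1 hz
      · intro a b ha hb
        exact D.add hq hv0 ha hb
    have h5 := D.add hq hv0 (h4 ⟨_, h3⟩) (hDv.smul (B f y))
    have e : y - B f y • v + B f y • v = y := by abel
    rwa [e] at h5
  apply le_antisymm hTP
  apply gen_sylow hq h
  rintro a ha haa g ⟨hgQ, hgP⟩
  obtain ⟨u, d, hu, hd, rfl⟩ := si_of_Q hq h ha haa hgQ
  obtain ⟨k, hkS, hk⟩ := exists_SUL_isotropic hq h (by omega) hv hv0 ha haa
  set k' : SUL B := ⟨k, hkS⟩ with hk'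
  have hkv : k'.1 v = a := hk
  have h5 : B v ((k'⁻¹).1 u) = 0 := by rw [← pres k', hkv, apply_inv', hu]
  have h6 : d + σ d + B ((k'⁻¹).1 u) ((k'⁻¹).1 u) = 0 := by rw [pres, hd]
  have e : si h a u d = k' * si h v ((k'⁻¹).1 u) d * k'⁻¹ := by rw [conj_si h k' hv0 h5 h6, hkv, apply_inv']
  rw [e] at hgP ⊢
  refine hsc _ ?_ k' hgP
  have h7 := (hDall _ h5).2 1 d (by rw [one_smul]; exact h6)
  rwa [one_smul] at h7

theorem simple_SU (hq : QConj σ q) (h : HForm B) (hV : 4 ≤ finrank F V) {H : Type*} [Group H] [Finite H] (π : SUL B →* H)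
    (hπ : Function.Surjective π) (hker : π.ker = Subgroup.center (SUL B)) (S : Sylow p H) :
    (groupFusionSystem (S : Subgroup H)).IsSimple p := by
  have hnt : Nontrivial V := Module.nontrivial_of_finrank_pos (R := F) (by omega)
  let P : Sylow p (SUL B) := Classical.arbitrary _
  obtain ⟨v, hv, hv0, hfix⟩ := exists_fixed_isotropic hq h (by omega) (P : Subgroup (SUL B)) P.2
  have hQ : Q B v ≤ (P : Subgroup (SUL B)) := le_of_normalized P (isPGroup_Q v) fun g hg => norm_Q' (hfix g hg)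
  refine crit3 (A := SUL B) π hπ (by rw [hker]) ?_ (S₀ := (P : Subgroup (SUL B))) P.2 ?_ ?_ ?_ ?_ S
  · intro z hz k hk
    rw [hker] at hz
    exact center_p h hq (by omega) hz hk
  · intro h0
    obtain ⟨c, hc0, hc⟩ := hq.exists_trace_ne_zero (map_zero σ)
    have h1 : tv h v c ∈ (P : Subgroup (SUL B)) := hQ (tv_mem_Q h hv0 hc)
    rw [h0, Subgroup.mem_bot] at h1
    obtain ⟨f, hf⟩ := exists_B_one h hv
    have h2 : (tv h v c).1 f = (1 : SUL B).1 f := by rw [h1]
    rw [tv_apply h hv0 hc, one_apply', add_eq_left, hf, mul_one] at h2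
    rcases smul_eq_zero.1 h2 with h3 | h3
    · exact hc0 h3
    · exact hv h3
  · intro y hy k hk
    exact sylow_hN P hy hk
  · exact hA_SU hq h hV hv hv0 hfix hQ
  · have := hB_SU hq h hV hv hv0 hfix hQ
    rw [hker]
    exact this

theorem s5172 {K : Type*} [Field K] [Fintype K] (p q : ℕ) [Fact p.Prime] [CharP K p] (hK : Fintype.card K = q ^ 2) (n : ℕ) (hn : 4 ≤ n)
    (S : Sylow p (Cfsg.PSU n K q)) : (groupFusionSystem (S : Subgroup (Cfsg.PSU n K q))).IsSimple p := by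
  obtain ⟨σ, hq⟩ := exists_sigma (F := K) (q := q) (by rw [Nat.card_eq_fintype_card, hK])
  have hfr : finrank K (Fin n → K) = n := by simp
  let π : SUL (stdH σ n) →* Cfsg.PSU n K q := (QuotientGroup.mk' (Subgroup.center (SU n K q))).comp (SUEquiv hq n).symm.toMonoidHom
  have hfin : Finite (SU n K q) := Finite.of_equiv _ (SUEquiv hq n).symm.toEquiv
  refine simple_SU hq (stdH_hform hq n) (by rw [hfr]; exact hn) π ?_ ?_ S
  · intro x
    obtain ⟨y, rfl⟩ := QuotientGroup.mk_surjective x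
    refine ⟨SUEquiv hq n y, ?_⟩
    show QuotientGroup.mk ((SUEquiv hq n).symm (SUEquiv hq n y)) = _
    rw [MulEquiv.symm_apply_apply]
  · ext x
    rw [MonoidHom.mem_ker]
    show (QuotientGroup.mk ((SUEquiv hq n).symm x) : SU n K q ⧸ Subgroup.center (SU n K q)) = 1 ↔ _
    rw [QuotientGroup.eq_one_iff, SUEquiv_mem_center hq, MulEquiv.apply_symm_apply]

end CfsgLib.H9SU
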