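import Cfsg.Agent.Lib.Core
import Cfsg.Agent.Lib.Transfer
set_option autoImplicit false
set_option maxHeartbeats 400000

/-! transfer with control modulo a subgroup. -/

namespace CfsgLib.H9Tr

open Subgroup MonoidHom MulAction
open scoped Pointwise commutatorElement

universe u

variable {G : Type u} [Group G] [Finite G]

theorem transfer_eq_pow_of_mem {H : Subgroup G} {A : Type*} [CommGroup A] (φ : H →* A) {g : G} (hg : g ∈ H)
    (key : ∀ (k : ℕ) (x : G) (h : x⁻¹ * g ^ k * x ∈ H), φ ⟨x⁻¹ * g ^ k * x, h⟩ = φ ⟨g ^ k, pow_mem hg k⟩) :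
    transfer φ g = φ ⟨g, hg⟩ ^ H.index := by
  classical
  letI := H.fintypeQuotientOfFiniteIndex
  letI : Fintype (Quotient (orbitRel (zpowers g) (G ⧸ H))) := Fintype.ofFinite _
  rw [transfer_eq_prod_quotient_orbitRel_zpowers_quot, index_eq_sum_minimalPeriod H g, ← Finset.prod_pow_eq_pow_sum]
  refine Finset.prod_congr rfl fun q _ => ?_
  rw [key, ← map_pow]
  rfl

theorem eq_one_of_pow {A : Type*} [Group A] {p : ℕ} [hp : Fact p.Prime] {x : A} {k n : ℕ} (hx : x ^ p ^ k = 1) (hn : x ^ n = 1) (hpn : Nat.Coprime p n) : x = 1 := by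
  rw [← orderOf_eq_one_iff]
  have h1 := orderOf_dvd_of_pow_eq_one hx
  have h2 := orderOf_dvd_of_pow_eq_one hn
  exact Nat.Coprime.eq_one_of_dvd (Nat.Coprime.coprime_dvd_left h1 (hpn.pow_left k)) h2

/-- the quotient of `H` by a normal subgroup containing the commutators, as a commutative group -/
theorem exists_hom {H K : Subgroup G} (hK : (K.subgroupOf H).Normal) (hab : ∀ x ∈ H, ∀ y ∈ H, x * y * x⁻¹ * y⁻¹ ∈ K) :
    ∃ (A : Type u) (_ : CommGroup A) (φ : H →* A), ∀ x : H, φ x = 1 ↔ (x : G) ∈ K := by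
  haveI := hK
  have hcomm : ∀ a b : H ⧸ K.subgroupOf H, a * b = b * a := by
    intro a b
    obtain ⟨a, rfl⟩ := QuotientGroup.mk'_surjective _ a
    obtain ⟨b, rfl⟩ := QuotientGroup.mk'_surjective _ b
    rw [← map_mul, ← map_mul]
    apply QuotientGroup.eq.2
    rw [mem_subgroupOf]
    have h1 := hab _ (inv_mem b.2) _ (inv_mem a.2)
    have e : (((a * b)⁻¹ * (b * a) : H) : G) = (b : G)⁻¹ * (a : G)⁻¹ * ((b : G)⁻¹)⁻¹ * ((a : G)⁻¹)⁻¹ := by
      rw [inv_inv, inv_inv]
      simp [mul_assoc]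
    rw [e]; exact h1
  refine ⟨H ⧸ K.subgroupOf H, { (inferInstance : Group (H ⧸ K.subgroupOf H)) with mul_comm := hcomm }, QuotientGroup.mk' (K.subgroupOf H), ?_⟩
  intro x
  exact (QuotientGroup.eq_one_iff x).trans mem_subgroupOf

theorem hom_commutator {A : Type*} [CommGroup A] (f : G →* A) {g : G} (hg : g ∈ commutator G) : f g = 1 := by
  have h1 : commutator G ≤ f.ker := by
    rw [commutator_def, commutator_le]
    intro a _ b _
    rw [MonoidHom.mem_ker, map_commutatorElement, commutatorElement_eq_one_iff_mul_comm]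
    exact mul_comm _ _
  exact h1 hg

/-- S1241 -/
theorem s1241 {p : ℕ} [Fact p.Prime] (H K : Subgroup G) (hKn : (K.subgroupOf H).Normal) (hab : ∀ x ∈ H, ∀ y ∈ H, x * y * x⁻¹ * y⁻¹ ∈ K) (hidx : Nat.Coprime p H.index) (g : G) (hgH : g ∈ H) (hgK : g ∉ K) (hgp : ∃ k : ℕ, orderOf g = p ^ k) (hctrl : ∀ (m : ℤ) (a : G), a * g ^ m * a⁻¹ ∈ H → (a * g ^ m * a⁻¹) * (g ^ m)⁻¹ ∈ K) : g ∉ commutator G := by
  intro hg
  obtain ⟨A, iA, φ, hφ⟩ := exists_hom hKn hab
  have h1 := transfer_eq_pow_of_mem φ hgH (by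
    intro k x hx
    have h2 := hctrl k x⁻¹ (by rw [inv_inv, zpow_natCast]; exact hx)
    rw [inv_inv, zpow_natCast] at h2
    rw [← mul_inv_eq_one, ← map_inv, ← map_mul, hφ]
    exact h2)
  rw [hom_commutator _ hg] at h1
  obtain ⟨k, hk⟩ := hgp
  apply hgK
  rw [← hφ ⟨g, hgH⟩]
  refine eq_one_of_pow (p := p) (k := k) ?_ h1.symm hidx
  rw [← map_pow]
  have : (⟨g, hgH⟩ : H) ^ p ^ k = 1 := Subtype.ext (by
    show g ^ p ^ k = 1
    rw [← hk, pow_orderOf_eq_one])
  rw [this, map_one]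

/-- S1242 -/
theorem s1242 {p : ℕ} [hp : Fact p.Prime] (H : Subgroup G) (hidx : Nat.Coprime p H.index) (hfus : ∀ g ∈ H, (∃ k : ℕ, orderOf g = p ^ k) → ∀ a : G, a * g * a⁻¹ ∈ H → ∃ h ∈ H, h * g * h⁻¹ = a * g * a⁻¹) : (Cfsg.pResidual p G ⊔ commutator G) ⊓ H = (Cfsg.pResidual p ↥H ⊔ commutator ↥H).map H.subtype := by
  haveI hn1 := CfsgLib.Transfer.pResidual_normal (G := H) p
  set K' := Cfsg.pResidual p ↥H ⊔ commutator ↥H with hK'
  set K := K'.map H.subtype with hK
  have hKH : K.subgroupOf H = K' := by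
    rw [hK, subgroupOf, comap_map_eq_self_of_injective H.subtype_injective]
  have hmemK : ∀ x : H, (x : G) ∈ K ↔ x ∈ K' := by
    intro x
    rw [← hKH, mem_subgroupOf]
  have hKn : (K.subgroupOf H).Normal := by rw [hKH]; infer_instance
  have hab : ∀ x ∈ H, ∀ y ∈ H, x * y * x⁻¹ * y⁻¹ ∈ K := by
    intro x hx y hy
    have h1 : (⟨x, hx⟩ * ⟨y, hy⟩ * ⟨x, hx⟩⁻¹ * ⟨y, hy⟩⁻¹ : H) ∈ K' := by
      apply mem_sup_right
      rw [commutator_def]
      exact commutator_mem_commutator (mem_top _) (mem_top _)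
    exact (hmemK _).2 h1
  obtain ⟨A, iA, φ, hφ⟩ := exists_hom hKn hab
  -- `φ x` has `p`-power order
  have hpp : ∀ x : H, ∃ k : ℕ, φ x ^ p ^ k = 1 := by
    intro x
    obtain ⟨i, j, hx, ⟨k, hk⟩, hj⟩ := CfsgLib.Core.exists_ppart x p
    refine ⟨k, ?_⟩
    have h1 : φ (x ^ j) = 1 := by
      rw [hφ, hmemK]
      apply mem_sup_left
      exact Subgroup.subset_closure (((Nat.Prime.coprime_iff_not_dvd hp.out).2 hj).symm)
    rw [hx, map_mul, h1, mul_one, ← map_pow, ← hk, pow_orderOf_eq_one, map_one]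
  apply le_antisymm
  · rintro g ⟨hg, hgH⟩
    obtain ⟨i, j, hx, ⟨k, hk⟩, hj⟩ := CfsgLib.Core.exists_ppart g p
    have hgi : g ^ i ∈ H := pow_mem hgH i
    have hgj : g ^ j ∈ H := pow_mem hgH j
    have hgj' : g ^ j ∈ K := by
      have h1 : (⟨g ^ j, hgj⟩ : H) ∈ K' := by
        apply mem_sup_left
        apply Subgroup.subset_closure
        show (orderOf (⟨g ^ j, hgj⟩ : H)).Coprime p
        rw [Subgroup.orderOf_mk]
        exact ((Nat.Prime.coprime_iff_not_dvd hp.out).2 hj).symm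
      exact (hmemK _).2 h1
    have h1 := transfer_eq_pow_of_mem φ hgi (by
      intro m x hx
      have h2 : ∃ k : ℕ, orderOf ((g ^ i) ^ m) = p ^ k := by
        have h3 : orderOf ((g ^ i) ^ m) ∣ p ^ k := by rw [← hk]; exact orderOf_pow_dvd m
        obtain ⟨l, -, hl⟩ := (Nat.dvd_prime_pow hp.out).1 h3
        exact ⟨l, hl⟩
      obtain ⟨h, hh, hhe⟩ := hfus _ (pow_mem hgi m) h2 x⁻¹ (by rw [inv_inv]; exact hx)
      rw [inv_inv] at hhe
      have e : (⟨x⁻¹ * (g ^ i) ^ m * x, hx⟩ : H) = ⟨h, hh⟩ * ⟨(g ^ i) ^ m, pow_mem hgi m⟩ * ⟨h, hh⟩⁻¹ := Subtype.ext hhe.symm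
      rw [e, map_mul, map_mul, map_inv, mul_comm (φ ⟨h, hh⟩), mul_inv_cancel_right])
    have hV : MonoidHom.transfer φ (g ^ i) = 1 := by
      have h2 : Cfsg.pResidual p G ⊔ commutator G ≤ (MonoidHom.transfer φ).ker := by
        apply sup_le
        · rw [Cfsg.pResidual, closure_le]
          intro x hx
          show x ∈ (MonoidHom.transfer φ).ker
          rw [MonoidHom.mem_ker]
          have hA : ∃ k : ℕ, (MonoidHom.transfer φ x) ^ p ^ k = 1 := by
            classical
            letI := H.fintypeQuotientOfFiniteIndex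
            letI : Fintype (Quotient (orbitRel (zpowers x) (G ⧸ H))) := Fintype.ofFinite _
            rw [transfer_eq_prod_quotient_orbitRel_zpowers_quot]
            choose f hf using hpp
            refine ⟨∑ q : Quotient (orbitRel (zpowers x) (G ⧸ H)), f ⟨q.out.out⁻¹ * x ^ Function.minimalPeriod (x • ·) q.out * q.out.out,
              QuotientGroup.out_conj_pow_minimalPeriod_mem H x q.out⟩, ?_⟩
            rw [← Finset.prod_pow]
            apply Finset.prod_eq_one
            intro q hq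
            have h3 := Finset.single_le_sum (f := fun q : Quotient (orbitRel (zpowers x) (G ⧸ H)) => f ⟨q.out.out⁻¹ * x ^ Function.minimalPeriod (x • ·) q.out * q.out.out,
              QuotientGroup.out_conj_pow_minimalPeriod_mem H x q.out⟩) (fun _ _ => Nat.zero_le _) hq
            obtain ⟨d, hd⟩ := pow_dvd_pow p h3
            rw [hd, pow_mul, hf, one_pow]
          obtain ⟨k, hk⟩ := hA
          refine eq_one_of_pow (p := p) (k := k) hk (n := orderOf x) ?_ (Nat.Coprime.symm hx)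
          rw [← map_pow, pow_orderOf_eq_one, map_one]
        · intro x hx
          exact hom_commutator _ hx
      exact h2 (pow_mem hg i)
    rw [hV] at h1
    have h2 : φ ⟨g ^ i, hgi⟩ = 1 := by
      refine eq_one_of_pow (p := p) (k := k) ?_ h1.symm hidx
      rw [← map_pow]
      have : (⟨g ^ i, hgi⟩ : H) ^ p ^ k = 1 := Subtype.ext (by
        show (g ^ i) ^ p ^ k = 1
        rw [← hk, pow_orderOf_eq_one])
      rw [this, map_one]
    rw [hφ] at h2
    rw [hx]
    exact mul_mem h2 hgj'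
  · rw [hK, map_le_iff_le_comap]
    apply sup_le
    · rw [Cfsg.pResidual, closure_le]
      intro x hx
      refine ⟨mem_sup_left (Subgroup.subset_closure ?_), x.2⟩
      show (orderOf (H.subtype x)).Coprime p
      rw [orderOf_injective H.subtype H.subtype_injective]
      exact hx
    · rw [commutator_def, commutator_le]
      intro a _ b _
      refine ⟨mem_sup_right ?_, (⁅a, b⁆ : H).2⟩
      rw [_root_.commutator_def]
      exact commutator_mem_commutator (mem_top _) (mem_top _)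

end CfsgLib.H9Tr
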