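import Mathlib
import Cfsg.Agent.Lib.H3Misc

/-! # Matsuyama's lemma -/

set_option autoImplicit false
set_option maxHeartbeats 1000000
set_option linter.style.haveILetI false

namespace CfsgLib.H9X

open Subgroup
open scoped Pointwise

variable {G : Type*} [Group G]

theorem mem_norm {H : Subgroup G} {g : G} : g ∈ normalizer (H : Set G) ↔ MulAut.conj g • H = H :=
  CfsgLib.H3Misc.mem_normalizer_iff_smul

theorem conj_conj (x g : G) (Z : Subgroup G) : MulAut.conj x • MulAut.conj g • Z = MulAut.conj (x * g) • Z := by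
  rw [← mul_smul, ← map_mul]

/-- subgroup generated by the conjugates of `Z` inside `X` -/
def W (Z X : Subgroup G) : Subgroup G := ⨆ g ∈ {g : G | MulAut.conj g • Z ≤ X}, MulAut.conj g • Z

theorem W_le (Z X : Subgroup G) : W Z X ≤ X := iSup₂_le fun _ hg => hg

theorem le_W {Z X : Subgroup G} {g : G} (h : MulAut.conj g • Z ≤ X) : MulAut.conj g • Z ≤ W Z X :=
  le_iSup₂_of_le (f := fun g (_ : g ∈ {g : G | MulAut.conj g • Z ≤ X}) => MulAut.conj g • Z) g h le_rfl

theorem W_mono {Z X X' : Subgroup G} (h : X ≤ X') : W Z X ≤ W Z X' :=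
  iSup₂_le fun _ hg => le_W (le_trans hg h)

theorem W_W (Z X : Subgroup G) : W Z (W Z X) = W Z X :=
  le_antisymm (W_le _ _) (iSup₂_le fun _ hg => le_W (le_W hg))

theorem conj_W_le (Z X : Subgroup G) (x : G) : MulAut.conj x • W Z X ≤ W Z (MulAut.conj x • X) := by
  rw [pointwise_smul_subset_iff]
  refine iSup₂_le fun g hg => ?_
  rw [← pointwise_smul_subset_iff, conj_conj]
  apply le_W
  rw [← conj_conj]
  exact pointwise_smul_le_pointwise_smul_iff.2 hg

theorem conj_W (Z X : Subgroup G) (x : G) : MulAut.conj x • W Z X = W Z (MulAut.conj x • X) := by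
  apply le_antisymm (conj_W_le Z X x)
  have h1 := conj_W_le Z (MulAut.conj x • X) x⁻¹
  rw [conj_conj, inv_mul_cancel, map_one, one_smul, pointwise_smul_subset_iff, ← map_inv, inv_inv] at h1
  exact h1

/-- proper subgroups of finite p-groups grow in their normalizers -/
theorem norm_grow [Finite G] {p : ℕ} [Fact p.Prime] {P N : Subgroup G} (hP : IsPGroup p P) (hN : N ≤ P) (hne : N ≠ P) :
    ∃ x ∈ P, x ∈ normalizer (N : Set G) ∧ x ∉ N := by
  haveI := hP.isNilpotent
  have h1 : N.subgroupOf P < ⊤ := by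
    rw [lt_top_iff_ne_top]
    intro h
    rw [subgroupOf_eq_top] at h
    exact hne (le_antisymm hN h)
  have h2 := Group.normalizerCondition_of_isNilpotent (G := P) _ h1
  obtain ⟨x, hx, hxN⟩ := SetLike.exists_of_lt h2
  refine ⟨x, x.2, ?_, fun h => hxN (mem_subgroupOf.2 h)⟩
  rw [mem_normalizer_iff] at hx ⊢
  intro h
  by_cases hh : h ∈ P
  · have := hx ⟨h, hh⟩
    rw [mem_subgroupOf, mem_subgroupOf] at this
    exact this
  · constructor
    · intro h1; exact absurd (hN h1) hh
    · intro h1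
      exfalso
      apply hh
      have h2 : h = (x : G)⁻¹ * ((x : G) * h * (x : G)⁻¹) * x := by group
      rw [h2]
      exact P.mul_mem (P.mul_mem (P.inv_mem x.2) (hN h1)) x.2

theorem matsuyama [Finite G] (p : ℕ) [Fact p.Prime] (Z Y : Subgroup G)
    (h : ∀ g : G, IsPGroup p ↥(⨆ y ∈ Y, MulAut.conj (y * g) • Z)) :
    ∃ P : Sylow p G, Y ≤ normalizer ((W Z P : Subgroup G) : Set G) := by
  have hfin : Set.Finite {Q : Subgroup G | IsPGroup p Q ∧ Y ≤ normalizer (Q : Set G) ∧ W Z Q = Q} := Set.toFinite _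
  obtain ⟨Q, ⟨hQp, hQY, hQW⟩, hQmax⟩ := hfin.exists_maximal ⟨⊥, IsPGroup.of_bot, by
    intro y _
    rw [mem_norm, smul_bot], le_antisymm (W_le _ _) bot_le⟩
  obtain ⟨P, hQP⟩ := hQp.exists_le_sylow
  refine ⟨P, ?_⟩
  suffices hWQ : W Z P = Q by rw [hWQ]; exact hQY
  by_contra hne
  have hQWP : Q ≤ W Z P := by
    rw [← hQW]; exact W_mono hQP
  set N := (P : Subgroup G) ⊓ normalizer (Q : Set G) with hN
  have hQN : Q ≤ N := le_inf hQP le_normalizer
  have h1 : ¬ W Z N ≤ Q := by
    intro hle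
    have hWN : W Z N = Q := le_antisymm hle (by rw [← hQW]; exact (W_mono hQN))
    have hNP : N = P := by
      by_contra hNP
      obtain ⟨x, hxP, hxN, hxn⟩ := norm_grow P.isPGroup' inf_le_left hNP
      apply hxn
      refine ⟨hxP, ?_⟩
      rw [mem_norm] at hxN
      show x ∈ normalizer (Q : Set G)
      rw [mem_norm, ← hWN, conj_W, hxN]
    rw [hNP] at hWN
    exact hne hWN
  obtain ⟨g, hg, hgQ⟩ : ∃ g, MulAut.conj g • Z ≤ N ∧ ¬ MulAut.conj g • Z ≤ Q := by
    by_contra hcon
    push Not at hcon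
    exact h1 (iSup₂_le fun g hg => hcon g hg)
  set T : Subgroup G := ⨆ y ∈ Y, MulAut.conj (y * g) • Z with hT
  have hTp : IsPGroup p T := h g
  have hTQ : T ≤ normalizer (Q : Set G) := by
    refine iSup₂_le fun y hy => ?_
    have h2 : MulAut.conj g • Z ≤ normalizer (Q : Set G) := le_trans hg inf_le_right
    intro z hz
    rw [← conj_conj, mem_pointwise_smul_iff_inv_smul_mem] at hz
    have h3 := h2 hz
    have h4 : z = y * ((MulAut.conj y)⁻¹ • z) * y⁻¹ := by
      rw [← map_inv, MulAut.smul_def, MulAut.conj_apply]; group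
    rw [h4]
    exact mul_mem (mul_mem (hQY hy) h3) (inv_mem (hQY hy))
  have hTY : Y ≤ normalizer (T : Set G) := by
    have hle : ∀ y ∈ Y, MulAut.conj y • T ≤ T := by
      intro y hy
      rw [pointwise_smul_subset_iff]
      refine iSup₂_le fun z hz => ?_
      rw [← pointwise_smul_subset_iff, conj_conj, ← mul_assoc]
      exact le_iSup₂_of_le (f := fun y (_ : y ∈ Y) => MulAut.conj (y * g) • Z) (y * z) (Y.mul_mem hy hz) le_rfl
    intro y hy
    rw [mem_norm]
    apply le_antisymm (hle y hy)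
    have h2 := hle y⁻¹ (Y.inv_mem hy)
    rw [pointwise_smul_subset_iff, ← map_inv, inv_inv] at h2
    exact h2
  have hgT : MulAut.conj g • Z ≤ T := by
    refine le_iSup₂_of_le (f := fun y (_ : y ∈ Y) => MulAut.conj (y * g) • Z) 1 Y.one_mem ?_
    show _ ≤ MulAut.conj (1 * g) • Z
    rw [one_mul]
  have hmem : IsPGroup p (Q ⊔ T : Subgroup G) ∧ Y ≤ normalizer ((Q ⊔ T : Subgroup G) : Set G) ∧ W Z (Q ⊔ T) = Q ⊔ T := by
    refine ⟨IsPGroup.to_sup_of_normal_left' hQp hTp hTQ, ?_, ?_⟩
    · intro y hy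
      rw [mem_norm, smul_sup, mem_norm.1 (hQY hy), mem_norm.1 (hTY hy)]
    · apply le_antisymm (W_le _ _)
      apply sup_le
      · calc Q = W Z Q := hQW.symm
          _ ≤ _ := W_mono le_sup_left
      · refine iSup₂_le fun y hy => le_W ?_
        refine le_trans ?_ le_sup_right
        exact le_iSup₂_of_le (f := fun y (_ : y ∈ Y) => MulAut.conj (y * g) • Z) y hy le_rfl
  have h5 := hQmax hmem le_sup_left
  exact hgQ (hgT.trans (le_sup_right.trans h5))

end CfsgLib.H9X
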