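import Mathlib
import Cfsg.Agent.Lib.H9Xa
import Cfsg.Agent.Lib.Subnorm

/-! # Families of subnormal subgroups -/

set_option autoImplicit false
set_option maxHeartbeats 1000000
set_option linter.style.haveILetI false

namespace CfsgLib.H9X

open Subgroup
open scoped Pointwise

universe u
variable {G : Type u} [Group G]

theorem card_lt_of_lt [Finite G] {H K : Subgroup G} (h : H < K) : Nat.card H < Nat.card K := by
  apply lt_of_le_of_ne (Subgroup.card_le_of_le h.le)
  intro he
  exact h.ne (eq_of_le_of_card_ge h.le he.ge)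

theorem sSup_subn [Finite G] (T : Set (Subgroup G)) (hT : ∀ U ∈ T, U.IsSubnormal) : (sSup T).IsSubnormal := by
  have hfin : T.Finite := Set.toFinite _
  induction T, hfin using Set.Finite.induction_on with
  | empty => rw [sSup_empty]; exact IsSubnormal.bot
  | @insert a s _ _ ih =>
    rw [sSup_insert]
    exact CfsgLib.Subnorm.sup_isSubnormal (hT a (Set.mem_insert _ _)) (ih fun U hU => hT U (Set.mem_insert_of_mem _ hU))

theorem le_norm_sSup {K : Subgroup G} {T : Set (Subgroup G)} (hT : ∀ U ∈ T, ∀ g ∈ K, MulAut.conj g • U ∈ T) :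
    K ≤ normalizer ((sSup T : Subgroup G) : Set G) := by
  have hle : ∀ g ∈ K, MulAut.conj g • sSup T ≤ sSup T := by
    intro g hg
    rw [pointwise_smul_subset_iff]
    refine sSup_le fun U hU => ?_
    rw [← pointwise_smul_subset_iff]
    exact le_sSup (hT U hU g hg)
  intro g hg
  rw [mem_norm]
  apply le_antisymm (hle g hg)
  have h2 := hle g⁻¹ (K.inv_mem hg)
  rw [pointwise_smul_subset_iff, ← map_inv, inv_inv] at h2
  exact h2

theorem family_aux [Finite G] : ∀ (n : ℕ) (K : Subgroup G), Nat.card K ≤ n → ∀ S S₀ : Set (Subgroup G),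
    (∀ U ∈ S, U.IsSubnormal) → (∀ U ∈ S, U ≤ K) → (∀ U ∈ S, ∀ g ∈ K, MulAut.conj g • U ∈ S) → S₀ ⊂ S →
    ∃ X ∈ S, X ∉ S₀ ∧ X ≤ normalizer ((sSup S₀ : Subgroup G) : Set G) := by
  intro n
  induction n with
  | zero => intro K hK; exact absurd hK (by have := Nat.card_pos (α := K); omega)
  | succ n ih =>
    intro K hK S S₀ hS hSK hconj h₀
    obtain ⟨Y, hYS, hY0⟩ := Set.exists_of_ssubset h₀
    have hcl : sSup S ≤ K := sSup_le hSK
    rcases hcl.lt_or_eq with hlt | heq
    · apply ih (sSup S) (by have := card_lt_of_lt hlt; omega) S S₀ hS (fun U hU => le_sSup hU)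
        (fun U hU g hg => hconj U hU g (hcl hg)) h₀
    · set H := sSup S₀ with hH
      have hHK : H ≤ K := sSup_le fun U hU => hSK U (h₀.1 hU)
      have hHs : H.IsSubnormal := sSup_subn S₀ fun U hU => hS U (h₀.1 hU)
      rcases hHK.lt_or_eq with hlt | hHeq
      · have h1 : (H.subgroupOf K).IsSubnormal := hHs.subgroupOf
        have h2 : H.subgroupOf K ≠ ⊤ := by
          intro h
          rw [subgroupOf_eq_top] at h
          exact absurd (le_antisymm hHK h) hlt.ne
        obtain ⟨M', hM'n, hM'le, hM'lt⟩ := (IsSubnormal.lt_normal h1).resolve_left h2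
        set M := M'.map K.subtype with hM
        have hMK : M ≤ K := map_subtype_le _
        have hMlt : M < K := by
          refine lt_of_le_of_ne hMK fun h => hM'lt.ne ?_
          rw [eq_top_iff]
          intro x _
          have : (x : G) ∈ M := by rw [h]; exact x.2
          obtain ⟨y, hy, hyx⟩ := this
          have : y = x := Subtype.ext hyx
          rwa [← this]
        have hHM : H ≤ M := by
          intro x hx
          exact ⟨⟨x, hHK hx⟩, hM'le (mem_subgroupOf.2 hx), rfl⟩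
        have hMn : ∀ g ∈ K, MulAut.conj g • M ≤ M := by
          intro g hg x hx
          rw [mem_pointwise_smul_iff_inv_smul_mem] at hx
          obtain ⟨y, hy, hyx⟩ := hx
          refine ⟨⟨g, hg⟩ * y * ⟨g, hg⟩⁻¹, hM'n.conj_mem y hy _, ?_⟩
          have h3 : x = g * ((MulAut.conj g)⁻¹ • x) * g⁻¹ := by
            rw [← map_inv, MulAut.smul_def, MulAut.conj_apply]; group
          rw [h3, ← hyx]; rfl
        have hc : ∀ U ∈ {U : Subgroup G | U ∈ S ∧ U ≤ M}, ∀ g ∈ K, MulAut.conj g • U ∈ {U : Subgroup G | U ∈ S ∧ U ≤ M} := by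
          rintro U ⟨hU, hUM⟩ g hg
          exact ⟨hconj U hU g hg, (pointwise_smul_le_pointwise_smul_iff.2 hUM).trans (hMn g hg)⟩
        have hsub : S₀ ⊆ {U : Subgroup G | U ∈ S ∧ U ≤ M} := fun U hU => ⟨h₀.1 hU, (le_sSup hU).trans hHM⟩
        rcases hsub.ssubset_or_eq with h3 | h3
        · obtain ⟨X, hX, hX0, hXn⟩ := ih M (by have := card_lt_of_lt hMlt; omega) {U : Subgroup G | U ∈ S ∧ U ≤ M} S₀
            (fun U hU => hS U hU.1) (fun U hU => hU.2) (fun U hU g hg => hc U hU g (hMK hg)) h3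
          exact ⟨X, hX.1, hX0, hXn⟩
        · refine ⟨Y, hYS, hY0, (hSK Y hYS).trans ?_⟩
          rw [hH, h3]
          exact le_norm_sSup hc
      · refine ⟨Y, hYS, hY0, (hSK Y hYS).trans ?_⟩
        rw [← hHeq]
        exact le_normalizer

theorem family [Finite G] (S S₀ : Set (Subgroup G)) (hS : ∀ U ∈ S, U.IsSubnormal) (hconj : ∀ U ∈ S, ∀ g : G, MulAut.conj g • U ∈ S)
    (h₀ : S₀ ⊂ S) : ∃ X ∈ S, X ∉ S₀ ∧ X ≤ normalizer ((sSup S₀ : Subgroup G) : Set G) :=
  family_aux _ ⊤ le_rfl S S₀ hS (fun _ _ => le_top) (fun U hU g _ => hconj U hU g) h₀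

end CfsgLib.H9X
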