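import Mathlib
import Cfsg.Agent.Lib.H9Xb

/-! # A zipper-type lemma -/

set_option autoImplicit false
set_option maxHeartbeats 1000000
set_option linter.style.haveILetI false

namespace CfsgLib.H9X

open Subgroup
open scoped Pointwise

universe u
variable {G : Type u} [Group G]

theorem conj_subgroupOf {V : Subgroup G} (g : V) (B : Subgroup G) :
    MulAut.conj g • (B.subgroupOf V) = (MulAut.conj (g : G) • B).subgroupOf V := by
  ext x
  rw [mem_pointwise_smul_iff_inv_smul_mem, mem_subgroupOf, mem_subgroupOf, mem_pointwise_smul_iff_inv_smul_mem]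
  rw [← map_inv, ← map_inv]
  rfl

theorem eq_of_subgroupOf {V A B : Subgroup G} (hA : A ≤ V) (hB : B ≤ V) (h : A.subgroupOf V = B.subgroupOf V) : A = B := by
  rw [← map_subgroupOf_eq_of_le hA, ← map_subgroupOf_eq_of_le hB, h]

theorem conj_le_of_mem {V B : Subgroup G} (hB : B ≤ V) {g : G} (hg : g ∈ V) : MulAut.conj g • B ≤ V := by
  intro x hx
  rw [mem_pointwise_smul_iff_inv_smul_mem] at hx
  have h3 : x = g * ((MulAut.conj g)⁻¹ • x) * g⁻¹ := by
    rw [← map_inv, MulAut.smul_def, MulAut.conj_apply]; group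
  rw [h3]
  exact V.mul_mem (V.mul_mem hg (hB hx)) (V.inv_mem hg)

/-- relative version of `family` -/
theorem family_rel [Finite G] (V : Subgroup G) (T T₀ : Set (Subgroup G)) (hT : ∀ B ∈ T, B ≤ V ∧ (B.subgroupOf V).IsSubnormal)
    (hconj : ∀ B ∈ T, ∀ g ∈ V, MulAut.conj g • B ∈ T) (h₀ : T₀ ⊂ T) :
    ∃ X ∈ T, X ∉ T₀ ∧ X ≤ normalizer ((sSup T₀ : Subgroup G) : Set G) := by
  have hH : sSup T₀ ≤ V := sSup_le fun U hU => (hT U (h₀.1 hU)).1
  have hsup : sSup ((fun B : Subgroup G => B.subgroupOf V) '' T₀) = (sSup T₀).subgroupOf V := by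
    apply le_antisymm
    · refine sSup_le ?_
      rintro _ ⟨B, hB, rfl⟩
      exact comap_mono (le_sSup hB)
    · have h1 : sSup T₀ ≤ (sSup ((fun B : Subgroup G => B.subgroupOf V) '' T₀)).map V.subtype := by
        refine sSup_le fun B hB => ?_
        rw [← map_subgroupOf_eq_of_le (hT B (h₀.1 hB)).1]
        exact map_mono (le_sSup ⟨B, hB, rfl⟩)
      intro x hx
      obtain ⟨y, hy, hyx⟩ := h1 (mem_subgroupOf.1 hx)
      have : y = x := Subtype.ext hyx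
      rwa [← this]
  obtain ⟨X', ⟨B, hB, rfl⟩, hX0, hXn⟩ := family (G := V) ((fun B : Subgroup G => B.subgroupOf V) '' T) ((fun B : Subgroup G => B.subgroupOf V) '' T₀)
    (by rintro _ ⟨B, hB, rfl⟩; exact (hT B hB).2)
    (by
      rintro _ ⟨B, hB, rfl⟩ g
      refine ⟨MulAut.conj (g : G) • B, hconj B hB g g.2, ?_⟩
      exact (conj_subgroupOf g B).symm)
    (by
      refine ⟨Set.image_mono h₀.1, fun hcon => ?_⟩
      obtain ⟨Y, hY, hY0⟩ := Set.exists_of_ssubset h₀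
      obtain ⟨B, hB, hBY⟩ := hcon ⟨Y, hY, rfl⟩
      have := eq_of_subgroupOf (hT B (h₀.1 hB)).1 (hT Y hY).1 hBY
      rw [← this] at hY0
      exact hY0 hB)
  refine ⟨B, hB, fun h => hX0 ⟨B, h, rfl⟩, ?_⟩
  intro b hb
  have hbV : b ∈ V := (hT B hB).1 hb
  have h1 : (⟨b, hbV⟩ : V) ∈ normalizer (((sSup T₀).subgroupOf V : Subgroup V) : Set V) := by
    rw [← hsup]
    exact hXn (mem_subgroupOf.2 hb)
  rw [mem_norm, conj_subgroupOf] at h1
  rw [mem_norm]
  exact eq_of_subgroupOf (conj_le_of_mem hH hbV) hH h1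

theorem zipper [Finite G] (A : Subgroup G) (U : Set (Subgroup G)) (hU : U.Nonempty) (S : Subgroup G → Set (Subgroup G))
    (hS : ∀ V B : Subgroup G, B ∈ S V ↔ (∃ g : G, B = MulAut.conj g • A) ∧ B ≤ V ∧ (B.subgroupOf V).IsSubnormal)
    (h2 : ∀ V ∈ U, ∀ W ∈ U, ∀ B ∈ S W, B ≤ V → B ∈ S V)
    (h3 : ∀ V ∈ U, ∀ W ∈ U, ∃ X ∈ U, normalizer ((sSup (S V ∩ S W) : Subgroup G) : Set G) ≤ X) :
    ∃ M ∈ U, ∀ V ∈ U, V ≤ M := by
  have hfin : U.Finite := Set.toFinite _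
  have hmax : ∀ V ∈ U, ∃ M, V ≤ M ∧ Maximal (· ∈ U) M := fun V hV => hfin.exists_le_maximal hV
  have hconj : ∀ V : Subgroup G, ∀ B ∈ S V, ∀ g ∈ V, MulAut.conj g • B ∈ S V := by
    intro V B hB g hg
    rw [hS] at hB ⊢
    obtain ⟨⟨x, rfl⟩, hBV, hBs⟩ := hB
    refine ⟨⟨g * x, conj_conj g x A⟩, conj_le_of_mem hBV hg, ?_⟩
    have h := hBs.smul (MulAut.conj (⟨g, hg⟩ : V))
    rw [conj_subgroupOf] at h
    exact h
  have huniq : ∀ V W, Maximal (· ∈ U) V → Maximal (· ∈ U) W → V = W := by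
    by_contra hcon
    push Not at hcon
    obtain ⟨V₀, W₀, hV₀, hW₀, hne₀⟩ := hcon
    obtain ⟨⟨V, W⟩, ⟨hV, hW, hne⟩, hm⟩ := Set.exists_max_image
      {z : Subgroup G × Subgroup G | Maximal (· ∈ U) z.1 ∧ Maximal (· ∈ U) z.2 ∧ z.1 ≠ z.2}
      (fun z => (S z.1 ∩ S z.2).ncard) (Set.toFinite _) ⟨(V₀, W₀), hV₀, hW₀, hne₀⟩
    simp only at hV hW hne hm
    obtain ⟨X₀, hX₀, hX₀n⟩ := h3 V hV.1 W hW.1
    obtain ⟨X, hX₀X, hX⟩ := hmax X₀ hX₀
    have hXn := hX₀n.trans hX₀X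
    have hsX : S V ∩ S W ⊆ S X := by
      intro B hB
      apply h2 X hX.1 V hV.1 B hB.1
      exact (le_sSup hB).trans (le_normalizer.trans hXn)
    -- for each of `V`, `W` we get equality with `X`
    have key : ∀ Y, Maximal (· ∈ U) Y → S V ∩ S W ⊆ S Y → (∀ Z, Maximal (· ∈ U) Z → Y ≠ Z → (S Y ∩ S Z).ncard ≤ (S V ∩ S W).ncard) →
        Y = X := by
      intro Y hY hYs hYm
      by_contra hYX
      rcases hYs.ssubset_or_eq with h | h
      · obtain ⟨B, hB, hB0, hBn⟩ := family_rel Y (S Y) (S V ∩ S W) (fun B hB => ((hS Y B).1 hB).2) (hconj Y) h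
        have hBX : B ∈ S X := h2 X hX.1 Y hY.1 B hB (hBn.trans hXn)
        have h4 : S V ∩ S W ⊂ S Y ∩ S X := by
          refine ⟨fun C hC => ⟨hYs hC, hsX hC⟩, fun hcon => hB0 (hcon ⟨hB, hBX⟩)⟩
        have h5 := Set.ncard_lt_ncard h4 (Set.toFinite _)
        have h6 := hYm X hX hYX
        omega
      · have h7 : Y ≤ X := by
          refine le_trans ?_ hXn
          rw [h]
          exact le_norm_sSup (hconj Y)
        exact hYX (le_antisymm h7 (hY.2 hX.1 h7))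
    have e1 := key V hV Set.inter_subset_left (fun Z hZ hZne => hm (V, Z) ⟨hV, hZ, hZne⟩)
    have e2 := key W hW Set.inter_subset_right (fun Z hZ hZne => hm (W, Z) ⟨hW, hZ, hZne⟩)
    exact hne (e1.trans e2.symm)
  obtain ⟨V, hV⟩ := hU
  obtain ⟨M, hVM, hM⟩ := hmax V hV
  refine ⟨M, hM.1, fun W hW => ?_⟩
  obtain ⟨N, hWN, hN⟩ := hmax W hW
  rw [huniq M N hM hN]
  exact hWN

end CfsgLib.H9X
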