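import Mathlib
import Cfsg.Agent.Lib.Transfer3
import Cfsg.Agent.Lib.H5Fpf
import Cfsg.Agent.Lib.H9Xc

/-! # Schmidt's theorem: minimal non-nilpotent groups are solvable -/

set_option autoImplicit false
set_option maxHeartbeats 1000000
set_option linter.style.haveILetI false

namespace CfsgLib.H9X

open Subgroup
open CfsgLib.NPC

universe u

theorem nil_sub {G : Type*} [Group G] {M H : Subgroup G} (hHM : H ≤ M) (h : Group.IsNilpotent M) : Group.IsNilpotent H := by
  have h1 : Group.IsNilpotent (H.subgroupOf M) := inferInstance
  exact Group.nilpotent_of_mulEquiv (subgroupOfEquivOfLe hHM)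

theorem solvable_of_ext {G : Type*} [Group G] (N : Subgroup G) [N.Normal] (h1 : Group.IsSolvable N) (h2 : Group.IsSolvable (G ⧸ N)) :
    Group.IsSolvable G :=
  solvable_of_ker_le_range N.subtype (QuotientGroup.mk' N) (by rw [QuotientGroup.ker_mk', range_subtype])

theorem schmidt_aux : ∀ (n : ℕ) (G : Type u) [Group G] [Finite G], Nat.card G ≤ n →
    (∀ H : Subgroup G, H ≠ ⊤ → Group.IsNilpotent H) → Group.IsSolvable G := by
  intro n
  induction n with
  | zero => intro G _ _ hn; exact absurd hn (by have := Nat.card_pos (α := G); omega)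
  | succ n ih =>
    intro G _ _ hn h
    by_cases hG : Nat.card G = 1
    · haveI := (Nat.card_eq_one_iff_unique.1 hG).1
      infer_instance
    obtain ⟨p, hp, hpG⟩ := Nat.exists_prime_and_dvd hG
    haveI : Fact p.Prime := ⟨hp⟩
    by_cases hN : NPC p G
    · obtain ⟨N, hNn, hNc, k, hNk⟩ := hN
      have hNt : N ≠ ⊤ := by
        rintro rfl
        rw [card_top] at hNc
        exact (Nat.Prime.coprime_iff_not_dvd hp).1 hNc.symm hpG
      have h1 : Group.IsNilpotent N := h N hNt
      have h2 : IsPGroup p (G ⧸ N) := by
        rw [IsPGroup.iff_card]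
        exact ⟨k, by rw [← hNk]; rfl⟩
      have h3 : Group.IsNilpotent (G ⧸ N) := h2.isNilpotent
      exact solvable_of_ext N inferInstance inferInstance
    · have h1 := (CfsgLib.Transfer3.ito_minimal hN (fun H hH => CfsgLib.H5Fpf.npc_of_nilpotent (h H hH))).2.2
      obtain ⟨P⟩ : Nonempty (Sylow p G) := inferInstance
      haveI hPn : (P : Subgroup G).Normal := h1 P
      have hPc : 1 < Nat.card (P : Subgroup G) := by
        have : p ∣ Nat.card (P : Subgroup G) := P.dvd_card_of_dvd_card hpG
        exact lt_of_lt_of_le hp.one_lt (Nat.le_of_dvd Nat.card_pos this)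
      have h2 : Nat.card (G ⧸ (P : Subgroup G)) < Nat.card G := by
        have e := card_mul_index (P : Subgroup G)
        have e2 : 0 < (P : Subgroup G).index := Nat.pos_of_ne_zero index_ne_zero_of_finite
        show (P : Subgroup G).index < _
        nlinarith
      have h3 : Group.IsSolvable (G ⧸ (P : Subgroup G)) := by
        apply ih _ (by omega)
        intro H hH
        have h4 : H.comap (QuotientGroup.mk' (P : Subgroup G)) ≠ ⊤ := by
          intro h4
          apply hH
          rw [eq_top_iff]
          intro x _
          obtain ⟨y, rfl⟩ := QuotientGroup.mk'_surjective _ x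
          have : y ∈ H.comap (QuotientGroup.mk' (P : Subgroup G)) := by rw [h4]; trivial
          exact this
        have h5 := h _ h4
        let f : (H.comap (QuotientGroup.mk' (P : Subgroup G))) →* H :=
          ((QuotientGroup.mk' (P : Subgroup G)).comp (H.comap (QuotientGroup.mk' (P : Subgroup G))).subtype).codRestrict H (fun x => x.2)
        have hf : Function.Surjective f := by
          rintro ⟨x, hx⟩
          obtain ⟨y, rfl⟩ := QuotientGroup.mk'_surjective _ x
          exact ⟨⟨y, hx⟩, rfl⟩
        exact Group.nilpotent_of_surjective f hf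
      have h6 : Group.IsNilpotent (P : Subgroup G) := P.isPGroup'.isNilpotent
      exact solvable_of_ext (P : Subgroup G) inferInstance h3

theorem schmidt {G : Type u} [Group G] [Finite G] (h : ∀ M : Subgroup G, IsCoatom M → Group.IsNilpotent M) : Group.IsSolvable G := by
  apply schmidt_aux _ G le_rfl
  intro H hH
  rcases eq_top_or_exists_le_coatom H with h1 | ⟨M, hM, hHM⟩
  · exact absurd h1 hH
  · exact nil_sub hHM (h M hM)

end CfsgLib.H9X
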