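import Mathlib
import Cfsg.Agent.Lib.Transfer3
import Cfsg.Agent.Lib.H5Fpf
import Cfsg.Agent.Lib.SylowIn
import Cfsg.Agent.Lib.H9Xd

/-! # Wielandt: nilpotent Hall subgroups -/

set_option autoImplicit false
set_option maxHeartbeats 1000000
set_option linter.style.haveILetI false

namespace CfsgLib.H9X

open Subgroup
open CfsgLib.NPC
open scoped Pointwise

universe u

theorem npc_sub {G : Type*} [Group G] [Finite G] {p : ℕ} [Fact p.Prime] (h : NPC p G) (H : Subgroup G) : NPC p H := by
  rw [npc_iff_frobCond] at h ⊢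
  intro Q hQ g hg ho
  have h1 := h (Q.map H.subtype) (hQ.map _) (g : G) (by
    rw [mem_normalizer_iff] at hg ⊢
    intro x
    constructor
    · rintro ⟨y, hy, rfl⟩
      exact ⟨g * y * g⁻¹, (hg y).1 hy, rfl⟩
    · rintro ⟨y, hy, hyx⟩
      refine ⟨g⁻¹ * y * g, ?_, ?_⟩
      · rw [SetLike.mem_coe, hg]
        have : g * (g⁻¹ * y * g) * g⁻¹ = y := by group
        rw [this]; exact hy
      · show (g : G)⁻¹ * y * g = x
        have : (y : G) = g * x * (g : G)⁻¹ := hyx
        rw [this]; group) (by rwa [orderOf_coe])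
  rw [mem_centralizer_iff] at h1 ⊢
  intro y hy
  exact Subtype.ext (h1 y ⟨y, hy, rfl⟩)

theorem le_of_coprime_index {G : Type*} [Group G] [Finite G] {N : Subgroup G} [N.Normal] {x : G} (h : (orderOf x).Coprime N.index) : x ∈ N := by
  have h1 : (QuotientGroup.mk x : G ⧸ N) ^ orderOf x = 1 := by
    rw [← QuotientGroup.mk_pow, pow_orderOf_eq_one]; rfl
  have h2 : (QuotientGroup.mk x : G ⧸ N) ^ N.index = 1 := pow_card_eq_one'
  have h3 : (QuotientGroup.mk x : G ⧸ N) = 1 := by
    have h4 := Nat.dvd_gcd (orderOf_dvd_of_pow_eq_one h1) (orderOf_dvd_of_pow_eq_one h2)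
    rw [Nat.Coprime] at h
    rw [h, Nat.dvd_one, orderOf_eq_one_iff] at h4
    exact h4
  exact (QuotientGroup.eq_one_iff x).1 h3

theorem nil_of_npc : ∀ (n : ℕ) (G : Type u) [Group G] [Finite G], Nat.card G ≤ n →
    (∀ p : ℕ, (hp : p.Prime) → haveI : Fact p.Prime := ⟨hp⟩; NPC p G) → Group.IsNilpotent G := by
  intro n
  induction n with
  | zero => intro G _ _ hn; exact absurd hn (by have := Nat.card_pos (α := G); omega)
  | succ n ih =>
    intro G _ _ hn h
    refine ((Group.isNilpotent_of_finite_tfae (G := G)).out 0 3).mpr ?_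
    intro r hr R
    by_cases hex : ∃ p : ℕ, p.Prime ∧ p ≠ r ∧ p ∣ Nat.card G
    · obtain ⟨p, hp, hpr, hpG⟩ := hex
      haveI : Fact p.Prime := ⟨hp⟩
      obtain ⟨N, hNn, hNc, k, hNk⟩ := h p hp
      have hNt : N ≠ ⊤ := by
        rintro rfl
        rw [card_top] at hNc
        exact (Nat.Prime.coprime_iff_not_dvd hp).1 hNc.symm hpG
      have hlt : Nat.card N < Nat.card G := by
        have := card_lt_of_lt (lt_top_iff_ne_top.2 hNt)
        rwa [card_top] at this
      have hNnil : Group.IsNilpotent N := ih N (by omega) (fun q hq => by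
        haveI : Fact q.Prime := ⟨hq⟩
        exact npc_sub (h q hq) N)
      have hle : ∀ T : Sylow r G, (T : Subgroup G) ≤ N := by
        intro T x hx
        apply le_of_coprime_index
        obtain ⟨a, ha⟩ := IsPGroup.iff_orderOf.1 T.isPGroup' ⟨x, hx⟩
        rw [orderOf_mk] at ha
        rw [ha, hNk]
        exact Nat.Coprime.pow _ _ ((Nat.coprime_primes hr.out hp).2 hpr.symm)
      have hNR : ∀ T : Sylow r N, (T : Subgroup N).Normal := by
        have h1 := ((Group.isNilpotent_of_finite_tfae (G := N)).out 0 3).mp hNnil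
        exact h1 r hr
      refine ⟨fun x hx g => ?_⟩
      have h2 : g • R = R := by
        apply Sylow.subtype_injective (hP := hle (g • R)) (hQ := hle R)
        haveI := Sylow.unique_of_normal (R.subtype (hle R)) (hNR _)
        exact Subsingleton.elim _ _
      rw [Sylow.smul_eq_iff_mem_normalizer] at h2
      exact (mem_normalizer_iff.1 h2 x).1 hx
    · push Not at hex
      have h1 : IsPGroup r G := by
        rw [IsPGroup.iff_card]
        exact ⟨_, Nat.eq_prime_pow_of_unique_prime_dvd Nat.card_pos.ne' fun {d} hd hdG => by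
          by_contra hne
          exact hex d hd hne hdG⟩
      have h2 : (R : Subgroup G) = ⊤ := by
        apply R.is_maximal' (h1.to_subgroup ⊤) le_top |>.symm
      rw [h2]
      infer_instance

/-- subgroups with order involving only primes of a nilpotent Hall subgroup are nilpotent -/
theorem nil_of_hall {G : Type u} [Group G] [Finite G] (H K : Subgroup G) (hH : Group.IsNilpotent H) (hHall : (Nat.card H).Coprime H.index)
    (hK : ∀ p : ℕ, p.Prime → p ∣ Nat.card K → p ∣ Nat.card H) : Group.IsNilpotent K := by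
  apply nil_of_npc _ K le_rfl
  intro p hp
  haveI : Fact p.Prime := ⟨hp⟩
  show NPC p K
  rw [npc_iff_frobCond]
  intro Q hQ g hg ho
  by_cases hQ1 : Q = ⊥
  · rw [hQ1, mem_centralizer_iff]
    intro y hy
    rw [SetLike.mem_coe, mem_bot] at hy
    rw [hy]; simp
  have hpK : p ∣ Nat.card K := by
    obtain ⟨k, hk⟩ := IsPGroup.iff_card.1 hQ
    have hk0 : k ≠ 0 := by
      rintro rfl
      rw [pow_zero] at hk
      exact hQ1 (card_eq_one.1 hk)
    exact (dvd_pow_self p hk0).trans (hk ▸ card_subgroup_dvd_card Q)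
  have hpH := hK p hp hpK
  set Q' := Q.map K.subtype with hQ'
  have hQ'p : IsPGroup p Q' := hQ.map _
  obtain ⟨P₀⟩ : Nonempty (Sylow p H) := inferInstance
  obtain ⟨P, hP⟩ := CfsgLib.Transfer2.isSyl_top_of_hall hHall hpH (CfsgLib.Coprime.isSyl_of_sylow P₀)
  obtain ⟨T, hT⟩ := hQ'p.exists_le_sylow
  obtain ⟨x, hx⟩ := MulAction.exists_smul_eq G P T
  -- the conjugate of `H` containing `Q'`
  set H' := MulAut.conj x • H with hH'
  have hQH : Q' ≤ H' := by
    refine hT.trans ?_
    rw [← hx]
    show MulAut.conj x • (P : Subgroup G) ≤ _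
    rw [hP]
    exact pointwise_smul_le_pointwise_smul_iff.2 (map_subtype_le _)
  have hH'n : Group.IsNilpotent H' := Group.nilpotent_of_mulEquiv (equivSMul (MulAut.conj x) H)
  have hH'c : Nat.card H' = Nat.card H := (Nat.card_congr (equivSMul (MulAut.conj x) H).toEquiv).symm
  have hH'i : H'.index = H.index := by
    have h1 := card_mul_index H'
    rw [hH'c, ← card_mul_index H] at h1
    exact Nat.eq_of_mul_eq_mul_left Nat.card_pos h1
  set N := normalizer (Q' : Set G) with hN
  set C := centralizer (Q' : Set G) with hC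
  have hCN : C ≤ N := centralizer_le_normalizer _
  have hgN : (g : G) ∈ N := by
    rw [hN, mem_normalizer_iff]
    rw [mem_normalizer_iff] at hg
    intro x
    constructor
    · rintro ⟨y, hy, rfl⟩
      exact ⟨g * y * g⁻¹, (hg y).1 hy, rfl⟩
    · rintro ⟨y, hy, hyx⟩
      refine ⟨g⁻¹ * y * g, ?_, ?_⟩
      · rw [SetLike.mem_coe, hg]
        have : g * (g⁻¹ * y * g) * g⁻¹ = y := by group
        rw [this]; exact hy
      · show (g : G)⁻¹ * y * g = x
        have : (y : G) = g * x * (g : G)⁻¹ := hyx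
        rw [this]; group
  have hCn : (C.subgroupOf N).Normal := by
    refine ⟨fun a ha b => ?_⟩
    rw [mem_subgroupOf, hC, mem_centralizer_iff] at ha ⊢
    intro q hq
    have hb : (b : G) ∈ normalizer (Q' : Set G) := b.2
    rw [mem_normalizer_iff''] at hb
    have h1 := ha _ ((hb q).1 hq)
    show q * (b * a * (b : G)⁻¹) = (b * a * (b : G)⁻¹) * q
    calc q * (b * a * (b : G)⁻¹) = b * (((b : G)⁻¹ * q * b) * a) * (b : G)⁻¹ := by group
      _ = (b * a * (b : G)⁻¹) * q := by rw [h1]; group
  have hcop : (orderOf (g : G)).Coprime (C.relIndex N) := by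
    apply Nat.Coprime.symm
    apply Nat.coprime_of_dvd
    intro q hq hq1 hq2
    haveI : Fact q.Prime := ⟨hq⟩
    have hqp : q ≠ p := by
      rintro rfl
      rw [orderOf_coe] at hq2
      exact (Nat.Prime.coprime_iff_not_dvd hq).1 ho.symm hq2
    have hqK : q ∣ Nat.card K := by
      rw [orderOf_coe] at hq2
      exact hq2.trans (orderOf_dvd_natCard g)
    have hqH : q ∣ Nat.card H' := by rw [hH'c]; exact hK q hq hqK
    obtain ⟨R₀⟩ : Nonempty (Sylow q H') := inferInstance
    obtain ⟨R, hR⟩ := CfsgLib.Transfer2.isSyl_top_of_hall (by rw [hH'c, hH'i]; exact hHall) hqH (CfsgLib.Coprime.isSyl_of_sylow R₀)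
    have hRC : (R : Subgroup G) ≤ C := by
      rw [hR]
      rintro _ ⟨y, hy, rfl⟩
      rw [hC, mem_centralizer_iff]
      intro z hz
      have h1 : ¬ p ∣ orderOf y := by
        obtain ⟨a, ha⟩ := IsPGroup.iff_orderOf.1 R₀.isPGroup' ⟨y, hy⟩
        rw [orderOf_mk] at ha
        rw [ha]
        intro hd
        exact hqp ((Nat.prime_dvd_prime_iff_eq hp hq).1 (hp.dvd_of_dvd_pow hd)).symm
      have h2 := CfsgLib.Transfer2.commute_of_nilpotent (p := p) hH'n (P := Q'.subgroupOf H')
        (hQ'p.of_equiv (subgroupOfEquivOfLe hQH).symm) h1 ⟨z, hQH hz⟩ (mem_subgroupOf.2 hz)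
      exact (congrArg Subtype.val h2).symm
    have h3 : C.relIndex N ∣ (R : Subgroup G).index := by
      have e : ((R : Subgroup G).relIndex C * C.relIndex N) * N.index = (R : Subgroup G).index := by
        rw [relIndex_mul_relIndex _ _ _ hRC hCN, relIndex_mul_index (hRC.trans hCN)]
      rw [← e]
      exact dvd_mul_of_dvd_left (dvd_mul_left _ _) _
    exact R.not_dvd_index (hq1.trans h3)
  have hgC : (g : G) ∈ C := by
    have h1 : (⟨(g : G), hgN⟩ : N) ∈ C.subgroupOf N := by
      apply le_of_coprime_index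
      rw [orderOf_mk]
      exact hcop
    exact mem_subgroupOf.1 h1
  rw [hC, mem_centralizer_iff] at hgC
  rw [mem_centralizer_iff]
  intro y hy
  exact Subtype.ext (hgC y ⟨y, hy, rfl⟩)

end CfsgLib.H9X
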