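import Mathlib
import Cfsg.Agent.Lib.H9Xe

/-! # Wielandt: nilpotent Hall subgroups, conjugacy -/

set_option autoImplicit false
set_option maxHeartbeats 1000000
set_option linter.style.haveILetI false

namespace CfsgLib.H9X

open Subgroup
open CfsgLib.NPC CfsgLib.SylowIn
open scoped Pointwise

universe u

theorem nil_decomp {G : Type u} [Group G] [Finite G] {K : Subgroup G} (hK : Group.IsNilpotent K) (p : ℕ) [Fact p.Prime] :
    ∃ P N : Subgroup G, P ≤ K ∧ N ≤ K ∧ IsPGroup p P ∧ (Nat.card N).Coprime p ∧ K = P ⊔ N ∧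
      (∀ a ∈ P, ∀ b ∈ N, a * b = b * a) ∧ Nat.card P * Nat.card N = Nat.card K := by
  obtain ⟨N₀, hN₀, hN₀c, k, hk⟩ := CfsgLib.H5Fpf.npc_of_nilpotent (q := p) hK
  obtain ⟨P₀⟩ : Nonempty (Sylow p K) := inferInstance
  have hc := isComplement'_sylow hN₀c hk P₀
  refine ⟨(P₀ : Subgroup K).map K.subtype, N₀.map K.subtype, map_subtype_le _, map_subtype_le _, P₀.isPGroup'.map _, ?_, ?_, ?_, ?_⟩
  · rw [card_map_of_injective K.subtype_injective]; exact hN₀c
  · rw [← Subgroup.map_sup, sup_comm, hc.sup_eq_top, ← MonoidHom.range_eq_map, range_subtype]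
  · rintro _ ⟨a, ha, rfl⟩ _ ⟨b, hb, rfl⟩
    have h1 : ¬ p ∣ orderOf b := by
      intro hd
      have h2 : orderOf b ∣ Nat.card N₀ := by
        have := orderOf_dvd_natCard (⟨b, hb⟩ : N₀)
        rwa [orderOf_mk] at this
      exact (Nat.Prime.coprime_iff_not_dvd Fact.out).1 hN₀c.symm (hd.trans h2)
    have h2 := CfsgLib.Transfer2.commute_of_nilpotent (p := p) hK P₀.isPGroup' h1 a ha
    exact (congrArg Subtype.val h2).symm
  · rw [card_map_of_injective K.subtype_injective, card_map_of_injective K.subtype_injective, mul_comm]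
    exact hc.card_mul_card

theorem nil_conj {G : Type u} [Group G] [Finite G] : ∀ (n : ℕ) (C H K : Subgroup G), H ≤ C → K ≤ C → Group.IsNilpotent H →
    Group.IsNilpotent K → (Nat.card H).Coprime (H.relIndex C) →
    (∀ q : ℕ, q.Prime → q ∣ Nat.card K → q ∣ Nat.card H) → Nat.card K ≤ n → ∃ x ∈ C, K ≤ MulAut.conj x • H := by
  intro n
  induction n with
  | zero => intro C H K _ _ _ _ _ _ hn; exact absurd hn (by have := Nat.card_pos (α := K); omega)
  | succ n ih =>
    intro C H K hHC hKC hH hK hcop hpr hn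
    by_cases hK1 : Nat.card K = 1
    · refine ⟨1, C.one_mem, ?_⟩
      rw [card_eq_one.1 hK1]
      exact bot_le
    obtain ⟨p, hp, hpK⟩ := Nat.exists_prime_and_dvd hK1
    haveI : Fact p.Prime := ⟨hp⟩
    have hpH := hpr p hp hpK
    obtain ⟨P, N, hPK, hNK, hPp, hNc, hKe, hcomm, hcard⟩ := nil_decomp hK p
    obtain ⟨P', N', hPH, hNH, hPp', hNc', hHe, hcomm', hcard'⟩ := nil_decomp hH p
    have hCcard : Nat.card H * H.relIndex C = Nat.card C := by
      have := card_mul_index (H.subgroupOf C)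
      rw [Nat.card_congr (subgroupOfEquivOfLe hHC).toEquiv] at this
      exact this
    have hpi : ¬ p ∣ H.relIndex C := fun h => hp.one_lt.ne' (Nat.eq_one_of_dvd_coprimes hcop hpH h)
    have hsyl : IsSylowIn p P' C := by
      refine ⟨hPH.trans hHC, hPp', fun T hT hTp => ?_⟩
      obtain ⟨t, ht⟩ := IsPGroup.iff_card.1 hTp
      have h1 : Nat.card T ∣ Nat.card P' * (Nat.card N' * H.relIndex C) := by
        rw [← mul_assoc, hcard', hCcard]
        exact card_dvd_of_le hT
      have h2 : (Nat.card T).Coprime (Nat.card N' * H.relIndex C) := by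
        rw [ht]
        apply Nat.Coprime.pow_left
        exact Nat.Coprime.mul_right hNc'.symm ((Nat.Prime.coprime_iff_not_dvd hp).2 hpi)
      exact Nat.le_of_dvd Nat.card_pos (h2.dvd_of_dvd_mul_right h1)
    obtain ⟨g, hgC, hg⟩ := hsyl.exists_conj (hPK.trans hKC) hPp
    set H' := MulAut.conj g⁻¹ • N' with hH'
    have hH'c : Nat.card H' = Nat.card N' := (Nat.card_congr (equivSMul (MulAut.conj g⁻¹) N').toEquiv).symm
    have hN'nil : Group.IsNilpotent N' := nil_sub hNH hH
    have hH'n : Group.IsNilpotent H' := Group.nilpotent_of_mulEquiv (equivSMul (MulAut.conj g⁻¹) N')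
    have hH'C : H' ≤ C := conj_le_of_mem (hNH.trans hHC) (C.inv_mem hgC)
    have hH'C' : H' ≤ C ⊓ centralizer (P : Set G) := by
      refine le_inf hH'C ?_
      intro y hy
      rw [hH', mem_pointwise_smul_iff_inv_smul_mem, ← map_inv, inv_inv, MulAut.smul_def, MulAut.conj_apply] at hy
      rw [mem_centralizer_iff]
      intro z hz
      have h1 := hcomm' _ (hg z hz) _ hy
      have h2 : g * (z * y) * g⁻¹ = g * (y * z) * g⁻¹ := by
        calc g * (z * y) * g⁻¹ = (g * z * g⁻¹) * (g * y * g⁻¹) := by group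
          _ = (g * y * g⁻¹) * (g * z * g⁻¹) := h1
          _ = _ := by group
      exact mul_left_cancel (mul_right_cancel h2)
    have hNC' : N ≤ C ⊓ centralizer (P : Set G) := by
      refine le_inf (hNK.trans hKC) fun y hy => ?_
      rw [mem_centralizer_iff]
      intro z hz
      exact hcomm z hz y hy
    have hcop' : (Nat.card H').Coprime (H'.relIndex (C ⊓ centralizer (P : Set G))) := by
      apply Nat.coprime_of_dvd
      intro q hq hq1 hq2
      have e1 : Nat.card H' * H'.relIndex (C ⊓ centralizer (P : Set G)) = Nat.card (C ⊓ centralizer (P : Set G) : Subgroup G) := by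
        have := card_mul_index (H'.subgroupOf (C ⊓ centralizer (P : Set G)))
        rw [Nat.card_congr (subgroupOfEquivOfLe hH'C').toEquiv] at this
        exact this
      have e2 : Nat.card (C ⊓ centralizer (P : Set G) : Subgroup G) ∣ Nat.card C := card_dvd_of_le inf_le_left
      rw [← e1, ← hCcard, ← hcard', hH'c] at e2
      have e3 : Nat.card N' * H'.relIndex (C ⊓ centralizer (P : Set G)) ∣ Nat.card N' * (Nat.card P' * H.relIndex C) := by
        have : Nat.card P' * Nat.card N' * H.relIndex C = Nat.card N' * (Nat.card P' * H.relIndex C) := by ring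
        rwa [this] at e2
      have e4 := hq2.trans (Nat.dvd_of_mul_dvd_mul_left Nat.card_pos e3)
      rw [hH'c] at hq1
      rcases (Nat.Prime.dvd_mul hq).1 e4 with h | h
      · obtain ⟨t, ht⟩ := IsPGroup.iff_card.1 hPp'
        rw [ht] at h
        have hqp := (Nat.prime_dvd_prime_iff_eq hq hp).1 (hq.dvd_of_dvd_pow h)
        subst hqp
        exact (Nat.Prime.coprime_iff_not_dvd hq).1 hNc'.symm hq1
      · have hqH : q ∣ Nat.card H := by rw [← hcard']; exact dvd_mul_of_dvd_right hq1 _
        exact hq.one_lt.ne' (Nat.eq_one_of_dvd_coprimes hcop hqH h)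
    have hpr' : ∀ q : ℕ, q.Prime → q ∣ Nat.card N → q ∣ Nat.card H' := by
      intro q hq hqN
      rw [hH'c]
      have h1 : q ∣ Nat.card H := hpr q hq (by rw [← hcard]; exact dvd_mul_of_dvd_right hqN _)
      rw [← hcard'] at h1
      rcases (Nat.Prime.dvd_mul hq).1 h1 with h | h
      · obtain ⟨t, ht⟩ := IsPGroup.iff_card.1 hPp'
        rw [ht] at h
        have hqp := (Nat.prime_dvd_prime_iff_eq hq hp).1 (hq.dvd_of_dvd_pow h)
        subst hqp
        exact absurd hqN ((Nat.Prime.coprime_iff_not_dvd hq).1 hNc.symm)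
      · exact h
    have hlt : Nat.card N < Nat.card K := by
      have h1 : p ∣ Nat.card P := by
        rw [← hcard] at hpK
        rcases (Nat.Prime.dvd_mul hp).1 hpK with h | h
        · exact h
        · exact absurd h ((Nat.Prime.coprime_iff_not_dvd hp).1 hNc.symm)
      have h2 : 2 ≤ Nat.card P := hp.two_le.trans (Nat.le_of_dvd Nat.card_pos h1)
      have h3 : 0 < Nat.card N := Nat.card_pos
      rw [← hcard]
      nlinarith
    obtain ⟨x, hx, hNx⟩ := ih _ H' N hH'C' hNC' hH'n (nil_sub hNK hK) hcop' hpr' (by omega)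
    refine ⟨x * g⁻¹, C.mul_mem hx.1 (C.inv_mem hgC), ?_⟩
    rw [hKe]
    apply sup_le
    · intro y hy
      have h1 : x⁻¹ * y * x = y := by
        have := (mem_centralizer_iff.1 hx.2) y hy
        rw [mul_assoc, this]; group
      rw [mem_pointwise_smul_iff_inv_smul_mem, ← map_inv, MulAut.smul_def, MulAut.conj_apply]
      have e : (x * g⁻¹)⁻¹ * y * (x * g⁻¹)⁻¹⁻¹ = g * y * g⁻¹ := by
        calc (x * g⁻¹)⁻¹ * y * (x * g⁻¹)⁻¹⁻¹ = g * (x⁻¹ * y * x) * g⁻¹ := by group
          _ = _ := by rw [h1]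
      rw [e]
      exact hPH (hg y hy)
    · refine hNx.trans ?_
      rw [hH', conj_conj]
      exact pointwise_smul_le_pointwise_smul_iff.2 hNH

theorem wielandt_hall {G : Type u} [Group G] [Finite G] (H K : Subgroup G) (hH : Group.IsNilpotent H) (hHall : (Nat.card H).Coprime H.index)
    (hK : ∀ p : ℕ, p.Prime → p ∣ Nat.card K → p ∣ Nat.card H) : ∃ x : G, K ≤ MulAut.conj x • H := by
  have hKn := nil_of_hall H K hH hHall hK
  obtain ⟨x, -, hx⟩ := nil_conj _ ⊤ H K le_top le_top hH hKn (by rw [relIndex_top_right]; exact hHall) hK le_rfl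
  exact ⟨x, hx⟩

end CfsgLib.H9X
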