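import Mathlib
import Cfsg.Agent.Lib.H9Xf

/-! # Abelian maximal subgroups -/

set_option autoImplicit false
set_option maxHeartbeats 1000000
set_option linter.style.haveILetI false

namespace CfsgLib.H9X

open Subgroup
open CfsgLib.NPC CfsgLib.Coprime
open scoped Pointwise

universe u

theorem card_sup_of {X : Type u} [Group X] [Finite X] {A N : Subgroup X} (hn : A ≤ normalizer (N : Set X)) (hd : A ⊓ N = ⊥) :
    Nat.card (A ⊔ N : Subgroup X) = Nat.card A * Nat.card N := by
  have h1 : ((A ⊔ N : Subgroup X) : Set X) = (A : Set X) * (N : Set X) := coe_mul_of_left_le_normalizer_right A N hn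
  have h2 : Function.Injective (fun z : A × N => (z.1 : X) * z.2) := mul_injective_of_disjoint (disjoint_iff.2 hd)
  have h3 : Nat.card (A × N) = Nat.card (A ⊔ N : Subgroup X) := by
    apply Nat.card_congr
    refine Equiv.ofBijective (fun z => (⟨(z.1 : X) * z.2, by
      have : (z.1 : X) * z.2 ∈ (A : Set X) * (N : Set X) := Set.mul_mem_mul z.1.2 z.2.2
      rw [← h1] at this; exact this⟩ : (A ⊔ N : Subgroup X))) ⟨fun a b hab => h2 (congrArg Subtype.val hab), ?_⟩
    rintro ⟨y, hy⟩
    have : y ∈ (A : Set X) * (N : Set X) := by rw [← h1]; exact hy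
    obtain ⟨a, ha, b, hb, rfl⟩ := this
    exact ⟨(⟨a, ha⟩, ⟨b, hb⟩), rfl⟩
  rw [← h3, Nat.card_prod]

theorem ti_case {X : Type u} [Group X] [Finite X] (A : Subgroup X) (hA : IsCoatom A) (hab : IsMulCommutative A)
    (hti : ∀ g ∉ A, ∀ x ∈ A, g * x * g⁻¹ ∈ A → x = 1) : ∃ N : Subgroup X, N.Normal ∧ commutator X ≤ N ∧ ⁅N, N⁆ = ⊥ := by
  have hHall : (Nat.card A).Coprime A.index := by
    apply Nat.coprime_of_dvd
    intro p hp h1 h2
    haveI : Fact p.Prime := ⟨hp⟩
    obtain ⟨P₀⟩ : Nonempty (Sylow p A) := inferInstance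
    set P := (P₀ : Subgroup A).map A.subtype with hP
    have hPA : P ≤ A := map_subtype_le _
    have hPp : IsPGroup p P := P₀.isPGroup'.map _
    obtain ⟨S, hPS⟩ := hPp.exists_le_sylow
    have hPne : ∃ y ∈ P, y ≠ 1 := by
      have h3 : p ∣ Nat.card (P₀ : Subgroup A) := P₀.dvd_card_of_dvd_card h1
      have h4 : Nat.card P = Nat.card (P₀ : Subgroup A) := card_map_of_injective A.subtype_injective
      have h5 : P ≠ ⊥ := by
        intro h
        rw [h, card_bot] at h4
        rw [← h4] at h3
        exact hp.one_lt.ne' (Nat.dvd_one.1 h3)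
      obtain ⟨a, ha⟩ := ne_bot_iff_exists_ne_one.1 h5
      exact ⟨a, a.2, fun h => ha (Subtype.ext h)⟩
    have hPS' : P = S := by
      by_contra hne
      obtain ⟨x, hxS, hxn, hxP⟩ := norm_grow S.isPGroup' hPS hne
      obtain ⟨y, hyP, hy1⟩ := hPne
      have hxA : x ∈ A := by
        by_contra hxA
        exact hy1 (hti x hxA y (hPA hyP) (hPA ((mem_normalizer_iff.1 hxn y).1 hyP)))
      apply hxP
      haveI : (P₀ : Subgroup A).Normal := by
        refine ⟨fun a ha b => ?_⟩
        have : b * a * b⁻¹ = a := by rw [mul_comm' b a, mul_inv_cancel_right]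
        rw [this]; exact ha
      have h6 : (⟨x, hxA⟩ : A) ∈ (P₀ : Subgroup A) := by
        apply le_of_coprime_index
        rw [orderOf_mk]
        obtain ⟨a, ha⟩ := IsPGroup.iff_orderOf.1 S.isPGroup' ⟨x, hxS⟩
        rw [orderOf_mk] at ha
        rw [ha]
        exact Nat.Coprime.pow_left _ ((Nat.Prime.coprime_iff_not_dvd hp).2 P₀.not_dvd_index)
      exact ⟨⟨x, hxA⟩, h6, rfl⟩
    have h7 : A.index ∣ P.index := by
      rw [← relIndex_mul_index hPA]
      exact dvd_mul_left _ _
    rw [hPS'] at h7
    exact S.not_dvd_index (h2.trans h7)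
  have hAnil : Group.IsNilpotent A := by
    haveI := hab
    letI : CommGroup A := { (inferInstance : Group A) with mul_comm := fun a b => mul_comm' a b }
    infer_instance
  obtain ⟨N, hN, hc⟩ := (CfsgLib.Transfer2.nilpotent_hall A hAnil hHall).2 (by
    rintro x hx y hy ⟨g, hg⟩
    by_cases hgA : g ∈ A
    · exact ⟨g, hgA, hg⟩
    · have h1 := hti g hgA x hx (by rw [hg]; exact hy)
      refine ⟨1, A.one_mem, ?_⟩
      rw [← hg, h1]; simp)
  refine ⟨N, hN, ?_, ?_⟩
  · exact Subgroup.Normal.commutator_le_of_self_sup_commutative_eq_top hc.sup_eq_top hab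
  · have hcard := hc.card_mul_card
    have hNi : A.index = Nat.card N := hc.index_eq_card
    have hAN : A ⊓ N = ⊥ := by rw [inf_comm]; exact disjoint_iff.1 hc.disjoint
    have hN1 : Nat.card N ≠ 1 := by
      intro h
      rw [← hNi] at h
      exact hA.1 (index_eq_one.1 h)
    have hact : CopAct A N := by
      refine ⟨by rw [normalizer_eq_top_iff.2 hN]; exact le_top, by rw [← hNi]; exact hHall, Or.inl ?_⟩
      infer_instance
    obtain ⟨p, hp, hpN⟩ := Nat.exists_prime_and_dvd hN1
    haveI : Fact p.Prime := ⟨hp⟩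
    obtain ⟨P, hPs, hPA⟩ := hact.exists_isSyl p
    have hAnP : A ≤ normalizer (P : Set X) := hPA
    -- any nontrivial `A`-invariant subgroup of `N` is `N`
    have hinv : ∀ Q : Subgroup X, Q ≤ N → A ≤ normalizer (Q : Set X) → Q ≠ ⊥ → Q = N := by
      intro Q hQN hAQ hQ
      have hd : A ⊓ Q = ⊥ := le_bot_iff.1 (by rw [← hAN]; exact inf_le_inf_left _ hQN)
      have h1 : A ⊔ Q = ⊤ := by
        rcases hA.le_iff.1 (le_sup_left : A ≤ A ⊔ Q) with h | h
        · exact h
        · exfalso
          apply hQ
          rw [← le_bot_iff, ← hd]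
          exact le_inf (le_sup_right.trans h.le) le_rfl
      have h2 := card_sup_of hAQ hd
      rw [h1, card_top, ← hcard, mul_comm] at h2
      exact eq_of_le_of_card_ge hQN (Nat.eq_of_mul_eq_mul_left Nat.card_pos h2).le
    have hPne : P ≠ ⊥ := by
      rintro rfl
      have h3 := hPs.toSylow.dvd_card_of_dvd_card hpN
      have h4 : (hPs.toSylow : Subgroup N) = ⊥ := by
        show (⊥ : Subgroup X).subgroupOf N = ⊥
        rw [bot_subgroupOf]
      rw [h4, card_bot] at h3
      exact hp.one_lt.ne' (Nat.dvd_one.1 h3)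
    have hPN := hinv P hPs.1 hAnP hPne
    have hNp : IsPGroup p N := by rw [← hPN]; exact hPs.isPGroup
    by_contra hcon
    have h5 := hinv ⁅N, N⁆ (commutator_le_left N N) (by
      have : (⁅N, N⁆ : Subgroup X).Normal := inferInstance
      rw [normalizer_eq_top_iff.2 this]; exact le_top) hcon
    haveI := hNp.isNilpotent
    haveI : Nontrivial N := by
      rw [← not_subsingleton_iff_nontrivial]
      intro h
      exact hN1 (Nat.card_eq_one_iff_unique.2 ⟨h, ⟨1⟩⟩)
    have h6 := (Group.IsSolvable.commutator_lt_top_of_nontrivial N).ne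
    apply h6
    have h7 : (commutator N).map N.subtype = ⁅N, N⁆ := by
      rw [_root_.commutator_def, map_commutator, ← MonoidHom.range_eq_map, range_subtype]
    rw [h5] at h7
    rw [eq_top_iff]
    intro x _
    have : (x : X) ∈ (commutator N).map N.subtype := by rw [h7]; exact x.2
    obtain ⟨y, hy, hyx⟩ := this
    have : y = x := Subtype.ext hyx
    rwa [← this]

theorem abelian_max {G : Type u} [Group G] [Finite G] (A : Subgroup G) (hA : IsCoatom A) (hab : IsMulCommutative A) :
    derivedSeries G 3 = ⊥ := by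
  have hcomm : ∀ a ∈ A, ∀ b ∈ A, a * b = b * a := fun a ha b hb => congrArg Subtype.val (mul_comm' (⟨a, ha⟩ : A) ⟨b, hb⟩)
  have hAA : ⁅A, A⁆ = ⊥ := by
    rw [commutator_eq_bot_iff_le_centralizer]
    intro a ha
    rw [mem_centralizer_iff]
    intro b hb
    exact hcomm b hb a ha
  by_cases hAn : A.Normal
  · -- the quotient has no proper subgroups
    have h1 : commutator G ≤ A := by
      obtain ⟨g, hg⟩ : ∃ g, g ∉ A := by
        by_contra hcon
        push Not at hcon
        exact hA.1 (eq_top_iff.2 fun x _ => hcon x)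
      have h2 : A ⊔ zpowers g = ⊤ := by
        rcases hA.le_iff.1 (le_sup_left : A ≤ A ⊔ zpowers g) with h | h
        · exact h
        · exact absurd (h ▸ (le_sup_right : zpowers g ≤ A ⊔ zpowers g) (mem_zpowers g)) hg
      exact Subgroup.Normal.commutator_le_of_self_sup_commutative_eq_top h2 inferInstance
    have h3 : derivedSeries G 2 = ⊥ := by
      rw [eq_bot_iff, ← hAA]
      exact commutator_mono h1 h1
    have h4 : derivedSeries G 3 ≤ derivedSeries G 2 := derivedSeries_antitone G (by norm_num)
    rw [h3] at h4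
    exact le_bot_iff.1 h4
  · have hNA : normalizer (A : Set G) = A := by
      rcases hA.le_iff.1 (le_normalizer : A ≤ normalizer (A : Set G)) with h | h
      · exact absurd (normalizer_eq_top_iff.1 h) hAn
      · exact h
    set Z := center G with hZ
    have hZA : Z ≤ A := by
      rcases hA.le_iff.1 (le_sup_left : A ≤ A ⊔ Z) with h | h
      · exfalso
        apply hAn
        rw [← normalizer_eq_top_iff, eq_top_iff, ← h]
        refine sup_le le_normalizer (fun z hz => ?_)
        rw [mem_normalizer_iff]
        intro x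
        have := mem_center_iff.1 hz x
        have e : z * x * z⁻¹ = x := by rw [← this]; group
        rw [e]
      · exact h ▸ le_sup_right
    have hC : ∀ x ∈ A, x ∉ Z → centralizer ({x} : Set G) = A := by
      intro x hx hxZ
      have h1 : A ≤ centralizer ({x} : Set G) := by
        intro a ha
        rw [mem_centralizer_iff]
        rintro y rfl
        exact hcomm _ hx a ha
      rcases hA.le_iff.1 h1 with h | h
      · exfalso
        apply hxZ
        rw [hZ, mem_center_iff]
        intro g
        have : g ∈ centralizer ({x} : Set G) := by rw [h]; trivial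
        exact ((mem_centralizer_iff.1 this) x rfl).symm
      · exact h
    have hti : ∀ g ∉ A, ∀ x ∈ A, g * x * g⁻¹ ∈ A → x ∈ Z := by
      intro g hg x hx hgx
      by_contra hxZ
      have hgxZ : g * x * g⁻¹ ∉ Z := by
        intro h
        apply hxZ
        have h1 := (inferInstance : (center G).Normal).conj_mem _ h g⁻¹
        have e : g⁻¹ * (g * x * g⁻¹) * g⁻¹⁻¹ = x := by group
        rwa [e] at h1
      have h1 := hC x hx hxZ
      have h2 := hC _ hgx hgxZ
      apply hg
      rw [← hNA, mem_normalizer_iff]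
      intro a
      constructor
      · intro ha
        rw [← h2, mem_centralizer_iff]
        rintro y rfl
        have := hcomm x hx a ha
        calc g * x * g⁻¹ * (g * a * g⁻¹) = g * (x * a) * g⁻¹ := by group
          _ = _ := by rw [this]; group
      · intro ha
        rw [← h1, mem_centralizer_iff]
        rintro y rfl
        have := hcomm _ hgx _ ha
        have h3 : g * (y * a) * g⁻¹ = g * (a * y) * g⁻¹ := by
          calc g * (y * a) * g⁻¹ = (g * y * g⁻¹) * (g * a * g⁻¹) := by group
            _ = (g * a * g⁻¹) * (g * y * g⁻¹) := this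
            _ = _ := by group
        exact mul_left_cancel (mul_right_cancel h3)
    have hcm : (A.map (QuotientGroup.mk' Z)).comap (QuotientGroup.mk' Z) = A := by
      rw [comap_map_eq, QuotientGroup.ker_mk', sup_eq_left.2 hZA]
    have hco : IsCoatom (A.map (QuotientGroup.mk' Z)) := by
      refine ⟨fun h => hA.1 ?_, fun B hB => ?_⟩
      · rw [← hcm, h, comap_top]
      · have h1 : A < B.comap (QuotientGroup.mk' Z) := by
          refine lt_of_le_of_ne ?_ fun h => hB.ne ?_
          · rw [← hcm]; exact comap_mono hB.le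
          · rw [h, map_comap_eq_self_of_surjective (QuotientGroup.mk'_surjective Z)]
        have h2 := hA.2 _ h1
        rw [← map_comap_eq_self_of_surjective (QuotientGroup.mk'_surjective Z) B, h2, ← MonoidHom.range_eq_map, MonoidHom.range_eq_top]
        exact QuotientGroup.mk'_surjective Z
    obtain ⟨N, hN, hN1, hN2⟩ := ti_case (A.map (QuotientGroup.mk' Z)) hco (by
        refine ⟨⟨?_⟩⟩
        rintro ⟨_, a, ha, rfl⟩ ⟨_, b, hb, rfl⟩
        apply Subtype.ext
        show (QuotientGroup.mk' Z a) * (QuotientGroup.mk' Z b) = (QuotientGroup.mk' Z b) * (QuotientGroup.mk' Z a)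
        rw [← map_mul, ← map_mul, hcomm a ha b hb]) (by
        intro g hg x hx hgx
        obtain ⟨g, rfl⟩ := QuotientGroup.mk'_surjective Z g
        obtain ⟨x, hx, rfl⟩ := hx
        have h1 : g ∉ A := fun h => hg (mem_map_of_mem _ h)
        have h2 : g * x * g⁻¹ ∈ A := by
          rw [← hcm, mem_comap, map_mul, map_mul, map_inv]
          exact hgx
        have h3 := hti g h1 x hx h2
        exact (QuotientGroup.eq_one_iff x).2 h3)
    have hsurj := QuotientGroup.mk'_surjective Z
    have h2 : (derivedSeries G 2).map (QuotientGroup.mk' Z) = ⊥ := by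
      rw [map_derivedSeries_eq hsurj, eq_bot_iff, ← hN2]
      exact commutator_mono hN1 hN1
    have h3 : derivedSeries G 2 ≤ Z := by
      intro x hx
      have : QuotientGroup.mk' Z x ∈ (derivedSeries G 2).map (QuotientGroup.mk' Z) := mem_map_of_mem _ hx
      rw [h2, mem_bot] at this
      exact (QuotientGroup.eq_one_iff x).1 this
    rw [eq_bot_iff]
    show ⁅derivedSeries G 2, derivedSeries G 2⁆ ≤ ⊥
    refine (commutator_mono h3 le_top).trans ?_
    rw [hZ]
    have : ⁅center G, (⊤ : Subgroup G)⁆ = ⊥ := by
      rw [commutator_eq_bot_iff_le_centralizer]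
      intro z hz
      rw [mem_centralizer_iff]
      intro g _
      exact mem_center_iff.1 hz g
    rw [this]

end CfsgLib.H9X
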