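import Mathlib
import Cfsg.Agent.Lib.H9Xg

/-! # S0558 -/

set_option autoImplicit false
set_option maxHeartbeats 1000000
set_option linter.style.haveILetI false

namespace CfsgLib.H9X

open Subgroup
open CfsgLib.NPC
open scoped Pointwise

universe u

theorem s0558 {G : Type u} [Group G] [Finite G] (H : Subgroup G) (hnot : ∀ p : ℕ, p.Prime → ∀ P : Sylow p G, (P : Subgroup G) ≠ H)
    (hnorm : ∀ p : ℕ, p.Prime → p ∣ Nat.card H → ∀ P : Sylow p H, normalizer (((P : Subgroup H).map H.subtype : Subgroup G) : Set G) = H) :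
    ∃ N : Subgroup G, N.Normal ∧ Subgroup.IsComplement' N H := by
  have hPn : ∀ p : ℕ, p.Prime → ∀ P : Sylow p H, (P : Subgroup H).Normal := by
    intro p hp P
    haveI : Fact p.Prime := ⟨hp⟩
    by_cases hpH : p ∣ Nat.card H
    · have h1 := hnorm p hp hpH P
      refine ⟨fun x hx g => ?_⟩
      have hg : (g : G) ∈ normalizer (((P : Subgroup H).map H.subtype : Subgroup G) : Set G) := by rw [h1]; exact g.2
      obtain ⟨y, hy, hyx⟩ := (mem_normalizer_iff.1 hg (x : G)).1 ⟨x, hx, rfl⟩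
      have : y = g * x * g⁻¹ := Subtype.ext hyx
      rwa [← this]
    · have h1 : (P : Subgroup H) = ⊥ := by
        rw [← card_eq_one]
        have h2 := P.card_eq_multiplicity
        rw [Nat.factorization_eq_zero_of_not_dvd hpH, pow_zero] at h2
        exact h2
      rw [h1]; infer_instance
  have hHn : Group.IsNilpotent H := by
    refine ((Group.isNilpotent_of_finite_tfae (G := H)).out 0 3).mpr ?_
    intro p hp P
    exact hPn p hp.out P
  have hSyl : ∀ p : ℕ, (hp : p.Prime) → p ∣ Nat.card H → ∀ P : Sylow p H,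
      ∃ S : Sylow p G, (S : Subgroup G) = (P : Subgroup H).map H.subtype := by
    intro p hp hpH P
    haveI : Fact p.Prime := ⟨hp⟩
    have hPp : IsPGroup p ((P : Subgroup H).map H.subtype) := P.isPGroup'.map _
    obtain ⟨S, hPS⟩ := hPp.exists_le_sylow
    refine ⟨S, ?_⟩
    by_contra hne
    obtain ⟨x, hxS, hxn, hxP⟩ := norm_grow S.isPGroup' hPS (fun h => hne h.symm)
    rw [hnorm p hp hpH P] at hxn
    apply hxP
    haveI := hPn p hp P
    refine ⟨⟨x, hxn⟩, ?_, rfl⟩
    apply le_of_coprime_index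
    rw [orderOf_mk]
    obtain ⟨a, ha⟩ := IsPGroup.iff_orderOf.1 S.isPGroup' ⟨x, hxS⟩
    rw [orderOf_mk] at ha
    rw [ha]
    exact Nat.Coprime.pow_left _ ((Nat.Prime.coprime_iff_not_dvd hp).2 P.not_dvd_index)
  have hHall : (Nat.card H).Coprime H.index := by
    apply Nat.coprime_of_dvd
    intro p hp h1 h2
    haveI : Fact p.Prime := ⟨hp⟩
    obtain ⟨P₀⟩ : Nonempty (Sylow p H) := inferInstance
    obtain ⟨S, hS⟩ := hSyl p hp h1 P₀
    apply S.not_dvd_index
    refine h2.trans ?_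
    rw [hS, ← relIndex_mul_index (map_subtype_le _ : (P₀ : Subgroup H).map H.subtype ≤ H)]
    exact dvd_mul_left _ _
  apply CfsgLib.Transfer2.normal_complement_of_npc H hHall
  intro p hp hpH
  haveI : Fact p.Prime := ⟨hp⟩
  obtain ⟨P₀⟩ : Nonempty (Sylow p H) := inferInstance
  obtain ⟨P, hP⟩ := hSyl p hp hpH P₀
  obtain ⟨q, hq, hqp, hqH⟩ : ∃ q : ℕ, q.Prime ∧ q ≠ p ∧ q ∣ Nat.card H := by
    by_contra hcon
    push Not at hcon
    have h1 : IsPGroup p H := by
      rw [IsPGroup.iff_card]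
      exact ⟨_, Nat.eq_prime_pow_of_unique_prime_dvd Nat.card_pos.ne' fun {d} hd hdG => by
        by_contra hne
        exact hcon d hd hne hdG⟩
    have h2 : (P₀ : Subgroup H) = ⊤ := P₀.is_maximal' (h1.to_subgroup ⊤) le_top |>.symm
    apply hnot p hp P
    rw [hP, h2, ← MonoidHom.range_eq_map, range_subtype]
  haveI : Fact q.Prime := ⟨hq⟩
  obtain ⟨Q₀⟩ : Nonempty (Sylow q H) := inferInstance
  obtain ⟨Q, hQ⟩ := hSyl q hq hqH Q₀
  have hcomm : ∀ x ∈ (P : Subgroup G), (Q : Subgroup G) ≤ centralizer ({x} : Set G) := by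
    intro x hx y hy
    rw [hP] at hx
    rw [hQ] at hy
    obtain ⟨x, hx, rfl⟩ := hx
    obtain ⟨y, hy, rfl⟩ := hy
    have h1 : ¬ p ∣ orderOf y := by
      obtain ⟨a, ha⟩ := IsPGroup.iff_orderOf.1 Q₀.isPGroup' ⟨y, hy⟩
      rw [orderOf_mk] at ha
      rw [ha]
      intro hd
      exact hqp ((Nat.prime_dvd_prime_iff_eq hp hq).1 (hp.dvd_of_dvd_pow hd)).symm
    have h2 := CfsgLib.Transfer2.commute_of_nilpotent (p := p) hHn P₀.isPGroup' h1 x hx
    rw [mem_centralizer_iff]
    rintro z rfl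
    exact (congrArg Subtype.val h2).symm
  apply CfsgLib.Tate.npc_of_control P
  intro x hx g hgx
  have hQC := hcomm x hx
  have hgQC : ((g • Q : Sylow q G) : Subgroup G) ≤ centralizer ({x} : Set G) := by
    show MulAut.conj g • (Q : Subgroup G) ≤ _
    intro y hy
    rw [mem_pointwise_smul_iff_inv_smul_mem, ← map_inv, MulAut.smul_def, MulAut.conj_apply] at hy
    have h1 := (mem_centralizer_iff.1 (hcomm _ hgx hy)) _ rfl
    rw [mem_centralizer_iff]
    rintro z rfl
    have h2 : g⁻¹ * (z * y) * g = g⁻¹ * (y * z) * g := by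
      calc g⁻¹ * (z * y) * g = (g⁻¹ * z * g) * (g⁻¹ * y * g⁻¹⁻¹) := by group
        _ = (g⁻¹ * y * g⁻¹⁻¹) * (g⁻¹ * z * g) := h1
        _ = _ := by group
    exact mul_left_cancel (mul_right_cancel h2)
  obtain ⟨c, hc⟩ := MulAction.exists_smul_eq (centralizer ({x} : Set G)) ((g • Q).subtype hgQC) (Q.subtype hQC)
  have h3 : ((c : G) * g) • Q = Q := by
    rw [mul_smul]
    apply Sylow.ext
    have h4 := congrArg (fun T : Sylow q (centralizer ({x} : Set G)) => (T : Subgroup (centralizer ({x} : Set G))).map (centralizer ({x} : Set G)).subtype) hc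
    beta_reduce at h4
    have h5 : ((Q.subtype hQC : Sylow q (centralizer ({x} : Set G))) : Subgroup (centralizer ({x} : Set G))).map (centralizer ({x} : Set G)).subtype = (Q : Subgroup G) :=
      map_subgroupOf_eq_of_le hQC
    have h6 : (((g • Q).subtype hgQC : Sylow q (centralizer ({x} : Set G))) : Subgroup (centralizer ({x} : Set G))).map (centralizer ({x} : Set G)).subtype = ((g • Q : Sylow q G) : Subgroup G) :=
      map_subgroupOf_eq_of_le hgQC
    rw [h5] at h4
    rw [← h4]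
    ext y
    show y ∈ MulAut.conj (c : G) • ((g • Q : Sylow q G) : Subgroup G) ↔ y ∈ (MulAut.conj c • (((g • Q : Sylow q G) : Subgroup G).subgroupOf _)).map _
    rw [conj_subgroupOf, map_subgroupOf_eq_of_le]
    exact conj_le_of_mem hgQC c.2
  have h4 : (c : G) * g ∈ H := by
    have h3' : (c : G) * g ∈ normalizer ((Q : Subgroup G) : Set G) := Sylow.smul_eq_iff_mem_normalizer.1 h3
    rw [hQ, hnorm q hq hqH Q₀] at h3'
    exact h3'
  have hcx : (c : G) * x * (c : G)⁻¹ = x := by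
    have := (mem_centralizer_iff.1 c.2) x rfl
    rw [← this]; group
  have h5 : g⁻¹ * x * g = ((c : G) * g)⁻¹ * x * ((c : G) * g) := by
    have : x = (c : G)⁻¹ * x * c := by
      calc x = (c : G)⁻¹ * ((c : G) * x * (c : G)⁻¹) * c := by group
        _ = _ := by rw [hcx]
    calc g⁻¹ * x * g = g⁻¹ * ((c : G)⁻¹ * x * c) * g := by rw [← this]
      _ = _ := by group
  -- decompose in `H`
  obtain ⟨N₀, hN₀, hN₀c, k, hk⟩ := CfsgLib.H5Fpf.npc_of_nilpotent (q := p) hHn
  have hcp := isComplement'_sylow hN₀c hk P₀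
  obtain ⟨⟨n, y⟩, hny⟩ := hcp.2 (⟨(c : G) * g, h4⟩ : H)
  have hny' : ((n : H) : G) * ((y : H) : G) = (c : G) * g := congrArg Subtype.val hny
  refine ⟨((y : H) : G), by rw [hP]; exact ⟨y, y.2, rfl⟩, ?_⟩
  rw [h5, ← hny']
  have hxP : x ∈ (P₀ : Subgroup H).map H.subtype := by rw [← hP]; exact hx
  obtain ⟨x', hx', hxx⟩ := hxP
  have h6 : ¬ p ∣ orderOf (n : H) := by
    intro hd
    exact (Nat.Prime.coprime_iff_not_dvd hp).1 hN₀c.symm (hd.trans (by
      have := orderOf_dvd_natCard n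
      rwa [← orderOf_coe] at this))
  have h7 := CfsgLib.Transfer2.commute_of_nilpotent (p := p) hHn P₀.isPGroup' h6 x' hx'
  have h8 : ((n : H) : G) * x = x * ((n : H) : G) := by
    rw [← hxx]
    exact congrArg Subtype.val h7
  calc (((n : H) : G) * ((y : H) : G))⁻¹ * x * (((n : H) : G) * ((y : H) : G)) =
      ((y : H) : G)⁻¹ * (((n : H) : G)⁻¹ * (x * ((n : H) : G))) * ((y : H) : G) := by group
    _ = ((y : H) : G)⁻¹ * x * ((y : H) : G) := by rw [← h8]; group

end CfsgLib.H9X
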