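import Mathlib
import Cfsg.Agent.S0003
import Cfsg.Agent.S0004
import Cfsg.Agent.S0005
import Cfsg.Agent.Lib.H9Xg
import Cfsg.Agent.Lib.ChermakDelgado

/-! # S0561: products of Hall subgroups -/

set_option autoImplicit false
set_option maxHeartbeats 1000000
set_option linter.style.haveILetI false

namespace CfsgLib.H9X

open Subgroup
open scoped Pointwise

universe u

/-- the `T`-part of a number -/
theorem hall_lcm {G : Type u} [Group G] [Finite G] [Group.IsSolvable G] (A B : Subgroup G)
    (hAh : (Nat.card A).Coprime A.index) (hBh : (Nat.card B).Coprime B.index) :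
    ∃ x : G, ∃ T : Subgroup G, (T : Set G) = ((MulAut.conj x • A : Subgroup G) : Set G) * (B : Set G) := by
  have hcA := card_mul_index A
  have hcB := card_mul_index B
  set a := Nat.card A with ha
  set b := Nat.card B with hb
  have ha0 : 0 < a := Nat.card_pos
  have hb0 : 0 < b := Nat.card_pos
  -- order of the Hall subgroup
  set m := a.lcm b with hm
  have hmG : m ∣ Nat.card G := Nat.lcm_dvd (card_subgroup_dvd_card A) (card_subgroup_dvd_card B)
  obtain ⟨n, hn⟩ := hmG
  have hG0 : 0 < Nat.card G := Nat.card_pos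
  have hmn : m.Coprime n := by
    apply Nat.coprime_of_dvd
    intro p hp h1 h2
    have key : ∀ c i : ℕ, c * i = Nat.card G → c.Coprime i → c ∣ m → p ∣ c → False := by
      intro c i hci hc hcm hpc
      -- `p`-part of `c` is that of `G`
      have h3 : ¬ p ∣ i := fun h => hp.one_lt.ne' (Nat.eq_one_of_dvd_coprimes hc hpc h)
      have hc0 : c ≠ 0 := by rintro rfl; rw [zero_mul] at hci; omega
      have hi0 : i ≠ 0 := by rintro rfl; rw [mul_zero] at hci; omega
      have hm0 : m ≠ 0 := (Nat.lcm_pos ha0 hb0).ne'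
      have hn0 : n ≠ 0 := by rintro rfl; rw [mul_zero] at hn; omega
      have h4 : (Nat.card G).factorization p = c.factorization p := by
        rw [← hci, Nat.factorization_mul hc0 hi0, Finsupp.add_apply, Nat.factorization_eq_zero_of_not_dvd h3, add_zero]
      have h5 : (Nat.card G).factorization p = m.factorization p + n.factorization p := by
        rw [hn, Nat.factorization_mul hm0 hn0, Finsupp.add_apply]
      have h6 : c.factorization p ≤ m.factorization p := (Nat.factorization_le_iff_dvd hc0 hm0).2 hcm p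
      have h7 : 0 < n.factorization p := hp.factorization_pos_of_dvd hn0 h2
      omega
    rcases (Nat.Prime.dvd_mul hp).1 (h1.trans (Nat.lcm_dvd_mul a b)) with h | h
    · exact key a A.index hcA hAh (Nat.dvd_lcm_left a b) h
    · exact key b B.index hcB hBh (Nat.dvd_lcm_right a b) h
  have hBn : (Nat.card B).Coprime n := Nat.Coprime.coprime_dvd_left (Nat.dvd_lcm_right a b) hmn
  have hAn : (Nat.card A).Coprime n := Nat.Coprime.coprime_dvd_left (Nat.dvd_lcm_left a b) hmn
  obtain ⟨T, hT, hBT⟩ := Cfsg.Agent.S0005.result m n hn hmn B hBn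
  obtain ⟨T', hT', hAT⟩ := Cfsg.Agent.S0005.result m n hn hmn A hAn
  obtain ⟨x, hx⟩ := Cfsg.Agent.S0004.result m n hn hmn T' T hT' hT
  refine ⟨x, T, ?_⟩
  have hxA : MulAut.conj x • A ≤ T := by rw [← hx]; exact pointwise_smul_le_pointwise_smul_iff.2 hAT
  have hxc : Nat.card (MulAut.conj x • A : Subgroup G) = a := (Nat.card_congr (equivSMul (MulAut.conj x) A).toEquiv).symm
  symm
  apply Set.eq_of_subset_of_ncard_le
  · rintro _ ⟨y, hy, z, hz, rfl⟩
    exact T.mul_mem (hxA hy) (hBT hz)
  · have h1 := CfsgLib.CD.card_mul_card (MulAut.conj x • A) B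
    have h2 : Nat.card ((MulAut.conj x • A) ⊓ B : Subgroup G) ∣ a.gcd b := by
      apply Nat.dvd_gcd
      · rw [← hxc]; exact card_dvd_of_le inf_le_left
      · exact card_dvd_of_le inf_le_right
    have h3 := Nat.le_of_dvd (Nat.gcd_pos_of_pos_left b ha0) h2
    have h4 := Nat.gcd_mul_lcm a b
    have h5 : (T : Set G).ncard = m := by rw [← hT]; rfl
    rw [h5]
    rw [hxc] at h1
    have h6 : (((MulAut.conj x • A : Subgroup G) : Set G) * (B : Set G)).ncard = Nat.card (((MulAut.conj x • A : Subgroup G) : Set G) * (B : Set G) : Set G) := rfl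
    rw [h6]
    set c := Nat.card (((MulAut.conj x • A : Subgroup G) : Set G) * (B : Set G) : Set G)
    have h7 : a.gcd b * m ≤ a.gcd b * c := by
      rw [hm, h4, hb, h1, mul_comm]
      exact Nat.mul_le_mul_right _ h3
    exact Nat.le_of_mul_le_mul_left h7 (Nat.gcd_pos_of_pos_left b ha0)
  · exact Set.toFinite _

theorem mulconj {G : Type u} [Group G] {A B T : Subgroup G} (k : G) (h : (T : Set G) = (A : Set G) * (B : Set G)) :
    ((MulAut.conj k • T : Subgroup G) : Set G) = ((MulAut.conj k • A : Subgroup G) : Set G) * ((MulAut.conj k • B : Subgroup G) : Set G) := by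
  rw [coe_pointwise_smul, h, smul_mul', ← coe_pointwise_smul, ← coe_pointwise_smul]

theorem conj_eq_of_normal {G : Type u} [Group G] {A H : Subgroup G} (hA : A ≤ H) (hAn : (A.subgroupOf H).Normal) {h : G} (hh : h ∈ H) :
    MulAut.conj h • A = A := by
  rw [← mem_norm]
  rw [normal_subgroupOf_iff_le_normalizer hA] at hAn
  exact hAn hh

theorem s0561 {G : Type u} [Group G] [Finite G] [Group.IsSolvable G] (H K A B : Subgroup G) (hHK : ∀ g : G, ∃ h ∈ H, ∃ k ∈ K, g = h * k)
    (hA : A ≤ H) (hAn : (A.subgroupOf H).Normal) (hB : B ≤ K) (hBn : (B.subgroupOf K).Normal)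
    (hAh : (Nat.card A).Coprime A.index) (hBh : (Nat.card B).Coprime B.index) (x y : G) :
    ∃ S : Subgroup G, (S : Set G) = ((MulAut.conj x • A : Subgroup G) : Set G) * ((MulAut.conj y • B : Subgroup G) : Set G) := by
  -- factorization `z = k h`
  have hfac : ∀ z : G, ∃ k ∈ K, MulAut.conj z • A = MulAut.conj k • A := by
    intro z
    obtain ⟨h, hh, k, hk, hz⟩ := hHK z⁻¹
    refine ⟨k⁻¹, K.inv_mem hk, ?_⟩
    have : z = k⁻¹ * h⁻¹ := by rw [← mul_inv_rev, ← hz, inv_inv]
    rw [this, ← conj_conj, conj_eq_of_normal hA hAn (H.inv_mem hh)]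
  obtain ⟨x₀, T, hT⟩ := hall_lcm A B hAh hBh
  obtain ⟨k₀, hk₀, hx₀⟩ := hfac x₀
  rw [hx₀] at hT
  -- `A B` is a subgroup
  have hAB : ((MulAut.conj k₀⁻¹ • T : Subgroup G) : Set G) = (A : Set G) * (B : Set G) := by
    have h1 := mulconj k₀⁻¹ hT
    rw [conj_conj, inv_mul_cancel, map_one, one_smul, conj_eq_of_normal hB hBn (K.inv_mem hk₀)] at h1
    exact h1
  set T₁ := MulAut.conj k₀⁻¹ • T with hT₁
  obtain ⟨k, hk, hxk⟩ := hfac (y⁻¹ * x)
  have h2 := mulconj k hAB
  rw [conj_eq_of_normal hB hBn hk, ← hxk] at h2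
  have h3 := mulconj y h2
  rw [conj_conj y (y⁻¹ * x) A, mul_inv_cancel_left] at h3
  exact ⟨_, h3⟩

end CfsgLib.H9X
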