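import Mathlib
import Cfsg.Agent.Lib.H9Xh
import Cfsg.Agent.Lib.ChermakDelgado
import Cfsg.Prelude.Def_SolvableStructure
import Cfsg.Agent.S0004
import Cfsg.Agent.S0007

/-! # System normalizers, conjugacy of complement systems -/

set_option autoImplicit false
set_option maxHeartbeats 1000000
set_option linter.style.haveILetI false

namespace CfsgLib.H9X

open Subgroup
open CfsgLib.NPC
open scoped Pointwise

universe u

theorem compl_coprime {G : Type u} [Group G] [Finite G] {K : Nat.Primes → Subgroup G} (hK : Cfsg.IsComplementSystem K) (p : Nat.Primes) :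
    (Nat.card (K p)).Coprime (p : ℕ) := by
  have h1 := card_mul_index (K p)
  rw [hK p] at h1
  have hG0 : Nat.card G ≠ 0 := Nat.card_pos.ne'
  have h2 : (Nat.card G).factorization p = (Nat.card (K p)).factorization p + (Nat.card G).factorization p := by
    conv_lhs => rw [← h1]
    rw [Nat.factorization_mul Nat.card_pos.ne' (pow_pos p.2.pos _).ne', Finsupp.add_apply, p.2.factorization_pow]
    simp
  have h3 : (Nat.card (K p)).factorization p = 0 := by omega
  rw [Nat.coprime_comm, Nat.Prime.coprime_iff_not_dvd p.2]
  intro hd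
  exact absurd (p.2.factorization_pos_of_dvd Nat.card_pos.ne' hd) (by omega)

theorem s0544 {G : Type u} [Group G] [Finite G] (K : Nat.Primes → Subgroup G) (hK : Cfsg.IsComplementSystem K) :
    Group.IsNilpotent (Cfsg.systemNormalizer K) := by
  apply nil_of_npc _ _ le_rfl
  intro p hp
  haveI : Fact p.Prime := ⟨hp⟩
  set N := Cfsg.systemNormalizer K with hN
  set q : Nat.Primes := ⟨p, hp⟩ with hq
  have hNn : N ≤ normalizer (K q : Set G) := iInf_le _ q
  have hnn : ((K q).subgroupOf (normalizer (K q : Set G))).Normal := normal_in_normalizer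
  have hn : ((K q).subgroupOf N).Normal := by
    refine ⟨fun x hx g => ?_⟩
    rw [mem_subgroupOf] at hx ⊢
    exact (mem_normalizer_iff.1 (hNn g.2) _).1 hx
  have h1 : (K q).relIndex N ∣ (K q).index := by
    have h2 := relIndex_dvd_index_of_normal ((K q).subgroupOf (normalizer (K q : Set G))) (N.subgroupOf (normalizer (K q : Set G)))
    rw [relIndex_subgroupOf hNn] at h2
    exact h2.trans (Dvd.intro _ (relIndex_mul_index le_normalizer))
  rw [hK q] at h1
  obtain ⟨k, -, hk⟩ := (Nat.dvd_prime_pow hp).1 h1
  refine ⟨(K q).subgroupOf N, hn, ?_, k, hk⟩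
  have h3 : Nat.card ((K q).subgroupOf N) ∣ Nat.card (K q) := by
    have : Nat.card ((K q).subgroupOf N) = Nat.card (((K q).subgroupOf N).map N.subtype) := (card_map_of_injective N.subtype_injective).symm
    rw [this, subgroupOf_map_subtype]
    exact card_dvd_of_le inf_le_left
  exact Nat.Coprime.coprime_dvd_left h3 (compl_coprime hK q)

theorem coprime_index {G : Type u} [Group G] [Finite G] {L : Nat.Primes → Subgroup G} (hL : Cfsg.IsComplementSystem L)
    (s : Finset Nat.Primes) (q : Nat.Primes) (hq : q ∉ s) : (s.inf L).index.Coprime (L q).index := by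
  classical
  induction s using Finset.induction_on generalizing q with
  | empty => simp
  | insert a s ha ih =>
    rw [Finset.mem_insert, not_or] at hq
    rw [Finset.inf_insert]
    have h1 := ih a ha
    rw [(Cfsg.Agent.S0007.result (L a) (s.inf L) h1.symm).1]
    refine Nat.Coprime.mul_left ?_ (ih q hq.2)
    rw [hL a, hL q]
    apply Nat.Coprime.pow
    exact (Nat.coprime_primes a.2 q.2).2 fun h => hq.1 (Subtype.ext h.symm)

theorem conj_system {G : Type u} [Group G] [Finite G] {K : Nat.Primes → Subgroup G} (hK : Cfsg.IsComplementSystem K) (g : G) :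
    Cfsg.IsComplementSystem fun p => MulAut.conj g • K p := by
  intro p
  rw [← hK p]
  have h1 := card_mul_index (MulAut.conj g • K p)
  rw [← Nat.card_congr (equivSMul (MulAut.conj g) (K p)).toEquiv, ← card_mul_index (K p)] at h1
  exact Nat.eq_of_mul_eq_mul_left Nat.card_pos h1

theorem s0543 {G : Type u} [Group G] [Finite G] [Group.IsSolvable G] (K L : Nat.Primes → Subgroup G) (hK : Cfsg.IsComplementSystem K)
    (hL : Cfsg.IsComplementSystem L) : ∃ g : G, ∀ p : Nat.Primes, MulAut.conj g • K p = L p := by
  classical
  have key : ∀ s : Finset Nat.Primes, ∃ g : G, ∀ p ∈ s, MulAut.conj g • K p = L p := by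
    intro s
    induction s using Finset.induction_on with
    | empty => exact ⟨1, by simp⟩
    | insert q s hq ih =>
      obtain ⟨g, hg⟩ := ih
      have hK' := conj_system hK g
      have hcard : Nat.card (MulAut.conj g • K q : Subgroup G) = Nat.card (L q) := by
        have h1 := card_mul_index (MulAut.conj g • K q)
        have h2 := card_mul_index (L q)
        have h3 : (MulAut.conj g • K q).index = (L q).index := by rw [hL q]; exact hK' q
        rw [h3, ← h2] at h1
        exact Nat.eq_of_mul_eq_mul_right (Nat.pos_of_ne_zero index_ne_zero_of_finite) h1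
      obtain ⟨x, hx⟩ := Cfsg.Agent.S0004.result (Nat.card (L q)) (L q).index (card_mul_index (L q)).symm (by
        rw [hL q]; exact Nat.Coprime.pow_right _ (compl_coprime hL q)) (MulAut.conj g • K q) (L q) hcard rfl
      have hcop : (s.inf L).index.Coprime (MulAut.conj g • K q).index := by
        have h3 : (MulAut.conj g • K q).index = (L q).index := by rw [hL q]; exact hK' q
        rw [h3]
        exact coprime_index hL s q hq
      obtain ⟨c, hc, k, hk, rfl⟩ := (Cfsg.Agent.S0007.result (s.inf L) (MulAut.conj g • K q) hcop).2 x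
      rw [← conj_conj, conj_smul_eq_self_of_mem hk] at hx
      refine ⟨c * g, fun p hp => ?_⟩
      rw [← conj_conj]
      rcases Finset.mem_insert.1 hp with rfl | hp
      · exact hx
      · rw [hg p hp]
        exact conj_smul_eq_self_of_mem ((Finset.inf_le hp : s.inf L ≤ L p) hc)
  obtain ⟨g, hg⟩ := key (Finset.subtype (fun p : ℕ => p.Prime) (Nat.card G).primeFactors : Finset {p : ℕ // p.Prime})
  refine ⟨g, fun p => ?_⟩
  by_cases hp : (p : ℕ) ∣ Nat.card G
  · exact hg p (Finset.mem_subtype.2 (Nat.mem_primeFactors.2 ⟨p.2, hp, Nat.card_pos.ne'⟩))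
  · have h1 : (K p).index = 1 := by rw [hK p, Nat.factorization_eq_zero_of_not_dvd hp, pow_zero]
    have h2 : (L p).index = 1 := by rw [hL p, Nat.factorization_eq_zero_of_not_dvd hp, pow_zero]
    rw [index_eq_one.1 h1, index_eq_one.1 h2]
    exact CfsgLib.H3Misc.conj_smul_eq_top.2 rfl

end CfsgLib.H9X
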