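import Mathlib
import Cfsg.Agent.Lib.H9Xh
import Cfsg.Prelude.Def_SolvableStructure

/-! # Minimal non-nilpotent groups -/

set_option autoImplicit false
set_option maxHeartbeats 1000000
set_option linter.style.haveILetI false

namespace CfsgLib.H9X

open Subgroup
open CfsgLib.NPC
open scoped Pointwise

universe u

/-- an element outside `C` has a power of prime power order outside `C` -/
theorem exists_prime_power {G : Type u} [Group G] [Finite G] (C : Subgroup G) : ∀ (n : ℕ) (g : G), orderOf g ≤ n → g ∉ C →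
    ∃ k : ℕ, g ^ k ∉ C ∧ ∃ p : ℕ, p.Prime ∧ ∃ a : ℕ, orderOf (g ^ k) = p ^ a := by
  intro n
  induction n with
  | zero => intro g hg; exact absurd hg (by have := orderOf_pos g; omega)
  | succ n ih =>
    intro g hn hg
    have hg1 : orderOf g ≠ 1 := by
      intro h
      rw [orderOf_eq_one_iff] at h
      exact hg (h ▸ C.one_mem)
    obtain ⟨p, hp, hpg⟩ := Nat.exists_prime_and_dvd hg1
    haveI : Fact p.Prime := ⟨hp⟩
    obtain ⟨i, j, hij, ⟨a, ha⟩, hj⟩ := CfsgLib.Core.exists_ppart g p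
    by_cases hi : g ^ i ∈ C
    · have hjC : g ^ j ∉ C := fun h => hg (by rw [hij]; exact C.mul_mem hi h)
      have hlt : orderOf (g ^ j) < orderOf g := by
        apply lt_of_le_of_ne (Nat.le_of_dvd (orderOf_pos g) (orderOf_pow_dvd j))
        intro h
        rw [h] at hj
        exact hj hpg
      obtain ⟨k, hk, h⟩ := ih (g ^ j) (by omega) hjC
      exact ⟨j * k, by rw [pow_mul]; exact hk, by rw [pow_mul]; exact h⟩
    · exact ⟨i, hi, p, hp, a, ha⟩

theorem card_sup_coprime {G : Type u} [Group G] [Finite G] {A Q : Subgroup G} (hn : A ≤ normalizer (Q : Set G)) (hc : (Nat.card A).Coprime (Nat.card Q)) :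
    Nat.card (A ⊔ Q : Subgroup G) = Nat.card A * Nat.card Q :=
  card_sup_of hn (disjoint_of_coprime_natCard hc).eq_bot

/-- the structure of minimal non-nilpotent groups -/
theorem schmidt_structure {G : Type u} [Group G] [Finite G] (hG : Cfsg.IsMinimalNonNilpotent G) : ∃ p q : ℕ, p.Prime ∧ q.Prime ∧ p ≠ q ∧
    ∃ (P : Sylow p G) (Q : Sylow q G), IsCyclic P ∧ (Q : Subgroup G).Normal ∧ (P : Subgroup G) ⊔ Q = ⊤ := by
  obtain ⟨hnn, hpr⟩ := hG
  obtain ⟨q, hq, hN⟩ : ∃ q : ℕ, ∃ hq : q.Prime, ¬ (haveI : Fact q.Prime := ⟨hq⟩; NPC q G) := by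
    by_contra hcon
    push Not at hcon
    exact hnn (nil_of_npc _ G le_rfl hcon)
  haveI : Fact q.Prime := ⟨hq⟩
  have hN' : ¬ FrobCond q G := fun h => hN (npc_iff_frobCond.2 h)
  rw [FrobCond] at hN'
  push Not at hN'
  obtain ⟨Q₁, hQ₁, g, hg, hgc, hgC⟩ := hN'
  obtain ⟨k, hk, p, hp, a, ha⟩ := exists_prime_power _ _ g le_rfl hgC
  haveI : Fact p.Prime := ⟨hp⟩
  set x := g ^ k with hx
  have hxn : x ∈ normalizer (Q₁ : Set G) := pow_mem hg k
  have hx1 : x ≠ 1 := fun h => hk (h ▸ one_mem _)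
  have ha0 : a ≠ 0 := by
    rintro rfl
    rw [pow_zero, orderOf_eq_one_iff] at ha
    exact hx1 ha
  have hpq : p ≠ q := by
    rintro rfl
    have h1 : p ∣ orderOf g := (dvd_pow_self p ha0).trans (ha ▸ orderOf_pow_dvd k)
    exact (Nat.Prime.coprime_iff_not_dvd hp).1 hgc.symm h1
  have hZN : zpowers x ≤ normalizer (Q₁ : Set G) := by rwa [zpowers_le]
  have hcop : (Nat.card (zpowers x)).Coprime (Nat.card Q₁) := by
    obtain ⟨b, hb⟩ := IsPGroup.iff_card.1 hQ₁
    rw [Nat.card_zpowers, ha, hb]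
    exact Nat.Coprime.pow _ _ ((Nat.coprime_primes hp hq).2 hpq)
  have htop : zpowers x ⊔ Q₁ = ⊤ := by
    by_contra hne
    have hnil := hpr _ hne
    apply hk
    rw [mem_centralizer_iff]
    intro y hy
    have hQL : Q₁ ≤ zpowers x ⊔ Q₁ := le_sup_right
    have hxL : x ∈ zpowers x ⊔ Q₁ := mem_sup_left (mem_zpowers x)
    have h1 := CfsgLib.Transfer2.commute_of_nilpotent (p := q) hnil (P := Q₁.subgroupOf (zpowers x ⊔ Q₁))
      (hQ₁.of_equiv (subgroupOfEquivOfLe hQL).symm) (x := ⟨x, hxL⟩) (by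
        rw [orderOf_mk, ha]
        intro hd
        exact hpq ((Nat.prime_dvd_prime_iff_eq hq hp).1 (hq.dvd_of_dvd_pow hd)).symm) ⟨y, hQL hy⟩ (mem_subgroupOf.2 hy)
    exact (congrArg Subtype.val h1).symm
  have hcard := card_sup_coprime hZN hcop
  rw [htop, card_top, Nat.card_zpowers, ha] at hcard
  obtain ⟨b, hb⟩ := IsPGroup.iff_card.1 hQ₁
  rw [hb] at hcard
  have hQn : Q₁.Normal := by
    rw [← normalizer_eq_top_iff, eq_top_iff, ← htop]
    exact sup_le hZN le_normalizer
  have hf1 : (Nat.card G).factorization p = a := by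
    rw [hcard, Nat.factorization_mul (pow_pos hp.pos _).ne' (pow_pos hq.pos _).ne', Finsupp.add_apply, hp.factorization_pow,
      hq.factorization_pow]
    simp [Finsupp.single_apply, hpq.symm]
  have hf2 : (Nat.card G).factorization q = b := by
    rw [hcard, Nat.factorization_mul (pow_pos hp.pos _).ne' (pow_pos hq.pos _).ne', Finsupp.add_apply, hp.factorization_pow,
      hq.factorization_pow]
    simp [Finsupp.single_apply, hpq]
  refine ⟨p, q, hp, hq, hpq, Sylow.ofCard (zpowers x) (by rw [Nat.card_zpowers, ha, hf1]), Sylow.ofCard Q₁ (by rw [hb, hf2]), ?_, hQn, htop⟩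
  show IsCyclic (zpowers x)
  infer_instance

end CfsgLib.H9X

namespace CfsgLib.H9X

open Subgroup
open CfsgLib.NPC
open scoped Pointwise

universe u

theorem mem_sup_commute {G : Type*} [Group G] {P N : Subgroup G} (h : ∀ a ∈ P, ∀ b ∈ N, a * b = b * a) {x : G} (hx : x ∈ P ⊔ N) :
    ∃ a ∈ P, ∃ b ∈ N, x = a * b := by
  have hn : P ≤ normalizer (N : Set G) := by
    intro a ha
    rw [mem_normalizer_iff]
    intro b
    constructor
    · intro hb
      have e : a * b * a⁻¹ = b := by rw [h a ha b hb]; group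
      rw [e]; exact hb
    · intro hb
      have e : b = a * b * a⁻¹ := by
        have := h a ha _ hb
        calc b = a⁻¹ * (a * b * a⁻¹ * a) := by group
          _ = a⁻¹ * (a * (a * b * a⁻¹)) := by rw [this]
          _ = _ := by group
      rw [e]; exact hb
  have hx' : x ∈ ((P ⊔ N : Subgroup G) : Set G) := hx
  rw [coe_mul_of_left_le_normalizer_right _ _ hn] at hx'
  obtain ⟨a, ha, b, hb, hab⟩ := hx'
  exact ⟨a, ha, b, hb, hab.symm⟩

theorem comm_of_sup {G : Type*} [Group G] {P N : Subgroup G} (h : ∀ a ∈ P, ∀ b ∈ N, a * b = b * a) (htop : P ⊔ N = ⊤)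
    (hP : ∀ a ∈ P, ∀ b ∈ P, a * b = b * a) (hN : ∀ a ∈ N, ∀ b ∈ N, a * b = b * a) (x y : G) : x * y = y * x := by
  obtain ⟨a, ha, b, hb, rfl⟩ := mem_sup_commute h (x := x) (by rw [htop]; trivial)
  obtain ⟨c, hc, d, hd, rfl⟩ := mem_sup_commute h (x := y) (by rw [htop]; trivial)
  have h1 : Commute a c := hP a ha c hc
  have h2 : Commute a d := h a ha d hd
  have h3 : Commute b c := (h c hc b hb).symm
  have h4 : Commute b d := hN b hb d hd
  exact ((h1.mul_right h2).mul_left (h3.mul_right h4)).eq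

theorem comm_of_isMul {G : Type*} [Group G] {H : Subgroup G} (h : IsMulCommutative H) : ∀ a ∈ H, ∀ b ∈ H, a * b = b * a :=
  fun a ha b hb => congrArg Subtype.val (mul_comm' (⟨a, ha⟩ : H) ⟨b, hb⟩)

theorem s0537 {G : Type u} [Group G] [Finite G] (hna : ¬ IsMulCommutative G) (h : ∀ H : Subgroup G, H ≠ ⊤ → IsMulCommutative H) :
    (∃ p : ℕ, p.Prime ∧ IsPGroup p G) ∨ ∃ p q : ℕ, p.Prime ∧ q.Prime ∧ p ≠ q ∧ ∃ (P : Sylow p G) (Q : Sylow q G), IsCyclic P ∧
      (Q : Subgroup G).Normal ∧ Cfsg.IsElementaryAbelian q (Q : Subgroup G) ∧ (P : Subgroup G) ⊔ Q = ⊤ := by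
  have hna' : ¬ ∀ x y : G, x * y = y * x := fun hh => hna ⟨⟨hh⟩⟩
  by_cases hnil : Group.IsNilpotent G
  · left
    have hG1 : Nat.card G ≠ 1 := by
      intro h1
      haveI := (Nat.card_eq_one_iff_unique.1 h1).1
      exact hna' fun x y => Subsingleton.elim _ _
    obtain ⟨p, hp, hpG⟩ := Nat.exists_prime_and_dvd hG1
    haveI : Fact p.Prime := ⟨hp⟩
    refine ⟨p, hp, ?_⟩
    by_contra hnp
    have hnil' : Group.IsNilpotent (⊤ : Subgroup G) := Group.isNilpotent_top.mpr hnil
    obtain ⟨P, N, -, -, hPp, hNc, hPN, hcomm, hcard⟩ := nil_decomp hnil' p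
    apply hna'
    apply comm_of_sup hcomm hPN.symm
    · apply comm_of_isMul
      apply h
      rintro rfl
      exact hnp (hPp.of_equiv topEquiv)
    · apply comm_of_isMul
      apply h
      rintro rfl
      rw [card_top] at hNc
      exact (Nat.Prime.coprime_iff_not_dvd hp).1 hNc.symm hpG
  · right
    have hmin : Cfsg.IsMinimalNonNilpotent G := ⟨hnil, fun H hH => by
      haveI := h H hH
      letI : CommGroup H := { (inferInstance : Group H) with mul_comm := fun a b => mul_comm' a b }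
      infer_instance⟩
    obtain ⟨p, q, hp, hq, hpq, P, Q, hPc, hQn, hPQ⟩ := schmidt_structure hmin
    haveI : Fact p.Prime := ⟨hp⟩
    haveI : Fact q.Prime := ⟨hq⟩
    have hQt : (Q : Subgroup G) ≠ ⊤ := by
      intro ht
      apply hnil
      have h1 : IsPGroup q (⊤ : Subgroup G) := by rw [← ht]; exact Q.isPGroup'
      have h2 : IsPGroup q G := h1.of_equiv topEquiv
      exact h2.isNilpotent
    have hQab := comm_of_isMul (h _ hQt)
    have hPab : ∀ a ∈ (P : Subgroup G), ∀ b ∈ (P : Subgroup G), a * b = b * a := by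
      haveI : IsCyclic (P : Subgroup G) := hPc
      intro a ha b hb
      have h1 : (⟨a, ha⟩ : (P : Subgroup G)) * ⟨b, hb⟩ = ⟨b, hb⟩ * ⟨a, ha⟩ := by
        letI := IsCyclic.commGroup (α := (P : Subgroup G))
        exact mul_comm _ _
      exact congrArg Subtype.val h1
    refine ⟨p, q, hp, hq, hpq, P, Q, hPc, hQn, ⟨h _ hQt, ?_⟩, hPQ⟩
    let U : Subgroup G :=
      { carrier := {x | x ∈ (Q : Subgroup G) ∧ x ^ q = 1}
        mul_mem' := by
          rintro a b ⟨ha, ha1⟩ ⟨hb, hb1⟩
          refine ⟨mul_mem ha hb, ?_⟩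
          have hc : Commute a b := hQab a ha b hb
          rw [hc.mul_pow, ha1, hb1, mul_one]
        one_mem' := ⟨one_mem _, one_pow _⟩
        inv_mem' := by
          rintro a ⟨ha, ha1⟩
          exact ⟨inv_mem ha, by rw [inv_pow, ha1, inv_one]⟩ }
    have hUQ : U ≤ Q := fun x hx => hx.1
    have hUn : U.Normal := by
      refine ⟨fun x hx g => ⟨hQn.conj_mem x hx.1 g, ?_⟩⟩
      rw [conj_pow, hx.2]; group
    have hcop : (Nat.card (P : Subgroup G)).Coprime (Nat.card (Q : Subgroup G)) := by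
      obtain ⟨a, ha⟩ := IsPGroup.iff_card.1 P.isPGroup'
      obtain ⟨b, hb⟩ := IsPGroup.iff_card.1 Q.isPGroup'
      rw [ha, hb]
      exact Nat.Coprime.pow _ _ ((Nat.coprime_primes hp hq).2 hpq)
    have hPU : (P : Subgroup G) ⊔ U = ⊤ := by
      by_contra hne
      have hab := comm_of_isMul (h _ hne)
      have h1 : (P : Subgroup G) ≤ centralizer ((Q : Subgroup G) : Set G) := by
        apply CfsgLib.Coprime.le_centralizer_of_abelian_prime (h _ hQt) (by rw [normalizer_eq_top_iff.2 hQn]; exact le_top) hcop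
        intro v hv hvp a ha
        apply hab a (mem_sup_left ha) v (mem_sup_right ?_)
        refine ⟨hv, ?_⟩
        obtain ⟨b, hb⟩ := IsPGroup.iff_orderOf.1 Q.isPGroup' ⟨v, hv⟩
        rw [orderOf_mk] at hb
        rw [hb] at hvp
        have hb1 : b = 1 := by
          by_contra hb1
          exact hvp.ne_one (by
            rcases Nat.eq_zero_or_pos b with rfl | hb0
            · simp
            · exact absurd hvp (Nat.Prime.not_prime_pow (by omega)))
        rw [← orderOf_dvd_iff_pow_eq_one, hb, hb1, pow_one]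
      apply hna'
      apply comm_of_sup _ hPQ hPab hQab
      intro a ha b hb
      exact ((mem_centralizer_iff.1 (h1 ha)) b hb).symm
    have hcopU : (Nat.card (P : Subgroup G)).Coprime (Nat.card U) := Nat.Coprime.coprime_dvd_right (card_dvd_of_le hUQ) hcop
    have e1 := card_sup_coprime (A := (P : Subgroup G)) (Q := U) (by rw [normalizer_eq_top_iff.2 hUn]; exact le_top) hcopU
    have e2 := card_sup_coprime (A := (P : Subgroup G)) (Q := (Q : Subgroup G)) (by rw [normalizer_eq_top_iff.2 hQn]; exact le_top) hcop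
    rw [hPU] at e1
    rw [hPQ, e1] at e2
    have e3 : U = Q := eq_of_le_of_card_ge hUQ (Nat.eq_of_mul_eq_mul_left Nat.card_pos e2).ge
    intro a ha
    have : a ∈ U := by rw [e3]; exact ha
    exact this.2

theorem nil_of_two_normal {G : Type u} [Group G] [Finite G] {p q : ℕ} (hp : p.Prime) (hq : q.Prime) (P : Sylow p G) (Q : Sylow q G)
    (hPn : (P : Subgroup G).Normal) (hQn : (Q : Subgroup G).Normal) (h : (P : Subgroup G) ⊔ Q = ⊤) (hpq : p ≠ q) : Group.IsNilpotent G := by
  haveI : Fact p.Prime := ⟨hp⟩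
  haveI : Fact q.Prime := ⟨hq⟩
  have hcop : (Nat.card (P : Subgroup G)).Coprime (Nat.card (Q : Subgroup G)) := by
    obtain ⟨a, ha⟩ := IsPGroup.iff_card.1 P.isPGroup'
    obtain ⟨b, hb⟩ := IsPGroup.iff_card.1 Q.isPGroup'
    rw [ha, hb]
    exact Nat.Coprime.pow _ _ ((Nat.coprime_primes hp hq).2 hpq)
  have hcard := card_sup_coprime (A := (P : Subgroup G)) (Q := (Q : Subgroup G)) (by rw [normalizer_eq_top_iff.2 hQn]; exact le_top) hcop
  rw [h, card_top] at hcard
  refine ((Group.isNilpotent_of_finite_tfae (G := G)).out 0 3).mpr ?_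
  intro s hs S
  by_cases hsp : s = p
  · subst hsp
    haveI := Sylow.unique_of_normal P hPn
    rw [Subsingleton.elim S P]; exact hPn
  by_cases hsq : s = q
  · subst hsq
    haveI := Sylow.unique_of_normal Q hQn
    rw [Subsingleton.elim S Q]; exact hQn
  have hsG : ¬ s ∣ Nat.card G := by
    intro hd
    rw [hcard] at hd
    obtain ⟨a, ha⟩ := IsPGroup.iff_card.1 P.isPGroup'
    obtain ⟨b, hb⟩ := IsPGroup.iff_card.1 Q.isPGroup'
    rw [ha, hb] at hd
    rcases (Nat.Prime.dvd_mul hs.out).1 hd with h1 | h1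
    · exact hsp ((Nat.prime_dvd_prime_iff_eq hs.out hp).1 (hs.out.dvd_of_dvd_pow h1))
    · exact hsq ((Nat.prime_dvd_prime_iff_eq hs.out hq).1 (hs.out.dvd_of_dvd_pow h1))
  have h1 : (S : Subgroup G) = ⊥ := by
    rw [← card_eq_one]
    have h2 := S.card_eq_multiplicity
    rw [Nat.factorization_eq_zero_of_not_dvd hsG, pow_zero] at h2
    exact h2
  rw [h1]; infer_instance

end CfsgLib.H9X
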