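import Mathlib
import Cfsg.Agent.Lib.H9Xk
import Cfsg.Agent.Lib.Coprime2
import Cfsg.Agent.Lib.PGrp

/-! # S0577 -/

set_option autoImplicit false
set_option maxHeartbeats 1000000
set_option linter.style.haveILetI false

namespace CfsgLib.H9X

open Subgroup
open CfsgLib.NPC
open scoped Pointwise commutatorElement

universe u

theorem s0577 {G : Type u} [Group G] [Finite G] (hG : Cfsg.IsMinimalNonNilpotent G) (q : ℕ) [Fact q.Prime] (hq : q ∣ Nat.card G)
    (Q : Sylow q G) (hQ : (Q : Subgroup G).Normal) (D : Subgroup G) [D.Normal] (hD : D = (commutator ↥(Q : Subgroup G)).map (Q : Subgroup G).subtype) :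
    ¬ IsMulCommutative (G ⧸ D) ∧ ∀ K : Subgroup (G ⧸ D), K ≠ ⊤ → IsMulCommutative K := by
  obtain ⟨p, r, hp, hr, hpr, P, R, hPc, hRn, hPR⟩ := schmidt_structure hG
  haveI : Fact p.Prime := ⟨hp⟩
  haveI : Fact r.Prime := ⟨hr⟩
  have hqr : q = r := by
    have hcop : (Nat.card (P : Subgroup G)).Coprime (Nat.card (R : Subgroup G)) := by
      obtain ⟨a, ha⟩ := IsPGroup.iff_card.1 P.isPGroup'
      obtain ⟨b, hb⟩ := IsPGroup.iff_card.1 R.isPGroup'
      rw [ha, hb]
      exact Nat.Coprime.pow _ _ ((Nat.coprime_primes hp hr).2 hpr)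
    have hcard := card_sup_coprime (A := (P : Subgroup G)) (Q := (R : Subgroup G)) (by rw [normalizer_eq_top_iff.2 hRn]; exact le_top) hcop
    rw [hPR, card_top] at hcard
    rw [hcard] at hq
    obtain ⟨a, ha⟩ := IsPGroup.iff_card.1 P.isPGroup'
    obtain ⟨b, hb⟩ := IsPGroup.iff_card.1 R.isPGroup'
    rw [ha, hb] at hq
    have hqp : q.Prime := Fact.out
    rcases (Nat.Prime.dvd_mul hqp).1 hq with h1 | h1
    · have e := (Nat.prime_dvd_prime_iff_eq hqp hp).1 (hqp.dvd_of_dvd_pow h1)
      subst e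
      exfalso
      apply hG.1
      haveI := Sylow.unique_of_normal Q hQ
      have e2 : P = Q := Subsingleton.elim _ _
      exact nil_of_two_normal hp hr P R (by rw [e2]; exact hQ) hRn hPR hpr
    · exact (Nat.prime_dvd_prime_iff_eq hqp hr).1 (hqp.dvd_of_dvd_pow h1)
  subst hqr
  haveI := Sylow.unique_of_normal Q hQ
  have e2 : R = Q := Subsingleton.elim _ _
  subst e2
  have hcop : (Nat.card (P : Subgroup G)).Coprime (Nat.card (R : Subgroup G)) := by
    obtain ⟨a, ha⟩ := IsPGroup.iff_card.1 P.isPGroup'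
    obtain ⟨b, hb⟩ := IsPGroup.iff_card.1 R.isPGroup'
    rw [ha, hb]
    exact Nat.Coprime.pow _ _ ((Nat.coprime_primes hp hr).2 hpr)
  have hPcomm : IsMulCommutative (P : Subgroup G) := by
    haveI : IsCyclic (P : Subgroup G) := hPc
    letI := IsCyclic.commGroup (α := (P : Subgroup G))
    exact ⟨⟨fun a b => mul_comm a b⟩⟩
  constructor
  · intro hcomm
    have h1 : ∀ x y : G, x * y * x⁻¹ * y⁻¹ ∈ D := by
      intro x y
      rw [← QuotientGroup.eq_one_iff]
      have h2 : (QuotientGroup.mk x : G ⧸ D) * QuotientGroup.mk y = QuotientGroup.mk y * QuotientGroup.mk x := mul_comm' _ _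
      show (QuotientGroup.mk x : G ⧸ D) * QuotientGroup.mk y * (QuotientGroup.mk x)⁻¹ * (QuotientGroup.mk y)⁻¹ = 1
      rw [h2]; group
    have h2 : D ≤ (frattini (R : Subgroup G)).map (R : Subgroup G).subtype := by
      rw [hD]
      exact Subgroup.map_mono (CfsgLib.PGrp.commutator_le_frattini R.isPGroup')
    have h3 : (P : Subgroup G) ≤ centralizer ((R : Subgroup G) : Set G) := by
      have hcf : (Nat.card (P : Subgroup G)).Coprime (Nat.card (frattini (R : Subgroup G))) :=
        Nat.Coprime.coprime_dvd_right (card_subgroup_dvd_card _) hcop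
      have hact : CfsgLib.Coprime.CopAct (P : Subgroup G) (R : Subgroup G) := by
        refine ⟨by rw [normalizer_eq_top_iff.2 hQ]; exact le_top, hcop, Or.inl ?_⟩
        haveI := P.isPGroup'.isNilpotent
        infer_instance
      apply CfsgLib.Coprime.le_centralizer_of_frattini hcf
      intro a _ k _
      exact h2 (h1 a k)
    apply hG.1
    apply nil_of_two_normal hp hr P R _ hRn hPR hpr
    rw [← normalizer_eq_top_iff, eq_top_iff, ← hPR]
    refine sup_le le_normalizer ?_
    intro k hk
    rw [mem_normalizer_iff]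
    intro a
    have h5 : ∀ b ∈ (P : Subgroup G), k * b * k⁻¹ = b := by
      intro b hb
      have := (mem_centralizer_iff.1 (h3 hb)) k hk
      rw [this]; group
    constructor
    · intro ha
      rw [h5 a ha]; exact ha
    · intro ha
      have h6 := h5 _ ha
      have h7 : k * a * k⁻¹ = a := by
        have : k * (k * a * k⁻¹) * k⁻¹ = k * a * k⁻¹ := h6
        exact mul_left_cancel (mul_right_cancel this)
      rw [h7] at ha
      exact ha
  · intro K hK
    set H := K.comap (QuotientGroup.mk' D) with hH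
    have hHt : H ≠ ⊤ := by
      intro h
      apply hK
      rw [eq_top_iff]
      intro x _
      obtain ⟨y, rfl⟩ := QuotientGroup.mk'_surjective D x
      have : y ∈ H := by rw [h]; trivial
      exact this
    have hHn := hG.2 H hHt
    obtain ⟨P', N', hPH, hNH, hPp, hNc, hPN, hcm, hcard⟩ := nil_decomp hHn q
    have hP'Q : P' ≤ R := by
      intro x hx
      apply le_of_coprime_index
      obtain ⟨a, ha⟩ := IsPGroup.iff_orderOf.1 hPp ⟨x, hx⟩
      rw [orderOf_mk] at ha
      rw [ha]
      exact Nat.Coprime.pow_left _ ((Nat.Prime.coprime_iff_not_dvd hr).2 R.not_dvd_index)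
    have hcQ : commutator G ≤ R := Subgroup.Normal.commutator_le_of_self_sup_commutative_eq_top (by rw [sup_comm]; exact hPR) hPcomm
    have hN'c : ∀ a ∈ N', ∀ b ∈ N', a * b = b * a := by
      intro a ha b hb
      have h1 : ⁅a, b⁆ ∈ N' := by
        rw [commutatorElement_def]
        exact mul_mem (mul_mem (mul_mem ha hb) (inv_mem ha)) (inv_mem hb)
      have h2 : ⁅a, b⁆ ∈ (R : Subgroup G) := hcQ (commutator_mem_commutator (mem_top _) (mem_top _))
      have h3 : (N' ⊓ (R : Subgroup G)) = ⊥ := by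
        apply Subgroup.inf_eq_bot_of_coprime
        obtain ⟨b, hb⟩ := IsPGroup.iff_card.1 R.isPGroup'
        rw [hb]
        exact Nat.Coprime.pow_right _ hNc
      have h4 : ⁅a, b⁆ ∈ N' ⊓ (R : Subgroup G) := ⟨h1, h2⟩
      rw [h3, mem_bot] at h4
      exact commutatorElement_eq_one_iff_mul_comm.1 h4
    refine ⟨⟨?_⟩⟩
    rintro ⟨x, hx⟩ ⟨y, hy⟩
    obtain ⟨x, rfl⟩ := QuotientGroup.mk'_surjective D x
    obtain ⟨y, rfl⟩ := QuotientGroup.mk'_surjective D y
    have hxH : x ∈ H := hx
    have hyH : y ∈ H := hy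
    rw [hPN] at hxH hyH
    obtain ⟨a, ha, b, hb, rfl⟩ := mem_sup_commute hcm hxH
    obtain ⟨c, hc, d, hd, rfl⟩ := mem_sup_commute hcm hyH
    apply Subtype.ext
    show QuotientGroup.mk' D (a * b) * QuotientGroup.mk' D (c * d) = QuotientGroup.mk' D (c * d) * QuotientGroup.mk' D (a * b)
    have f1 : Commute (QuotientGroup.mk' D a) (QuotientGroup.mk' D c) := by
      have h1 : ⁅a, c⁆ ∈ D := by
        rw [hD]
        refine ⟨⁅(⟨a, hP'Q ha⟩ : (R : Subgroup G)), ⟨c, hP'Q hc⟩⁆, commutator_mem_commutator (mem_top _) (mem_top _), rfl⟩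
      have h2 : QuotientGroup.mk' D ⁅a, c⁆ = 1 := (QuotientGroup.eq_one_iff _).2 h1
      rw [map_commutatorElement] at h2
      exact commutatorElement_eq_one_iff_mul_comm.1 h2
    have f2 : Commute (QuotientGroup.mk' D a) (QuotientGroup.mk' D d) := (show Commute a d from hcm a ha d hd).map _
    have f3 : Commute (QuotientGroup.mk' D b) (QuotientGroup.mk' D c) := (show Commute b c from (hcm c hc b hb).symm).map _
    have f4 : Commute (QuotientGroup.mk' D b) (QuotientGroup.mk' D d) := (show Commute b d from hN'c b hb d hd).map _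
    rw [map_mul, map_mul]
    exact ((f1.mul_right f2).mul_left (f3.mul_right f4)).eq

end CfsgLib.H9X
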