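import Mathlib
import Cfsg.Agent.S0003
import Cfsg.Prelude.Def_SolvableStructure

/-! # S0534 -/

set_option autoImplicit false
set_option maxHeartbeats 1000000
set_option linter.style.haveILetI false

namespace CfsgLib.H9X

open Subgroup

universe u v

theorem comm_clt : ∀ (n : ℕ) (A : Type v) [CommGroup A] [Finite A], Nat.card A ≤ n → ∀ d : ℕ, d ∣ Nat.card A → ∃ H : Subgroup A, Nat.card H = d := by
  intro n
  induction n with
  | zero => intro A _ _ hn; exact absurd hn (by have := Nat.card_pos (α := A); omega)
  | succ n ih =>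
    intro A _ _ hn d hd
    by_cases hd1 : d = 1
    · exact ⟨⊥, by rw [hd1]; exact card_bot⟩
    obtain ⟨p, hp, e, rfl⟩ := Nat.exists_prime_and_dvd hd1
    haveI : Fact p.Prime := ⟨hp⟩
    obtain ⟨x, hx⟩ := exists_prime_orderOf_dvd_card' (G := A) p ((dvd_mul_right p e).trans hd)
    have hZ : Nat.card (zpowers x) = p := by rw [Nat.card_zpowers, hx]
    have hcard := card_mul_index (zpowers x)
    rw [hZ] at hcard
    have hi : Nat.card (A ⧸ zpowers x) = (zpowers x).index := rfl
    have hlt : Nat.card (A ⧸ zpowers x) ≤ n := by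
      rw [hi]
      have h1 : 0 < (zpowers x).index := Nat.pos_of_ne_zero index_ne_zero_of_finite
      have h2 := hp.two_le
      have h3 : (zpowers x).index < Nat.card A := by rw [← hcard]; nlinarith
      omega
    have he : e ∣ Nat.card (A ⧸ zpowers x) := by
      rw [hi]
      rw [← hcard] at hd
      exact Nat.dvd_of_mul_dvd_mul_left hp.pos hd
    obtain ⟨H, hH⟩ := ih (A ⧸ zpowers x) hlt e he
    refine ⟨H.comap (QuotientGroup.mk' (zpowers x)), ?_⟩
    have h1 := card_mul_index (H.comap (QuotientGroup.mk' (zpowers x)))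
    rw [index_comap_of_surjective _ (QuotientGroup.mk'_surjective _)] at h1
    have h2 := card_mul_index H
    rw [hi, hH] at h2
    have h3 : 0 < H.index := Nat.pos_of_ne_zero index_ne_zero_of_finite
    apply Nat.eq_of_mul_eq_mul_right h3
    rw [h1, ← hcard, ← h2]; ring

theorem s0534 {G : Type u} {A : Type v} [Group G] [CommGroup A] [Finite G] [Finite A] [Group.IsSolvable G]
    (hA : ∀ p : ℕ, p.Prime → p ∣ Nat.card A → p ∣ Nat.card G)
    (hexp : ∀ p : ℕ, p.Prime → p ∣ Nat.card G → (Nat.card A).factorization p + 1 = (Nat.card G).factorization p) :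
    Cfsg.HasSubgroupOfEveryOrder (G × A) := by
  intro d hd
  rw [Nat.card_prod] at hd
  have hG0 : Nat.card G ≠ 0 := Nat.card_pos.ne'
  have hA0 : Nat.card A ≠ 0 := Nat.card_pos.ne'
  have hd0 : d ≠ 0 := by rintro rfl; exact mul_ne_zero hG0 hA0 (Nat.eq_zero_of_zero_dvd hd)
  set f : ℕ →₀ ℕ := (Nat.card G).factorization.filter (fun p => (Nat.card G).factorization p ≤ d.factorization p) with hf
  have hfs : ∀ p ∈ f.support, p.Prime := by
    intro p hp
    rw [hf, Finsupp.support_filter, Finset.mem_filter] at hp
    exact Nat.prime_of_mem_primeFactors hp.1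
  set m := f.prod (· ^ ·) with hm
  have hmf : m.factorization = f := Nat.prod_pow_factorization_eq_self hfs
  have hm0 : m ≠ 0 := by
    rw [hm, Finsupp.prod]
    exact Finset.prod_ne_zero_iff.2 fun p hp => pow_ne_zero _ (hfs p hp).ne_zero
  have hfa : ∀ p, f p = if (Nat.card G).factorization p ≤ d.factorization p then (Nat.card G).factorization p else 0 := by
    intro p
    rw [hf, Finsupp.filter_apply]
  have hmG : m ∣ Nat.card G := by
    rw [← Nat.factorization_le_iff_dvd hm0 hG0, hmf]
    intro p
    rw [hfa]
    split_ifs <;> omega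
  obtain ⟨n, hn⟩ := hmG
  have hn0 : n ≠ 0 := by rintro rfl; rw [mul_zero] at hn; exact hG0 hn
  have hmn : m.Coprime n := by
    apply Nat.coprime_of_dvd
    intro p hp h1 h2
    have h3 : 0 < m.factorization p := hp.factorization_pos_of_dvd hm0 h1
    have h4 : 0 < n.factorization p := hp.factorization_pos_of_dvd hn0 h2
    have h5 : (Nat.card G).factorization p = m.factorization p + n.factorization p := by
      rw [hn, Nat.factorization_mul hm0 hn0, Finsupp.add_apply]
    rw [hmf, hfa] at h3 h5
    split_ifs at h3 h5 <;> omega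
  have hmd : m ∣ d := by
    rw [← Nat.factorization_le_iff_dvd hm0 hd0, hmf]
    intro p
    rw [hfa]
    split_ifs <;> omega
  obtain ⟨e, hde⟩ := hmd
  have he0 : e ≠ 0 := fun h => hd0 (by rw [hde, h, mul_zero])
  have heA : e ∣ Nat.card A := by
    rw [← Nat.factorization_le_iff_dvd he0 hA0]
    intro p
    by_cases hp : p.Prime
    · have h1 : d.factorization p ≤ (Nat.card G).factorization p + (Nat.card A).factorization p := by
        have := (Nat.factorization_le_iff_dvd hd0 (mul_ne_zero hG0 hA0)).2 hd p
        rwa [Nat.factorization_mul hG0 hA0, Finsupp.add_apply] at this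
      have h2 : d.factorization p = f p + e.factorization p := by
        have := congrArg (fun z : ℕ => z.factorization p) hde
        beta_reduce at this
        rw [this, Nat.factorization_mul hm0 he0, Finsupp.add_apply, hmf]
      rw [hfa] at h2
      by_cases hpG : p ∣ Nat.card G
      · have h3 := hexp p hp hpG
        split_ifs at h2 <;> omega
      · have h4 : (Nat.card G).factorization p = 0 := Nat.factorization_eq_zero_of_not_dvd hpG
        have h5 : (Nat.card A).factorization p = 0 := Nat.factorization_eq_zero_of_not_dvd fun h => hpG (hA p hp h)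
        split_ifs at h2 <;> omega
    · rw [Nat.factorization_eq_zero_of_not_prime _ hp]
      exact Nat.zero_le _
  obtain ⟨H, hH⟩ := Cfsg.Agent.S0003.result m n hn hmn
  obtain ⟨B, hB⟩ := comm_clt _ A le_rfl e heA
  refine ⟨H.prod B, ?_⟩
  rw [Nat.card_congr (H.prodEquiv B).toEquiv, Nat.card_prod, hH, hB, ← hde]

end CfsgLib.H9X
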