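import Mathlib
import Cfsg.Agent.Lib.H9Xj

/-! # System normalizers and quotients -/

set_option autoImplicit false
set_option maxHeartbeats 1000000
set_option linter.style.haveILetI false

namespace CfsgLib.H9X

open Subgroup
open CfsgLib.NPC
open scoped Pointwise

universe u

variable {G : Type u} [Group G] [Finite G]

/-- relative index of a complement in a normal subgroup -/
theorem relIndex_pow {K : Nat.Primes → Subgroup G} (hK : Cfsg.IsComplementSystem K) (q : Nat.Primes) (N : Subgroup G) [N.Normal] :
    ∃ k : ℕ, (K q).relIndex N = (q : ℕ) ^ k := by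
  have h1 : (K q).relIndex N ∣ (K q).index := by
    have h2 : (K q).relIndex (K q ⊔ N) = (K q).relIndex N := by
      have e1 := CfsgLib.H3Misc.card_sup_mul_card_inf (K q) N
      have e2 := card_mul_index ((K q).subgroupOf (K q ⊔ N))
      rw [Nat.card_congr (subgroupOfEquivOfLe (le_sup_left : K q ≤ K q ⊔ N)).toEquiv] at e2
      have e2' : Nat.card (K q) * (K q).relIndex (K q ⊔ N) = Nat.card (K q ⊔ N : Subgroup G) := e2
      have e3 := card_mul_index ((K q).subgroupOf N)
      have e4 : Nat.card ((K q).subgroupOf N) = Nat.card (K q ⊓ N : Subgroup G) := by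
        rw [← subgroupOf_map_subtype, card_map_of_injective N.subtype_injective]
      rw [e4] at e3
      have e3' : Nat.card (K q ⊓ N : Subgroup G) * (K q).relIndex N = Nat.card N := e3
      rw [← e2', ← e3', mul_assoc] at e1
      have e5 := Nat.eq_of_mul_eq_mul_left Nat.card_pos e1
      rw [mul_comm, inf_comm] at e5
      exact Nat.eq_of_mul_eq_mul_left Nat.card_pos e5
    rw [← h2]
    exact Dvd.intro _ (relIndex_mul_index le_sup_left)
  rw [hK q] at h1
  obtain ⟨k, -, hk⟩ := (Nat.dvd_prime_pow q.2).1 h1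
  exact ⟨k, hk⟩

theorem relIndex_conj (K N : Subgroup G) [hN : N.Normal] (g : G) : (MulAut.conj g • K).relIndex N = K.relIndex N := by
  have h1 : MulAut.conj g • N = N := by
    rw [← mem_norm, normalizer_eq_top_iff.2 hN]; trivial
  conv_lhs => rw [← h1]
  exact relIndex_pointwise_smul (MulAut.conj g) K N

theorem coprime_relIndex {L : Nat.Primes → Subgroup G} (hL : Cfsg.IsComplementSystem L) (N : Subgroup G) [N.Normal]
    (s : Finset Nat.Primes) (q : Nat.Primes) (hq : q ∉ s) : ((s.inf L).relIndex N).Coprime (q : ℕ) := by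
  classical
  induction s using Finset.induction_on generalizing q with
  | empty => simp
  | insert a s ha ih =>
    rw [Finset.mem_insert, not_or] at hq
    rw [Finset.inf_insert]
    obtain ⟨k, hk⟩ := relIndex_pow hL a N
    have h1 := ih a ha
    have h2 : (((s.inf L).subgroupOf N).index).Coprime ((L a).subgroupOf N).index := by
      show ((s.inf L).relIndex N).Coprime ((L a).relIndex N)
      rw [hk]
      exact Nat.Coprime.pow_right _ h1
    have h3 := (Cfsg.Agent.S0007.result ((L a).subgroupOf N) ((s.inf L).subgroupOf N) h2.symm).1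
    have h4 : (L a ⊓ s.inf L).relIndex N = (L a).relIndex N * (s.inf L).relIndex N := h3
    rw [h4, hk]
    refine Nat.Coprime.mul_left ?_ (ih q hq.2)
    apply Nat.Coprime.pow_left
    exact (Nat.coprime_primes a.2 q.2).2 fun h => hq.1 (Subtype.ext h.symm)

theorem conj_rel [Group.IsSolvable G] (K L : Nat.Primes → Subgroup G) (hK : Cfsg.IsComplementSystem K)
    (hL : Cfsg.IsComplementSystem L) (N : Subgroup G) [hN : N.Normal] (hKL : ∀ p, K p ⊔ N = L p ⊔ N) :
    ∃ g ∈ N, ∀ p : Nat.Primes, MulAut.conj g • K p = L p := by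
  classical
  have key : ∀ s : Finset Nat.Primes, ∃ g ∈ N, ∀ p ∈ s, MulAut.conj g • K p = L p := by
    intro s
    induction s using Finset.induction_on with
    | empty => exact ⟨1, N.one_mem, by simp⟩
    | insert q s hq ih =>
      obtain ⟨g, hgN, hg⟩ := ih
      have hK' := conj_system hK g
      have hind : (MulAut.conj g • K q).index = (L q).index := by rw [hL q]; exact hK' q
      have hcard : Nat.card (MulAut.conj g • K q : Subgroup G) = Nat.card (L q) := by
        have h1 := card_mul_index (MulAut.conj g • K q)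
        have h2 := card_mul_index (L q)
        rw [hind, ← h2] at h1
        exact Nat.eq_of_mul_eq_mul_right (Nat.pos_of_ne_zero index_ne_zero_of_finite) h1
      set K₁ := MulAut.conj g • K q with hK₁
      set T := L q ⊔ N with hT
      have hLT : L q ≤ T := le_sup_left
      have hNT : N ≤ T := le_sup_right
      have hKT' : K₁ ⊔ N = T := by
        have h1 : MulAut.conj g • N = N := by
          rw [← mem_norm, normalizer_eq_top_iff.2 hN]; trivial
        have h2 : K₁ ⊔ N = MulAut.conj g • (K q ⊔ N) := by rw [smul_sup, h1]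
        rw [h2, hKL q, conj_smul_eq_self_of_mem (hNT hgN)]
      have hKT : K₁ ≤ T := by rw [← hKT']; exact le_sup_left
      haveI : Group.IsSolvable T := inferInstance
      obtain ⟨t, ht⟩ := Cfsg.Agent.S0004.result (G := T) (Nat.card (L q)) ((L q).relIndex T) (by
          rw [← Nat.card_congr (subgroupOfEquivOfLe hLT).toEquiv]
          exact (card_mul_index _).symm) (by
          have h1 : (L q).relIndex T ∣ (L q).index := Dvd.intro _ (relIndex_mul_index hLT)
          rw [hL q] at h1
          exact Nat.Coprime.coprime_dvd_right h1 (Nat.Coprime.pow_right _ (compl_coprime hL q)))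
        (K₁.subgroupOf T) ((L q).subgroupOf T)
        (by rw [Nat.card_congr (subgroupOfEquivOfLe hKT).toEquiv]; exact hcard)
        (Nat.card_congr (subgroupOfEquivOfLe hLT).toEquiv)
      rw [conj_subgroupOf] at ht
      have ht' : MulAut.conj (t : G) • K₁ = L q := eq_of_subgroupOf (conj_le_of_mem hKT t.2) hLT ht
      -- `t = n k`
      obtain ⟨n, hn, k, hk, hnk⟩ : ∃ n ∈ N, ∃ k ∈ K₁, (t : G) = n * k := by
        have h1 : (t : G) ∈ N ⊔ K₁ := by rw [sup_comm, hKT']; exact t.2
        rw [mem_sup_of_normal_left] at h1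
        obtain ⟨n, hn, k, hk, h⟩ := h1
        exact ⟨n, hn, k, hk, h.symm⟩
      rw [hnk, ← conj_conj, conj_smul_eq_self_of_mem hk] at ht'
      -- `n = c d`
      have hcop : (((s.inf L).subgroupOf N).index).Coprime (K₁.subgroupOf N).index := by
        show ((s.inf L).relIndex N).Coprime (K₁.relIndex N)
        obtain ⟨k, hk⟩ := relIndex_pow hK q N
        rw [hK₁, relIndex_conj, hk]
        exact Nat.Coprime.pow_right _ (coprime_relIndex hL N s q hq)
      obtain ⟨c, hc, d, hd, hcd⟩ := (Cfsg.Agent.S0007.result ((s.inf L).subgroupOf N) (K₁.subgroupOf N) hcop).2 ⟨n, hn⟩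
      have hcd' : n = (c : G) * d := congrArg Subtype.val hcd
      rw [hcd', ← conj_conj, conj_smul_eq_self_of_mem (mem_subgroupOf.1 hd)] at ht'
      refine ⟨c * g, N.mul_mem c.2 hgN, fun p hp => ?_⟩
      rw [← conj_conj]
      rcases Finset.mem_insert.1 hp with rfl | hp
      · exact ht'
      · rw [hg p hp]
        exact conj_smul_eq_self_of_mem ((Finset.inf_le hp : s.inf L ≤ L p) (mem_subgroupOf.1 hc))
  obtain ⟨g, hgN, hg⟩ := key (Finset.subtype (fun p : ℕ => p.Prime) (Nat.card G).primeFactors : Finset {p : ℕ // p.Prime})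
  refine ⟨g, hgN, fun p => ?_⟩
  by_cases hp : (p : ℕ) ∣ Nat.card G
  · exact hg p (Finset.mem_subtype.2 (Nat.mem_primeFactors.2 ⟨p.2, hp, Nat.card_pos.ne'⟩))
  · have h1 : (K p).index = 1 := by rw [hK p, Nat.factorization_eq_zero_of_not_dvd hp, pow_zero]
    have h2 : (L p).index = 1 := by rw [hL p, Nat.factorization_eq_zero_of_not_dvd hp, pow_zero]
    rw [index_eq_one.1 h1, index_eq_one.1 h2]
    exact CfsgLib.H3Misc.conj_smul_eq_top.2 rfl

theorem quot_system {K : Nat.Primes → Subgroup G} (hK : Cfsg.IsComplementSystem K) (N : Subgroup G) [N.Normal] :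
    Cfsg.IsComplementSystem (fun p => (K p).map (QuotientGroup.mk' N)) := by
  intro p
  show ((K p).map (QuotientGroup.mk' N)).index = _
  have hsurj := QuotientGroup.mk'_surjective N
  have h1 : ((K p).map (QuotientGroup.mk' N)).index ∣ (K p).index := by
    rw [index_map, MonoidHom.range_eq_top.2 hsurj, index_top, mul_one]
    exact index_dvd_of_le le_sup_left
  rw [hK p] at h1
  obtain ⟨k, -, hk⟩ := (Nat.dvd_prime_pow p.2).1 h1
  have h2 := card_mul_index ((K p).map (QuotientGroup.mk' N))
  have h3 : Nat.card ((K p).map (QuotientGroup.mk' N)) ∣ Nat.card (K p) := card_map_dvd _ _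
  have h4 : (Nat.card ((K p).map (QuotientGroup.mk' N))).Coprime p := Nat.Coprime.coprime_dvd_left h3 (compl_coprime hK p)
  have h5 : (Nat.card (G ⧸ N)).factorization p = k := by
    rw [← h2, hk, Nat.factorization_mul Nat.card_pos.ne' (pow_pos p.2.pos _).ne', Finsupp.add_apply, p.2.factorization_pow,
      Nat.factorization_eq_zero_of_not_dvd ((Nat.Prime.coprime_iff_not_dvd p.2).1 h4.symm)]
    simp
  rw [h5, hk]

theorem mem_sysnorm {K : Nat.Primes → Subgroup G} {x : G} : x ∈ Cfsg.systemNormalizer K ↔ ∀ p, MulAut.conj x • K p = K p := by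
  rw [Cfsg.systemNormalizer, mem_iInf]
  exact forall_congr' fun p => mem_norm

theorem s0545 [Group.IsSolvable G] (K : Nat.Primes → Subgroup G) (hK : Cfsg.IsComplementSystem K) (N : Subgroup G) [hN : N.Normal] :
    Cfsg.IsComplementSystem (fun p => (K p).map (QuotientGroup.mk' N)) ∧
      Cfsg.systemNormalizer (fun p => (K p).map (QuotientGroup.mk' N)) = (Cfsg.systemNormalizer K).map (QuotientGroup.mk' N) := by
  refine ⟨quot_system hK N, ?_⟩
  have hmap : ∀ (x : G) (H : Subgroup G), MulAut.conj (QuotientGroup.mk' N x) • H.map (QuotientGroup.mk' N) =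
      (MulAut.conj x • H).map (QuotientGroup.mk' N) := by
    intro x H
    ext y
    rw [mem_pointwise_smul_iff_inv_smul_mem]
    constructor
    · rintro ⟨h, hh, hy⟩
      refine ⟨MulAut.conj x • h, smul_mem_pointwise_smul _ _ _ hh, ?_⟩
      rw [MulAut.smul_def, MulAut.conj_apply, map_mul, map_mul, map_inv, hy, ← map_inv, MulAut.smul_def, MulAut.conj_apply]
      group
    · rintro ⟨z, hz, rfl⟩
      rw [SetLike.mem_coe, mem_pointwise_smul_iff_inv_smul_mem] at hz
      refine ⟨_, hz, ?_⟩
      rw [← map_inv, ← map_inv, MulAut.smul_def, MulAut.conj_apply, MulAut.smul_def, MulAut.conj_apply, map_mul, map_mul]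
      simp only [map_inv]
  apply le_antisymm
  · intro x hx
    obtain ⟨x, rfl⟩ := QuotientGroup.mk'_surjective N x
    rw [mem_sysnorm] at hx
    have hx' := conj_system hK x
    have hKL : ∀ p, (MulAut.conj x • K p) ⊔ N = K p ⊔ N := by
      intro p
      have h1 := hx p
      rw [hmap] at h1
      have h2 := congrArg (comap (QuotientGroup.mk' N)) h1
      rw [comap_map_eq, comap_map_eq, QuotientGroup.ker_mk'] at h2
      exact h2
    obtain ⟨n, hn, hnK⟩ := conj_rel (fun p => MulAut.conj x • K p) K hx' hK N hKL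
    refine ⟨n * x, ?_, ?_⟩
    · rw [SetLike.mem_coe, mem_sysnorm]
      intro p
      rw [← conj_conj]
      exact hnK p
    · rw [map_mul]
      have : QuotientGroup.mk' N n = 1 := (QuotientGroup.eq_one_iff n).2 hn
      rw [this, one_mul]
  · rintro _ ⟨x, hx, rfl⟩
    rw [SetLike.mem_coe, mem_sysnorm] at hx
    rw [mem_sysnorm]
    intro p
    rw [hmap, hx p]

theorem s0546 [Group.IsSolvable G] (K : Nat.Primes → Subgroup G) (hK : Cfsg.IsComplementSystem K) :
    normalClosure ((Cfsg.systemNormalizer K : Subgroup G) : Set G) = ⊤ := by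
  by_contra hne
  set M := normalClosure ((Cfsg.systemNormalizer K : Subgroup G) : Set G) with hM
  haveI : Nontrivial (G ⧸ M) := QuotientGroup.nontrivial_iff.2 hne
  have hlt := (Group.IsSolvable.commutator_lt_top_of_nontrivial (G ⧸ M)).ne
  set M₁ := (commutator (G ⧸ M)).comap (QuotientGroup.mk' M) with hM₁
  have hMM₁ : M ≤ M₁ := by
    intro x hx
    rw [hM₁, mem_comap]
    have : QuotientGroup.mk' M x = 1 := (QuotientGroup.eq_one_iff x).2 hx
    rw [this]; exact one_mem _
  have hc : commutator G ≤ M₁ := by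
    rw [hM₁, ← map_le_iff_le_comap, _root_.commutator_def, map_commutator]
    exact commutator_mono le_top le_top
  have hM₁t : M₁ ≠ ⊤ := by
    intro h
    apply hlt
    rw [eq_top_iff]
    intro x _
    obtain ⟨y, rfl⟩ := QuotientGroup.mk'_surjective M x
    have : y ∈ M₁ := by rw [h]; trivial
    exact this
  have h1 := (s0545 K hK M₁).2
  have hcomm : ∀ x y : G ⧸ M₁, x * y = y * x := by
    intro x y
    obtain ⟨x, rfl⟩ := QuotientGroup.mk'_surjective M₁ x
    obtain ⟨y, rfl⟩ := QuotientGroup.mk'_surjective M₁ y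
    rw [← commutatorElement_eq_one_iff_mul_comm, ← map_commutatorElement]
    exact (QuotientGroup.eq_one_iff _).2 (hc (commutator_mem_commutator (mem_top _) (mem_top _)))
  have h2 : Cfsg.systemNormalizer (fun p => (K p).map (QuotientGroup.mk' M₁)) = ⊤ := by
    rw [eq_top_iff]
    intro x _
    rw [mem_sysnorm]
    intro p
    ext y
    rw [mem_pointwise_smul_iff_inv_smul_mem, ← map_inv, MulAut.smul_def, MulAut.conj_apply]
    have : x⁻¹ * y * x⁻¹⁻¹ = y := by rw [hcomm x⁻¹ y]; group
    rw [this]
  rw [h2] at h1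
  apply hM₁t
  rw [eq_top_iff]
  intro x _
  have h3 : QuotientGroup.mk' M₁ x ∈ (Cfsg.systemNormalizer K).map (QuotientGroup.mk' M₁) := by rw [← h1]; trivial
  obtain ⟨y, hy, hyx⟩ := h3
  have h4 : y ∈ M₁ := hMM₁ (subset_normalClosure hy)
  have h5 : QuotientGroup.mk' M₁ x = 1 := by
    rw [← hyx]; exact (QuotientGroup.eq_one_iff y).2 h4
  exact (QuotientGroup.eq_one_iff x).1 h5

end CfsgLib.H9X
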