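import Mathlib
import Cfsg.Agent.Lib.H9Xn
import Cfsg.Agent.Lib.Coprime2

/-! # System normalizers cover and avoid -/

set_option autoImplicit false
set_option maxHeartbeats 1000000
set_option linter.style.haveILetI false

namespace CfsgLib.H9X

open Subgroup
open scoped Pointwise commutatorElement

universe u

variable {G : Type u} [Group G] [Finite G]

/-- the centralizer of a `p`-complement in a non-central minimal normal `p`-subgroup is trivial -/
theorem no_fixed {p : ℕ} [Fact p.Prime] (B K : Subgroup G) [hBn : B.Normal] (hBp : IsPGroup p B) (hBc : ∀ a ∈ B, ∀ b ∈ B, a * b = b * a)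
    (hmin : ∀ N : Subgroup G, N.Normal → N ≤ B → N = ⊥ ∨ N = B) (hnc : ⁅B, (⊤ : Subgroup G)⁆ ≠ ⊥) {k : ℕ} (hK : K.index = p ^ k) :
    ∀ b ∈ B, (∀ y ∈ K, y * b = b * y) → b = 1 := by
  intro b hb hbK
  by_contra hb1
  obtain ⟨P⟩ : Nonempty (Sylow p G) := inferInstance
  have hPK : (P : Subgroup G).index.Coprime K.index := by
    rw [hK]
    exact Nat.Coprime.pow_right _ ((Nat.Prime.coprime_iff_not_dvd Fact.out).2 P.not_dvd_index).symm
  have hfac := (Cfsg.Agent.S0007.result (P : Subgroup G) K hPK).2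
  set W := ⁅B, (P : Subgroup G)⁆ with hW
  have hWB : W ≤ B := commutator_le_left B _
  have hBne : B ≠ ⊥ := fun h => hb1 (by rw [h, mem_bot] at hb; exact hb)
  have hWlt : W < B := by
    apply CfsgLib.Coprime.commutator_lt_of_isPGroup hBp P.isPGroup' (by rw [normalizer_eq_top_iff.2 hBn]; exact le_top) hBne
  -- conjugates of `b` lie in `b W`
  have hconj : ∀ x : G, x * b * x⁻¹ * b⁻¹ ∈ W := by
    intro x
    obtain ⟨y, hy, z, hz, rfl⟩ := hfac x
    have e : y * z * b * (y * z)⁻¹ * b⁻¹ = y * b * y⁻¹ * b⁻¹ := by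
      have := hbK z hz
      calc y * z * b * (y * z)⁻¹ * b⁻¹ = y * (z * b) * z⁻¹ * y⁻¹ * b⁻¹ := by group
        _ = _ := by rw [this]; group
    rw [e, hW, commutator_comm]
    exact commutator_mem_commutator hy hb
  let V : Subgroup G :=
    { carrier := {v | v ∈ B ∧ ∀ g : G, g * v * g⁻¹ * v⁻¹ ∈ W}
      mul_mem' := by
        rintro v w ⟨hv, hv1⟩ ⟨hw, hw1⟩
        refine ⟨B.mul_mem hv hw, fun g => ?_⟩
        have h1 : g * w * g⁻¹ * w⁻¹ ∈ B := hWB (hw1 g)
        have h2 : g * (v * w) * g⁻¹ * (v * w)⁻¹ = (g * v * g⁻¹ * v⁻¹) * (g * w * g⁻¹ * w⁻¹) := by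
          have := hBc v hv _ h1
          calc g * (v * w) * g⁻¹ * (v * w)⁻¹ = (g * v * g⁻¹) * (g * w * g⁻¹ * w⁻¹) * v⁻¹ := by group
            _ = (g * v * g⁻¹) * v⁻¹ * (v * (g * w * g⁻¹ * w⁻¹)) * v⁻¹ := by group
            _ = _ := by rw [this]; group
        rw [h2]
        exact W.mul_mem (hv1 g) (hw1 g)
      one_mem' := ⟨B.one_mem, fun g => by simp⟩
      inv_mem' := by
        rintro v ⟨hv, hv1⟩
        refine ⟨B.inv_mem hv, fun g => ?_⟩
        have h1 := hBc v hv _ (hWB (W.inv_mem (hv1 g)))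
        have h2 : g * v⁻¹ * g⁻¹ * v⁻¹⁻¹ = (g * v * g⁻¹ * v⁻¹)⁻¹ := by
          calc g * v⁻¹ * g⁻¹ * v⁻¹⁻¹ = v⁻¹ * ((g * v * g⁻¹ * v⁻¹)⁻¹ * v) := by group
            _ = _ := by rw [← h1]; group
        rw [h2]
        exact W.inv_mem (hv1 g) }
  have hVn : V.Normal := by
    refine ⟨fun v hv x => ⟨hBn.conj_mem v hv.1 x, fun g => ?_⟩⟩
    have h1 := W.mul_mem (hv.2 (g * x)) (W.inv_mem (hv.2 x))
    have h2 : g * (x * v * x⁻¹) * g⁻¹ * (x * v * x⁻¹)⁻¹ = (g * x * v * (g * x)⁻¹ * v⁻¹) * (x * v * x⁻¹ * v⁻¹)⁻¹ := by group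
    rw [h2]; exact h1
  have hbV : b ∈ V := ⟨hb, hconj⟩
  have hVB : V = B := by
    rcases hmin V hVn (fun v hv => hv.1) with h | h
    · exfalso
      rw [h, mem_bot] at hbV
      exact hb1 hbV
    · exact h
  have hle : ⁅B, (⊤ : Subgroup G)⁆ ≤ W := by
    rw [commutator_comm, commutator_le]
    intro g _ v hv
    rw [← hVB] at hv
    exact hv.2 g
  rcases hmin ⁅B, (⊤ : Subgroup G)⁆ inferInstance (hle.trans hWB) with h | h
  · exact hnc h
  · exact absurd (h ▸ hle) (not_le_of_gt hWlt)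

theorem s0568 [Group.IsSolvable G] (K : Nat.Primes → Subgroup G) (hK : Cfsg.IsComplementSystem K) (A B : Subgroup G) [hAn : A.Normal] [hBn : B.Normal]
    (hAB : A < B) (hchief : ∀ N : Subgroup G, N.Normal → A ≤ N → N ≤ B → N = A ∨ N = B) :
    (⁅B, (⊤ : Subgroup G)⁆ ≤ A → B ≤ A ⊔ Cfsg.systemNormalizer K) ∧
      (¬ ⁅B, (⊤ : Subgroup G)⁆ ≤ A → B ⊓ Cfsg.systemNormalizer K ≤ A) := by
  obtain ⟨hKq, hD⟩ := s0545 K hK A
  have hsurj := QuotientGroup.mk'_surjective A
  constructor
  · intro hc b hb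
    have h1 : QuotientGroup.mk' A b ∈ Cfsg.systemNormalizer (fun p => (K p).map (QuotientGroup.mk' A)) := by
      rw [mem_sysnorm]
      intro p
      ext y
      rw [mem_pointwise_smul_iff_inv_smul_mem, ← map_inv, MulAut.smul_def, MulAut.conj_apply]
      obtain ⟨y, rfl⟩ := hsurj y
      have h2 : ⁅b, y⁆ ∈ A := hc (commutator_mem_commutator hb (mem_top _))
      have h3 : ⁅QuotientGroup.mk' A b, QuotientGroup.mk' A y⁆ = 1 := by
        rw [← map_commutatorElement]; exact (QuotientGroup.eq_one_iff _).2 h2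
      have h4 := commutatorElement_eq_one_iff_mul_comm.1 h3
      have : (QuotientGroup.mk' A b)⁻¹ * QuotientGroup.mk' A y * (QuotientGroup.mk' A b)⁻¹⁻¹ = QuotientGroup.mk' A y := by
        rw [inv_inv, mul_assoc, ← h4]; group
      rw [this]
    rw [hD] at h1
    obtain ⟨d, hd, hdb⟩ := h1
    have h2 : b * d⁻¹ ∈ A := by
      rw [← QuotientGroup.eq_one_iff]
      have : QuotientGroup.mk' A (b * d⁻¹) = 1 := by rw [map_mul, map_inv, hdb, mul_inv_cancel]
      exact this
    have : b = (b * d⁻¹) * d := by group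
    rw [this]
    exact mul_mem (mem_sup_left h2) (mem_sup_right hd)
  · intro hnc
    set B' := B.map (QuotientGroup.mk' A) with hB'
    haveI hB'n : B'.Normal := hBn.map _ hsurj
    have hcm : B'.comap (QuotientGroup.mk' A) = B := by
      rw [hB', comap_map_eq, QuotientGroup.ker_mk', sup_eq_left.2 hAB.le]
    have hB'ne : B' ≠ ⊥ := by
      intro h
      rw [h] at hcm
      have h2 : (⊥ : Subgroup (G ⧸ A)).comap (QuotientGroup.mk' A) = A := by
        rw [MonoidHom.comap_bot, QuotientGroup.ker_mk']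
      rw [h2] at hcm
      exact hAB.ne hcm
    have hmin : ∀ N : Subgroup (G ⧸ A), N.Normal → N ≤ B' → N = ⊥ ∨ N = B' := by
      intro N hN hNB
      rcases hchief (N.comap (QuotientGroup.mk' A)) (hN.comap _) (by
          intro x hx
          rw [mem_comap]
          have : QuotientGroup.mk' A x = 1 := (QuotientGroup.eq_one_iff x).2 hx
          rw [this]; exact one_mem _) (by rw [← hcm]; exact comap_mono hNB) with h | h
      · left
        rw [← map_comap_eq_self_of_surjective hsurj N, h]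
        exact (QuotientGroup.map_mk'_self A)
      · right
        rw [← map_comap_eq_self_of_surjective hsurj N, h]
    -- `B'` is abelian
    have hB'ab : ⁅B', B'⁆ = ⊥ := by
      rcases hmin ⁅B', B'⁆ inferInstance (commutator_le_left _ _) with h | h
      · exact h
      · exfalso
        haveI : Nontrivial B' := (nontrivial_iff_ne_bot B').2 hB'ne
        have h6 := (Group.IsSolvable.commutator_lt_top_of_nontrivial B').ne
        apply h6
        have h7 : (commutator B').map B'.subtype = ⁅B', B'⁆ := by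
          rw [_root_.commutator_def, map_commutator, ← MonoidHom.range_eq_map, range_subtype]
        rw [h] at h7
        rw [eq_top_iff]
        intro x _
        have : (x : G ⧸ A) ∈ (commutator B').map B'.subtype := by rw [h7]; exact x.2
        obtain ⟨y, hy, hyx⟩ := this
        have : y = x := Subtype.ext hyx
        rwa [← this]
    have hB'c : ∀ a ∈ B', ∀ b ∈ B', a * b = b * a := by
      intro a ha b hb
      have h1 : ⁅a, b⁆ ∈ ⁅B', B'⁆ := commutator_mem_commutator ha hb
      rw [hB'ab, mem_bot] at h1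
      exact commutatorElement_eq_one_iff_mul_comm.1 h1
    obtain ⟨p, hp, hpB⟩ := Nat.exists_prime_and_dvd (fun h => hB'ne (card_eq_one.1 h) : Nat.card B' ≠ 1)
    haveI : Fact p.Prime := ⟨hp⟩
    obtain ⟨z, hz⟩ := exists_prime_orderOf_dvd_card' (G := B') p hpB
    have hB'p : IsPGroup p B' := by
      let U : Subgroup (G ⧸ A) :=
        { carrier := {x | x ∈ B' ∧ x ^ p = 1}
          mul_mem' := by
            rintro a b ⟨ha, ha1⟩ ⟨hb, hb1⟩
            refine ⟨mul_mem ha hb, ?_⟩
            have hc : Commute a b := hB'c a ha b hb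
            rw [hc.mul_pow, ha1, hb1, mul_one]
          one_mem' := ⟨one_mem _, one_pow _⟩
          inv_mem' := by
            rintro a ⟨ha, ha1⟩
            exact ⟨inv_mem ha, by rw [inv_pow, ha1, inv_one]⟩ }
      have hUn : U.Normal := by
        refine ⟨fun x hx g => ⟨hB'n.conj_mem x hx.1 g, ?_⟩⟩
        rw [conj_pow, hx.2]; group
      rcases hmin U hUn (fun x hx => hx.1) with h | h
      · exfalso
        have h1 : (z : G ⧸ A) ∈ U := ⟨z.2, by rw [← hz, ← orderOf_coe]; exact pow_orderOf_eq_one _⟩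
        rw [h, mem_bot] at h1
        rw [← orderOf_coe, h1, orderOf_one] at hz
        exact hp.one_lt.ne hz
      · intro x
        refine ⟨1, ?_⟩
        have h1 : (x : G ⧸ A) ∈ U := by rw [h]; exact x.2
        rw [pow_one]
        exact Subtype.ext h1.2
    have hnc' : ⁅B', (⊤ : Subgroup (G ⧸ A))⁆ ≠ ⊥ := by
      intro h
      apply hnc
      rw [commutator_le]
      intro b hb g _
      rw [← QuotientGroup.eq_one_iff]
      have h1 : QuotientGroup.mk' A ⁅b, g⁆ ∈ ⁅B', (⊤ : Subgroup (G ⧸ A))⁆ := by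
        rw [map_commutatorElement]
        exact commutator_mem_commutator (mem_map_of_mem _ hb) (mem_top _)
      rw [h, mem_bot] at h1
      exact h1
    set q : Nat.Primes := ⟨p, hp⟩ with hq
    rintro x ⟨hxB, hxD⟩
    have hxB' : QuotientGroup.mk' A x ∈ B' := mem_map_of_mem _ hxB
    have hxD' : QuotientGroup.mk' A x ∈ Cfsg.systemNormalizer (fun p => (K p).map (QuotientGroup.mk' A)) := by
      rw [hD]; exact mem_map_of_mem _ hxD
    rw [mem_sysnorm] at hxD'
    have hxn : QuotientGroup.mk' A x ∈ normalizer (((K q).map (QuotientGroup.mk' A) : Subgroup (G ⧸ A)) : Set (G ⧸ A)) := mem_norm.2 (hxD' q)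
    have hdisj : (K q).map (QuotientGroup.mk' A) ⊓ B' = ⊥ := by
      apply inf_eq_bot_of_coprime
      obtain ⟨b, hb⟩ := IsPGroup.iff_card.1 hB'p
      rw [hb]
      exact Nat.Coprime.pow_right _ (compl_coprime hKq q)
    have h1 := no_fixed (p := p) B' ((K q).map (QuotientGroup.mk' A)) hB'p hB'c hmin hnc' (hKq q) (QuotientGroup.mk' A x) hxB' (by
      intro y hy
      have h2 : ⁅y, QuotientGroup.mk' A x⁆ ∈ (K q).map (QuotientGroup.mk' A) ⊓ B' := by
        rw [commutatorElement_def]
        constructor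
        · have hyi : y⁻¹ ∈ (K q).map (QuotientGroup.mk' A) := Subgroup.inv_mem _ hy
          have h3 : QuotientGroup.mk' A x * y⁻¹ * (QuotientGroup.mk' A x)⁻¹ ∈ (K q).map (QuotientGroup.mk' A) :=
            (Subgroup.mem_normalizer_iff.1 hxn y⁻¹).1 hyi
          have h4 : y * QuotientGroup.mk' A x * y⁻¹ * (QuotientGroup.mk' A x)⁻¹ = y * (QuotientGroup.mk' A x * y⁻¹ * (QuotientGroup.mk' A x)⁻¹) := by group
          rw [h4]
          exact ((K q).map (QuotientGroup.mk' A)).mul_mem hy h3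
        · exact B'.mul_mem (hB'n.conj_mem _ hxB' y) (B'.inv_mem hxB')
      rw [hdisj, mem_bot] at h2
      exact commutatorElement_eq_one_iff_mul_comm.1 h2)
    exact (QuotientGroup.eq_one_iff x).1 h1

end CfsgLib.H9X
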