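import Mathlib
import Cfsg.Agent.Lib.H9Xo
import Cfsg.Agent.Lib.H5Perm2
import Cfsg.Agent.S0004

/-! # Carter subgroups -/

set_option autoImplicit false
set_option maxHeartbeats 1000000
set_option linter.style.haveILetI false

namespace CfsgLib.H9X

open Subgroup
open scoped Pointwise commutatorElement

universe u

/-- nilpotent self-normalizing subgroups of the subgroup `T` -/
def Car {G : Type u} [Group G] (T C : Subgroup G) : Prop :=
  C ≤ T ∧ Group.IsNilpotent C ∧ ∀ g ∈ T, MulAut.conj g • C = C → g ∈ C

theorem norm_cond {X : Type u} [Group X] {Q H : Subgroup X} (hQ : Group.IsNilpotent Q) (hH : H ≤ Q) (hne : H ≠ Q) :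
    ∃ q ∈ Q, q ∉ H ∧ MulAut.conj q • H = H := by
  have h1 : H.subgroupOf Q < ⊤ := by
    rw [lt_top_iff_ne_top]
    intro h
    rw [subgroupOf_eq_top] at h
    exact hne (le_antisymm hH h)
  obtain ⟨x, hx, hxN⟩ := SetLike.exists_of_lt (Group.normalizerCondition_of_isNilpotent (G := Q) _ h1)
  refine ⟨x, x.2, fun h => hxN (mem_subgroupOf.2 h), ?_⟩
  rw [mem_norm, conj_subgroupOf] at hx
  exact eq_of_subgroupOf (conj_le_of_mem hH x.2) hH hx

theorem conj_nil {X : Type u} [Group X] {H : Subgroup X} (hH : Group.IsNilpotent H) (g : X) :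
    Group.IsNilpotent (MulAut.conj g • H : Subgroup X) :=
  Group.nilpotent_of_mulEquiv (Subgroup.equivSMul (MulAut.conj g) H)

theorem car_conj {G : Type u} [Group G] {T C : Subgroup G} (hC : Car T C) (g : G) :
    Car (MulAut.conj g • T) (MulAut.conj g • C) := by
  refine ⟨pointwise_smul_le_pointwise_smul_iff.2 hC.1, conj_nil hC.2.1 g, ?_⟩
  intro x hx hxC
  rw [mem_pointwise_smul_iff_inv_smul_mem, ← map_inv, MulAut.smul_def, MulAut.conj_apply] at hx ⊢
  apply hC.2.2 _ hx
  rw [conj_conj] at hxC
  have e : g⁻¹ * x * g⁻¹⁻¹ = g⁻¹ * (x * g) := by group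
  rw [e, ← conj_conj, hxC, conj_conj, inv_mul_cancel, map_one, one_smul]

theorem car_norm {G : Type u} [Group G] {T C N : Subgroup G} (hC : Car T C) (hNT : N ≤ T)
    (hconj : ∀ D, Car (C ⊔ N) D → ∃ g ∈ C ⊔ N, MulAut.conj g • C = D) {x : G} (hx : x ∈ T)
    (hxn : MulAut.conj x • (C ⊔ N) = C ⊔ N) : x ∈ C ⊔ N := by
  have h1 : Car (C ⊔ N) C := ⟨le_sup_left, hC.2.1, fun g hg => hC.2.2 g (sup_le hC.1 hNT hg)⟩
  have h2 := car_conj h1 x
  rw [hxn] at h2
  obtain ⟨y, hy, hyC⟩ := hconj _ h2
  have h3 : y⁻¹ * x ∈ C := by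
    apply hC.2.2 _ (T.mul_mem (T.inv_mem (sup_le hC.1 hNT hy)) hx)
    rw [← conj_conj, ← hyC, conj_conj, inv_mul_cancel, map_one, one_smul]
  have : x = y * (y⁻¹ * x) := by group
  rw [this]
  exact mul_mem hy (mem_sup_left h3)

theorem map_conj' {G : Type u} [Group G] {X : Type u} [Group X] (f : G →* X) (H : Subgroup G) (x : G) :
    (MulAut.conj x • H).map f = MulAut.conj (f x) • H.map f := by
  ext y
  constructor
  · rintro ⟨z, hz, rfl⟩
    have hz' : z ∈ MulAut.conj x • H := hz
    rw [mem_pointwise_smul_iff_inv_smul_mem, ← map_inv, MulAut.smul_def, MulAut.conj_apply] at hz'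
    rw [mem_pointwise_smul_iff_inv_smul_mem, ← map_inv, MulAut.smul_def, MulAut.conj_apply]
    refine ⟨_, hz', ?_⟩
    rw [map_mul, map_mul, map_inv, map_inv, map_inv]
  · intro hy
    rw [mem_pointwise_smul_iff_inv_smul_mem, ← map_inv, MulAut.smul_def, MulAut.conj_apply] at hy
    obtain ⟨z, hz, hzy⟩ := hy
    refine ⟨x * z * x⁻¹, ?_, ?_⟩
    · show x * z * x⁻¹ ∈ MulAut.conj x • H
      rw [mem_pointwise_smul_iff_inv_smul_mem, ← map_inv, MulAut.smul_def, MulAut.conj_apply]
      have : x⁻¹ * (x * z * x⁻¹) * x⁻¹⁻¹ = z := by group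
      rw [this]; exact hz
    · rw [map_mul, map_mul, map_inv, hzy]; group

theorem lift_norm {G : Type u} [Group G] {N H : Subgroup G} [hN : N.Normal] {x : G}
    (h : MulAut.conj (QuotientGroup.mk' N x) • H.map (QuotientGroup.mk' N) = H.map (QuotientGroup.mk' N)) :
    MulAut.conj x • (H ⊔ N) = H ⊔ N := by
  rw [← map_conj', map_eq_map_iff, QuotientGroup.ker_mk'] at h
  have e : MulAut.conj x • N = N := mem_norm.1 (by rw [normalizer_eq_top_iff.2 hN]; exact mem_top _)
  rw [smul_sup, e, h]

theorem mem_map_sup {G : Type u} [Group G] {N H : Subgroup G} [hN : N.Normal] {x : G} :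
    QuotientGroup.mk' N x ∈ H.map (QuotientGroup.mk' N) ↔ x ∈ H ⊔ N := by
  rw [← mem_comap, comap_map_eq, QuotientGroup.ker_mk']

theorem down {n : ℕ} (ih : ∀ (G : Type u) [Group G] [Finite G], Group.IsSolvable G → Nat.card G ≤ n → (∃ C : Subgroup G, Car ⊤ C) ∧
      ∀ C D : Subgroup G, Car ⊤ C → Car ⊤ D → ∃ g : G, MulAut.conj g • C = D)
    {G : Type u} [Group G] [Finite G] [Group.IsSolvable G] (T : Subgroup G) (hT : Nat.card T ≤ n) :
    (∃ C : Subgroup G, Car T C) ∧ ∀ C D : Subgroup G, Car T C → Car T D → ∃ g ∈ T, MulAut.conj g • C = D := by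
  obtain ⟨⟨C, hC⟩, h2⟩ := ih T inferInstance hT
  constructor
  · refine ⟨C.map T.subtype, map_subtype_le _, ?_, ?_⟩
    · haveI := hC.2.1
      exact Group.nilpotent_of_mulEquiv (C.equivMapOfInjective T.subtype T.subtype_injective)
    · intro g hg hgC
      have e : (C.map T.subtype).subgroupOf T = C := by
        rw [subgroupOf, comap_map_eq_self_of_injective T.subtype_injective]
      have h3 : MulAut.conj (⟨g, hg⟩ : T) • (C.map T.subtype).subgroupOf T = (C.map T.subtype).subgroupOf T := by
        rw [conj_subgroupOf]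
        show (MulAut.conj g • C.map T.subtype).subgroupOf T = _
        rw [hgC]
      rw [e] at h3
      exact ⟨⟨g, hg⟩, hC.2.2 _ (mem_top _) h3, rfl⟩
  · intro C D hC hD
    have key : ∀ X, Car T X → Car ⊤ (X.subgroupOf T) := by
      intro X hX
      haveI := hX.2.1
      refine ⟨le_top, Group.nilpotent_of_mulEquiv (subgroupOfEquivOfLe hX.1).symm, ?_⟩
      intro g _ hgX
      rw [conj_subgroupOf] at hgX
      exact mem_subgroupOf.2 (hX.2.2 g g.2 (eq_of_subgroupOf (conj_le_of_mem hX.1 g.2) hX.1 hgX))
    obtain ⟨g, hg⟩ := h2 _ _ (key C hC) (key D hD)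
    rw [conj_subgroupOf] at hg
    exact ⟨g, g.2, eq_of_subgroupOf (conj_le_of_mem hC.1 g.2) hD.1 hg⟩

theorem inf_normal_of_sup {G : Type u} [Group G] {X N : Subgroup G} [hN : N.Normal] (hNc : ∀ a ∈ N, ∀ b ∈ N, a * b = b * a)
    (h : X ⊔ N = ⊤) : (X ⊓ N).Normal := by
  rw [← normalizer_eq_top_iff, eq_top_iff, ← h, sup_le_iff]
  constructor
  · intro x hx
    rw [mem_normalizer_iff]
    intro y
    constructor
    · rintro ⟨h1, h2⟩
      exact ⟨X.mul_mem (X.mul_mem hx h1) (X.inv_mem hx), hN.conj_mem _ h2 x⟩
    · rintro ⟨h1, h2⟩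
      have e : y = x⁻¹ * (x * y * x⁻¹) * x⁻¹⁻¹ := by group
      rw [e]
      exact ⟨X.mul_mem (X.mul_mem (X.inv_mem hx) h1) (X.inv_mem (X.inv_mem hx)), hN.conj_mem _ h2 x⁻¹⟩
  · intro x hx
    rw [mem_normalizer_iff]
    intro y
    have key : ∀ z ∈ N, x * z * x⁻¹ = z := by
      intro z hz
      rw [hNc x hx z hz]; group
    constructor
    · rintro ⟨h1, h2⟩
      rw [key y h2]
      exact ⟨h1, h2⟩
    · intro h1
      have h2 : y ∈ N := by
        have e : y = x⁻¹ * (x * y * x⁻¹) * x⁻¹⁻¹ := by group
        rw [e]; exact hN.conj_mem _ h1.2 x⁻¹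
      rw [key y h2] at h1
      exact h1

theorem carter_aux : ∀ (n : ℕ) (G : Type u) [Group G] [Finite G], Group.IsSolvable G → Nat.card G ≤ n → (∃ C : Subgroup G, Car ⊤ C) ∧
      ∀ C D : Subgroup G, Car ⊤ C → Car ⊤ D → ∃ g : G, MulAut.conj g • C = D := by
  intro n
  induction n with
  | zero => intro G _ _ _ hn; exact absurd hn (by have := Nat.card_pos (α := G); omega)
  | succ n ih =>
    intro G _ _ hsol hn
    haveI := hsol
    have lt_down : ∀ T : Subgroup G, T ≠ ⊤ → (∃ C : Subgroup G, Car T C) ∧
        ∀ C D : Subgroup G, Car T C → Car T D → ∃ g ∈ T, MulAut.conj g • C = D := by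
      intro T hT
      apply down ih T
      have h1 := card_lt_of_lt (lt_top_iff_ne_top.2 hT)
      rw [card_top] at h1
      omega
    have htop : ∀ C : Subgroup G, Group.IsNilpotent G → Car ⊤ C → C = ⊤ := by
      intro C hG hC
      by_contra hne
      have : Group.IsNilpotent (⊤ : Subgroup G) := inferInstance
      obtain ⟨q, _, hq, hqC⟩ := norm_cond this le_top hne
      exact hq (hC.2.2 q (mem_top _) hqC)
    by_cases hnil : Group.IsNilpotent G
    · refine ⟨⟨⊤, le_rfl, inferInstance, fun g hg _ => hg⟩, fun C D hC hD => ⟨1, ?_⟩⟩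
      rw [htop C hnil hC, htop D hnil hD, map_one, one_smul]
    have hGbot : (⊤ : Subgroup G) ≠ ⊥ := by
      intro h
      apply hnil
      have : Subsingleton G := ⟨fun a b => by
        have h1 : a ∈ (⊥ : Subgroup G) := h ▸ mem_top a
        have h2 : b ∈ (⊥ : Subgroup G) := h ▸ mem_top b
        rw [mem_bot] at h1 h2
        rw [h1, h2]⟩
      infer_instance
    obtain ⟨N, -, hN⟩ := CfsgLib.H5MinNormal.exists_isMinNormal (⊤ : Subgroup G) inferInstance hGbot
    haveI hNn := hN.1
    have hNab : ⁅N, N⁆ = ⊥ := by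
      rcases hN.2.2 ⁅N, N⁆ inferInstance (commutator_le_left _ _) with h | h
      · exact h
      · exfalso
        haveI : Nontrivial N := (nontrivial_iff_ne_bot N).2 hN.2.1
        have h6 := (Group.IsSolvable.commutator_lt_top_of_nontrivial N).ne
        apply h6
        have h7 : (commutator N).map N.subtype = ⁅N, N⁆ := by
          rw [_root_.commutator_def, map_commutator, ← MonoidHom.range_eq_map, range_subtype]
        rw [h] at h7
        rw [eq_top_iff]
        intro x _
        have : (x : G) ∈ (commutator N).map N.subtype := by rw [h7]; exact x.2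
        obtain ⟨y, hy, hyx⟩ := this
        have : y = x := Subtype.ext hyx
        rwa [← this]
    have hNc : ∀ a ∈ N, ∀ b ∈ N, a * b = b * a := by
      intro a ha b hb
      have h1 : ⁅a, b⁆ ∈ ⁅N, N⁆ := commutator_mem_commutator ha hb
      rw [hNab, mem_bot] at h1
      exact commutatorElement_eq_one_iff_mul_comm.1 h1
    obtain ⟨p, hp, hpN⟩ := CfsgLib.H5Perm2.elementary_of_comm hN hNc
    haveI : Fact p.Prime := ⟨hp⟩
    have hNp : IsPGroup p N := fun x => ⟨1, by rw [pow_one]; exact Subtype.ext (hpN x x.2)⟩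
    have hquot : Nat.card (G ⧸ N) ≤ n := by
      have e := card_mul_index N
      have e1 : N.index = Nat.card (G ⧸ N) := rfl
      have e2 : 1 < Nat.card N := (one_lt_card_iff_ne_bot N).2 hN.2.1
      have e3 : 0 < Nat.card (G ⧸ N) := Nat.card_pos
      rw [e1] at e
      nlinarith
    obtain ⟨⟨T', hT'⟩, hqc⟩ := ih (G ⧸ N) inferInstance hquot
    have hsurj := QuotientGroup.mk'_surjective N
    have himg : ∀ C, Car ⊤ C → Car ⊤ (C.map (QuotientGroup.mk' N)) := by
      intro C hC
      refine ⟨le_top, ?_, ?_⟩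
      · haveI := hC.2.1
        exact Group.nilpotent_of_surjective ((QuotientGroup.mk' N).subgroupMap C) (MonoidHom.subgroupMap_surjective _ _)
      · intro g _ hg
        obtain ⟨x, rfl⟩ := hsurj g
        have h1 := lift_norm hg
        rw [mem_map_sup]
        by_cases hCN : C ⊔ N = ⊤
        · rw [hCN]; exact mem_top _
        · exact car_norm hC le_top (fun D hD => (lt_down _ hCN).2 C D ⟨le_sup_left, hC.2.1, fun g _ => hC.2.2 g (mem_top _)⟩ hD) (mem_top x) h1
    constructor
    · -- existence
      set T := T'.comap (QuotientGroup.mk' N) with hTdef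
      have hNT : N ≤ T := by
        intro x hx
        rw [hTdef, mem_comap]
        have : QuotientGroup.mk' N x = 1 := (QuotientGroup.eq_one_iff x).2 hx
        rw [this]; exact one_mem _
      have hTT : T.map (QuotientGroup.mk' N) = T' := map_comap_eq_self_of_surjective hsurj T'
      by_cases hT : T = ⊤
      · have hT'top : T' = ⊤ := by
          rw [← hTT, hT, ← MonoidHom.range_eq_map, MonoidHom.range_eq_top.2 hsurj]
        have hGN : Group.IsNilpotent (G ⧸ N) := by
          have := hT'.2.1
          rw [hT'top] at this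
          exact Group.nilpotent_of_mulEquiv (topEquiv (G := G ⧸ N))
        have h1 : ¬ ∀ H : Subgroup G, IsCoatom H → H.Normal := fun h => hnil ((Group.isNilpotent_of_finite_tfae (G := G)).out 0 2 |>.2 h)
        push Not at h1
        obtain ⟨M, hM, hMn⟩ := h1
        have hnormM : ∀ g : G, MulAut.conj g • M = M → g ∈ M := by
          intro g hg
          by_contra hgM
          apply hMn
          rw [← normalizer_eq_top_iff]
          apply hM.2
          rw [SetLike.lt_iff_le_and_exists]
          exact ⟨le_normalizer, g, mem_norm.2 hg, hgM⟩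
        have hNM : ¬ N ≤ M := by
          intro hNM
          have h2 : M.map (QuotientGroup.mk' N) ≠ ⊤ := by
            intro h
            apply hM.1
            rw [eq_top_iff]
            intro x _
            have : QuotientGroup.mk' N x ∈ M.map (QuotientGroup.mk' N) := by rw [h]; exact mem_top _
            rw [mem_map_sup, sup_eq_left.2 hNM] at this
            exact this
          have : Group.IsNilpotent (⊤ : Subgroup (G ⧸ N)) := inferInstance
          obtain ⟨q, _, hq, hqC⟩ := norm_cond this le_top h2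
          obtain ⟨x, rfl⟩ := hsurj q
          have h3 := lift_norm hqC
          rw [mem_map_sup, sup_eq_left.2 hNM] at hq
          rw [sup_eq_left.2 hNM] at h3
          exact hq (hnormM x h3)
        have hMN : M ⊔ N = ⊤ := hM.2 _ (left_lt_sup.2 hNM)
        have hinf : M ⊓ N = ⊥ := by
          haveI := inf_normal_of_sup hNc hMN
          rcases hN.2.2 (M ⊓ N) inferInstance inf_le_right with h | h
          · exact h
          · exact absurd (inf_eq_right.1 h) hNM
        refine ⟨M, le_top, ?_, fun g _ hg => hnormM g hg⟩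
        have hinj : Function.Injective ((QuotientGroup.mk' N).comp M.subtype) := by
          rw [injective_iff_map_eq_one]
          intro x hx
          have h3 : (x : G) ∈ N := (QuotientGroup.eq_one_iff (x : G)).1 hx
          have h4 : (x : G) ∈ M ⊓ N := ⟨x.2, h3⟩
          rw [hinf, mem_bot] at h4
          exact Subtype.ext h4
        exact Group.nilpotent_of_mulEquiv (MonoidHom.ofInjective hinj).symm
      · obtain ⟨C, hC⟩ := (lt_down T hT).1
        have hCNT : C ⊔ N ≤ T := sup_le hC.1 hNT
        have hCNtop : C ⊔ N ≠ ⊤ := fun h => hT (top_le_iff.1 (h ▸ hCNT))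
        have hCN : C ⊔ N = T := by
          by_contra hne
          have h1 : C.map (QuotientGroup.mk' N) ≠ T' := by
            intro h
            apply hne
            rw [hTdef, ← h, comap_map_eq, QuotientGroup.ker_mk']
          obtain ⟨q, hqT, hq, hqC⟩ := norm_cond hT'.2.1 (by rw [← hTT]; exact map_mono hC.1) h1
          obtain ⟨x, rfl⟩ := hsurj q
          rw [mem_map_sup] at hq
          exact hq (car_norm hC hNT (fun D hD => (lt_down _ hCNtop).2 C D ⟨le_sup_left, hC.2.1, fun g hg => hC.2.2 g (hCNT hg)⟩ hD) (show x ∈ T from hqT) (lift_norm hqC))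
        refine ⟨C, le_top, hC.2.1, fun g _ hg => ?_⟩
        apply hC.2.2 g _ hg
        have e : MulAut.conj g • N = N := mem_norm.1 (by rw [normalizer_eq_top_iff.2 hNn]; exact mem_top _)
        have h1 : MulAut.conj g • T = T := by rw [← hCN, smul_sup, e, hg]
        have h2 := hT'.2.2 (QuotientGroup.mk' N g) (mem_top _) (by
          rw [← hTT, ← map_conj', h1])
        exact h2
    · -- conjugacy
      have hinfC : ∀ X : Subgroup G, Car ⊤ X → X ⊔ N = ⊤ → X ⊓ N = ⊥ := by
        intro X hX hXN
        haveI := inf_normal_of_sup hNc hXN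
        rcases hN.2.2 (X ⊓ N) inferInstance inf_le_right with h | h
        · exact h
        · exfalso
          apply hnil
          rw [sup_eq_left.2 (inf_eq_right.1 h)] at hXN
          have := hX.2.1
          rw [hXN] at this
          exact Group.nilpotent_of_mulEquiv (topEquiv (G := G))
      have hcardX : ∀ X : Subgroup G, Car ⊤ X → X ⊔ N = ⊤ → Nat.card X * Nat.card N = Nat.card G := by
        intro X hX hXN
        have h1 := card_sup_of (A := X) (N := N) (by rw [normalizer_eq_top_iff.2 hNn]; exact le_top) (hinfC X hX hXN)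
        rw [hXN, card_top] at h1
        exact h1.symm
      have hconjT : ∀ C D : Subgroup G, Car ⊤ C → Car ⊤ D → C ⊔ N = D ⊔ N → ∃ g : G, MulAut.conj g • C = D := by
        intro C D hC hD hCD
        by_cases hT : C ⊔ N = ⊤
        · have hDT : D ⊔ N = ⊤ := hCD ▸ hT
          obtain ⟨P, K, hPC, hKC, hPp, hKp, hCe, hcomm, hcard⟩ := nil_decomp hC.2.1 p
          obtain ⟨P', K', hPD, hKD, hPp', hKp', hDe, hcomm', hcard'⟩ := nil_decomp hD.2.1 p
          have hc1 := hcardX C hC hT
          have hc2 := hcardX D hD hDT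
          obtain ⟨a, ha⟩ := IsPGroup.iff_card.1 hPp
          obtain ⟨b, hb⟩ := IsPGroup.iff_card.1 hPp'
          obtain ⟨c, hc⟩ := IsPGroup.iff_card.1 hNp
          have hCDcard : Nat.card P * Nat.card K = Nat.card P' * Nat.card K' := by
            rw [hcard, hcard']
            exact Nat.eq_of_mul_eq_mul_right Nat.card_pos (hc1.trans hc2.symm)
          have hKK : Nat.card K = Nat.card K' := by
            apply Nat.dvd_antisymm
            · apply Nat.Coprime.dvd_of_dvd_mul_left (m := Nat.card P')
              · rw [hb]; exact Nat.Coprime.pow_right _ hKp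
              · rw [← hCDcard]; exact dvd_mul_left _ _
            · apply Nat.Coprime.dvd_of_dvd_mul_left (m := Nat.card P)
              · rw [ha]; exact Nat.Coprime.pow_right _ hKp'
              · rw [hCDcard]; exact dvd_mul_left _ _
          obtain ⟨g, hg⟩ := Cfsg.Agent.S0004.result (Nat.card K) (Nat.card P * Nat.card N) (by rw [← hc1, ← hcard]; ring)
            (by rw [ha, hc]; exact Nat.Coprime.mul_right (Nat.Coprime.pow_right _ hKp) (Nat.Coprime.pow_right _ hKp)) K K' rfl hKK.symm
          have hnorm : ∀ (C P K : Subgroup G), C = P ⊔ K → (∀ a ∈ P, ∀ b ∈ K, a * b = b * a) → C ≤ normalizer (K : Set G) := by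
            intro C P K hCe hcomm
            rw [hCe]
            apply sup_le _ le_normalizer
            intro x hx
            rw [mem_normalizer_iff]
            have key : ∀ z ∈ K, x * z * x⁻¹ = z := by
              intro z hz
              rw [hcomm x hx z hz]; group
            intro y
            constructor
            · intro h1
              rw [key y h1]; exact h1
            · intro h1
              have h2 : x⁻¹ * (x * y * x⁻¹) * x⁻¹⁻¹ = y := by group
              have h3 : x⁻¹ * (x * y * x⁻¹) * x⁻¹⁻¹ = x * y * x⁻¹ := by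
                rw [inv_inv, mul_assoc, ← hcomm x hx _ h1]; group
              rw [← h2, h3]; exact h1
          by_cases hNK : normalizer (K' : Set G) = ⊤
          · exfalso
            haveI hKn : K'.Normal := normalizer_eq_top_iff.1 hNK
            have hPNp : IsPGroup p (P' ⊔ N : Subgroup G) := hPp'.to_sup_of_normal_right hNp
            have hDN := hinfC D hD hDT
            have hne : P' ≠ P' ⊔ N := by
              intro h
              have h1 : N ≤ P' := by rw [h]; exact le_sup_right
              have h2 : N ≤ D ⊓ N := le_inf (h1.trans hPD) le_rfl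
              rw [hDN] at h2
              exact hN.2.1 (le_bot_iff.1 h2)
            obtain ⟨x, hx, hxn, hxP⟩ := norm_grow hPNp le_sup_left hne
            have h1 : MulAut.conj x • D = D := by
              have e : MulAut.conj x • K' = K' := mem_norm.1 (by rw [hNK]; exact mem_top _)
              rw [hDe, smul_sup, mem_norm.1 hxn, e]
            have h2 := hD.2.2 x (mem_top _) h1
            obtain ⟨y, hy, z, hz, rfl⟩ := mem_sup_of_normal_right.1 hx
            apply hxP
            have h3 : z ∈ D ⊓ N := ⟨by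
              have e : z = y⁻¹ * (y * z) := by group
              rw [e]; exact D.mul_mem (D.inv_mem (hPD hy)) h2, hz⟩
            rw [hDN, mem_bot] at h3
            rw [h3, mul_one]; exact hy
          · have h1 := car_conj hC g
            have h2 : MulAut.conj g • C ≤ normalizer (K' : Set G) := by
              apply hnorm _ (MulAut.conj g • P)
              · rw [← hg, ← smul_sup, ← hCe]
              · intro a ha b hb
                rw [← hg] at hb
                rw [mem_pointwise_smul_iff_inv_smul_mem] at ha hb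
                have h4 := hcomm _ ha _ hb
                rw [← smul_mul', ← smul_mul'] at h4
                exact smul_left_cancel _ h4
            have h3 : Car (normalizer (K' : Set G)) (MulAut.conj g • C) := ⟨h2, h1.2.1, fun y _ hy => h1.2.2 y (by
              rw [mem_pointwise_smul_iff_inv_smul_mem]; exact mem_top _) hy⟩
            have h4 : Car (normalizer (K' : Set G)) D := ⟨hnorm D P' K' hDe hcomm', hD.2.1, fun y _ hy => hD.2.2 y (mem_top _) hy⟩
            obtain ⟨h, _, hh⟩ := (lt_down _ hNK).2 _ _ h3 h4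
            exact ⟨h * g, by rw [← conj_conj, hh]⟩
        · obtain ⟨g, _, hg⟩ := (lt_down _ hT).2 C D ⟨le_sup_left, hC.2.1, fun g _ => hC.2.2 g (mem_top _)⟩
            ⟨hCD ▸ le_sup_left, hD.2.1, fun g _ => hD.2.2 g (mem_top _)⟩
          exact ⟨g, hg⟩
      intro C D hC hD
      obtain ⟨q, hq⟩ := hqc _ _ (himg C hC) (himg D hD)
      obtain ⟨x, rfl⟩ := hsurj q
      rw [← map_conj', map_eq_map_iff, QuotientGroup.ker_mk'] at hq
      have h1 := car_conj hC x
      have h2 : Car ⊤ (MulAut.conj x • C) := ⟨le_top, h1.2.1, fun y _ hy => h1.2.2 y (by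
              rw [mem_pointwise_smul_iff_inv_smul_mem]; exact mem_top _) hy⟩
      obtain ⟨g, hg⟩ := hconjT _ _ h2 hD hq
      exact ⟨g * x, by rw [← conj_conj, hg]⟩

theorem car_iff {G : Type u} [Group G] {C : Subgroup G} : Car ⊤ C ↔ Group.IsNilpotent C ∧ normalizer (C : Set G) = C := by
  constructor
  · rintro ⟨-, h1, h2⟩
    exact ⟨h1, le_antisymm (fun g hg => h2 g (mem_top _) (mem_norm.1 hg)) le_normalizer⟩
  · rintro ⟨h1, h2⟩
    exact ⟨le_top, h1, fun g _ hg => by rw [← h2]; exact mem_norm.2 hg⟩

theorem carter {G : Type u} [Group G] [Finite G] [Group.IsSolvable G] :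
    (∃ C : Subgroup G, Group.IsNilpotent C ∧ Subgroup.normalizer (C : Set G) = C) ∧
    ∀ C D : Subgroup G, Group.IsNilpotent C → Subgroup.normalizer (C : Set G) = C →
      Group.IsNilpotent D → Subgroup.normalizer (D : Set G) = D → ∃ g : G, MulAut.conj g • C = D := by
  obtain ⟨⟨C, hC⟩, h2⟩ := carter_aux (Nat.card G) G inferInstance le_rfl
  exact ⟨⟨C, car_iff.1 hC⟩, fun C D h1 h3 h4 h5 => h2 C D (car_iff.2 ⟨h1, h3⟩) (car_iff.2 ⟨h4, h5⟩)⟩

end CfsgLib.H9X
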