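import Mathlib
import Cfsg.Agent.Lib.H9Xp
import Cfsg.Agent.Lib.H9Xk
import Cfsg.Agent.Lib.Ito

/-! # Products of two abelian groups -/

set_option autoImplicit false
set_option maxHeartbeats 1000000
set_option linter.style.haveILetI false

namespace CfsgLib.H9X

open Subgroup
open scoped Pointwise commutatorElement

universe u

theorem prod_fix {G : Type u} [Group G] (A B N : Subgroup G) [hNn : N.Normal] (hA : ∀ a ∈ A, ∀ b ∈ A, a * b = b * a)
    (hNc : ∀ a ∈ N, ∀ b ∈ N, a * b = b * a) (hcomN : ∀ x y : G, ⁅x, y⁆ ∈ N)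
    (hAB : ∀ g : G, ∃ a ∈ A, ∃ b ∈ B, g = a * b) (hcA : ∀ M : Subgroup G, M.Normal → M ≤ A → M = ⊥)
    (hBz : ∀ b ∈ B, (∀ a ∈ A, b * a = a * b) → b = 1) : ∀ x ∈ N, (∀ a ∈ A, x * a = a * x) → x = 1 := by
  let U : Subgroup G :=
    { carrier := {x | x ∈ N ∧ ∀ a ∈ A, x * a = a * x}
      mul_mem' := by
        rintro x y ⟨hx, hx1⟩ ⟨hy, hy1⟩
        refine ⟨N.mul_mem hx hy, fun a ha => ?_⟩
        rw [mul_assoc, hy1 a ha, ← mul_assoc, hx1 a ha, mul_assoc]
      one_mem' := ⟨N.one_mem, fun a _ => by rw [one_mul, mul_one]⟩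
      inv_mem' := by
        rintro x ⟨hx, hx1⟩
        refine ⟨N.inv_mem hx, fun a ha => ?_⟩
        have h := hx1 a ha
        calc x⁻¹ * a = x⁻¹ * (a * x) * x⁻¹ := by group
          _ = _ := by rw [← h]; group }
  have hUn : U.Normal := by
    refine ⟨fun x hx g => ⟨hNn.conj_mem x hx.1 g, fun a ha => ?_⟩⟩
    -- `g⁻¹ a g` commutes with `x`
    have h1 : x * (g⁻¹ * a * g) = (g⁻¹ * a * g) * x := by
      have e : g⁻¹ * a * g = a * ⁅a⁻¹, g⁻¹⁆ := by rw [commutatorElement_def]; group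
      rw [e, ← mul_assoc, hx.2 a ha, mul_assoc, hNc x hx.1 _ (hcomN _ _), mul_assoc]
    calc g * x * g⁻¹ * a = g * (x * (g⁻¹ * a * g)) * g⁻¹ := by group
      _ = _ := by rw [h1]; group
  have hUA : U ≤ A := by
    intro m hm
    obtain ⟨a, ha, b, hb, rfl⟩ := hAB m
    have hb1 : b = 1 := by
      apply hBz b hb
      intro c hc
      have h1 := hm.2 c hc
      calc b * c = a⁻¹ * (a * b * c) := by group
        _ = a⁻¹ * (c * (a * b)) := by rw [h1]
        _ = a⁻¹ * (c * a) * b := by group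
        _ = a⁻¹ * (a * c) * b := by rw [hA c hc a ha]
        _ = c * b := by group
    rw [hb1, mul_one]; exact ha
  intro x hx hxA
  have h1 : x ∈ U := ⟨hx, hxA⟩
  rw [hcA U hUn hUA, mem_bot] at h1
  exact h1

theorem prod_self {G : Type u} [Group G] [Finite G] [Group.IsSolvable G] (A B N : Subgroup G) [hNn : N.Normal] (hA : ∀ a ∈ A, ∀ b ∈ A, a * b = b * a)
    (hcomN : ∀ x y : G, ⁅x, y⁆ ∈ N) (hAnil : Group.IsNilpotent A)
    (hAB : ∀ g : G, ∃ a ∈ A, ∃ b ∈ B, g = a * b)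
    (hBz : ∀ b ∈ B, (∀ a ∈ A, b * a = a * b) → b = 1) (hfix : ∀ x ∈ N, (∀ a ∈ A, x * a = a * x) → x = 1) : A ⊔ N = ⊤ ∧ Car ⊤ A := by
  have hAN : ∀ x ∈ A, x ∈ N → x = 1 := fun x hx hxN => hfix x hxN fun a ha => hA x hx a ha
  have hself : ∀ y : G, MulAut.conj y • A = A → y ∈ A := by
    intro y hy
    obtain ⟨a, ha, b, hb, rfl⟩ := hAB y
    have hb1 : b = 1 := by
      apply hBz b hb
      intro c hc
      have h1 : MulAut.conj b • A = A := by
        rw [← conj_conj] at hy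
        have h2 : MulAut.conj a • A = A := mem_norm.1 (le_normalizer ha)
        rw [← inv_smul_smul (MulAut.conj a) (MulAut.conj b • A), hy, ← map_inv]
        exact mem_norm.1 (le_normalizer (A.inv_mem ha))
      have h3 : b * c * b⁻¹ ∈ A := (mem_normalizer_iff.1 (mem_norm.2 h1) c).1 hc
      have h4 : b * c * b⁻¹ * c⁻¹ = 1 := hAN _ (A.mul_mem h3 (A.inv_mem hc)) (hcomN b c)
      calc b * c = (b * c * b⁻¹ * c⁻¹) * (c * b) := by group
        _ = c * b := by rw [h4, one_mul]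
    rw [hb1, mul_one]; exact ha
  refine ⟨?_, le_top, hAnil, fun g _ hg => hself g hg⟩
  rw [eq_top_iff]
  intro g _
  have hTn : (A ⊔ N).Normal := by
    refine ⟨fun x hx y => ?_⟩
    have e : y * x * y⁻¹ = ⁅y, x⁆ * x := by rw [commutatorElement_def]; group
    rw [e]
    exact mul_mem (mem_sup_right (hcomN y x)) hx
  have h1 : Car (A ⊔ N) A := ⟨le_sup_left, hAnil, fun g _ hg => hself g hg⟩
  have h2 := car_conj h1 g
  have h3 : MulAut.conj g • (A ⊔ N) = A ⊔ N := mem_norm.1 (by rw [normalizer_eq_top_iff.2 hTn]; exact mem_top _)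
  rw [h3] at h2
  obtain ⟨x, hx, hxA⟩ := (down (carter_aux (Nat.card G)) (A ⊔ N) (card_le_card_group _)).2 _ _ h1 h2
  have h4 : x⁻¹ * g ∈ A := by
    apply hself
    rw [← conj_conj, ← hxA, conj_conj, inv_mul_cancel, map_one, one_smul]
  have : g = x * (x⁻¹ * g) := by group
  rw [this]
  exact mul_mem hx (mem_sup_left h4)

theorem s0573 {G : Type u} [Group G] [Finite G] [Nontrivial G] (A B : Subgroup G) [hA' : IsMulCommutative A] [hB' : IsMulCommutative B]
    (hAB : ∀ g : G, ∃ a ∈ A, ∃ b ∈ B, g = a * b) : ∃ N : Subgroup G, N.Normal ∧ N ≠ ⊥ ∧ (N ≤ A ∨ N ≤ B) := by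
  by_contra hcon
  push Not at hcon
  have hA := comm_of_isMul hA'
  have hB := comm_of_isMul hB'
  have hcA : ∀ M : Subgroup G, M.Normal → M ≤ A → M = ⊥ := by
    intro M hM hMA
    by_contra h
    exact (hcon M hM h).1 hMA
  have hcB : ∀ M : Subgroup G, M.Normal → M ≤ B → M = ⊥ := by
    intro M hM hMA
    by_contra h
    exact (hcon M hM h).2 hMA
  have hBA : ∀ g : G, ∃ b ∈ B, ∃ a ∈ A, g = b * a := by
    intro g
    obtain ⟨a, ha, b, hb, h⟩ := hAB g⁻¹
    exact ⟨b⁻¹, B.inv_mem hb, a⁻¹, A.inv_mem ha, by rw [← mul_inv_rev, ← h, inv_inv]⟩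
  have hz : ∀ (A B : Subgroup G), (∀ a ∈ A, ∀ b ∈ A, a * b = b * a) → (∀ g : G, ∃ a ∈ A, ∃ b ∈ B, g = a * b) →
      (∀ M : Subgroup G, M.Normal → M ≤ A → M = ⊥) → ∀ a ∈ A, (∀ b ∈ B, a * b = b * a) → a = 1 := by
    intro A B hA hAB hcA a ha hab
    have hac : ∀ g : G, g * a * g⁻¹ = a := by
      intro g
      obtain ⟨c, hc, b, hb, rfl⟩ := hAB g
      calc c * b * a * (c * b)⁻¹ = c * (b * a) * b⁻¹ * c⁻¹ := by group
        _ = c * a * c⁻¹ := by rw [← hab b hb]; group
        _ = a := by rw [hA c hc a ha]; group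
    have hn : (zpowers a).Normal := by
      refine ⟨?_⟩
      rintro _ ⟨k, rfl⟩ g
      refine ⟨k, ?_⟩
      show a ^ k = g * a ^ k * g⁻¹
      rw [← conj_zpow, hac]
    have h1 := hcA _ hn (by rw [zpowers_le]; exact ha)
    exact zpowers_eq_bot.1 h1
  have hAz := hz A B hA hAB hcA
  have hBz := hz B A hB hBA hcB
  set N := commutator G with hN
  have hNc : ∀ a ∈ N, ∀ b ∈ N, a * b = b * a := comm_of_isMul (CfsgLib.Ito.ito A B hA' hB' hAB)
  have hcomN : ∀ x y : G, ⁅x, y⁆ ∈ N := fun x y => by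
    rw [hN, _root_.commutator_def]
    exact commutator_mem_commutator (mem_top _) (mem_top _)
  haveI hsol : Group.IsSolvable G := by
    refine ⟨⟨2, ?_⟩⟩
    rw [derivedSeries_succ, derivedSeries_one, eq_bot_iff, commutator_le]
    intro a ha b hb
    rw [mem_bot]
    exact commutatorElement_eq_one_iff_mul_comm.2 (hNc a ha b hb)
  have hfA := prod_fix A B N hA hNc hcomN hAB hcA hBz
  have hfB := prod_fix B A N hB hNc hcomN hBA hcB hAz
  have hAnil : Group.IsNilpotent A := by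
    letI : CommGroup A := { (inferInstance : Group A) with mul_comm := fun a b => Subtype.ext (hA a a.2 b b.2) }
    infer_instance
  have hBnil : Group.IsNilpotent B := by
    letI : CommGroup B := { (inferInstance : Group B) with mul_comm := fun a b => Subtype.ext (hB a a.2 b b.2) }
    infer_instance
  have h1 := (prod_self A B N hA hcomN hAnil hAB hBz hfA).2
  have h2 := (prod_self B A N hB hcomN hBnil hBA hAz hfB).2
  obtain ⟨g, hg⟩ := (carter_aux (Nat.card G) G inferInstance le_rfl).2 A B h1 h2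
  obtain ⟨a, ha, b, hb, hab⟩ := hAB g⁻¹
  have h3 : MulAut.conj g⁻¹ • B = A := by rw [← hg, conj_conj, inv_mul_cancel, map_one, one_smul]
  rw [hab, ← conj_conj, mem_norm.1 (le_normalizer hb)] at h3
  have h4 : B = A := by
    have h5 : MulAut.conj a⁻¹ • A = A := mem_norm.1 (le_normalizer (A.inv_mem ha))
    rw [← h5, ← h3, conj_conj, inv_mul_cancel, map_one, one_smul]
  have h6 : (⊤ : Subgroup G) ≤ A := by
    intro x _
    obtain ⟨a, ha, b, hb, rfl⟩ := hAB x
    rw [h4] at hb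
    exact A.mul_mem ha hb
  have h7 := hcA ⊤ inferInstance h6
  exact bot_ne_top h7.symm

end CfsgLib.H9X
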