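import Mathlib
import Cfsg.Agent.Lib.H9Xp
import Cfsg.Agent.Lib.H9Xi
import Cfsg.Agent.S0003
import Cfsg.Agent.S0005

/-! # Carter subgroups and system normalizers -/

set_option autoImplicit false
set_option maxHeartbeats 1000000
set_option linter.style.haveILetI false

namespace CfsgLib.H9X

open Subgroup
open scoped Pointwise commutatorElement

universe u

theorem index_eq_of {G : Type u} [Group G] [Finite G] {H : Subgroup G} {p : ℕ} (hp : p.Prime) {k : ℕ} (h : H.index = p ^ k)
    (hc : (Nat.card H).Coprime p) : H.index = p ^ (Nat.card G).factorization p := by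
  have h2 := card_mul_index H
  have h5 : (Nat.card G).factorization p = k := by
    rw [← h2, h, Nat.factorization_mul Nat.card_pos.ne' (pow_pos hp.pos _).ne', Finsupp.add_apply, hp.factorization_pow,
      Nat.factorization_eq_zero_of_not_dvd ((Nat.Prime.coprime_iff_not_dvd hp).1 hc.symm)]
    simp
  rw [h5, h]

theorem nil_hall_normal {G : Type u} [Group G] [Finite G] (hG : Group.IsNilpotent G) {H : Subgroup G} {p k : ℕ} (hp : p.Prime) (h : H.index = p ^ k)
    (hc : (Nat.card H).Coprime p) : H.Normal := by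
  haveI : Fact p.Prime := ⟨hp⟩
  obtain ⟨N₀, hN₀, hN₀c, b, hb⟩ := CfsgLib.H5Fpf.npc_of_nilpotent (q := p) hG
  have hle : H ≤ N₀ := by
    intro x hx
    apply le_of_coprime_index
    rw [hb]
    apply Nat.Coprime.pow_right
    apply Nat.Coprime.coprime_dvd_left _ hc
    have := orderOf_dvd_natCard (⟨x, hx⟩ : H)
    rwa [orderOf_mk] at this
  have h1 : H.index = N₀.index := by rw [index_eq_of hp h hc, index_eq_of hp hb hN₀c]
  have h2 : H = N₀ := by
    apply eq_of_le_of_card_ge hle
    have e1 := card_mul_index H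
    have e2 := card_mul_index N₀
    rw [h1] at e1
    exact (Nat.eq_of_mul_eq_mul_right (Nat.pos_of_ne_zero index_ne_zero_of_finite) (e2.trans e1.symm)).le
  rw [h2]; exact hN₀

theorem min_data {G : Type u} [Group G] [Finite G] [Group.IsSolvable G] (hnil : ¬ Group.IsNilpotent G) :
    ∃ N : Subgroup G, CfsgLib.H5MinNormal.IsMinNormal N ∧ (∀ a ∈ N, ∀ b ∈ N, a * b = b * a) ∧ ∃ p : ℕ, p.Prime ∧ IsPGroup p N := by
  have hGbot : (⊤ : Subgroup G) ≠ ⊥ := by
    intro h
    apply hnil
    have : Subsingleton G := ⟨fun a b => by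
      have h1 : a ∈ (⊥ : Subgroup G) := h ▸ mem_top a
      have h2 : b ∈ (⊥ : Subgroup G) := h ▸ mem_top b
      rw [mem_bot] at h1 h2
      rw [h1, h2]⟩
    infer_instance
  obtain ⟨N, -, hN⟩ := CfsgLib.H5MinNormal.exists_isMinNormal (⊤ : Subgroup G) inferInstance hGbot
  haveI hNn := hN.1
  have hNab : ⁅N, N⁆ = ⊥ := by
    rcases hN.2.2 ⁅N, N⁆ inferInstance (commutator_le_left _ _) with h | h
    · exact h
    · exfalso
      haveI : Nontrivial N := (nontrivial_iff_ne_bot N).2 hN.2.1
      have h6 := (Group.IsSolvable.commutator_lt_top_of_nontrivial N).ne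
      apply h6
      have h7 : (commutator N).map N.subtype = ⁅N, N⁆ := by
        rw [_root_.commutator_def, map_commutator, ← MonoidHom.range_eq_map, range_subtype]
      rw [h] at h7
      rw [eq_top_iff]
      intro x _
      have : (x : G) ∈ (commutator N).map N.subtype := by rw [h7]; exact x.2
      obtain ⟨y, hy, hyx⟩ := this
      have : y = x := Subtype.ext hyx
      rwa [← this]
  have hNc : ∀ a ∈ N, ∀ b ∈ N, a * b = b * a := by
    intro a ha b hb
    have h1 : ⁅a, b⁆ ∈ ⁅N, N⁆ := commutator_mem_commutator ha hb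
    rw [hNab, mem_bot] at h1
    exact commutatorElement_eq_one_iff_mul_comm.1 h1
  obtain ⟨p, hp, hpN⟩ := CfsgLib.H5Perm2.elementary_of_comm hN hNc
  exact ⟨N, hN, hNc, p, hp, fun x => ⟨1, by rw [pow_one]; exact Subtype.ext (hpN x x.2)⟩⟩

theorem car_map {G : Type u} [Group G] [Finite G] [Group.IsSolvable G] {C : Subgroup G} (hC : Car ⊤ C) (N : Subgroup G) [hNn : N.Normal] :
    Car ⊤ (C.map (QuotientGroup.mk' N)) := by
  refine ⟨le_top, ?_, ?_⟩
  · haveI := hC.2.1
    exact Group.nilpotent_of_surjective ((QuotientGroup.mk' N).subgroupMap C) (MonoidHom.subgroupMap_surjective _ _)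
  · intro g _ hg
    obtain ⟨x, rfl⟩ := QuotientGroup.mk'_surjective N g
    rw [mem_map_sup]
    exact car_norm hC le_top (fun D hD => (down (carter_aux (Nat.card G)) (C ⊔ N) (card_le_card_group _)).2 C D
      ⟨le_sup_left, hC.2.1, fun g _ => hC.2.2 g (mem_top _)⟩ hD) (mem_top x) (lift_norm hg)

theorem car_sub {G : Type u} [Group G] {T C : Subgroup G} (hX : Car T C) : Car ⊤ (C.subgroupOf T) := by
  haveI := hX.2.1
  refine ⟨le_top, Group.nilpotent_of_mulEquiv (subgroupOfEquivOfLe hX.1).symm, ?_⟩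
  intro g _ hgX
  rw [conj_subgroupOf] at hgX
  exact mem_subgroupOf.2 (hX.2.2 g g.2 (eq_of_subgroupOf (conj_le_of_mem hX.1 g.2) hX.1 hgX))

theorem car_nil_top {G : Type u} [Group G] (hnil : Group.IsNilpotent G) {C : Subgroup G} (hC : Car ⊤ C) : C = ⊤ := by
  by_contra hne
  have : Group.IsNilpotent (⊤ : Subgroup G) := inferInstance
  obtain ⟨q, _, hq, hqC⟩ := norm_cond this le_top hne
  exact hq (hC.2.2 q (mem_top _) hqC)

theorem relIndex_map_dvd {G : Type u} [Group G] {X : Type u} [Group X] (f : G →* X) (H C : Subgroup G) :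
    (H.map f).relIndex (C.map f) ∣ H.relIndex C := by
  have e : C.map f = (f.comp C.subtype).range := by rw [MonoidHom.range_comp, range_subtype]
  rw [e, ← index_comap]
  apply index_dvd_of_le
  intro x hx
  rw [mem_comap]
  exact mem_map_of_mem _ (mem_subgroupOf.1 hx)

/-- index in an overgroup of a normal subgroup -/
theorem relIndex_over {G : Type u} [Group G] [Finite G] {K : Nat.Primes → Subgroup G} (hK : Cfsg.IsComplementSystem K) (N : Subgroup G)
    [hN : N.Normal] (T : Subgroup G) (hNT : N ≤ T) (p : Nat.Primes) {i : ℕ}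
    (h : ((K p).map (QuotientGroup.mk' N)).relIndex (T.map (QuotientGroup.mk' N)) = (p : ℕ) ^ i) : ∃ k : ℕ, (K p).relIndex T = (p : ℕ) ^ k := by
  obtain ⟨j, hj⟩ := relIndex_pow hK p N
  rw [relIndex_map_map, QuotientGroup.ker_mk', sup_eq_left.2 hNT] at h
  refine ⟨i + j, ?_⟩
  -- `(K p ⊓ T) ⊔ N = (K p ⊔ N) ⊓ T`
  have h1 : (K p ⊓ T) ⊔ N = (K p ⊔ N) ⊓ T := by
    apply le_antisymm
    · exact sup_le (le_inf (inf_le_left.trans le_sup_left) inf_le_right) (le_inf le_sup_right hNT)
    · rintro x ⟨hx, hxT⟩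
      obtain ⟨y, hy, z, hz, rfl⟩ := mem_sup_of_normal_right.1 hx
      have hyT : y ∈ T := by
        have e : y = (y * z) * z⁻¹ := by group
        rw [e]; exact T.mul_mem hxT (T.inv_mem (hNT hz))
      exact mul_mem (mem_sup_left ⟨hy, hyT⟩) (mem_sup_right hz)
  have c1 := CfsgLib.H3Misc.card_sup_mul_card_inf (K p ⊓ T) N
  rw [h1] at c1
  have cardrel : ∀ A B : Subgroup G, Nat.card (A ⊓ B : Subgroup G) * A.relIndex B = Nat.card B := by
    intro A B
    have e3 := card_mul_index (A.subgroupOf B)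
    have e4 : Nat.card (A.subgroupOf B) = Nat.card (A ⊓ B : Subgroup G) := by
      rw [← card_map_of_injective B.subtype_injective, subgroupOf_map_subtype]
    rw [e4] at e3
    exact e3
  have c2 := cardrel (K p ⊔ N) T
  have c3 := cardrel (K p) N
  have c4 := cardrel (K p) T
  rw [h] at c2
  rw [hj] at c3
  have e : N ⊓ (K p ⊓ T) = K p ⊓ N := by rw [inf_comm N, inf_assoc, inf_eq_right.2 hNT]
  rw [e] at c1
  have p1 : 0 < Nat.card (K p ⊓ N : Subgroup G) := Nat.card_pos
  have p2 : 0 < Nat.card (K p ⊓ T : Subgroup G) := Nat.card_pos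
  apply Nat.eq_of_mul_eq_mul_left p2
  rw [c4]
  apply Nat.eq_of_mul_eq_mul_right p1
  rw [← c2, pow_add]
  calc Nat.card ((K p ⊔ N) ⊓ T : Subgroup G) * (p : ℕ) ^ i * Nat.card (K p ⊓ N : Subgroup G)
      = (Nat.card ((K p ⊔ N) ⊓ T : Subgroup G) * Nat.card (K p ⊓ N : Subgroup G)) * (p : ℕ) ^ i := by ring
    _ = _ := by rw [c1, ← c3]; ring

theorem main_case {G : Type u} [Group G] [Finite G] [Group.IsSolvable G] {K : Nat.Primes → Subgroup G} (hK : Cfsg.IsComplementSystem K)
    {C N : Subgroup G} (hC : Car ⊤ C) (hN : CfsgLib.H5MinNormal.IsMinNormal N) (hNc : ∀ a ∈ N, ∀ b ∈ N, a * b = b * a) {p : ℕ} (hp : p.Prime)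
    (hNp : IsPGroup p N) (hnil : ¬ Group.IsNilpotent G)
    (hred : ∀ p : Nat.Primes, ∃ k : ℕ, (K p).relIndex C = (p : ℕ) ^ k) (hT : C ⊔ N = ⊤) : Cfsg.systemNormalizer K ≤ C := by
  haveI hNn := hN.1
  haveI : Fact p.Prime := ⟨hp⟩
  have hsurj := QuotientGroup.mk'_surjective N
  have hinf : C ⊓ N = ⊥ := by
    haveI := inf_normal_of_sup hNc hT
    rcases hN.2.2 (C ⊓ N) inferInstance inf_le_right with h | h
    · exact h
    · exfalso
      apply hnil
      rw [sup_eq_left.2 (inf_eq_right.1 h)] at hT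
      have := hC.2.1
      rw [hT] at this
      exact Group.nilpotent_of_mulEquiv (topEquiv (G := G))
  have hcard : Nat.card C * Nat.card N = Nat.card G := by
    have h1 := card_sup_of (A := C) (N := N) (by rw [normalizer_eq_top_iff.2 hNn]; exact le_top) hinf
    rw [hT, card_top] at h1
    exact h1.symm
  obtain ⟨c, hc⟩ := IsPGroup.iff_card.1 hNp
  have hGN : Group.IsNilpotent (G ⧸ N) := by
    have h1 := (car_map hC N).2.1
    have h2 : C.map (QuotientGroup.mk' N) = ⊤ := by
      rw [eq_top_iff]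
      intro x _
      obtain ⟨x, rfl⟩ := hsurj x
      rw [mem_map_sup, hT]; exact mem_top _
    rw [h2] at h1
    exact Group.nilpotent_of_mulEquiv (topEquiv (G := G ⧸ N))
  have hCD : C ≤ Cfsg.systemNormalizer K := by
    intro x hx
    rw [mem_sysnorm]
    intro q
    obtain ⟨k, hk⟩ := hred q
    by_cases hqp : (q : ℕ) = p
    · apply conj_eq_of_normal (A := K q) (H := C) _ _ hx
      · rw [← inf_eq_left]
        apply eq_of_le_of_card_ge inf_le_left
        apply Nat.le_of_dvd Nat.card_pos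
        have e3 := card_mul_index ((K q).subgroupOf C)
        have e4 : Nat.card ((K q).subgroupOf C) = Nat.card (K q ⊓ C : Subgroup G) := by
          rw [← card_map_of_injective C.subtype_injective, subgroupOf_map_subtype]
        have e5 : Nat.card (K q ⊓ C : Subgroup G) * (q : ℕ) ^ k = Nat.card C := by
          rw [e4] at e3
          rw [← hk]; exact e3
        apply Nat.Coprime.dvd_of_dvd_mul_right (n := (q : ℕ) ^ (k + c))
        · exact Nat.Coprime.pow_right _ (compl_coprime hK q)
        · rw [pow_add, ← mul_assoc, e5, hqp, ← hc, hcard]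
          exact card_subgroup_dvd_card _
      · apply nil_hall_normal hC.2.1 q.2 (k := k) hk
        apply Nat.Coprime.coprime_dvd_left _ (compl_coprime hK q)
        have e4 : Nat.card ((K q).subgroupOf C) = Nat.card (K q ⊓ C : Subgroup G) := by
          rw [← card_map_of_injective C.subtype_injective, subgroupOf_map_subtype]
        rw [e4]
        exact card_dvd_of_le inf_le_left
    · have hNK : N ≤ K q := by
        rw [← relIndex_eq_one]
        obtain ⟨j, hj⟩ := relIndex_pow hK q N
        have h1 : (K q).relIndex N ∣ Nat.card N := by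
          have := index_dvd_card ((K q).subgroupOf N)
          exact this
        have h2 : ((K q).relIndex N).Coprime (Nat.card N) := by
          rw [hj, hc]
          exact Nat.Coprime.pow _ _ ((Nat.coprime_primes q.2 hp).2 hqp)
        exact Nat.eq_one_of_dvd_coprimes h2 dvd_rfl h1
      have h1 : ((K q).map (QuotientGroup.mk' N)).Normal := by
        have h2 := quot_system hK N
        exact nil_hall_normal hGN q.2 (h2 q) (compl_coprime h2 q)
      have h2 : (K q).Normal := by
        have h3 := h1.comap (QuotientGroup.mk' N)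
        rw [comap_map_eq, QuotientGroup.ker_mk', sup_eq_left.2 hNK] at h3
        exact h3
      exact mem_norm.1 (by rw [normalizer_eq_top_iff.2 h2]; exact mem_top _)
  have hnc : ¬ ⁅N, (⊤ : Subgroup G)⁆ ≤ ⊥ := by
    intro h
    have h1 : ∀ n ∈ N, n ∈ C := by
      intro n hn
      apply hC.2.2 n (mem_top _)
      ext y
      rw [mem_pointwise_smul_iff_inv_smul_mem, ← map_inv, MulAut.smul_def, MulAut.conj_apply]
      have h2 := h (commutator_mem_commutator hn (mem_top y))
      rw [mem_bot] at h2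
      have h3 := commutatorElement_eq_one_iff_mul_comm.1 h2
      have : n⁻¹ * y * n⁻¹⁻¹ = y := by rw [inv_inv, mul_assoc, ← h3]; group
      rw [this]
    have h2 : N ≤ C ⊓ N := le_inf h1 le_rfl
    rw [hinf] at h2
    exact hN.2.1 (le_bot_iff.1 h2)
  have hDN := (s0568 K hK ⊥ N (bot_lt_iff_ne_bot.2 hN.2.1) (fun M hM _ hMN => hN.2.2 M hM hMN)).2 hnc
  intro d hd
  have h1 : d ∈ C ⊔ N := by rw [hT]; exact mem_top _
  obtain ⟨y, hy, z, hz, rfl⟩ := mem_sup_of_normal_right.1 h1
  have h2 : z ∈ N ⊓ Cfsg.systemNormalizer K := ⟨hz, by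
    have e : z = y⁻¹ * (y * z) := by group
    rw [e]; exact (Cfsg.systemNormalizer K).mul_mem ((Cfsg.systemNormalizer K).inv_mem (hCD hy)) hd⟩
  have h3 := hDN h2
  rw [mem_bot] at h3
  rw [h3, mul_one]; exact hy

theorem red_aux : ∀ (n : ℕ) (G : Type u) [Group G] [Finite G], Group.IsSolvable G → Nat.card G ≤ n → ∀ (K : Nat.Primes → Subgroup G),
    Cfsg.IsComplementSystem K → ∀ C : Subgroup G, Car ⊤ C → (∀ p : Nat.Primes, ∃ k : ℕ, (K p).relIndex C = (p : ℕ) ^ k) →
      Cfsg.systemNormalizer K ≤ C := by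
  intro n
  induction n with
  | zero => intro G _ _ _ hn; exact absurd hn (by have := Nat.card_pos (α := G); omega)
  | succ n ih =>
    intro G _ _ hsol hn K hK C hC hred
    haveI := hsol
    by_cases hnil : Group.IsNilpotent G
    · rw [car_nil_top hnil hC]; exact le_top
    obtain ⟨N, hN, hNc, p, hp, hNp⟩ := min_data hnil
    haveI hNn := hN.1
    by_cases hT : C ⊔ N = ⊤
    · exact main_case hK hC hN hNc hp hNp hnil hred hT
    have hquot : Nat.card (G ⧸ N) ≤ n := by
      have e := card_mul_index N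
      have e1 : N.index = Nat.card (G ⧸ N) := rfl
      have e2 : 1 < Nat.card N := (one_lt_card_iff_ne_bot N).2 hN.2.1
      have e3 : 0 < Nat.card (G ⧸ N) := Nat.card_pos
      rw [e1] at e
      nlinarith
    have hred' : ∀ q : Nat.Primes, ∃ k : ℕ, ((K q).map (QuotientGroup.mk' N)).relIndex (C.map (QuotientGroup.mk' N)) = (q : ℕ) ^ k := by
      intro q
      obtain ⟨k, hk⟩ := hred q
      have h1 := relIndex_map_dvd (QuotientGroup.mk' N) (K q) C
      rw [hk] at h1
      obtain ⟨j, -, hj⟩ := (Nat.dvd_prime_pow q.2).1 h1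
      exact ⟨j, hj⟩
    have h1 := ih (G ⧸ N) inferInstance hquot _ (s0545 K hK N).1 _ (car_map hC N) hred'
    rw [(s0545 K hK N).2] at h1
    have hDT : Cfsg.systemNormalizer K ≤ C ⊔ N := fun x hx => mem_map_sup.1 (h1 (mem_map_of_mem _ hx))
    have hTn : Nat.card (C ⊔ N : Subgroup G) ≤ n := by
      have h1 := card_lt_of_lt (lt_top_iff_ne_top.2 hT)
      rw [card_top] at h1
      omega
    have hKT : Cfsg.IsComplementSystem (fun q => (K q).subgroupOf (C ⊔ N)) := by
      intro q
      obtain ⟨i, hi⟩ := hred' q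
      obtain ⟨k, hk⟩ := relIndex_over hK N (C ⊔ N) le_sup_right q (i := i) (by
        rw [← hi, Subgroup.map_sup, QuotientGroup.map_mk'_self, sup_bot_eq])
      apply index_eq_of q.2 (k := k) hk
      apply Nat.Coprime.coprime_dvd_left _ (compl_coprime hK q)
      have e4 : Nat.card ((K q).subgroupOf (C ⊔ N)) = Nat.card (K q ⊓ (C ⊔ N) : Subgroup G) := by
        rw [← card_map_of_injective (C ⊔ N).subtype_injective, subgroupOf_map_subtype]
      rw [e4]
      exact card_dvd_of_le inf_le_left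
    have h2 := ih (C ⊔ N : Subgroup G) inferInstance hTn _ hKT _
      (car_sub ⟨le_sup_left, hC.2.1, fun g _ => hC.2.2 g (mem_top _)⟩) (by
        intro q
        obtain ⟨k, hk⟩ := hred q
        exact ⟨k, by rw [relIndex_subgroupOf le_sup_left, hk]⟩)
    intro x hx
    have h3 : (⟨x, hDT hx⟩ : (C ⊔ N : Subgroup G)) ∈ Cfsg.systemNormalizer (fun q => (K q).subgroupOf (C ⊔ N)) := by
      rw [mem_sysnorm] at hx ⊢
      intro q
      rw [conj_subgroupOf]
      show (MulAut.conj x • K q).subgroupOf (C ⊔ N) = _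
      rw [hx q]
    exact mem_subgroupOf.1 (h2 h3)

/-- every subgroup is reduced into by some complement system -/
theorem exists_red {G : Type u} [Group G] [Finite G] [Group.IsSolvable G] (C : Subgroup G) :
    ∃ K : Nat.Primes → Subgroup G, Cfsg.IsComplementSystem K ∧ ∀ p : Nat.Primes, ∃ k : ℕ, (K p).relIndex C = (p : ℕ) ^ k := by
  have key : ∀ p : Nat.Primes, ∃ H : Subgroup G, H.index = (p : ℕ) ^ (Nat.card G).factorization p ∧ ∃ k : ℕ, H.relIndex C = (p : ℕ) ^ k := by
    intro p
    obtain ⟨L, hL⟩ := Cfsg.Agent.S0003.result (G := C) (Nat.card C / (p : ℕ) ^ (Nat.card C).factorization p) ((p : ℕ) ^ (Nat.card C).factorization p)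
      (Nat.div_mul_cancel (Nat.ordProj_dvd _ _)).symm ((Nat.coprime_ordCompl p.2 (Nat.card_pos (α := C)).ne').symm.pow_right _)
    have hLc : (Nat.card L).Coprime p := by rw [hL]; exact (Nat.coprime_ordCompl p.2 (Nat.card_pos (α := C)).ne').symm
    have hLi : L.index = (p : ℕ) ^ (Nat.card C).factorization p := by
      have e := card_mul_index L
      rw [hL] at e
      apply Nat.eq_of_mul_eq_mul_left (Nat.div_pos (Nat.ordProj_le _ (Nat.card_pos (α := C)).ne') (pow_pos p.2.pos _))
      rw [e]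
      exact (Nat.div_mul_cancel (Nat.ordProj_dvd _ _)).symm
    obtain ⟨H, hH, hLH⟩ := Cfsg.Agent.S0005.result (G := G) (Nat.card G / (p : ℕ) ^ (Nat.card G).factorization p) ((p : ℕ) ^ (Nat.card G).factorization p)
      (Nat.div_mul_cancel (Nat.ordProj_dvd _ _)).symm ((Nat.coprime_ordCompl p.2 (Nat.card_pos (α := G)).ne').symm.pow_right _) (L.map C.subtype)
      (by rw [card_map_of_injective C.subtype_injective]; exact hLc.pow_right _)
    refine ⟨H, ?_, ?_⟩
    · have e := card_mul_index H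
      rw [hH] at e
      apply Nat.eq_of_mul_eq_mul_left (Nat.div_pos (Nat.ordProj_le _ (Nat.card_pos (α := G)).ne') (pow_pos p.2.pos _))
      rw [e]
      exact (Nat.div_mul_cancel (Nat.ordProj_dvd _ _)).symm
    · have h1 : H.relIndex C ∣ L.index := by
        apply index_dvd_of_le
        intro x hx
        exact mem_subgroupOf.2 (hLH ⟨x, hx, rfl⟩)
      rw [hLi] at h1
      obtain ⟨j, -, hj⟩ := (Nat.dvd_prime_pow p.2).1 h1
      exact ⟨j, hj⟩
  choose K hK1 hK2 using key
  exact ⟨K, hK1, hK2⟩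

theorem sysnorm_conj {G : Type u} [Group G] [Finite G] {K L : Nat.Primes → Subgroup G} {g : G} (h : ∀ p, MulAut.conj g • K p = L p) :
    MulAut.conj g • Cfsg.systemNormalizer K = Cfsg.systemNormalizer L := by
  ext x
  rw [mem_pointwise_smul_iff_inv_smul_mem, ← map_inv, MulAut.smul_def, MulAut.conj_apply, mem_sysnorm, mem_sysnorm]
  apply forall_congr'
  intro p
  rw [← h p, inv_inv]
  have e : g⁻¹ * x * g = g⁻¹ * (x * g) := by group
  rw [e, ← conj_conj, conj_conj x g]
  constructor
  · intro h1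
    have h2 : MulAut.conj g • (MulAut.conj g⁻¹ • MulAut.conj (x * g) • K p) = MulAut.conj g • K p := by rw [h1]
    rw [conj_conj g g⁻¹, mul_inv_cancel, map_one, one_smul] at h2
    exact h2
  · intro h1
    rw [h1, conj_conj, inv_mul_cancel, map_one, one_smul]

theorem s0569 {G : Type u} [Group G] [Finite G] [Group.IsSolvable G] : (∀ C : Subgroup G, Cfsg.IsCarterSubgroup C → ∃ K : Nat.Primes → Subgroup G, Cfsg.IsComplementSystem K ∧ Cfsg.systemNormalizer K ≤ C) ∧ ∀ K : Nat.Primes → Subgroup G, Cfsg.IsComplementSystem K → ∃ C : Subgroup G, Cfsg.IsCarterSubgroup C ∧ Cfsg.systemNormalizer K ≤ C := by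
  have h1 : ∀ C : Subgroup G, Cfsg.IsCarterSubgroup C → ∃ K : Nat.Primes → Subgroup G, Cfsg.IsComplementSystem K ∧ Cfsg.systemNormalizer K ≤ C := by
    intro C hC
    obtain ⟨K, hK, hred⟩ := exists_red C
    exact ⟨K, hK, red_aux _ G inferInstance le_rfl K hK C (car_iff.2 hC) hred⟩
  refine ⟨h1, fun K hK => ?_⟩
  obtain ⟨C, hC⟩ := (carter (G := G)).1
  obtain ⟨L, hL, hLC⟩ := h1 C hC
  obtain ⟨g, hg⟩ := s0543 L K hL hK
  refine ⟨MulAut.conj g • C, ?_, ?_⟩
  · have h2 := car_conj (car_iff.2 hC) g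
    exact car_iff.1 ⟨le_top, h2.2.1, fun y _ hy => h2.2.2 y (by
              rw [mem_pointwise_smul_iff_inv_smul_mem]; exact mem_top _) hy⟩
  · rw [← sysnorm_conj hg]
    exact pointwise_smul_le_pointwise_smul_iff.2 hLC

end CfsgLib.H9X
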