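import Mathlib
import Cfsg.Agent.Lib.H9Xr

/-! # Carter subgroups of groups of nilpotent length two -/

set_option autoImplicit false
set_option maxHeartbeats 1000000
set_option linter.style.haveILetI false

namespace CfsgLib.H9X

open Subgroup
open scoped Pointwise commutatorElement

universe u

theorem norm_of_comm {G : Type u} [Group G] {K : Subgroup G} {x : G} (hcomm : ∀ z ∈ K, x * z = z * x) : MulAut.conj x • K = K := by
  rw [← mem_norm, mem_normalizer_iff]
  have key : ∀ z ∈ K, x * z * x⁻¹ = z := by
    intro z hz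
    rw [hcomm z hz]; group
  intro y
  constructor
  · intro h1
    rw [key y h1]; exact h1
  · intro h1
    have h2 : x⁻¹ * (x * y * x⁻¹) * x⁻¹⁻¹ = y := by group
    have h3 : x⁻¹ * (x * y * x⁻¹) * x⁻¹⁻¹ = x * y * x⁻¹ := by
      rw [inv_inv, mul_assoc, ← hcomm _ h1]; group
    rw [← h2, h3]; exact h1

theorem nil_comm {G : Type u} [Group G] [Finite G] {X P : Subgroup G} (hX : Group.IsNilpotent X) {q : ℕ} [Fact q.Prime] (hP : IsPGroup q P)
    (hPX : P ≤ X) {z : G} (hz : z ∈ X) (hzq : ¬ q ∣ orderOf z) : ∀ y ∈ P, y * z = z * y := by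
  intro y hy
  have hP' : IsPGroup q (P.subgroupOf X) := hP.of_equiv (subgroupOfEquivOfLe hPX).symm
  have h1 : ¬ q ∣ orderOf (⟨z, hz⟩ : X) := by rw [orderOf_mk]; exact hzq
  have h2 := CfsgLib.Transfer2.commute_of_nilpotent (p := q) hX hP' h1 ⟨y, hPX hy⟩ (mem_subgroupOf.2 hy)
  exact (congrArg Subtype.val h2).symm

theorem cardrel {G : Type u} [Group G] [Finite G] (A B : Subgroup G) : Nat.card (A ⊓ B : Subgroup G) * A.relIndex B = Nat.card B := by
  have e3 := card_mul_index (A.subgroupOf B)
  have e4 : Nat.card (A.subgroupOf B) = Nat.card (A ⊓ B : Subgroup G) := by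
    rw [← card_map_of_injective B.subtype_injective, subgroupOf_map_subtype]
  rw [e4] at e3
  exact e3

theorem not_dvd_of_mem {G : Type u} [Group G] [Finite G] {K : Nat.Primes → Subgroup G} (hK : Cfsg.IsComplementSystem K) (q : Nat.Primes) {z : G}
    (hz : z ∈ K q) : ¬ (q : ℕ) ∣ orderOf z := by
  intro hd
  have h1 : orderOf z ∣ Nat.card (K q) := by
    have := orderOf_dvd_natCard (⟨z, hz⟩ : K q)
    rwa [orderOf_mk] at this
  exact (Nat.Prime.coprime_iff_not_dvd q.2).1 (compl_coprime hK q).symm (hd.trans h1)

theorem len_two {G : Type u} [Group G] [Finite G] [Group.IsSolvable G] (F : Subgroup G) [hFn : F.Normal] (hF : Group.IsNilpotent F)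
    (hGF : Group.IsNilpotent (G ⧸ F)) {C : Subgroup G} (hC : Car ⊤ C) {K : Nat.Primes → Subgroup G} (hK : Cfsg.IsComplementSystem K)
    (hred : ∀ p : Nat.Primes, ∃ k : ℕ, (K p).relIndex C = (p : ℕ) ^ k) : C = Cfsg.systemNormalizer K := by
  have hsurj := QuotientGroup.mk'_surjective F
  have hDC : Cfsg.systemNormalizer K ≤ C := red_aux _ G inferInstance le_rfl K hK C hC hred
  refine le_antisymm ?_ hDC
  have hCmap : C.map (QuotientGroup.mk' F) = ⊤ := car_nil_top hGF (car_map hC F)
  have hDmap : (Cfsg.systemNormalizer K).map (QuotientGroup.mk' F) = ⊤ := by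
    rw [← (s0545 K hK F).2, eq_top_iff]
    intro x _
    rw [mem_sysnorm]
    intro q
    have h2 := quot_system hK F
    have h3 : ((K q).map (QuotientGroup.mk' F)).Normal := nil_hall_normal hGF q.2 (h2 q) (compl_coprime h2 q)
    exact mem_norm.1 (by rw [normalizer_eq_top_iff.2 h3]; exact mem_top _)
  have hmain : C ⊓ F ≤ Cfsg.systemNormalizer K := by
    intro x hx
    rw [mem_sysnorm]
    intro q
    haveI : Fact (q : ℕ).Prime := ⟨q.2⟩
    obtain ⟨k, hk⟩ := hred q
    obtain ⟨j, hj⟩ := relIndex_pow hK q F
    have hcf : Group.IsNilpotent (C ⊓ F : Subgroup G) := nil_sub inf_le_left hC.2.1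
    obtain ⟨P, N', hPC, hNC, hPq, hNq, hCe, hcomm, hcard⟩ := nil_decomp hcf q
    rw [← mem_norm]
    have hle : P ⊔ N' ≤ normalizer (K q : Set G) := by
      apply sup_le
      · -- `q`-elements centralize `K q`
        set M := (K q ⊓ C) ⊔ (K q ⊓ F) with hM
        have hMK : M ≤ K q := sup_le inf_le_left inf_le_left
        have hMF : F ⊓ M = K q ⊓ F := by
          apply le_antisymm
          · rintro y ⟨h1, h2⟩
            exact ⟨hMK h2, h1⟩
          · exact le_inf inf_le_right le_sup_right
        have c1 := CfsgLib.H3Misc.card_sup_mul_card_inf M F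
        rw [hMF, ← cardrel (K q) F, hj] at c1
        have c2 : Nat.card (M ⊔ F : Subgroup G) = Nat.card M * (q : ℕ) ^ j := by
          apply Nat.eq_of_mul_eq_mul_right (Nat.card_pos (α := (K q ⊓ F : Subgroup G)))
          rw [c1]; ring
        have c3 : ∃ i : ℕ, (M ⊔ F).index = (q : ℕ) ^ i := by
          have h1 : (M ⊔ F).index ∣ (q : ℕ) ^ k := by
            have h2 := relIndex_map_dvd (QuotientGroup.mk' F) (K q ⊓ C) C
            rw [hCmap, relIndex_top_right, inf_relIndex_right, hk] at h2
            have h3 : (M.map (QuotientGroup.mk' F)).index ∣ ((K q ⊓ C).map (QuotientGroup.mk' F)).index :=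
              index_dvd_of_le (map_mono le_sup_left)
            have h4 : (M.map (QuotientGroup.mk' F)).index = (M ⊔ F).index := by
              rw [index_map, MonoidHom.range_eq_top.2 hsurj, index_top, mul_one, QuotientGroup.ker_mk']
            rw [← h4]
            exact h3.trans h2
          obtain ⟨i, -, hi⟩ := (Nat.dvd_prime_pow q.2).1 h1
          exact ⟨i, hi⟩
        obtain ⟨i, hi⟩ := c3
        have c4 := card_mul_index (M ⊔ F)
        rw [c2, hi, mul_assoc, ← pow_add] at c4
        have hMeq : M = K q := by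
          apply eq_of_le_of_card_ge hMK
          apply Nat.le_of_dvd Nat.card_pos
          apply Nat.Coprime.dvd_of_dvd_mul_right (n := (q : ℕ) ^ (j + i))
          · exact Nat.Coprime.pow_right _ (compl_coprime hK q)
          · rw [c4]; exact card_subgroup_dvd_card _
        intro y hy
        rw [mem_norm]
        apply norm_of_comm
        intro z hz
        rw [← hMeq] at hz
        have hcen : M ≤ centralizer ({y} : Set G) := by
          apply sup_le
          · intro w hw
            rw [mem_centralizer_singleton_iff]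
            exact (nil_comm hC.2.1 hPq (hPC.trans inf_le_left) hw.2 (not_dvd_of_mem hK q hw.1) y hy).symm
          · intro w hw
            rw [mem_centralizer_singleton_iff]
            exact (nil_comm hF hPq (hPC.trans inf_le_right) hw.2 (not_dvd_of_mem hK q hw.1) y hy).symm
        have h5 := hcen hz
        rw [mem_centralizer_singleton_iff] at h5
        exact h5.symm
      · refine le_trans ?_ le_normalizer
        intro z hz
        have hzF : z ∈ F := (hNC hz).2
        have hn : ((K q).subgroupOf F).Normal := by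
          apply nil_hall_normal hF q.2 (k := j) hj
          apply Nat.Coprime.coprime_dvd_left _ (compl_coprime hK q)
          have e4 : Nat.card ((K q).subgroupOf F) = Nat.card (K q ⊓ F : Subgroup G) := by
            rw [← card_map_of_injective F.subtype_injective, subgroupOf_map_subtype]
          rw [e4]
          exact card_dvd_of_le inf_le_left
        have h1 : (⟨z, hzF⟩ : F) ∈ (K q).subgroupOf F := by
          apply le_of_coprime_index
          rw [orderOf_mk]
          have h2 : ((K q).subgroupOf F).index = (q : ℕ) ^ j := hj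
          rw [h2]
          apply Nat.Coprime.pow_right
          apply Nat.Coprime.coprime_dvd_left _ hNq
          have := orderOf_dvd_natCard (⟨z, hz⟩ : N')
          rwa [orderOf_mk] at this
        exact mem_subgroupOf.1 h1
    exact hle (hCe ▸ hx)
  intro x hx
  have h1 : QuotientGroup.mk' F x ∈ (Cfsg.systemNormalizer K).map (QuotientGroup.mk' F) := by rw [hDmap]; exact mem_top _
  rw [mem_map_sup] at h1
  obtain ⟨d, hd, f, hf, rfl⟩ := mem_sup_of_normal_right.1 h1
  have h2 : f ∈ C ⊓ F := ⟨by
    have e : f = d⁻¹ * (d * f) := by group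
    rw [e]; exact C.mul_mem (C.inv_mem (hDC hd)) hx, hf⟩
  exact mul_mem hd (hmain h2)

theorem s0570 {G : Type u} [Group G] [Finite G] (F : Subgroup G) [F.Normal] (hF : Group.IsNilpotent F) (hGF : Group.IsNilpotent (G ⧸ F)) (C : Subgroup G) :
    Cfsg.IsCarterSubgroup C ↔ ∃ K : Nat.Primes → Subgroup G, Cfsg.IsComplementSystem K ∧ C = Cfsg.systemNormalizer K := by
  haveI : Group.IsSolvable G := solvable_of_ext F inferInstance inferInstance
  constructor
  · intro hC
    obtain ⟨K, hK, hred⟩ := exists_red C
    exact ⟨K, hK, len_two F hF hGF (car_iff.2 hC) hK hred⟩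
  · rintro ⟨K, hK, rfl⟩
    obtain ⟨C, hC⟩ := (carter (G := G)).1
    obtain ⟨L, hL, hred⟩ := exists_red C
    have hCL := len_two F hF hGF (car_iff.2 hC) hL hred
    obtain ⟨g, hg⟩ := s0543 L K hL hK
    rw [← sysnorm_conj hg, ← hCL]
    have h2 := car_conj (car_iff.2 hC) g
    exact car_iff.1 ⟨le_top, h2.2.1, fun y _ hy => h2.2.2 y (by
              rw [mem_pointwise_smul_iff_inv_smul_mem]; exact mem_top _) hy⟩

end CfsgLib.H9X
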