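import Mathlib
import Cfsg.Agent.Lib.PChain
import Cfsg.Agent.Lib.Solv

/-! # The upper `p`-series -/

set_option autoImplicit false
set_option maxHeartbeats 1000000
set_option linter.style.haveILetI false

namespace CfsgLib.H9X

open Subgroup

universe u

theorem core_quot_comap {G : Type u} [Group G] [Finite G] (p : ℕ) (Y X : Subgroup G) [hY : Y.Normal] [hX : X.Normal]
    (h : X = (Cfsg.pPrimeCore p (G ⧸ Y)).comap (QuotientGroup.mk' Y)) : Cfsg.pPrimeCore p (G ⧸ X) = ⊥ := by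
  have hYX : Y ≤ X := by
    intro y hy
    rw [h, mem_comap]
    have : QuotientGroup.mk' Y y = 1 := (QuotientGroup.eq_one_iff y).2 hy
    rw [this]; exact one_mem _
  set L := (Cfsg.pPrimeCore p (G ⧸ X)).comap (QuotientGroup.mk' X) with hL
  have hXL : X ≤ L := by
    intro y hy
    rw [hL, mem_comap]
    have : QuotientGroup.mk' X y = 1 := (QuotientGroup.eq_one_iff y).2 hy
    rw [this]; exact one_mem _
  haveI hLn : L.Normal := (CfsgLib.Core.pPrimeCore_normal p _).comap _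
  have hLe : L = (L.map (QuotientGroup.mk' Y)).comap (QuotientGroup.mk' Y) := by
    rw [comap_map_eq, QuotientGroup.ker_mk', sup_eq_left.2 (hYX.trans hXL)]
  have c1 : Nat.card L = Nat.card (Cfsg.pPrimeCore p (G ⧸ X)) * Nat.card X := CfsgLib.Hall.card_comap_mk _ _
  have c2 : Nat.card X = Nat.card (Cfsg.pPrimeCore p (G ⧸ Y)) * Nat.card Y := by
    conv_lhs => rw [h]
    exact CfsgLib.Hall.card_comap_mk _ _
  have c3 : Nat.card L = Nat.card (L.map (QuotientGroup.mk' Y)) * Nat.card Y := by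
    conv_lhs => rw [hLe]
    exact CfsgLib.Hall.card_comap_mk _ _
  have c4 : Nat.card (L.map (QuotientGroup.mk' Y)) = Nat.card (Cfsg.pPrimeCore p (G ⧸ X)) * Nat.card (Cfsg.pPrimeCore p (G ⧸ Y)) := by
    apply Nat.eq_of_mul_eq_mul_right (Nat.card_pos (α := Y))
    rw [← c3, c1, c2, mul_assoc]
  have h1 : L.map (QuotientGroup.mk' Y) ≤ Cfsg.pPrimeCore p (G ⧸ Y) := by
    apply CfsgLib.Core.le_pPrimeCore (hLn.map _ (QuotientGroup.mk'_surjective Y))
    rw [c4]
    exact Nat.Coprime.mul_left (CfsgLib.Core.card_pPrimeCore_coprime p _) (CfsgLib.Core.card_pPrimeCore_coprime p _)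
  have h2 : L ≤ X := by
    rw [h, hLe]
    exact comap_mono h1
  rw [eq_bot_iff]
  intro x hx
  obtain ⟨y, rfl⟩ := QuotientGroup.mk'_surjective X x
  exact (QuotientGroup.eq_one_iff y).2 (h2 hx)

theorem s0634 {G : Type u} [Group G] [Finite G] {p : ℕ} [Fact p.Prime] (hsol : Cfsg.IsPSolvable p G) (k : ℕ) : Subgroup.centralizer ((((Cfsg.upperPSeries p G (2 * k + 2)).1.map (QuotientGroup.mk' (Cfsg.upperPSeries p G (2 * k + 1)).1)) : Subgroup (G ⧸ (Cfsg.upperPSeries p G (2 * k + 1)).1)) : Set (G ⧸ (Cfsg.upperPSeries p G (2 * k + 1)).1)) ≤ (Cfsg.upperPSeries p G (2 * k + 2)).1.map (QuotientGroup.mk' (Cfsg.upperPSeries p G (2 * k + 1)).1) := by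
  have h1 : (Cfsg.upperPSeries p G (2 * k + 1)).1 = (Cfsg.pPrimeCore p (G ⧸ (Cfsg.upperPSeries p G (2 * k)).1)).comap (QuotientGroup.mk' _) := by
    rw [Cfsg.upperPSeries, if_pos (even_two_mul k)]
  have h2 : (Cfsg.upperPSeries p G (2 * k + 2)).1 = (Cfsg.pCore p (G ⧸ (Cfsg.upperPSeries p G (2 * k + 1)).1)).comap (QuotientGroup.mk' _) := by
    rw [Cfsg.upperPSeries, if_neg (by rw [Nat.not_even_iff_odd]; exact odd_two_mul_add_one k)]
  have h3 : (Cfsg.upperPSeries p G (2 * k + 2)).1.map (QuotientGroup.mk' (Cfsg.upperPSeries p G (2 * k + 1)).1) =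
      Cfsg.pCore p (G ⧸ (Cfsg.upperPSeries p G (2 * k + 1)).1) := by
    rw [h2, map_comap_eq_self_of_surjective (QuotientGroup.mk'_surjective _)]
  rw [h3]
  apply CfsgLib.PChain.centralizer_pCore_le (CfsgLib.PChain.quotient Fact.out hsol _)
  exact core_quot_comap p _ _ h1

end CfsgLib.H9X
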