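import Mathlib
import Cfsg.Agent.Lib.H9Xt
import Cfsg.Agent.Lib.PChain2

/-! # `p`-length and class -/

set_option autoImplicit false
set_option maxHeartbeats 1000000
set_option linter.style.haveILetI false

namespace CfsgLib.H9X

open Subgroup

universe u

open CfsgLib.PChain in
theorem s0635 {G : Type u} [Group G] [Finite G] {p : ℕ} [Fact p.Prime] (hsol : Cfsg.IsPSolvable p G) (S : Sylow p G) :
    Cfsg.PLengthLE p (Group.nilpotencyClass ↥(S : Subgroup G)) G := by
  haveI : Group.IsNilpotent (S : Subgroup G) := S.isPGroup'.isNilpotent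
  have key : ∀ k : ℕ, ∀ z : (S : Subgroup G), z ∈ Subgroup.upperCentralSeries (S : Subgroup G) k → (z : G) ∈ U p G (2 * k) := by
    intro k
    induction k with
    | zero =>
      intro z hz
      rw [Subgroup.upperCentralSeries_zero, mem_bot] at hz
      rw [hz]; exact one_mem _
    | succ k ih =>
      intro z hz
      rw [Subgroup.mem_upperCentralSeries_succ_iff] at hz
      have e : 2 * (k + 1) = (2 * k + 1) + 1 := by ring
      have hodd : ¬ Even (2 * k + 1) := by rw [Nat.not_even_iff_odd]; exact odd_two_mul_add_one k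
      rw [e, U_succ_odd hodd, mem_comap]
      have h0 : Cfsg.pPrimeCore p (G ⧸ U p G (2 * k + 1)) = ⊥ :=
        core_quot_comap p (U p G (2 * k)) (U p G (2 * k + 1)) (U_succ_even (even_two_mul k))
      apply CfsgLib.PChain.centralizer_pCore_le (CfsgLib.PChain.quotient Fact.out hsol _) h0
      rw [mem_centralizer_iff]
      intro w hw
      have h1 := CfsgLib.Core.pCore_le_sylow (S.mapSurjective (QuotientGroup.mk'_surjective (U p G (2 * k + 1)))) hw
      obtain ⟨y, hy, rfl⟩ := h1
      have h2 := ih _ (hz ⟨y, hy⟩)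
      have h3 : (z : G) * y * (z : G)⁻¹ * y⁻¹ ∈ U p G (2 * k + 1) := U_le_succ _ h2
      have h4 : QuotientGroup.mk' (U p G (2 * k + 1)) ((z : G) * y * (z : G)⁻¹ * y⁻¹) = 1 := (QuotientGroup.eq_one_iff _).2 h3
      rw [map_mul, map_mul, map_mul, map_inv, map_inv, mul_inv_eq_one, mul_inv_eq_iff_eq_mul] at h4
      exact h4.symm
  show U p G (2 * Group.nilpotencyClass ↥(S : Subgroup G) + 1) = ⊤
  rw [eq_top_iff]
  set c := Group.nilpotencyClass ↥(S : Subgroup G) with hc
  have hS : (S : Subgroup G) ≤ U p G (2 * c) := by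
    intro x hx
    exact key c ⟨x, hx⟩ (by rw [hc, Subgroup.upperCentralSeries_nilpotencyClass]; exact mem_top _)
  apply le_U_succ (M := U p G (2 * c)) le_rfl inferInstance
  refine ⟨fun _ => ?_, fun h => absurd (even_two_mul _) h⟩
  rw [relIndex_top_right]
  apply Nat.Coprime.coprime_dvd_left (index_dvd_of_le hS)
  exact ((Nat.Prime.coprime_iff_not_dvd Fact.out).2 S.not_dvd_index).symm

end CfsgLib.H9X
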