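import Mathlib
import Cfsg.Prelude.Def_PLocal
import Cfsg.Agent.Lib.H9Xb
import Cfsg.Agent.Lib.H9Xa
import Cfsg.Agent.Lib.PGrp
import Cfsg.Agent.Lib.Coprime2

/-! # Uniserial action -/

set_option autoImplicit false
set_option maxHeartbeats 1000000
set_option linter.style.haveILetI false

namespace CfsgLib.H9X

open Subgroup
open scoped Pointwise commutatorElement

universe u

theorem iter_map {L : Type u} [Group L] {X : Type u} [Group X] (f : X →* L) (N G : Subgroup X) (i : ℕ) :
    (Cfsg.iterCommutator N G i).map f = Cfsg.iterCommutator (N.map f) (G.map f) i := by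
  induction i with
  | zero => rfl
  | succ i ih =>
    show (⁅Cfsg.iterCommutator N G i, G⁆).map f = ⁅Cfsg.iterCommutator (N.map f) (G.map f) i, G.map f⁆
    rw [map_commutator, ih]

theorem chain_p {P : Type u} [Group P] [Finite P] {p : ℕ} [Fact p.Prime] (hP : IsPGroup p P) (M G : Subgroup P) [hMn : M.Normal] {n : ℕ}
    (hM : Nat.card M = p ^ n) : ∀ i ≤ n, ∃ K : Subgroup P, K.Normal ∧ Nat.card K = p ^ (n - i) ∧ Cfsg.iterCommutator M G i ≤ K := by
  intro i
  induction i with
  | zero => intro _; exact ⟨M, hMn, by rw [hM]; rfl, le_rfl⟩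
  | succ i ih =>
    intro hi
    obtain ⟨K, hKn, hK, hiK⟩ := ih (by omega)
    obtain ⟨K', h1, -, h2, h3⟩ := CfsgLib.PGrp.exists_normal_between (i := 0) (j := n - i) (k := n - (i + 1)) hP (N := ⊥) (M := K) normal_bot hKn bot_le
      (by simp) hK (Nat.zero_le _) (by omega)
    refine ⟨K', h1, h3, ?_⟩
    show ⁅Cfsg.iterCommutator M G i, G⁆ ≤ K'
    refine (commutator_mono hiK le_top).trans ?_
    -- `[K, P] ≤ K'`
    haveI := h1
    haveI := hKn
    have hPq : IsPGroup p (P ⧸ K') := hP.to_quotient K'
    have hcardm : Nat.card (K.map (QuotientGroup.mk' K')) = p := by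
      have e1 : Nat.card ((K.map (QuotientGroup.mk' K')).comap (QuotientGroup.mk' K')) = Nat.card (K.map (QuotientGroup.mk' K')) * Nat.card K' :=
        CfsgLib.PGrp.card_comap_mk' _ _
      rw [comap_map_eq, QuotientGroup.ker_mk', sup_eq_left.2 h2, hK, h3] at e1
      have e2 : n - i = (n - (i + 1)) + 1 := by omega
      rw [e2, pow_succ, mul_comm] at e1
      exact (Nat.eq_of_mul_eq_mul_right (pow_pos (Fact.out : p.Prime).pos _) e1).symm
    haveI hmn : (K.map (QuotientGroup.mk' K')).Normal := hKn.map _ (QuotientGroup.mk'_surjective _)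
    have hbot : ⁅K.map (QuotientGroup.mk' K'), (⊤ : Subgroup (P ⧸ K'))⁆ = ⊥ := by
      have hlt := CfsgLib.Coprime.commutator_lt_of_isPGroup (U := K.map (QuotientGroup.mk' K')) (P := ⊤) (hPq.to_subgroup _) (hPq.to_subgroup _)
        (by rw [normalizer_eq_top_iff.2 hmn]) (by
          intro h
          rw [h, card_bot] at hcardm
          exact (Fact.out : p.Prime).one_lt.ne hcardm)
      have hd := card_dvd_of_le hlt.le
      have hl := card_lt_of_lt hlt
      rw [hcardm] at hd hl
      rcases (Nat.dvd_prime Fact.out).1 hd with h | h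
      · exact card_eq_one.1 h
      · omega
    rw [commutator_le]
    intro a ha g _
    have h4 : ⁅QuotientGroup.mk' K' a, QuotientGroup.mk' K' g⁆ ∈ ⁅K.map (QuotientGroup.mk' K'), (⊤ : Subgroup (P ⧸ K'))⁆ :=
      commutator_mem_commutator (mem_map_of_mem _ ha) (mem_top _)
    rw [hbot, mem_bot, ← map_commutatorElement] at h4
    exact (QuotientGroup.eq_one_iff _).1 h4

theorem chain_l {L : Type u} [Group L] [Finite L] {p : ℕ} [Fact p.Prime] (N G : Subgroup L) (hN : IsPGroup p N) (hG : IsPGroup p G)
    (hGN : G ≤ normalizer (N : Set L)) (n : ℕ) (hn : Nat.card N = p ^ n) : ∀ i ≤ n, ∃ K : Subgroup L,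
      N ≤ normalizer (K : Set L) ∧ Nat.card K = p ^ (n - i) ∧ Cfsg.iterCommutator N G i ≤ K := by
  intro i hi
  set P := N ⊔ G with hPdef
  have hP : IsPGroup p P := by
    rw [hPdef, sup_comm]
    exact IsPGroup.to_sup_of_normal_right' hG hN hGN
  have hPN : P ≤ normalizer (N : Set L) := sup_le le_normalizer hGN
  haveI hNn : (N.subgroupOf P).Normal := by
    refine ⟨fun x hx g => ?_⟩
    rw [mem_subgroupOf] at hx ⊢
    exact (mem_normalizer_iff.1 (hPN g.2) _).1 hx
  obtain ⟨K, hK, hKc, hKi⟩ := chain_p hP (N.subgroupOf P) (G.subgroupOf P) (n := n)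
    (by rw [Nat.card_congr (subgroupOfEquivOfLe (le_sup_left : N ≤ P)).toEquiv, hn]) i hi
  refine ⟨K.map P.subtype, ?_, ?_, ?_⟩
  · have h1 := le_normalizer_map (H := K) P.subtype
    rw [normalizer_eq_top_iff.2 hK, ← MonoidHom.range_eq_map, range_subtype] at h1
    exact le_sup_left.trans h1
  · rw [card_map_of_injective P.subtype_injective]; exact hKc
  · have h1 := map_mono (f := P.subtype) hKi
    rw [iter_map, map_subgroupOf_eq_of_le (le_sup_left : N ≤ P), map_subgroupOf_eq_of_le (le_sup_right : G ≤ P)] at h1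
    exact h1

theorem conj_commutator {L : Type u} [Group L] (g : L) (H G : Subgroup L) : MulAut.conj g • ⁅H, G⁆ = ⁅MulAut.conj g • H, MulAut.conj g • G⁆ := by
  exact map_commutator H G (MulAut.conj g).toMonoidHom

theorem comm_inv {L : Type u} [Group L] {H G : Subgroup L} (h : G ≤ normalizer (H : Set L)) : G ≤ normalizer ((⁅H, G⁆ : Subgroup L) : Set L) := by
  intro g hg
  rw [mem_norm, conj_commutator, mem_norm.1 (h hg), mem_norm.1 (le_normalizer hg)]

theorem s0663 {L : Type u} [Group L] [Finite L] {p : ℕ} [Fact p.Prime] (N G : Subgroup L) (hN : IsPGroup p N) (hG : IsPGroup p G) (hGN : G ≤ Subgroup.normalizer (N : Set L)) (n : ℕ) (hn : Nat.card N = p ^ n) : ((∀ H : Subgroup L, H ≤ N → G ≤ Subgroup.normalizer (H : Set L) → H ≠ ⊥ → (⁅H, G⁆).relIndex H = p) ↔ Cfsg.iterCommutator N G (n - 1) ≠ ⊥ ∨ n = 0) ∧ ((∀ H : Subgroup L, H ≤ N → G ≤ Subgroup.normalizer (H : Set L) → H ≠ ⊥ → (⁅H, G⁆).relIndex H = p) → ∀ H : Subgroup L, H ≤ N → G ≤ Subgroup.normalizer (H : Set L) → (∃ i ≤ n, H = Cfsg.iterCommutator N G i)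 ∧ N ≤ Subgroup.normalizer (H : Set L)) := by
  have hp : p.Prime := Fact.out
  set C := Cfsg.iterCommutator N G with hC
  have hC0 : C 0 = N := rfl
  have hCs : ∀ i, C (i + 1) = ⁅C i, G⁆ := fun i => rfl
  have hinv : ∀ i, C i ≤ N ∧ G ≤ normalizer (C i : Set L) := by
    intro i
    induction i with
    | zero => exact ⟨le_rfl, hGN⟩
    | succ i ih =>
      rw [hCs]
      exact ⟨(CfsgLib.Coprime.commutator_le_of_le_normalizer ih.2).trans ih.1, comm_inv ih.2⟩
  have hle : ∀ i, C (i + 1) ≤ C i := fun i => by rw [hCs]; exact CfsgLib.Coprime.commutator_le_of_le_normalizer (hinv i).2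
  have hanti : Antitone C := antitone_nat_of_succ_le hle
  have hstrict : ∀ i, C i ≠ ⊥ → C (i + 1) < C i := fun i h => by
    rw [hCs]; exact CfsgLib.Coprime.commutator_lt_of_isPGroup (hN.to_le (hinv i).1) hG (hinv i).2 h
  have hgrow : ∀ A B : Subgroup L, A < B → B ≤ N → p * Nat.card A ≤ Nat.card B := by
    intro A B hAB hBN
    have hBp := hN.to_le hBN
    obtain ⟨a, ha⟩ := IsPGroup.iff_card.1 (hBp.to_le hAB.le)
    obtain ⟨b, hb⟩ := IsPGroup.iff_card.1 hBp
    have h1 := card_lt_of_lt hAB
    rw [ha, hb] at h1 ⊢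
    have h2 : a < b := (Nat.pow_lt_pow_iff_right hp.one_lt).1 h1
    rw [← pow_succ']
    exact Nat.pow_le_pow_right hp.pos h2
  -- forward
  have hfwd : (∀ H : Subgroup L, H ≤ N → G ≤ Subgroup.normalizer (H : Set L) → H ≠ ⊥ → (⁅H, G⁆).relIndex H = p) → C (n - 1) ≠ ⊥ ∨ n = 0 := by
    intro huni
    by_cases hn0 : n = 0
    · exact Or.inr hn0
    left
    have hcard : ∀ i ≤ n, Nat.card (C i) = p ^ (n - i) := by
      intro i
      induction i with
      | zero => intro _; rw [hC0, hn]; rfl
      | succ i ih =>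
        intro hi
        have h1 := ih (by omega)
        have hne : C i ≠ ⊥ := by
          intro h
          rw [h, card_bot] at h1
          have : 1 < p ^ (n - i) := Nat.one_lt_pow (by omega) hp.one_lt
          omega
        have h2 := huni (C i) (hinv i).1 (hinv i).2 hne
        rw [← hCs] at h2
        have h3 := card_mul_index ((C (i + 1)).subgroupOf (C i))
        rw [Nat.card_congr (subgroupOfEquivOfLe (hle i)).toEquiv] at h3
        have h4 : Nat.card (C (i + 1)) * (C (i + 1)).relIndex (C i) = Nat.card (C i) := h3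
        rw [h2, h1] at h4
        have e2 : n - i = (n - (i + 1)) + 1 := by omega
        rw [e2, pow_succ] at h4
        exact Nat.eq_of_mul_eq_mul_right hp.pos h4
    intro h
    have h1 := hcard (n - 1) (by omega)
    rw [h, card_bot] at h1
    have : 1 < p ^ (n - (n - 1)) := Nat.one_lt_pow (by omega) hp.one_lt
    omega
  -- structure
  have hstr : (C (n - 1) ≠ ⊥ ∨ n = 0) → (∀ i ≤ n, Nat.card (C i) = p ^ (n - i) ∧ N ≤ normalizer (C i : Set L)) := by
    intro hne
    have hlow : ∀ j ≤ n, p ^ j ≤ Nat.card (C (n - j)) := by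
      intro j
      induction j with
      | zero => intro _; rw [pow_zero]; exact Nat.card_pos
      | succ j ih =>
        intro hj
        have h1 := ih (by omega)
        have hne' : C (n - (j + 1)) ≠ ⊥ := by
          intro h
          rcases hne with h2 | h2
          · apply h2
            rw [eq_bot_iff, ← h]
            exact hanti (by omega)
          · omega
        have h2 := hgrow _ _ (hstrict _ hne') (hinv _).1
        have e : n - (j + 1) + 1 = n - j := by omega
        rw [e] at h2
        rw [pow_succ']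
        exact (Nat.mul_le_mul_left p h1).trans h2
    intro i hi
    obtain ⟨K, hK1, hK2, hK3⟩ := chain_l N G hN hG hGN n hn i hi
    have h1 := hlow (n - i) (by omega)
    have e : n - (n - i) = i := by omega
    rw [e] at h1
    have h2 : C i = K := eq_of_le_of_card_ge hK3 (by rw [hK2]; exact h1)
    rw [h2]
    exact ⟨hK2, hK1⟩
  -- classification
  have hcls : (C (n - 1) ≠ ⊥ ∨ n = 0) → ∀ j, ∀ i, i + j = n → ∀ H : Subgroup L, H ≤ C i → G ≤ normalizer (H : Set L) → (i < n → ¬ H ≤ C (i + 1)) → H = C i := by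
    intro hne
    have hst := hstr hne
    intro j
    induction j with
    | zero =>
      intro i hi H hH _ _
      have h1 := (hst i (by omega)).1
      have e : n - i = 0 := by omega
      rw [e, pow_zero] at h1
      rw [card_eq_one.1 h1] at hH ⊢
      exact le_bot_iff.1 hH
    | succ j ih =>
      intro i hi H hH hGH hnot
      have hnot' := hnot (by omega)
      have hc1 := (hst i (by omega)).1
      have hc2 := (hst (i + 1) (by omega)).1
      have hsup : H ⊔ C (i + 1) = C i := by
        have h1 : C (i + 1) < H ⊔ C (i + 1) := lt_of_le_of_ne le_sup_right (fun h => hnot' (by rw [h]; exact le_sup_left))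
        have h2 : H ⊔ C (i + 1) ≤ C i := sup_le hH (hle i)
        have h3 := hgrow _ _ h1 (h2.trans (hinv i).1)
        apply eq_of_le_of_card_ge h2
        rw [hc1]
        rw [hc2, ← pow_succ'] at h3
        have e : n - (i + 1) + 1 = n - i := by omega
        rwa [e] at h3
      by_cases hj : j = 0
      · have e : n - (i + 1) = 0 := by omega
        rw [e, pow_zero] at hc2
        rw [card_eq_one.1 hc2, sup_bot_eq] at hsup
        exact hsup
      have hn2 := (hst (i + 2) (by omega)).2
      have hHG : ⁅H, G⁆ = C (i + 1) := by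
        apply ih (i + 1) (by omega) ⁅H, G⁆ _ (comm_inv hGH)
        · intro _ hle2
          let V : Subgroup L :=
            { carrier := {a | a ∈ N ∧ ∀ g ∈ G, ⁅a, g⁆ ∈ C (i + 2)}
              mul_mem' := by
                rintro a b ⟨ha, ha1⟩ ⟨hb, hb1⟩
                refine ⟨N.mul_mem ha hb, fun g hg => ?_⟩
                have e : ⁅a * b, g⁆ = (a * ⁅b, g⁆ * a⁻¹) * ⁅a, g⁆ := by simp only [commutatorElement_def]; group
                rw [e]
                exact mul_mem ((mem_normalizer_iff.1 (hn2 ha) _).1 (hb1 g hg)) (ha1 g hg)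
              one_mem' := ⟨N.one_mem, fun g _ => by rw [commutatorElement_one_left]; exact one_mem _⟩
              inv_mem' := by
                rintro a ⟨ha, ha1⟩
                refine ⟨N.inv_mem ha, fun g hg => ?_⟩
                have e : ⁅a⁻¹, g⁆ = a⁻¹ * ⁅a, g⁆⁻¹ * a⁻¹⁻¹ := by simp only [commutatorElement_def]; group
                rw [e]
                exact (mem_normalizer_iff.1 (hn2 (N.inv_mem ha)) _).1 ((C (i + 2)).inv_mem (ha1 g hg)) }
          have hV1 : H ≤ V := fun a ha => ⟨(hinv i).1 (hH ha), fun g hg => hle2 (commutator_mem_commutator ha hg)⟩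
          have hV2 : C (i + 1) ≤ V := fun a ha => ⟨(hinv _).1 ha, fun g hg => commutator_mem_commutator ha hg⟩
          have hV3 : C i ≤ V := by rw [← hsup]; exact sup_le hV1 hV2
          have hV4 : C (i + 1) ≤ C (i + 2) := by
            rw [hCs i, commutator_le]
            intro a ha g hg
            exact (hV3 ha).2 g hg
          have hc3 := (hst (i + 2) (by omega)).1
          have h5 := card_dvd_of_le hV4
          have h6 := Nat.le_of_dvd Nat.card_pos h5
          rw [hc2, hc3] at h6
          have h7 : p ^ (n - (i + 2)) < p ^ (n - (i + 1)) := Nat.pow_lt_pow_right hp.one_lt (by omega)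
          omega
        · rw [hCs i]; exact commutator_mono hH le_rfl
      have h1 : C (i + 1) ≤ H := by rw [← hHG]; exact CfsgLib.Coprime.commutator_le_of_le_normalizer hGH
      rw [sup_eq_left.2 h1] at hsup
      exact hsup
  have hall : (C (n - 1) ≠ ⊥ ∨ n = 0) → ∀ H : Subgroup L, H ≤ N → G ≤ normalizer (H : Set L) → ∃ i ≤ n, H = C i := by
    intro hne H hH hGH
    by_contra hcon
    push Not at hcon
    have h1 : ∀ i ≤ n, H ≤ C i := by
      intro i
      induction i with
      | zero => intro _; exact hH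
      | succ i ih =>
        intro hi
        by_contra hnot
        exact hcon i (by omega) (hcls hne (n - i) i (by omega) H (ih (by omega)) hGH (fun _ => hnot))
    exact hcon n le_rfl (hcls hne 0 n (by omega) H (h1 n le_rfl) hGH (fun h => absurd h (lt_irrefl _)))
  refine ⟨⟨hfwd, ?_⟩, ?_⟩
  · intro hne H hH hGH hH1
    obtain ⟨i, hi, rfl⟩ := hall hne H hH hGH
    have hst := hstr hne
    have hin : i < n := by
      rcases lt_or_eq_of_le hi with h | h
      · exact h
      · exfalso
        have h1 := (hst i hi).1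
        rw [h, Nat.sub_self, pow_zero] at h1
        rw [h] at hH1
        exact hH1 (card_eq_one.1 h1)
    rw [← hCs]
    have h3 := card_mul_index ((C (i + 1)).subgroupOf (C i))
    rw [Nat.card_congr (subgroupOfEquivOfLe (hle i)).toEquiv] at h3
    have h4 : Nat.card (C (i + 1)) * (C (i + 1)).relIndex (C i) = Nat.card (C i) := h3
    rw [(hst i hi).1, (hst (i + 1) hin).1] at h4
    have e2 : n - i = (n - (i + 1)) + 1 := by omega
    rw [e2, pow_succ] at h4
    exact Nat.eq_of_mul_eq_mul_left (pow_pos hp.pos _) h4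
  · intro huni H hH hGH
    obtain ⟨i, hi, h⟩ := hall (hfwd huni) H hH hGH
    exact ⟨⟨i, hi, h⟩, by rw [h]; exact (hstr (hfwd huni) i hi).2⟩

end CfsgLib.H9X
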