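import Mathlib
import Cfsg.Prelude.Def_PLocal
import Cfsg.Agent.Lib.H9Xb
import Cfsg.Agent.Lib.PGrp
import Cfsg.Agent.Lib.Coprime2

/-! # Powers in regular `p`-groups -/

set_option autoImplicit false
set_option maxHeartbeats 1000000
set_option linter.style.haveILetI false

namespace CfsgLib.H9X

open Subgroup
open scoped commutatorElement

universe u

theorem gen_comm {G : Type u} [Group G] [Finite G] {p : ℕ} [Fact p.Prime] {A K : Subgroup G} (hK : IsPGroup p K) (hA : A ≤ K)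
    (h : K ≤ A ⊔ ⁅K, K⁆) : A = K := by
  have h1 : (A.subgroupOf K) ⊔ commutator K = ⊤ := by
    rw [eq_top_iff]
    intro x _
    have h2 : ((A.subgroupOf K) ⊔ commutator K).map K.subtype = A ⊔ ⁅K, K⁆ := by
      rw [Subgroup.map_sup, map_subgroupOf_eq_of_le hA, _root_.commutator_def, map_commutator, ← MonoidHom.range_eq_map, range_subtype]
    have h3 : (x : G) ∈ ((A.subgroupOf K) ⊔ commutator K).map K.subtype := by rw [h2]; exact h x.2
    obtain ⟨y, hy, hyx⟩ := h3
    have : y = x := Subtype.ext hyx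
    rwa [← this]
  have h4 : (A.subgroupOf K) ⊔ frattini K = ⊤ :=
    top_le_iff.1 (h1 ▸ sup_le_sup_left (CfsgLib.PGrp.commutator_le_frattini hK) _)
  have h5 := frattini_nongenerating h4
  rw [subgroupOf_eq_top] at h5
  exact le_antisymm hA h5

theorem pc_eq {G : Type u} [Group G] {p n : ℕ} {H : Subgroup G}
    (h : ∀ a ∈ H, ∀ b ∈ H, ∃ x ∈ H, a ^ (p ^ n) * b ^ (p ^ n) = x ^ (p ^ n)) :
    ∀ y ∈ Cfsg.powerClosure p n H, ∃ x ∈ H, y = x ^ (p ^ n) := by
  intro y hy
  induction hy using closure_induction with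
  | mem y hy => exact hy
  | one => exact ⟨1, H.one_mem, by rw [one_pow]⟩
  | mul a b _ _ ha hb =>
    obtain ⟨x, hx, rfl⟩ := ha
    obtain ⟨z, hz, rfl⟩ := hb
    exact h x hx z hz
  | inv a _ ha =>
    obtain ⟨x, hx, rfl⟩ := ha
    exact ⟨x⁻¹, H.inv_mem hx, by rw [inv_pow]⟩

theorem pc_bot {G : Type u} [Group G] {p n : ℕ} : Cfsg.powerClosure p n (⊥ : Subgroup G) ≤ ⊥ := by
  unfold Cfsg.powerClosure
  rw [closure_le]
  rintro y ⟨x, hx, rfl⟩
  rw [mem_bot] at hx
  rw [SetLike.mem_coe, mem_bot, hx, one_pow]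

theorem reg_mul {G : Type u} [Group G] [Finite G] {p : ℕ} [Fact p.Prime] (hG : Cfsg.IsRegularPGroup p G) (n : ℕ) :
    ∀ m : ℕ, ∀ H : Subgroup G, Nat.card H ≤ m → ∀ a ∈ H, ∀ b ∈ H, ∃ x ∈ H, a ^ (p ^ n) * b ^ (p ^ n) = x ^ (p ^ n) := by
  intro m
  induction m with
  | zero => intro H hH; exact absurd hH (by have := Nat.card_pos (α := H); omega)
  | succ m ih =>
    intro H hH a ha b hb
    obtain ⟨c, hc, hab⟩ := hG.2 a b n
    set K := closure ({a, b} : Set G) with hK
    have hKH : K ≤ H := by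
      rw [hK, closure_le]
      rintro x (rfl | rfl)
      · exact ha
      · exact hb
    have haK : a ∈ K := subset_closure (Or.inl rfl)
    have hbK : b ∈ K := subset_closure (Or.inr rfl)
    have hKp : IsPGroup p K := hG.1.to_subgroup K
    by_cases hK' : ⁅K, K⁆ = ⊥
    · rw [hK'] at hc
      have h1 := pc_bot hc
      rw [mem_bot] at h1
      exact ⟨a * b, H.mul_mem ha hb, by rw [hab, h1, mul_one]⟩
    have hKne : K ≠ ⊥ := by
      intro h
      apply hK'
      rw [h, commutator_bot_left]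
    have hlt : ⁅K, K⁆ < K := CfsgLib.Coprime.commutator_lt_of_isPGroup hKp hKp le_normalizer hKne
    have hKc : Nat.card K ≤ m + 1 := (card_le_of_le hKH).trans hH
    have h2 := card_lt_of_lt hlt
    obtain ⟨d, hd, rfl⟩ := pc_eq (ih ⁅K, K⁆ (by omega)) c hc
    have hdK : d ∈ K := hlt.le hd
    set M := closure ({a * b, d⁻¹} : Set G) with hM
    have hMK : M ≤ K := by
      rw [hM, closure_le]
      rintro x (rfl | rfl)
      · exact K.mul_mem haK hbK
      · exact K.inv_mem hdK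
    have hMne : M ≠ K := by
      intro h
      have h3 : M ≤ zpowers (a * b) ⊔ ⁅K, K⁆ := by
        rw [hM, closure_le]
        rintro x (rfl | rfl)
        · exact mem_sup_left (mem_zpowers _)
        · exact mem_sup_right (inv_mem hd)
      rw [h] at h3
      have h4 := gen_comm hKp (zpowers_le.2 (K.mul_mem haK hbK)) h3
      apply hK'
      rw [eq_bot_iff, commutator_le]
      intro x hx y hy
      rw [← h4] at hx hy
      obtain ⟨i, rfl⟩ := hx
      obtain ⟨j, rfl⟩ := hy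
      rw [mem_bot]
      exact commutatorElement_eq_one_iff_mul_comm.2 ((Commute.refl (a * b)).zpow_zpow i j)
    have h5 := card_lt_of_lt (lt_of_le_of_ne hMK hMne)
    obtain ⟨x, hx, hxe⟩ := ih M (by omega) (a * b) (subset_closure (Or.inl rfl)) d⁻¹ (subset_closure (Or.inr rfl))
    refine ⟨x, hKH (hMK hx), ?_⟩
    rw [← hxe, hab, inv_pow]
    group

theorem s0644 {G : Type u} [Group G] [Finite G] {p : ℕ} [Fact p.Prime] (hG : Cfsg.IsRegularPGroup p G) (H : Subgroup G) (n : ℕ) : {y : G | ∃ x ∈ H, y = x ^ (p ^ n)} = (Cfsg.powerClosure p n H : Set G) ∧ ⁅Cfsg.powerClosure p n H, Cfsg.powerClosure p n H⁆ ≤ Cfsg.powerClosure p n ⁅H, H⁆ := by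
  have h1 := pc_eq (reg_mul hG n (Nat.card H) H le_rfl)
  constructor
  · apply Set.Subset.antisymm
    · intro y hy
      exact subset_closure hy
    · intro y hy
      exact h1 y hy
  · rw [commutator_le]
    intro a ha b hb
    obtain ⟨x, hx, rfl⟩ := h1 a ha
    obtain ⟨y, hy, rfl⟩ := h1 b hb
    set w := y ^ (p ^ n) with hw
    have hwH : w ∈ H := H.pow_mem hy _
    obtain ⟨c, hc, hab⟩ := hG.2 x (w * x⁻¹ * w⁻¹) n
    have hK : closure ({x, w * x⁻¹ * w⁻¹} : Set G) ≤ H := by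
      rw [closure_le]
      rintro z (rfl | rfl)
      · exact hx
      · exact H.mul_mem (H.mul_mem hwH (H.inv_mem hx)) (H.inv_mem hwH)
    have hc' : c ∈ Cfsg.powerClosure p n ⁅H, H⁆ := by
      refine closure_mono ?_ hc
      rintro z ⟨t, ht, rfl⟩
      exact ⟨t, commutator_mono hK hK ht, rfl⟩
    have e : ⁅x ^ (p ^ n), w⁆ = (⁅x, w⁆ ^ (p ^ n)) * c⁻¹ := by
      have e1 : ⁅x, w⁆ = x * (w * x⁻¹ * w⁻¹) := by rw [commutatorElement_def]; group
      have e2 : (w * x⁻¹ * w⁻¹) ^ (p ^ n) = w * (x ^ (p ^ n))⁻¹ * w⁻¹ := by rw [conj_pow, inv_pow]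
      rw [e1, hab, e2, commutatorElement_def]
      group
    rw [e]
    exact mul_mem (subset_closure ⟨⁅x, w⁆, commutator_mem_commutator hx hwH, rfl⟩) (inv_mem hc')

end CfsgLib.H9X
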