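import Mathlib
import Cfsg.Agent.Lib.H9Xw

/-! # Kemhadze's criterion -/

set_option autoImplicit false
set_option maxHeartbeats 1000000
set_option linter.style.haveILetI false

namespace CfsgLib.H9X

open Subgroup
open scoped commutatorElement

universe u

theorem reg_mul' {G : Type u} [Group G] [Finite G] {p : ℕ} [Fact p.Prime] (hGp : IsPGroup p G) (n : ℕ)
    (hG : ∀ a b : G, ∃ c ∈ Cfsg.powerClosure p n ⁅Subgroup.closure ({a, b} : Set G), Subgroup.closure ({a, b} : Set G)⁆,
      (a * b) ^ (p ^ n) = a ^ (p ^ n) * b ^ (p ^ n) * c) :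
    ∀ m : ℕ, ∀ H : Subgroup G, Nat.card H ≤ m → ∀ a ∈ H, ∀ b ∈ H, ∃ x ∈ H, a ^ (p ^ n) * b ^ (p ^ n) = x ^ (p ^ n) := by
  intro m
  induction m with
  | zero => intro H hH; exact absurd hH (by have := Nat.card_pos (α := H); omega)
  | succ m ih =>
    intro H hH a ha b hb
    obtain ⟨c, hc, hab⟩ := hG a b
    set K := closure ({a, b} : Set G) with hK
    have hKH : K ≤ H := by
      rw [hK, closure_le]
      rintro x (rfl | rfl)
      · exact ha
      · exact hb
    have haK : a ∈ K := subset_closure (Or.inl rfl)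
    have hbK : b ∈ K := subset_closure (Or.inr rfl)
    have hKp : IsPGroup p K := hGp.to_subgroup K
    by_cases hK' : ⁅K, K⁆ = ⊥
    · rw [hK'] at hc
      have h1 := pc_bot hc
      rw [mem_bot] at h1
      exact ⟨a * b, H.mul_mem ha hb, by rw [hab, h1, mul_one]⟩
    have hKne : K ≠ ⊥ := by
      intro h
      apply hK'
      rw [h, commutator_bot_left]
    have hlt : ⁅K, K⁆ < K := CfsgLib.Coprime.commutator_lt_of_isPGroup hKp hKp le_normalizer hKne
    have hKc : Nat.card K ≤ m + 1 := (card_le_of_le hKH).trans hH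
    have h2 := card_lt_of_lt hlt
    obtain ⟨d, hd, rfl⟩ := pc_eq (ih ⁅K, K⁆ (by omega)) c hc
    have hdK : d ∈ K := hlt.le hd
    set M := closure ({a * b, d⁻¹} : Set G) with hM
    have hMK : M ≤ K := by
      rw [hM, closure_le]
      rintro x (rfl | rfl)
      · exact K.mul_mem haK hbK
      · exact K.inv_mem hdK
    have hMne : M ≠ K := by
      intro h
      have h3 : M ≤ zpowers (a * b) ⊔ ⁅K, K⁆ := by
        rw [hM, closure_le]
        rintro x (rfl | rfl)
        · exact mem_sup_left (mem_zpowers _)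
        · exact mem_sup_right (inv_mem hd)
      rw [h] at h3
      have h4 := gen_comm hKp (zpowers_le.2 (K.mul_mem haK hbK)) h3
      apply hK'
      rw [eq_bot_iff, commutator_le]
      intro x hx y hy
      rw [← h4] at hx hy
      obtain ⟨i, rfl⟩ := hx
      obtain ⟨j, rfl⟩ := hy
      rw [mem_bot]
      exact commutatorElement_eq_one_iff_mul_comm.2 ((Commute.refl (a * b)).zpow_zpow i j)
    have h5 := card_lt_of_lt (lt_of_le_of_ne hMK hMne)
    obtain ⟨x, hx, hxe⟩ := ih M (by omega) (a * b) (subset_closure (Or.inl rfl)) d⁻¹ (subset_closure (Or.inr rfl))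
    refine ⟨x, hKH (hMK hx), ?_⟩
    rw [← hxe, hab, inv_pow]
    group

theorem s0644' {G : Type u} [Group G] [Finite G] {p : ℕ} [Fact p.Prime] (hGp : IsPGroup p G) (H : Subgroup G) (n : ℕ)
    (hG : ∀ a b : G, ∃ c ∈ Cfsg.powerClosure p n ⁅Subgroup.closure ({a, b} : Set G), Subgroup.closure ({a, b} : Set G)⁆,
      (a * b) ^ (p ^ n) = a ^ (p ^ n) * b ^ (p ^ n) * c) : {y : G | ∃ x ∈ H, y = x ^ (p ^ n)} = (Cfsg.powerClosure p n H : Set G) ∧ ⁅Cfsg.powerClosure p n H, Cfsg.powerClosure p n H⁆ ≤ Cfsg.powerClosure p n ⁅H, H⁆ := by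
  have h1 := pc_eq (reg_mul' hGp n hG (Nat.card H) H le_rfl)
  constructor
  · apply Set.Subset.antisymm
    · intro y hy
      exact subset_closure hy
    · intro y hy
      exact h1 y hy
  · rw [commutator_le]
    intro a ha b hb
    obtain ⟨x, hx, rfl⟩ := h1 a ha
    obtain ⟨y, hy, rfl⟩ := h1 b hb
    set w := y ^ (p ^ n) with hw
    have hwH : w ∈ H := H.pow_mem hy _
    obtain ⟨c, hc, hab⟩ := hG x (w * x⁻¹ * w⁻¹)
    have hK : closure ({x, w * x⁻¹ * w⁻¹} : Set G) ≤ H := by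
      rw [closure_le]
      rintro z (rfl | rfl)
      · exact hx
      · exact H.mul_mem (H.mul_mem hwH (H.inv_mem hx)) (H.inv_mem hwH)
    have hc' : c ∈ Cfsg.powerClosure p n ⁅H, H⁆ := by
      refine closure_mono ?_ hc
      rintro z ⟨t, ht, rfl⟩
      exact ⟨t, commutator_mono hK hK ht, rfl⟩
    have e : ⁅x ^ (p ^ n), w⁆ = (⁅x, w⁆ ^ (p ^ n)) * c⁻¹ := by
      have e1 : ⁅x, w⁆ = x * (w * x⁻¹ * w⁻¹) := by rw [commutatorElement_def]; group
      have e2 : (w * x⁻¹ * w⁻¹) ^ (p ^ n) = w * (x ^ (p ^ n))⁻¹ * w⁻¹ := by rw [conj_pow, inv_pow]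
      rw [e1, hab, e2, commutatorElement_def]
      group
    rw [e]
    exact mul_mem (subset_closure ⟨⁅x, w⁆, commutator_mem_commutator hx hwH, rfl⟩) (inv_mem hc')


theorem s0643 {G : Type u} [Group G] [Finite G] {p : ℕ} [Fact p.Prime] (hG : IsPGroup p G) : Cfsg.IsRegularPGroup p G ↔ ∀ a b : G, ∃ c ∈ ⁅Subgroup.closure ({a, b} : Set G), Subgroup.closure ({a, b} : Set G)⁆, (a * b) ^ p = a ^ p * b ^ p * c ^ p := by
  constructor
  · intro hr a b
    obtain ⟨c, hc, hab⟩ := hr.2 a b 1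
    obtain ⟨d, hd, rfl⟩ := pc_eq (reg_mul hr 1 _ _ le_rfl) c hc
    rw [pow_one] at hab
    exact ⟨d, hd, hab⟩
  · intro hC
    refine ⟨hG, fun a b n => ?_⟩
    revert a b
    induction n with
    | zero =>
      intro a b
      exact ⟨1, one_mem _, by rw [pow_zero, pow_one, pow_one, pow_one, mul_one]⟩
    | succ n ih =>
      intro a b
      obtain ⟨c, hc, hab⟩ := ih a b
      set K := closure ({a, b} : Set G) with hK
      have haK : a ∈ K := subset_closure (Or.inl rfl)
      have hbK : b ∈ K := subset_closure (Or.inr rfl)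
      have hset := pc_eq (reg_mul' hG n ih (Nat.card (⁅K, K⁆ : Subgroup G)) ⁅K, K⁆ le_rfl)
      have hcom := (s0644' hG K n ih).2
      have hu : a ^ (p ^ n) ∈ Cfsg.powerClosure p n K := subset_closure ⟨a, haK, rfl⟩
      have hv : b ^ (p ^ n) ∈ Cfsg.powerClosure p n K := subset_closure ⟨b, hbK, rfl⟩
      have hKK : ⁅K, K⁆ ≤ K := commutator_le_self K
      have hcK : c ∈ Cfsg.powerClosure p n K := by
        refine closure_mono ?_ hc
        rintro z ⟨t, ht, rfl⟩
        exact ⟨t, hKK ht, rfl⟩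
      have hpow : ∀ z ∈ Cfsg.powerClosure p n ⁅K, K⁆, z ^ p ∈ Cfsg.powerClosure p (n + 1) ⁅K, K⁆ := by
        intro z hz
        obtain ⟨x, hx, rfl⟩ := hset z hz
        refine subset_closure ⟨x, hx, ?_⟩
        rw [← pow_mul, pow_succ]
      have hgen : ∀ x ∈ Cfsg.powerClosure p n K, ∀ y ∈ Cfsg.powerClosure p n K, ∃ e ∈ Cfsg.powerClosure p n ⁅K, K⁆, (x * y) ^ p = x ^ p * y ^ p * e ^ p := by
        intro x hx y hy
        obtain ⟨e, he, hxy⟩ := hC x y
        have h1 : closure ({x, y} : Set G) ≤ Cfsg.powerClosure p n K := by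
          rw [closure_le]
          rintro z (rfl | rfl)
          · exact hx
          · exact hy
        exact ⟨e, hcom (commutator_mono h1 h1 he), hxy⟩
      obtain ⟨e, he, h1⟩ := hgen _ hu _ hv
      obtain ⟨d, hd, h2⟩ := hgen _ (mul_mem hu hv) _ hcK
      refine ⟨e ^ p * c ^ p * d ^ p, mul_mem (mul_mem (hpow e he) (hpow c hc)) (hpow d hd), ?_⟩
      rw [pow_succ, pow_mul, hab, h2, h1, pow_mul, pow_mul]
      group

end CfsgLib.H9X
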