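import Mathlib

/-! # Divisors of `(p ^ q - 1) / (p - 1)` -/

set_option autoImplicit false
set_option maxHeartbeats 1000000

namespace CfsgLib.H9X

theorem s1546 (p q : ℕ) (hp : p.Prime) (hq : q.Prime) (hp2 : p ≠ 2) (hq2 : q ≠ 2) : Odd ((p ^ q - 1) / (p - 1)) ∧ (p % q = 1 → q ∣ (p ^ q - 1) / (p - 1)) ∧ (p % q ≠ 1 → Nat.Coprime ((p ^ q - 1) / (p - 1)) (p - 1) ∧ ∀ x : ℕ, x ∣ (p ^ q - 1) / (p - 1) → x % q = 1) := by
  have hgeom : (p ^ q - 1) / (p - 1) = ∑ k ∈ Finset.range q, p ^ k := (Nat.geomSum_eq hp.two_le q).symm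
  have hmul : (p - 1) * ((p ^ q - 1) / (p - 1)) = p ^ q - 1 := Nat.mul_div_cancel' (by simpa using Nat.sub_dvd_pow_sub_pow p 1 q)
  have hp1 : 1 ≤ p := hp.one_lt.le
  have hcast : ∀ r : ℕ, r ∣ p - 1 → (((p ^ q - 1) / (p - 1) : ℕ) : ZMod r) = (q : ZMod r) := by
    intro r hr
    have h1 : (p : ZMod r) = 1 := by
      have h2 : ((p - 1 : ℕ) : ZMod r) = 0 := (ZMod.natCast_eq_zero_iff _ _).2 hr
      rw [Nat.cast_sub hp1, Nat.cast_one, sub_eq_zero] at h2
      exact h2
    rw [hgeom, Nat.cast_sum]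
    simp [h1]
  have hodd : Odd ((p ^ q - 1) / (p - 1)) := by
    have hpo : Odd p := hp.odd_of_ne_two hp2
    have hqo : Odd q := hq.odd_of_ne_two hq2
    have h1 := hcast 2 (by obtain ⟨k, hk⟩ := hpo; exact ⟨k, by omega⟩)
    rw [← Nat.not_even_iff_odd, even_iff_two_dvd, ← ZMod.natCast_eq_zero_iff, h1, ZMod.natCast_eq_zero_iff, ← even_iff_two_dvd, Nat.not_even_iff_odd]
    exact hqo
  refine ⟨hodd, ?_, ?_⟩
  · intro h
    have hd : q ∣ p - 1 := (Nat.modEq_iff_dvd' hp1).1 (by rw [Nat.ModEq, h, Nat.mod_eq_of_lt hq.one_lt])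
    rw [← ZMod.natCast_eq_zero_iff, hcast q hd, ZMod.natCast_self]
  · intro h
    have hcop : Nat.Coprime ((p ^ q - 1) / (p - 1)) (p - 1) := by
      apply Nat.coprime_of_dvd
      intro r hr h1 h2
      have h3 := hcast r h2
      rw [(ZMod.natCast_eq_zero_iff _ _).2 h1] at h3
      have h4 : r ∣ q := (ZMod.natCast_eq_zero_iff _ _).1 h3.symm
      have h5 : r = q := (Nat.prime_dvd_prime_iff_eq hr hq).1 h4
      rw [h5] at h2
      apply h
      have h6 := (Nat.modEq_iff_dvd' hp1).2 h2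
      rw [Nat.ModEq, Nat.mod_eq_of_lt hq.one_lt] at h6
      exact h6.symm
    refine ⟨hcop, ?_⟩
    have hprime : ∀ r : ℕ, r.Prime → r ∣ (p ^ q - 1) / (p - 1) → r % q = 1 := by
      intro r hr hrN
      haveI : Fact r.Prime := ⟨hr⟩
      have hpq1 : 1 ≤ p ^ q := Nat.one_le_pow _ _ hp.pos
      have h1 : (p : ZMod r) ^ q = 1 := by
        have h2 : r ∣ p ^ q - 1 := by rw [← hmul]; exact hrN.mul_left _
        have h3 : ((p ^ q - 1 : ℕ) : ZMod r) = 0 := (ZMod.natCast_eq_zero_iff _ _).2 h2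
        rw [Nat.cast_sub hpq1, Nat.cast_one, sub_eq_zero, Nat.cast_pow] at h3
        exact h3
      have hne : (p : ZMod r) ≠ 0 := by
        intro h0
        rw [h0, zero_pow hq.ne_zero] at h1
        exact zero_ne_one h1
      have hord : orderOf (p : ZMod r) = q := by
        rcases (Nat.dvd_prime hq).1 (orderOf_dvd_of_pow_eq_one h1) with h2 | h2
        · exfalso
          rw [orderOf_eq_one_iff] at h2
          have h3 : r ∣ p - 1 := by
            rw [← ZMod.natCast_eq_zero_iff, Nat.cast_sub hp1, Nat.cast_one, h2, sub_self]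
          exact hr.one_lt.ne' (Nat.eq_one_of_dvd_coprimes hcop hrN h3)
        · exact h2
      have h2 := ZMod.orderOf_dvd_card_sub_one hne
      rw [hord] at h2
      have h6 := (Nat.modEq_iff_dvd' hr.one_lt.le).2 h2
      rw [Nat.ModEq, Nat.mod_eq_of_lt hq.one_lt] at h6
      exact h6.symm
    intro x
    induction x using Nat.strong_induction_on with
    | _ x ih =>
      intro hx
      by_cases hx1 : x = 1
      · rw [hx1, Nat.mod_eq_of_lt hq.one_lt]
      have hx0 : 0 < x := by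
        rcases Nat.eq_zero_or_pos x with h0 | h0
        · exfalso
          rw [h0, zero_dvd_iff] at hx
          rw [hx] at hodd
          exact absurd hodd (by decide)
        · exact h0
      have hmf := Nat.minFac_prime hx1
      obtain ⟨y, hy⟩ := Nat.minFac_dvd x
      have hy0 : 0 < y := by
        rcases Nat.eq_zero_or_pos y with h0 | h0
        · rw [h0, mul_zero] at hy; omega
        · exact h0
      have hylt : y < x := by
        have := hmf.two_le
        nlinarith
      have h1 := ih y hylt ((Dvd.intro_left _ hy.symm).trans hx)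
      have h2 := hprime _ hmf ((Nat.minFac_dvd x).trans hx)
      rw [hy, Nat.mul_mod, h1, h2, mul_one, Nat.mod_eq_of_lt hq.one_lt]

end CfsgLib.H9X
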