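import Mathlib

set_option autoImplicit false
set_option maxHeartbeats 1000000

namespace CfsgLib.H9X

universe u

theorem add_comb {F : Type u} [Field F] [Fintype F] [CharP F 2] [Fintype (F ≃+* F)] (f : F →+ F) : ∃ c : (F ≃+* F) → F, ∀ x : F, f x = ∑ σ, c σ * σ x := by
  classical
  letI : Algebra (ZMod 2) F := ZMod.algebra F 2
  haveI : Fact (Nat.Prime 2) := ⟨Nat.prime_two⟩
  have hcomm : ∀ (σ : F ≃+* F) (r : ZMod 2), (σ : F →+* F) (algebraMap (ZMod 2) F r) = algebraMap (ZMod 2) F r := fun σ r =>
    RingHom.congr_fun (Subsingleton.elim ((σ : F →+* F).comp (algebraMap (ZMod 2) F)) (algebraMap (ZMod 2) F)) r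
  let e : (F ≃+* F) → (F →ₐ[ZMod 2] F) := fun σ => { (σ : F →+* F) with commutes' := hcomm σ }
  have hei : Function.Injective e := by
    intro σ τ h
    ext x
    exact DFunLike.congr_fun h x
  have hes : Function.Surjective e := by
    intro g
    have hb : Function.Bijective g := (Finite.injective_iff_bijective).1 g.toRingHom.injective
    refine ⟨RingEquiv.ofBijective g.toRingHom hb, ?_⟩
    ext x
    rfl
  have hli : LinearIndependent F (fun g : F →ₐ[ZMod 2] F => (g.toLinearMap : F →ₗ[ZMod 2] F)) := linearIndependent_toLinearMap (ZMod 2) F F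
  have hli2 := hli.comp e hei
  have hcard : Fintype.card (F ≃+* F) = Module.finrank F (F →ₗ[ZMod 2] F) := by
    rw [Module.finrank_linearMap_self]
    rw [← IsGalois.card_aut_eq_finrank, ← Nat.card_eq_fintype_card]
    exact Nat.card_congr ((Equiv.ofBijective e ⟨hei, hes⟩).trans (algEquivEquivAlgHom (ZMod 2) F).symm.toEquiv)
  have hspan := hli2.span_eq_top_of_card_eq_finrank' hcard
  have hf : (f.toZModLinearMap 2 : F →ₗ[ZMod 2] F) ∈ Submodule.span F (Set.range ((fun g : F →ₐ[ZMod 2] F => (g.toLinearMap : F →ₗ[ZMod 2] F)) ∘ e)) := by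
    rw [hspan]; trivial
  obtain ⟨c, hc⟩ := (Submodule.mem_span_range_iff_exists_fun F).1 hf
  refine ⟨c, fun x => ?_⟩
  have h1 := LinearMap.congr_fun hc x
  rw [LinearMap.sum_apply] at h1
  exact h1.symm

theorem s1140 {F : Type u} [Field F] [Fintype F] [CharP F 2] :
    LinearIndependent F (fun σ : F ≃+* F => ((σ : F →+* F) : F → F)) ∧
      (∀ f : F →+ F, ∃ (s : Finset (F ≃+* F)) (c : (F ≃+* F) → F), ∀ x : F, f x = ∑ σ ∈ s, c σ * σ x) ∧
      ∀ B : F →+ F →+ F, ∃ (s : Finset ((F ≃+* F) × (F ≃+* F))) (c : (F ≃+* F) × (F ≃+* F) → F),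
        ∀ x y : F, B x y = ∑ p ∈ s, c p * (p.1 x * p.2 y) := by
  classical
  haveI : Finite (F ≃+* F) := Finite.of_injective (fun σ : F ≃+* F => (σ : F → F)) DFunLike.coe_injective
  letI : Fintype (F ≃+* F) := Fintype.ofFinite _
  refine ⟨?_, ?_, ?_⟩
  · have h1 := linearIndependent_monoidHom F F
    have h2 : Function.Injective (fun σ : F ≃+* F => ((σ : F →+* F) : F →* F)) := by
      intro σ τ h
      ext x
      exact DFunLike.congr_fun h x
    exact h1.comp _ h2
  · intro f
    obtain ⟨c, hc⟩ := add_comb f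
    exact ⟨Finset.univ, c, hc⟩
  · intro B
    -- for each `y`, coefficients of `x ↦ B x y`
    have h1 : ∀ x : F, ∃ c : (F ≃+* F) → F, ∀ y : F, B x y = ∑ σ, c σ * σ y := fun x => add_comb (B x)
    choose c hc using h1
    have hli : LinearIndependent F (fun σ : F ≃+* F => ((σ : F →+* F) : F → F)) := by
      have h1 := linearIndependent_monoidHom F F
      have h2 : Function.Injective (fun σ : F ≃+* F => ((σ : F →+* F) : F →* F)) := by
        intro σ τ h
        ext x
        exact DFunLike.congr_fun h x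
      exact h1.comp _ h2
    have hadd : ∀ x x' : F, ∀ σ, c (x + x') σ = c x σ + c x' σ := by
      intro x x' σ
      have h2 := Fintype.linearIndependent_iff.1 hli (fun σ => c (x + x') σ - (c x σ + c x' σ)) (by
        ext y
        have h3 := hc (x + x') y
        rw [map_add, AddMonoidHom.add_apply, hc x y, hc x' y] at h3
        simp only [Finset.sum_apply, Pi.smul_apply, smul_eq_mul, Pi.zero_apply, sub_mul, add_mul, Finset.sum_sub_distrib, Finset.sum_add_distrib]
        rw [sub_eq_zero]
        exact h3.symm) σ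
      exact sub_eq_zero.1 h2
    have h4 : ∀ σ : F ≃+* F, ∃ d : (F ≃+* F) → F, ∀ x : F, c x σ = ∑ τ, d τ * τ x := by
      intro σ
      exact add_comb (AddMonoidHom.mk' (fun x => c x σ) (fun x x' => hadd x x' σ))
    choose d hd using h4
    refine ⟨Finset.univ, fun p => d p.2 p.1, fun x y => ?_⟩
    rw [hc x y, ← Finset.univ_product_univ, Finset.sum_product_right]
    apply Finset.sum_congr rfl
    intro σ _
    rw [hd σ x, Finset.sum_mul]
    apply Finset.sum_congr rfl
    intro τ _
    ring

end CfsgLib.H9X
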