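import Cfsg.Agent.Lib.H9SE
set_option autoImplicit false
set_option maxHeartbeats 400000

/-! groups in which the centralizer of every involution is an elementary abelian 2-group. -/

namespace CfsgLib.H9ZT

open Subgroup CfsgLib.Invol CfsgLib.H9SE

universe u

variable {G : Type u} [Group G] [Finite G]

/-- a fixed point free involution acts as inversion -/
theorem inverts {K : Subgroup G} {t : G} (ht : t * t = 1) (hK : ∀ k ∈ K, t * k * t⁻¹ ∈ K) (hf : ∀ k ∈ K, t * k * t⁻¹ = k → k = 1) :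
    ∀ k ∈ K, t * k * t⁻¹ = k⁻¹ := by
  let f : K → K := fun k => ⟨(k : G)⁻¹ * (t * k * t⁻¹), mul_mem (inv_mem k.2) (hK k k.2)⟩
  have hf' : Function.Injective f := by
    intro a b hab
    have h1 : (a : G)⁻¹ * (t * a * t⁻¹) = (b : G)⁻¹ * (t * b * t⁻¹) := congrArg Subtype.val hab
    have h2 : t * ((b : G) * (a : G)⁻¹) * t⁻¹ = (b : G) * (a : G)⁻¹ := by
      calc t * ((b : G) * (a : G)⁻¹) * t⁻¹ = (t * b * t⁻¹) * (t * a * t⁻¹)⁻¹ := by group
        _ = b * ((b : G)⁻¹ * (t * b * t⁻¹)) * (t * a * t⁻¹)⁻¹ := by group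
        _ = b * ((a : G)⁻¹ * (t * a * t⁻¹)) * (t * a * t⁻¹)⁻¹ := by rw [h1]
        _ = (b : G) * (a : G)⁻¹ := by group
    have h3 := hf _ (mul_mem b.2 (inv_mem a.2)) h2
    exact Subtype.ext (mul_inv_eq_one.1 h3).symm
  intro k hk
  obtain ⟨a, ha⟩ := (Finite.injective_iff_surjective.1 hf') ⟨k, hk⟩
  have h1 : (a : G)⁻¹ * (t * a * t⁻¹) = k := congrArg Subtype.val ha
  have ht' : t⁻¹ = t := inv_eq_of_mul_eq_one_left ht
  rw [← h1]
  calc t * ((a : G)⁻¹ * (t * a * t⁻¹)) * t⁻¹ = (t * (a : G)⁻¹ * t⁻¹) * (t * t * a * t⁻¹ * t⁻¹) := by group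
    _ = (t * (a : G)⁻¹ * t⁻¹) * (t * t * a * t * t) := by rw [ht']
    _ = (t * (a : G)⁻¹ * t⁻¹) * ((t * t) * a * (t * t)) := by group
    _ = (t * (a : G)⁻¹ * t⁻¹) * a := by rw [ht, mul_one, one_mul]
    _ = ((a : G)⁻¹ * (t * a * t⁻¹))⁻¹ := by group

/-- the hypothesis on centralizers of involutions -/
def HC (G : Type u) [Group G] : Prop := ∀ t : G, orderOf t = 2 → IsMulCommutative (centralizer ({t} : Set G)) ∧ ∀ c ∈ centralizer ({t} : Set G), c ^ 2 = 1

theorem mem_C {x t : G} : x ∈ centralizer ({t} : Set G) ↔ x * t = t * x := mem_centralizer_singleton_iff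

theorem HC.sq (h : HC G) {t x : G} (ht : orderOf t = 2) (hx : x * t = t * x) : x * x = 1 := by
  rw [← _root_.sq]; exact (h t ht).2 x (mem_C.2 hx)

theorem HC.comm (h : HC G) {t x y : G} (ht : orderOf t = 2) (hx : x * t = t * x) (hy : y * t = t * y) : x * y = y * x :=
  congrArg Subtype.val ((h t ht).1.is_comm.comm ⟨x, mem_C.2 hx⟩ ⟨y, mem_C.2 hy⟩)

theorem eq_one_of_odd {x : G} (hx : x * x = 1) (ho : Odd (orderOf x)) : x = 1 := by
  have h1 : orderOf x ∣ 2 := orderOf_dvd_of_pow_eq_one (by rw [sq]; exact hx)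
  rcases (Nat.dvd_prime Nat.prime_two).1 h1 with h2 | h2
  · exact orderOf_eq_one_iff.1 h2
  · rw [h2] at ho; exact absurd ho (by decide)

/-- strongly real elements of odd order -/
def Rl (c : G) : Prop := c ≠ 1 ∧ Odd (orderOf c) ∧ ∃ a, orderOf a = 2 ∧ a * c * a⁻¹ = c⁻¹

theorem Rl.odd (h : HC G) {c : G} (hc : Rl c) : Odd (Nat.card (centralizer ({c} : Set G))) := by
  haveI : Fact (Nat.Prime 2) := ⟨Nat.prime_two⟩
  rw [← Nat.not_even_iff_odd]
  intro he
  obtain ⟨⟨j, hj⟩, hjo⟩ := exists_prime_orderOf_dvd_card' 2 (even_iff_two_dvd.1 he)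
  rw [Subgroup.orderOf_mk] at hjo
  exact hc.1 (eq_one_of_odd (h.sq hjo (mem_C.1 hj).symm) hc.2.1)

theorem Rl.odd_mem (h : HC G) {c : G} (hc : Rl c) {x : G} (hx : x * c = c * x) : Odd (orderOf x) := by
  have h1 := _root_.orderOf_dvd_natCard (⟨x, mem_C.2 hx⟩ : centralizer ({c} : Set G))
  rw [Subgroup.orderOf_mk] at h1
  exact (hc.odd h).of_dvd_nat h1

theorem inv_cent (h : HC G) {c a : G} (hc : Rl c) (ha : orderOf a = 2) (hac : a * c * a⁻¹ = c⁻¹) {x : G} (hx : x * c = c * x) : a * x * a⁻¹ = x⁻¹ := by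
  refine inverts (K := centralizer ({c} : Set G)) (mul_self_of_orderOf ha) ?_ ?_ x (mem_C.2 hx)
  · intro k hk
    rw [mem_C] at hk ⊢
    have h1 : a * k * a⁻¹ * (a * c * a⁻¹) = a * c * a⁻¹ * (a * k * a⁻¹) := by
      have e1 : a * k * a⁻¹ * (a * c * a⁻¹) = a * (k * c) * a⁻¹ := by group
      have e2 : a * c * a⁻¹ * (a * k * a⁻¹) = a * (c * k) * a⁻¹ := by group
      rw [e1, e2, hk]
    rw [hac] at h1
    exact (Commute.inv_right_iff.1 (show Commute (a * k * a⁻¹) c⁻¹ from h1))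
  · intro k hk hka
    have h1 : k * a = a * k := by
      have := congrArg (fun z => z * a) hka
      simp only [inv_mul_cancel_right] at this
      exact this.symm
    exact eq_one_of_odd (h.sq ha h1) (hc.odd_mem h (mem_C.1 hk))

theorem Rl.comm (h : HC G) {c : G} (hc : Rl c) {x y : G} (hx : x * c = c * x) (hy : y * c = c * y) : x * y = y * x := by
  obtain ⟨a, ha, hac⟩ := hc.2.2
  have h1 := inv_cent h hc ha hac hx
  have h2 := inv_cent h hc ha hac hy
  have hxy : (x * y) * c = c * (x * y) := ((show Commute x c from hx).mul_left (show Commute y c from hy))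
  have h3 := inv_cent h hc ha hac hxy
  have h4 : a * (x * y) * a⁻¹ = x⁻¹ * y⁻¹ := by rw [← h1, ← h2]; group
  rw [h4, ← mul_inv_rev] at h3
  exact (inv_injective h3).symm

theorem Rl.of_mem (h : HC G) {c : G} (hc : Rl c) {x : G} (hx : x * c = c * x) (hx1 : x ≠ 1) : Rl x := by
  obtain ⟨a, ha, hac⟩ := hc.2.2
  exact ⟨hx1, hc.odd_mem h hx, a, ha, inv_cent h hc ha hac hx⟩

theorem Rl.cent_eq (h : HC G) {c : G} (hc : Rl c) {x : G} (hx : x * c = c * x) (hx1 : x ≠ 1) : centralizer ({x} : Set G) = centralizer ({c} : Set G) := by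
  have hxr := hc.of_mem h hx hx1
  ext y
  rw [mem_C, mem_C]
  exact ⟨fun hy => hxr.comm h hy hx.symm, fun hy => hc.comm h hy hx⟩

theorem Rl.conj {c : G} (hc : Rl c) (g : G) : Rl (g * c * g⁻¹) := by
  obtain ⟨h1, h2, a, ha, hac⟩ := hc
  refine ⟨fun h => h1 ?_, ?_, g * a * g⁻¹, ?_, ?_⟩
  · have := congrArg (fun z => g⁻¹ * z * g) h
    simpa [mul_assoc] using this
  · rw [CfsgLib.Invol.orderOf_conj]; exact h2
  · rw [CfsgLib.Invol.orderOf_conj]; exact ha
  · have e : g * a * g⁻¹ * (g * c * g⁻¹) * (g * a * g⁻¹)⁻¹ = g * (a * c * a⁻¹) * g⁻¹ := by group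
    rw [e, hac]; group

/-- the involutions inverting `c` -/
theorem card_inverting (h : HC G) {c : G} (hc : Rl c) : Nat.card {a : G // orderOf a = 2 ∧ a * c * a⁻¹ = c⁻¹} = Nat.card (centralizer ({c} : Set G)) := by
  obtain ⟨a, ha, hac⟩ := hc.2.2
  have ha2 := mul_self_of_orderOf ha
  have hai : a⁻¹ = a := inv_eq_of_mul_self ha2
  symm
  apply Nat.card_congr
  refine Equiv.ofBijective (fun y => ⟨a * (y : G), ?_, ?_⟩) ⟨?_, ?_⟩
  · have h1 := inv_cent h hc ha hac (mem_C.1 y.2)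
    refine orderOf_eq_prime ?_ ?_
    · rw [sq]
      have e : a * (y : G) * (a * y) = (a * y * a) * y := by group
      rw [hai] at h1
      rw [e, h1, inv_mul_cancel]
    · intro h2
      have h3 : (y : G) = a := by
        rw [← inv_eq_of_mul_eq_one_right h2, hai]
      have h4 := hc.odd_mem h (mem_C.1 y.2)
      rw [h3, ha] at h4
      exact absurd h4 (by decide)
  · have e : a * (y : G) * c * (a * y)⁻¹ = a * (y * c * (y : G)⁻¹) * a⁻¹ := by group
    rw [e, mem_C.1 y.2, mul_inv_cancel_right, hac]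
  · rintro ⟨y, hy⟩ ⟨z, hz⟩ hyz
    exact Subtype.ext (mul_left_cancel (congrArg Subtype.val hyz))
  · rintro ⟨b, hb, hbc⟩
    have hb2 := mul_self_of_orderOf hb
    have hbi : b⁻¹ = b := inv_eq_of_mul_self hb2
    refine ⟨⟨a * b, mem_C.2 ?_⟩, Subtype.ext ?_⟩
    · have h1 : a * (b * c * b⁻¹) * a⁻¹ = c := by
        rw [hbc]
        have : a * c⁻¹ * a⁻¹ = (a * c * a⁻¹)⁻¹ := by group
        rw [this, hac, inv_inv]
      have h2 : (a * b) * c * (a * b)⁻¹ = c := by
        have e : (a * b) * c * (a * b)⁻¹ = a * (b * c * b⁻¹) * a⁻¹ := by group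
        rw [e, h1]
      exact mul_inv_eq_iff_eq_mul.1 h2
    · show a * (a * b) = b
      rw [← mul_assoc, ha2, one_mul]

/-- square roots of elements of odd order -/
theorem exists_sqrt {x : G} (hx : Odd (orderOf x)) : ∃ k : ℕ, (x ^ k) * (x ^ k) = x := by
  obtain ⟨m, hm⟩ := hx
  refine ⟨m + 1, ?_⟩
  rw [← pow_add, show m + 1 + (m + 1) = (2 * m + 1) + 1 by ring, pow_succ, ← hm, pow_orderOf_eq_one, one_mul]

theorem norm_two (h : HC G) {c a : G} (hc : Rl c) (ha : orderOf a = 2) (hac : a * c * a⁻¹ = c⁻¹) {x : G}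
    (hx : x ∈ normalizer (centralizer ({c} : Set G) : Set G)) : x * c = c * x ∨ (x * a) * c = c * (x * a) := by
  have ha2 := mul_self_of_orderOf ha
  have hai : a⁻¹ = a := inv_eq_of_mul_self ha2
  have hx' := mem_normalizer_iff.1 hx
  have hinv : ∀ y, y * c = c * y → a * y * a⁻¹ = y⁻¹ := fun y hy => inv_cent h hc ha hac hy
  have hxinv : ∀ y, y * c = c * y → (x⁻¹ * y * x) * c = c * (x⁻¹ * y * x) := by
    intro y hy
    have := (mem_normalizer_iff.1 (inv_mem hx) y).1 (mem_C.2 hy)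
    rw [inv_inv] at this
    exact mem_C.1 this
  set b := x * a * x⁻¹ with hb
  have hbo : orderOf b = 2 := by rw [hb, CfsgLib.Invol.orderOf_conj]; exact ha
  have hb2 := mul_self_of_orderOf hbo
  have hbinv : ∀ y, y * c = c * y → b * y * b⁻¹ = y⁻¹ := by
    intro y hy
    have h1 := hinv _ (hxinv y hy)
    have e : b * y * b⁻¹ = x * (a * (x⁻¹ * y * x) * a⁻¹) * x⁻¹ := by rw [hb]; group
    rw [e, h1]; group
  have hab : (a * b) * c = c * (a * b) := by
    have h1 := hbinv c rfl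
    have h2 : (a * b) * c * (a * b)⁻¹ = c := by
      have e : (a * b) * c * (a * b)⁻¹ = a * (b * c * b⁻¹) * a⁻¹ := by group
      rw [e, h1]
      have : a * c⁻¹ * a⁻¹ = (a * c * a⁻¹)⁻¹ := by group
      rw [this, hac, inv_inv]
    exact mul_inv_eq_iff_eq_mul.1 h2
  obtain ⟨k, hk⟩ := exists_sqrt (hc.odd_mem h hab)
  set w := (a * b) ^ k with hw
  have hwc : w * c = c * w := ((show Commute (a * b) c from hab).pow_left k)
  have hwinv := hinv w hwc
  have hwb : w⁻¹ * a * w = b := by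
    have e : w⁻¹ * a * w = (a * w * a⁻¹) * a * w := by rw [hwinv]
    rw [e]
    have e2 : a * w * a⁻¹ * a * w = a * (w * w) := by group
    rw [e2, hk, ← mul_assoc, ha2, one_mul]
  have hs : (w * x) * a = a * (w * x) := by
    have h1 : x * a * x⁻¹ = w⁻¹ * a * w := by rw [hwb]
    have h2 : w * (x * a * x⁻¹) * x = w * (w⁻¹ * a * w) * x := by rw [h1]
    have e1 : w * (x * a * x⁻¹) * x = w * x * a := by group
    have e2 : w * (w⁻¹ * a * w) * x = a * (w * x) := by group
    rw [e1, e2] at h2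
    exact h2
  have hss := h.sq ha hs
  by_cases hs1 : w * x = 1
  · left
    have : x = w⁻¹ := (inv_eq_of_mul_eq_one_right hs1).symm
    rw [this]
    exact (show Commute w c from hwc).inv_left
  · right
    have hso : orderOf (w * x) = 2 := orderOf_eq_prime (by rw [sq]; exact hss) hs1
    have hsn : ∀ k ∈ centralizer ({c} : Set G), (w * x) * k * (w * x)⁻¹ ∈ centralizer ({c} : Set G) := by
      intro k hk
      have h1 := (hx' k).1 hk
      have h2 : w ∈ centralizer ({c} : Set G) := mem_C.2 hwc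
      have h3 := mul_mem (mul_mem h2 h1) (inv_mem h2)
      have e : (w * x) * k * (w * x)⁻¹ = w * (x * k * x⁻¹) * w⁻¹ := by group
      rw [e]; exact h3
    have hsinv := inverts hss hsn (by
      intro k hk hks
      have h1 : k * (w * x) = (w * x) * k := (mul_inv_eq_iff_eq_mul.1 hks).symm
      exact eq_one_of_odd (h.sq hso h1) (hc.odd_mem h (mem_C.1 hk)))
    have hsa : ((w * x) * a) * c = c * ((w * x) * a) := by
      have h2 : ((w * x) * a) * c * ((w * x) * a)⁻¹ = c := by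
        have e : ((w * x) * a) * c * ((w * x) * a)⁻¹ = (w * x) * (a * c * a⁻¹) * (w * x)⁻¹ := by group
        rw [e, hac]
        have h4 := hsinv c (mem_C.2 rfl)
        have : w * x * c⁻¹ * (w * x)⁻¹ = (w * x * c * (w * x)⁻¹)⁻¹ := by group
        rw [this, h4, inv_inv]
      exact mul_inv_eq_iff_eq_mul.1 h2
    have h5 : (w * x) * a = 1 := by
      apply eq_one_of_odd _ (hc.odd_mem h hsa)
      calc (w * x) * a * ((w * x) * a) = (w * x) * (a * (w * x)) * a := by group
        _ = (w * x) * ((w * x) * a) * a := by rw [hs]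
        _ = ((w * x) * (w * x)) * (a * a) := by group
        _ = 1 := by rw [hss, ha2, one_mul]
    have h6 : x * a = w⁻¹ := by
      rw [mul_assoc] at h5
      exact (inv_eq_of_mul_eq_one_right h5).symm
    rw [h6]
    exact (show Commute w c from hwc).inv_left

theorem card_norm (h : HC G) {c : G} (hc : Rl c) : Nat.card (normalizer (centralizer ({c} : Set G) : Set G)) = 2 * Nat.card (centralizer ({c} : Set G)) := by
  obtain ⟨a, ha, hac⟩ := hc.2.2
  have ha2 := mul_self_of_orderOf ha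
  have hai : a⁻¹ = a := inv_eq_of_mul_self ha2
  have haN : a ∈ normalizer (centralizer ({c} : Set G) : Set G) := by
    rw [mem_normalizer_iff]
    have key : ∀ y : G, y * c = c * y → (a * y * a⁻¹) * c = c * (a * y * a⁻¹) := by
      intro y hy
      rw [inv_cent h hc ha hac hy]
      exact (show Commute y c from hy).inv_left
    intro y
    constructor
    · intro hy; exact mem_C.2 (key y (mem_C.1 hy))
    · intro hy
      have h1 := key _ (mem_C.1 hy)
      have e : a * (a * y * a⁻¹) * a⁻¹ = (a * a) * y * (a * a)⁻¹ := by group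
      rw [e, ha2, one_mul, inv_one, mul_one] at h1
      exact mem_C.2 h1
  have hidx : (centralizer ({c} : Set G)).relIndex (normalizer (centralizer ({c} : Set G) : Set G)) = 2 := by
    rw [relIndex, index_eq_two_iff]
    refine ⟨⟨a, haN⟩, ?_⟩
    rintro ⟨x, hx⟩
    have h1 := norm_two h hc ha hac hx
    have hnot : ¬ (x * c = c * x ∧ (x * a) * c = c * (x * a)) := by
      rintro ⟨h2, h3⟩
      have h4 : a * c = c * a := by
        have : x⁻¹ * (x * a) ∈ centralizer ({c} : Set G) := mul_mem (inv_mem (mem_C.2 h2)) (mem_C.2 h3)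
        rw [inv_mul_cancel_left] at this
        exact mem_C.1 this
      have h5 := hc.odd_mem h h4
      rw [ha] at h5
      exact absurd h5 (by decide)
    show Xor' ((⟨x, hx⟩ * ⟨a, haN⟩ : normalizer (centralizer ({c} : Set G) : Set G)) ∈ (centralizer ({c} : Set G)).subgroupOf _) (⟨x, hx⟩ ∈ (centralizer ({c} : Set G)).subgroupOf _)
    rw [mem_subgroupOf, mem_subgroupOf]
    show Xor' (x * a ∈ centralizer ({c} : Set G)) (x ∈ centralizer ({c} : Set G))
    rw [mem_C, mem_C]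
    by_cases h2 : x * c = c * x
    · exact Or.inr ⟨h2, fun h3 => hnot ⟨h2, h3⟩⟩
    · exact Or.inl ⟨h1.resolve_left h2, h2⟩
  have h1 : (centralizer ({c} : Set G)) ≤ normalizer (centralizer ({c} : Set G) : Set G) := le_normalizer
  have h2 : Nat.card (centralizer ({c} : Set G)) * (centralizer ({c} : Set G)).relIndex (normalizer (centralizer ({c} : Set G) : Set G)) =
      Nat.card (normalizer (centralizer ({c} : Set G) : Set G)) := by
    rw [← Subgroup.relIndex_bot_left, ← Subgroup.relIndex_bot_left, Subgroup.relIndex_mul_relIndex _ _ _ bot_le h1]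
  rw [hidx] at h2
  rw [← h2, mul_comm]

/-- the conjugates of the nontrivial elements of `C(c)` -/
def UU (c : G) : Set G := {g | ∃ x y : G, y * c = c * y ∧ y ≠ 1 ∧ g = x * y * x⁻¹}

theorem card_fib {α β : Type*} [Finite α] [Finite β] (f : α → β) (n : ℕ) (h : ∀ b, Nat.card {a // f a = b} = n) : Nat.card α = Nat.card β * n := by
  classical
  haveI : Fintype β := Fintype.ofFinite β
  rw [Nat.card_congr (Equiv.sigmaFiberEquiv f).symm, Nat.card_sigma, Finset.sum_congr rfl (fun b _ => h b), Finset.sum_const, Finset.card_univ,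
    Nat.card_eq_fintype_card, smul_eq_mul]

theorem card_UU (h : HC G) {c : G} (hc : Rl c) :
    Nat.card (UU c) * (2 * Nat.card (centralizer ({c} : Set G))) = Nat.card G * (Nat.card (centralizer ({c} : Set G)) - 1) := by
  classical
  let f : G × {y : centralizer ({c} : Set G) // y ≠ 1} → UU c := fun p =>
    ⟨p.1 * (p.2.1 : G) * p.1⁻¹, p.1, (p.2.1 : G), mem_C.1 p.2.1.2, fun h => p.2.2 (Subtype.ext h), rfl⟩
  have h1 : ∀ b, Nat.card {a // f a = b} = 2 * Nat.card (centralizer ({c} : Set G)) := by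
    rintro ⟨g, x₀, y₀, hy₀, hy₀1, rfl⟩
    rw [← card_norm h hc]
    symm
    have hTI : ∀ n : G, ∀ y : G, y * c = c * y → y ≠ 1 → n * y * n⁻¹ = y₀ → n ∈ normalizer (centralizer ({c} : Set G) : Set G) := by
      intro n y hy hy1 hn
      have e1 := hc.cent_eq h hy hy1
      have e2 := hc.cent_eq h hy₀ hy₀1
      have key : ∀ k : G, k * y = y * k ↔ (n * k * n⁻¹) * y₀ = y₀ * (n * k * n⁻¹) := by
        intro k
        rw [← hn]
        constructor
        · intro hk
          have e1 : n * k * n⁻¹ * (n * y * n⁻¹) = n * (k * y) * n⁻¹ := by group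
          have e2 : n * y * n⁻¹ * (n * k * n⁻¹) = n * (y * k) * n⁻¹ := by group
          rw [e1, e2, hk]
        · intro hk
          have e1 : n * k * n⁻¹ * (n * y * n⁻¹) = n * (k * y) * n⁻¹ := by group
          have e2 : n * y * n⁻¹ * (n * k * n⁻¹) = n * (y * k) * n⁻¹ := by group
          rw [e1, e2] at hk
          exact mul_left_cancel (mul_right_cancel hk)
      rw [mem_normalizer_iff]
      intro k
      show k ∈ centralizer ({c} : Set G) ↔ n * k * n⁻¹ ∈ centralizer ({c} : Set G)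
      conv_lhs => rw [← e1]
      conv_rhs => rw [← e2]
      rw [mem_C, mem_C]
      exact key k
    apply Nat.card_congr
    refine Equiv.ofBijective (fun n => ⟨(x₀ * (n : G), ⟨⟨(n : G)⁻¹ * y₀ * n, ?_⟩, ?_⟩), ?_⟩) ⟨?_, ?_⟩
    · have := (mem_normalizer_iff.1 (inv_mem n.2) y₀).1 (mem_C.2 hy₀)
      rwa [inv_inv] at this
    · intro h2
      apply hy₀1
      have h3 : (n : G)⁻¹ * y₀ * n = 1 := congrArg Subtype.val h2
      have := congrArg (fun z => (n : G) * z * (n : G)⁻¹) h3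
      simpa [mul_assoc] using this
    · apply Subtype.ext
      show x₀ * n * ((n : G)⁻¹ * y₀ * n) * (x₀ * n)⁻¹ = x₀ * y₀ * x₀⁻¹
      group
    · rintro n n' hn
      have h2 : x₀ * (n : G) = x₀ * (n' : G) := congrArg (fun z => z.1.1) hn
      exact Subtype.ext (mul_left_cancel h2)
    · rintro ⟨⟨x, ⟨⟨y, hy⟩, hy1⟩⟩, hxy⟩
      have h2 : x * y * x⁻¹ = x₀ * y₀ * x₀⁻¹ := congrArg Subtype.val hxy
      have h3 : (x₀⁻¹ * x) * y * (x₀⁻¹ * x)⁻¹ = y₀ := by
        have e : (x₀⁻¹ * x) * y * (x₀⁻¹ * x)⁻¹ = x₀⁻¹ * (x * y * x⁻¹) * x₀ := by group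
        rw [e, h2]; group
      refine ⟨⟨x₀⁻¹ * x, hTI _ y (mem_C.1 hy) (fun h => hy1 (Subtype.ext h)) h3⟩, ?_⟩
      apply Subtype.ext
      refine Prod.ext ?_ (Subtype.ext (Subtype.ext ?_))
      · show x₀ * (x₀⁻¹ * x) = x
        group
      · show (x₀⁻¹ * x)⁻¹ * y₀ * (x₀⁻¹ * x) = y
        rw [← h3]; group
  have h2 := card_fib f _ h1
  have h3 : Nat.card {y : centralizer ({c} : Set G) // y ≠ 1} = Nat.card (centralizer ({c} : Set G)) - 1 := by
    haveI : Fintype (centralizer ({c} : Set G)) := Fintype.ofFinite _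
    rw [Nat.card_eq_fintype_card, Nat.card_eq_fintype_card, Fintype.card_subtype_compl, Fintype.card_subtype_eq]
  rw [Nat.card_prod, h3] at h2
  exact h2.symm

theorem UU_Rl (h : HC G) {c g : G} (hc : Rl c) (hg : g ∈ UU c) : Rl g := by
  obtain ⟨x, y, hy, hy1, rfl⟩ := hg
  exact (hc.of_mem h hy hy1).conj x

theorem UU_card_cent (h : HC G) {c g : G} (hc : Rl c) (hg : g ∈ UU c) : Nat.card (centralizer ({g} : Set G)) = Nat.card (centralizer ({c} : Set G)) := by
  obtain ⟨x, y, hy, hy1, rfl⟩ := hg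
  rw [← hc.cent_eq h hy hy1]
  apply Nat.card_congr
  refine Equiv.ofBijective (fun z => ⟨x⁻¹ * (z : G) * x, ?_⟩) ⟨?_, ?_⟩
  · have hz := mem_C.1 z.2
    rw [mem_C]
    have h1 : x⁻¹ * ((z : G) * (x * y * x⁻¹)) * x = x⁻¹ * (x * y * x⁻¹ * z) * x := by rw [hz]
    have e1 : x⁻¹ * ((z : G) * (x * y * x⁻¹)) * x = x⁻¹ * z * x * y := by group
    have e2 : x⁻¹ * (x * y * x⁻¹ * z) * x = y * (x⁻¹ * z * x) := by group
    rw [e1, e2] at h1
    exact h1
  · rintro ⟨z, hz⟩ ⟨w, hw⟩ hzw
    have : x⁻¹ * z * x = x⁻¹ * w * x := congrArg Subtype.val hzw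
    exact Subtype.ext (mul_left_cancel (mul_right_cancel this))
  · rintro ⟨z, hz⟩
    rw [mem_C] at hz
    refine ⟨⟨x * z * x⁻¹, mem_C.2 ?_⟩, Subtype.ext ?_⟩
    · have e1 : x * z * x⁻¹ * (x * y * x⁻¹) = x * (z * y) * x⁻¹ := by group
      have e2 : x * y * x⁻¹ * (x * z * x⁻¹) = x * (y * z) * x⁻¹ := by group
      rw [e1, e2, hz]
    · show x⁻¹ * (x * z * x⁻¹) * x = z
      group

/-- the sets `UU` are disjoint or equal -/
theorem mem_UU_of_mem (h : HC G) {c d g : G} (hc : Rl c) (hd : Rl d) (h1 : g ∈ UU c) (h2 : g ∈ UU d) : d ∈ UU c := by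
  obtain ⟨x, y, hy, hy1, rfl⟩ := h1
  obtain ⟨z, w, hw, hw1, hzw⟩ := h2
  have e1 := hc.cent_eq h hy hy1
  have e2 := hd.cent_eq h hw hw1
  -- w = (z⁻¹ x) y (z⁻¹ x)⁻¹
  have hwy : w = (z⁻¹ * x) * y * (z⁻¹ * x)⁻¹ := by
    have e : (z⁻¹ * x) * y * (z⁻¹ * x)⁻¹ = z⁻¹ * (x * y * x⁻¹) * z := by group
    rw [e, hzw]; group
  set n := z⁻¹ * x with hn
  have hd' : d ∈ centralizer ({w} : Set G) := by rw [e2, mem_C]
  rw [mem_C] at hd'
  refine ⟨n, n⁻¹ * d * n, ?_, ?_, by group⟩
  · have h3 : n⁻¹ * d * n ∈ centralizer ({y} : Set G) := by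
      rw [mem_C]
      have h4 : n⁻¹ * (d * w) * n = n⁻¹ * (w * d) * n := by rw [hd']
      rw [hwy] at h4
      have e3 : n⁻¹ * (d * (n * y * n⁻¹)) * n = n⁻¹ * d * n * y := by group
      have e4 : n⁻¹ * (n * y * n⁻¹ * d) * n = y * (n⁻¹ * d * n) := by group
      rw [e3, e4] at h4
      exact h4
    rw [e1] at h3
    exact mem_C.1 h3
  · intro h3
    apply hd.1
    have := congrArg (fun z => n * z * n⁻¹) h3
    simpa [mul_assoc] using this

theorem self_mem_UU {c : G} (hc : Rl c) : c ∈ UU c := ⟨1, c, rfl, hc.1, by group⟩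

/-- the number of pairs of involutions with product `g` -/
noncomputable def NN (g : G) : ℕ := Nat.card {p : {a : G // orderOf a = 2} × {a : G // orderOf a = 2} // (p.1 : G) * (p.2 : G) = g}

theorem sum_NN [Fintype G] : ∑ g : G, NN g = Nat.card {a : G // orderOf a = 2} * Nat.card {a : G // orderOf a = 2} := by
  classical
  rw [← Nat.card_prod, Nat.card_congr (Equiv.sigmaFiberEquiv (fun p : {a : G // orderOf a = 2} × {a : G // orderOf a = 2} => (p.1 : G) * (p.2 : G))).symm,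
    Nat.card_sigma]
  rfl

theorem NN_one : NN (1 : G) = Nat.card {a : G // orderOf a = 2} := by
  apply Nat.card_congr
  refine Equiv.ofBijective (fun p => p.1.1) ⟨?_, ?_⟩
  · rintro ⟨⟨⟨a, ha⟩, ⟨b, hb⟩⟩, hab⟩ ⟨⟨⟨c, hc⟩, ⟨d, hd⟩⟩, hcd⟩ h
    have h1 : a = c := congrArg Subtype.val h
    have h2 : a * b = 1 := hab
    have h3 : c * d = 1 := hcd
    subst h1
    have h4 : b = d := mul_left_cancel (h2.trans h3.symm)
    subst h4
    rfl
  · rintro ⟨a, ha⟩
    exact ⟨⟨(⟨a, ha⟩, ⟨a, ha⟩), mul_self_of_orderOf ha⟩, rfl⟩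

theorem NN_Rl (h : HC G) {g : G} (hg : Rl g) : NN g = Nat.card (centralizer ({g} : Set G)) := by
  rw [← card_inverting h hg]
  apply Nat.card_congr
  refine Equiv.ofBijective (fun p => ⟨(p.1.1 : G), p.1.1.2, ?_⟩) ⟨?_, ?_⟩
  · obtain ⟨⟨⟨a, ha⟩, ⟨b, hb⟩⟩, hab⟩ := p
    have hab' : a * b = g := hab
    show a * g * a⁻¹ = g⁻¹
    rw [← hab', mul_inv_rev, inv_eq_of_mul_self (mul_self_of_orderOf ha), inv_eq_of_mul_self (mul_self_of_orderOf hb), ← mul_assoc,
      mul_self_of_orderOf ha, one_mul]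
  · rintro ⟨⟨⟨a, ha⟩, ⟨b, hb⟩⟩, hab⟩ ⟨⟨⟨c, hc⟩, ⟨d, hd⟩⟩, hcd⟩ h
    have h1 : a = c := congrArg Subtype.val h
    have h2 : a * b = g := hab
    have h3 : c * d = g := hcd
    subst h1
    have h4 : b = d := mul_left_cancel (h2.trans h3.symm)
    subst h4
    rfl
  · rintro ⟨a, ha, hag⟩
    have ha2 := mul_self_of_orderOf ha
    have hai := inv_eq_of_mul_self ha2
    rw [hai] at hag
    refine ⟨⟨(⟨a, ha⟩, ⟨a * g, ?_⟩), ?_⟩, rfl⟩
    · refine orderOf_eq_prime ?_ ?_
      · rw [sq]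
        have e : a * g * (a * g) = (a * g * a) * g := by group
        rw [e, hag, inv_mul_cancel]
      · intro h1
        have h3 : g = a := by rw [← inv_eq_of_mul_eq_one_right h1, hai]
        have h4 := hg.2.1
        rw [h3, ha] at h4
        exact absurd h4 (by decide)
    · show a * (a * g) = g
      rw [← mul_assoc, ha2, one_mul]

theorem NN_inv {g : G} (hg : orderOf g = 2) (hsq : ∀ x, x * g = g * x → x * x = 1) : NN g + 2 = Nat.card (centralizer ({g} : Set G)) := by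
  have h1 : NN g = Nat.card {y : centralizer ({g} : Set G) // y ≠ 1 ∧ (y : G) ≠ g} := by
    apply Nat.card_congr
    refine Equiv.ofBijective (fun p => ⟨⟨(p.1.1 : G), ?_⟩, ?_, ?_⟩) ⟨?_, ?_⟩
    · obtain ⟨⟨⟨a, ha⟩, ⟨b, hb⟩⟩, hab⟩ := p
      have hab' : a * b = g := hab
      show a ∈ centralizer ({g} : Set G)
      rw [mem_C]
      have h2 : a * g = b := by rw [← hab', ← mul_assoc, mul_self_of_orderOf ha, one_mul]
      have h3 : g * b = a := by rw [← hab', mul_assoc, mul_self_of_orderOf hb, mul_one]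
      have h4 : g * a = b := by
        rw [← h3, ← mul_assoc, mul_self_of_orderOf hg, one_mul]
      rw [h2, h4]
    · intro h2
      have h3 : (p.1.1 : G) = 1 := congrArg Subtype.val h2
      have h4 := p.1.1.2
      rw [h3, orderOf_one] at h4
      omega
    · intro h2
      have h3 : (p.1.1 : G) = g := h2
      have h4 : (p.1.1 : G) * (p.1.2 : G) = g := p.2
      rw [h3] at h4
      have h5 : (p.1.2 : G) = 1 := by
        have := mul_left_cancel (h4.trans (mul_one g).symm)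
        exact this
      have h6 := p.1.2.2
      rw [h5, orderOf_one] at h6
      omega
    · rintro ⟨⟨⟨a, ha⟩, ⟨b, hb⟩⟩, hab⟩ ⟨⟨⟨c, hc⟩, ⟨d, hd⟩⟩, hcd⟩ h
      have h1 : a = c := congrArg (fun z => ((z.1 : centralizer ({g} : Set G)) : G)) h
      have h2 : a * b = g := hab
      have h3 : c * d = g := hcd
      subst h1
      have h4 : b = d := mul_left_cancel (h2.trans h3.symm)
      subst h4
      rfl
    · rintro ⟨⟨a, haC⟩, ha1, hag⟩
      rw [mem_C] at haC
      have ha2 := hsq a haC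
      have ha1' : a ≠ 1 := fun h => ha1 (Subtype.ext h)
      have hg2 := mul_self_of_orderOf hg
      refine ⟨⟨(⟨a, orderOf_eq_prime (by rw [sq]; exact ha2) ha1'⟩, ⟨a * g, orderOf_eq_prime ?_ ?_⟩), ?_⟩, rfl⟩
      · rw [sq]
        calc a * g * (a * g) = a * (g * a) * g := by group
          _ = a * (a * g) * g := by rw [haC]
          _ = (a * a) * (g * g) := by group
          _ = 1 := by rw [ha2, hg2, one_mul]
      · intro h2
        apply hag
        show a = g
        have := eq_inv_of_mul_eq_one_left h2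
        rw [this, inv_eq_of_mul_self hg2]
      · show a * (a * g) = g
        rw [← mul_assoc, ha2, one_mul]
  haveI : Fintype (centralizer ({g} : Set G)) := Fintype.ofFinite _
  classical
  have h2 : Fintype.card {y : centralizer ({g} : Set G) // y ≠ 1 ∧ (y : G) ≠ g} =
      ((Finset.univ.erase (1 : centralizer ({g} : Set G))).erase ⟨g, mem_C.2 rfl⟩).card := by
    rw [Fintype.card_subtype]
    congr 1
    ext y
    simp only [Finset.mem_filter, Finset.mem_univ, true_and, Finset.mem_erase, ne_eq, and_true]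
    constructor
    · rintro ⟨h1, h2⟩
      exact ⟨fun h => h2 (congrArg Subtype.val h), h1⟩
    · rintro ⟨h1, h2⟩
      exact ⟨h2, fun h => h1 (Subtype.ext h)⟩
  have hg1 : g ≠ 1 := by rintro rfl; rw [orderOf_one] at hg; omega
  rw [h1, Nat.card_eq_fintype_card, h2, Finset.card_erase_of_mem, Finset.card_erase_of_mem (Finset.mem_univ _), Finset.card_univ, Nat.card_eq_fintype_card]
  · have h3 : 2 ≤ Fintype.card (centralizer ({g} : Set G)) := by
      rw [← Nat.card_eq_fintype_card]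
      have h4 := _root_.orderOf_dvd_natCard (⟨g, mem_C.2 rfl⟩ : centralizer ({g} : Set G))
      rw [Subgroup.orderOf_mk, hg] at h4
      exact Nat.le_of_dvd Nat.card_pos h4
    omega
  · rw [Finset.mem_erase]
    exact ⟨fun h => hg1 (congrArg Subtype.val h), Finset.mem_univ _⟩

theorem NN_zero (h : HC G) {g : G} (hg1 : g ≠ 1) (hg2 : orderOf g ≠ 2) (hg : ¬ Rl g) : NN g = 0 := by
  rw [NN, Nat.card_eq_zero]
  left
  constructor
  rintro ⟨⟨⟨a, ha⟩, ⟨b, hb⟩⟩, hab⟩
  have hab' : a * b = g := hab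
  have ha2 := mul_self_of_orderOf ha
  have hb2 := mul_self_of_orderOf hb
  by_cases he : Even (orderOf (a * b))
  · have h1 := orderOf_zi he
    have h2 := zi_comm_left ha2 hb2 he
    have h3 := zi_comm_right ha2 hb2 he
    have h4 := h.comm h1 h2.symm.eq h3.symm.eq
    apply hg2
    refine orderOf_eq_prime ?_ hg1
    rw [sq, ← hab']
    calc a * b * (a * b) = a * (b * a) * b := by group
      _ = a * (a * b) * b := by rw [h4]
      _ = (a * a) * (b * b) := by group
      _ = 1 := by rw [ha2, hb2, one_mul]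
  · rw [Nat.not_even_iff_odd, hab'] at he
    apply hg
    refine ⟨hg1, he, a, ha, ?_⟩
    rw [← hab', mul_inv_rev, inv_eq_of_mul_self ha2, inv_eq_of_mul_self hb2, ← mul_assoc, ha2, one_mul]

end CfsgLib.H9ZT
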