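import Cfsg.Agent.Lib.H9ZT
set_option autoImplicit false
set_option maxHeartbeats 400000

/-! groups in which the centralizer of every involution is an elementary abelian 2-group, II. -/

namespace CfsgLib.H9ZT

open Subgroup CfsgLib.Invol CfsgLib.H9SE

universe u

variable {G : Type u} [Group G] [Finite G]

/-- the hypotheses -/
structure ZT (T : Sylow 2 G) : Prop where
  nc : ¬ IsCyclic (T : Subgroup G)
  nn : ¬ (T : Subgroup G).Normal
  hc : HC G

namespace ZT

variable {T : Sylow 2 G} (h : ZT T)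

include h

theorem exists_central : ∃ z ∈ (T : Subgroup G), orderOf z = 2 ∧ ∀ t ∈ (T : Subgroup G), t * z = z * t := by
  haveI : Fact (Nat.Prime 2) := ⟨Nat.prime_two⟩
  have hTne : (T : Subgroup G) ≠ ⊥ := by
    intro h1
    apply h.nc
    rw [h1]
    infer_instance
  have hnt : Nontrivial (T : Subgroup G) := (Subgroup.nontrivial_iff_ne_bot _).2 hTne
  have hT2 := T.isPGroup'
  have := hT2.center_nontrivial
  have h1 : 2 ∣ Nat.card (Subgroup.center (T : Subgroup G)) := by
    obtain ⟨k, hk⟩ := IsPGroup.iff_card.1 (hT2.to_subgroup (Subgroup.center (T : Subgroup G)))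
    have h2 : 1 < Nat.card (Subgroup.center (T : Subgroup G)) := Finite.one_lt_card
    rw [hk] at h2 ⊢
    rcases k with _ | k
    · simp at h2
    · exact dvd_pow_self 2 (by omega)
  obtain ⟨z, hz⟩ := exists_prime_orderOf_dvd_card' 2 h1
  refine ⟨((z : (T : Subgroup G)) : G), z.1.2, ?_, fun t ht => ?_⟩
  · rw [Subgroup.orderOf_coe, Subgroup.orderOf_coe, hz]
  · exact congrArg Subtype.val (Subgroup.mem_center_iff.1 z.2 ⟨t, ht⟩)

theorem comm {x y : G} (hx : x ∈ (T : Subgroup G)) (hy : y ∈ (T : Subgroup G)) : x * y = y * x := by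
  obtain ⟨z, hz, hzo, hzc⟩ := h.exists_central
  exact h.hc.comm hzo (hzc x hx) (hzc y hy)

theorem sq {x : G} (hx : x ∈ (T : Subgroup G)) : x * x = 1 := by
  obtain ⟨z, hz, hzo, hzc⟩ := h.exists_central
  exact h.hc.sq hzo (hzc x hx)

omit [Finite G] h in
theorem order_of_mem' {x : G} (hx : x * x = 1) (hx1 : x ≠ 1) : orderOf x = 2 := orderOf_eq_prime (by rw [_root_.sq]; exact hx) hx1

theorem cent_eq {t : G} (ht : orderOf t = 2) (htT : t ∈ (T : Subgroup G)) : centralizer ({t} : Set G) = T := by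
  apply T.is_maximal'
  · rintro ⟨c, hc⟩
    exact ⟨1, Subtype.ext (by
      show c ^ 2 ^ 1 = 1
      rw [pow_one]; exact (h.hc t ht).2 c hc)⟩
  · intro x hx
    exact mem_C.2 (h.comm hx htT)

omit [Finite G] in
theorem conj (g : G) : ZT (g • T) := by
  have h3 : ((g • T : Sylow 2 G) : Subgroup G) = (T : Subgroup G).map (MulAut.conj g).toMonoidHom := rfl
  refine ⟨fun h1 => h.nc ?_, fun h1 => h.nn ?_, h.hc⟩
  · haveI : IsCyclic ↥((T : Subgroup G).map (MulAut.conj g).toMonoidHom) := h1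
    let e := (T : Subgroup G).equivMapOfInjective (MulAut.conj g).toMonoidHom (MulAut.conj g).injective
    exact isCyclic_of_surjective e.symm e.symm.surjective
  · rw [← Subgroup.normalizer_eq_top_iff] at h1 ⊢
    rw [eq_top_iff]
    intro x _
    have h2 : g * x * g⁻¹ ∈ normalizer (((g • T : Sylow 2 G) : Subgroup G) : Set G) := by rw [h1]; trivial
    rw [Subgroup.mem_normalizer_iff] at h2 ⊢
    intro y
    have h4 := h2 (g * y * g⁻¹)
    have key : ∀ w : G, g * w * g⁻¹ ∈ ((g • T : Sylow 2 G) : Subgroup G) ↔ w ∈ (T : Subgroup G) := by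
      intro w
      rw [h3]
      constructor
      · rintro ⟨v, hv, hvw⟩
        have : g * v * g⁻¹ = g * w * g⁻¹ := hvw
        have := mul_left_cancel (mul_right_cancel this)
        exact this ▸ hv
      · intro hw; exact ⟨w, hw, rfl⟩
    rw [key] at h4
    have e : g * x * g⁻¹ * (g * y * g⁻¹) * (g * x * g⁻¹)⁻¹ = g * (x * y * x⁻¹) * g⁻¹ := by group
    rw [e, key] at h4
    exact h4

omit [Finite G] h in
theorem mem_sylow (R : Sylow 2 G) {s : G} (hs : orderOf s = 2) (hsR : s ∈ normalizer ((R : Subgroup G) : Set G)) : s ∈ (R : Subgroup G) := by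
  haveI : Fact (Nat.Prime 2) := ⟨Nat.prime_two⟩
  have h1 : IsPGroup 2 (zpowers s) := by
    apply IsPGroup.of_card (n := 1)
    rw [Nat.card_zpowers, hs, pow_one]
  have h2 : IsPGroup 2 ↥(zpowers s ⊔ (R : Subgroup G)) :=
    h1.to_sup_of_normal_right' R.isPGroup' (by rw [zpowers_le]; exact hsR)
  have h3 := R.is_maximal' h2 le_sup_right
  have h4 : s ∈ zpowers s ⊔ (R : Subgroup G) := mem_sup_left (mem_zpowers s)
  rw [h3] at h4; exact h4

theorem se : Cfsg.IsStronglyEmbedded (normalizer ((T : Subgroup G) : Set G)) := by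
  haveI : Fact (Nat.Prime 2) := ⟨Nat.prime_two⟩
  refine ⟨fun h1 => h.nn (Subgroup.normalizer_eq_top_iff.1 h1), ?_, ?_⟩
  · obtain ⟨z, hz, hzo, -⟩ := h.exists_central
    have h3 := _root_.orderOf_dvd_natCard (⟨_, le_normalizer hz⟩ : normalizer ((T : Subgroup G) : Set G))
    rw [Subgroup.orderOf_mk, hzo] at h3
    exact even_iff_two_dvd.2 h3
  · intro g hg
    by_contra hodd
    rw [Nat.not_odd_iff_even, even_iff_two_dvd] at hodd
    obtain ⟨⟨t, ht⟩, hto⟩ := exists_prime_orderOf_dvd_card' 2 hodd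
    rw [Subgroup.orderOf_mk] at hto
    obtain ⟨ht1, ⟨y, hy, hyt⟩⟩ := ht
    have h1 : t ∈ (T : Subgroup G) := mem_sylow T hto ht1
    have h2 : t ∈ ((g • T : Sylow 2 G) : Subgroup G) := by
      apply mem_sylow _ hto
      rw [← hyt]
      have h3 : ((g • T : Sylow 2 G) : Subgroup G) = (T : Subgroup G).map (MulAut.conj g).toMonoidHom := rfl
      rw [h3, ← Subgroup.map_equiv_normalizer_eq]
      exact ⟨y, hy, rfl⟩
    have h3 := h.cent_eq hto h1
    have h4 := (h.conj g).cent_eq hto h2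
    rw [h3] at h4
    apply hg
    have h5 : g • T = T := Sylow.ext h4.symm
    exact Sylow.smul_eq_iff_mem_normalizer.1 h5

theorem card_cent {g : G} (hg : orderOf g = 2) : Nat.card (centralizer ({g} : Set G)) = Nat.card T := by
  haveI : Fact (Nat.Prime 2) := ⟨Nat.prime_two⟩
  have h1 : IsPGroup 2 (zpowers g) := by
    apply IsPGroup.of_card (n := 1)
    rw [Nat.card_zpowers, hg, pow_one]
  obtain ⟨R, hR⟩ := h1.exists_le_sylow
  obtain ⟨x, rfl⟩ := MulAction.exists_smul_eq G T R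
  rw [(h.conj x).cent_eq hg (hR (mem_zpowers g))]
  exact Nat.card_congr ((T : Subgroup G).equivMapOfInjective (MulAut.conj x).toMonoidHom (MulAut.conj x).injective).symm.toEquiv

theorem four_le : 4 ≤ Nat.card T := by
  haveI : Fact (Nat.Prime 2) := ⟨Nat.prime_two⟩
  obtain ⟨k, hk⟩ := IsPGroup.iff_card.1 T.isPGroup'
  rcases k with _ | _ | k
  · exfalso
    apply h.nc
    rw [pow_zero] at hk
    haveI := (Nat.card_eq_one_iff_unique.1 hk).1
    infer_instance
  · exfalso
    apply h.nc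
    exact isCyclic_of_prime_card (p := 2) (by rw [hk, zero_add, pow_one])
  · have : Nat.card T = 2 ^ (k + 2) := hk
    rw [this, pow_add]
    have : 1 ≤ 2 ^ k := Nat.one_le_two_pow
    omega

theorem exists_out : ∃ u : G, orderOf u = 2 ∧ u ∉ normalizer ((T : Subgroup G) : Set G) := by
  by_contra hcon
  push Not at hcon
  apply h.nn
  refine ⟨fun t ht g => ?_⟩
  by_cases ht1 : t = 1
  · rw [ht1, mul_one, mul_inv_cancel]; exact one_mem _
  · have h1 := order_of_mem' (h.sq ht) ht1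
    have h2 : orderOf (g * t * g⁻¹) = 2 := by rw [CfsgLib.Invol.orderOf_conj]; exact h1
    exact mem_sylow T h2 (hcon _ h2)

theorem card_G : Nat.card {a : G // orderOf a = 2} * Nat.card T = Nat.card G := by
  obtain ⟨u, hu, huH⟩ := h.exists_out
  obtain ⟨z, hz, hzo, -⟩ := h.exists_central
  rw [← h.card_cent hzo, ← CfsgLib.Invol.card_conj_mul_card_centralizer z]
  congr 1
  apply Nat.card_congr
  refine Equiv.subtypeEquivRight fun a => ⟨fun ha => isConj_of h.se hu huH hzo ha, fun ha => ?_⟩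
  rw [← CfsgLib.Invol.orderOf_of_isConj ha]; exact hzo

theorem card_inv_H : Nat.card {t : G // orderOf t = 2 ∧ t ∈ normalizer ((T : Subgroup G) : Set G)} + 1 = Nat.card T := by
  classical
  haveI : Fintype (T : Subgroup G) := Fintype.ofFinite _
  have h1 : Nat.card {t : G // orderOf t = 2 ∧ t ∈ normalizer ((T : Subgroup G) : Set G)} = Nat.card {t : (T : Subgroup G) // t ≠ 1} := by
    apply Nat.card_congr
    refine ⟨fun t => ⟨⟨t, mem_sylow T t.2.1 t.2.2⟩, fun h1 => ?_⟩, fun t => ⟨t.1, order_of_mem' (h.sq t.1.2) (fun h1 => t.2 (Subtype.ext h1)), le_normalizer t.1.2⟩,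
      fun _ => rfl, fun _ => rfl⟩
    have h2 : (t : G) = 1 := congrArg Subtype.val h1
    have h3 := t.2.1
    rw [h2, orderOf_one] at h3
    omega
  rw [h1, Nat.card_eq_fintype_card, Nat.card_eq_fintype_card, Fintype.card_subtype_compl, Fintype.card_subtype_eq]
  have : 1 ≤ Fintype.card (T : Subgroup G) := Fintype.card_pos
  omega

end ZT

/-- the subgroup `D = H ∩ H^u` -/
def DD (T : Sylow 2 G) (u : G) : Subgroup G := normalizer ((T : Subgroup G) : Set G) ⊓ (normalizer ((T : Subgroup G) : Set G)).map (MulAut.conj u).toMonoidHom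

namespace ZT

variable {T : Sylow 2 G} (h : ZT T) {u : G} (hu : orderOf u = 2) (huH : u ∉ normalizer ((T : Subgroup G) : Set G))

include h hu huH

theorem mk_ne : (QuotientGroup.mk 1 : G ⧸ normalizer ((T : Subgroup G) : Set G)) ≠ QuotientGroup.mk u := by
  rw [Ne, QuotientGroup.eq, inv_one, one_mul]; exact huH

theorem mem_DD {d : G} : d ∈ DD T u ↔ d • (QuotientGroup.mk 1 : G ⧸ normalizer ((T : Subgroup G) : Set G)) = QuotientGroup.mk 1 ∧
    d • (QuotientGroup.mk u : G ⧸ normalizer ((T : Subgroup G) : Set G)) = QuotientGroup.mk u := by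
  rw [← mem_iff_fix, ← mem_conj_map]; rfl

theorem DD_no_inv {d : G} (hd : d ∈ DD T u) : orderOf d ≠ 2 := by
  intro hdo
  obtain ⟨h1, h2⟩ := (mem_DD h hu huH).1 hd
  exact mk_ne h hu huH (fix_unique h.se hdo h1 h2)

theorem DD_inf {d : G} (hd : d ∈ DD T u) (hdT : d ∈ (T : Subgroup G)) : d = 1 := by
  by_contra hd1
  exact DD_no_inv h hu huH hd (order_of_mem' (h.sq hdT) hd1)

theorem DD_free {d t : G} (hd : d ∈ DD T u) (ht : t ∈ (T : Subgroup G)) (ht1 : t ≠ 1) (hdt : d * t = t * d) : d = 1 := by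
  apply DD_inf h hu huH hd
  rw [← h.cent_eq (order_of_mem' (h.sq ht) ht1) ht, mem_C]
  exact hdt

theorem card_DD : Nat.card (DD T u) + 1 = Nat.card T := by
  rw [← h.card_inv_H]
  congr 1
  obtain ⟨z, hz, hzo, -⟩ := h.exists_central
  have hz1 : z ≠ 1 := by rintro rfl; rw [orderOf_one] at hzo; omega
  apply Nat.card_congr
  refine Equiv.ofBijective (fun d => ⟨(d : G) * z * (d : G)⁻¹, ?_, ?_⟩) ⟨?_, ?_⟩
  · rw [CfsgLib.Invol.orderOf_conj]; exact hzo
  · exact mul_mem (mul_mem d.2.1 (le_normalizer hz)) (inv_mem d.2.1)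
  · rintro ⟨d, hd⟩ ⟨e, he⟩ hde
    have h1 : d * z * d⁻¹ = e * z * e⁻¹ := congrArg Subtype.val hde
    apply Subtype.ext
    have h2 : (e⁻¹ * d) * z = z * (e⁻¹ * d) := by
      have := congrArg (fun w => e⁻¹ * w * d) h1
      simpa [mul_assoc] using this
    have h3 := DD_free h hu huH (mul_mem (inv_mem he) hd) hz hz1 h2
    exact (inv_mul_eq_one.1 h3).symm
  · rintro ⟨t, ht, htH⟩
    obtain ⟨d, hd, hdt⟩ := conj_in_D h.se hu huH hzo (le_normalizer hz) ht htH
    exact ⟨⟨d, hd⟩, Subtype.ext hdt⟩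

theorem exists_mul {x : G} (hx : x ∈ normalizer ((T : Subgroup G) : Set G)) : ∃ d ∈ DD T u, ∃ t ∈ (T : Subgroup G), x = d * t := by
  obtain ⟨z, hz, hzo, -⟩ := h.exists_central
  obtain ⟨d, hd, hdt⟩ := conj_in_D h.se hu huH hzo (le_normalizer hz) (t := x * z * x⁻¹) (by rw [CfsgLib.Invol.orderOf_conj]; exact hzo)
    (mul_mem (mul_mem hx (le_normalizer hz)) (inv_mem hx))
  refine ⟨d, hd, d⁻¹ * x, ?_, by group⟩
  rw [← h.cent_eq hzo hz, mem_C]
  have : d⁻¹ * (d * z * d⁻¹) * x = d⁻¹ * (x * z * x⁻¹) * x := by rw [hdt]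
  have e1 : d⁻¹ * (d * z * d⁻¹) * x = z * (d⁻¹ * x) := by group
  have e2 : d⁻¹ * (x * z * x⁻¹) * x = d⁻¹ * x * z := by group
  rw [e1, e2] at this
  exact this.symm

theorem isCompl : IsComplement' ((DD T u).subgroupOf (normalizer ((T : Subgroup G) : Set G))) ((T : Subgroup G).subgroupOf (normalizer ((T : Subgroup G) : Set G))) := by
  apply isComplement'_of_disjoint_and_mul_eq_univ
  · rw [disjoint_iff, eq_bot_iff]
    rintro ⟨x, hx⟩ ⟨h1, h2⟩
    exact Subtype.ext (DD_inf h hu huH h1 h2)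
  · rw [Set.eq_univ_iff_forall]
    rintro ⟨x, hx⟩
    obtain ⟨d, hd, t, ht, hxd⟩ := exists_mul h hu huH hx
    exact ⟨⟨d, hd.1⟩, hd, ⟨t, le_normalizer ht⟩, ht, Subtype.ext hxd.symm⟩

theorem card_H : Nat.card (normalizer ((T : Subgroup G) : Set G)) = Nat.card T * (Nat.card T - 1) := by
  have h1 := (isCompl h hu huH).card_mul
  have hle : DD T u ≤ normalizer ((T : Subgroup G) : Set G) := inf_le_left
  rw [Nat.card_congr (subgroupOfEquivOfLe hle).toEquiv, Nat.card_congr (subgroupOfEquivOfLe le_normalizer).toEquiv] at h1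
  have h2 := card_DD h hu huH
  rw [← h1, ← h2, Nat.add_sub_cancel, mul_comm]

theorem inv_D {d : G} (hd : d ∈ DD T u) : u * d * u⁻¹ = d⁻¹ := by
  have hu2 := mul_self_of_orderOf hu
  have hui := inv_eq_of_mul_self hu2
  have hux : u • (QuotientGroup.mk 1 : G ⧸ normalizer ((T : Subgroup G) : Set G)) = QuotientGroup.mk u := by
    rw [MulAction.Quotient.smul_mk, smul_eq_mul, mul_one]
  have huy : u • (QuotientGroup.mk u : G ⧸ normalizer ((T : Subgroup G) : Set G)) = QuotientGroup.mk 1 := by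
    rw [← hux, ← mul_smul, hu2, one_smul]
  have h1 := card_swap h.se _ _ (mk_ne h hu huH)
  have h2 : Nat.card (DD T u) = Nat.card {i : G // orderOf i = 2 ∧ i • (QuotientGroup.mk 1 : G ⧸ normalizer ((T : Subgroup G) : Set G)) = QuotientGroup.mk u} := by
    rw [h1]
    have := card_DD h hu huH
    have := h.card_inv_H
    omega
  let f : {i : G // orderOf i = 2 ∧ i • (QuotientGroup.mk 1 : G ⧸ normalizer ((T : Subgroup G) : Set G)) = QuotientGroup.mk u} → DD T u :=
    fun i => ⟨u * (i : G), by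
      have hiy : (i : G) • (QuotientGroup.mk u : G ⧸ normalizer ((T : Subgroup G) : Set G)) = QuotientGroup.mk 1 := by
        have := congrArg (fun w => (i : G) • w) i.2.2
        simp only [← mul_smul] at this
        rw [mul_self_of_orderOf i.2.1, one_smul] at this
        exact this.symm
      rw [mem_DD h hu huH]
      exact ⟨by rw [mul_smul, i.2.2, huy], by rw [mul_smul, hiy, hux]⟩⟩
  have hf : Function.Injective f := fun i j hij => Subtype.ext (mul_left_cancel (congrArg Subtype.val hij))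
  have hs : Function.Surjective f := (Nat.bijective_iff_injective_and_card f).2 ⟨hf, h2.symm⟩ |>.2
  obtain ⟨⟨i, hi, hix⟩, hid⟩ := hs ⟨d, hd⟩
  have h3 : u * i = d := congrArg Subtype.val hid
  have hii := inv_eq_of_mul_self (mul_self_of_orderOf hi)
  rw [← h3, mul_inv_rev, hii, hui, ← mul_assoc, hu2, one_mul]

end ZT

end CfsgLib.H9ZT
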