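import Cfsg.Agent.Lib.H9ZT2
set_option autoImplicit false
set_option maxHeartbeats 400000

/-! groups in which the centralizer of every involution is an elementary abelian 2-group, III: counting. -/

namespace CfsgLib.H9ZT

open Subgroup CfsgLib.Invol CfsgLib.H9SE

universe u

theorem ineq {r m J : ℤ} (hr : 3 ≤ r) (hm : 1 ≤ m) (hJ : 1 ≤ J) (h : 2 ≤ m ∨ 2 ≤ J) :
    (r + 1) * (m * r + (2 + J * r)) ≤ 2 * ((m * r) * (2 + J * r)) := by
  have key : 2 ≤ m → (r + 1) * (m * r + (2 + J * r)) ≤ 2 * ((m * r) * (2 + J * r)) := by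
    intro h2
    have e : 2 * ((m * r) * (2 + J * r)) - (r + 1) * (m * r + (2 + J * r)) =
      m * (J - 1) * (r * r) + J * (m - 2) * (r * r) + J * (r * (r - 1)) + ((3 * m - 2) * r - 2) := by ring
    have p1 : 0 ≤ m * (J - 1) * (r * r) := by
      apply mul_nonneg (mul_nonneg (by omega) (by omega)) (mul_self_nonneg r)
    have p2 : 0 ≤ J * (m - 2) * (r * r) := by
      apply mul_nonneg (mul_nonneg (by omega) (by omega)) (mul_self_nonneg r)
    have p3 : 0 ≤ J * (r * (r - 1)) := mul_nonneg (by omega) (mul_nonneg (by omega) (by omega))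
    have p4 : 0 ≤ (3 * m - 2) * r - 2 := by
      have : 4 * 3 ≤ (3 * m - 2) * r := mul_le_mul (by omega) hr (by omega) (by omega)
      omega
    linarith
  rcases h with h | h
  · exact key h
  · rcases (by omega : m = 1 ∨ 2 ≤ m) with h1 | h1
    · subst h1
      have e : 2 * ((1 * r) * (2 + J * r)) - (r + 1) * (1 * r + (2 + J * r)) = (J - 1) * (r * (r - 1)) - 2 := by ring
      have p1 : 1 * (3 * 2) ≤ (J - 1) * (r * (r - 1)) := mul_le_mul (by omega) (mul_le_mul hr (by omega) (by omega) (by omega)) (by omega) (by omega)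
      linarith
    · exact key h1

/-- the arithmetic of the two-class case -/
theorem arith {q I g a1 a2 b1 b2 m : ℕ} (hq : 4 ≤ q) (hI : 0 < I) (hg : I * q = g) (ha1 : a1 = m * (q - 1)) (hm : 0 < m) (ha2 : 3 ≤ a2)
    (hb1 : b1 * (2 * a1) = g * (a1 - 1)) (hb2 : b2 * (2 * a2) = g * (a2 - 1))
    (hc : I * I = I + I * (q - 2) + b1 * a1 + b2 * a2) (hle : 1 + I + b1 + b2 ≤ g) {n : ℕ} (hn : g = n * (q * (q - 1))) :
    m = 1 ∧ n = q + 1 := by
  obtain ⟨r, rfl⟩ : ∃ r, q = r + 1 := ⟨q - 1, by omega⟩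
  rw [Nat.add_sub_cancel] at *
  subst ha1
  have hr : 3 ≤ r := by omega
  have hma : 1 ≤ m * r := by nlinarith
  -- I = n r
  have hIn : I = n * r := by
    have : I * (r + 1) = n * r * (r + 1) := by rw [hg, hn]; ring
    exact Nat.eq_of_mul_eq_mul_right (by omega) this
  have hg' : g = I * (r + 1) := hg.symm
  obtain ⟨A, hA⟩ : ∃ A, m * r = A + 1 := ⟨m * r - 1, by omega⟩
  obtain ⟨B, rfl⟩ : ∃ B, a2 = B + 1 := ⟨a2 - 1, by omega⟩
  rw [hA] at hb1 hc
  rw [Nat.add_sub_cancel] at hb1 hb2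
  have hr2 : r + 1 - 2 = r - 1 := by omega
  rw [hr2] at hc
  obtain ⟨s, rfl⟩ : ∃ s, r = s + 1 := ⟨r - 1, by omega⟩
  rw [Nat.add_sub_cancel] at hc
  -- 2 I = 2 r + (r+1) (A + B)
  have h1 : I * (2 * I) = I * (2 * (s + 1) + (s + 1 + 1) * (A + B)) := by
    have e1 : I * (2 * I) = 2 * (I * I) := by ring
    rw [e1, hc]
    have e2 : 2 * (I + I * s + b1 * (A + 1) + b2 * (B + 1)) = 2 * I * (s + 1) + b1 * (2 * (A + 1)) + b2 * (2 * (B + 1)) := by ring
    rw [e2, hb1, hb2, hg']
    ring
  have h2 := Nat.eq_of_mul_eq_mul_left hI h1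
  -- r divides A + B
  have h3 : (s + 1) ∣ (s + 1 + 1) * (A + B) := by
    have : (s + 1) ∣ 2 * I := ⟨2 * n, by rw [hIn]; ring⟩
    rw [h2] at this
    exact (Nat.dvd_add_right ⟨2, by ring⟩).1 this
  have h4 : (s + 1) ∣ A + B := by
    have hcop : Nat.Coprime (s + 1) (s + 1 + 1) := by
      rw [Nat.coprime_self_add_right]; exact Nat.coprime_one_right _
    exact hcop.dvd_of_dvd_mul_left h3
  -- B = 1 + j r
  have h5 : (s + 1) ∣ (m * (s + 1)) + B - 1 := by
    rw [hA]
    have : A + 1 + B - 1 = A + B := by omega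
    rw [this]; exact h4
  obtain ⟨k, hk⟩ := h5
  have hkm : B = 1 + (k - m) * (s + 1) ∧ m < k := by
    have h6 : m * (s + 1) + B - 1 = (s + 1) * k := hk
    have h7 : m * (s + 1) + B = (s + 1) * k + 1 := by omega
    have h8 : m < k := by
      by_contra hcon
      push Not at hcon
      have : (s + 1) * k ≤ m * (s + 1) := by rw [mul_comm]; exact Nat.mul_le_mul_right _ hcon
      omega
    obtain ⟨j, rfl⟩ : ∃ j, k = m + j := ⟨k - m, by omega⟩
    refine ⟨?_, h8⟩
    rw [Nat.add_sub_cancel_left]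
    nlinarith
  obtain ⟨hB, hmk⟩ := hkm
  obtain ⟨j, rfl⟩ : ∃ j, k = m + (j + 1) := ⟨k - m - 1, by omega⟩
  rw [Nat.add_sub_cancel_left] at hB
  have hg0 : 0 < g := by rw [hg']; positivity
  -- the main inequality
  have h6 : 2 * ((A + 1) * (B + 1)) < (s + 1 + 1) * ((A + 1) + (B + 1)) := by
    by_contra hcon
    push Not at hcon
    have h7 : (1 + I + b1 + b2) * ((s + 1 + 1) * (2 * ((A + 1) * (B + 1)))) ≤ g * ((s + 1 + 1) * (2 * ((A + 1) * (B + 1)))) :=
      Nat.mul_le_mul_right _ hle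
    have e1 : (1 + I + b1 + b2) * ((s + 1 + 1) * (2 * ((A + 1) * (B + 1)))) =
        (s + 1 + 1) * (2 * ((A + 1) * (B + 1))) + (I * (s + 1 + 1)) * (2 * ((A + 1) * (B + 1))) +
          (b1 * (2 * (A + 1))) * ((s + 1 + 1) * (B + 1)) + (b2 * (2 * (B + 1))) * ((s + 1 + 1) * (A + 1)) := by ring
    rw [e1, hb1, hb2, ← hg'] at h7
    have h8 : g * (2 * ((A + 1) * (B + 1))) + g * A * ((s + 1 + 1) * (B + 1)) + g * B * ((s + 1 + 1) * (A + 1)) <
        g * ((s + 1 + 1) * (2 * ((A + 1) * (B + 1)))) := by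
      have : 0 < (s + 1 + 1) * (2 * ((A + 1) * (B + 1))) := by positivity
      omega
    have e2 : g * (2 * ((A + 1) * (B + 1))) + g * A * ((s + 1 + 1) * (B + 1)) + g * B * ((s + 1 + 1) * (A + 1)) =
        g * (2 * ((A + 1) * (B + 1)) + A * ((s + 1 + 1) * (B + 1)) + B * ((s + 1 + 1) * (A + 1))) := by ring
    rw [e2] at h8
    have h9 := lt_of_mul_lt_mul_left h8 (Nat.zero_le g)
    nlinarith
  have hm1 : m = 1 ∧ j = 0 := by
    rw [← hA, hB] at h6
    by_contra hcon
    have h10 : 2 ≤ (m : ℤ) ∨ 2 ≤ ((j : ℤ) + 1) := by omega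
    have h12 := ineq (r := (s : ℤ) + 1) (m := m) (J := (j : ℤ) + 1) (by omega) (by omega) (by omega) h10
    have h13 : ((s + 1 + 1 : ℕ) : ℤ) * (((m * (s + 1) : ℕ) : ℤ) + ((1 + (j + 1) * (s + 1) + 1 : ℕ) : ℤ)) ≤
        2 * (((m * (s + 1) : ℕ) : ℤ) * ((1 + (j + 1) * (s + 1) + 1 : ℕ) : ℤ)) := by
      push_cast
      linarith
    have h14 : (s + 1 + 1) * ((m * (s + 1)) + (1 + (j + 1) * (s + 1) + 1)) ≤ 2 * ((m * (s + 1)) * (1 + (j + 1) * (s + 1) + 1)) := by
      exact_mod_cast h13
    omega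
  obtain ⟨rfl, rfl⟩ := hm1
  refine ⟨rfl, ?_⟩
  rw [hIn, hB] at h2
  have hA' : A = s := by omega
  rw [hA'] at h2
  have h11 : (2 * (s + 1)) * n = (2 * (s + 1)) * (s + 1 + 1 + 1) := by nlinarith
  exact Nat.eq_of_mul_eq_mul_left (by omega) h11

theorem arith1 {q I g a1 b1 : ℕ} (hq : 4 ≤ q) (hI : 0 < I) (hg : I * q = g) (ha1 : (q - 1) ∣ a1) (ha1' : 0 < a1)
    (hb1 : b1 * (2 * a1) = g * (a1 - 1)) (hc : I * I = I + I * (q - 2) + b1 * a1) {n : ℕ} (hn : g = n * (q * (q - 1))) : False := by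
  obtain ⟨s, rfl⟩ : ∃ s, q = s + 2 := ⟨q - 2, by omega⟩
  rw [Nat.add_sub_cancel] at hc
  have e1 : s + 2 - 1 = s + 1 := by omega
  rw [e1] at ha1 hn
  have hIn : I = n * (s + 1) := by
    have : I * (s + 2) = n * (s + 1) * (s + 2) := by rw [hg, hn]; ring
    exact Nat.eq_of_mul_eq_mul_right (by omega) this
  obtain ⟨A, rfl⟩ : ∃ A, a1 = A + 1 := ⟨a1 - 1, by omega⟩
  rw [Nat.add_sub_cancel] at hb1
  have h1 : I * (2 * I) = I * (2 * (s + 1) + (s + 2) * A) := by
    have e1 : I * (2 * I) = 2 * (I * I) := by ring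
    rw [e1, hc]
    have e2 : 2 * (I + I * s + b1 * (A + 1)) = 2 * I * (s + 1) + b1 * (2 * (A + 1)) := by ring
    rw [e2, hb1, ← hg]
    ring
  have h2 := Nat.eq_of_mul_eq_mul_left hI h1
  have h3 : (s + 1) ∣ (s + 2) * A := by
    have : (s + 1) ∣ 2 * I := ⟨2 * n, by rw [hIn]; ring⟩
    rw [h2] at this
    exact (Nat.dvd_add_right ⟨2, by ring⟩).1 this
  have h4 : (s + 1) ∣ A := by
    have hcop : Nat.Coprime (s + 1) (s + 2) := by
      rw [show s + 2 = s + 1 + 1 by ring, Nat.coprime_self_add_right]; exact Nat.coprime_one_right _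
    exact hcop.dvd_of_dvd_mul_left h3
  have h5 : (s + 1) ∣ 1 := (Nat.dvd_add_right h4).1 ha1
  have := Nat.le_of_dvd one_pos h5
  omega

variable {G : Type u} [Group G] [Finite G]

omit [Group G] in
theorem sum_ind [Fintype G] (S : Set G) [DecidablePred (· ∈ S)] (x : ℕ) : ∑ g : G, (if g ∈ S then x else 0) = Nat.card S * x := by
  classical
  rw [← Finset.sum_filter, Finset.sum_const, smul_eq_mul]
  congr 1
  haveI : Fintype S := Fintype.ofFinite _
  rw [Nat.card_eq_fintype_card, ← Set.toFinset_card]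
  congr 1
  ext g
  simp

namespace ZT

variable {T : Sylow 2 G} (h : ZT T) {u : G} (hu : orderOf u = 2) (huH : u ∉ normalizer ((T : Subgroup G) : Set G))

include h

theorem Rl_three {c : G} (hc : Rl c) : 3 ≤ Nat.card (centralizer ({c} : Set G)) := by
  have h1 := hc.odd h.hc
  have h2 : 1 < Nat.card (centralizer ({c} : Set G)) := by
    rw [Subgroup.one_lt_card_iff_ne_bot]
    intro h3
    apply hc.1
    rw [← Subgroup.mem_bot, ← h3]
    exact mem_C.2 rfl
  obtain ⟨k, hk⟩ := h1
  omega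

theorem UU_third {c : G} (hc : Rl c) : Nat.card G ≤ 3 * Nat.card (UU c) := by
  have h1 := card_UU h.hc hc
  have h2 := h.Rl_three hc
  obtain ⟨A, hA⟩ : ∃ A, Nat.card (centralizer ({c} : Set G)) = A + 3 := ⟨Nat.card (centralizer ({c} : Set G)) - 3, by omega⟩
  rw [hA] at h1
  have e : A + 3 - 1 = A + 2 := by omega
  rw [e] at h1
  by_contra hcon
  push Not at hcon
  have h3 : 3 * Nat.card (UU c) * (A + 2) < Nat.card G * (A + 2) := by
    apply Nat.mul_lt_mul_of_pos_right hcon
    omega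
  nlinarith

theorem inv_pos' : 0 < Nat.card {a : G // orderOf a = 2} := by
  obtain ⟨z, hz, hzo, -⟩ := h.exists_central
  haveI : Nonempty {a : G // orderOf a = 2} := ⟨⟨z, hzo⟩⟩
  exact Nat.card_pos

/-- a real element is not an involution -/
theorem Rl_ne_two {c : G} (hc : Rl c) : orderOf c ≠ 2 := by
  intro h1
  have h2 := hc.2.1
  rw [h1] at h2
  exact absurd h2 (by decide)

theorem NN_inv' {g : G} (hg : orderOf g = 2) : NN g = Nat.card T - 2 := by
  have h1 := NN_inv hg (fun x hx => h.hc.sq hg hx)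
  rw [h.card_cent hg] at h1
  omega

/-- no three classes -/
theorem two_classes {c₁ c₂ c₃ : G} (h1 : Rl c₁) (h2 : Rl c₂) (h3 : Rl c₃) (h12 : c₂ ∉ UU c₁) : c₃ ∈ UU c₁ ∨ c₃ ∈ UU c₂ := by
  classical
  by_contra hcon
  push Not at hcon
  haveI : Fintype G := Fintype.ofFinite G
  have hsum : ∑ g : G, ((if g ∈ ({1} : Set G) then 1 else 0) + (if g ∈ UU c₁ then 1 else 0) + (if g ∈ UU c₂ then 1 else 0) + (if g ∈ UU c₃ then 1 else 0)) ≤ ∑ g : G, 1 := by
    apply Finset.sum_le_sum
    intro g _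
    by_cases g0 : g ∈ ({1} : Set G)
    · have hg : g = 1 := g0
      subst hg
      have n1 : (1 : G) ∉ UU c₁ := fun h' => (UU_Rl h.hc h1 h').1 rfl
      have n2 : (1 : G) ∉ UU c₂ := fun h' => (UU_Rl h.hc h2 h').1 rfl
      have n3 : (1 : G) ∉ UU c₃ := fun h' => (UU_Rl h.hc h3 h').1 rfl
      rw [if_pos g0, if_neg n1, if_neg n2, if_neg n3]
    · rw [if_neg g0]
      by_cases g1 : g ∈ UU c₁
      · have n2 : g ∉ UU c₂ := fun h' => h12 (mem_UU_of_mem h.hc h1 h2 g1 h')
        have n3 : g ∉ UU c₃ := fun h' => hcon.1 (mem_UU_of_mem h.hc h1 h3 g1 h')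
        rw [if_pos g1, if_neg n2, if_neg n3]
      · by_cases g2 : g ∈ UU c₂
        · have n3 : g ∉ UU c₃ := fun h' => hcon.2 (mem_UU_of_mem h.hc h2 h3 g2 h')
          rw [if_neg g1, if_pos g2, if_neg n3]
        · rw [if_neg g1, if_neg g2]
          split_ifs <;> omega
  rw [Finset.sum_add_distrib, Finset.sum_add_distrib, Finset.sum_add_distrib, sum_ind, sum_ind, sum_ind, sum_ind, Finset.sum_const, Finset.card_univ,
    ← Nat.card_eq_fintype_card, smul_eq_mul, mul_one, mul_one, mul_one, mul_one, mul_one] at hsum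
  have e1 : Nat.card ({1} : Set G) = 1 := by simp
  rw [e1] at hsum
  have b1 := h.UU_third h1
  have b2 := h.UU_third h2
  have b3 := h.UU_third h3
  omega

include hu huH

theorem DD_comm {d e : G} (hd : d ∈ DD T u) (he : e ∈ DD T u) : d * e = e * d := by
  have h1 := inv_D h hu huH hd
  have h2 := inv_D h hu huH he
  have h3 := inv_D h hu huH (mul_mem hd he)
  have h4 : u * (d * e) * u⁻¹ = d⁻¹ * e⁻¹ := by rw [← h1, ← h2]; group
  rw [h4, ← mul_inv_rev] at h3
  exact (inv_injective h3).symm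

theorem DD_Rl {d : G} (hd : d ∈ DD T u) (hd1 : d ≠ 1) : Rl d := by
  haveI : Fact (Nat.Prime 2) := ⟨Nat.prime_two⟩
  refine ⟨hd1, ?_, u, hu, inv_D h hu huH hd⟩
  rw [← Nat.not_even_iff_odd]
  intro he
  obtain ⟨m, hm⟩ := he
  have hpos : 0 < orderOf d := orderOf_pos d
  apply DD_no_inv h hu huH (pow_mem hd m)
  refine orderOf_eq_prime ?_ ?_
  · rw [← pow_mul, mul_two, ← hm, pow_orderOf_eq_one]
  · intro h1
    have h2 := Nat.le_of_dvd (by omega) (orderOf_dvd_of_pow_eq_one h1)
    omega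

theorem main : (∀ d ∈ DD T u, d ≠ 1 → Nat.card (centralizer ({d} : Set G)) = Nat.card T - 1) ∧
    (normalizer ((T : Subgroup G) : Set G)).index = Nat.card T + 1 := by
  classical
  haveI : Fintype G := Fintype.ofFinite G
  have hq := h.four_le
  have hcD := card_DD h hu huH
  have hcH := card_H h hu huH
  set H := normalizer ((T : Subgroup G) : Set G) with hH
  set q := Nat.card T with hqd
  have hcG : Nat.card G = H.index * (q * (q - 1)) := by rw [← hcH, mul_comm, H.card_mul_index]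
  have hIq := h.card_G
  set I := Nat.card {a : G // orderOf a = 2} with hI
  have hIpos : 0 < I := h.inv_pos'
  have key : ∀ d ∈ DD T u, d ≠ 1 → Nat.card (centralizer ({d} : Set G)) = q - 1 ∧ H.index = q + 1 := by
    intro d hd hd1
    have hdR := DD_Rl h hu huH hd hd1
    have hdvd : (q - 1) ∣ Nat.card (centralizer ({d} : Set G)) := by
      have h1 : DD T u ≤ centralizer ({d} : Set G) := fun e he => mem_C.2 (DD_comm h hu huH he hd)
      have h2 := card_dvd_of_le h1
      have h3 : Nat.card (DD T u) = q - 1 := by omega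
      rwa [h3] at h2
    have hb1 := card_UU h.hc hdR
    by_cases hall : ∀ c : G, Rl c → c ∈ UU d
    · exfalso
      have hsum := sum_NN (G := G)
      have h1 : ∀ g : G, NN g = (if g ∈ ({1} : Set G) then I else 0) + (if g ∈ {a : G | orderOf a = 2} then (q - 2) else 0) +
          (if g ∈ UU d then Nat.card (centralizer ({d} : Set G)) else 0) := by
        intro g
        by_cases g0 : g = 1
        · have n1 : (1 : G) ∉ {a : G | orderOf a = 2} := by
            intro h'; have h'' : orderOf (1 : G) = 2 := h'; rw [orderOf_one] at h''; omega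
          have n2 : (1 : G) ∉ UU d := fun h' => (UU_Rl h.hc hdR h').1 rfl
          rw [g0, NN_one, if_pos (Set.mem_singleton _), if_neg n1, if_neg n2]
          rfl
        · rw [if_neg (show g ∉ ({1} : Set G) from g0)]
          by_cases g1 : orderOf g = 2
          · have n2 : g ∉ UU d := fun h' => h.Rl_ne_two (UU_Rl h.hc hdR h') g1
            rw [if_pos (show g ∈ {a : G | orderOf a = 2} from g1), if_neg n2, h.NN_inv' g1]; omega
          · rw [if_neg (show g ∉ {a : G | orderOf a = 2} from g1)]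
            by_cases g2 : Rl g
            · rw [if_pos (hall g g2), NN_Rl h.hc g2, UU_card_cent h.hc hdR (hall g g2)]; omega
            · rw [if_neg (fun h' => g2 (UU_Rl h.hc hdR h')), NN_zero h.hc g0 g1 g2]
      rw [Finset.sum_congr rfl (fun g _ => h1 g), Finset.sum_add_distrib, Finset.sum_add_distrib, sum_ind, sum_ind, sum_ind] at hsum
      have e1 : Nat.card ({1} : Set G) = 1 := by simp
      have e2 : Nat.card {a : G | orderOf a = 2} = I := rfl
      rw [e1, e2, one_mul] at hsum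
      exact arith1 hq hIpos hIq hdvd Nat.card_pos hb1 hsum.symm hcG
    · push Not at hall
      obtain ⟨c, hc, hcd⟩ := hall
      have hb2 := card_UU h.hc hc
      have hdisj : ∀ g, g ∈ UU d → g ∉ UU c := fun g h1 h2 => hcd (mem_UU_of_mem h.hc hdR hc h1 h2)
      have hsum := sum_NN (G := G)
      have h1 : ∀ g : G, NN g = (if g ∈ ({1} : Set G) then I else 0) + (if g ∈ {a : G | orderOf a = 2} then (q - 2) else 0) +
          (if g ∈ UU d then Nat.card (centralizer ({d} : Set G)) else 0) + (if g ∈ UU c then Nat.card (centralizer ({c} : Set G)) else 0) := by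
        intro g
        by_cases g0 : g = 1
        · have n1 : (1 : G) ∉ {a : G | orderOf a = 2} := by
            intro h'; have h'' : orderOf (1 : G) = 2 := h'; rw [orderOf_one] at h''; omega
          have n2 : (1 : G) ∉ UU d := fun h' => (UU_Rl h.hc hdR h').1 rfl
          have n3 : (1 : G) ∉ UU c := fun h' => (UU_Rl h.hc hc h').1 rfl
          rw [g0, NN_one, if_pos (Set.mem_singleton _), if_neg n1, if_neg n2, if_neg n3]
          rfl
        · rw [if_neg (show g ∉ ({1} : Set G) from g0)]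
          by_cases g1 : orderOf g = 2
          · have n2 : g ∉ UU d := fun h' => h.Rl_ne_two (UU_Rl h.hc hdR h') g1
            have n3 : g ∉ UU c := fun h' => h.Rl_ne_two (UU_Rl h.hc hc h') g1
            rw [if_pos (show g ∈ {a : G | orderOf a = 2} from g1), if_neg n2, if_neg n3, h.NN_inv' g1]; omega
          · rw [if_neg (show g ∉ {a : G | orderOf a = 2} from g1)]
            by_cases g2 : Rl g
            · rcases h.two_classes hdR hc g2 hcd with g3 | g3
              · rw [if_pos g3, if_neg (hdisj g g3), NN_Rl h.hc g2, UU_card_cent h.hc hdR g3]; omega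
              · rw [if_neg (fun h' => hdisj g h' g3), if_pos g3, NN_Rl h.hc g2, UU_card_cent h.hc hc g3]; omega
            · rw [if_neg (fun h' => g2 (UU_Rl h.hc hdR h')), if_neg (fun h' => g2 (UU_Rl h.hc hc h')), NN_zero h.hc g0 g1 g2]
      rw [Finset.sum_congr rfl (fun g _ => h1 g), Finset.sum_add_distrib, Finset.sum_add_distrib, Finset.sum_add_distrib, sum_ind, sum_ind, sum_ind, sum_ind] at hsum
      have e1 : Nat.card ({1} : Set G) = 1 := by simp
      have e2 : Nat.card {a : G | orderOf a = 2} = I := rfl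
      rw [e1, e2, one_mul] at hsum
      have hle : ∑ g : G, ((if g ∈ ({1} : Set G) then 1 else 0) + (if g ∈ {a : G | orderOf a = 2} then 1 else 0) + (if g ∈ UU d then 1 else 0) + (if g ∈ UU c then 1 else 0)) ≤ ∑ g : G, 1 := by
        apply Finset.sum_le_sum
        intro g _
        by_cases g0 : g = 1
        · subst g0
          have n1 : (1 : G) ∉ {a : G | orderOf a = 2} := by
            intro h'; have h'' : orderOf (1 : G) = 2 := h'; rw [orderOf_one] at h''; omega
          have n2 : (1 : G) ∉ UU d := fun h' => (UU_Rl h.hc hdR h').1 rfl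
          have n3 : (1 : G) ∉ UU c := fun h' => (UU_Rl h.hc hc h').1 rfl
          rw [if_pos (Set.mem_singleton _), if_neg n1, if_neg n2, if_neg n3]
        · rw [if_neg (show g ∉ ({1} : Set G) from g0)]
          by_cases g1 : orderOf g = 2
          · have n2 : g ∉ UU d := fun h' => h.Rl_ne_two (UU_Rl h.hc hdR h') g1
            have n3 : g ∉ UU c := fun h' => h.Rl_ne_two (UU_Rl h.hc hc h') g1
            rw [if_pos (show g ∈ {a : G | orderOf a = 2} from g1), if_neg n2, if_neg n3]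
          · rw [if_neg (show g ∉ {a : G | orderOf a = 2} from g1)]
            by_cases g3 : g ∈ UU d
            · rw [if_pos g3, if_neg (hdisj g g3)]
            · rw [if_neg g3]
              split_ifs <;> omega
      rw [Finset.sum_add_distrib, Finset.sum_add_distrib, Finset.sum_add_distrib, sum_ind, sum_ind, sum_ind, sum_ind, Finset.sum_const, Finset.card_univ,
        ← Nat.card_eq_fintype_card, smul_eq_mul, mul_one, mul_one, mul_one, mul_one, mul_one, e1, e2] at hle
      obtain ⟨m, hm⟩ := hdvd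
      have hmpos : 0 < m := by
        rcases Nat.eq_zero_or_pos m with h0 | h0
        · rw [h0, mul_zero] at hm
          have : 0 < Nat.card (centralizer ({d} : Set G)) := Nat.card_pos
          omega
        · exact h0
      obtain ⟨hm1, hn⟩ := arith hq hIpos hIq (by rw [hm, mul_comm]) hmpos (h.Rl_three hc) hb1 hb2 hsum.symm hle hcG
      exact ⟨by rw [hm, hm1, mul_one], hn⟩
  refine ⟨fun d hd hd1 => (key d hd hd1).1, ?_⟩
  obtain ⟨d, hd, hd1⟩ : ∃ d ∈ DD T u, d ≠ 1 := by
    by_contra hcon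
    push Not at hcon
    have : DD T u = ⊥ := by rw [eq_bot_iff]; exact fun d hd => hcon d hd
    rw [this, card_bot] at hcD
    omega
  exact (key d hd hd1).2

end ZT

end CfsgLib.H9ZT
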