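import Mathlib
import Cfsg.Agent.Lib.PermG3
import Cfsg.Agent.Lib.PermG6
import Cfsg.Agent.Lib.LinearGL

set_option autoImplicit false

/-! Sharply 3-transitive groups as Moebius groups. -/
namespace CfsgLib.PermZ1

open MulAction CfsgLib.PermG3 CfsgLib.PermG6 Matrix OnePoint
open scoped LinearAlgebra.Projectivization

universe u

section
variable {F : Type} [Field F] [DecidableEq F]

noncomputable def phi : ProjGenLinGroup (Fin 2) F →* Equiv.Perm (OnePoint F) :=
  ((OnePoint.equivProjectivization F).symm.permCongrHom.toMonoidHom).comp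
    (MulAction.toPermHom (ProjGenLinGroup (Fin 2) F) (ℙ F (Fin 2 → F)))

theorem phi_apply (g : ProjGenLinGroup (Fin 2) F) (x : OnePoint F) :
    phi g x = (OnePoint.equivProjectivization F).symm (g • (OnePoint.equivProjectivization F) x) := rfl

theorem phi_mk (M : GL (Fin 2) F) (x : OnePoint F) : phi (ProjGenLinGroup.mk M) x = M • x := by
  rw [phi_apply]
  rfl

theorem phi_three (g : ProjGenLinGroup (Fin 2) F) (a b c : OnePoint F) (hab : a ≠ b) (hac : a ≠ c) (hbc : b ≠ c)
    (ha : phi g a = a) (hb : phi g b = b) (hc : phi g c = c) : g = 1 := by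
  rw [phi_apply, Equiv.symm_apply_eq] at ha hb hc
  exact CfsgLib.LinearGL.PGL_eq_one_of_fix_three g _ _ _ (fun h => hab ((OnePoint.equivProjectivization F).injective h))
    (fun h => hac ((OnePoint.equivProjectivization F).injective h)) (fun h => hbc ((OnePoint.equivProjectivization F).injective h)) ha hb hc

theorem phi_injective : Function.Injective (phi (F := F)) := by
  rw [injective_iff_map_eq_one]
  intro g hg
  apply phi_three g (∞ : OnePoint F) ((0 : F) : OnePoint F) ((1 : F) : OnePoint F)
  · exact (OnePoint.coe_ne_infty _).symm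
  · exact (OnePoint.coe_ne_infty _).symm
  · intro h; exact zero_ne_one (OnePoint.coe_injective h)
  all_goals rw [hg]; rfl

theorem affine_mem (σ : Equiv.Perm (OnePoint F)) (m t : F) (hm : m ≠ 0) (h1 : σ ∞ = ∞)
    (h2 : ∀ x : F, σ (x : OnePoint F) = ((m * x + t : F) : OnePoint F)) : σ ∈ (phi (F := F)).range := by
  have hdet : (!![m, t; 0, 1] : Matrix (Fin 2) (Fin 2) F).det ≠ 0 := by
    rw [Matrix.det_fin_two_of]; simpa using hm
  refine ⟨ProjGenLinGroup.mk (Matrix.GeneralLinearGroup.mkOfDetNeZero _ hdet), ?_⟩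
  ext x
  rw [phi_mk]
  induction x using OnePoint.rec with
  | infty =>
    rw [h1, OnePoint.smul_infty_eq_self_iff]
    rfl
  | coe x =>
    rw [h2, OnePoint.smul_some_eq_ite]
    simp [Matrix.GeneralLinearGroup.mkOfDetNeZero]

theorem inv_mem (σ : Equiv.Perm (OnePoint F)) (h1 : σ ∞ = ((0 : F) : OnePoint F)) (h2 : σ ((0 : F) : OnePoint F) = ∞)
    (h3 : ∀ x : F, x ≠ 0 → σ (x : OnePoint F) = ((x⁻¹ : F) : OnePoint F)) : σ ∈ (phi (F := F)).range := by
  have hdet : (!![0, 1; 1, 0] : Matrix (Fin 2) (Fin 2) F).det ≠ 0 := by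
    rw [Matrix.det_fin_two_of]; simp
  refine ⟨ProjGenLinGroup.mk (Matrix.GeneralLinearGroup.mkOfDetNeZero _ hdet), ?_⟩
  ext x
  rw [phi_mk]
  induction x using OnePoint.rec with
  | infty =>
    rw [h1, OnePoint.smul_infty_eq_ite]
    simp [Matrix.GeneralLinearGroup.mkOfDetNeZero]
  | coe x =>
    rw [OnePoint.smul_some_eq_ite]
    by_cases hx : x = 0
    · rw [hx, h2]
      simp [Matrix.GeneralLinearGroup.mkOfDetNeZero]
    · rw [h3 x hx]
      simp [Matrix.GeneralLinearGroup.mkOfDetNeZero, hx]

end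

/-- a sharply 3-transitive group all of whose elements fixing `∞` are affine and containing the inversion is `PGL(2,F)` -/
theorem iso_PGL {α : Type u} [Fintype α] [DecidableEq α] (G : Subgroup (Equiv.Perm α)) (h3 : IsMultiplyPretransitive G α 3)
    {F : Type} [Field F] [DecidableEq F] (e : α ≃ OnePoint F)
    (haff : ∀ g ∈ G, e (g (e.symm ∞)) = ∞ → ∃ m t : F, m ≠ 0 ∧ ∀ x : F, e (g (e.symm (x : OnePoint F))) = ((m * x + t : F) : OnePoint F))
    (s : Equiv.Perm α) (hs : s ∈ G) (hs1 : e (s (e.symm ∞)) = ((0 : F) : OnePoint F)) (hs2 : e (s (e.symm ((0 : F) : OnePoint F))) = ∞)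
    (hs3 : ∀ x : F, x ≠ 0 → e (s (e.symm (x : OnePoint F))) = ((x⁻¹ : F) : OnePoint F)) :
    Nonempty (G ≃* ProjGenLinGroup (Fin 2) F) := by
  classical
  set G1 := G.map e.permCongrHom.toMonoidHom with hG1
  have hcg : ∀ (g : Equiv.Perm α) (x : OnePoint F), e.permCongrHom g x = e (g (e.symm x)) := fun g x => rfl
  have hsr : e.permCongrHom s ∈ (phi (F := F)).range := inv_mem _ hs1 hs2 hs3
  have haffr : ∀ g ∈ G, e (g (e.symm ∞)) = ∞ → e.permCongrHom g ∈ (phi (F := F)).range := by
    intro g hg h
    obtain ⟨m, t, hm, hmt⟩ := haff g hg h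
    exact affine_mem _ m t hm h hmt
  have hle : G1 ≤ (phi (F := F)).range := by
    rintro _ ⟨g, hg, rfl⟩
    change e.permCongrHom g ∈ (phi (F := F)).range
    by_cases h : e (g (e.symm ∞)) = ∞
    · exact haffr g hg h
    · -- move g ∞ to 0
      have hne1 : e.symm ∞ ≠ g (e.symm ∞) := by
        intro h'
        apply h
        rw [← h', Equiv.apply_symm_apply]
      -- a third point
      obtain ⟨y, hy1, hy2⟩ : ∃ y : α, e.symm ∞ ≠ y ∧ g (e.symm ∞) ≠ y := by
        by_contra hcon
        push Not at hcon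
        have h0 := hcon (e.symm ((0 : F) : OnePoint F)) (fun h' => OnePoint.infty_ne_coe _ (e.symm.injective h'))
        have h1 := hcon (e.symm ((1 : F) : OnePoint F)) (fun h' => OnePoint.infty_ne_coe _ (e.symm.injective h'))
        have h2 := e.symm.injective (h0.symm.trans h1)
        exact zero_ne_one (OnePoint.coe_injective h2)
      obtain ⟨t, ht1, ht2, -⟩ := mt_three h3 hne1 hy1 hy2 (x' := e.symm ∞) (y' := e.symm ((0 : F) : OnePoint F)) (z' := e.symm ((1 : F) : OnePoint F))
        (fun h' => OnePoint.infty_ne_coe _ (e.symm.injective h')) (fun h' => OnePoint.infty_ne_coe _ (e.symm.injective h'))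
        (fun h' => zero_ne_one (OnePoint.coe_injective (e.symm.injective h')))
      have ht1' : (t : Equiv.Perm α) (e.symm ∞) = e.symm ∞ := ht1
      have ht2' : (t : Equiv.Perm α) (g (e.symm ∞)) = e.symm ((0 : F) : OnePoint F) := ht2
      have h5 : e.permCongrHom (s * (t : Equiv.Perm α) * g) ∈ (phi (F := F)).range := by
        apply haffr _ (G.mul_mem (G.mul_mem hs t.2) hg)
        change e (s ((t : Equiv.Perm α) (g (e.symm ∞)))) = ∞
        rw [ht2', hs2]
      have h6 : e.permCongrHom (t : Equiv.Perm α) ∈ (phi (F := F)).range := by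
        apply haffr _ t.2
        rw [ht1', Equiv.apply_symm_apply]
      rw [map_mul, map_mul] at h5
      have h7 := (phi (F := F)).range.mul_mem ((phi (F := F)).range.inv_mem ((phi (F := F)).range.mul_mem hsr h6)) h5
      rwa [inv_mul_cancel_left] at h7
  have hge : (phi (F := F)).range ≤ G1 := by
    rintro _ ⟨π, rfl⟩
    obtain ⟨g, hg1, hg2, hg3⟩ := mt_three h3 (x := e.symm ∞) (y := e.symm ((0 : F) : OnePoint F)) (z := e.symm ((1 : F) : OnePoint F))
        (fun h' => OnePoint.infty_ne_coe _ (e.symm.injective h')) (fun h' => OnePoint.infty_ne_coe _ (e.symm.injective h'))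
        (fun h' => zero_ne_one (OnePoint.coe_injective (e.symm.injective h')))
        (x' := e.symm (phi π ∞)) (y' := e.symm (phi π ((0 : F) : OnePoint F))) (z' := e.symm (phi π ((1 : F) : OnePoint F)))
        (fun h' => OnePoint.infty_ne_coe _ ((phi π).injective (e.symm.injective h')))
        (fun h' => OnePoint.infty_ne_coe _ ((phi π).injective (e.symm.injective h')))
        (fun h' => zero_ne_one (OnePoint.coe_injective ((phi π).injective (e.symm.injective h'))))
    have hg1' : e.permCongrHom (g : Equiv.Perm α) ∞ = phi π ∞ := by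
      rw [hcg]; exact (congrArg e hg1).trans (Equiv.apply_symm_apply _ _)
    have hg2' : e.permCongrHom (g : Equiv.Perm α) ((0 : F) : OnePoint F) = phi π ((0 : F) : OnePoint F) := by
      rw [hcg]; exact (congrArg e hg2).trans (Equiv.apply_symm_apply _ _)
    have hg3' : e.permCongrHom (g : Equiv.Perm α) ((1 : F) : OnePoint F) = phi π ((1 : F) : OnePoint F) := by
      rw [hcg]; exact (congrArg e hg3).trans (Equiv.apply_symm_apply _ _)
    have hgG1 : e.permCongrHom (g : Equiv.Perm α) ∈ G1 := ⟨g, g.2, rfl⟩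
    obtain ⟨π', hπ'⟩ := hle hgG1
    rw [← hπ'] at hg1' hg2' hg3'
    have h8 : π'⁻¹ * π = 1 := by
      apply phi_three _ (∞ : OnePoint F) ((0 : F) : OnePoint F) ((1 : F) : OnePoint F)
      · exact (OnePoint.coe_ne_infty _).symm
      · exact (OnePoint.coe_ne_infty _).symm
      · intro h; exact zero_ne_one (OnePoint.coe_injective h)
      · rw [map_mul, map_inv]
        change (phi π')⁻¹ (phi π ∞) = ∞
        rw [← hg1', inv_apply]
      · rw [map_mul, map_inv]
        change (phi π')⁻¹ (phi π ((0 : F) : OnePoint F)) = _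
        rw [← hg2', inv_apply]
      · rw [map_mul, map_inv]
        change (phi π')⁻¹ (phi π ((1 : F) : OnePoint F)) = _
        rw [← hg3', inv_apply]
    rw [← inv_mul_eq_one.1 h8, hπ']
    exact hgG1
  have heq : G1 = (phi (F := F)).range := le_antisymm hle hge
  have e1 : G ≃* G1 := G.equivMapOfInjective _ e.permCongrHom.injective
  have e2 : ProjGenLinGroup (Fin 2) F ≃* (phi (F := F)).range := MonoidHom.ofInjective phi_injective
  exact ⟨(e1.trans (MulEquiv.subgroupCongr heq)).trans e2.symm⟩

end CfsgLib.PermZ1
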