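import Mathlib
import Cfsg.Agent.S0682
import Cfsg.Agent.Lib.PermG5
import Cfsg.Agent.Lib.PermZ1

set_option autoImplicit false

/-! Sharply 3-transitive groups with commutative two-point stabilisers: field coordinates. -/
namespace CfsgLib.PermZ2

open MulAction CfsgLib.PermG3 CfsgLib.PermG5 CfsgLib.PermG6 Cfsg

universe u

/-- a near-field with commutative operations is a field, transported to `Type` -/
theorem exists_field {K : Type u} [Fintype K] (nf : NearField K) (hadd : ∀ x y : K, x + y = y + x) (hmul : ∀ x y : K, x * y = y * x) :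
    ∃ (F : Type) (_ : Field F) (_ : Fintype F) (ψ : K ≃ F), (∀ x y : K, ψ (x + y) = ψ x + ψ y) ∧ (∀ x y : K, ψ (x * y) = ψ x * ψ y) ∧
      ψ 0 = 0 ∧ ψ 1 = 1 := by
  classical
  have hinv : ∀ a : K, ∃ b : K, (a ≠ 0 → a * b = 1) ∧ (a = 0 → b = 0) := by
    intro a
    by_cases h : a = 0
    · exact ⟨0, fun h' => absurd h h', fun _ => rfl⟩
    · obtain ⟨b, hb, -⟩ := NearField.exists_inv a h
      exact ⟨b, fun _ => hb, fun h' => absurd h' h⟩
  choose iv hiv using hinv
  letI fK : Field K :=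
    { nf with
      add_comm := hadd
      mul_comm := hmul
      left_distrib := fun a b c => by
        rw [hmul a (b + c), NearField.right_distrib, hmul b a, hmul c a]
      right_distrib := NearField.right_distrib
      zero_mul := fun a => by rw [hmul, NearField.mul_zero]
      mul_zero := NearField.mul_zero
      inv := iv
      exists_pair_ne := ⟨0, 1, NearField.zero_ne_one⟩
      mul_inv_cancel := fun a ha => (hiv a).1 ha
      inv_zero := (hiv 0).2 rfl
      nnqsmul := _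
      nnqsmul_def := fun _ _ => rfl
      qsmul := _
      qsmul_def := fun _ _ => rfl }
  have key : ∀ (F : Type) (ψ : K ≃ F), ∃ (_ : Field F), (∀ x y : K, ψ (x + y) = ψ x + ψ y) ∧ (∀ x y : K, ψ (x * y) = ψ x * ψ y) ∧
      ψ 0 = 0 ∧ ψ 1 = 1 := by
    intro F ψ
    letI fF : Field F := ψ.symm.field
    refine ⟨fF, ?_, ?_, ?_, ?_⟩
    · intro x y
      rw [Equiv.add_def, Equiv.symm_symm, Equiv.symm_apply_apply, Equiv.symm_apply_apply]
    · intro x y
      rw [Equiv.mul_def, Equiv.symm_symm, Equiv.symm_apply_apply, Equiv.symm_apply_apply]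
    · rfl
    · rfl
  obtain ⟨fF, h⟩ := key (Fin (Fintype.card K)) (Fintype.equivFin K)
  exact ⟨_, fF, inferInstance, _, h⟩

theorem field_coord {K : Type u} [Fintype K] [DecidableEq K] (G : Subgroup (Equiv.Perm K)) (h2 : IsMultiplyPretransitive G K 2)
    (hsharp : ∀ x : Fin 2 ↪ K, stabilizer G x = ⊥) (a₀ a₁ : K) (h01 : a₀ ≠ a₁)
    (hcomm : ∀ h ∈ G, ∀ k ∈ G, h a₀ = a₀ → k a₀ = a₀ → h * k = k * h) :
    ∃ (F : Type) (_ : Field F) (_ : Fintype F) (ψ : K ≃ F), ψ a₀ = 0 ∧ ψ a₁ = 1 ∧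
      ∀ σ : Equiv.Perm K, σ ∈ G ↔ ∃ m t : F, m ≠ 0 ∧ ∀ x, ψ (σ x) = m * ψ x + t := by
  classical
  obtain ⟨nf, -, h0, h1, hG, hst⟩ := exists_nearField G h2 hsharp a₀ a₁ h01
  obtain ⟨p, j, -, -, -, hadd, -⟩ := Cfsg.Agent.S0682.result (F := K)
  rw [mt_two_iff] at h2
  have hmul : ∀ x y : K, x * y = y * x := by
    have hz : ∀ x : K, 0 * x = 0 := by
      intro x
      have h3 := NearField.right_distrib (0 : K) 0 x
      rw [add_zero] at h3
      exact (left_eq_add (a := (0 : K) * x)).1 h3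
    intro x y
    by_cases hx : x = 0
    · rw [hx, hz, NearField.mul_zero]
    by_cases hy : y = 0
    · rw [hy, hz, NearField.mul_zero]
    obtain ⟨g, hg1, hg2⟩ := h2 a₀ a₁ a₀ x h01 (by rw [← h0]; exact Ne.symm hx)
    obtain ⟨k, hk1, hk2⟩ := h2 a₀ a₁ a₀ y h01 (by rw [← h0]; exact Ne.symm hy)
    have e1 := hst g hg1
    have e2 := hst k hk1
    rw [hg2] at e1
    rw [hk2] at e2
    have hc := hcomm g g.2 k k.2 hg1 hk1
    have hc1 := congrArg (fun σ : Equiv.Perm K => σ a₁) hc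
    have hc2 : g • (k • a₁) = k • (g • a₁) := hc1
    rw [hg2, hk2, e1, e2] at hc2
    exact hc2.symm
  obtain ⟨F, fF, fi, ψ, hψa, hψm, hψ0, hψ1⟩ := exists_field nf hadd hmul
  refine ⟨F, fF, fi, ψ, by rw [← h0]; exact hψ0, by rw [← h1]; exact hψ1, ?_⟩
  intro σ
  rw [hG]
  constructor
  · rintro ⟨m, t, hm, h⟩
    refine ⟨ψ m, ψ t, fun h' => hm (ψ.injective (h'.trans hψ0.symm)), fun x => ?_⟩
    rw [h, hψa, hψm, mul_comm]
  · rintro ⟨m, t, hm, h⟩
    refine ⟨ψ.symm m, ψ.symm t, fun h' => hm ?_, fun x => ?_⟩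
    · rw [← hψ0, ← h', Equiv.apply_symm_apply]
    · apply ψ.injective
      rw [h, hψa, hψm, Equiv.apply_symm_apply, Equiv.apply_symm_apply, mul_comm]

/-- field coordinates for a sharply 3-transitive group with commutative two-point stabilisers -/
theorem coord_three {α : Type u} [Fintype α] [DecidableEq α] (G : Subgroup (Equiv.Perm α)) (h3 : IsMultiplyPretransitive G α 3)
    (hsharp : ∀ x : Fin 3 ↪ α, stabilizer G x = ⊥) {a b c : α} (hab : a ≠ b) (hac : a ≠ c) (hbc : b ≠ c)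
    (hcomm : ∀ h ∈ G, ∀ k ∈ G, h a = a → h b = b → k a = a → k b = b → h * k = k * h) :
    ∃ (F : Type) (_ : Field F) (_ : Fintype F) (e : α ≃ OnePoint F), Fintype.card F + 1 = Fintype.card α ∧
      e a = OnePoint.infty ∧ e b = ((0 : F) : OnePoint F) ∧ e c = ((1 : F) : OnePoint F) ∧
      (∀ g ∈ G, g a = a → ∃ m t : F, m ≠ 0 ∧ ∀ x : F, e (g (e.symm (x : OnePoint F))) = ((m * x + t : F) : OnePoint F)) ∧
      (∀ m t : F, m ≠ 0 → ∃ g ∈ G, g a = a ∧ ∀ x : F, e (g (e.symm (x : OnePoint F))) = ((m * x + t : F) : OnePoint F)) := by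
  classical
  let K := {x : α // x ≠ a}
  let G' : Subgroup (Equiv.Perm K) :=
    { carrier := {σ | ∃ g ∈ G, g a = a ∧ ∀ x : K, ((σ x : K) : α) = g x}
      one_mem' := ⟨1, one_mem _, rfl, fun x => rfl⟩
      mul_mem' := by
        rintro σ τ ⟨g, hg, hga, hgx⟩ ⟨k, hk, hka, hkx⟩
        refine ⟨g * k, mul_mem hg hk, ?_, fun x => ?_⟩
        · rw [Equiv.Perm.mul_apply, hka, hga]
        · rw [Equiv.Perm.mul_apply, hgx, hkx, Equiv.Perm.mul_apply]
      inv_mem' := by
        rintro σ ⟨g, hg, hga, hgx⟩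
        refine ⟨g⁻¹, inv_mem hg, ?_, fun x => ?_⟩
        · rw [Equiv.Perm.inv_eq_iff_eq, hga]
        · rw [Equiv.Perm.eq_inv_iff_eq, ← hgx, apply_inv] }
  have hmem : ∀ σ : Equiv.Perm K, σ ∈ G' ↔ ∃ g ∈ G, g a = a ∧ ∀ x : K, ((σ x : K) : α) = g x := fun σ => Iff.rfl
  have hof : ∀ g ∈ G, g a = a → ∃ σ ∈ G', ∀ x : K, ((σ x : K) : α) = g x := by
    intro g hg hga
    have h1 : ∀ x : α, x ≠ a ↔ g x ≠ a := by
      intro x
      constructor
      · intro h h'
        exact h (g.injective (h'.trans hga.symm))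
      · rintro h rfl
        exact h hga
    exact ⟨g.subtypePerm (fun x => (h1 x).symm), ⟨g, hg, hga, fun x => rfl⟩, fun x => rfl⟩
  have h2' : IsMultiplyPretransitive G' K 2 := by
    rw [mt_two_iff]
    intro x y x' y' hxy hxy'
    obtain ⟨g, hg1, hg2, hg3⟩ := mt_three h3 (x := a) (y := x) (z := y) (Ne.symm x.2) (Ne.symm y.2) (fun h => hxy (Subtype.ext h))
      (x' := a) (y' := x') (z' := y') (Ne.symm x'.2) (Ne.symm y'.2) (fun h => hxy' (Subtype.ext h))
    obtain ⟨σ, hσ, hσx⟩ := hof g g.2 hg1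
    exact ⟨⟨σ, hσ⟩, Subtype.ext ((hσx x).trans hg2), Subtype.ext ((hσx y).trans hg3)⟩
  have hsharp' : ∀ x : Fin 2 ↪ K, stabilizer G' x = ⊥ := by
    intro u
    rw [Subgroup.eq_bot_iff_forall]
    rintro ⟨σ, g, hg, hga, hgx⟩ hσ
    have h4 : ∀ i, σ (u i) = u i := by
      intro i
      have h5 : (⟨σ, g, hg, hga, hgx⟩ : G') • u = u := hσ
      exact congrArg (fun w : Fin 2 ↪ K => w i) h5
    have h6 : (⟨g, hg⟩ : G) = 1 := by
      apply sharp_three hsharp (x := a) (y := (u 0 : α)) (z := (u 1 : α)) (Ne.symm (u 0).2) (Ne.symm (u 1).2)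
        (fun h => by
          have := u.injective (Subtype.ext h)
          exact absurd this (by decide)) hga
      · change g (u 0) = u 0
        rw [← hgx, h4]
      · change g (u 1) = u 1
        rw [← hgx, h4]
    apply Subtype.ext
    ext x
    change ((σ x : K) : α) = x
    rw [hgx]
    exact congrArg (fun w : G => (w : Equiv.Perm α) x) h6
  obtain ⟨F, fF, fi, ψ, hψ0, hψ1, hψ⟩ := field_coord G' h2' hsharp' ⟨b, Ne.symm hab⟩ ⟨c, Ne.symm hac⟩ (fun h => hbc (congrArg Subtype.val h)) (by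
    rintro σ ⟨g, hg, hga, hgx⟩ τ ⟨k, hk, hka, hkx⟩ h5 h6
    have h7 := hcomm g hg k hk hga (by
      have := hgx ⟨b, Ne.symm hab⟩
      rw [h5] at this; exact this.symm) hka (by
      have := hkx ⟨b, Ne.symm hab⟩
      rw [h6] at this; exact this.symm)
    ext x
    rw [Equiv.Perm.mul_apply, Equiv.Perm.mul_apply, hgx, hkx, hkx, hgx]
    exact congrArg (fun w : Equiv.Perm α => w x) h7)
  let e : α ≃ OnePoint F := (Equiv.optionSubtypeNe a).symm.trans (Equiv.optionCongr ψ)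
  have hea : e a = OnePoint.infty := by
    change (Equiv.optionCongr ψ) ((Equiv.optionSubtypeNe a).symm a) = _
    rw [Equiv.optionSubtypeNe_symm_self]; rfl
  have hex : ∀ x : K, e (x : α) = ((ψ x : F) : OnePoint F) := by
    intro x
    change (Equiv.optionCongr ψ) ((Equiv.optionSubtypeNe a).symm x) = _
    rw [Equiv.optionSubtypeNe_symm_of_ne x.2]; rfl
  have hexs : ∀ x : F, e.symm (x : OnePoint F) = ((ψ.symm x : K) : α) := by
    intro x
    rw [Equiv.symm_apply_eq, hex, Equiv.apply_symm_apply]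
  refine ⟨F, fF, fi, e, ?_, hea, ?_, ?_, ?_, ?_⟩
  · rw [Fintype.card_congr e]
    exact (Fintype.card_option (α := F)).symm
  · rw [← hψ0]; exact hex ⟨b, Ne.symm hab⟩
  · rw [← hψ1]; exact hex ⟨c, Ne.symm hac⟩
  · intro g hg hga
    obtain ⟨σ, hσ, hσx⟩ := hof g hg hga
    obtain ⟨m, t, hm, h⟩ := (hψ σ).1 hσ
    refine ⟨m, t, hm, fun x => ?_⟩
    rw [hexs, ← hσx, hex, h, Equiv.apply_symm_apply]
  · intro m t hm
    let σ : Equiv.Perm K :=
      { toFun := fun x => ψ.symm (m * ψ x + t)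
        invFun := fun x => ψ.symm (m⁻¹ * (ψ x - t))
        left_inv := fun x => by
          change ψ.symm (m⁻¹ * (ψ (ψ.symm (m * ψ x + t)) - t)) = x
          rw [Equiv.apply_symm_apply, add_sub_cancel_right, inv_mul_cancel_left₀ hm, Equiv.symm_apply_apply]
        right_inv := fun x => by
          change ψ.symm (m * ψ (ψ.symm (m⁻¹ * (ψ x - t))) + t) = x
          rw [Equiv.apply_symm_apply, mul_inv_cancel_left₀ hm, sub_add_cancel, Equiv.symm_apply_apply] }
    have hσ : ∀ x, ψ (σ x) = m * ψ x + t := fun x => Equiv.apply_symm_apply _ _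
    obtain ⟨g, hg, hga, hgx⟩ := (hψ σ).2 ⟨m, t, hm, hσ⟩
    refine ⟨g, hg, hga, fun x => ?_⟩
    rw [hexs, ← hgx, hex, hσ, Equiv.apply_symm_apply]

/-- the case where two-point stabilisers are inverted -/
theorem PGL_of_inverts {α : Type u} [Fintype α] [DecidableEq α] (G : Subgroup (Equiv.Perm α)) (h3 : IsMultiplyPretransitive G α 3)
    (hsharp : ∀ x : Fin 3 ↪ α, stabilizer G x = ⊥) {a b c : α} (hab : a ≠ b) (hac : a ≠ c) (hbc : b ≠ c)
    (s : Equiv.Perm α) (hs : s ∈ G) (hsa : s a = b) (hsb : s b = a) (hsc : s c = c)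
    (hinv : ∀ h ∈ G, h a = a → h b = b → s * h * s⁻¹ = h⁻¹) :
    ∃ (F : Type) (_ : Field F) (_ : Fintype F), Fintype.card F + 1 = Fintype.card α ∧
      Nonempty (G ≃* Matrix.ProjGenLinGroup (Fin 2) F) := by
  classical
  have hcomm : ∀ h ∈ G, ∀ k ∈ G, h a = a → h b = b → k a = a → k b = b → h * k = k * h := by
    intro h hh k hk h1 h2 h3 h4
    have e1 := hinv h hh h1 h2
    have e2 := hinv k hk h3 h4
    have e3 := hinv (h * k) (mul_mem hh hk) (by rw [Equiv.Perm.mul_apply, h3, h1]) (by rw [Equiv.Perm.mul_apply, h4, h2])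
    have e4 : s * (h * k) * s⁻¹ = (s * h * s⁻¹) * (s * k * s⁻¹) := by group
    rw [e4, e1, e2, mul_inv_rev] at e3
    have e5 := congrArg (fun w => w⁻¹) e3
    simpa using e5.symm
  obtain ⟨F, fF, fi, e, hcard, hea, heb, hec, haff, haff'⟩ := coord_three G h3 hsharp hab hac hbc hcomm
  refine ⟨F, fF, fi, hcard, ?_⟩
  have hsa' : e.symm OnePoint.infty = a := by rw [Equiv.symm_apply_eq, hea]
  have hsb' : e.symm ((0 : F) : OnePoint F) = b := by rw [Equiv.symm_apply_eq, heb]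
  have hsc' : e.symm ((1 : F) : OnePoint F) = c := by rw [Equiv.symm_apply_eq, hec]
  apply CfsgLib.PermZ1.iso_PGL G h3 e
  · intro g hg h
    apply haff g hg
    rw [hsa'] at h
    exact e.injective (h.trans hea.symm)
  · exact hs
  · rw [hsa', hsa, heb]
  · rw [hsb', hsb, hea]
  · intro x hx
    obtain ⟨h, hh, hha, hhx⟩ := haff' x 0 hx
    have h0 := hhx 0
    rw [hsb', mul_zero, add_zero] at h0
    have hhb : h b = b := e.injective (h0.trans heb.symm)
    have h1 := hhx 1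
    rw [hsc', mul_one, add_zero] at h1
    -- h c = x
    have h1' : e.symm (x : OnePoint F) = h c := by rw [← h1, Equiv.symm_apply_apply]
    rw [h1']
    have h2 := hinv h hh hha hhb
    have h3' : s (h c) = h⁻¹ c := by
      rw [← h2, Equiv.Perm.mul_apply, Equiv.Perm.mul_apply]
      congr 2
      rw [Equiv.Perm.eq_inv_iff_eq]
      exact hsc
    rw [h3']
    have h4 := hhx x⁻¹
    rw [mul_inv_cancel₀ hx, add_zero, ← hec] at h4
    have h5 := e.injective h4
    rw [← h5, inv_apply, Equiv.apply_symm_apply]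

end CfsgLib.PermZ2
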