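import Cfsg.Agent.Lib.H9ZT3
import Cfsg.Agent.Lib.PermZ2
set_option autoImplicit false
set_option maxHeartbeats 400000

/-! groups in which the centralizer of every involution is an elementary abelian 2-group, IV: the permutation representation. -/

namespace CfsgLib.H9ZT

open Subgroup CfsgLib.Invol CfsgLib.H9SE

universe u

variable {G : Type u} [Group G] [Finite G]

namespace ZT

variable {T : Sylow 2 G} (h : ZT T) {u : G} (hu : orderOf u = 2) (huH : u ∉ normalizer ((T : Subgroup G) : Set G))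

include h

theorem fix_T {t : G} (ht : t ∈ (T : Subgroup G)) : t • (QuotientGroup.mk 1 : G ⧸ normalizer ((T : Subgroup G) : Set G)) = QuotientGroup.mk 1 :=
  mem_iff_fix.1 (le_normalizer ht)

theorem free_T {t : G} (ht : t ∈ (T : Subgroup G)) {x : G ⧸ normalizer ((T : Subgroup G) : Set G)} (hx : x ≠ QuotientGroup.mk 1) (htx : t • x = x) : t = 1 := by
  by_contra ht1
  exact hx (fix_unique h.se (order_of_mem' (h.sq ht) ht1) htx (h.fix_T ht))

theorem card_X : Nat.card (G ⧸ normalizer ((T : Subgroup G) : Set G)) = Nat.card T + 1 := by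
  obtain ⟨u, hu, huH⟩ := h.exists_out
  exact (main h hu huH).2

theorem reg_T {x y : G ⧸ normalizer ((T : Subgroup G) : Set G)} (hx : x ≠ QuotientGroup.mk 1) (hy : y ≠ QuotientGroup.mk 1) :
    ∃! t : G, t ∈ T ∧ t • x = y := by
  classical
  haveI : Fintype (G ⧸ normalizer ((T : Subgroup G) : Set G)) := Fintype.ofFinite _
  have hne : ∀ t ∈ (T : Subgroup G), t • x ≠ QuotientGroup.mk 1 := by
    intro t ht h1
    apply hx
    have := congrArg (fun z => t⁻¹ • z) h1
    simp only [inv_smul_smul] at this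
    rw [this]
    exact h.fix_T (inv_mem ht)
  let f : ↥(T : Subgroup G) → {y : G ⧸ normalizer ((T : Subgroup G) : Set G) // y ≠ QuotientGroup.mk 1} := fun t => ⟨(t : G) • x, hne t t.2⟩
  have hf : Function.Injective f := by
    intro s t hst
    have h1 : (s : G) • x = (t : G) • x := congrArg Subtype.val hst
    have h2 : ((t : G)⁻¹ * (s : G)) • x = x := by rw [mul_smul, h1, inv_smul_smul]
    have h3 := h.free_T (mul_mem (inv_mem t.2) s.2) hx h2
    exact Subtype.ext (inv_mul_eq_one.1 h3).symm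
  have hcard : Nat.card (T : Subgroup G) = Nat.card {y : G ⧸ normalizer ((T : Subgroup G) : Set G) // y ≠ QuotientGroup.mk 1} := by
    rw [Nat.card_eq_fintype_card (α := {y : G ⧸ normalizer ((T : Subgroup G) : Set G) // y ≠ QuotientGroup.mk 1}), Fintype.card_subtype_compl,
      Fintype.card_subtype_eq, ← Nat.card_eq_fintype_card, h.card_X, Nat.add_sub_cancel]
  have hs : Function.Surjective f := ((Nat.bijective_iff_injective_and_card f).2 ⟨hf, hcard⟩).2
  obtain ⟨t, ht⟩ := hs ⟨y, hy⟩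
  have ht' : (t : G) • x = y := congrArg Subtype.val ht
  refine ⟨t, ⟨t.2, ht'⟩, ?_⟩
  rintro s ⟨hs, hsx⟩
  have h2 : ((t : G)⁻¹ * s) • x = x := by rw [mul_smul, hsx, ← ht', inv_smul_smul]
  have h3 := h.free_T (mul_mem (inv_mem t.2) hs) hx h2
  exact (inv_mul_eq_one.1 h3).symm

include hu huH

theorem mk_u_ne : (QuotientGroup.mk u : G ⧸ normalizer ((T : Subgroup G) : Set G)) ≠ QuotientGroup.mk 1 := (mk_ne h hu huH).symm

theorem free_D {d : G} (hd : d ∈ DD T u) {z : G ⧸ normalizer ((T : Subgroup G) : Set G)} (hz1 : z ≠ QuotientGroup.mk 1) (hzu : z ≠ QuotientGroup.mk u)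
    (hdz : d • z = z) : d = 1 := by
  obtain ⟨t, ⟨ht, htz⟩, -⟩ := h.reg_T (mk_u_ne h hu huH) hz1
  have ht1 : t ≠ 1 := by
    rintro rfl
    rw [one_smul] at htz
    exact hzu htz.symm
  obtain ⟨hd1, hd2⟩ := (mem_DD h hu huH).1 hd
  have h1 : t⁻¹ * d * t ∈ DD T u := by
    rw [mem_DD h hu huH]
    refine ⟨?_, ?_⟩
    · rw [mul_smul, mul_smul, h.fix_T ht, hd1, h.fix_T (inv_mem ht)]
    · rw [mul_smul, mul_smul, htz, hdz, ← htz, inv_smul_smul]
  have h2 : d⁻¹ * (t⁻¹ * d * t) ∈ DD T u := mul_mem (inv_mem hd) h1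
  have h3 : d⁻¹ * (t⁻¹ * d * t) ∈ (T : Subgroup G) := by
    have h4 := (mem_normalizer_iff.1 (inv_mem hd.1) t⁻¹).1 (inv_mem ht)
    rw [inv_inv] at h4
    have e : d⁻¹ * (t⁻¹ * d * t) = (d⁻¹ * t⁻¹ * d) * t := by group
    rw [e]; exact mul_mem h4 ht
  have h5 := DD_inf h hu huH h2 h3
  apply DD_free h hu huH hd ht ht1
  have h6 : t⁻¹ * d * t = d := (inv_mul_eq_one.1 h5).symm
  have := congrArg (fun w => t * w) h6
  simp only [← mul_assoc, mul_inv_cancel, one_mul] at this
  exact this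

theorem exists_ne_one_D : ∃ d ∈ DD T u, d ≠ 1 := by
  by_contra hcon
  push Not at hcon
  have h1 : DD T u = ⊥ := by rw [eq_bot_iff]; exact fun d hd => hcon d hd
  have h2 := card_DD h hu huH
  rw [h1, card_bot] at h2
  have := h.four_le
  omega

theorem fix_D_iff (z : G ⧸ normalizer ((T : Subgroup G) : Set G)) : (∀ d ∈ DD T u, d • z = z) ↔ z = QuotientGroup.mk 1 ∨ z = QuotientGroup.mk u := by
  constructor
  · intro hz
    by_contra hcon
    push Not at hcon
    obtain ⟨d, hd, hd1⟩ := exists_ne_one_D h hu huH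
    exact hd1 (free_D h hu huH hd hcon.1 hcon.2 (hz d hd))
  · rintro (rfl | rfl) d hd
    · exact ((mem_DD h hu huH).1 hd).1
    · exact ((mem_DD h hu huH).1 hd).2

theorem u_smul : u • (QuotientGroup.mk 1 : G ⧸ normalizer ((T : Subgroup G) : Set G)) = QuotientGroup.mk u ∧
    u • (QuotientGroup.mk u : G ⧸ normalizer ((T : Subgroup G) : Set G)) = QuotientGroup.mk 1 := by
  have hux : u • (QuotientGroup.mk 1 : G ⧸ normalizer ((T : Subgroup G) : Set G)) = QuotientGroup.mk u := by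
    rw [MulAction.Quotient.smul_mk, smul_eq_mul, mul_one]
  refine ⟨hux, ?_⟩
  rw [← hux, ← mul_smul, mul_self_of_orderOf hu, one_smul]

theorem norm_D : normalizer (DD T u : Set G) = DD T u ⊔ zpowers u := by
  apply le_antisymm
  · intro n hn
    have hfix : ∀ n ∈ normalizer (DD T u : Set G), ∀ z : G ⧸ normalizer ((T : Subgroup G) : Set G), (z = QuotientGroup.mk 1 ∨ z = QuotientGroup.mk u) →
        (n • z = QuotientGroup.mk 1 ∨ n • z = QuotientGroup.mk u) := by
      intro n hn z hz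
      rw [← fix_D_iff h hu huH] at hz ⊢
      intro d hd
      have h1 := (mem_normalizer_iff.1 (inv_mem hn) d).1 hd
      rw [inv_inv] at h1
      have h2 := hz _ h1
      have e : d • n • z = n • ((n⁻¹ * d * n) • z) := by
        rw [← mul_smul, ← mul_smul]; congr 1; group
      rw [e, h2]
    have key : ∀ n ∈ normalizer (DD T u : Set G), n • (QuotientGroup.mk 1 : G ⧸ normalizer ((T : Subgroup G) : Set G)) = QuotientGroup.mk 1 → n ∈ DD T u := by
      intro n hn h1
      rw [mem_DD h hu huH]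
      refine ⟨h1, ?_⟩
      rcases hfix n hn _ (Or.inr rfl) with h2 | h2
      · exfalso
        apply mk_ne h hu huH
        have := h1.trans h2.symm
        exact MulAction.injective n this
      · exact h2
    have huN : u ∈ normalizer (DD T u : Set G) := by
      have k : ∀ x : G, x ∈ DD T u → u * x * u⁻¹ ∈ DD T u := fun x hx => by rw [inv_D h hu huH hx]; exact inv_mem hx
      rw [mem_normalizer_iff]
      intro x
      refine ⟨k x, fun hx => ?_⟩
      have h1 := k _ hx
      have e : u * (u * x * u⁻¹) * u⁻¹ = (u * u) * x * (u * u)⁻¹ := by group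
      rw [e, mul_self_of_orderOf hu, one_mul, inv_one, mul_one] at h1
      exact h1
    rcases hfix n hn _ (Or.inl rfl) with h1 | h1
    · exact mem_sup_left (key n hn h1)
    · have h2 : u * n ∈ DD T u := by
        apply key _ (mul_mem huN hn)
        rw [mul_smul, h1, (u_smul h hu huH).2]
      have h3 : n = u⁻¹ * (u * n) := by group
      rw [h3]
      exact mul_mem (mem_sup_right (inv_mem (mem_zpowers u))) (mem_sup_left h2)
  · apply sup_le le_normalizer
    rw [zpowers_le, mem_normalizer_iff]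
    have k : ∀ x : G, x ∈ DD T u → u * x * u⁻¹ ∈ DD T u := fun x hx => by rw [inv_D h hu huH hx]; exact inv_mem hx
    intro x
    refine ⟨k x, fun hx => ?_⟩
    have h1 := k _ hx
    have e : u * (u * x * u⁻¹) * u⁻¹ = (u * u) * x * (u * u)⁻¹ := by group
    rw [e, mul_self_of_orderOf hu, one_mul, inv_one, mul_one] at h1
    exact h1

theorem trans_D {z w : G ⧸ normalizer ((T : Subgroup G) : Set G)} (hz1 : z ≠ QuotientGroup.mk 1) (hzu : z ≠ QuotientGroup.mk u)
    (hw1 : w ≠ QuotientGroup.mk 1) (hwu : w ≠ QuotientGroup.mk u) : ∃ d ∈ DD T u, d • z = w := by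
  classical
  haveI : Fintype (G ⧸ normalizer ((T : Subgroup G) : Set G)) := Fintype.ofFinite _
  have hne : ∀ d ∈ DD T u, d • z ≠ QuotientGroup.mk 1 ∧ d • z ≠ QuotientGroup.mk u := by
    intro d hd
    obtain ⟨h1, h2⟩ := (mem_DD h hu huH).1 hd
    refine ⟨fun h3 => hz1 ?_, fun h3 => hzu ?_⟩
    · exact MulAction.injective d (h3.trans h1.symm)
    · exact MulAction.injective d (h3.trans h2.symm)
  let f : DD T u → {y : G ⧸ normalizer ((T : Subgroup G) : Set G) // y ≠ QuotientGroup.mk 1 ∧ y ≠ QuotientGroup.mk u} := fun d => ⟨(d : G) • z, hne d d.2⟩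
  have hf : Function.Injective f := by
    intro s t hst
    have h1 : (s : G) • z = (t : G) • z := congrArg Subtype.val hst
    have h2 : ((t : G)⁻¹ * (s : G)) • z = z := by rw [mul_smul, h1, inv_smul_smul]
    have h3 := free_D h hu huH (mul_mem (inv_mem t.2) s.2) hz1 hzu h2
    exact Subtype.ext (inv_mul_eq_one.1 h3).symm
  have hcard : Nat.card (DD T u) = Nat.card {y : G ⧸ normalizer ((T : Subgroup G) : Set G) // y ≠ QuotientGroup.mk 1 ∧ y ≠ QuotientGroup.mk u} := by
    have h1 : Fintype.card {y : G ⧸ normalizer ((T : Subgroup G) : Set G) // y ≠ QuotientGroup.mk 1 ∧ y ≠ QuotientGroup.mk u} =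
        ((Finset.univ.erase (QuotientGroup.mk 1 : G ⧸ normalizer ((T : Subgroup G) : Set G))).erase (QuotientGroup.mk u)).card := by
      rw [Fintype.card_subtype]
      congr 1
      ext y
      simp only [Finset.mem_filter, Finset.mem_univ, true_and, Finset.mem_erase, ne_eq, and_true]
      tauto
    rw [Nat.card_eq_fintype_card (α := {y : G ⧸ normalizer ((T : Subgroup G) : Set G) // y ≠ QuotientGroup.mk 1 ∧ y ≠ QuotientGroup.mk u}), h1,
      Finset.card_erase_of_mem, Finset.card_erase_of_mem (Finset.mem_univ _), Finset.card_univ, ← Nat.card_eq_fintype_card, h.card_X]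
    · have := card_DD h hu huH
      omega
    · rw [Finset.mem_erase]
      exact ⟨mk_u_ne h hu huH, Finset.mem_univ _⟩
  have hs : Function.Surjective f := ((Nat.bijective_iff_injective_and_card f).2 ⟨hf, hcard⟩).2
  obtain ⟨d, hd⟩ := hs ⟨w, hw1, hwu⟩
  exact ⟨d, d.2, congrArg Subtype.val hd⟩

omit hu huH

/-- move two points to the standard ones -/
theorem std {x₁ x₂ : G ⧸ normalizer ((T : Subgroup G) : Set G)} (h12 : x₁ ≠ x₂) (hu : orderOf u = 2) (huH : u ∉ normalizer ((T : Subgroup G) : Set G)) :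
    ∃ g : G, g • x₁ = QuotientGroup.mk 1 ∧ g • x₂ = QuotientGroup.mk u := by
  obtain ⟨a, rfl⟩ := QuotientGroup.mk_surjective x₁
  have h1 : a⁻¹ • (QuotientGroup.mk a : G ⧸ normalizer ((T : Subgroup G) : Set G)) = QuotientGroup.mk 1 := by
    rw [MulAction.Quotient.smul_mk, smul_eq_mul, inv_mul_cancel]
  have h2 : a⁻¹ • x₂ ≠ QuotientGroup.mk 1 := by
    intro h3
    exact h12 (MulAction.injective a⁻¹ (h1.trans h3.symm))
  obtain ⟨t, ⟨ht, htx⟩, -⟩ := h.reg_T h2 (mk_u_ne h hu huH)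
  refine ⟨t * a⁻¹, ?_, ?_⟩
  · rw [mul_smul, h1, h.fix_T ht]
  · rw [mul_smul, htx]

theorem three_trans {x₁ x₂ x₃ y₁ y₂ y₃ : G ⧸ normalizer ((T : Subgroup G) : Set G)} (h12 : x₁ ≠ x₂) (h13 : x₁ ≠ x₃) (h23 : x₂ ≠ x₃)
    (k12 : y₁ ≠ y₂) (k13 : y₁ ≠ y₃) (k23 : y₂ ≠ y₃) : ∃ g : G, g • x₁ = y₁ ∧ g • x₂ = y₂ ∧ g • x₃ = y₃ := by
  obtain ⟨u, hu, huH⟩ := h.exists_out
  obtain ⟨g, hg1, hg2⟩ := h.std h12 hu huH
  obtain ⟨k, hk1, hk2⟩ := h.std k12 hu huH
  obtain ⟨d, hd, hdz⟩ := trans_D h hu huH (z := g • x₃) (w := k • y₃)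
    (fun h3 => h13 (MulAction.injective g (hg1.trans h3.symm))) (fun h3 => h23 (MulAction.injective g (hg2.trans h3.symm)))
    (fun h3 => k13 (MulAction.injective k (hk1.trans h3.symm))) (fun h3 => k23 (MulAction.injective k (hk2.trans h3.symm)))
  obtain ⟨hd1, hd2⟩ := (mem_DD h hu huH).1 hd
  refine ⟨k⁻¹ * d * g, ?_, ?_, ?_⟩
  · rw [mul_smul, mul_smul, hg1, hd1, ← hk1, inv_smul_smul]
  · rw [mul_smul, mul_smul, hg2, hd2, ← hk2, inv_smul_smul]
  · rw [mul_smul, mul_smul, hdz, inv_smul_smul]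

theorem three_free {g : G} {x₁ x₂ x₃ : G ⧸ normalizer ((T : Subgroup G) : Set G)} (h12 : x₁ ≠ x₂) (h13 : x₁ ≠ x₃) (h23 : x₂ ≠ x₃)
    (g1 : g • x₁ = x₁) (g2 : g • x₂ = x₂) (g3 : g • x₃ = x₃) : g = 1 := by
  obtain ⟨u, hu, huH⟩ := h.exists_out
  obtain ⟨k, hk1, hk2⟩ := h.std h12 hu huH
  have h1 : k * g * k⁻¹ ∈ DD T u := by
    rw [mem_DD h hu huH]
    refine ⟨?_, ?_⟩
    · rw [← hk1, mul_smul, mul_smul, inv_smul_smul, g1]
    · rw [← hk2, mul_smul, mul_smul, inv_smul_smul, g2]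
  have h2 := free_D h hu huH h1 (z := k • x₃) (fun h3 => h13 (MulAction.injective k (hk1.trans h3.symm)))
    (fun h3 => h23 (MulAction.injective k (hk2.trans h3.symm))) (by rw [mul_smul, mul_smul, inv_smul_smul, g3])
  have := congrArg (fun w => k⁻¹ * w * k) h2
  simpa [mul_assoc] using this

end ZT

end CfsgLib.H9ZT
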