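import Cfsg.Agent.Lib.H9ZT4
set_option autoImplicit false
set_option maxHeartbeats 400000

/-! groups in which the centralizer of every involution is an elementary abelian 2-group, V: identification. -/

namespace CfsgLib.H9ZT

open Subgroup CfsgLib.Invol CfsgLib.H9SE MulAction

universe u

/-- PGL = PSL in even characteristic -/
theorem pgl_psl {F : Type} [Field F] [Fintype F] (hF : Even (Fintype.card F)) :
    Nonempty (Matrix.ProjGenLinGroup (Fin 2) F ≃* Matrix.ProjectiveSpecialLinearGroup (Fin 2) F) := by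
  classical
  have hsq : ∀ r : Fˣ, ∃ k : Fˣ, k ^ Fintype.card (Fin 2) = r := by
    intro r
    rw [Fintype.card_fin]
    have h1 : Odd (Fintype.card Fˣ) := by
      rw [Fintype.card_units]
      have : 0 < Fintype.card F := Fintype.card_pos
      obtain ⟨m, hm⟩ := hF
      exact ⟨m - 1, by omega⟩
    obtain ⟨m, hm⟩ := h1
    refine ⟨r ^ (m + 1), ?_⟩
    rw [← pow_mul, show (m + 1) * 2 = (2 * m + 1) + 1 by ring, pow_succ, ← hm, pow_card_eq_one, one_mul]
  have h1 := Matrix.ProjectiveSpecialLinearGroup.toPGL_surj_of_roots (n := Fin 2) (R := F) hsq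
  exact ⟨(MulEquiv.ofBijective _ ⟨Matrix.ProjectiveSpecialLinearGroup.toPGL_injective, h1⟩).symm⟩

variable {G : Type u} [Group G] [Finite G]

namespace ZT

variable {T : Sylow 2 G} (h : ZT T)

include h

theorem even_T : Even (Nat.card T) := by
  haveI : Fact (Nat.Prime 2) := ⟨Nat.prime_two⟩
  obtain ⟨z, hz, hzo, -⟩ := h.exists_central
  have h3 := _root_.orderOf_dvd_natCard (⟨z, hz⟩ : (T : Subgroup G))
  rw [Subgroup.orderOf_mk, hzo] at h3
  exact even_iff_two_dvd.2 h3

theorem psl : ∃ (F : Type) (_ : Field F) (_ : Fintype F), Fintype.card F = Nat.card T ∧ Nonempty (G ≃* Matrix.ProjectiveSpecialLinearGroup (Fin 2) F) := by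
  classical
  obtain ⟨u, hu, huH⟩ := h.exists_out
  set H := normalizer ((T : Subgroup G) : Set G) with hH
  haveI : Fintype (G ⧸ H) := Fintype.ofFinite _
  obtain ⟨hux, huy⟩ := u_smul h hu huH
  obtain ⟨c, hc⟩ := exists_fix h.se hu
  have hab : (QuotientGroup.mk 1 : G ⧸ H) ≠ QuotientGroup.mk u := mk_ne h hu huH
  have hac : (QuotientGroup.mk 1 : G ⧸ H) ≠ c := by
    rintro rfl
    exact hab (hc.symm.trans hux)
  have hbc : (QuotientGroup.mk u : G ⧸ H) ≠ c := by
    rintro rfl
    exact hab (huy.symm.trans hc)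
  let φ : G →* Equiv.Perm (G ⧸ H) := MulAction.toPermHom G (G ⧸ H)
  have hφ : ∀ g : G, ∀ x : G ⧸ H, φ g x = g • x := fun g x => rfl
  have hinj : Function.Injective φ := by
    rw [injective_iff_map_eq_one]
    intro g hg
    have h1 : ∀ x : G ⧸ H, g • x = x := fun x => by rw [← hφ, hg]; rfl
    exact h.three_free hab hac hbc (h1 _) (h1 _) (h1 _)
  have h3 : IsMultiplyPretransitive φ.range (G ⧸ H) 3 := by
    rw [isMultiplyPretransitive_iff]
    intro x y
    have hx := x.injective
    have hy := y.injective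
    obtain ⟨g, g1, g2, g3⟩ := h.three_trans (x₁ := x 0) (x₂ := x 1) (x₃ := x 2) (y₁ := y 0) (y₂ := y 1) (y₃ := y 2)
      (fun h' => by have := hx h'; simp at this) (fun h' => by have := hx h'; simp at this) (fun h' => by have := hx h'; simp at this)
      (fun h' => by have := hy h'; simp at this) (fun h' => by have := hy h'; simp at this) (fun h' => by have := hy h'; simp at this)
    refine ⟨⟨φ g, g, rfl⟩, ?_⟩
    ext i
    fin_cases i
    · exact g1
    · exact g2
    · exact g3
  have hsharp : ∀ x : Fin 3 ↪ (G ⧸ H), stabilizer φ.range x = ⊥ := by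
    intro x
    rw [eq_bot_iff]
    rintro ⟨_, g, rfl⟩ hg
    rw [mem_stabilizer_iff] at hg
    have h1 : ∀ i, g • x i = x i := fun i => congrArg (fun z : Fin 3 ↪ (G ⧸ H) => z i) hg
    have hx := x.injective
    have h2 : g = 1 := h.three_free (fun h' => by have := hx h'; simp at this) (fun h' => by have := hx h'; simp at this)
      (fun h' => by have := hx h'; simp at this) (h1 0) (h1 1) (h1 2)
    rw [mem_bot]
    apply Subtype.ext
    show φ g = 1
    rw [h2, map_one]
  have hinv : ∀ k ∈ φ.range, k (QuotientGroup.mk 1 : G ⧸ H) = QuotientGroup.mk 1 → k (QuotientGroup.mk u : G ⧸ H) = QuotientGroup.mk u →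
      φ u * k * (φ u)⁻¹ = k⁻¹ := by
    rintro _ ⟨g, rfl⟩ g1 g2
    have h1 : g ∈ DD T u := by rw [mem_DD h hu huH]; exact ⟨g1, g2⟩
    rw [← map_inv, ← map_mul, ← map_mul, inv_D h hu huH h1, map_inv]
  obtain ⟨F, fF, fi, hcard, ⟨e⟩⟩ := CfsgLib.PermZ2.PGL_of_inverts φ.range h3 hsharp hab hac hbc (φ u) ⟨u, rfl⟩ hux huy hc hinv
  have hcF : Fintype.card F = Nat.card T := by
    have := h.card_X
    rw [Nat.card_eq_fintype_card] at this
    rw [this] at hcard
    exact Nat.add_right_cancel hcard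
  obtain ⟨e'⟩ := pgl_psl (F := F) (by rw [hcF]; exact h.even_T)
  exact ⟨F, fF, fi, hcF, ⟨((MonoidHom.ofInjective hinj).trans e).trans e'⟩⟩

end ZT

end CfsgLib.H9ZT
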