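import Cfsg.Agent.Lib.H9Zs

/-! # Large primitive prime divisors (Feit) -/

set_option autoImplicit false
set_option maxHeartbeats 1000000

namespace CfsgLib.H9Zs

open Polynomial

theorem totient_bound (n : ℕ) (hn : 0 < n) : n ≤ 2 * Nat.totient n ^ 2 ∧ (Odd n → n ≤ Nat.totient n ^ 2) := by
  induction n using Nat.recOnPosPrimePosCoprime with
  | zero => omega
  | one => simp
  | prime_pow p k hp hk =>
    obtain ⟨k, rfl⟩ := Nat.exists_eq_succ_of_ne_zero hk.ne'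
    rw [Nat.totient_prime_pow_succ hp, Nat.succ_eq_add_one]
    rcases hp.eq_two_or_odd' with rfl | hodd
    · constructor
      · have h1 : 1 ≤ 2 ^ k := Nat.one_le_pow _ _ (by norm_num)
        rw [pow_succ]
        norm_num
        nlinarith
      · intro h
        exact absurd h (by rw [Nat.not_odd_iff_even]; exact (even_two.pow_of_ne_zero (by omega)))
    · have h3 : 3 ≤ p := by
        have := hp.two_le
        rcases hodd with ⟨c, hc⟩
        omega
      have h4 : p ≤ (p - 1) ^ 2 := by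
        obtain ⟨c, rfl⟩ := Nat.exists_eq_add_of_le h3
        have : 3 + c - 1 = 2 + c := by omega
        rw [this]; nlinarith
      have h5 : p ^ (k + 1) ≤ (p ^ k * (p - 1)) ^ 2 := by
        have h1 : 1 ≤ p ^ k := Nat.one_le_pow _ _ hp.pos
        rw [pow_succ, mul_pow]
        apply Nat.mul_le_mul _ h4
        nlinarith
      exact ⟨by omega, fun _ => h5⟩
  | coprime a b ha hb hab iha ihb =>
    have ha0 : 0 < a := by omega
    have hb0 : 0 < b := by omega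
    obtain ⟨ha1, ha2⟩ := iha ha0
    obtain ⟨hb1, hb2⟩ := ihb hb0
    rw [Nat.totient_mul hab]
    constructor
    · rcases Nat.even_or_odd a with hae | hao
      · have hbo : Odd b := by
          rw [← Nat.not_even_iff_odd]
          intro hbe
          have := Nat.dvd_gcd hae.two_dvd hbe.two_dvd
          rw [hab] at this
          omega
        calc a * b ≤ (2 * Nat.totient a ^ 2) * Nat.totient b ^ 2 := Nat.mul_le_mul ha1 (hb2 hbo)
          _ = _ := by ring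
      · calc a * b ≤ Nat.totient a ^ 2 * (2 * Nat.totient b ^ 2) := Nat.mul_le_mul (ha2 hao) hb1
          _ = _ := by ring
    · intro h
      rw [Nat.odd_mul] at h
      rw [mul_pow]
      exact Nat.mul_le_mul (ha2 h.1) (hb2 h.2)

/-- a nonprimitive prime divisor of the cyclotomic value -/
def NP (n a r : ℕ) : Prop := ∃ j m, n = r ^ (j+1) * m ∧ ¬ r ∣ m ∧ m ∣ r - 1 ∧ IsPrimitiveRoot (a : ZMod r) m

theorem NP.dvd {n a r : ℕ} (h : NP n a r) : r ∣ n := by
  obtain ⟨j, m, hn, -⟩ := h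
  rw [hn]
  exact dvd_mul_of_dvd_left (dvd_pow_self r (by omega)) _

theorem NP.le {n a r s : ℕ} (hr : r.Prime) (hs : s.Prime) (h1 : NP n a r) (h2 : NP n a s) : r ≤ s := by
  obtain ⟨j, m, hn, hm, hm1, -⟩ := h2
  have hrn := h1.dvd
  rw [hn] at hrn
  rcases (Nat.Prime.dvd_mul hr).1 hrn with h1 | h1
  · exact ((Nat.prime_dvd_prime_iff_eq hr hs).1 (hr.dvd_of_dvd_pow h1)).le
  · have := Nat.le_of_dvd (by have := hs.two_le; omega) (h1.trans hm1)
    omega

theorem eq_one_or_prime {c : ℕ} (h1 : ∀ r s : ℕ, r.Prime → s.Prime → r ∣ c → s ∣ c → r = s)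
    (h2 : ∀ r : ℕ, r.Prime → ¬ r ^ 2 ∣ c) : c = 1 ∨ c.Prime := by
  rcases eq_or_ne c 1 with h | h
  · exact Or.inl h
  · right
    obtain ⟨r, hr, d, hd⟩ := Nat.exists_prime_and_dvd h
    have hd1 : d = 1 := by
      by_contra hd1
      obtain ⟨s, hs, hsd⟩ := Nat.exists_prime_and_dvd hd1
      have hsr := h1 s r hs hr (by rw [hd]; exact dvd_mul_of_dvd_right hsd _) ⟨d, hd⟩
      subst hsr
      apply h2 s hs
      rw [hd, pow_two]
      exact mul_dvd_mul_left _ hsd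
    rw [hd, hd1, mul_one]; exact hr

theorem key {n q : ℕ} (hq : 1 < q) (hn : 2 < n)
    (hno : ∀ p : ℕ, p.Prime → p ∣ q ^ n - 1 → (∀ i : ℕ, 1 ≤ i → i < n → ¬ p ∣ q ^ i - 1) → p ≤ n + 1 ∧ ¬ p ^ 2 ∣ q ^ n - 1) :
    ∃ r : ℕ, r.Prime ∧ r ∣ n ∧ (C n q ∣ r ∨ ((n+1).Prime ∧ C n q ∣ (n+1) * r)) := by
  have h0 : ∀ p : ℕ, p.Prime → p ∣ C n q → (p = n + 1 ∧ ¬ p ^ 2 ∣ C n q) ∨ NP n q p := by
    intro p hp hpC
    rcases prime_dvd hq (by omega) hp hpC with h1 | h1
    · left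
      obtain ⟨h2, h3⟩ := hno p hp (hpC.trans (C_dvd hq)) (fun i hi hin => h1 i (by omega) hin)
      refine ⟨le_antisymm h2 ?_, fun h => h3 (h.trans (C_dvd hq))⟩
      haveI : Fact p.Prime := ⟨hp⟩
      have h4 : IsPrimitiveRoot (q : ZMod p) n := by
        rw [IsPrimitiveRoot.iff (by omega)]
        refine ⟨(dvd_pow_sub_one hq).1 (hpC.trans (C_dvd hq)), fun l hl hln h => h1 l hl hln ((dvd_pow_sub_one hq).2 h)⟩
      have h5 := Nat.le_of_dvd (by have := hp.two_le; omega) (prim_dvd hp (by omega) h4)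
      omega
    · exact Or.inr h1
  have hns : ∀ p : ℕ, p.Prime → ¬ p ^ 2 ∣ C n q := by
    intro p hp hd
    have hpC : p ∣ C n q := (dvd_pow_self p (by norm_num)).trans hd
    rcases h0 p hp hpC with h1 | h1
    · exact h1.2 hd
    · obtain ⟨j, m, h2, h3, h4, h5⟩ := h1
      exact not_sq hq hn hp h2 h4 h5 hd
  have hmin := Nat.minFac_prime (n := n) (by omega)
  by_cases hC : (n + 1).Prime ∧ (n + 1) ∣ C n q
  · obtain ⟨hnp, c, hc⟩ := hC
    have hcn : ∀ s : ℕ, s.Prime → s ∣ c → NP n q s := by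
      intro s hs hsc
      rcases h0 s hs (by rw [hc]; exact dvd_mul_of_dvd_right hsc _) with h1 | h1
      · exfalso
        apply h1.2
        rw [hc, h1.1, pow_two]
        rw [h1.1] at hsc
        exact mul_dvd_mul_left _ hsc
      · exact h1
    rcases eq_one_or_prime (c := c)
      (fun r s hr hs hrc hsc => le_antisymm (NP.le hr hs (hcn r hr hrc) (hcn s hs hsc)) (NP.le hs hr (hcn s hs hsc) (hcn r hr hrc)))
      (fun r hr hd => hns r hr (by rw [hc]; exact dvd_mul_of_dvd_right hd _)) with h1 | h1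
    · refine ⟨n.minFac, hmin, Nat.minFac_dvd n, Or.inr ⟨hnp, ?_⟩⟩
      rw [hc, h1, mul_one]
      exact dvd_mul_right _ _
    · exact ⟨c, h1, (hcn c h1 dvd_rfl).dvd, Or.inr ⟨hnp, by rw [hc]⟩⟩
  · have hcn : ∀ s : ℕ, s.Prime → s ∣ C n q → NP n q s := by
      intro s hs hsc
      rcases h0 s hs hsc with h1 | h1
      · exfalso
        apply hC
        rw [← h1.1]
        exact ⟨hs, hsc⟩
      · exact h1
    rcases eq_one_or_prime (c := C n q)
      (fun r s hr hs hrc hsc => le_antisymm (NP.le hr hs (hcn r hr hrc) (hcn s hs hsc)) (NP.le hs hr (hcn s hs hsc) (hcn r hr hrc)))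
      (fun r hr hd => hns r hr hd) with h1 | h1
    · refine ⟨n.minFac, hmin, Nat.minFac_dvd n, Or.inl ?_⟩
      rw [h1]; exact one_dvd _
    · exact ⟨C n q, h1, (hcn _ h1 dvd_rfl).dvd, Or.inl dvd_rfl⟩

/-- the desired conclusion -/
def Good (q n : ℕ) : Prop :=
  ∃ p : ℕ, p.Prime ∧ p ∣ q ^ n - 1 ∧ (∀ i : ℕ, 1 ≤ i → i < n → ¬ p ∣ q ^ i - 1) ∧ (n + 1 < p ∨ p ^ 2 ∣ q ^ n - 1)

theorem expl (q n p : ℕ) (hp : p.Prime) (h1 : p ∣ q ^ n - 1) (h2 : ∀ i < n, 1 ≤ i → ¬ p ∣ q ^ i - 1) (h3 : n + 1 < p) :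
    Good q n := ⟨p, hp, h1, fun i hi hin => h2 i hin hi, Or.inl h3⟩

theorem of_not_good {q n : ℕ} (hq : 1 < q) (hn : 2 < n) (h : ¬ Good q n) :
    ∃ r : ℕ, r.Prime ∧ r ∣ n ∧ (C n q ≤ r ∨ ((n+1).Prime ∧ C n q ≤ (n+1) * r)) := by
  obtain ⟨r, hr, hrn, h1⟩ := key hq hn (by
    intro p hp hpd hprim
    by_contra hcon
    apply h
    refine ⟨p, hp, hpd, hprim, ?_⟩
    by_contra hcon2
    push Not at hcon2
    exact hcon ⟨hcon2.1, hcon2.2⟩)
  refine ⟨r, hr, hrn, ?_⟩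
  rcases h1 with h1 | ⟨h1, h2⟩
  · exact Or.inl (Nat.le_of_dvd hr.pos h1)
  · exact Or.inr ⟨h1, Nat.le_of_dvd (Nat.mul_pos (by omega) hr.pos) h2⟩

theorem tot_small : ∀ n < 243, 2 < n → Nat.totient n ≤ 11 →
    n ∈ [3,4,5,6,7,8,9,10,11,12,14,15,16,18,20,22,24,30] := by
  decide +kernel

end CfsgLib.H9Zs
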