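import Cfsg.Agent.Lib.H9Zt

/-! # Large primitive prime divisors (Feit): the size estimates -/

set_option autoImplicit false
set_option maxHeartbeats 1000000

namespace CfsgLib.H9Zs

open Polynomial

theorem case_two {q : ℕ} (hq : 2 ≤ q) (h1 : ¬ (∃ s t : ℕ, t ≤ 1 ∧ q + 1 = 2 ^ s * 3 ^ t)) : Good q 2 := by
  have h3 : q ^ 2 - 1 = (q + 1) * (q - 1) := by
    have := Nat.sq_sub_sq q 1
    rwa [one_pow] at this
  have hodd : ∀ p : ℕ, p.Prime → p ≠ 2 → p ∣ q + 1 → ∀ i : ℕ, 1 ≤ i → i < 2 → ¬ p ∣ q ^ i - 1 := by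
    intro p hp hp2 hpd i hi hi2 hd
    have : i = 1 := by omega
    subst this
    rw [pow_one] at hd
    have h4 : p ∣ 2 := by
      have := Nat.dvd_sub hpd hd
      have e : q + 1 - (q - 1) = 2 := by omega
      rwa [e] at this
    exact hp2 ((Nat.prime_dvd_prime_iff_eq hp Nat.prime_two).1 h4)
  by_cases h5 : ∃ p : ℕ, p.Prime ∧ 3 < p ∧ p ∣ q + 1
  · obtain ⟨p, hp, hp3, hpd⟩ := h5
    exact ⟨p, hp, by rw [h3]; exact dvd_mul_of_dvd_left hpd _, hodd p hp (by omega) hpd, Or.inl (by omega)⟩
  · push Not at h5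
    obtain ⟨s, m, hm, hqm⟩ := Nat.exists_eq_pow_mul_and_not_dvd (n := q + 1) (by omega) 2 (by norm_num)
    have hm0 : m ≠ 0 := by rintro rfl; simp at hqm
    obtain ⟨t, rfl⟩ : ∃ t, m = 3 ^ t := by
      refine ⟨_, Nat.eq_prime_pow_of_unique_prime_dvd hm0 fun {d} hd hdm => ?_⟩
      have hdq : d ∣ q + 1 := by rw [hqm]; exact dvd_mul_of_dvd_right hdm _
      have h6 : d ≤ 3 := by
        by_contra hcon
        exact h5 d hd (by omega) hdq
      have := hd.two_le
      have h7 : d ≠ 2 := by rintro rfl; exact hm hdm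
      omega
    have ht : 2 ≤ t := by
      by_contra hcon
      exact h1 ⟨s, t, by omega, hqm⟩
    have h9 : 3 ^ 2 ∣ q + 1 := by
      rw [hqm]; exact dvd_mul_of_dvd_right (pow_dvd_pow 3 ht) _
    have h3d : 3 ∣ q + 1 := (dvd_pow_self 3 (by norm_num)).trans h9
    refine ⟨3, Nat.prime_three, by rw [h3]; exact dvd_mul_of_dvd_left h3d _, hodd 3 Nat.prime_three (by norm_num) h3d, Or.inr ?_⟩
    rw [h3]; exact dvd_mul_of_dvd_left h9 _

theorem bound_phi {n r : ℕ} (hn : 2 < n) (hr : r.Prime) (hrn : r ∣ n) :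
    (n + 1) * r ≤ (2 * Nat.totient n ^ 2 + 1) * (Nat.totient n + 1) := by
  have h1 := (totient_bound n (by omega)).1
  have h2 : r - 1 ≤ Nat.totient n := by
    rw [← Nat.totient_prime hr]
    exact Nat.le_of_dvd (Nat.totient_pos.2 (by omega)) (Nat.totient_dvd_of_dvd hrn)
  exact Nat.mul_le_mul (by omega) (by omega)

theorem C_le {q n : ℕ} (hq : 1 < q) (hn : 2 < n) (h : ¬ Good q n) : ∃ r : ℕ, r.Prime ∧ r ∣ n ∧ C n q ≤ (n + 1) * r := by
  obtain ⟨r, hr, hrn, h1⟩ := of_not_good hq hn h
  refine ⟨r, hr, hrn, ?_⟩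
  rcases h1 with h1 | h1
  · nlinarith
  · exact h1.2

theorem C_lt_phi {q n : ℕ} (hq : 1 < q) (hn : 2 < n) (h : ¬ Good q n) :
    (q - 1) ^ Nat.totient n < (2 * Nat.totient n ^ 2 + 1) * (Nat.totient n + 1) := by
  obtain ⟨r, hr, hrn, h1⟩ := C_le hq hn h
  have h2 := lower hq (n := n) (by omega)
  have h3 := bound_phi hn hr hrn
  omega

theorem pow2_bound (t : ℕ) (ht : 12 ≤ t) : (2 * t ^ 2 + 1) * (t + 1) ≤ 2 ^ t := by
  induction t, ht using Nat.le_induction with
  | base => norm_num
  | succ t ht ih =>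
    rw [pow_succ]
    refine le_trans ?_ (Nat.mul_le_mul_right 2 ih)
    nlinarith [mul_le_mul ht ht (by norm_num) (by omega), mul_le_mul (mul_le_mul ht ht (by norm_num) (by omega)) ht (by norm_num) (by positivity)]

theorem pow3_bound (t : ℕ) (ht : 6 ≤ t) : (2 * t ^ 2 + 1) * (t + 1) ≤ 3 ^ t := by
  induction t, ht using Nat.le_induction with
  | base => norm_num
  | succ t ht ih =>
    rw [pow_succ]
    refine le_trans ?_ (Nat.mul_le_mul_right 3 ih)
    nlinarith [mul_le_mul ht ht (by norm_num) (by omega)]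

theorem case_q3 {n : ℕ} (hn : 2 < n) (h3 : n ≠ 4 ∧ n ≠ 6) : Good 3 n := by
  by_contra hG
  have h1 := C_lt_phi (by norm_num) hn hG
  norm_num at h1
  have h2 : Nat.totient n ≤ 11 := by
    by_contra hcon
    have := pow2_bound (Nat.totient n) (by omega)
    omega
  have h4 := (totient_bound n (by omega)).1
  have h5 : n < 243 := by nlinarith
  have h6 := tot_small n h5 hn h2
  simp only [List.mem_cons, List.not_mem_nil, or_false] at h6
  apply hG
  rcases h6 with rfl | rfl | rfl | rfl | rfl | rfl | rfl | rfl | rfl | rfl | rfl | rfl | rfl | rfl | rfl | rfl | rfl | rfl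
  · exact expl 3 3 13 (by norm_num) (by norm_num) (by decide) (by norm_num)
  · exact absurd rfl h3.1
  · exact expl 3 5 11 (by norm_num) (by norm_num) (by decide) (by norm_num)
  · exact absurd rfl h3.2
  · exact expl 3 7 1093 (by norm_num) (by norm_num) (by decide) (by norm_num)
  · exact expl 3 8 41 (by norm_num) (by norm_num) (by decide) (by norm_num)
  · exact expl 3 9 757 (by norm_num) (by norm_num) (by decide) (by norm_num)
  · exact expl 3 10 61 (by norm_num) (by norm_num) (by decide) (by norm_num)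
  · exact expl 3 11 23 (by norm_num) (by norm_num) (by decide) (by norm_num)
  · exact expl 3 12 73 (by norm_num) (by norm_num) (by decide) (by norm_num)
  · exact expl 3 14 547 (by norm_num) (by norm_num) (by decide) (by norm_num)
  · exact expl 3 15 4561 (by norm_num) (by norm_num) (by decide) (by norm_num)
  · exact expl 3 16 193 (by norm_num) (by norm_num) (by decide) (by norm_num)
  · exact expl 3 18 37 (by norm_num) (by norm_num) (by decide) (by norm_num)
  · exact expl 3 20 1181 (by norm_num) (by norm_num) (by decide) (by norm_num)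
  · exact expl 3 22 67 (by norm_num) (by norm_num) (by decide) (by norm_num)
  · exact expl 3 24 6481 (by norm_num) (by norm_num) (by decide) (by norm_num)
  · exact expl 3 30 271 (by norm_num) (by norm_num) (by decide) (by norm_num)

theorem case_q4 {q n : ℕ} (hq : 4 ≤ q) (hn : 2 < n) (h4 : ¬ (q = 5 ∧ n = 6)) : Good q n := by
  by_contra hG
  have h1 := C_lt_phi (by omega) hn hG
  have h0 : 3 ^ Nat.totient n ≤ (q - 1) ^ Nat.totient n := Nat.pow_le_pow_left (by omega) _
  have h2 : Nat.totient n ≤ 5 := by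
    by_contra hcon
    have := pow3_bound (Nat.totient n) (by omega)
    omega
  have h5 := (totient_bound n (by omega)).1
  have h6 := tot_small n (by nlinarith) hn (by omega)
  have hlow := lower (a := q) (n := n) (by omega) (by omega)
  obtain ⟨r, hr, hrn, hC⟩ := of_not_good (by omega) hn hG
  have hrle := Nat.le_of_dvd (by omega) hrn
  simp only [List.mem_cons, List.not_mem_nil, or_false] at h6
  have hq1 : 3 ≤ q - 1 := by omega
  rcases h6 with rfl | rfl | rfl | rfl | rfl | rfl | rfl | rfl | rfl | rfl | rfl | rfl | rfl | rfl | rfl | rfl | rfl | rfl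
  · -- n = 3
    have e : Nat.totient 3 = 2 := by decide
    rw [e] at hlow
    rcases hC with hC | ⟨hC, -⟩
    · nlinarith
    · norm_num at hC
  · -- n = 4
    have e : Nat.totient 4 = 2 := by decide
    rw [e] at hlow
    have hr2 : r ≤ 2 := by interval_cases r <;> first | omega | norm_num at hr | norm_num at hrn
    have hCl : C 4 q ≤ 10 := by
      rcases hC with hC | ⟨-, hC⟩ <;> omega
    have hq4 : q = 4 := by
      by_contra hcon
      have : 4 ≤ q - 1 := by omega
      nlinarith
    subst hq4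
    exact hG (expl 4 4 17 (by norm_num) (by norm_num) (by decide) (by norm_num))
  · have e : Nat.totient 5 = 4 := by decide
    rw [e] at hlow h0
    rcases hC with hC | ⟨hC, -⟩
    · omega
    · norm_num at hC
  · -- n = 6
    have e : Nat.totient 6 = 2 := by decide
    rw [e] at hlow
    have hr2 : r ≤ 3 := by interval_cases r <;> first | omega | norm_num at hr | norm_num at hrn
    have hCl : C 6 q ≤ 21 := by
      rcases hC with hC | ⟨-, hC⟩ <;> omega
    have hq4 : q = 4 := by
      by_contra hcon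
      have : q ≠ 5 := fun h => h4 ⟨h, rfl⟩
      have : 5 ≤ q - 1 := by omega
      nlinarith
    subst hq4
    exact hG (expl 4 6 13 (by norm_num) (by norm_num) (by decide) (by norm_num))
  · exact absurd h2 (by decide)
  · have e : Nat.totient 8 = 4 := by decide
    rw [e] at hlow h0
    rcases hC with hC | ⟨hC, -⟩
    · omega
    · norm_num at hC
  · exact absurd h2 (by decide)
  · have e : Nat.totient 10 = 4 := by decide
    rw [e] at hlow h0
    have hr2 : r ≤ 5 := by interval_cases r <;> first | omega | norm_num at hr | norm_num at hrn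
    rcases hC with hC | ⟨-, hC⟩ <;> omega
  · exact absurd h2 (by decide)
  · have e : Nat.totient 12 = 4 := by decide
    rw [e] at hlow h0
    have hr2 : r ≤ 3 := by interval_cases r <;> first | omega | norm_num at hr | norm_num at hrn
    rcases hC with hC | ⟨-, hC⟩ <;> omega
  all_goals exact absurd h2 (by decide)

end CfsgLib.H9Zs
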