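import Cfsg.Agent.Lib.H9Zu

/-! # Large primitive prime divisors (Feit): the case q = 2 -/

set_option autoImplicit false
set_option maxHeartbeats 1000000

namespace CfsgLib.H9Zs

open Polynomial

theorem L1 (t : ℕ) (ht : 5 ≤ t) : (2 * t ^ 2 * 2 + 1) * 2 < 3 ^ t := by
  induction t, ht using Nat.le_induction with
  | base => norm_num
  | succ t ht ih =>
    rw [pow_succ]
    refine lt_of_le_of_lt ?_ (Nat.mul_lt_mul_of_pos_right ih (by norm_num : 0 < 3))
    nlinarith

theorem L2 (t : ℕ) (ht : 3 ≤ t) : (2 * t ^ 2 * (t + 1) + 1) * (t + 1) < 7 ^ t := by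
  induction t, ht using Nat.le_induction with
  | base => norm_num
  | succ t ht ih =>
    rw [pow_succ]
    refine lt_of_le_of_lt ?_ (Nat.mul_lt_mul_of_pos_right ih (by norm_num : 0 < 7))
    obtain ⟨s, rfl⟩ := Nat.exists_eq_add_of_le ht
    ring_nf
    nlinarith [Nat.zero_le (s ^ 2), Nat.zero_le (s ^ 3), Nat.zero_le (s ^ 4)]

theorem L3 (t : ℕ) (ht : 9 ≤ t) : 3 ^ t * ((2 * t ^ 2 * 3 + 1) * 3) < 7 ^ t := by
  induction t, ht using Nat.le_induction with
  | base => norm_num
  | succ t ht ih =>
    rw [pow_succ 7]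
    refine lt_of_le_of_lt ?_ (Nat.mul_lt_mul_of_pos_right ih (by norm_num : 0 < 7))
    rw [pow_succ 3, mul_assoc, mul_assoc (3 ^ t)]
    apply Nat.mul_le_mul_left
    nlinarith

theorem L4 (t : ℕ) (ht : 3 ≤ t) : 3 ^ t * ((2 * t ^ 2 * 5 + 1) * 5) < 31 ^ t := by
  induction t, ht using Nat.le_induction with
  | base => norm_num
  | succ t ht ih =>
    rw [pow_succ 31]
    refine lt_of_le_of_lt ?_ (Nat.mul_lt_mul_of_pos_right ih (by norm_num : 0 < 31))
    rw [pow_succ 3, mul_assoc, mul_assoc (3 ^ t)]
    apply Nat.mul_le_mul_left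
    nlinarith

theorem L5 (t : ℕ) (ht : 2 ≤ t) : 3 ^ t * ((2 * t ^ 2 * 7 + 1) * 7) < 127 ^ t := by
  induction t, ht using Nat.le_induction with
  | base => norm_num
  | succ t ht ih =>
    rw [pow_succ 127]
    refine lt_of_le_of_lt ?_ (Nat.mul_lt_mul_of_pos_right ih (by norm_num : 0 < 127))
    rw [pow_succ 3, mul_assoc, mul_assoc (3 ^ t)]
    apply Nat.mul_le_mul_left
    nlinarith

theorem L6 (P : ℕ) (hP : 11 ≤ P) : 3 * ((2 * P + 1) * P) + 1 < 2 ^ P := by
  induction P, hP using Nat.le_induction with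
  | base => norm_num
  | succ P hP ih =>
    rw [pow_succ]
    refine lt_of_le_of_lt ?_ (Nat.mul_lt_mul_of_pos_right ih (by norm_num : 0 < 2))
    nlinarith

theorem L7 (P t : ℕ) (hP : 11 ≤ P) (ht : 1 ≤ t) : (2 * t ^ 2 * P + 1) * P ≤ ((2 * P + 1) * P) ^ t := by
  induction t, ht using Nat.le_induction with
  | base => norm_num
  | succ t ht ih =>
    rw [pow_succ ((2 * P + 1) * P)]
    refine le_trans ?_ (Nat.mul_le_mul_right _ ih)
    have h1 : (2 * (t + 1) ^ 2 * P + 1) ≤ (2 * t ^ 2 * P + 1) * 4 := by
      have : (t + 1) ^ 2 ≤ 4 * t ^ 2 := by nlinarith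
      nlinarith [Nat.mul_le_mul_right P this]
    have h2 : 4 ≤ (2 * P + 1) * P := by nlinarith
    calc (2 * (t + 1) ^ 2 * P + 1) * P ≤ ((2 * t ^ 2 * P + 1) * 4) * P := Nat.mul_le_mul_right _ h1
      _ = (2 * t ^ 2 * P + 1) * P * 4 := by ring
      _ ≤ _ := Nat.mul_le_mul_left _ h2

theorem case_q2 {n : ℕ} (hn : 2 < n) (h2 : ¬ (n = 4 ∨ n = 6 ∨ n = 10 ∨ n = 12 ∨ n = 18)) : Good 2 n := by
  by_contra hG
  obtain ⟨r, hr, hrn, hC⟩ := C_le (by norm_num) hn hG
  have hne : n.primeFactors.Nonempty := Nat.nonempty_primeFactors.2 (by omega)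
  set P := n.primeFactors.max' hne with hPdef
  have hPm : P ∈ n.primeFactors := Finset.max'_mem _ _
  have hPmax : ∀ s : ℕ, s.Prime → s ∣ n → s ≤ P := fun s hs hsn =>
    Finset.le_max' _ _ (Nat.mem_primeFactors.2 ⟨hs, hsn, by omega⟩)
  clear_value P
  have hP := (Nat.mem_primeFactors.1 hPm).1
  have hPn := (Nat.mem_primeFactors.1 hPm).2.1
  have hCP : C n 2 ≤ (n + 1) * P := hC.trans (Nat.mul_le_mul_left _ (hPmax r hr hrn))
  obtain ⟨j, m, hm, hnm⟩ := Nat.exists_eq_pow_mul_and_not_dvd (n := n) (by omega) P hP.ne_one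
  have hm0 : 0 < m := by
    rcases Nat.eq_zero_or_pos m with rfl | h
    · exact absurd (dvd_zero P) hm
    · exact h
  have hmmax : ∀ s : ℕ, s.Prime → s ∣ m → s < P := fun s hs hsm =>
    lt_of_le_of_ne (hPmax s hs (by rw [hnm]; exact dvd_mul_of_dvd_right hsm _)) (by rintro rfl; exact hm hsm)
  rcases j with _ | j
  · rw [pow_zero, one_mul] at hnm
    exact hm (hnm ▸ hPn)
  rcases j with _ | i
  · -- `P` exactly divides `n`
    have hn' : n = m * P := by rw [hnm]; ring
    have e1 := C_mul_not_dvd (a := 2) (by norm_num) hP hm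
    rw [← hn'] at e1
    have e2 := lower' (n := m) (a := 2 ^ P) (one_lt_pow₀ (by norm_num) hP.ne_zero)
    have e3 := upper (n := m) (a := 2) (by norm_num)
    have e4 := (totient_bound m hm0).1
    have ht := Nat.totient_pos.2 hm0
    set t := Nat.totient m with htd
    have e5 : (2 ^ P - 1) ^ t ≤ 3 ^ t * ((2 * t ^ 2 * P + 1) * P) := by
      calc (2 ^ P - 1) ^ t ≤ C n 2 * C m 2 := by rw [e1]; exact e2
        _ ≤ ((n + 1) * P) * 3 ^ t := Nat.mul_le_mul hCP e3
        _ = 3 ^ t * ((n + 1) * P) := by ring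
        _ ≤ _ := Nat.mul_le_mul_left _ (Nat.mul_le_mul_right _ (by
            rw [hn']; exact Nat.succ_le_succ (Nat.mul_le_mul_right _ e4)))
    have hP3 : 3 ≤ P := by
      have := hP.two_le
      by_contra hcon
      have hP2 : P = 2 := by omega
      have hm1 : m = 1 := by
        by_contra hm1
        obtain ⟨s, hs, hsm⟩ := Nat.exists_prime_and_dvd hm1
        have := hmmax s hs hsm
        have := hs.two_le
        omega
      rw [hn', hP2, hm1] at hn
      omega
    rcases Nat.lt_or_ge P 11 with hP11 | hP11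
    · have hP' : P = 3 ∨ P = 5 ∨ P = 7 := by
        interval_cases P <;> first | omega | (norm_num at hP)
      rcases hP' with rfl | rfl | rfl
      · -- P = 3
        have ht9 : t < 9 := by
          by_contra hcon
          have := L3 t (by omega)
          norm_num at e5
          omega
        obtain ⟨a, rfl⟩ : ∃ a, m = 2 ^ a := by
          refine ⟨_, Nat.eq_prime_pow_of_unique_prime_dvd hm0.ne' fun {d} hd hdm => ?_⟩
          have := hmmax d hd hdm
          have := hd.two_le
          omega
        have ha : a ≤ 4 := by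
          by_contra hcon
          obtain ⟨b, rfl⟩ := Nat.exists_eq_add_of_le (show 5 ≤ a by omega)
          have : t = 2 ^ (4 + b) := by
            rw [htd, show 5 + b = (4 + b) + 1 by ring, Nat.totient_prime_pow_succ Nat.prime_two]
            norm_num
          have h3 : 2 ^ 4 ≤ 2 ^ (4 + b) := Nat.pow_le_pow_right (by norm_num) (by omega)
          omega
        apply hG
        rw [hn']
        interval_cases a
        · exact expl 2 3 7 (by norm_num) (by norm_num) (by decide) (by norm_num)
        · exact absurd hn' (by omega)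
        · exact absurd hn' (by omega)
        · exact expl 2 24 241 (by norm_num) (by norm_num) (by decide) (by norm_num)
        · exact expl 2 48 673 (by norm_num) (by norm_num) (by decide +kernel) (by norm_num)
      · -- P = 5
        have ht3 : t < 3 := by
          by_contra hcon
          have := L4 t (by omega)
          norm_num at e5
          omega
        have hm8 : m ≤ 8 := by nlinarith
        apply hG
        rw [hn']
        interval_cases m
        · exact expl 2 5 31 (by norm_num) (by norm_num) (by decide) (by norm_num)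
        · exact absurd hn' (by omega)
        · exact expl 2 15 151 (by norm_num) (by norm_num) (by decide) (by norm_num)
        · exact expl 2 20 41 (by norm_num) (by norm_num) (by decide) (by norm_num)
        · exact absurd (dvd_refl 5) hm
        · exact expl 2 30 331 (by norm_num) (by norm_num) (by decide) (by norm_num)
        · exact absurd (hmmax 7 (by norm_num) dvd_rfl) (by norm_num)
        · exact absurd ht3 (by rw [htd]; decide)
      · -- P = 7
        have ht2 : t < 2 := by
          by_contra hcon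
          have := L5 t (by omega)
          norm_num at e5
          omega
        have hm2 : m ≤ 2 := by nlinarith
        apply hG
        rw [hn']
        interval_cases m
        · exact expl 2 7 127 (by norm_num) (by norm_num) (by decide) (by norm_num)
        · exact expl 2 14 43 (by norm_num) (by norm_num) (by decide) (by norm_num)
    · have h6 := L6 P hP11
      have h7 := L7 P t hP11 ht
      have h8 : (3 * ((2 * P + 1) * P)) ^ t < (2 ^ P - 1) ^ t := Nat.pow_lt_pow_left (by omega) ht.ne'
      rw [mul_pow] at h8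
      have h9 : 3 ^ t * ((2 * t ^ 2 * P + 1) * P) ≤ 3 ^ t * ((2 * P + 1) * P) ^ t := Nat.mul_le_mul_left _ h7
      omega
  · -- `P ^ 2` divides `n`
    obtain ⟨u, hu⟩ : ∃ u, u = P ^ (i + 1) * m := ⟨_, rfl⟩
    have hn' : n = u * P := by rw [hnm, hu]; ring
    have hPu : P ∣ u := by rw [hu]; exact dvd_mul_of_dvd_left (dvd_pow_self P (by omega)) _
    have hu0 : 0 < u := by rw [hu]; exact Nat.mul_pos (pow_pos hP.pos _) hm0
    have e1 := C_mul_dvd (a := 2) (by norm_num) hP hPu
    rw [← hn'] at e1
    have e2 := lower' (n := u) (a := 2 ^ P) (one_lt_pow₀ (by norm_num) hP.ne_zero)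
    have e4 := (totient_bound u hu0).1
    have ht := Nat.totient_pos.2 hu0
    have hPt : P - 1 ≤ Nat.totient u := by
      rw [← Nat.totient_prime hP]
      exact Nat.le_of_dvd ht (Nat.totient_dvd_of_dvd hPu)
    set t := Nat.totient u with htd
    have e5 : (2 ^ P - 1) ^ t ≤ (2 * t ^ 2 * P + 1) * P := by
      calc (2 ^ P - 1) ^ t ≤ C n 2 := by rw [e1]; exact e2
        _ ≤ ((n + 1) * P) := hCP
        _ ≤ _ := (Nat.mul_le_mul_right _ (by
            rw [hn']; exact Nat.succ_le_succ (Nat.mul_le_mul_right _ e4)))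
    rcases Nat.lt_or_ge P 3 with hP3 | hP3
    · have hP2 : P = 2 := by have := hP.two_le; omega
      subst hP2
      have ht5 : t < 5 := by
        by_contra hcon
        have := L1 t (by omega)
        norm_num at e5
        omega
      have hm1 : m = 1 := by
        by_contra hm1
        obtain ⟨s, hs, hsm⟩ := Nat.exists_prime_and_dvd hm1
        have := hmmax s hs hsm
        have := hs.two_le
        omega
      subst hm1
      rw [mul_one] at hu
      have hi : i ≤ 2 := by
        by_contra hcon
        have : t = 2 ^ i := by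
          rw [htd, hu, Nat.totient_prime_pow_succ Nat.prime_two]
          norm_num
        have h3 : 2 ^ 3 ≤ 2 ^ i := Nat.pow_le_pow_right (by norm_num) (by omega)
        omega
      apply hG
      rw [hn', hu]
      interval_cases i
      · exact absurd hn' (by omega)
      · exact expl 2 8 17 (by norm_num) (by norm_num) (by decide) (by norm_num)
      · exact expl 2 16 257 (by norm_num) (by norm_num) (by decide) (by norm_num)
    · have h7 : 7 ^ t ≤ (2 ^ P - 1) ^ t := by
        apply Nat.pow_le_pow_left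
        have : 2 ^ 3 ≤ 2 ^ P := Nat.pow_le_pow_right (by norm_num) hP3
        omega
      have h8 : (2 * t ^ 2 * P + 1) * P ≤ (2 * t ^ 2 * (t + 1) + 1) * (t + 1) :=
        Nat.mul_le_mul (Nat.succ_le_succ (Nat.mul_le_mul_left _ (by omega))) (by omega)
      have ht3 : t < 3 := by
        by_contra hcon
        have := L2 t (by omega)
        omega
      have hP' : P = 3 := by omega
      subst hP'
      have hu8 : u ≤ 8 := by nlinarith
      obtain ⟨v, rfl⟩ := hPu
      apply hG
      rw [hn']
      have hv : v = 1 ∨ v = 2 := by omega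
      rcases hv with rfl | rfl
      · exact expl 2 9 73 (by norm_num) (by norm_num) (by decide) (by norm_num)
      · exact absurd hn' (by omega)

theorem feit (q n : ℕ) (hq : 2 ≤ q) (hn : 2 ≤ n)
    (h1 : ¬ (n = 2 ∧ ∃ s t : ℕ, t ≤ 1 ∧ q + 1 = 2 ^ s * 3 ^ t))
    (h2 : ¬ (q = 2 ∧ (n = 4 ∨ n = 6 ∨ n = 10 ∨ n = 12 ∨ n = 18)))
    (h3 : ¬ (q = 3 ∧ (n = 4 ∨ n = 6))) (h4 : ¬ (q = 5 ∧ n = 6)) : Good q n := by
  rcases hn.eq_or_lt with rfl | hn
  · exact case_two hq (fun h => h1 ⟨rfl, h⟩)
  · rcases hq.eq_or_lt with rfl | hq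
    · exact case_q2 hn (fun h => h2 ⟨rfl, h⟩)
    · rcases Nat.eq_or_lt_of_le (Nat.succ_le_of_lt hq) with h | h
      · have : q = 3 := by omega
        subst this
        exact case_q3 hn ⟨fun h => h3 ⟨rfl, Or.inl h⟩, fun h => h3 ⟨rfl, Or.inr h⟩⟩
      · exact case_q4 (by omega) hn h4

end CfsgLib.H9Zs
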