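import Mathlib
import Cfsg.Prelude

/-!
Monomial groups of codes.
-/

set_option autoImplicit false

namespace CfsgLib.Mono

open Cfsg Finset

variable {α F : Type*} [Field F] (C : Submodule F (α → F))

/-- preserving the code -/
def Pres (σ : Equiv.Perm α) (c : α → Fˣ) : Prop := ∀ x ∈ C, monomialMap σ c x ∈ C

theorem mono_add (σ : Equiv.Perm α) (c : α → Fˣ) (x y : α → F) : monomialMap σ c (x + y) = monomialMap σ c x + monomialMap σ c y := by
  funext i; simp only [monomialMap, Pi.add_apply]; ring

theorem mono_smul (σ : Equiv.Perm α) (c : α → Fˣ) (a : F) (x : α → F) : monomialMap σ c (a • x) = a • monomialMap σ c x := by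
  funext i; simp only [monomialMap, Pi.smul_apply, smul_eq_mul]; ring

variable {C}

theorem pres_mul {σ τ : Equiv.Perm α} {c d : α → Fˣ} (h1 : Pres C σ c) (h2 : Pres C τ d) : Pres C (σ * τ) (fun i => c i * d (σ.symm i)) := by
  intro x hx
  have := h1 _ (h2 x hx)
  have e : monomialMap (σ * τ) (fun i => c i * d (σ.symm i)) x = monomialMap σ c (monomialMap τ d x) := by
    funext i
    simp only [monomialMap, Units.val_mul]
    rw [mul_assoc]; rfl
  rw [e]; exact this

theorem mono_inv (σ : Equiv.Perm α) (c : α → Fˣ) (x : α → F) :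
    monomialMap σ c (monomialMap σ⁻¹ (fun i => (c (σ i))⁻¹) x) = x := by
  funext i
  simp only [monomialMap]
  have e1 : σ (σ.symm i) = i := σ.apply_symm_apply i
  have e2 : (σ⁻¹).symm (σ.symm i) = i := σ.apply_symm_apply i
  rw [e1, e2, ← mul_assoc, Units.mul_inv, one_mul]

theorem mono_inj (σ : Equiv.Perm α) (c : α → Fˣ) : Function.Injective (monomialMap σ c) := by
  intro x y h
  funext i
  have h1 := congrFun h (σ i)
  simp only [monomialMap] at h1
  rw [σ.symm_apply_apply] at h1
  exact (Units.mul_right_inj _).mp h1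

variable [Finite α] [Finite F]

theorem pres_inv {σ : Equiv.Perm α} {c : α → Fˣ} (h : Pres C σ c) : Pres C σ⁻¹ (fun i => (c (σ i))⁻¹) := by
  intro x hx
  have : Finite (α → F) := inferInstance
  let f : C → C := fun y => ⟨monomialMap σ c y, h _ y.2⟩
  have hf : Function.Injective f := fun y z hyz => Subtype.ext (mono_inj σ c (congrArg Subtype.val hyz))
  obtain ⟨y, hy⟩ := Finite.surjective_of_injective hf ⟨x, hx⟩
  have h1 : monomialMap σ c y = x := congrArg Subtype.val hy
  have h2 : monomialMap σ⁻¹ (fun i => (c (σ i))⁻¹) x = y := mono_inj σ c (by rw [mono_inv, h1])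
  rw [h2]; exact y.2

variable (C) in
/-- the group of permutations -/
def HH : Subgroup (Equiv.Perm α) where
  carrier := {σ | ∃ c, Pres C σ c}
  one_mem' := ⟨fun _ => 1, fun x hx => by
    have : monomialMap 1 (fun _ => (1 : Fˣ)) x = x := by
      funext i
      change ((1 : Fˣ) : F) * x i = x i
      rw [Units.val_one, one_mul]
    rw [this]; exact hx⟩
  mul_mem' := by rintro σ τ ⟨c, hc⟩ ⟨d, hd⟩; exact ⟨_, pres_mul hc hd⟩
  inv_mem' := by rintro σ ⟨c, hc⟩; exact ⟨_, pres_inv hc⟩

theorem mem_HH {σ : Equiv.Perm α} : σ ∈ HH C ↔ ∃ c, Pres C σ c := Iff.rfl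

theorem card_mono (i0 : α) (hs : ∀ c, Pres C 1 c → ∀ i j, c i = c j) :
    Nat.card {f : Equiv.Perm α × (α → Fˣ) // Pres C f.1 f.2} = Nat.card (HH C) * Nat.card Fˣ := by
  have hch : ∀ σ : HH C, ∃ c, Pres C (σ : Equiv.Perm α) c := fun σ => σ.2
  choose c hc using hch
  let G : HH C × Fˣ → {f : Equiv.Perm α × (α → Fˣ) // Pres C f.1 f.2} := fun p =>
    ⟨((p.1 : Equiv.Perm α), fun i => p.2 * c p.1 i), by
      intro x hx
      have e : monomialMap (p.1 : Equiv.Perm α) (fun i => p.2 * c p.1 i) x = (p.2 : F) • monomialMap (p.1 : Equiv.Perm α) (c p.1) x := by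
        funext i
        simp only [monomialMap, Units.val_mul, Pi.smul_apply, smul_eq_mul]
        rw [mul_assoc]
      rw [e]
      exact Submodule.smul_mem _ _ (hc p.1 x hx)⟩
  have hG : Function.Bijective G := by
    constructor
    · rintro ⟨σ, u⟩ ⟨τ, v⟩ h
      have h1 := congrArg (fun z => z.1.1) h
      have h2 : σ = τ := Subtype.ext h1
      subst h2
      have h3 := congrFun (congrArg (fun z => z.1.2) h) i0
      have h4 : u = v := mul_right_cancel h3
      rw [h4]
    · rintro ⟨⟨σ, d⟩, hd⟩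
      let s : HH C := ⟨σ, d, hd⟩
      have hcs := hc s
      have h1 := pres_mul hd (pres_inv hcs)
      have h2 : Pres C 1 (fun i => d i * (c s i)⁻¹) := by
        have e1 : σ * (s : Equiv.Perm α)⁻¹ = 1 := mul_inv_cancel σ
        rw [e1] at h1
        have e2 : (fun i => d i * (c s ((s : Equiv.Perm α) (σ.symm i)))⁻¹) = fun i => d i * (c s i)⁻¹ := by
          funext i
          have : (s : Equiv.Perm α) (σ.symm i) = i := σ.apply_symm_apply i
          rw [this]
        rw [← e2]; exact h1
      refine ⟨(s, d i0 * (c s i0)⁻¹), ?_⟩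
      apply Subtype.ext
      change (σ, fun i => (d i0 * (c s i0)⁻¹) * c s i) = (σ, d)
      congr 1
      funext i
      have h3 := hs _ h2 i0 i
      rw [h3, inv_mul_cancel_right]
  rw [← Nat.card_congr (Equiv.ofBijective G hG), Nat.card_prod]

end CfsgLib.Mono
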