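import Mathlib
import Cfsg.Agent.Lib.Mono

/-!
The hexacode.
-/

set_option autoImplicit false
set_option linter.all false

namespace CfsgLib.Hexacode

open Cfsg Finset

/-! ### tables -/

def add4 : Fin 4 → Fin 4 → Fin 4 := ![![0, 1, 2, 3], ![1, 0, 3, 2], ![2, 3, 0, 1], ![3, 2, 1, 0]]
def mul4 : Fin 4 → Fin 4 → Fin 4 := ![![0, 0, 0, 0], ![0, 1, 2, 3], ![0, 2, 3, 1], ![0, 3, 1, 2]]
def v4 : Fin 3 → Fin 6 → Fin 4 := ![![2, 3, 3, 2, 3, 2], ![3, 2, 2, 3, 3, 2], ![3, 2, 3, 2, 2, 3]]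
def u4 : Fin 3 → Fin 6 → Fin 4 := ![![1, 0, 0, 1, 3, 2], ![0, 1, 0, 1, 2, 3], ![0, 0, 1, 1, 1, 1]]
def cmb (v : Fin 3 → Fin 6 → Fin 4) (a b c : Fin 4) (i : Fin 6) : Fin 4 := add4 (add4 (mul4 a (v 0 i)) (mul4 b (v 1 i))) (mul4 c (v 2 i))

/-- membership test -/
def inC (x : Fin 6 → Fin 4) : Bool := decide (∀ i, x i = cmb u4 (x 0) (x 1) (x 2) i)

theorem v_to_u : ∀ a b c : Fin 4, inC (cmb v4 a b c) = true := by decide +kernel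
theorem u_in_v : ∀ j : Fin 3, ∃ a b c, ∀ i, u4 j i = cmb v4 a b c i := by decide +kernel
theorem u_info : ∀ a b c, cmb u4 a b c 0 = a ∧ cmb u4 a b c 1 = b ∧ cmb u4 a b c 2 = c := by decide +kernel

def wt4 (x : Fin 6 → Fin 4) : ℕ := (univ.filter fun i => x i ≠ 0).card
theorem wts : ∀ a b c : Fin 4, (a = 0 ∧ b = 0 ∧ c = 0) ∨ wt4 (cmb u4 a b c) = 4 ∨ wt4 (cmb u4 a b c) = 6 := by decide +kernel
theorem cnt4 : (univ.filter fun t : Fin 4 × Fin 4 × Fin 4 => wt4 (cmb u4 t.1 t.2.1 t.2.2) = 4).card = 45 := by decide +kernel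
theorem cnt6 : (univ.filter fun t : Fin 4 × Fin 4 × Fin 4 => wt4 (cmb u4 t.1 t.2.1 t.2.2) = 6).card = 18 := by decide +kernel

section field
variable {F : Type*} [Field F] [Fintype F] [DecidableEq F] (hF : Fintype.card F = 4) {ω : F} (hω : ω ^ 2 + ω + 1 = 0)

def ph (ω : F) : Fin 4 → F := ![0, 1, ω, ω ^ 2]

include hF in
theorem two : (2 : F) = 0 := by
  have h1 : ((Fintype.card F : ℕ) : F) = 0 := Nat.cast_card_eq_zero F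
  rw [hF] at h1
  have h2 : (2 : F) * 2 = 0 := by push_cast at h1; linear_combination h1
  exact mul_self_eq_zero.mp h2

include hF hω

theorem w_ne0 : ω ≠ 0 := by
  rintro rfl
  simp at hω

theorem w_ne1 : ω ≠ 1 := by
  rintro rfl
  have h2 := two hF
  have : (1 : F) = 0 := by linear_combination hω - h2
  exact one_ne_zero this

theorem w3 : ω ^ 3 = 1 := by linear_combination (ω - 1) * hω

theorem ph_inj : Function.Injective (ph ω) := by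
  have h0 := w_ne0 hF hω
  have h1 := w_ne1 hF hω
  have h2 : ω ^ 2 ≠ 0 := pow_ne_zero _ h0
  have h3 : ω ^ 2 ≠ 1 := by
    intro h
    have : (ω - 1) * (ω + 1) = 0 := by linear_combination h
    rcases mul_eq_zero.mp this with h' | h'
    · exact h1 (sub_eq_zero.mp h')
    · have h2 := two hF
      apply h1; linear_combination h' - h2
  have h4 : ω ^ 2 ≠ ω := by
    intro h
    have : ω * (ω - 1) = 0 := by linear_combination h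
    rcases mul_eq_zero.mp this with h' | h'
    · exact h0 h'
    · exact h1 (sub_eq_zero.mp h')
  intro a b hab
  fin_cases a <;> fin_cases b <;> simp only [ph] at hab <;> first
    | rfl
    | (exfalso; revert hab; simp [h0, h1, h2, h3, h4, h0.symm, h1.symm, h2.symm, h3.symm, h4.symm])

theorem ph_surj : Function.Surjective (ph ω) :=
  ((Fintype.bijective_iff_injective_and_card _).mpr ⟨ph_inj hF hω, by rw [hF]; rfl⟩).2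

theorem ph_add (a b : Fin 4) : ph ω (add4 a b) = ph ω a + ph ω b := by
  have h2 := two hF
  have h3 := w3 hF hω
  fin_cases a <;> fin_cases b <;> simp [ph, add4] <;> first
    | linear_combination hω * 0
    | linear_combination (-1 : F) * hω + h2 * (ω^2 + ω + 1)
    | linear_combination hω - h2
    | linear_combination (-1 : F) * h2
    | linear_combination (-ω) * h2
    | linear_combination (-ω^2) * h2
    | linear_combination hω - (1 + ω) * h2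
    | linear_combination hω - (1 + ω^2) * h2
    | linear_combination hω - (ω + ω^2) * h2
    | linear_combination hω - (ω) * h2
    | linear_combination hω - (ω^2) * h2

theorem ph_mul (a b : Fin 4) : ph ω (mul4 a b) = ph ω a * ph ω b := by
  have h3 := w3 hF hω
  fin_cases a <;> fin_cases b <;> simp [ph, mul4] <;> first
    | linear_combination (-1 : F) * h3
    | linear_combination (-ω) * h3
    | linear_combination (1 : F) * h3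
    | ring


/-- basis words -/
theorem V_eq : hexacode F ω = Submodule.span F {(fun i => ph ω (v4 0 i)), (fun i => ph ω (v4 1 i)), (fun i => ph ω (v4 2 i))} := by
  have e0 : (fun i => ph ω (v4 0 i)) = ![ω, ω ^ 2, ω ^ 2, ω, ω ^ 2, ω] := by
    funext i; fin_cases i <;> rfl
  have e1 : (fun i => ph ω (v4 1 i)) = ![ω ^ 2, ω, ω, ω ^ 2, ω ^ 2, ω] := by
    funext i; fin_cases i <;> rfl
  have e2 : (fun i => ph ω (v4 2 i)) = ![ω ^ 2, ω, ω ^ 2, ω, ω, ω ^ 2] := by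
    funext i; fin_cases i <;> rfl
  rw [e0, e1, e2]; rfl

theorem ph_cmb (v : Fin 3 → Fin 6 → Fin 4) (a b c : Fin 4) : (fun i => ph ω (cmb v a b c i)) =
    ph ω a • (fun i => ph ω (v 0 i)) + ph ω b • (fun i => ph ω (v 1 i)) + ph ω c • (fun i => ph ω (v 2 i)) := by
  funext i
  simp only [cmb, ph_add hF hω, ph_mul hF hω, Pi.add_apply, Pi.smul_apply, smul_eq_mul]

theorem mem_v (a b c : Fin 4) : (fun i => ph ω (cmb v4 a b c i)) ∈ hexacode F ω := by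
  rw [V_eq hF hω, ph_cmb hF hω]
  exact add_mem (add_mem (Submodule.smul_mem _ _ (Submodule.subset_span (by simp))) (Submodule.smul_mem _ _ (Submodule.subset_span (by simp))))
    (Submodule.smul_mem _ _ (Submodule.subset_span (by simp)))

theorem mem_u (a b c : Fin 4) : (fun i => ph ω (cmb u4 a b c i)) ∈ hexacode F ω := by
  rw [ph_cmb hF hω]
  have h : ∀ j : Fin 3, (fun i => ph ω (u4 j i)) ∈ hexacode F ω := by
    intro j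
    obtain ⟨a, b, c, h⟩ := u_in_v j
    have : (fun i => ph ω (u4 j i)) = fun i => ph ω (cmb v4 a b c i) := by funext i; rw [h]
    rw [this]; exact mem_v hF hω a b c
  exact add_mem (add_mem (Submodule.smul_mem _ _ (h 0)) (Submodule.smul_mem _ _ (h 1))) (Submodule.smul_mem _ _ (h 2))

theorem mem_iff {x : Fin 6 → F} : x ∈ hexacode F ω ↔ ∃ a b c : Fin 4, x = fun i => ph ω (cmb u4 a b c i) := by
  constructor
  · intro hx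
    rw [V_eq hF hω, Submodule.mem_span_triple] at hx
    obtain ⟨a, b, c, rfl⟩ := hx
    obtain ⟨a', rfl⟩ := ph_surj hF hω a
    obtain ⟨b', rfl⟩ := ph_surj hF hω b
    obtain ⟨c', rfl⟩ := ph_surj hF hω c
    rw [← ph_cmb hF hω]
    have h := v_to_u a' b' c'
    rw [inC, decide_eq_true_iff] at h
    exact ⟨_, _, _, funext fun i => congrArg _ (h i)⟩
  · rintro ⟨a, b, c, rfl⟩
    exact mem_u hF hω a b c

theorem mem_ph {x : Fin 6 → Fin 4} : (fun i => ph ω (x i)) ∈ hexacode F ω ↔ inC x = true := by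
  rw [mem_iff hF hω, inC, decide_eq_true_iff]
  constructor
  · rintro ⟨a, b, c, h⟩
    have h1 : ∀ i, x i = cmb u4 a b c i := fun i => ph_inj hF hω (congrFun h i)
    obtain ⟨i0, i1, i2⟩ := u_info a b c
    rw [h1 0, h1 1, h1 2, i0, i1, i2]
    exact h1
  · intro h
    exact ⟨_, _, _, funext fun i => congrArg _ (h i)⟩

theorem ph_zero_iff {a : Fin 4} : ph ω a = 0 ↔ a = 0 := by
  have : ph ω (0 : Fin 4) = 0 := rfl
  rw [← this]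
  exact (ph_inj hF hω).eq_iff

theorem supp_ph (x : Fin 6 → Fin 4) : (univ.filter fun i => ph ω (x i) ≠ 0).card = wt4 x := by
  rw [wt4]; congr 1; ext i; simp only [mem_filter, mem_univ, true_and, ne_eq, ph_zero_iff hF hω]

/-- words as triples -/
theorem exists_equiv : ∃ e : Fin 4 × Fin 4 × Fin 4 ≃ hexacode F ω, ∀ t, (e t : Fin 6 → F) = fun i => ph ω (cmb u4 t.1 t.2.1 t.2.2 i) := by
  refine ⟨Equiv.ofBijective (fun t => ⟨fun i => ph ω (cmb u4 t.1 t.2.1 t.2.2 i), mem_u hF hω _ _ _⟩) ⟨?_, ?_⟩, fun t => rfl⟩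
  · rintro ⟨a, b, c⟩ ⟨a', b', c'⟩ h
    have h1 : (fun i => ph ω (cmb u4 a b c i)) = fun i => ph ω (cmb u4 a' b' c' i) := congrArg Subtype.val h
    have h2 : ∀ i, cmb u4 a b c i = cmb u4 a' b' c' i := fun i => ph_inj hF hω (congrFun h1 i)
    obtain ⟨i0, i1, i2⟩ := u_info a b c
    obtain ⟨j0, j1, j2⟩ := u_info a' b' c'
    have e0 : a = a' := by rw [← i0, h2, j0]
    have e1 : b = b' := by rw [← i1, h2, j1]
    have e2 : c = c' := by rw [← i2, h2, j2]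
    rw [e0, e1, e2]
  · rintro ⟨x, hx⟩
    obtain ⟨a, b, c, rfl⟩ := (mem_iff hF hω).mp hx
    exact ⟨(a, b, c), rfl⟩

theorem ncard_wt (n m : ℕ) (h : (univ.filter fun t : Fin 4 × Fin 4 × Fin 4 => wt4 (cmb u4 t.1 t.2.1 t.2.2) = n).card = m) :
    {x : Fin 6 → F | x ∈ hexacode F ω ∧ (univ.filter fun i => x i ≠ 0).card = n}.ncard = m := by
  obtain ⟨e, he⟩ := exists_equiv hF hω
  rw [← h, ← Set.ncard_coe_finset]
  have : {x : Fin 6 → F | x ∈ hexacode F ω ∧ (univ.filter fun i => x i ≠ 0).card = n} =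
      (fun t => (e t : Fin 6 → F)) '' ((univ.filter fun t : Fin 4 × Fin 4 × Fin 4 => wt4 (cmb u4 t.1 t.2.1 t.2.2) = n : Finset _) : Set _) := by
    ext x
    simp only [Set.mem_setOf_eq, Set.mem_image, Finset.coe_filter, Finset.mem_univ, true_and]
    constructor
    · rintro ⟨h1, h2⟩
      obtain ⟨t, ht⟩ := e.surjective ⟨x, h1⟩
      have h3 : (e t : Fin 6 → F) = x := congrArg Subtype.val ht
      refine ⟨t, ?_, h3⟩
      rw [← supp_ph hF hω, ← h2, ← h3, he]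
    · rintro ⟨t, h1, rfl⟩
      refine ⟨(e t).2, ?_⟩
      rw [he, supp_ph hF hω]; exact h1
  have hinj : Function.Injective (fun t => (e t : Fin 6 → F)) := Subtype.val_injective.comp e.injective
  rw [this, Set.ncard_image_of_injective _ hinj]

end field

/-! ### the monomial group -/

/-- preservation by a table -/
def presT (s : Fin 6 → Fin 6) (d : Fin 6 → Fin 4) : Bool :=
  (List.finRange 3).all fun j => inC (fun i => mul4 (d i) (u4 j (s i)))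

def tab : List (Fin 6 × Fin 6 × Fin 6 × List (Fin 4)) := [(0, 1, 2, [1, 1, 1, 1, 3, 2]), (0, 1, 3, [1, 1, 1, 1, 2, 3]), (0, 1, 4, [1, 1, 3, 2, 1, 1]), (0, 1, 5, [1, 1, 2, 3, 1, 1]), (0, 2, 1, [1, 1, 1, 1, 2, 3]), (0, 2, 3, [1, 1, 1, 1, 3, 2]), (0, 2, 4, [1, 3, 2, 1, 3, 2]), (0, 2, 5, [1, 2, 3, 1, 3, 2]), (0, 3, 1, [1, 1, 1, 1, 3, 2]), (0, 3, 2, [1, 1, 1, 1, 2, 3]), (0, 3, 4, [1, 2, 1, 3, 2, 3]), (0, 3, 5, [1, 3, 1, 2, 2, 3]), (0, 4, 1, [1, 1, 2, 3, 1, 1]), (0, 4, 2, [1, 3, 3, 2, 2, 1]), (0, 4, 3, [1, 2, 3, 2, 3, 1]), (0, 4, 5, [1, 1, 3, 2, 1, 1]), (0, 5, 1, [1, 1, 3, 2, 1, 1]), (0, 5, 2, [1, 2, 2, 3, 1, 3]), (0, 5, 3, [1, 3, 2, 3, 1, 2]), (0, 5, 4, [1, 1, 2, 3, 1, 1]), (1, 0, 2, [1, 1, 1, 1, 2, 3]), (1, 0, 3, [1, 1, 1, 1, 3, 2]), (1, 0, 4, [1, 1, 2, 3, 1, 1]), (1, 0, 5, [1, 1, 3, 2, 1, 1]), (1, 2, 0, [1, 1, 1, 1, 3, 2]), (1, 2, 3, [1, 1,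 1, 1, 2, 3]), (1, 2, 4, [1, 3, 2, 3, 1, 2]), (1, 2, 5, [1, 2, 3, 2, 3, 1]), (1, 3, 0, [1, 1, 1, 1, 2, 3]), (1, 3, 2, [1, 1, 1, 1, 3, 2]), (1, 3, 4, [1, 2, 2, 3, 1, 3]), (1, 3, 5, [1, 3, 3, 2, 2, 1]), (1, 4, 0, [1, 1, 3, 2, 1, 1]), (1, 4, 2, [1, 3, 1, 2, 2, 3]), (1, 4, 3, [1, 2, 3, 1, 3, 2]), (1, 4, 5, [1, 1, 2, 3, 1, 1]), (1, 5, 0, [1, 1, 2, 3, 1, 1]), (1, 5, 2, [1, 2, 1, 3, 2, 3]), (1, 5, 3, [1, 3, 2, 1, 3, 2]), (1, 5, 4, [1, 1, 3, 2, 1, 1]), (2, 0, 1, [1, 1, 1, 1, 3, 2]), (2, 0, 3, [1, 1, 1, 1, 2, 3]), (2, 0, 4, [1, 3, 3, 2, 2, 1]), (2, 0, 5, [1, 2, 2, 3, 1, 3]), (2, 1, 0, [1, 1, 1, 1, 2, 3]), (2, 1, 3, [1, 1, 1, 1, 3, 2]), (2, 1, 4, [1, 3, 1, 2, 2, 3]), (2, 1, 5, [1, 2, 1, 3, 2, 3]), (2, 3, 0, [1, 1, 1, 1, 3, 2]), (2, 3, 1, [1, 1, 1, 1, 2, 3]), (2, 3, 4, [1, 3, 2, 2, 2, 2]), (2, 3, 5, [1, 2, 3, 3, 3, 3]), (2, 4, 0, [1, 3, 2, 1, 3, 2]),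 (2, 4, 1, [1, 3, 2, 3, 1, 2]), (2, 4, 3, [1, 2, 3, 3, 3, 3]), (2, 4, 5, [1, 3, 2, 2, 2, 2]), (2, 5, 0, [1, 2, 3, 1, 3, 2]), (2, 5, 1, [1, 2, 3, 2, 3, 1]), (2, 5, 3, [1, 3, 2, 2, 2, 2]), (2, 5, 4, [1, 2, 3, 3, 3, 3]), (3, 0, 1, [1, 1, 1, 1, 2, 3]), (3, 0, 2, [1, 1, 1, 1, 3, 2]), (3, 0, 4, [1, 2, 3, 2, 3, 1]), (3, 0, 5, [1, 3, 2, 3, 1, 2]), (3, 1, 0, [1, 1, 1, 1, 3, 2]), (3, 1, 2, [1, 1, 1, 1, 2, 3]), (3, 1, 4, [1, 2, 3, 1, 3, 2]), (3, 1, 5, [1, 3, 2, 1, 3, 2]), (3, 2, 0, [1, 1, 1, 1, 2, 3]), (3, 2, 1, [1, 1, 1, 1, 3, 2]), (3, 2, 4, [1, 2, 3, 3, 3, 3]), (3, 2, 5, [1, 3, 2, 2, 2, 2]), (3, 4, 0, [1, 2, 1, 3, 2, 3]), (3, 4, 1, [1, 2, 2, 3, 1, 3]), (3, 4, 2, [1, 3, 2, 2, 2, 2]), (3, 4, 5, [1, 2, 3, 3, 3, 3]), (3, 5, 0, [1, 3, 1, 2, 2, 3]), (3, 5, 1, [1, 3, 3, 2, 2, 1]), (3, 5, 2, [1, 2, 3, 3, 3, 3]), (3, 5, 4, [1, 3, 2, 2, 2, 2]), (4, 0, 1, [1,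 1, 3, 2, 1, 1]), (4, 0, 2, [1, 3, 2, 1, 3, 2]), (4, 0, 3, [1, 2, 1, 3, 2, 3]), (4, 0, 5, [1, 1, 2, 3, 1, 1]), (4, 1, 0, [1, 1, 2, 3, 1, 1]), (4, 1, 2, [1, 3, 2, 3, 1, 2]), (4, 1, 3, [1, 2, 2, 3, 1, 3]), (4, 1, 5, [1, 1, 3, 2, 1, 1]), (4, 2, 0, [1, 3, 3, 2, 2, 1]), (4, 2, 1, [1, 3, 1, 2, 2, 3]), (4, 2, 3, [1, 3, 2, 2, 2, 2]), (4, 2, 5, [1, 2, 3, 3, 3, 3]), (4, 3, 0, [1, 2, 3, 2, 3, 1]), (4, 3, 1, [1, 2, 3, 1, 3, 2]), (4, 3, 2, [1, 2, 3, 3, 3, 3]), (4, 3, 5, [1, 3, 2, 2, 2, 2]), (4, 5, 0, [1, 1, 3, 2, 1, 1]), (4, 5, 1, [1, 1, 2, 3, 1, 1]), (4, 5, 2, [1, 3, 2, 2, 2, 2]), (4, 5, 3, [1, 2, 3, 3, 3, 3]), (5, 0, 1, [1, 1, 2, 3, 1, 1]), (5, 0, 2, [1, 2, 3, 1, 3, 2]), (5, 0, 3, [1, 3, 1, 2, 2, 3]), (5, 0, 4, [1, 1, 3, 2, 1, 1]), (5, 1, 0, [1, 1, 3, 2, 1, 1]), (5, 1, 2, [1, 2, 3, 2, 3, 1]), (5, 1, 3, [1, 3, 3, 2, 2, 1]), (5, 1, 4, [1, 1, 2, 3, 1, 1]),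 (5, 2, 0, [1, 2, 2, 3, 1, 3]), (5, 2, 1, [1, 2, 1, 3, 2, 3]), (5, 2, 3, [1, 2, 3, 3, 3, 3]), (5, 2, 4, [1, 3, 2, 2, 2, 2]), (5, 3, 0, [1, 3, 2, 3, 1, 2]), (5, 3, 1, [1, 3, 2, 1, 3, 2]), (5, 3, 2, [1, 3, 2, 2, 2, 2]), (5, 3, 4, [1, 2, 3, 3, 3, 3]), (5, 4, 0, [1, 1, 2, 3, 1, 1]), (5, 4, 1, [1, 1, 3, 2, 1, 1]), (5, 4, 2, [1, 2, 3, 3, 3, 3]), (5, 4, 3, [1, 3, 2, 2, 2, 2])]

theorem tab_ok : tab.all (fun e => and (presT (fun i => Equiv.swap e.2.1 e.2.2.1 (Equiv.swap e.1 e.2.1 i)) (fun i => e.2.2.2.getD i 0))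
    (decide (∀ i : Fin 6, e.2.2.2.getD i 0 ≠ 0))) = true := by decide +kernel

theorem tab_all : ∀ a b c : Fin 6, a ≠ b → a ≠ c → b ≠ c → (tab.any fun e => decide (e.1 = a ∧ e.2.1 = b ∧ e.2.2.1 = c)) = true := by decide +kernel

theorem no_swap : ∀ a b c d e f : Fin 3, presT (fun i => Equiv.swap 0 1 i) ![a.succ, b.succ, c.succ, d.succ, e.succ, f.succ] = false := by
  decide +kernel

theorem scal4 : ∀ a b c d e f : Fin 3, presT id ![a.succ, b.succ, c.succ, d.succ, e.succ, f.succ] = true →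
    a = b ∧ a = c ∧ a = d ∧ a = e ∧ a = f := by
  decide +kernel

end CfsgLib.Hexacode
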