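import Cfsg.Agent.Lib.InvMisc

/-!
# Miscellaneous facts about involutions and nilpotent groups, II
-/

set_option autoImplicit false

open Subgroup
open scoped commutatorElement

namespace CfsgLib.InvMisc

universe u
variable {G : Type u} [Group G]

theorem s5433 [Finite G] (Q : Subgroup G) (hQ : Cfsg.IsLargeExtraspecial Q) (L : Subgroup G) [L.Normal] (hQL : Q ≤ L) : L ⊔ Subgroup.normalizer (Q : Set G) = ⊤ := by
  haveI : Fact (Nat.Prime 2) := ⟨Nat.prime_two⟩
  obtain ⟨hE, hCQ, hCZ, _⟩ := hQ
  have hQ2 : IsPGroup 2 Q := hE.1.1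
  have hQL2 : IsPGroup 2 (Q.subgroupOf L) := hQ2.comap_of_injective L.subtype L.subtype_injective
  obtain ⟨T, hT⟩ := hQL2.exists_le_sylow
  rw [eq_top_iff, ← Sylow.normalizer_sup_eq_top T, sup_comm]
  apply sup_le_sup_left
  set T' := (T : Subgroup L).map L.subtype with hT'
  have hQT : Q ≤ T' := by
    intro q hq
    exact ⟨⟨q, hQL hq⟩, hT (show (⟨q, hQL hq⟩ : L) ∈ Q.subgroupOf L from hq), rfl⟩
  have hT2 : IsPGroup 2 T' := T.2.map _
  -- Q nontrivial
  have hcZ : Nat.card ((Subgroup.center ↥Q).map Q.subtype) = 2 := by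
    rw [Subgroup.card_map_of_injective Q.subtype_injective]; exact hE.2
  haveI : Nontrivial T' := by
    rw [← Finite.one_lt_card_iff_nontrivial]
    have h1 : Nat.card ((Subgroup.center ↥Q).map Q.subtype) ≤ Nat.card T' := by
      apply Subgroup.card_le_of_le
      refine le_trans ?_ hQT
      rintro _ ⟨y, _, rfl⟩
      exact y.2
    omega
  haveI := hT2.center_nontrivial
  obtain ⟨⟨t, ht⟩, ht1⟩ := exists_ne (1 : center T')
  have htc : ∀ s ∈ T', s * (t : G) = t * s := fun s hs => congrArg Subtype.val (mem_center_iff.1 ht ⟨s, hs⟩)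
  have htne : (t : G) ≠ 1 := fun h => ht1 (Subtype.ext (Subtype.ext h))
  have hZmem : ∀ s : G, (∀ r ∈ T', r * s = s * r) → s ∈ (Subgroup.center ↥Q).map Q.subtype := by
    intro s hs
    rw [← hCQ, mem_centralizer_iff]
    intro q hq
    exact hs q (hQT hq)
  have htZ := hZmem t htc
  have hall : ∀ z ∈ (Subgroup.center ↥Q).map Q.subtype, z = 1 ∨ z = t := by
    intro z hz
    by_contra hcon
    push Not at hcon
    have h3 : Nat.card ((Subgroup.center ↥Q).map Q.subtype) ≥ 3 := by
      have hs : ({1, (t : G), z} : Set G) ⊆ ((Subgroup.center ↥Q).map Q.subtype : Subgroup G) := by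
        intro w hw
        rcases hw with rfl | rfl | rfl
        · exact one_mem _
        · exact htZ
        · exact hz
      have h4 := Set.ncard_le_ncard hs (Set.toFinite _)
      have h5 : ({1, (t : G), z} : Set G).ncard = 3 := by
        rw [Set.ncard_eq_three]
        exact ⟨1, t, z, htne.symm, fun h => hcon.1 h.symm, fun h => hcon.2 h.symm, rfl⟩
      rw [h5] at h4
      exact h4
    omega
  intro y hy
  have hyn := mem_set_normalizer_iff.1 hy
  have h1 : y * t * y⁻¹ ∈ (Subgroup.center ↥Q).map Q.subtype := by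
    apply hZmem
    intro r hr
    have h2 : y⁻¹ * r * y ∈ T' := by
      rw [← SetLike.mem_coe, hyn]
      have : y * (y⁻¹ * r * y) * y⁻¹ = r := by group
      rw [this]; exact hr
    calc r * (y * t * y⁻¹) = y * ((y⁻¹ * r * y) * t) * y⁻¹ := by group
      _ = y * (t * (y⁻¹ * r * y)) * y⁻¹ := by rw [htc _ h2]
      _ = _ := by group
  have h2 : y * t * y⁻¹ = t := by
    rcases hall _ h1 with h | h
    · exfalso
      apply htne
      have : (t : G) = y⁻¹ * (y * t * y⁻¹) * y := by group
      rw [this, h]; group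
    · exact h
  apply hCZ
  rw [mem_centralizer_iff]
  intro z hz
  rcases hall z hz with h | h
  · rw [h, one_mul, mul_one]
  · rw [h]
    calc (t : G) * y = (y * t * y⁻¹) * y := by rw [h2]
      _ = y * t := by group

theorem s5439 [Finite G] (I J : Set G) (a₀ b₀ : G) (ha₀ : orderOf a₀ = 2) (hb₀ : orderOf b₀ = 2) (hI : I = {x | IsConj a₀ x}) (hJ : J = {x | IsConj b₀ x}) (hIJ : I ≠ J) (H : Subgroup G) (hfix : ∀ x ∈ I ∪ J, ∃! c : G ⧸ H, x • c = c) (hcent : ∀ a ∈ I, a ∈ H → ∀ b ∈ I ∪ J, b ∈ H → a ≠ b → a * b = b * a → Subgroup.centralizer ({a * b} : Set G) ≤ H) : H = ⊤ := by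
  have hfx : ∀ (x g : G), x • (QuotientGroup.mk g : G ⧸ H) = QuotientGroup.mk g ↔ g⁻¹ * x * g ∈ H := by
    intro x g
    show (QuotientGroup.mk (x * g) : G ⧸ H) = QuotientGroup.mk g ↔ _
    rw [eq_comm, QuotientGroup.eq, mul_assoc]
  have haa₀ : a₀ * a₀ = 1 := by rw [← pow_two, ← ha₀]; exact pow_orderOf_eq_one a₀
  have hbb₀ : b₀ * b₀ = 1 := by rw [← pow_two, ← hb₀]; exact pow_orderOf_eq_one b₀
  have hIc : ∀ x ∈ I, ∀ g : G, g * x * g⁻¹ ∈ I := by
    intro x hx g
    rw [hI] at hx ⊢
    exact (show IsConj a₀ x from hx).trans (isConj_iff.2 ⟨g, rfl⟩)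
  have hJc : ∀ x ∈ J, ∀ g : G, g * x * g⁻¹ ∈ J := by
    intro x hx g
    rw [hJ] at hx ⊢
    exact (show IsConj b₀ x from hx).trans (isConj_iff.2 ⟨g, rfl⟩)
  have hIs : ∀ x ∈ I, x * x = 1 := by
    intro x hx
    rw [hI] at hx
    obtain ⟨g, rfl⟩ := isConj_iff.1 (show IsConj a₀ x from hx)
    calc g * a₀ * g⁻¹ * (g * a₀ * g⁻¹) = g * (a₀ * a₀) * g⁻¹ := by group
      _ = 1 := by rw [haa₀]; group
  have hJs : ∀ x ∈ J, x * x = 1 := by
    intro x hx
    rw [hJ] at hx
    obtain ⟨g, rfl⟩ := isConj_iff.1 (show IsConj b₀ x from hx)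
    calc g * b₀ * g⁻¹ * (g * b₀ * g⁻¹) = g * (b₀ * b₀) * g⁻¹ := by group
      _ = 1 := by rw [hbb₀]; group
  have ha₀I : a₀ ∈ I := by rw [hI]; exact IsConj.refl a₀
  have hb₀J : b₀ ∈ J := by rw [hJ]; exact IsConj.refl b₀
  -- a in I ∩ H
  obtain ⟨a, haI, haH⟩ : ∃ a ∈ I, a ∈ H := by
    obtain ⟨c, hc, _⟩ := hfix a₀ (Or.inl ha₀I)
    induction c using QuotientGroup.induction_on with
    | H g =>
      refine ⟨g⁻¹ * a₀ * g, ?_, (hfx _ _).1 hc⟩
      have := hIc a₀ ha₀I g⁻¹
      rwa [inv_inv] at this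
  have haf : ∀ g : G, g⁻¹ * a * g ∈ H → g ∈ H := by
    intro g hg
    obtain ⟨c, _, hc⟩ := hfix a (Or.inl haI)
    have e1 := hc (QuotientGroup.mk g) ((hfx _ _).2 hg)
    have e2 := hc (QuotientGroup.mk 1) ((hfx _ _).2 (by simpa using haH))
    have e3 : (QuotientGroup.mk 1 : G ⧸ H) = QuotientGroup.mk g := e2.trans e1.symm
    rw [QuotientGroup.eq] at e3
    simpa using e3
  have haa := hIs a haI
  have hai := inv_self haa
  have hJH : ∀ b ∈ J, b ∈ H := by
    intro b hbJ
    have hbb := hJs b hbJ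
    have hbi := inv_self hbb
    set w := a * b with hw
    have hwinv : w⁻¹ = b * a := by rw [hw, mul_inv_rev, hai, hbi]
    have haw : a * w * a = w⁻¹ := by
      rw [hwinv, hw]
      calc a * (a * b) * a = (a * a) * b * a := by group
        _ = _ := by rw [haa, one_mul]
    have hbw : b * w * b = w⁻¹ := by
      rw [hwinv, hw]
      calc b * (a * b) * b = b * a * (b * b) := by group
        _ = _ := by rw [hbb, mul_one]
    have hawk : ∀ k : ℕ, a * w ^ k * a = (w ^ k)⁻¹ := by
      intro k
      have h1 : (a * w * a⁻¹) ^ k = a * w ^ k * a⁻¹ := conj_pow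
      rw [hai, haw] at h1
      rw [← h1, inv_pow]
    have hbwk : ∀ k : ℕ, b * w ^ k * b = (w ^ k)⁻¹ := by
      intro k
      have h1 : (b * w * b⁻¹) ^ k = b * w ^ k * b⁻¹ := conj_pow
      rw [hbi, hbw] at h1
      rw [← h1, inv_pow]
    -- a * w^(2i) conj to a
    have hev : ∀ i : ℕ, a * w ^ (2 * i) ∈ I := by
      intro i
      have h1 := hIc a haI (w ^ i)⁻¹
      have h2 : (w ^ i)⁻¹ * a * (w ^ i)⁻¹⁻¹ = a * w ^ (2 * i) := by
        rw [inv_inv, ← hawk, two_mul, pow_add]
        calc a * w ^ i * a * a * w ^ i = a * w ^ i * (a * a) * w ^ i := by group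
          _ = _ := by rw [haa]; group
      rwa [h2] at h1
    have hod : ∀ i : ℕ, a * w ^ (2 * i + 1) ∈ J := by
      intro i
      have h1 := hJc b hbJ (w ^ i)⁻¹
      have h2 : (w ^ i)⁻¹ * b * (w ^ i)⁻¹⁻¹ = a * w ^ (2 * i + 1) := by
        rw [inv_inv, ← hawk]
        have h3 : w ^ (2 * i + 1) = w ^ i * w * w ^ i := by
          rw [← pow_succ, ← pow_add]; congr 1; ring
        rw [h3, hw]
        calc a * (a * b) ^ i * a * b * (a * b) ^ i = a * ((a * b) ^ i * (a * b) * (a * b) ^ i) := by group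
          _ = _ := rfl
      rwa [h2] at h1
    rcases Nat.even_or_odd' (orderOf w) with ⟨m, hm | hm⟩
    · -- even order
      have hpos : 0 < orderOf w := orderOf_pos w
      have hm0 : 0 < m := by omega
      set c := w ^ m with hc
      have hcc : c * c = 1 := by rw [hc, ← pow_add, ← two_mul, ← hm]; exact pow_orderOf_eq_one w
      have hci := inv_self hcc
      have hc1 : c ≠ 1 := by
        intro h
        have := orderOf_dvd_of_pow_eq_one h
        have := Nat.le_of_dvd hm0 this
        omega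
      have hac : a * c * a = c := by rw [hc, hawk, ← hc, hci]
      have hbc : b * c * b = c := by rw [hc, hbwk, ← hc, hci]
      have hac' : a * c = c * a := by
        calc a * c = a * c * (a * a) := by rw [haa, mul_one]
          _ = (a * c * a) * a := by group
          _ = _ := by rw [hac]
      have hbc' : b * c = c * b := by
        calc b * c = b * c * (b * b) := by rw [hbb, mul_one]
          _ = (b * c * b) * b := by group
          _ = _ := by rw [hbc]
      have hcH : c ∈ H := by
        apply haf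
        have : c⁻¹ * a * c = a := by rw [mul_assoc, hac', inv_mul_cancel_left]
        rw [this]; exact haH
      have hacIJ : a * c ∈ I ∪ J := by
        rcases Nat.even_or_odd' m with ⟨i, hi | hi⟩
        · left; rw [hc, hi]; exact hev i
        · right; rw [hc, hi]; exact hod i
      have h1 := hcent a haI haH (a * c) hacIJ (mul_mem haH hcH) (by
        intro h
        apply hc1
        have : a * 1 = a * c := by rw [mul_one]; exact h
        exact (mul_left_cancel this).symm) (by
        rw [mul_assoc, ← hac'])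
      have h2 : a * (a * c) = c := by rw [← mul_assoc, haa, one_mul]
      rw [h2] at h1
      apply h1
      rw [mem_centralizer_singleton_iff]
      exact hbc'
    · exfalso
      apply hIJ
      -- a = a * w^(2m+1) in J
      have h1 := hod m
      rw [← hm, pow_orderOf_eq_one, mul_one] at h1
      rw [hI, hJ]
      rw [hI] at haI
      rw [hJ] at h1
      have h2 : IsConj a₀ b₀ := (show IsConj a₀ a from haI).trans (show IsConj b₀ a from h1).symm
      ext x
      exact ⟨fun h => h2.symm.trans h, fun h => h2.trans h⟩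
  rw [eq_top_iff]
  intro g _
  obtain ⟨c, _, hc⟩ := hfix b₀ (Or.inr hb₀J)
  have hall : ∀ g : G, b₀ • (QuotientGroup.mk g : G ⧸ H) = QuotientGroup.mk g := by
    intro g
    rw [hfx]
    apply hJH
    have := hJc b₀ hb₀J g⁻¹
    rwa [inv_inv] at this
  have e3 : (QuotientGroup.mk 1 : G ⧸ H) = QuotientGroup.mk g := (hc _ (hall 1)).trans (hc _ (hall g)).symm
  rw [QuotientGroup.eq] at e3
  simpa using e3

/-- normal closure of an abelian factor has smaller class -/
theorem class_lt {P : Type u} [Group P] [Group.IsNilpotent P] (hna : ¬ IsMulCommutative P) {E : Subgroup P} (hE : IsMulCommutative ↥E) :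
    Group.nilpotencyClass ↥(Subgroup.normalClosure (E : Set P)) < Group.nilpotencyClass P := by
  set N := Subgroup.normalClosure (E : Set P) with hN
  have hEc : ∀ x ∈ E, ∀ y ∈ E, x * y = y * x := fun x hx y hy => congrArg Subtype.val (hE.is_comm.comm (⟨x, hx⟩ : E) ⟨y, hy⟩)
  have hNle : N ≤ E ⊔ commutator P := by
    haveI : (E ⊔ commutator P).Normal := by
      constructor
      intro x hx g
      have h1 : g * x * g⁻¹ * x⁻¹ ∈ commutator P := Subgroup.commutator_mem_commutator (mem_top g) (mem_top x)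
      have h2 : g * x * g⁻¹ = (g * x * g⁻¹ * x⁻¹) * x := by group
      rw [h2]
      exact mul_mem ((le_sup_right : commutator P ≤ E ⊔ commutator P) h1) hx
    exact Subgroup.normalClosure_le_normal (show (E : Set P) ⊆ _ from fun x hx => (le_sup_left : E ≤ E ⊔ commutator P) hx)
  have key : ∀ i, N.lowerCentralSeries (i + 1) ≤ (⊤ : Subgroup P).lowerCentralSeries (i + 2) := by
    intro i
    induction i with
    | zero =>
      rw [Subgroup.lowerCentralSeries_succ, Subgroup.lowerCentralSeries_zero, Subgroup.commutator_le]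
      intro x hx y hy
      have hx' := hNle hx
      have hy' := hNle hy
      rw [Subgroup.mem_sup_of_normal_right] at hx' hy'
      obtain ⟨e1, he1, k1, hk1, rfl⟩ := hx'
      obtain ⟨e2, he2, k2, hk2, rfl⟩ := hy'
      haveI hK : ((⊤ : Subgroup P).lowerCentralSeries 2).Normal := inferInstance
      have hcen : ∀ k ∈ commutator P, ∀ p : P, (QuotientGroup.mk k : P ⧸ (⊤ : Subgroup P).lowerCentralSeries 2) * QuotientGroup.mk p = QuotientGroup.mk p * QuotientGroup.mk k := by
        intro k hk p
        have h1 : ⁅k, p⁆ ∈ (⊤ : Subgroup P).lowerCentralSeries 2 := by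
          rw [Subgroup.lowerCentralSeries_succ]
          exact Subgroup.commutator_mem_commutator hk (mem_top p)
        have h2 : (QuotientGroup.mk ⁅k, p⁆ : P ⧸ (⊤ : Subgroup P).lowerCentralSeries 2) = 1 := (QuotientGroup.eq_one_iff _).2 h1
        rw [← QuotientGroup.mk_mul, ← QuotientGroup.mk_mul]
        have h3 : k * p = ⁅k, p⁆ * (p * k) := by rw [commutatorElement_def]; group
        rw [h3, QuotientGroup.mk_mul, h2, one_mul]
      rw [← QuotientGroup.eq_one_iff]
      have h4 : ∀ x y : P, (QuotientGroup.mk x : P ⧸ (⊤ : Subgroup P).lowerCentralSeries 2) * QuotientGroup.mk y = QuotientGroup.mk y * QuotientGroup.mk x → (QuotientGroup.mk ⁅x, y⁆ : P ⧸ (⊤ : Subgroup P).lowerCentralSeries 2) = 1 := by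
        intro x y h
        rw [commutatorElement_def, QuotientGroup.mk_mul, QuotientGroup.mk_mul, QuotientGroup.mk_mul, h, QuotientGroup.mk_inv, QuotientGroup.mk_inv, mul_inv_cancel_right, mul_inv_cancel]
      apply h4
      rw [QuotientGroup.mk_mul, QuotientGroup.mk_mul]
      have c1 := hcen k1 hk1
      have c2 := hcen k2 hk2
      have c3 : (QuotientGroup.mk e1 : P ⧸ (⊤ : Subgroup P).lowerCentralSeries 2) * QuotientGroup.mk e2 = QuotientGroup.mk e2 * QuotientGroup.mk e1 := by
        rw [← QuotientGroup.mk_mul, ← QuotientGroup.mk_mul, hEc e1 he1 e2 he2]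
      calc (QuotientGroup.mk e1 : P ⧸ (⊤ : Subgroup P).lowerCentralSeries 2) * QuotientGroup.mk k1 * (QuotientGroup.mk e2 * QuotientGroup.mk k2)
          = QuotientGroup.mk e1 * (QuotientGroup.mk k1 * QuotientGroup.mk e2) * QuotientGroup.mk k2 := by group
        _ = (QuotientGroup.mk e1 * QuotientGroup.mk e2) * (QuotientGroup.mk k1 * QuotientGroup.mk k2) := by rw [c1]; group
        _ = QuotientGroup.mk e2 * (QuotientGroup.mk e1 * QuotientGroup.mk k2) * QuotientGroup.mk k1 := by rw [c3, c1]; group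
        _ = _ := by rw [← c2]; group
    | succ i ih =>
      rw [Subgroup.lowerCentralSeries_succ N, Subgroup.lowerCentralSeries_succ (⊤ : Subgroup P)]
      exact Subgroup.commutator_mono ih le_top
  have hc2 : 2 ≤ Group.nilpotencyClass P := by
    by_contra hlt
    apply hna
    have h1 : Group.nilpotencyClass P ≤ 1 := by omega
    rw [← Subgroup.lowerCentralSeries_eq_bot_iff_nilpotencyClass_le, Subgroup.top_lowerCentralSeries_one] at h1
    constructor
    constructor
    intro a b
    have h2 : ⁅a, b⁆ ∈ commutator P := Subgroup.commutator_mem_commutator (mem_top a) (mem_top b)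
    rw [h1, mem_bot, commutatorElement_eq_one_iff_mul_comm] at h2
    exact h2
  obtain ⟨c, hc⟩ : ∃ c, Group.nilpotencyClass P = c + 2 := ⟨Group.nilpotencyClass P - 2, by omega⟩
  have h1 := key c
  rw [← hc, Subgroup.lowerCentralSeries_nilpotencyClass, le_bot_iff] at h1
  have h2 : (⊤ : Subgroup N).lowerCentralSeries (c + 1) = ⊥ := by
    have h3 := Subgroup.top_subtype_lowerCentralSeries N (c + 1)
    rw [h1] at h3
    exact (Subgroup.map_eq_bot_iff_of_injective _ N.subtype_injective).1 h3
  rw [Subgroup.lowerCentralSeries_eq_bot_iff_nilpotencyClass_le] at h2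
  omega

end CfsgLib.InvMisc
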