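import Mathlib
import Cfsg.Prelude.Def_MonsterType
import Cfsg.Agent.Lib.Core
import Cfsg.Agent.Lib.InvMisc

/-!
# Large extraspecial subgroups
-/

set_option autoImplicit false
set_option linter.all false

namespace CfsgLib.InvMisc3
open Subgroup

variable {G : Type*} [Group G]

theorem inv_of_fpf [Finite G] (K : Subgroup G) (x : G) (hx2 : x * x = 1) (hxn : ∀ k ∈ K, x * k * x⁻¹ ∈ K)
    (hfix : ∀ k ∈ K, x * k = k * x → k = 1) : ∀ k ∈ K, x * k * x⁻¹ = k⁻¹ := by
  let φ : K →* K :=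
    { toFun := fun k => ⟨x * k * x⁻¹, hxn k k.2⟩
      map_one' := by apply Subtype.ext; simp
      map_mul' := by intro a b; apply Subtype.ext; simp [mul_assoc] }
  have h1 : MonoidHom.FixedPointFree φ := by
    intro k hk
    have h2 : x * (k : G) * x⁻¹ = k := congrArg Subtype.val hk
    rw [mul_inv_eq_iff_eq_mul] at h2
    exact Subtype.ext (hfix k k.2 h2)
  have hxi : x⁻¹ = x := inv_eq_of_mul_eq_one_left hx2
  have h2 : Function.Involutive φ := by
    intro k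
    apply Subtype.ext
    show x * (x * k * x⁻¹) * x⁻¹ = k
    rw [hxi]
    have : x * (x * (k : G) * x) * x = (x * x) * k * (x * x) := by group
    rw [this, hx2, one_mul, mul_one]
  intro k hk
  have h3 := congrFun (h1.coe_eq_inv_of_involutive h2) ⟨k, hk⟩
  exact congrArg Subtype.val h3

theorem s5421 [Finite G] (Q : Subgroup G) (hL1 : Cfsg.IsExtraspecial 2 ↥Q) (hL2 : Subgroup.centralizer (Q : Set G) = ((Subgroup.center ↥Q).map Q.subtype)) (hL3 : Subgroup.centralizer (((Subgroup.center ↥Q).map Q.subtype) : Set G) ≤ Subgroup.normalizer (Q : Set G)) (b : G) (hbQ : b ∈ Q) (hbZ : b ∉ ((Subgroup.center ↥Q).map Q.subtype)) (hb : orderOf b = 2) (hZ : ((Subgroup.center ↥Q).map Q.subtype) ≤ (Cfsg.pCore 2 ↥(Subgroup.centralizer ({b} : Set G))).map (Subgroup.centralizer ({b} : Set G)).subtype) : Cfsg.IsLargeExtraspecial Q := by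
  haveI : Fact (Nat.Prime 2) := ⟨Nat.prime_two⟩
  refine ⟨hL1, hL2, hL3, ?_⟩
  intro K hK hQK
  have hQp : IsPGroup 2 Q := hL1.1.1
  have hcop : ∀ x ∈ K, ∀ n : ℕ, x ^ (2 ^ n) = 1 → x = 1 := by
    intro x hx n h2
    have h3 : orderOf x ∣ Nat.card K := by
      have := orderOf_dvd_natCard (⟨x, hx⟩ : K)
      rwa [← orderOf_injective K.subtype K.subtype_injective] at this
    have h4 : (Nat.card K).Coprime (2 ^ n) := Nat.Coprime.pow_right n (Nat.coprime_two_right.2 hK)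
    exact orderOf_eq_one_iff.1 (Nat.eq_one_of_dvd_coprimes h4 h3 (orderOf_dvd_of_pow_eq_one h2))
  have hcopQ : ∀ x ∈ K, x ∈ Q → x = 1 := fun x hx hq => by
    obtain ⟨n, hn⟩ := hQp ⟨x, hq⟩
    exact hcop x hx n (congrArg Subtype.val hn)
  have hQn : ∀ q ∈ Q, ∀ a ∈ K, q * a * q⁻¹ ∈ K := fun q hq a ha => (mem_set_normalizer_iff.1 (hQK hq) a).1 ha
  -- step 1
  have s1 : ∀ a ∈ K, a ∈ Subgroup.centralizer (((Subgroup.center ↥Q).map Q.subtype) : Set G) → a = 1 := by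
    intro a ha haZ
    have haN := hL3 haZ
    have haQ : a ∈ Subgroup.centralizer (Q : Set G) := by
      rw [mem_centralizer_iff]
      intro q hq
      have h1 := hQn q hq a ha
      have h2 : q * a * q⁻¹ * a⁻¹ ∈ K := mul_mem h1 (inv_mem ha)
      have h3 : q * a * q⁻¹ * a⁻¹ ∈ Q := by
        have e : q * a * q⁻¹ * a⁻¹ = q * (a * q⁻¹ * a⁻¹) := by group
        rw [e]
        exact mul_mem hq ((mem_set_normalizer_iff.1 haN q⁻¹).1 (inv_mem hq))
      have h4 := hcopQ _ h2 h3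
      calc q * a = (q * a * q⁻¹ * a⁻¹) * (a * q) := by group
        _ = a * q := by rw [h4, one_mul]
    rw [hL2] at haQ
    obtain ⟨y, _, rfl⟩ := haQ
    exact hcopQ _ ha y.2
  -- step 2
  have s2 : ∀ a ∈ K, b * a = a * b → a = 1 := by
    intro a ha hab
    apply s1 a ha
    rw [mem_centralizer_iff]
    intro z hz
    have hzQ : z ∈ Q := by obtain ⟨y, _, rfl⟩ := hz; exact y.2
    have h1 := hQn z hzQ a ha
    have h2 : z * a * z⁻¹ * a⁻¹ ∈ K := mul_mem h1 (inv_mem ha)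
    obtain ⟨z', hz', rfl⟩ := hZ hz
    have haC : a ∈ Subgroup.centralizer ({b} : Set G) := by
      rw [mem_centralizer_singleton_iff]; exact hab.symm
    have h3 : z' * (⟨a, haC⟩ : Subgroup.centralizer ({b} : Set G)) * z'⁻¹ * (⟨a, haC⟩ : Subgroup.centralizer ({b} : Set G))⁻¹ ∈ Cfsg.pCore 2 ↥(Subgroup.centralizer ({b} : Set G)) := by
      have e : z' * (⟨a, haC⟩ : Subgroup.centralizer ({b} : Set G)) * z'⁻¹ * (⟨a, haC⟩ : Subgroup.centralizer ({b} : Set G))⁻¹ = z' * ((⟨a, haC⟩ : Subgroup.centralizer ({b} : Set G)) * z'⁻¹ * (⟨a, haC⟩ : Subgroup.centralizer ({b} : Set G))⁻¹) := by group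
      rw [e]
      exact mul_mem hz' ((CfsgLib.Core.pCore_normal 2 _).conj_mem _ (inv_mem hz') _)
    obtain ⟨n, hn⟩ := CfsgLib.Core.pCore_isPGroup 2 ↥(Subgroup.centralizer ({b} : Set G)) ⟨_, h3⟩
    have h5 : ((z' : G) * a * (z' : G)⁻¹ * a⁻¹) ^ (2 ^ n) = 1 := by
      have := congrArg (fun w => (((w : Cfsg.pCore 2 ↥(Subgroup.centralizer ({b} : Set G))) : ↥(Subgroup.centralizer ({b} : Set G))) : G)) hn
      simpa using this
    have h4 := hcop _ h2 n h5
    have h4' : (z' : G) * a * (z' : G)⁻¹ * a⁻¹ = 1 := h4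
    show (z' : G) * a = a * z'
    calc (z' : G) * a = ((z' : G) * a * (z' : G)⁻¹ * a⁻¹) * (a * z') := by group
      _ = a * z' := by rw [h4', one_mul]
  -- the conjugate
  have hbc : (⟨b, hbQ⟩ : Q) ∉ center Q := fun h => hbZ ⟨_, h, rfl⟩
  obtain ⟨q, hq⟩ : ∃ q : Q, q * (⟨b, hbQ⟩ : Q) ≠ (⟨b, hbQ⟩ : Q) * q := by
    by_contra hcon
    push Not at hcon
    exact hbc (mem_center_iff.2 hcon)
  have hcc : q * (⟨b, hbQ⟩ : Q) * q⁻¹ * (⟨b, hbQ⟩ : Q)⁻¹ ∈ center Q := by
    rw [← hL1.1.2.2]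
    exact Subgroup.commutator_mem_commutator (mem_top q) (mem_top _)
  set c : Q := q * (⟨b, hbQ⟩ : Q) * q⁻¹ * (⟨b, hbQ⟩ : Q)⁻¹ with hc
  have hc1 : c ≠ 1 := by
    intro h
    rw [hc, mul_inv_eq_one, mul_inv_eq_iff_eq_mul] at h
    exact hq h
  have hZ2 : ∀ z ∈ center Q, z = 1 ∨ z = c := by
    intro z hz
    by_contra hcon
    push Not at hcon
    have h1 : ({(⟨1, one_mem _⟩ : center Q), ⟨c, hcc⟩, ⟨z, hz⟩} : Set (center Q)).ncard = 3 := by
      rw [Set.ncard_eq_three]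
      refine ⟨_, _, _, ?_, ?_, ?_, rfl⟩
      · intro h; exact hc1 (congrArg Subtype.val h).symm
      · intro h; exact hcon.1 (congrArg Subtype.val h).symm
      · intro h; exact hcon.2 (congrArg Subtype.val h).symm
    have h2 := Set.ncard_le_card ({(⟨1, one_mem _⟩ : center Q), ⟨c, hcc⟩, ⟨z, hz⟩} : Set (center Q))
    rw [h1, hL1.2] at h2
    omega
  have hcc2 : c * c = 1 := by
    rcases hZ2 (c * c) (mul_mem hcc hcc) with h | h
    · exact h
    · exact absurd (mul_eq_left.1 h) hc1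
  have hb2 : b * b = 1 := by
    have := pow_orderOf_eq_one b
    rwa [hb, pow_two] at this
  have hcG : (c : G) * (c : G) = 1 := congrArg Subtype.val hcc2
  have hcfix : ∀ k ∈ K, (c : G) * k = k * c → k = 1 := by
    intro k hk hck
    apply s1 k hk
    rw [mem_centralizer_iff]
    rintro _ ⟨z, hz, rfl⟩
    rcases hZ2 z hz with rfl | rfl
    · simp
    · exact hck
  have i1 := inv_of_fpf K (c : G) hcG (hQn _ c.2) hcfix
  have i2 := inv_of_fpf K b hb2 (hQn _ hbQ) s2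
  have hqb : (q : G) * b * (q : G)⁻¹ = c * b := by
    have h1 : c * (⟨b, hbQ⟩ : Q) = q * (⟨b, hbQ⟩ : Q) * q⁻¹ := by rw [hc]; group
    exact (congrArg Subtype.val h1).symm
  rw [eq_bot_iff]
  intro k hk
  have h1 : (c : G) * b * k = k * (c * b) := by
    have h2 : (c : G) * (b * k * b⁻¹) * (c : G)⁻¹ = k := by
      rw [i2 k hk, i1 _ (inv_mem hk), inv_inv]
    calc (c : G) * b * k = ((c : G) * (b * k * b⁻¹) * (c : G)⁻¹) * (c * b) := by group
      _ = k * (c * b) := by rw [h2]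
  rw [← hqb] at h1
  have h3 : (q : G)⁻¹ * k * q = 1 := by
    apply s2
    · have := hQn (q : G)⁻¹ (inv_mem q.2) k hk
      rwa [inv_inv] at this
    · calc b * ((q : G)⁻¹ * k * q) = (q : G)⁻¹ * ((q : G) * b * (q : G)⁻¹ * k) * q := by group
        _ = (q : G)⁻¹ * (k * ((q : G) * b * (q : G)⁻¹)) * q := by rw [h1]
        _ = (q : G)⁻¹ * k * q * b := by group
  have h4 : k = 1 := by
    calc k = (q : G) * ((q : G)⁻¹ * k * q) * (q : G)⁻¹ := by group
      _ = 1 := by rw [h3]; group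
  rw [h4]
  exact one_mem _

end CfsgLib.InvMisc3
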