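import Mathlib
import Cfsg.Prelude.Def_Characters
import Cfsg.Agent.Lib.CharBasic
import Cfsg.Agent.Lib.CharBasic2
import Cfsg.Agent.Lib.CharFS

/-!
# The number of involutions of a simple group is less than a third of the order
-/

set_option autoImplicit false
set_option linter.all false

open scoped ComplexConjugate

namespace CfsgLib.InvThird

open Cfsg CfsgLib.CharBasic

universe u

variable {G : Type u} [Group G]

theorem comm_top [IsSimpleGroup G] {a b : G} (hab : a * b ≠ b * a) : commutator G = ⊤ := by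
  rcases (inferInstance : (commutator G).Normal).eq_bot_or_eq_top with h | h
  · exfalso
    have h1 : a ∈ Subgroup.center G := by
      rw [(commutator_eq_bot_iff_center_eq_top G).1 h]; trivial
    exact hab (Subgroup.mem_center_iff.1 h1 b).symm
  · exact h

theorem irr_deg_one [Finite G] [IsSimpleGroup G] {a b : G} (hab : a * b ≠ b * a) (χ : IrrCharacter G)
    (h : (χ : G → ℂ) 1 = 1) : χ = irrOne G := by
  apply Subtype.ext
  funext g
  exact IsCharacter.eq_one_of_mem_commutator (irr_isCharacter χ) h (by rw [comm_top hab]; trivial)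

theorem mat_two {A : Matrix (Fin 2) (Fin 2) ℂ} (h1 : A * A = 1) (h2 : A.det = 1) : ∃ c : ℂ, A = c • (1 : Matrix (Fin 2) (Fin 2) ℂ) := by
  rw [Matrix.det_fin_two] at h2
  have e00 := congrFun (congrFun h1 0) 0
  have e01 := congrFun (congrFun h1 0) 1
  have e10 := congrFun (congrFun h1 1) 0
  have e11 := congrFun (congrFun h1 1) 1
  simp [Matrix.mul_apply, Fin.sum_univ_two] at e00 e01 e10 e11
  have hs : A 0 0 + A 1 1 ≠ 0 := by
    intro hs
    have hd : A 1 1 = - A 0 0 := by linear_combination hs
    rw [hd] at h2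
    have : (2 : ℂ) = 0 := by linear_combination -(h2) - e00
    norm_num at this
  have hb : A 0 1 = 0 := by
    have : A 0 1 * (A 0 0 + A 1 1) = 0 := by linear_combination e01
    exact (mul_eq_zero.1 this).resolve_right hs
  have hc : A 1 0 = 0 := by
    have : A 1 0 * (A 0 0 + A 1 1) = 0 := by linear_combination e10
    exact (mul_eq_zero.1 this).resolve_right hs
  rw [hb] at h2 e00
  have hd : A 1 1 = A 0 0 := by linear_combination A 0 0 * h2 - A 1 1 * e00
  refine ⟨A 0 0, ?_⟩
  ext i j
  fin_cases i <;> fin_cases j <;> simp [hb, hc, hd]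

theorem three_le [Finite G] [IsSimpleGroup G] {a b : G} (hab : a * b ≠ b * a) {t : G} (ht : orderOf t = 2)
    (χ : IrrCharacter G) (hχ : χ ≠ irrOne G) {n : ℕ} (hn : (χ : G → ℂ) 1 = n) : 3 ≤ n := by
  by_contra hlt
  push Not at hlt
  obtain ⟨n', hn'0, hn'⟩ := IsIrrCharacter.exists_pos χ.2
  have h0 : 0 < n := by
    have : (n : ℂ) = n' := by rw [← hn, ← hn']
    have := Nat.cast_injective this
    omega
  have h1 : n ≠ 1 := by
    rintro rfl
    exact hχ (irr_deg_one hab χ (by simpa using hn))
  have h2 : n = 2 := by omega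
  subst h2
  obtain ⟨m, ρ, hirr, hρ⟩ := χ.2
  have hm : m = 2 := by
    have h3 : ρ.character 1 = (2 : ℕ) := by rw [hρ, hn]
    rw [Representation.char_one] at h3
    simp at h3
    exact_mod_cast h3
  subst hm
  -- kernel
  have hinj : Function.Injective ρ := by
    let φ : G →* ((Fin 2 → ℂ) →ₗ[ℂ] (Fin 2 → ℂ)) := ρ
    rcases (inferInstance : (MonoidHom.ker φ).Normal).eq_bot_or_eq_top with h | h
    · exact (MonoidHom.ker_eq_bot_iff φ).1 h
    · exfalso
      apply hχ
      apply irr_deg_one hab
      rw [degree_one_iff]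
      intro g _
      have h4 : ∀ g : G, ρ g = 1 := fun g => by
        have : g ∈ MonoidHom.ker φ := by rw [h]; trivial
        exact this
      rw [← hρ]
      simp only [Representation.character]
      rw [h4, h4]
  have hdet : ∀ g : G, LinearMap.det (ρ g) = 1 := by
    intro g
    let d : G →* ℂˣ := MonoidHom.toHomUnits ((LinearMap.det : ((Fin 2 → ℂ) →ₗ[ℂ] (Fin 2 → ℂ)) →* ℂ).comp ρ)
    have h5 : g ∈ MonoidHom.ker d := Abelianization.commutator_subset_ker d (by rw [comm_top hab]; trivial)
    have h6 : d g = 1 := h5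
    have h7 := congrArg (Units.val) h6
    exact h7
  have htt : t * t = 1 := by
    have := pow_orderOf_eq_one t
    rwa [ht, pow_two] at this
  obtain ⟨c, hc⟩ := mat_two (A := LinearMap.toMatrix' (ρ t)) (by
    rw [← LinearMap.toMatrix'_mul, ← map_mul, htt, map_one, LinearMap.toMatrix'_one]) (by
    rw [LinearMap.det_toMatrix', hdet])
  have hc' : ρ t = c • (1 : (Fin 2 → ℂ) →ₗ[ℂ] (Fin 2 → ℂ)) := by
    apply LinearMap.toMatrix'.injective
    rw [hc, map_smul, LinearMap.toMatrix'_one]
  have hcen : t ∈ Subgroup.center G := by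
    rw [Subgroup.mem_center_iff]
    intro g
    apply hinj
    rw [map_mul, map_mul, hc']
    simp
  rcases (inferInstance : (Subgroup.center G).Normal).eq_bot_or_eq_top with h | h
  · rw [h, Subgroup.mem_bot] at hcen
    rw [hcen, orderOf_one] at ht
    omega
  · have : a ∈ Subgroup.center G := by rw [h]; trivial
    exact hab (Subgroup.mem_center_iff.1 this b).symm

theorem main [Finite G] [IsSimpleGroup G] (heven : Even (Nat.card G)) (hgt : 2 < Nat.card G) :
    3 * Nat.card {t : G // orderOf t = 2} < Nat.card G := by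
  classical
  haveI : Fintype G := Fintype.ofFinite G
  obtain ⟨t, ht⟩ := exists_prime_orderOf_dvd_card' (G := G) 2 heven.two_dvd
  have hab : ∃ a b : G, a * b ≠ b * a := by
    by_contra hcomm
    push Not at hcomm
    haveI : (Subgroup.zpowers t).Normal := ⟨fun x hx g => by rw [hcomm g x, mul_inv_cancel_right]; exact hx⟩
    rcases (inferInstance : (Subgroup.zpowers t).Normal).eq_bot_or_eq_top with h | h
    · rw [Subgroup.zpowers_eq_bot] at h
      rw [h, orderOf_one] at ht
      omega
    · have := Nat.card_zpowers t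
      rw [h, Subgroup.card_top, ht] at this
      omega
  obtain ⟨a, b, hab⟩ := hab
  choose n hn0 hn using fun χ : IrrCharacter G => IsIrrCharacter.exists_pos χ.2
  have hS := CharFS.card_sq_eq_one (G := G)
  have hν : ∀ χ : IrrCharacter G, ∃ e : ℤ, e ≤ 1 ∧ ((Nat.card G : ℂ)⁻¹ * ∑ s : G, (χ : G → ℂ) (s * s)) = e := by
    intro χ
    rcases (CharFS.frobenius_schur χ.2).1 with h | h | h
    · exact ⟨0, by norm_num, by rw [h]; simp⟩
    · exact ⟨1, by norm_num, by rw [h]; simp⟩
    · exact ⟨-1, by norm_num, by rw [h]; simp⟩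
  choose e he1 he using hν
  have hS' : (Nat.card {s : G // s * s = 1} : ℤ) = ∑ χ : IrrCharacter G, e χ * (n χ : ℤ) := by
    have : ((Nat.card {s : G // s * s = 1} : ℤ) : ℂ) = ((∑ χ : IrrCharacter G, e χ * (n χ : ℤ) : ℤ) : ℂ) := by
      push_cast
      rw [hS]
      refine Finset.sum_congr rfl fun χ _ => ?_
      rw [he, hn]
    exact_mod_cast this
  have hG : (∑ χ : IrrCharacter G, (n χ : ℤ) ^ 2) = Nat.card G := by
    have : ((∑ χ : IrrCharacter G, (n χ : ℤ) ^ 2 : ℤ) : ℂ) = ((Nat.card G : ℤ) : ℂ) := by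
      push_cast
      rw [← sum_irr_one_sq G]
      refine Finset.sum_congr rfl fun χ _ => ?_
      rw [hn]
    exact_mod_cast this
  have h1 : (Nat.card {s : G // s * s = 1} : ℤ) ≤ ∑ χ : IrrCharacter G, (n χ : ℤ) := by
    rw [hS']
    refine Finset.sum_le_sum fun χ _ => ?_
    nlinarith [he1 χ, hn0 χ, (by exact_mod_cast hn0 χ : (0:ℤ) < n χ)]
  have hn1 : n (irrOne G) = 1 := by
    have := hn (irrOne G)
    rw [irrOne_apply] at this
    exact_mod_cast this.symm
  have h2 : 3 * (∑ χ ∈ Finset.univ.erase (irrOne G), (n χ : ℤ)) ≤ ∑ χ ∈ Finset.univ.erase (irrOne G), (n χ : ℤ) ^ 2 := by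
    rw [Finset.mul_sum]
    refine Finset.sum_le_sum fun χ hχ => ?_
    have h3 := three_le hab ht χ (Finset.ne_of_mem_erase hχ) (hn χ)
    have h3' : (3 : ℤ) ≤ n χ := by exact_mod_cast h3
    nlinarith
  have h4 := Finset.add_sum_erase Finset.univ (fun χ : IrrCharacter G => (n χ : ℤ)) (Finset.mem_univ (irrOne G))
  have h5 := Finset.add_sum_erase Finset.univ (fun χ : IrrCharacter G => (n χ : ℤ) ^ 2) (Finset.mem_univ (irrOne G))
  simp only [hn1] at h4 h5
  rw [hG] at h5
  have h6 : Nat.card {s : G // s * s = 1} = Nat.card {t : G // orderOf t = 2} + 1 := by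
    rw [Nat.card_eq_fintype_card, Nat.card_eq_fintype_card, Fintype.card_subtype, Fintype.card_subtype]
    rw [show (Finset.univ.filter fun s : G => s * s = 1) = insert 1 (Finset.univ.filter fun s : G => orderOf s = 2) from ?_]
    · rw [Finset.card_insert_of_notMem]
      simp
    · ext s
      simp only [Finset.mem_filter, Finset.mem_univ, true_and, Finset.mem_insert]
      constructor
      · intro h
        by_cases hs : s = 1
        · exact Or.inl hs
        · right
          exact orderOf_eq_prime (by rw [pow_two, h]) hs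
      · rintro (rfl | h)
        · simp
        · have := pow_orderOf_eq_one s
          rwa [h, pow_two] at this
  have h7 : (3 : ℤ) * (Nat.card {t : G // orderOf t = 2} : ℤ) < Nat.card G := by
    rw [h6] at h1
    push_cast at h1 h4 h5
    linarith
  exact_mod_cast h7

end CfsgLib.InvThird
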