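import Mathlib

set_option autoImplicit false

namespace CfsgLib.Irr

open Matrix Module

variable {F : Type*} [Field F] {n : ℕ}

/-- the centralizer of an irreducible matrix in the matrix ring is a field with `q ^ n` elements -/
theorem isDomain (x : Matrix (Fin n) (Fin n) F) (hn : 1 ≤ n)
    (hirr : ∀ W : Submodule F (Fin n → F), (∀ v ∈ W, x.mulVec v ∈ W) → W = ⊥ ∨ W = ⊤) :
    IsDomain (Subring.centralizer ({x} : Set (Matrix (Fin n) (Fin n) F))) := by
  have : Nonempty (Fin n) := ⟨⟨0, by omega⟩⟩
  have hinj : ∀ a : Matrix (Fin n) (Fin n) F, x * a = a * x → a ≠ 0 → ∀ v, a.mulVec v = 0 → v = 0 := by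
    intro a hxa ha
    have h1 : ∀ v ∈ LinearMap.ker a.mulVecLin, x.mulVec v ∈ LinearMap.ker a.mulVecLin := by
      intro v hv
      rw [LinearMap.mem_ker, Matrix.mulVecLin_apply] at hv ⊢
      rw [Matrix.mulVec_mulVec, ← hxa, ← Matrix.mulVec_mulVec, hv, Matrix.mulVec_zero]
    rcases hirr _ h1 with h | h
    · intro v hv
      have : v ∈ LinearMap.ker a.mulVecLin := by rw [LinearMap.mem_ker]; exact hv
      rw [h, Submodule.mem_bot] at this
      exact this
    · exfalso
      apply ha
      rw [LinearMap.ker_eq_top] at h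
      apply Matrix.ext_of_mulVec_single
      intro i
      have := LinearMap.congr_fun h (Pi.single i 1)
      rw [Matrix.mulVecLin_apply] at this
      rw [this, Matrix.zero_mulVec]; rfl
  have : NoZeroDivisors (Subring.centralizer ({x} : Set (Matrix (Fin n) (Fin n) F))) := by
    refine ⟨?_⟩
    rintro ⟨a, ha⟩ ⟨b, hb⟩ hab
    rw [Subring.mem_centralizer_iff] at ha hb
    have hxa := ha x rfl
    rcases eq_or_ne a 0 with h0 | h0
    · left; exact Subtype.ext h0
    · right
      apply Subtype.ext
      have h2 : a * b = 0 := Subtype.ext_iff.1 hab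
      show b = 0
      apply Matrix.ext_of_mulVec_single
      intro i
      rw [Matrix.zero_mulVec]
      apply hinj a hxa h0
      rw [Matrix.mulVec_mulVec, h2, Matrix.zero_mulVec]
  have : Nontrivial (Subring.centralizer ({x} : Set (Matrix (Fin n) (Fin n) F))) := inferInstance
  exact NoZeroDivisors.to_isDomain _

theorem card_ring [Fintype F] (x : Matrix (Fin n) (Fin n) F) (hn : 1 ≤ n)
    (hirr : ∀ W : Submodule F (Fin n → F), (∀ v ∈ W, x.mulVec v ∈ W) → W = ⊥ ∨ W = ⊤) :
    Nat.card (Subring.centralizer ({x} : Set (Matrix (Fin n) (Fin n) F))) = Fintype.card F ^ n := by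
  classical
  have hdom := isDomain x hn hirr
  let i0 : Fin n := ⟨0, by omega⟩
  let v : Fin n → F := Pi.single i0 1
  have hv : v ≠ 0 := by
    intro h
    have := congrFun h i0
    simp [v] at this
  let φ : Subring.centralizer ({x} : Set (Matrix (Fin n) (Fin n) F)) → (Fin n → F) := fun a => a.1.mulVec v
  have hsurj : Function.Surjective φ := by
    let W : Submodule F (Fin n → F) :=
      { carrier := Set.range φ
        add_mem' := by
          rintro _ _ ⟨a, rfl⟩ ⟨b, rfl⟩
          exact ⟨a + b, Matrix.add_mulVec _ _ _⟩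
        zero_mem' := ⟨0, Matrix.zero_mulVec _⟩
        smul_mem' := by
          rintro c _ ⟨a, rfl⟩
          refine ⟨⟨c • a.1, ?_⟩, ?_⟩
          · rw [Subring.mem_centralizer_iff]
            intro y hy
            have := (Subring.mem_centralizer_iff.1 a.2) y hy
            rw [Matrix.mul_smul, this, Matrix.smul_mul]
          · exact Matrix.smul_mulVec _ _ _ }
    have hW : ∀ w ∈ W, x.mulVec w ∈ W := by
      rintro _ ⟨a, rfl⟩
      have hx : x ∈ Subring.centralizer ({x} : Set (Matrix (Fin n) (Fin n) F)) := by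
        rw [Subring.mem_centralizer_iff]
        intro y hy
        rw [Set.mem_singleton_iff.1 hy]
      refine ⟨⟨x, hx⟩ * a, ?_⟩
      show (x * a.1).mulVec v = x.mulVec (a.1.mulVec v)
      rw [Matrix.mulVec_mulVec]
    rcases hirr W hW with h | h
    · exfalso
      have h1 : v ∈ W := ⟨1, Matrix.one_mulVec v⟩
      rw [h, Submodule.mem_bot] at h1
      exact hv h1
    · intro w
      have : w ∈ W := by rw [h]; trivial
      exact this
  have hinj : Function.Injective φ := by
    intro a b hab
    by_contra hne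
    have hne' : a - b ≠ 0 := sub_ne_zero.2 hne
    have hfin : Finite (Subring.centralizer ({x} : Set (Matrix (Fin n) (Fin n) F))) := inferInstance
    obtain ⟨c, hc⟩ := (Finite.isDomain_to_isField (Subring.centralizer ({x} : Set (Matrix (Fin n) (Fin n) F)))).mul_inv_cancel hne'
    have hc' : c * (a - b) = 1 := by
      rw [(Finite.isDomain_to_isField (Subring.centralizer ({x} : Set (Matrix (Fin n) (Fin n) F)))).mul_comm]
      exact hc
    have h1 : (c * (a - b)).1.mulVec v = 0 := by
      show (c.1 * (a.1 - b.1)).mulVec v = 0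
      rw [← Matrix.mulVec_mulVec, Matrix.sub_mulVec]
      have : a.1.mulVec v = b.1.mulVec v := hab
      rw [this, sub_self, Matrix.mulVec_zero]
    rw [hc'] at h1
    apply hv
    rw [← h1]
    exact (Matrix.one_mulVec v).symm
  rw [Nat.card_congr (Equiv.ofBijective φ ⟨hinj, hsurj⟩)]
  simp

/-- the centralizer of an irreducible element of `GL_n(q)` is a Singer cycle -/
theorem centralizer [Fintype F] (x : GL (Fin n) F) (hn : 1 ≤ n)
    (hirr : ∀ W : Submodule F (Fin n → F), (∀ v ∈ W, x.1.mulVec v ∈ W) → W = ⊥ ∨ W = ⊤) :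
    IsCyclic (Subgroup.centralizer ({x} : Set (GL (Fin n) F))) ∧
      Nat.card (Subgroup.centralizer ({x} : Set (GL (Fin n) F))) = Fintype.card F ^ n - 1 := by
  classical
  have hdom := isDomain x.1 hn hirr
  have hfin : Finite (Subring.centralizer ({x.1} : Set (Matrix (Fin n) (Fin n) F))) := inferInstance
  let D := Subring.centralizer ({x.1} : Set (Matrix (Fin n) (Fin n) F))
  have hf : IsField D := Finite.isDomain_to_isField D
  have hcard := card_ring x.1 hn hirr
  let : Field D := hf.toField
  let e : Subgroup.centralizer ({x} : Set (GL (Fin n) F)) ≃* Dˣ :=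
    { toFun := fun c => ⟨⟨c.1.1, by
          rw [Subring.mem_centralizer_iff]
          intro y hy
          rw [Set.mem_singleton_iff.1 hy]
          have := Subgroup.mem_centralizer_iff.1 c.2 x rfl
          exact congrArg Units.val this⟩, ⟨c⁻¹.1.1, by
          rw [Subring.mem_centralizer_iff]
          intro y hy
          rw [Set.mem_singleton_iff.1 hy]
          have := Subgroup.mem_centralizer_iff.1 c⁻¹.2 x rfl
          exact congrArg Units.val this⟩, Subtype.ext c.1.mul_inv, Subtype.ext c.1.inv_mul⟩
      invFun := fun d => ⟨⟨d.1.1, d⁻¹.1.1, Subtype.ext_iff.1 d.mul_inv, Subtype.ext_iff.1 d.inv_mul⟩, by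
          rw [Subgroup.mem_centralizer_iff]
          intro y hy
          rw [Set.mem_singleton_iff.1 hy]
          apply Units.ext
          exact (Subring.mem_centralizer_iff.1 d.1.2) x.1 rfl⟩
      left_inv := fun c => Subtype.ext (Units.ext rfl)
      right_inv := fun d => Units.ext (Subtype.ext rfl)
      map_mul' := fun a b => Units.ext (Subtype.ext rfl) }
  have hcyc : IsCyclic Dˣ := inferInstance
  refine ⟨(MulEquiv.isCyclic e).2 hcyc, ?_⟩
  rw [Nat.card_congr e.toEquiv, Nat.card_units, hcard]

/-- elements of prime order `r`, a primitive prime divisor of `q ^ n - 1`, are irreducible -/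
theorem irreducible_of_ppd [Fintype F] {p q r : ℕ} [Fact p.Prime] [CharP F p] (hF : Fintype.card F = q) (hn : 1 ≤ n)
    (hr : r.Prime) (hrp : r ≠ p) (hi : orderOf (q : ZMod r) = n) (x : GL (Fin n) F) (hx : orderOf x = r)
    (W : Submodule F (Fin n → F)) (hW : ∀ v ∈ W, x.1.mulVec v ∈ W) : W = ⊥ ∨ W = ⊤ := by
  classical
  have : Fact r.Prime := ⟨hr⟩
  have hqr : (q : ZMod r) ≠ 0 := by
    rw [Ne, ZMod.natCast_eq_zero_iff]
    intro hd
    rw [← hF, FiniteField.card F p |>.choose_spec.2] at hd
    exact hrp ((Nat.prime_dvd_prime_iff_eq hr Fact.out).1 (hr.dvd_of_dvd_pow hd))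
  -- fixed vectors
  have hker : ∀ v, v ∈ LinearMap.ker (x.1 - 1).mulVecLin ↔ x.1.mulVec v = v := by
    intro v
    rw [LinearMap.mem_ker, Matrix.mulVecLin_apply, Matrix.sub_mulVec, Matrix.one_mulVec, sub_eq_zero]
  have key : ∀ U : Submodule F (Fin n → F), (∀ v ∈ U, x.1.mulVec v ∈ U) →
      n ∣ finrank F U - finrank F (U ⊓ LinearMap.ker (x.1 - 1).mulVecLin : Submodule F (Fin n → F)) := by
    intro U hU
    let f : Function.End U := fun u => ⟨x.1.mulVec u.1, hU _ u.2⟩
    have hf : ∀ k : ℕ, ∀ u : U, ((f ^ k) u).1 = (x ^ k).1.mulVec u.1 := by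
      intro k
      induction k with
      | zero => intro u; simp [Function.End.one_def]
      | succ k ih =>
        intro u
        rw [pow_succ, pow_succ]
        show ((f ^ k) (f u)).1 = _
        rw [ih]
        show (x ^ k).1.mulVec (x.1.mulVec u.1) = _
        rw [Matrix.mulVec_mulVec]; rfl
    have hf1 : f ^ r ^ 1 = 1 := by
      funext u
      apply Subtype.ext
      rw [hf, pow_one, ← hx, pow_orderOf_eq_one]
      exact Matrix.one_mulVec _
    have h1 := Equiv.Perm.card_fixedPoints_modEq (f := f) hf1
    have h2 : Fintype.card U = q ^ finrank F U := by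
      rw [← hF]; exact Module.card_eq_pow_finrank
    have h3 : Fintype.card (Function.fixedPoints f) = q ^ finrank F (U ⊓ LinearMap.ker (x.1 - 1).mulVecLin : Submodule F (Fin n → F)) := by
      rw [← hF, ← Module.card_eq_pow_finrank (K := F) (V := (U ⊓ LinearMap.ker (x.1 - 1).mulVecLin : Submodule F (Fin n → F)))]
      apply Fintype.card_congr
      exact
        { toFun := fun u => ⟨u.1.1, u.1.2, (hker _).2 (Subtype.ext_iff.1 u.2)⟩
          invFun := fun u => ⟨⟨u.1, u.2.1⟩, Subtype.ext ((hker _).1 u.2.2)⟩
          left_inv := fun u => rfl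
          right_inv := fun u => rfl }
    rw [h2, h3] at h1
    have hle : finrank F (U ⊓ LinearMap.ker (x.1 - 1).mulVecLin : Submodule F (Fin n → F)) ≤ finrank F U :=
      Submodule.finrank_mono inf_le_left
    have h4 : (q : ZMod r) ^ (finrank F U - finrank F (U ⊓ LinearMap.ker (x.1 - 1).mulVecLin : Submodule F (Fin n → F))) = 1 := by
      have h5 : ((q ^ finrank F U : ℕ) : ZMod r) = ((q ^ finrank F (U ⊓ LinearMap.ker (x.1 - 1).mulVecLin : Submodule F (Fin n → F)) : ℕ) : ZMod r) :=
        (ZMod.natCast_eq_natCast_iff _ _ _).2 h1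
      push_cast at h5
      rw [← Nat.sub_add_cancel hle, pow_add] at h5
      exact mul_right_cancel₀ (pow_ne_zero _ hqr) (h5.trans (one_mul _).symm)
    exact hi.symm.dvd.trans (orderOf_dvd_of_pow_eq_one h4)
  -- the fixed space of `x` is zero
  have hfix : LinearMap.ker (x.1 - 1).mulVecLin = ⊥ := by
    have h1 := key ⊤ (fun v _ => trivial)
    rw [top_inf_eq, finrank_top, Module.finrank_fin_fun] at h1
    have hle : finrank F (LinearMap.ker (x.1 - 1).mulVecLin) ≤ n := by
      have := Submodule.finrank_le (LinearMap.ker (x.1 - 1).mulVecLin)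
      rwa [Module.finrank_fin_fun] at this
    have h2 : finrank F (LinearMap.ker (x.1 - 1).mulVecLin) = 0 ∨ finrank F (LinearMap.ker (x.1 - 1).mulVecLin) = n := by
      obtain ⟨k, hk⟩ := h1
      rcases Nat.eq_zero_or_pos k with h0 | h0
      · right; rw [h0] at hk; omega
      · left
        have : n * 1 ≤ n * k := Nat.mul_le_mul_left n h0
        omega
    rcases h2 with h2 | h2
    · exact Submodule.finrank_eq_zero.1 h2
    · exfalso
      have h3 : LinearMap.ker (x.1 - 1).mulVecLin = ⊤ := by
        apply Submodule.eq_top_of_finrank_eq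
        rw [h2, Module.finrank_fin_fun]
      have h4 : x = 1 := by
        apply Units.ext
        rw [LinearMap.ker_eq_top] at h3
        apply Matrix.ext_of_mulVec_single
        intro i
        have := LinearMap.congr_fun h3 (Pi.single i 1)
        rw [Matrix.mulVecLin_apply, Matrix.sub_mulVec, LinearMap.zero_apply, sub_eq_zero] at this
        exact this
      rw [h4, orderOf_one] at hx
      exact hr.one_lt.ne hx
  have h1 := key W hW
  rw [hfix, inf_bot_eq, finrank_bot, Nat.sub_zero] at h1
  have hle : finrank F W ≤ n := by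
    have := Submodule.finrank_le W
    rwa [Module.finrank_fin_fun] at this
  rcases Nat.eq_zero_or_pos (finrank F W) with h0 | h0
  · left; exact Submodule.finrank_eq_zero.1 h0
  · right
    apply Submodule.eq_top_of_finrank_eq
    rw [Module.finrank_fin_fun]
    exact le_antisymm hle (Nat.le_of_dvd h0 h1)

end CfsgLib.Irr
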