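import Cfsg.Agent.Lib.ChevAut2
set_option autoImplicit false
set_option linter.style.haveILetI false
set_option linter.unusedSectionVars false

/-! Exponents of the maximal unipotent subgroups of Chevalley groups from the height function. -/

namespace CfsgLib.Chev
open Cfsg.Lie Matrix

namespace GD
variable {D : ChevalleyDatum} (M : GD D) {F : Type*} [Field F]
include M

/-- the height function -/
noncomputable def ht (s : ℕ) : ℤ := ∑ i ∈ Finset.range D.rank, M.a i s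

theorem ht_neg {s : ℕ} (hs : s < D.nroots) : M.ht (D.neg s) = - M.ht s := by
  unfold ht
  rw [← Finset.sum_neg_distrib]
  refine Finset.sum_congr rfl fun i hi => ?_
  rw [M.a_neg (Finset.mem_range.mp hi) hs]

theorem isWt_ht : IsWt D M.T (fun s => Multiplicative.ofAdd (M.ht s)) where
  neg r hr := by rw [M.ht_neg hr]; rfl
  add r s k hr hs hk _ h := by
    have : M.ht k = M.ht r + M.ht s := by
      unfold ht
      rw [← Finset.sum_add_distrib]
      refine Finset.sum_congr rfl fun i hi => ?_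
      rw [M.a_add (Finset.mem_range.mp hi) hr hs hk h]
    rw [this]; rfl

/-- the height on the index set -/
noncomputable def hx (x : D.Idx) : ℤ := Multiplicative.toAdd (wx D (fun s => Multiplicative.ofAdd (M.ht s)) x)

theorem hx_inl (i : Fin D.rank) : M.hx (Sum.inl i) = 0 := rfl
theorem hx_inr (s : Fin D.nroots) : M.hx (Sum.inr s) = M.ht s.val := rfl

theorem x_off_ht {r : ℕ} (hr : r < D.nroots) (t : F) {x y : D.Idx} (hxy : x ≠ y) (h : D.x F r t x y ≠ 0) :
    ∃ k : ℕ, 1 ≤ k ∧ M.hx x = k * M.ht r + M.hx y := by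
  rw [M.N.x_eq hr] at h
  obtain ⟨k, h1, h2⟩ := M.N.XR_wt M.isWt_ht hr h
  refine ⟨k, Nat.one_le_iff_ne_zero.mpr fun hk => hxy (h2 hk), ?_⟩
  have := congrArg Multiplicative.toAdd h1
  simpa [hx] using this

theorem U_le_UTS_ht (h : ∀ s < D.nroots, s ∈ PosS D → 1 ≤ M.ht s) : D.posUnipotent F ≤ UTS F M.hx 1 le_rfl := by
  have key : ∀ s < D.nroots, s ∈ PosS D → ∀ t : F, UT M.hx 1 (D.x F s t) := by
    intro s hs hp t
    refine ⟨M.x_diag hs t, fun x y hxy h' => ?_⟩
    obtain ⟨k, hk, h1⟩ := M.x_off_ht hs t hxy h'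
    rw [h1]
    have h2 : (1 : ℤ) ≤ k := by exact_mod_cast hk
    have h3 := h s hs hp
    nlinarith
  rw [M.U_eq]
  unfold XS
  rw [Subgroup.closure_le]
  rintro g ⟨r, t, hr, hr', rfl⟩
  refine ⟨?_, ?_⟩
  · rw [M.coe_xg]; exact key r hr' hr t
  · rw [← M.xg_neg, M.coe_xg]; exact key r hr' hr _

end GD

theorem UT.pow_off {ι : Type*} [Fintype ι] [DecidableEq ι] {F : Type*} [Field F] {l : ι → ℤ} {A : Matrix ι ι F}
    (hA : UT l 1 A) (k : ℕ) : ∀ x y, ((A - 1) ^ k) x y ≠ 0 → l y + k ≤ l x := by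
  have h0 : ∀ x y, (A - 1) x y ≠ 0 → l y + 1 ≤ l x := by
    intro x y h
    by_cases hxy : x = y
    · subst hxy
      rw [Matrix.sub_apply, hA.1, Matrix.one_apply_eq, sub_self] at h
      exact absurd rfl h
    · rw [Matrix.sub_apply, Matrix.one_apply_ne hxy, sub_zero] at h
      exact hA.2 x y hxy h
  induction k with
  | zero =>
    intro x y h
    have : x = y := by
      by_contra hxy
      rw [pow_zero] at h
      exact h (Matrix.one_apply_ne hxy)
    subst this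
    simp
  | succ k ih =>
    intro x y h
    rw [pow_succ', Matrix.mul_apply] at h
    obtain ⟨z, -, hz⟩ := Finset.exists_ne_zero_of_sum_ne_zero h
    have h1 := h0 x z (left_ne_zero_of_mul hz)
    have h2 := ih z y (right_ne_zero_of_mul hz)
    push_cast
    omega

namespace CG
variable {D : ChevalleyDatum} {F : Type*} [Field F] (M : CG D F)
include M

theorem U_pow_ht {p : ℕ} [Fact p.Prime] [CharP F p] {B k : ℕ} (h : ∀ s < D.nroots, s ∈ PosS D → 1 ≤ M.ht s)
    (hB : ∀ s < D.nroots, M.ht s ≤ B ∧ - (B : ℤ) ≤ M.ht s) (hk : 2 * B < p ^ k) {u : GL D.Idx F} (hu : u ∈ D.posUnipotent F) :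
    u ^ p ^ k = 1 := by
  haveI := M.idx_nonempty
  have h1 : UT M.hx 1 (u : Matrix D.Idx D.Idx F) := (M.U_le_UTS_ht h hu).1
  have hb : ∀ x : D.Idx, M.hx x ≤ B ∧ - (B : ℤ) ≤ M.hx x := by
    intro x
    rcases x with i | s
    · rw [M.hx_inl]; exact ⟨by positivity, by simp⟩
    · rw [M.hx_inr]; exact hB _ s.2
  have h3 : ((u : Matrix D.Idx D.Idx F) - 1) ^ p ^ k = 0 := by
    ext x y
    by_contra hne
    have h4 := h1.pow_off _ x y hne
    have h5 := hb x
    have h6 := hb y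
    have h7 : ((2 * B : ℕ) : ℤ) < ((p ^ k : ℕ) : ℤ) := by exact_mod_cast hk
    push_cast at h4 h7
    omega
  apply Units.ext
  rw [Units.val_pow_eq_pow_val, Units.val_one]
  have h4 : (u : Matrix D.Idx D.Idx F) = ((u : Matrix D.Idx D.Idx F) - 1) + 1 := by simp
  rw [h4, add_pow_char_pow_of_commute (p := p) (h := Commute.one_right _), h3, one_pow, zero_add]

theorem pow_of_ht [Finite F] {p : ℕ} [Fact p.Prime] [CharP F p] {B k : ℕ} (h : ∀ s < D.nroots, s ∈ PosS D → 1 ≤ M.ht s)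
    (hB : ∀ s < D.nroots, M.ht s ≤ B ∧ - (B : ℤ) ≤ M.ht s) (hk : 2 * B < p ^ k) {g : GL D.Idx F} (hg : g ∈ D.group F)
    (hj : ∃ j, orderOf g = p ^ j) : g ^ p ^ k = 1 := by
  obtain ⟨P, hP⟩ := M.sylow_U (p := p)
  obtain ⟨j, hj⟩ := hj
  haveI : Finite ↥(D.group F) := inferInstance
  have h1 : IsPGroup p ↥(Subgroup.zpowers (⟨g, hg⟩ : ↥(D.group F))) := by
    rw [IsPGroup.iff_card, Nat.card_zpowers, Subgroup.orderOf_mk]
    exact ⟨j, hj⟩
  obtain ⟨Q, hQ⟩ := h1.exists_le_sylow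
  obtain ⟨y, hy⟩ := MulAction.exists_smul_eq ↥(D.group F) Q P
  have h2 : (y * ⟨g, hg⟩ * y⁻¹ : ↥(D.group F)) ∈ (P : Subgroup ↥(D.group F)) := by
    rw [← hy]
    refine Subgroup.mem_pointwise_smul_iff_inv_smul_mem.mpr ?_
    have : (MulAut.conj y)⁻¹ • (y * ⟨g, hg⟩ * y⁻¹ : ↥(D.group F)) = ⟨g, hg⟩ := by
      rw [← map_inv]
      change y⁻¹ * (y * ⟨g, hg⟩ * y⁻¹) * y⁻¹⁻¹ = _
      group
    rw [this]
    exact hQ (Subgroup.mem_zpowers _)
  rw [hP, Subgroup.mem_subgroupOf] at h2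
  have h3 := M.U_pow_ht (p := p) h hB hk h2
  push_cast at h3
  have h4 : ((y : GL D.Idx F) * g * (y : GL D.Idx F)⁻¹) ^ p ^ k = (y : GL D.Idx F) * g ^ p ^ k * (y : GL D.Idx F)⁻¹ := conj_pow
  rw [h4, mul_inv_eq_one, mul_eq_left] at h3
  exact h3

end CG

end CfsgLib.Chev
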