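import Mathlib
set_option autoImplicit false
set_option linter.style.haveILetI false
set_option linter.unusedSectionVars false

/-! Order bounds for the groups of Lie type: arithmetic. -/

namespace CfsgLib.KF

theorem bd {p q a N M c R g : ℕ} (hp : p.Prime) (hq : q = p ^ a) (ha : 1 ≤ a) (h : c * g = q ^ N * R) (hg : 0 < g)
    (hc : ¬ p ∣ c) (hR : ¬ p ∣ R) (hM : M ≠ 0) (hle : R ≤ c * q ^ M) :
    g.factorization p = a * N ∧ g < p ^ (a * (N + M)) := by
  have hq0 : 0 < q := by rw [hq]; exact pow_pos hp.pos _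
  have hc0 : c ≠ 0 := fun h => hc (h ▸ dvd_zero _)
  have hR0 : R ≠ 0 := fun h => hR (h ▸ dvd_zero _)
  have hlt : R < c * q ^ M := by
    refine lt_of_le_of_ne hle fun h => hR ?_
    rw [h, hq, ← pow_mul]
    exact Dvd.dvd.mul_left (dvd_pow_self p (Nat.mul_ne_zero (by omega) hM)) _
  constructor
  · have h1 : (c * g).factorization p = (q ^ N * R).factorization p := by rw [h]
    rw [Nat.factorization_mul hc0 hg.ne', Nat.factorization_mul (pow_ne_zero _ hq0.ne') hR0] at h1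
    simp only [Finsupp.add_apply] at h1
    rw [Nat.factorization_eq_zero_of_not_dvd hc, Nat.factorization_eq_zero_of_not_dvd hR, hq, ← pow_mul, hp.factorization_pow] at h1
    simpa using h1
  · have h1 : c * g < c * p ^ (a * (N + M)) := by
      have e : p ^ (a * (N + M)) = q ^ N * q ^ M := by rw [hq, ← pow_mul, ← pow_mul, ← pow_add]; congr 1; ring
      rw [h, e]
      calc q ^ N * R < q ^ N * (c * q ^ M) := Nat.mul_lt_mul_of_pos_left hlt (pow_pos hq0 _)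
        _ = c * (q ^ N * q ^ M) := by ring
    exact Nat.lt_of_mul_lt_mul_left h1

theorem fin {p a N M g : ℕ} (hp : p.Prime) (hf : g.factorization p = a * N) (hl : g < p ^ (a * (N + M))) (hNM : 3 * M ≤ 5 * N) :
    g < p ^ (3 * g.factorization p) ∧ g ^ 3 < p ^ (8 * g.factorization p) := by
  rw [hf]
  constructor
  · refine hl.trans_le (Nat.pow_le_pow_right hp.pos ?_)
    nlinarith [Nat.zero_le a]
  · calc g ^ 3 < (p ^ (a * (N + M))) ^ 3 := Nat.pow_lt_pow_left hl (by norm_num)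
      _ = p ^ (3 * (a * (N + M))) := by rw [← pow_mul]; congr 1; ring
      _ ≤ p ^ (8 * (a * N)) := Nat.pow_le_pow_right hp.pos (by nlinarith [Nat.zero_le a])

/-- `x` is prime to `p` -/
theorem nd_mul {p x y : ℕ} (hp : p.Prime) (hx : ¬ p ∣ x) (hy : ¬ p ∣ y) : ¬ p ∣ x * y := by
  intro h
  rcases (Nat.Prime.dvd_mul hp).mp h with h | h
  · exact hx h
  · exact hy h

theorem nd_add {p x : ℕ} (hp : p.Prime) (hx : p ∣ x) : ¬ p ∣ x + 1 := by
  intro h
  exact hp.one_lt.ne' (Nat.dvd_one.mp ((Nat.dvd_add_right hx).mp h))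

theorem nd_sub {p x : ℕ} (hp : p.Prime) (hx : p ∣ x) (h0 : 0 < x) : ¬ p ∣ x - 1 := by
  intro h
  have h1 : p ∣ x - (x - 1) := Nat.dvd_sub hx h
  rw [show x - (x - 1) = 1 by omega] at h1
  exact hp.one_lt.ne' (Nat.dvd_one.mp h1)

theorem nd_prod {p : ℕ} (hp : p.Prime) (s : Finset ℕ) (f : ℕ → ℕ) (h : ∀ i ∈ s, ¬ p ∣ f i) : ¬ p ∣ ∏ i ∈ s, f i := by
  intro h1
  obtain ⟨i, hi, h2⟩ := (Prime.dvd_finset_prod_iff hp.prime f).mp h1
  exact h i hi h2

theorem dq {p q a i : ℕ} (hq : q = p ^ a) (ha : 1 ≤ a) (hi : i ≠ 0) : p ∣ q ^ i := by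
  rw [hq, ← pow_mul]
  exact dvd_pow_self p (Nat.mul_ne_zero (by omega) hi)

theorem nd_dvd {p x y : ℕ} (h : x ∣ y) (hy : ¬ p ∣ y) : ¬ p ∣ x := fun h1 => hy (h1.trans h)

/-- even products -/
theorem prod2_le {q : ℕ} (hq : 2 ≤ q) (m : ℕ) : ∏ i ∈ Finset.range m, (q ^ (2 * (i + 1)) - 1) ≤ q ^ (m * (m + 1)) := by
  have h0 : 0 < q := by omega
  induction m with
  | zero => simp
  | succ m ih =>
    rw [Finset.prod_range_succ]
    calc (∏ i ∈ Finset.range m, (q ^ (2 * (i + 1)) - 1)) * (q ^ (2 * (m + 1)) - 1) ≤ q ^ (m * (m + 1)) * q ^ (2 * (m + 1)) :=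
          Nat.mul_le_mul ih (Nat.sub_le _ _)
      _ = q ^ ((m + 1) * (m + 1 + 1)) := by rw [← pow_add]; congr 1; ring

theorem prod2_lt {q : ℕ} (hq : 2 ≤ q) (m : ℕ) (hm : 1 ≤ m) : ∏ i ∈ Finset.range m, (q ^ (2 * (i + 1)) - 1) < q ^ (m * (m + 1)) := by
  have h0 : 0 < q := by omega
  obtain ⟨k, rfl⟩ := Nat.exists_eq_add_of_le' hm
  rw [Finset.prod_range_succ]
  calc (∏ i ∈ Finset.range k, (q ^ (2 * (i + 1)) - 1)) * (q ^ (2 * (k + 1)) - 1) < q ^ (k * (k + 1)) * q ^ (2 * (k + 1)) :=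
        Nat.mul_lt_mul_of_le_of_lt (prod2_le hq k) (Nat.sub_lt (pow_pos h0 _) one_pos) (pow_pos h0 _)
    _ = q ^ ((k + 1) * (k + 1 + 1)) := by rw [← pow_add]; congr 1; ring

theorem prod1_le {q : ℕ} (hq : 2 ≤ q) (m : ℕ) : ∏ i ∈ Finset.range m, (q ^ (i + 2) - 1) ≤ q ^ (m * (m + 3) / 2) := by
  have h0 : 0 < q := by omega
  induction m with
  | zero => simp
  | succ m ih =>
    rw [Finset.prod_range_succ]
    calc (∏ i ∈ Finset.range m, (q ^ (i + 2) - 1)) * (q ^ (m + 2) - 1) ≤ q ^ (m * (m + 3) / 2) * q ^ (m + 2) :=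
          Nat.mul_le_mul ih (Nat.sub_le _ _)
      _ = q ^ ((m + 1) * (m + 1 + 3) / 2) := by
        rw [← pow_add]; congr 1
        have : (m + 1) * (m + 1 + 3) = m * (m + 3) + 2 * (m + 2) := by ring
        rw [this]; omega

/-- the unitary products: both parities together -/
theorem produ_le {q : ℕ} (hq : 2 ≤ q) (k : ℕ) :
    (∏ i ∈ Finset.range (2 * k), (if Even (i + 1) then q ^ (i + 2) + 1 else q ^ (i + 2) - 1)) ≤ q ^ ((2 * k) * (2 * k + 3) / 2) := by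
  have h0 : 0 < q := by omega
  induction k with
  | zero => simp
  | succ k ih =>
    rw [show 2 * (k + 1) = 2 * k + 1 + 1 by ring, Finset.prod_range_succ, Finset.prod_range_succ]
    have e1 : ¬ Even (2 * k + 1) := by rw [Nat.not_even_iff_odd]; exact ⟨k, rfl⟩
    have e2 : Even (2 * k + 1 + 1) := ⟨k + 1, by ring⟩
    rw [if_neg e1, if_pos e2, mul_assoc]
    have h1 : (q ^ (2 * k + 2) - 1) * (q ^ (2 * k + 1 + 2) + 1) ≤ q ^ (2 * k + 2) * q ^ (2 * k + 1 + 2) := by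
      have h2 : 1 ≤ q ^ (2 * k + 2) := Nat.one_le_pow _ _ h0
      have h3 : q ^ (2 * k + 2) ≤ q ^ (2 * k + 1 + 2) := Nat.pow_le_pow_right h0 (by omega)
      obtain ⟨x, hx⟩ := Nat.exists_eq_add_of_le' h2
      rw [hx, Nat.add_sub_cancel]
      rw [hx] at h3
      nlinarith
    calc _ ≤ q ^ ((2 * k) * (2 * k + 3) / 2) * (q ^ (2 * k + 2) * q ^ (2 * k + 1 + 2)) := Nat.mul_le_mul ih h1
      _ = q ^ ((2 * k + 1 + 1) * (2 * k + 1 + 1 + 3) / 2) := by
        rw [← pow_add, ← pow_add]; congr 1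
        have : (2 * k + 1 + 1) * (2 * k + 1 + 1 + 3) = 2 * k * (2 * k + 3) + 2 * (4 * k + 5) := by ring
        rw [this]; omega

theorem produ_le' {q : ℕ} (hq : 2 ≤ q) (n : ℕ) :
    (∏ i ∈ Finset.range n, (if Even (i + 1) then q ^ (i + 2) + 1 else q ^ (i + 2) - 1)) ≤ q ^ (n * (n + 3) / 2) := by
  have h0 : 0 < q := by omega
  rcases Nat.even_or_odd' n with ⟨k, rfl | rfl⟩
  · exact produ_le hq k
  · rw [Finset.prod_range_succ]
    have e1 : ¬ Even (2 * k + 1) := by rw [Nat.not_even_iff_odd]; exact ⟨k, rfl⟩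
    rw [if_neg e1]
    calc _ ≤ q ^ ((2 * k) * (2 * k + 3) / 2) * q ^ (2 * k + 2) := Nat.mul_le_mul (produ_le hq k) (Nat.sub_le _ _)
      _ = q ^ ((2 * k + 1) * (2 * k + 1 + 3) / 2) := by
        rw [← pow_add]; congr 1
        have : (2 * k + 1) * (2 * k + 1 + 3) = 2 * k * (2 * k + 3) + 2 * (2 * k + 2) := by ring
        rw [this]; omega

end CfsgLib.KF
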