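import Mathlib
import Cfsg.Agent.Lib.Leech29

/-!
Shapes of vectors of norm 48.
-/

set_option autoImplicit false

namespace CfsgLib.Leech

open CfsgLib.Golay Finset Cfsg
open scoped Pointwise

/-- even vectors of class `C` and norm 48 -/
noncomputable def ev (C : Finset GolayPt) : Finset (GolayPt → ℤ) := (pat (two C E2 E0) 48).filter (fun x => (∑ i, x i) % 8 = 0)
/-- odd vectors of class `C` and norm 48 -/
noncomputable def od (C : Finset GolayPt) : Finset (GolayPt → ℤ) := pat (two C O3 O1) 48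

theorem mem_ev {C : Finset GolayPt} (hC : C ∈ GC) {x : GolayPt → ℤ} : x ∈ ev C ↔ NF x 0 C ∧ sqNorm x = 48 := mem_even hC (by norm_num)
theorem mem_od {C : Finset GolayPt} (hC : C ∈ GC) {x : GolayPt → ℤ} : x ∈ od C ↔ NF x 1 C ∧ sqNorm x = 48 := mem_odd hC (by norm_num) (by norm_num)

theorem ncard_ev (w : ℕ) (hw : w ≠ 0) : (((GCF.filter fun C => C.card = w).biUnion ev).card) = (GCF.filter fun C => C.card = w).card * (ec 48 w / 2) := by
  rw [Finset.card_biUnion]
  · rw [Finset.sum_congr rfl (g := fun _ => ec 48 w / 2), Finset.sum_const, smul_eq_mul]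
    intro C hC
    rw [Finset.mem_filter, mem_GCF] at hC
    have := card_even' hC.1 (Finset.card_pos.mp (by omega)) 48
    rw [hC.2] at this
    exact this
  · intro C hC D hD hne
    rw [Finset.mem_coe, Finset.mem_filter, mem_GCF] at hC hD
    rw [Function.onFun, Finset.disjoint_left]
    intro x hx hx'
    exact hne (NF_unique (Or.inl rfl) (Or.inl rfl) ((mem_ev hC.1).mp hx).1 ((mem_ev hD.1).mp hx').1).2

theorem sqNorm_split (x : GolayPt → ℤ) (C : Finset GolayPt) : sqNorm x = ∑ i ∈ C, x i ^ 2 + ∑ i ∈ Cᶜ, x i ^ 2 := by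
  unfold sqNorm
  exact (Finset.sum_add_sum_compl C _).symm

theorem sq4_of {a : ℤ} (h : a % 4 = 2) : 4 ≤ a ^ 2 := by
  have : a ≤ -2 ∨ 2 ≤ a := by omega
  rcases this with h | h <;> nlinarith

theorem shapeA (x : GolayPt → ℤ) : (x ∈ leechLattice ∧ sqNorm x = 48 ∧ ∀ i, x i = 0 ∨ x i = 2 ∨ x i = -2) ↔ x ∈ (GCF.filter fun C => C.card = 12).biUnion ev := by
  rw [Finset.mem_biUnion]
  constructor
  · rintro ⟨hx, hn, h⟩
    obtain ⟨C, hC | hC⟩ := mem_leech.mp hx
    · refine ⟨C, Finset.mem_filter.mpr ⟨mem_GCF.mpr hC.1, ?_⟩, (mem_ev hC.1).mpr ⟨hC, hn⟩⟩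
      have h1 : sqNorm x = 4 * C.card := by
        have e1 : ∑ i ∈ Cᶜ, x i ^ 2 = 0 := Finset.sum_eq_zero (fun i hi => by
          have h2 := hC.2.1 i
          rw [if_neg (Finset.mem_compl.mp hi)] at h2
          rcases h i with h | h | h <;> rw [h] at h2 ⊢ <;> omega)
        have e2 : ∑ i ∈ C, x i ^ 2 = ∑ i ∈ C, (4 : ℤ) := Finset.sum_congr rfl (fun i hi => by
          have h2 := hC.2.1 i
          rw [if_pos hi] at h2
          rcases h i with h | h | h <;> rw [h] at h2 ⊢ <;> omega)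
        rw [sqNorm_split x C, e1, e2, Finset.sum_const, nsmul_eq_mul]
        ring
      rw [hn] at h1
      omega
    · exfalso
      have h2 := hC.2.1 (pt 0)
      rcases h (pt 0) with h | h | h <;> rw [h] at h2 <;> split_ifs at h2 <;> omega
  · rintro ⟨C, hC, hx⟩
    rw [Finset.mem_filter, mem_GCF] at hC
    rw [mem_ev hC.1] at hx
    obtain ⟨hx, hn⟩ := hx
    have hm2 : ∀ i ∈ C, x i % 4 = 2 := by
      intro i hi
      have h2 := hx.2.1 i
      rw [if_pos hi] at h2
      omega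
    have hs : (48 : ℤ) ≤ ∑ i ∈ C, x i ^ 2 := by
      have : ∑ i ∈ C, (4 : ℤ) ≤ ∑ i ∈ C, x i ^ 2 := Finset.sum_le_sum (fun i hi => sq4_of (hm2 i hi))
      rw [Finset.sum_const, hC.2] at this
      exact this
    have hsp := sqNorm_split x C
    rw [hn] at hsp
    have hc0 : ∑ i ∈ Cᶜ, x i ^ 2 = 0 := by
      have : 0 ≤ ∑ i ∈ Cᶜ, x i ^ 2 := Finset.sum_nonneg (fun i _ => sq_nonneg _)
      omega
    have hcc : ∑ i ∈ C, (x i ^ 2 - 4) = 0 := by
      rw [Finset.sum_sub_distrib, Finset.sum_const, hC.2]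
      have : (12 : ℕ) • (4 : ℤ) = 48 := by norm_num
      rw [this]; omega
    refine ⟨mem_leech0 hx, hn, fun i => ?_⟩
    by_cases hi : i ∈ C
    · have h1 := all_zero (s := C) (t := fun i => x i ^ 2 - 4) (fun i hi => by have := sq4_of (hm2 i hi); omega) hcc i hi
      have h2 : (x i - 2) * (x i + 2) = 0 := by linarith
      rcases mul_eq_zero.mp h2 with h | h
      · right; left; omega
      · right; right; omega
    · have h1 := all_zero (s := Cᶜ) (t := fun i => x i ^ 2) (fun i _ => sq_nonneg _) hc0 i (Finset.mem_compl.mpr hi)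
      left
      exact pow_eq_zero_iff (n := 2) (by norm_num) |>.mp h1

theorem shapeC (x : GolayPt → ℤ) : (x ∈ leechLattice ∧ sqNorm x = 48 ∧ ∃ i, |x i| = 4) ↔ x ∈ (GCF.filter fun C => C.card = 8).biUnion ev := by
  rw [Finset.mem_biUnion]
  constructor
  · rintro ⟨hx, hn, j, hj⟩
    have hj' : x j = 4 ∨ x j = -4 := by
      rcases abs_eq (by norm_num : (0:ℤ) ≤ 4) |>.mp hj with h | h <;> tauto
    obtain ⟨C, hC | hC⟩ := mem_leech.mp hx
    · refine ⟨C, Finset.mem_filter.mpr ⟨mem_GCF.mpr hC.1, ?_⟩, (mem_ev hC.1).mpr ⟨hC, hn⟩⟩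
      have hjC : j ∉ C := by
        intro h
        have h2 := hC.2.1 j
        rw [if_pos h] at h2
        omega
      have hs : (4 : ℤ) * C.card ≤ ∑ i ∈ C, x i ^ 2 := by
        have : ∑ i ∈ C, (4 : ℤ) ≤ ∑ i ∈ C, x i ^ 2 := Finset.sum_le_sum (fun i hi => sq4_of (by
          have h2 := hC.2.1 i
          rw [if_pos hi] at h2
          omega))
        rw [Finset.sum_const, nsmul_eq_mul, mul_comm] at this
        exact this
      have hs' : (16 : ℤ) ≤ ∑ i ∈ Cᶜ, x i ^ 2 := by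
        have h5 : x j ^ 2 ≤ ∑ i ∈ Cᶜ, x i ^ 2 := Finset.single_le_sum (f := fun i => x i ^ 2) (s := Cᶜ) (fun i _ => sq_nonneg _) (Finset.mem_compl.mpr hjC)
        have h6 : x j ^ 2 = 16 := by rcases hj' with h | h <;> rw [h] <;> norm_num
        omega
      have hsp := sqNorm_split x C
      rw [hn] at hsp
      have hne : C.card ≠ 0 := by
        intro h0
        have h1 : C = ∅ := Finset.card_eq_zero.mp h0
        subst h1
        have h2 := (mem_ev empty_mem).mpr ⟨hC, hn⟩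
        have h3 := zero_card48
        rw [Finset.card_eq_zero] at h3
        rw [ev, h3] at h2
        exact absurd h2 (Finset.notMem_empty _)
      rcases supports_card hC.1 with h | h | h | h | h <;> omega
    · exfalso
      have h2 := hC.2.1 j
      rcases hj' with h | h <;> rw [h] at h2 <;> split_ifs at h2 <;> omega
  · rintro ⟨C, hC, hx⟩
    rw [Finset.mem_filter, mem_GCF] at hC
    rw [mem_ev hC.1] at hx
    obtain ⟨hx, hn⟩ := hx
    have hm2 : ∀ i ∈ C, x i % 4 = 2 := by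
      intro i hi
      have h2 := hx.2.1 i
      rw [if_pos hi] at h2
      omega
    refine ⟨mem_leech0 hx, hn, ?_⟩
    by_contra hcon
    push Not at hcon
    have hsp := sqNorm_split x C
    rw [hn] at hsp
    -- entries off the octad vanish
    have h0 : ∀ i ∈ Cᶜ, x i = 0 := by
      intro i hi
      have h2 := hx.2.1 i
      rw [if_neg (Finset.mem_compl.mp hi)] at h2
      by_contra h3
      have h4 : x i ≠ 4 ∧ x i ≠ -4 := by
        constructor <;> (intro h; apply hcon i; rw [h]; rfl)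
      have h5 : 64 ≤ x i ^ 2 := by
        have : x i ≤ -8 ∨ 8 ≤ x i := by omega
        rcases this with h | h <;> nlinarith
      have h6 : x i ^ 2 ≤ ∑ i ∈ Cᶜ, x i ^ 2 := Finset.single_le_sum (f := fun i => x i ^ 2) (s := Cᶜ) (fun i _ => sq_nonneg _) hi
      have h7 : 0 ≤ ∑ i ∈ C, x i ^ 2 := Finset.sum_nonneg (fun i _ => sq_nonneg _)
      omega
    have h1 : ∑ i ∈ Cᶜ, x i ^ 2 = 0 := Finset.sum_eq_zero (fun i hi => by rw [h0 i hi]; norm_num)
    have h2 : ∀ i ∈ C, ∃ t : ℤ, x i ^ 2 = 4 + 32 * t := by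
      intro i hi
      have h3 := hm2 i hi
      obtain ⟨k, hk⟩ : ∃ k, x i = 4 * k + 2 := ⟨x i / 4, by omega⟩
      rcases Int.even_or_odd' k with ⟨l, hl | hl⟩
      · exact ⟨2 * l ^ 2 + l, by rw [hk, hl]; ring⟩
      · exact ⟨2 * l ^ 2 + 3 * l + 1, by rw [hk, hl]; ring⟩
    have h3 : (32 : ℤ) ∣ ∑ i ∈ C, x i ^ 2 - 32 := by
      have h4 : ∑ i ∈ C, x i ^ 2 - 32 = ∑ i ∈ C, (x i ^ 2 - 4) := by
        rw [Finset.sum_sub_distrib, Finset.sum_const, hC.2]; norm_num
      rw [h4]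
      apply Finset.dvd_sum
      intro i hi
      obtain ⟨t, ht⟩ := h2 i hi
      rw [ht]
      exact ⟨t, by ring⟩
    rw [h1] at hsp
    omega

/-- odd vectors -/
noncomputable def odF : Finset (GolayPt → ℤ) := GCF.biUnion od

theorem mem_odF {x : GolayPt → ℤ} : x ∈ odF ↔ x ∈ leechLattice ∧ sqNorm x = 48 ∧ x (pt 0) % 2 = 1 := by
  rw [odF, Finset.mem_biUnion]
  constructor
  · rintro ⟨C, hC, hx⟩
    rw [mem_GCF] at hC
    rw [mem_od hC] at hx
    refine ⟨mem_leech1 hx.1, hx.2, ?_⟩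
    have := hx.1.2.1 (pt 0)
    split_ifs at this <;> omega
  · rintro ⟨hx, hn, h1⟩
    obtain ⟨C, hC | hC⟩ := mem_leech.mp hx
    · exfalso
      have := hC.2.1 (pt 0)
      split_ifs at this <;> omega
    · exact ⟨C, mem_GCF.mpr hC.1, (mem_od hC.1).mpr ⟨hC, hn⟩⟩

theorem card_odF : odF.card = 4096 * 2048 := by
  rw [odF, Finset.card_biUnion]
  · rw [Finset.sum_congr rfl (g := fun _ => 2048), Finset.sum_const, card_GCF, smul_eq_mul]
    intro C hC
    rw [od, odd_card, oc_vals.2.1]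
  · intro C hC D hD hne
    rw [Finset.mem_coe, mem_GCF] at hC hD
    rw [Function.onFun, Finset.disjoint_left]
    intro x hx hx'
    exact hne (NF_unique (Or.inr rfl) (Or.inr rfl) ((mem_od hC).mp hx).1 ((mem_od hD).mp hx').1).2

/-- vectors of shape (5, 1^23) -/
noncomputable def f5 (p : GolayPt × Finset GolayPt) : GolayPt → ℤ := fun i => if i ∈ p.2 then -(uo p.1 5 i) else uo p.1 5 i

theorem f5_mem {q : GolayPt} {C : Finset GolayPt} (hC : C ∈ GC) : f5 (q, C) ∈ leechLattice ∧ sqNorm (f5 (q, C)) = 48 ∧ |f5 (q, C) q| = 5 := by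
  let v : leechLattice := mono (one_mem M24) hC • ⟨uo q 5, uo_mem (by norm_num) (by norm_num)⟩
  have hv : (v : GolayPt → ℤ) = f5 (q, C) := by
    funext i
    show ((mono (one_mem M24) hC • (⟨uo q 5, _⟩ : leechLattice) : leechLattice) : GolayPt → ℤ) i = _
    rw [mono_one_apply]; rfl
  refine ⟨hv ▸ v.2, ?_, ?_⟩
  · rw [← hv, co_norm]
    show sqNorm (uo q 5) = 48
    rw [norm_uo]; norm_num
  · show |if q ∈ C then -(uo q 5 q) else uo q 5 q| = 5
    rw [uo_same]
    split_ifs <;> rfl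

theorem f5_inj {q r : GolayPt} {C D : Finset GolayPt} (h : f5 (q, C) = f5 (r, D)) : q = r ∧ C = D := by
  have h1 : ∀ i, (if i ∈ C then -(uo q 5 i) else uo q 5 i) = if i ∈ D then -(uo r 5 i) else uo r 5 i := fun i => congrFun h i
  have h2 : q = r := by
    by_contra hne
    have h3 := h1 q
    rw [uo_same, uo_ne 5 hne] at h3
    split_ifs at h3 <;> omega
  subst h2
  refine ⟨rfl, Finset.ext fun i => ?_⟩
  have h3 := h1 i
  have h4 : uo q 5 i = 5 ∨ uo q 5 i = 1 := by
    by_cases hi : i = q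
    · left; rw [hi, uo_same]
    · right; exact uo_ne 5 hi
  by_cases hc : i ∈ C <;> by_cases hd : i ∈ D <;> simp only [hc, hd, if_true, if_false] at h3 ⊢ <;> omega

theorem shape5 {x : GolayPt → ℤ} (hx : x ∈ leechLattice) (hn : sqNorm x = 48) {q : GolayPt} (hq : |x q| = 5) : ∃ C ∈ GC, x = f5 (q, C) := by
  have hq' : x q = 5 ∨ x q = -5 := (abs_eq (by norm_num : (0:ℤ) ≤ 5)).mp hq
  obtain ⟨C, hC | hC⟩ := mem_leech.mp hx
  · exfalso
    have := hC.2.1 q
    split_ifs at this <;> omega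
  · refine ⟨C, hC.1, funext fun i => ?_⟩
    have hodd : ∀ i, x i % 2 = 1 := by
      intro i
      have := hC.2.1 i
      split_ifs at this <;> omega
    have h1 : ∑ i ∈ univ.erase q, (x i ^ 2 - 1) = 0 := by
      have h2 := norm_split x q
      rw [hn] at h2
      have h3 : x q ^ 2 = 25 := by rcases hq' with h | h <;> rw [h] <;> norm_num
      rw [Finset.sum_sub_distrib, Finset.sum_const, Finset.card_erase_of_mem (Finset.mem_univ _), card_univ_G]
      have : (24 - 1 : ℕ) • (1 : ℤ) = 23 := by norm_num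
      rw [this]; omega
    have h4 : ∀ i, i ≠ q → x i = 1 ∨ x i = -1 := by
      intro i hi
      have h2 := all_zero (s := univ.erase q) (t := fun i => x i ^ 2 - 1) (fun i _ => by
        have := hodd i
        have h5 : x i ≤ -1 ∨ 1 ≤ x i := by omega
        rcases h5 with h | h <;> nlinarith) h1 i (Finset.mem_erase.mpr ⟨hi, Finset.mem_univ i⟩)
      have h3 : (x i - 1) * (x i + 1) = 0 := by linarith
      rcases mul_eq_zero.mp h3 with h | h
      · left; omega
      · right; omega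
    have h2 := hC.2.1 i
    show x i = if i ∈ C then -(uo q 5 i) else uo q 5 i
    by_cases hi : i = q
    · subst hi
      rw [uo_same]
      split_ifs at h2 ⊢ <;> rcases hq' with h | h <;> omega
    · rw [uo_ne 5 hi]
      split_ifs at h2 ⊢ <;> rcases h4 i hi with h | h <;> omega

theorem ncard_shape5 : {x : GolayPt → ℤ | x ∈ leechLattice ∧ sqNorm x = 48 ∧ ∃ i, |x i| = 5}.ncard = 98304 := by
  have h : {x : GolayPt → ℤ | x ∈ leechLattice ∧ sqNorm x = 48 ∧ ∃ i, |x i| = 5} = (((univ : Finset GolayPt) ×ˢ GCF).image f5 : Finset (GolayPt → ℤ)) := by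
    ext x
    rw [Set.mem_setOf_eq, Finset.mem_coe, Finset.mem_image]
    constructor
    · rintro ⟨hx, hn, q, hq⟩
      obtain ⟨C, hC, rfl⟩ := shape5 hx hn hq
      exact ⟨(q, C), Finset.mem_product.mpr ⟨Finset.mem_univ _, mem_GCF.mpr hC⟩, rfl⟩
    · rintro ⟨⟨q, C⟩, hC, rfl⟩
      rw [Finset.mem_product] at hC
      obtain ⟨h1, h2, h3⟩ := f5_mem (q := q) (mem_GCF.mp hC.2)
      exact ⟨h1, h2, q, h3⟩
  rw [h, Set.ncard_coe_finset, Finset.card_image_of_injective, Finset.card_product, card_GCF, card_univ_G]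
  rintro ⟨q, C⟩ ⟨r, D⟩ hqr
  obtain ⟨h1, h2⟩ := f5_inj hqr
  rw [h1, h2]

/-- odd vectors of norm 48 without entry 5 have three entries 3 -/
theorem odd_iff {x : GolayPt → ℤ} (hx : x ∈ leechLattice) (hn : sqNorm x = 48) : (∃ i j k, i ≠ j ∧ j ≠ k ∧ i ≠ k ∧ |x i| = 3 ∧ |x j| = 3 ∧ |x k| = 3) ↔ x (pt 0) % 2 = 1 ∧ ¬ ∃ i, |x i| = 5 := by
  constructor
  · rintro ⟨i, j, k, hij, hjk, hik, hi, hj, hk⟩
    obtain ⟨C, hC | hC⟩ := mem_leech.mp hx
    · exfalso
      have := hC.2.1 i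
      have hi' : x i = 3 ∨ x i = -3 := (abs_eq (by norm_num : (0:ℤ) ≤ 3)).mp hi
      split_ifs at this <;> omega
    · refine ⟨?_, ?_⟩
      · have := hC.2.1 (pt 0)
        split_ifs at this <;> omega
      · rintro ⟨l, hl⟩
        have e : ∀ m, |x m| = 3 → m ≠ l → False := by
          intro m hm hml
          obtain ⟨D, hD, rfl⟩ := shape5 hx hn hl
          have h3 : |if m ∈ D then -(uo l 5 m) else uo l 5 m| = 3 := hm
          rw [uo_ne 5 hml] at h3
          split_ifs at h3 <;> norm_num at h3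
        by_cases h1 : i = l
        · exact e j hj (by rintro rfl; exact hij h1)
        · exact e i hi h1
  · rintro ⟨hodd0, h5⟩
    obtain ⟨C, hC | hC⟩ := mem_leech.mp hx
    · exfalso
      have := hC.2.1 (pt 0)
      split_ifs at this <;> omega
    have hodd : ∀ i, x i % 2 = 1 := by
      intro i
      have := hC.2.1 i
      split_ifs at this <;> omega
    let T := univ.filter (fun i => |x i| = 3)
    have hval : ∀ i, x i ^ 2 = 1 + 8 * (if |x i| = 3 then 1 else 0) := by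
      intro i
      have h1 : x i ^ 2 ≤ 48 := by
        rw [← hn]; unfold sqNorm
        exact Finset.single_le_sum (f := fun i => x i ^ 2) (fun i _ => sq_nonneg _) (Finset.mem_univ i)
      have h2 := hodd i
      have h3 : -7 < x i := by nlinarith
      have h4 : x i < 7 := by nlinarith
      have h6 : ¬ |x i| = 5 := fun h => h5 ⟨i, h⟩
      generalize x i = a at *
      interval_cases a <;> simp_all
    have h1 : (T.card : ℤ) = 3 := by
      have h2 : sqNorm x = 24 + 8 * (T.card : ℤ) := by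
        unfold sqNorm
        rw [Finset.sum_congr rfl (fun i _ => hval i), Finset.sum_add_distrib, ← Finset.mul_sum, Finset.sum_boole, Finset.sum_const, card_univ_G]
        simp [T]
      rw [hn] at h2
      omega
    obtain ⟨i, j, k, hij, hik, hjk, hT⟩ := Finset.card_eq_three.mp (by exact_mod_cast h1 : T.card = 3)
    have hm : ∀ m ∈ T, |x m| = 3 := fun m hm => (Finset.mem_filter.mp hm).2
    exact ⟨i, j, k, hij, hjk, hik, hm i (by rw [hT]; simp), hm j (by rw [hT]; simp), hm k (by rw [hT]; simp)⟩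

theorem ncard_shape3 : {x : GolayPt → ℤ | x ∈ leechLattice ∧ sqNorm x = 48 ∧ ∃ i j k, i ≠ j ∧ j ≠ k ∧ i ≠ k ∧ |x i| = 3 ∧ |x j| = 3 ∧ |x k| = 3}.ncard = 8290304 := by
  have h : {x : GolayPt → ℤ | x ∈ leechLattice ∧ sqNorm x = 48 ∧ ∃ i j k, i ≠ j ∧ j ≠ k ∧ i ≠ k ∧ |x i| = 3 ∧ |x j| = 3 ∧ |x k| = 3} =
      (odF : Set (GolayPt → ℤ)) \ {x : GolayPt → ℤ | x ∈ leechLattice ∧ sqNorm x = 48 ∧ ∃ i, |x i| = 5} := by
    ext x
    rw [Set.mem_diff, Finset.mem_coe, mem_odF, Set.mem_setOf_eq, Set.mem_setOf_eq]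
    constructor
    · rintro ⟨hx, hn, h⟩
      rw [odd_iff hx hn] at h
      exact ⟨⟨hx, hn, h.1⟩, fun h' => h.2 h'.2.2⟩
    · rintro ⟨⟨hx, hn, h⟩, h'⟩
      refine ⟨hx, hn, (odd_iff hx hn).mpr ⟨h, fun h5 => h' ⟨hx, hn, h5⟩⟩⟩
  rw [h, Set.ncard_diff _ ((Finset.finite_toSet odF).subset _), Set.ncard_coe_finset, card_odF, ncard_shape5]
  · rintro x ⟨hx, hn, q, hq⟩
    rw [Finset.mem_coe, mem_odF]
    refine ⟨hx, hn, ?_⟩
    obtain ⟨C, hC | hC⟩ := mem_leech.mp hx
    · exfalso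
      have := hC.2.1 q
      have hi' : x q = 5 ∨ x q = -5 := (abs_eq (by norm_num : (0:ℤ) ≤ 5)).mp hq
      split_ifs at this <;> omega
    · have := hC.2.1 (pt 0)
      split_ifs at this <;> omega
  · rintro x ⟨hx, hn, q, hq⟩
    rw [Finset.mem_coe, mem_odF]
    refine ⟨hx, hn, ?_⟩
    obtain ⟨C, hC | hC⟩ := mem_leech.mp hx
    · exfalso
      have := hC.2.1 q
      have hi' : x q = 5 ∨ x q = -5 := (abs_eq (by norm_num : (0:ℤ) ≤ 5)).mp hq
      split_ifs at this <;> omega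
    · have := hC.2.1 (pt 0)
      split_ifs at this <;> omega

end CfsgLib.Leech
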