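import Mathlib
import Cfsg.Agent.Lib.Leech30

/-!
The Higman–Sims group on 100 points.
-/

set_option autoImplicit false

namespace CfsgLib.Leech

open CfsgLib.Golay Finset Cfsg
open scoped Pointwise

theorem pair_form' (v w f : leechLattice) (hf : sqNorm (f : GolayPt → ℤ) = 64) (hv : sqNorm (v : GolayPt → ℤ) = 32) {c a : ℤ} (hc : c = 4 ∨ c = -4) (ha : a % 4 = 1) (hw : sqNorm (w : GolayPt → ℤ) = a ^ 2 + 23)
    (hfv : dotInt (v : GolayPt → ℤ) f = 8 * c) (hfw : dotInt (w : GolayPt → ℤ) f = 8 * a) :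
    ∃ (g : Co0) (b : ℤ), (b = 4 ∨ b = -4) ∧ dotInt (v : GolayPt → ℤ) w = a * c + b ∧ ((g • v : leechLattice) : GolayPt → ℤ) = u44 (pt 0) (pt 1) c b ∧ ((g • w : leechLattice) : GolayPt → ℤ) = uo (pt 0) a ∧
      g • f = e8 (pt 0) := by
  obtain ⟨g, hg⟩ := trans64 f hf (pt 0)
  have h1 : ((g • v : leechLattice) : GolayPt → ℤ) (pt 0) = c := by
    have h2 := co_dot g v f
    rw [hg, dot_e8] at h2
    omega
  have h2 : ((g • w : leechLattice) : GolayPt → ℤ) (pt 0) = a := by
    have h2 := co_dot g w f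
    rw [hg, dot_e8] at h2
    omega
  obtain ⟨C, hC, h0C, hx⟩ := odd_norm_form (x := g • w) (p := pt 0) (a := a) ha h2 (by rw [co_norm, hw])
  -- the first vector
  have h3 : ∃ j, j ≠ pt 0 ∧ ∃ b : ℤ, (b = 4 ∨ b = -4) ∧ ((mono (one_mem M24) hC • g • v : leechLattice) : GolayPt → ℤ) = u44 (pt 0) j c b := by
    have h4 : ((mono (one_mem M24) hC • g • v : leechLattice) : GolayPt → ℤ) (pt 0) = c := by rw [mono_one_apply, if_neg h0C, h1]
    rcases hc with hc | hc
    · obtain ⟨j, hj, b, hb, hxx⟩ := shape4 (mono (one_mem M24) hC • g • v).2 (by rw [co_norm, co_norm, hv]) (p := pt 0) (by rw [h4, hc])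
      exact ⟨j, hj, b, hb, by rw [hxx, hc]; rfl⟩
    · obtain ⟨j, hj, b, hb, hxx⟩ := shape4 (-(mono (one_mem M24) hC • g • v)).2 (by
        show sqNorm (-((mono (one_mem M24) hC • g • v : leechLattice) : GolayPt → ℤ)) = 32
        rw [norm_neg, co_norm, co_norm, hv]) (p := pt 0) (by
        show -(((mono (one_mem M24) hC • g • v : leechLattice) : GolayPt → ℤ) (pt 0)) = 4
        rw [h4, hc]; norm_num)
      refine ⟨j, hj, -b, by omega, ?_⟩
      have h5 : -((mono (one_mem M24) hC • g • v : leechLattice) : GolayPt → ℤ) = Pi.single (pt 0) 4 + Pi.single j b := hxx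
      rw [← neg_neg ((mono (one_mem M24) hC • g • v : leechLattice) : GolayPt → ℤ), h5, hc]
      unfold u44
      rw [Pi.single_neg, Pi.single_neg]; abel
  obtain ⟨j, hj, b, hb, h5⟩ := h3
  obtain ⟨σ, hσ, s0, s1⟩ := exists_M24_fix hj pt01.symm
  refine ⟨mono hσ empty_mem * (mono (one_mem M24) hC * g), b, hb, ?_, ?_, ?_, ?_⟩
  · have h6 := co_dot (mono (one_mem M24) hC * g) v w
    rw [mul_smul, mul_smul, h5, hx, dot_symm, dot_u44, uo_same, uo_ne a hj] at h6
    omega
  · rw [mul_smul, mul_smul, mono_smul, h5, spE_u44, if_neg (Finset.notMem_empty _), if_neg (Finset.notMem_empty _), s0, s1]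
  · rw [mul_smul, mul_smul, mono_smul, hx, spE_uo _ _ s0]
  · rw [mul_smul, mul_smul, hg, mono_e8, if_neg (by rw [Equiv.Perm.one_apply]; exact h0C), Equiv.Perm.one_apply, mono_e8, if_neg (Finset.notMem_empty _), s0]

theorem uD_eq : uD = -uB := by
  apply Subtype.ext
  show u44 (pt 0) (pt 1) (-4) 4 = -(u44 (pt 0) (pt 1) 4 (-4))
  unfold u44
  rw [Pi.single_neg, neg_add, ← Pi.single_neg, ← Pi.single_neg, neg_neg]

theorem uAD_sub : uA - uD = e8 (pt 0) := by rw [uD_eq, sub_neg_eq_add, uAB_add]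

theorem norm_uD : sqNorm ((uD : leechLattice) : GolayPt → ℤ) = 32 := by rw [uD_val, norm_u44 pt01 (Or.inr rfl) (Or.inl rfl)]

theorem dot_D5 : dotInt ((uD : leechLattice) : GolayPt → ℤ) ((u5 : leechLattice) : GolayPt → ℤ) = -16 := by
  rw [uD_val, u5_val, dot_symm, dot_u44, uo_same, uo_ne 5 pt01.symm]; norm_num

/-- normal form of points of the Higman–Sims graph -/
theorem hs_form (u y x : leechLattice) (hu : sqNorm (u : GolayPt → ℤ) = 48) (hy : sqNorm (y : GolayPt → ℤ) = 32) (huy : dotInt (y : GolayPt → ℤ) u = -16) (hx : sqNorm (x : GolayPt → ℤ) = 32)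
    (hux : dotInt (u : GolayPt → ℤ) x = 24) (hyx : dotInt (y : GolayPt → ℤ) x = 0) : ∃ g : Co0, g • u = u5 ∧ g • y = uD ∧ g • x = uA := by
  obtain ⟨g, b, hb, h1, h2, h3, h4⟩ := pair_form' y u (x - y) (by
    show sqNorm ((x : GolayPt → ℤ) - (y : GolayPt → ℤ)) = 64
    rw [norm_sub, hx, hy, dot_symm, hyx]; norm_num) hy (c := -4) (a := 5) (Or.inr rfl) (by norm_num) (by rw [hu]; norm_num) (by
    show dotInt (y : GolayPt → ℤ) ((x : GolayPt → ℤ) - (y : GolayPt → ℤ)) = 8 * (-4)
    rw [dot_sub_right, hyx, ← sqNorm_eq_dot, hy]; norm_num) (by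
    show dotInt (u : GolayPt → ℤ) ((x : GolayPt → ℤ) - (y : GolayPt → ℤ)) = 8 * 5
    rw [dot_sub_right, hux, dot_symm, huy]; norm_num)
  rw [huy] at h1
  have hb4 : b = 4 := by omega
  rw [hb4] at h2
  have e1 : g • y = uD := Subtype.ext h2
  refine ⟨g, Subtype.ext h3, e1, ?_⟩
  rw [co_sub, e1, ← uAD_sub, sub_left_inj] at h4
  exact h4

/-- the 100 points -/
def hsPts (u y : leechLattice) : Set leechLattice := {x | sqNorm (x : GolayPt → ℤ) = 32 ∧ dotInt (u : GolayPt → ℤ) x = 24 ∧ dotInt (y : GolayPt → ℤ) x = 0}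

theorem uA_mem_hs : uA ∈ hsPts u5 uD := by
  refine ⟨norm_uA, ?_, ?_⟩
  · rw [uA_val, dot_u44, u5_val, uo_same, uo_ne 5 pt01.symm]; norm_num
  · rw [uA_val, dot_u44, uD_val, u44_left pt01, u44_right pt01]; norm_num

theorem hs_mem_smul (g : Co0) {u y x : leechLattice} : g • x ∈ hsPts (g • u) (g • y) ↔ x ∈ hsPts u y := by
  unfold hsPts
  rw [Set.mem_setOf_eq, Set.mem_setOf_eq, co_norm, co_dot, co_dot]

theorem m22_iff {g : Co0} : (g • u5 = u5 ∧ g • uD = uD) ∧ g • uA = uA ↔ ∃ τ : PS [pt 0, pt 1], g = mo (psi _ τ) := by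
  constructor
  · rintro ⟨⟨h1, h2⟩, h3⟩
    have h0 : g • e8 (pt 0) = e8 (pt 0) := by rw [← uAD_sub, co_sub, h3, h2]
    obtain ⟨σ, hσ, rfl⟩ := fix_form h0 u5_val h1
    exact ⟨⟨σ, mem_PS_two hσ (fix_one hσ (by norm_num) uA_val h3)⟩, rfl⟩
  · rintro ⟨τ, rfl⟩
    have a0 : (τ : Equiv.Perm GolayPt) (pt 0) = pt 0 := τ.2.2 _ (by simp)
    have a1 : (τ : Equiv.Perm GolayPt) (pt 1) = pt 1 := τ.2.2 _ (by simp)
    exact ⟨⟨mo_uo a0 u5_val, mo_u44 a0 a1 uD_val⟩, mo_u44 a0 a1 uA_val⟩

theorem psi_inj (l : List GolayPt) : Function.Injective (psi l) := fun a b h => Subtype.ext (congrArg (fun x : M24 => (x : Equiv.Perm GolayPt)) h)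

theorem card_m22 : Nat.card ↥(MulAction.stabilizer Co0 u5 ⊓ MulAction.stabilizer Co0 uD ⊓ MulAction.stabilizer Co0 uA) = 443520 := by
  rw [← card_PS_two pt01]
  symm
  have hinj : Function.Injective (mo.comp (psi [pt 0, pt 1])) := mo_inj.comp (psi_inj _)
  have h : MulAction.stabilizer Co0 u5 ⊓ MulAction.stabilizer Co0 uD ⊓ MulAction.stabilizer Co0 uA = (mo.comp (psi [pt 0, pt 1])).range := by
    ext g
    rw [Subgroup.mem_inf, Subgroup.mem_inf, MulAction.mem_stabilizer_iff, MulAction.mem_stabilizer_iff, MulAction.mem_stabilizer_iff, m22_iff, MonoidHom.mem_range]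
    exact ⟨fun ⟨τ, h⟩ => ⟨τ, h.symm⟩, fun ⟨τ, h⟩ => ⟨τ, h.symm⟩⟩
  rw [h]
  exact Nat.card_congr (MonoidHom.ofInjective hinj).toEquiv

theorem hs_trans {u y x x' : leechLattice} (hu : sqNorm (u : GolayPt → ℤ) = 48) (hy : sqNorm (y : GolayPt → ℤ) = 32) (huy : dotInt (y : GolayPt → ℤ) u = -16) (hx : x ∈ hsPts u y) (hx' : x' ∈ hsPts u y) :
    ∃ g : Co0, g • u = u ∧ g • y = y ∧ g • x = x' := by
  obtain ⟨g, h1, h2, h3⟩ := hs_form u y x hu hy huy hx.1 hx.2.1 hx.2.2
  obtain ⟨k, k1, k2, k3⟩ := hs_form u y x' hu hy huy hx'.1 hx'.2.1 hx'.2.2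
  exact ⟨k⁻¹ * g, by rw [mul_smul, h1, ← k1, inv_smul_smul], by rw [mul_smul, h2, ← k2, inv_smul_smul], by rw [mul_smul, h3, ← k3, inv_smul_smul]⟩

theorem ncard_hs_std : (hsPts u5 uD).ncard = 100 := by
  have h := card_stab_mul (MulAction.stabilizer Co0 u5 ⊓ MulAction.stabilizer Co0 uD) (MulAction.stabilizer Co0 u5 ⊓ MulAction.stabilizer Co0 uD ⊓ MulAction.stabilizer Co0 uA) uA (hsPts u5 uD) (fun g => Iff.rfl) (fun x => by
    constructor
    · intro hx
      obtain ⟨g, h1, h2, h3⟩ := hs_trans norm_u5 norm_uD dot_D5 uA_mem_hs hx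
      exact ⟨g, ⟨h1, h2⟩, h3⟩
    · rintro ⟨g, ⟨h1, h2⟩, rfl⟩
      have h1 : g • u5 = u5 := h1
      have h2 : g • uD = uD := h2
      have := (hs_mem_smul g).mpr uA_mem_hs
      rwa [h1, h2] at this)
  rw [card_m22, card_hs norm_uD norm_u5 dot_D5] at h
  omega

theorem ncard_hs {u y : leechLattice} (hu : sqNorm (u : GolayPt → ℤ) = 48) (hy : sqNorm (y : GolayPt → ℤ) = 32) (huy : dotInt (y : GolayPt → ℤ) u = -16) : (hsPts u y).ncard = 100 := by
  obtain ⟨g, h1, h2⟩ := trans_T4 y u hy hu huy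
  rw [← ncard_hs_std]
  have h : hsPts u5 uD = (fun x => g • x) '' hsPts u y := by
    ext x
    constructor
    · intro hx
      refine ⟨g⁻¹ • x, ?_, smul_inv_smul g x⟩
      rw [← hs_mem_smul g, smul_inv_smul, h1, h2]; exact hx
    · rintro ⟨x, hx, rfl⟩
      rw [← h1, ← h2]
      exact (hs_mem_smul g).mpr hx
  rw [h, Set.ncard_image_of_injective _ (MulAction.injective g)]

/-- translation of the hypotheses -/
theorem hs_conv {v w : leechLattice} (hv : sqNorm (v : GolayPt → ℤ) = 48) (hw : sqNorm (w : GolayPt → ℤ) = 48) (hvw : dotInt (v : GolayPt → ℤ) (w : GolayPt → ℤ) = -32) :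
    sqNorm ((-(v + w) : leechLattice) : GolayPt → ℤ) = 32 ∧ dotInt ((-(v + w) : leechLattice) : GolayPt → ℤ) (v : GolayPt → ℤ) = -16 ∧
      {x : leechLattice | sqNorm (x : GolayPt → ℤ) = 32 ∧ dotInt (v : GolayPt → ℤ) (x : GolayPt → ℤ) = 24 ∧ dotInt (w : GolayPt → ℤ) (x : GolayPt → ℤ) = -24} = hsPts v (-(v + w)) := by
  have hc : ((-(v + w) : leechLattice) : GolayPt → ℤ) = -((v : GolayPt → ℤ) + (w : GolayPt → ℤ)) := rfl
  refine ⟨?_, ?_, ?_⟩
  · rw [hc, norm_neg, norm_add, hv, hw, hvw]; norm_num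
  · rw [hc, dot_neg_left, dot_add_left, ← sqNorm_eq_dot, hv, dot_symm (w : GolayPt → ℤ), hvw]; norm_num
  · ext x
    unfold hsPts
    rw [Set.mem_setOf_eq, Set.mem_setOf_eq, hc, dot_neg_left, dot_add_left]
    constructor
    · rintro ⟨h1, h2, h3⟩
      exact ⟨h1, h2, by rw [h2, h3]; norm_num⟩
    · rintro ⟨h1, h2, h3⟩
      exact ⟨h1, h2, by omega⟩

/-- a dodecad -/
def dD : Finset GolayPt := toFS 0x5335f

theorem dD_mem : dD ∈ GC := c0_mem
theorem dD_card : dD.card = 12 := by decide +kernel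
theorem dD0 : pt 0 ∈ dD := by decide +kernel
theorem dD1 : pt 1 ∈ dD := by decide +kernel

/-- an involution without fixed points -/
theorem hs_inv : ∃ (u y : leechLattice) (g : Co0), sqNorm (u : GolayPt → ℤ) = 48 ∧ sqNorm (y : GolayPt → ℤ) = 32 ∧ dotInt (y : GolayPt → ℤ) u = -16 ∧ g • u = u ∧ g • y = y ∧ orderOf g = 2 ∧ ∀ x ∈ hsPts u y, g • x ≠ x := by
  refine ⟨⟨ww dD, ww_mem dD_mem⟩, ⟨u44 (pt 0) (pt 1) (-4) (-4), u44_mem pt01 (Or.inr rfl) (Or.inr rfl)⟩, mono (one_mem M24) (compl_mem dD_mem), ?_, ?_, ?_, ?_, ?_, ?_, ?_⟩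
  · show sqNorm (ww dD) = 48
    rw [norm_ww, dD_card]; norm_num
  · exact norm_u44 pt01 (Or.inr rfl) (Or.inr rfl)
  · show dotInt (u44 (pt 0) (pt 1) (-4) (-4)) (ww dD) = -16
    rw [dot_symm, dot_u44]
    unfold ww
    rw [if_pos dD0, if_pos dD1]; norm_num
  · apply Subtype.ext
    funext i
    rw [mono_one_apply]
    show (if i ∈ dDᶜ then -(ww dD i) else ww dD i) = ww dD i
    unfold ww
    by_cases hi : i ∈ dD
    · rw [if_neg (by rw [Finset.mem_compl]; exact not_not.mpr hi)]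
    · rw [if_pos (Finset.mem_compl.mpr hi), if_neg hi]; norm_num
  · apply Subtype.ext
    funext i
    rw [mono_one_apply]
    show (if i ∈ dDᶜ then -(u44 (pt 0) (pt 1) (-4) (-4) i) else u44 (pt 0) (pt 1) (-4) (-4) i) = u44 (pt 0) (pt 1) (-4) (-4) i
    by_cases hi : i ∈ dD
    · rw [if_neg (by rw [Finset.mem_compl]; exact not_not.mpr hi)]
    · have h0 : i ≠ pt 0 := by rintro rfl; exact hi dD0
      have h1 : i ≠ pt 1 := by rintro rfl; exact hi dD1
      rw [if_pos (Finset.mem_compl.mpr hi), u44_other h0 h1]; norm_num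
  · apply orderOf_eq_prime
    · apply co_ext
      intro v
      rw [pow_two, mul_smul, one_smul]
      apply Subtype.ext
      funext i
      rw [mono_one_apply, mono_one_apply]
      split_ifs <;> ring
    · intro h
      have h1 : mono (one_mem M24) (compl_mem dD_mem) = mono (one_mem M24) empty_mem := by
        rw [h]; exact mo.map_one.symm
      have h2 := (mono_inj (hσ := one_mem M24) (hτ := one_mem M24) (hc := compl_mem dD_mem) (hd := empty_mem) h1).2
      have h3 := congrArg Finset.card h2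
      rw [Finset.card_compl, dD_card, Finset.card_empty] at h3
      have h4 : Fintype.card GolayPt = 24 := by decide
      omega
  · intro x hx hfix
    have h0 : ∀ i, i ∉ dD → (x : GolayPt → ℤ) i = 0 := by
      intro i hi
      have h1 := congrFun (congrArg Subtype.val hfix) i
      rw [mono_one_apply, if_pos (Finset.mem_compl.mpr hi)] at h1
      omega
    obtain ⟨hn, hd, -⟩ := hx
    have h1 : dotInt (ww dD) (x : GolayPt → ℤ) = 24 := hd
    -- the vector is even, supported in the dodecad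
    rcases nf_cases x.2 with ⟨C, hC, hm, -⟩ | ⟨C, hC, hm, -⟩
    · have hsub : C ⊆ dD := by
        intro i hi
        by_contra hid
        have h2 := hm i
        rw [if_pos hi, h0 i hid] at h2
        omega
      have hCc : C = ∅ := by
        rcases supports_card hC with h | h | h | h | h
        · exact Finset.card_eq_zero.mp h
        · exfalso
          -- complement inside the dodecad has four elements
          have h2 : (symmDiff C dD) ∈ GC := symmDiff_mem hC dD_mem
          have h3 : (symmDiff C dD).card = 4 := by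
            rw [symmDiff_def, Finset.sup_eq_union, Finset.sdiff_eq_empty_iff_subset.mpr hsub, Finset.empty_union, Finset.card_sdiff_of_subset hsub, dD_card, h]
          rcases supports_card h2 with h | h | h | h | h <;> omega
        · exfalso
          have h2 : C = dD := Finset.eq_of_subset_of_card_le hsub (by rw [dD_card, h])
          have h3 : (48 : ℤ) ≤ ∑ i ∈ C, (x : GolayPt → ℤ) i ^ 2 := by
            have : ∑ i ∈ C, (4 : ℤ) ≤ ∑ i ∈ C, (x : GolayPt → ℤ) i ^ 2 := Finset.sum_le_sum (fun i hi => sq4_of (by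
              have h2 := hm i
              rw [if_pos hi] at h2
              exact h2))
            rw [Finset.sum_const, h] at this
            exact this
          have h4 := sqNorm_split (x : GolayPt → ℤ) C
          have h5 : 0 ≤ ∑ i ∈ Cᶜ, (x : GolayPt → ℤ) i ^ 2 := Finset.sum_nonneg (fun i _ => sq_nonneg _)
          omega
        · have := Finset.card_le_card hsub; rw [dD_card] at this; omega
        · have := Finset.card_le_card hsub; rw [dD_card] at this; omega
      subst hCc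
      -- all entries divisible by four
      have h4 : ∀ i, ∃ z : ℤ, (x : GolayPt → ℤ) i = 4 * z := by
        intro i
        have h2 := hm i
        rw [if_neg (Finset.notMem_empty _)] at h2
        exact ⟨(x : GolayPt → ℤ) i / 4, by omega⟩
      choose z hz using h4
      have h5 : sqNorm (x : GolayPt → ℤ) = 16 * ∑ i, z i ^ 2 := by
        unfold sqNorm
        rw [Finset.mul_sum]
        exact Finset.sum_congr rfl fun i _ => by rw [hz i]; ring
      have h6 : dotInt (ww dD) (x : GolayPt → ℤ) = 8 * ∑ i ∈ dD, z i := by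
        unfold dotInt ww
        rw [Finset.mul_sum, ← Finset.sum_filter_add_sum_filter_not univ (fun i => i ∈ dD), Finset.filter_mem_eq_inter, Finset.univ_inter]
        rw [Finset.sum_eq_zero (s := univ.filter (fun i => ¬ i ∈ dD)), add_zero]
        · apply Finset.sum_congr rfl
          intro i hi
          rw [if_pos hi, hz i]; ring
        · intro i hi
          rw [Finset.mem_filter] at hi
          rw [if_neg hi.2, zero_mul]
      have h7 : ∑ i ∈ dD, z i ≤ ∑ i, z i ^ 2 := by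
        calc ∑ i ∈ dD, z i ≤ ∑ i ∈ dD, z i ^ 2 := Finset.sum_le_sum (fun i _ => by
              by_cases h : z i ≤ 0
              · nlinarith [sq_nonneg (z i)]
              · have : 1 ≤ z i := by omega
                nlinarith)
          _ ≤ ∑ i, z i ^ 2 := Finset.sum_le_sum_of_subset_of_nonneg (Finset.subset_univ _) (fun i _ _ => sq_nonneg _)
      omega
    · have h2 := hm (pt 2)
      have h3 : pt 2 ∉ dD ∨ pt 5 ∉ dD := by decide +kernel
      rcases h3 with h3 | h3
      · have h2 := hm (pt 2)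
        rw [h0 _ h3] at h2
        split_ifs at h2 <;> omega
      · have h2 := hm (pt 5)
        rw [h0 _ h3] at h2
        split_ifs at h2 <;> omega

end CfsgLib.Leech
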