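import Mathlib
import Cfsg.Agent.Lib.Leech31

/-!
The Higman–Sims group on 100 points: rank three.
-/

set_option autoImplicit false

namespace CfsgLib.Leech

open CfsgLib.Golay Finset Cfsg
open scoped Pointwise

theorem dot_uo (x : GolayPt → ℤ) (p : GolayPt) (a : ℤ) : dotInt (uo p a) x = (a - 1) * x p + ∑ i, x i := by
  unfold dotInt
  rw [← Finset.add_sum_erase univ _ (Finset.mem_univ p), ← Finset.add_sum_erase univ x (Finset.mem_univ p), uo_same,
    Finset.sum_congr rfl (fun i hi => by rw [uo_ne a (Finset.ne_of_mem_erase hi), one_mul])]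
  ring

theorem sum_u44 (i j : GolayPt) (a b : ℤ) : ∑ k, u44 i j a b k = a + b := by
  have h := dot_u44 (fun _ => 1) i j a b
  unfold dotInt at h
  simp only [one_mul] at h
  exact h

theorem sum_odd {x : GolayPt → ℤ} {C : Finset GolayPt} {p : GolayPt} (hm : ∀ i, x i % 4 = if i ∈ C then 3 else 1) (h1 : ∀ i, i ≠ p → (x i = 1 ∨ x i = -1)) :
    ∑ i, x i = x p + 23 - 2 * ((C.erase p).card : ℤ) := by
  rw [← Finset.add_sum_erase univ x (Finset.mem_univ p)]
  have h2 : ∀ i ∈ univ.erase p, x i = 1 - 2 * (if i ∈ C.erase p then 1 else 0) := by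
    intro i hi
    have hip := Finset.ne_of_mem_erase hi
    have h3 := hm i
    by_cases hc : i ∈ C
    · rw [if_pos hc] at h3
      rw [if_pos (Finset.mem_erase.mpr ⟨hip, hc⟩)]
      rcases h1 i hip with h | h <;> omega
    · rw [if_neg hc] at h3
      rw [if_neg (fun h => hc (Finset.mem_of_mem_erase h))]
      rcases h1 i hip with h | h <;> omega
  rw [Finset.sum_congr rfl h2, Finset.sum_sub_distrib, ← Finset.mul_sum, Finset.sum_const, Finset.card_erase_of_mem (Finset.mem_univ _), card_univ_G, Finset.sum_boole]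
  have h3 : (univ.erase p).filter (fun i => i ∈ C.erase p) = C.erase p := by
    ext i
    simp only [Finset.mem_filter, Finset.mem_erase, Finset.mem_univ, and_true]
    tauto
  rw [h3]
  norm_num
  ring

theorem w2_sum_le {x : GolayPt → ℤ} {S : Finset GolayPt} (hS : S ∈ octads) (h2 : ∀ i ∈ S, x i = 2 ∨ x i = -2) (h0 : ∀ i, i ∉ S → x i = 0) :
    ∑ i, x i ≤ 16 ∧ (∑ i, x i = 16 → x = ww S) := by
  have h1 : ∑ i, x i = ∑ i ∈ S, x i := (Finset.sum_subset (Finset.subset_univ S) (fun i _ hi => h0 i hi)).symm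
  have h3 : ∑ i ∈ S, (2 - x i) = 16 - ∑ i, x i := by
    rw [h1, Finset.sum_sub_distrib, Finset.sum_const, octad_card hS]; norm_num
  have h4 : ∀ i ∈ S, 0 ≤ 2 - x i := fun i hi => by rcases h2 i hi with h | h <;> omega
  have h5 : 0 ≤ ∑ i ∈ S, (2 - x i) := Finset.sum_nonneg h4
  refine ⟨by omega, fun h => ?_⟩
  have h6 := all_zero (s := S) (t := fun i => 2 - x i) h4 (by rw [h3]; omega)
  funext i
  unfold ww
  by_cases hi : i ∈ S
  · rw [if_pos hi]; have := h6 i hi; omega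
  · rw [if_neg hi]; exact h0 i hi

/-- the classification of the 100 points -/
theorem hs_class {x : leechLattice} (hx : x ∈ hsPts u5 uD) : x = uA ∨ (∃ j, j ≠ pt 0 ∧ j ≠ pt 1 ∧ (x : GolayPt → ℤ) = uo j (-3)) ∨
    ∃ O ∈ octads, pt 0 ∈ O ∧ pt 1 ∈ O ∧ (x : GolayPt → ℤ) = ww O := by
  obtain ⟨hn, h1, h2⟩ := hx
  rw [u5_val, dot_uo] at h1
  rw [uD_val, dot_symm, dot_u44] at h2
  have h01 : (x : GolayPt → ℤ) (pt 1) = (x : GolayPt → ℤ) (pt 0) := by omega
  have hs : 4 * (x : GolayPt → ℤ) (pt 0) + ∑ i, (x : GolayPt → ℤ) i = 24 := by omega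
  rcases Int.emod_two_eq_zero_or_one ((x : GolayPt → ℤ) (pt 0)) with he | he
  · rcases shape32_even x.2 hn he with ⟨p, q, hpq, a, b, ha, hb, hxx⟩ | ⟨S, hS, hx2, hx0⟩
    · left
      have hsum : ∑ i, (x : GolayPt → ℤ) i = a + b := by rw [hxx, sum_u44]
      have h0 : (x : GolayPt → ℤ) (pt 0) ≠ 0 := by intro h; omega
      have h1' : (x : GolayPt → ℤ) (pt 1) ≠ 0 := by rw [h01]; exact h0
      have hp : ∀ r, (x : GolayPt → ℤ) r ≠ 0 → r = p ∨ r = q := by
        intro r hr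
        by_contra hcon
        push Not at hcon
        rw [hxx, u44_other hcon.1 hcon.2] at hr
        exact hr rfl
      have hval : (x : GolayPt → ℤ) (pt 0) = a ∨ (x : GolayPt → ℤ) (pt 0) = b := by
        rcases hp _ h0 with h | h
        · left; rw [h, hxx, u44_left hpq]
        · right; rw [h, hxx, u44_right hpq]
      have hval1 : (x : GolayPt → ℤ) (pt 1) = a ∨ (x : GolayPt → ℤ) (pt 1) = b := by
        rcases hp _ h1' with h | h
        · left; rw [h, hxx, u44_left hpq]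
        · right; rw [h, hxx, u44_right hpq]
      apply Subtype.ext
      rw [uA_val, hxx]
      rcases hp _ h0 with h | h
      · have h' : pt 1 = q := by
          rcases hp _ h1' with h'' | h''
          · exact absurd (h.trans h''.symm) pt01
          · exact h''
        rw [h, h'] at *
        have e1 : (x : GolayPt → ℤ) p = a := by rw [hxx, u44_left hpq]
        have e2 : (x : GolayPt → ℤ) q = b := by rw [hxx, u44_right hpq]
        have ea : a = 4 := by omega
        have eb : b = 4 := by omega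
        rw [ea, eb]
      · have h' : pt 1 = p := by
          rcases hp _ h1' with h'' | h''
          · exact h''
          · exact absurd (h.trans h''.symm) pt01
        rw [h, h'] at *
        have e1 : (x : GolayPt → ℤ) p = a := by rw [hxx, u44_left hpq]
        have e2 : (x : GolayPt → ℤ) q = b := by rw [hxx, u44_right hpq]
        have ea : a = 4 := by omega
        have eb : b = 4 := by omega
        rw [ea, eb]
        unfold u44
        rw [add_comm]
    · right; right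
      obtain ⟨h3, h4⟩ := w2_sum_le hS hx2 hx0
      have hv : (x : GolayPt → ℤ) (pt 0) = 0 ∨ (x : GolayPt → ℤ) (pt 0) = 2 ∨ (x : GolayPt → ℤ) (pt 0) = -2 := by
        by_cases hi : pt 0 ∈ S
        · right; exact hx2 _ hi
        · left; exact hx0 _ hi
      have hv2 : (x : GolayPt → ℤ) (pt 0) = 2 := by omega
      refine ⟨S, hS, ?_, ?_, h4 (by omega)⟩
      · by_contra hi; rw [hx0 _ hi] at hv2; omega
      · by_contra hi; rw [← h01, hx0 _ hi] at hv2; omega
  · right; left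
    obtain ⟨C, hC, hm, p, hp, h1'⟩ := shape32_odd x.2 hn he
    have hsum := sum_odd hm h1'
    have hp0 : p ≠ pt 0 := by
      rintro rfl
      have := h1' (pt 1) pt01.symm
      omega
    have hp1 : p ≠ pt 1 := by
      rintro rfl
      have := h1' (pt 0) pt01
      omega
    have hv := h1' (pt 0) hp0.symm
    have hmp := hm p
    by_cases hpC : p ∈ C
    · exfalso
      rw [if_pos hpC] at hmp
      have hcc := Finset.card_erase_of_mem hpC
      have hpos : 0 < C.card := Finset.card_pos.mpr ⟨p, hpC⟩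
      rcases supports_card hC with h | h | h | h | h <;> rcases hp with h' | h' <;> rcases hv with h'' | h'' <;> omega
    · rw [if_neg hpC] at hmp
      rw [Finset.erase_eq_of_notMem hpC] at hsum
      have hC0 : C.card = 0 := by
        rcases hp with h' | h' <;> rcases hv with h'' | h'' <;> omega
      rw [Finset.card_eq_zero] at hC0
      refine ⟨p, hp0, hp1, funext fun i => ?_⟩
      by_cases hi : i = p
      · rw [hi, uo_same]; omega
      · rw [uo_ne _ hi]
        have h3 := hm i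
        rw [hC0, if_neg (Finset.notMem_empty _)] at h3
        rcases h1' i hi with h | h <;> omega

/-- odd points -/
def pJ (j : GolayPt) : leechLattice := ⟨uo j (-3), uo_mem (by norm_num) (by norm_num)⟩
/-- octad points -/
def pO {O : Finset GolayPt} (hO : O ∈ octads) : leechLattice := ⟨ww O, ww_mem hO.1⟩

theorem sum_ww8 {O : Finset GolayPt} (hO : O ∈ octads) : ∑ i, ww O i = 16 := by rw [sum_ww, octad_card hO]; norm_num

theorem pJ_mem {j : GolayPt} (h0 : j ≠ pt 0) (h1 : j ≠ pt 1) : pJ j ∈ hsPts u5 uD := by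
  refine ⟨?_, ?_, ?_⟩
  · show sqNorm (uo j (-3)) = 32; rw [norm_uo]; norm_num
  · show dotInt _ (uo j (-3)) = 24
    rw [u5_val, dot_uo, sum_uo, uo_ne _ h0.symm]; norm_num
  · show dotInt _ (uo j (-3)) = 0
    rw [uD_val, dot_symm, dot_u44, uo_ne _ h0.symm, uo_ne _ h1.symm]; norm_num

theorem pO_mem {O : Finset GolayPt} (hO : O ∈ octads) (h0 : pt 0 ∈ O) (h1 : pt 1 ∈ O) : pO hO ∈ hsPts u5 uD := by
  refine ⟨?_, ?_, ?_⟩
  · show sqNorm (ww O) = 32; rw [norm_ww, octad_card hO]; norm_num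
  · show dotInt _ (ww O) = 24
    rw [u5_val, dot_uo, sum_ww8 hO]
    unfold ww; rw [if_pos h0]; norm_num
  · show dotInt _ (ww O) = 0
    rw [uD_val, dot_symm, dot_u44]
    unfold ww; rw [if_pos h0, if_pos h1]; norm_num

theorem dot_A_J {j : GolayPt} (h0 : j ≠ pt 0) (h1 : j ≠ pt 1) : dotInt (uA : GolayPt → ℤ) (uo j (-3)) = 8 := by
  rw [dot_symm, uA_val, dot_u44, uo_ne _ h0.symm, uo_ne _ h1.symm]; norm_num

theorem dot_A_O {O : Finset GolayPt} (h0 : pt 0 ∈ O) (h1 : pt 1 ∈ O) : dotInt (uA : GolayPt → ℤ) (ww O) = 16 := by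
  rw [dot_symm, uA_val, dot_u44]; unfold ww; rw [if_pos h0, if_pos h1]; norm_num

theorem pJ_inj : Function.Injective pJ := by
  intro i j h
  by_contra hne
  have h1 : uo i (-3) = uo j (-3) := congrArg Subtype.val h
  have h2 := congrFun h1 i
  rw [uo_same, uo_ne _ hne] at h2
  omega

theorem set22 : {y : leechLattice | y ∈ hsPts u5 uD ∧ dotInt (uA : GolayPt → ℤ) (y : GolayPt → ℤ) = 8} = ((univ \ {pt 0, pt 1}).image pJ : Finset leechLattice) := by
  classical
  ext y
  rw [Set.mem_setOf_eq, Finset.mem_coe, Finset.mem_image]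
  constructor
  · rintro ⟨hy, hd⟩
    rcases hs_class hy with h | ⟨j, h0, h1, h⟩ | ⟨O, hO, h0, h1, h⟩
    · rw [h, ← sqNorm_eq_dot, norm_uA] at hd; norm_num at hd
    · exact ⟨j, by simp [h0, h1], Subtype.ext h.symm⟩
    · rw [h, dot_A_O h0 h1] at hd; norm_num at hd
  · rintro ⟨j, hj, rfl⟩
    simp only [Finset.mem_sdiff, Finset.mem_univ, true_and, Finset.mem_insert, Finset.mem_singleton, not_or] at hj
    exact ⟨pJ_mem hj.1 hj.2, dot_A_J hj.1 hj.2⟩

theorem ncard22 : {y : leechLattice | y ∈ hsPts u5 uD ∧ dotInt (uA : GolayPt → ℤ) (y : GolayPt → ℤ) = 8}.ncard = 22 := by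
  classical
  rw [set22, Set.ncard_coe_finset, Finset.card_image_of_injective _ pJ_inj, Finset.card_sdiff_of_subset (Finset.subset_univ _), card_univ_G, Finset.card_pair pt01]

theorem hs_finite (u y : leechLattice) : (hsPts u y).Finite := by
  apply Set.Finite.subset (Finset.finite_toSet (Fs 32))
  intro x hx
  rw [Finset.mem_coe, mem_Fs]
  exact hx.1

theorem ncard77 : {y : leechLattice | y ∈ hsPts u5 uD ∧ y ≠ uA ∧ dotInt (uA : GolayPt → ℤ) (y : GolayPt → ℤ) ≠ 8}.ncard = 77 := by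
  have h : {y : leechLattice | y ∈ hsPts u5 uD ∧ y ≠ uA ∧ dotInt (uA : GolayPt → ℤ) (y : GolayPt → ℤ) ≠ 8} =
      (hsPts u5 uD \ {uA}) \ {y : leechLattice | y ∈ hsPts u5 uD ∧ dotInt (uA : GolayPt → ℤ) (y : GolayPt → ℤ) = 8} := by
    ext y
    simp only [Set.mem_setOf_eq, Set.mem_diff, Set.mem_singleton_iff]
    tauto
  have hfin := hs_finite u5 uD
  rw [h, Set.ncard_diff _ (hfin.subset (fun y hy => hy.1)), ncard22, Set.ncard_diff_singleton_of_mem uA_mem_hs, ncard_hs_std]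
  rintro y ⟨hy, hd⟩
  refine ⟨hy, ?_⟩
  rintro rfl
  rw [← sqNorm_eq_dot, norm_uA] at hd; norm_num at hd

theorem spE_uo' {σ : Equiv.Perm GolayPt} (p : GolayPt) (a : ℤ) : spE σ ∅ (uo p a) = uo (σ p) a := by
  funext i
  show (if i ∈ (∅ : Finset GolayPt) then -(uo p a (σ.symm i)) else uo p a (σ.symm i)) = uo (σ p) a i
  rw [if_neg (Finset.notMem_empty _)]
  by_cases hi : i = σ p
  · rw [hi, Equiv.symm_apply_apply, uo_same, uo_same]
  · rw [uo_ne _ hi, uo_ne]
    intro h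
    rw [Equiv.symm_apply_eq] at h
    exact hi h

theorem spE_ww {σ : Equiv.Perm GolayPt} (S : Finset GolayPt) : spE σ ∅ (ww S) = ww (σ • S) := by
  funext i
  show (if i ∈ (∅ : Finset GolayPt) then -(ww S (σ.symm i)) else ww S (σ.symm i)) = ww (σ • S) i
  rw [if_neg (Finset.notMem_empty _)]
  unfold ww
  have h : σ.symm i ∈ S ↔ i ∈ σ • S := by
    rw [Finset.mem_smul_finset]
    constructor
    · intro h; exact ⟨_, h, Equiv.apply_symm_apply σ i⟩
    · rintro ⟨y, hy, rfl⟩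
      show σ.symm (σ y) ∈ S
      rw [Equiv.symm_apply_apply]; exact hy
  simp only [h]

/-- `M22` is transitive on octads through the two points -/
theorem octad_trans {O O' : Finset GolayPt} (hO : O ∈ octads) (hO' : O' ∈ octads) (h0 : pt 0 ∈ O) (h1 : pt 1 ∈ O) (h0' : pt 0 ∈ O') (h1' : pt 1 ∈ O') :
    ∃ σ ∈ PS [pt 0, pt 1], σ • O = O' := by
  have key : ∀ {O : Finset GolayPt}, O ∈ octads → pt 0 ∈ O → pt 1 ∈ O → ∃ m : List GolayPt, m.length = 3 ∧ ([pt 0, pt 1] ++ m).Nodup ∧ ∀ p ∈ [pt 0, pt 1] ++ m, p ∈ O := by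
    intro O hO h0 h1
    obtain ⟨l, hl, hlen, hmem⟩ := exists_extend_in O 5 (by rw [octad_card hO]; norm_num) [pt 0, pt 1] (by simp [pt01]) (by
      intro x hx; simp only [List.mem_cons, List.not_mem_nil, or_false] at hx; rcases hx with rfl | rfl <;> assumption) (by simp)
    refine ⟨l, ?_, hl, hmem⟩
    rw [List.length_append] at hlen
    simp only [List.length_cons, List.length_nil] at hlen
    omega
  obtain ⟨m, hm3, hmn, hmO⟩ := key hO h0 h1
  obtain ⟨m', hm3', hmn', hmO'⟩ := key hO' h0' h1'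
  rw [List.nodup_append] at hmn hmn'
  obtain ⟨g, hg, hgm⟩ := PS_trans (l := [pt 0, pt 1]) hmn.1 (m := m) (m' := m') hmn.2.1 hmn'.2.1 (fun p hp hp' => hmn.2.2 p hp' p hp rfl) (fun p hp hp' => hmn'.2.2 p hp' p hp rfl) (by rw [hm3, hm3']) (by simp [hm3])
  refine ⟨g, hg, ?_⟩
  apply eq_of_list ((smul_mem_octads hg.1).mpr hO) hO' (l := [pt 0, pt 1] ++ m') (List.nodup_append.mpr hmn') (by simp [hm3'])
  · intro p hp
    rw [List.mem_append] at hp
    rw [Finset.mem_smul_finset]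
    rcases hp with hp | hp
    · refine ⟨p, hmO p (List.mem_append_left _ hp), hg.2 p hp⟩
    · rw [← hgm, List.mem_map] at hp
      obtain ⟨q, hq, rfl⟩ := hp
      exact ⟨q, hmO q (List.mem_append_right _ hq), rfl⟩
  · exact hmO'

/-- `M22` is transitive on the remaining points -/
theorem point_trans {j k : GolayPt} (h0 : j ≠ pt 0) (h1 : j ≠ pt 1) (h0' : k ≠ pt 0) (h1' : k ≠ pt 1) : ∃ σ ∈ PS [pt 0, pt 1], σ j = k := by
  obtain ⟨g, hg, hgm⟩ := PS_trans (l := [pt 0, pt 1]) (by simp [pt01]) (m := [j]) (m' := [k]) (by simp) (by simp) (by simp [h0, h1]) (by simp [h0', h1']) rfl (by simp)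
  exact ⟨g, hg, by simpa using hgm⟩

theorem hs_rank3_std {y y' : leechLattice} (hy : y ∈ hsPts u5 uD) (hy' : y' ∈ hsPts u5 uD) (hn : y ≠ uA) (hn' : y' ≠ uA)
    (h : dotInt (uA : GolayPt → ℤ) (y : GolayPt → ℤ) = 8 ↔ dotInt (uA : GolayPt → ℤ) (y' : GolayPt → ℤ) = 8) : ∃ g : Co0, g • u5 = u5 ∧ g • uD = uD ∧ g • uA = uA ∧ g • y = y' := by
  rcases hs_class hy with h1 | ⟨j, h0, h1, h1'⟩ | ⟨O, hO, h0, h1, h1'⟩
  · exact absurd h1 hn
  · rcases hs_class hy' with h2 | ⟨k, k0, k1, h2'⟩ | ⟨O, hO, k0, k1, h2'⟩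
    · exact absurd h2 hn'
    · obtain ⟨σ, hσ, hjk⟩ := point_trans h0 h1 k0 k1
      have h3 := m22_iff.mpr ⟨⟨σ, hσ⟩, rfl⟩
      refine ⟨_, h3.1.1, h3.1.2, h3.2, Subtype.ext ?_⟩
      show spE σ ∅ (y : GolayPt → ℤ) = y'
      rw [h1', h2', spE_uo', hjk]
    · exfalso
      rw [h1', h2', dot_A_J h0 h1, dot_A_O k0 k1] at h
      have := h.mp rfl
      norm_num at this
  · rcases hs_class hy' with h2 | ⟨k, k0, k1, h2'⟩ | ⟨O', hO', k0, k1, h2'⟩
    · exact absurd h2 hn'
    · exfalso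
      rw [h1', h2', dot_A_J k0 k1, dot_A_O h0 h1] at h
      have := h.mpr rfl
      norm_num at this
    · obtain ⟨σ, hσ, hjk⟩ := octad_trans hO hO' h0 h1 k0 k1
      have h3 := m22_iff.mpr ⟨⟨σ, hσ⟩, rfl⟩
      refine ⟨_, h3.1.1, h3.1.2, h3.2, Subtype.ext ?_⟩
      show spE σ ∅ (y : GolayPt → ℤ) = y'
      rw [h1', h2', spE_ww, hjk]

theorem hs_rank3 {u y x : leechLattice} (hu : sqNorm (u : GolayPt → ℤ) = 48) (hy : sqNorm (y : GolayPt → ℤ) = 32) (huy : dotInt (y : GolayPt → ℤ) u = -16) (hx : x ∈ hsPts u y) :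
    {z : leechLattice | z ∈ hsPts u y ∧ dotInt (x : GolayPt → ℤ) (z : GolayPt → ℤ) = 8}.ncard = 22 ∧
    {z : leechLattice | z ∈ hsPts u y ∧ z ≠ x ∧ dotInt (x : GolayPt → ℤ) (z : GolayPt → ℤ) ≠ 8}.ncard = 77 ∧
    ∀ z ∈ hsPts u y, ∀ z' ∈ hsPts u y, z ≠ x → z' ≠ x → (dotInt (x : GolayPt → ℤ) (z : GolayPt → ℤ) = 8 ↔ dotInt (x : GolayPt → ℤ) (z' : GolayPt → ℤ) = 8) →
      ∃ g : Co0, g • u = u ∧ g • y = y ∧ g • x = x ∧ g • z = z' := by
  obtain ⟨g, h1, h2, h3⟩ := hs_form u y x hu hy huy hx.1 hx.2.1 hx.2.2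
  refine ⟨?_, ?_, ?_⟩
  · refine Eq.trans ?_ ncard22
    have h : {y : leechLattice | y ∈ hsPts u5 uD ∧ dotInt (uA : GolayPt → ℤ) (y : GolayPt → ℤ) = 8} = (fun z => g • z) '' {z : leechLattice | z ∈ hsPts u y ∧ dotInt (x : GolayPt → ℤ) (z : GolayPt → ℤ) = 8} := by
      ext z
      constructor
      · rintro ⟨hz, hz'⟩
        refine ⟨g⁻¹ • z, ⟨?_, ?_⟩, smul_inv_smul g z⟩
        · rw [← hs_mem_smul g, smul_inv_smul, h1, h2]; exact hz
        · rw [← co_dot g, smul_inv_smul, h3]; exact hz'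
      · rintro ⟨z, ⟨hz, hz'⟩, rfl⟩
        refine ⟨?_, ?_⟩
        · rw [← h1, ← h2]; exact (hs_mem_smul g).mpr hz
        · rw [← h3, co_dot]; exact hz'
    rw [h, Set.ncard_image_of_injective _ (MulAction.injective g)]
  · refine Eq.trans ?_ ncard77
    have h : {y : leechLattice | y ∈ hsPts u5 uD ∧ y ≠ uA ∧ dotInt (uA : GolayPt → ℤ) (y : GolayPt → ℤ) ≠ 8} = (fun z => g • z) '' {z : leechLattice | z ∈ hsPts u y ∧ z ≠ x ∧ dotInt (x : GolayPt → ℤ) (z : GolayPt → ℤ) ≠ 8} := by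
      ext z
      constructor
      · rintro ⟨hz, hzx, hz'⟩
        refine ⟨g⁻¹ • z, ⟨?_, ?_, ?_⟩, smul_inv_smul g z⟩
        · rw [← hs_mem_smul g, smul_inv_smul, h1, h2]; exact hz
        · intro h; apply hzx; rw [← h3, ← h, smul_inv_smul]
        · rw [← co_dot g, smul_inv_smul, h3]; exact hz'
      · rintro ⟨z, ⟨hz, hzx, hz'⟩, rfl⟩
        refine ⟨?_, ?_, ?_⟩
        · rw [← h1, ← h2]; exact (hs_mem_smul g).mpr hz
        · intro h; apply hzx; rw [← h3] at h; exact MulAction.injective g h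
        · rw [← h3, co_dot]; exact hz'
    rw [h, Set.ncard_image_of_injective _ (MulAction.injective g)]
  · intro z hz z' hz' hzx hzx' hiff
    obtain ⟨k, k1, k2, k3, k4⟩ := hs_rank3_std (y := g • z) (y' := g • z') (by rw [← h1, ← h2]; exact (hs_mem_smul g).mpr hz) (by rw [← h1, ← h2]; exact (hs_mem_smul g).mpr hz')
      (fun h => hzx (MulAction.injective g (h.trans h3.symm))) (fun h => hzx' (MulAction.injective g (h.trans h3.symm))) (by rw [← h3, co_dot, co_dot]; exact hiff)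
    refine ⟨g⁻¹ * k * g, ?_, ?_, ?_, ?_⟩
    · rw [mul_smul, mul_smul, h1, k1, ← h1, inv_smul_smul]
    · rw [mul_smul, mul_smul, h2, k2, ← h2, inv_smul_smul]
    · rw [mul_smul, mul_smul, h3, k3, ← h3, inv_smul_smul]
    · rw [mul_smul, mul_smul, k4, inv_smul_smul]

end CfsgLib.Leech
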