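import Mathlib
import Cfsg.Agent.Lib.Leech32
import Cfsg.Agent.Lib.SteinerV

/-!
The Higman–Sims graph.
-/

set_option autoImplicit false

namespace CfsgLib.Leech

open CfsgLib.Golay Finset Cfsg CfsgLib.SteinerV
open scoped Pointwise

section graph
variable {α : Type*} [Fintype α] [DecidableEq α] {B : Set (Finset α)}

theorem lab_std (hα : Fintype.card α = 22) (hB : IsSteinerSystem 3 6 B) : ∃ f, Lab f B ∧ out f = {pt 0, pt 1} := by
  obtain ⟨f, hf⟩ := lab22 hα hB
  have h2 := card_out hf.1
  have h3 : (out f).card = 2 := by omega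
  obtain ⟨p, q, hpq, ho⟩ := Finset.card_eq_two.mp h3
  obtain ⟨g, hg, g0, g1⟩ := exists_M24_two hpq pt01
  have hout : out (fun a => g (f a)) = g • out f := by
    ext x
    rw [mem_out, Finset.mem_smul_finset]
    constructor
    · intro h
      refine ⟨g.symm x, ?_, Equiv.apply_symm_apply g x⟩
      rw [mem_out]
      intro a ha
      exact h a (by rw [ha, Equiv.apply_symm_apply])
    · rintro ⟨y, hy, rfl⟩ a ha
      exact mem_out.mp hy a (g.injective ha)
  refine ⟨fun a => g (f a), ⟨fun a b h => hf.1 (g.injective h), fun s => ?_⟩, ?_⟩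
  · rw [hf.2, hout]
    have : s.image (fun a => g (f a)) = g • (s.image f) := by
      ext x
      simp only [Finset.mem_image, Finset.mem_smul_finset, exists_exists_and_eq_and]
      rfl
    rw [this, ← Finset.smul_finset_union, smul_mem_octads hg]
  · show out (fun a => g (f a)) = _
    rw [hout, ho, Finset.smul_finset_insert, Finset.smul_finset_singleton]
    show ({g p, g q} : Finset GolayPt) = _
    rw [g0, g1]

variable {f : α → GolayPt}

/-- vertices as lattice vectors -/
def vtx (hf : Lab f B) : Option (α ⊕ B) → leechLattice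
  | none => uA
  | some (Sum.inl a) => pJ (f a)
  | some (Sum.inr b) => pO ((hf.2 b).mp b.2)

theorem f_ne (hf : Lab f B) (ho : out f = {pt 0, pt 1}) (a : α) : f a ≠ pt 0 ∧ f a ≠ pt 1 := by
  have h0 : pt 0 ∈ out f := by rw [ho]; simp
  have h1 : pt 1 ∈ out f := by rw [ho]; simp
  rw [mem_out] at h0 h1
  exact ⟨h0 a, h1 a⟩

theorem blk_mem (hf : Lab f B) (ho : out f = {pt 0, pt 1}) (b : B) : pt 0 ∈ (b : Finset α).image f ∪ out f ∧ pt 1 ∈ (b : Finset α).image f ∪ out f := by
  constructor
  · exact Finset.mem_union_right _ (by rw [ho]; simp)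
  · exact Finset.mem_union_right _ (by rw [ho]; simp)

theorem vtx_mem (hf : Lab f B) (ho : out f = {pt 0, pt 1}) (s : Option (α ⊕ B)) : vtx hf s ∈ hsPts u5 uD := by
  rcases s with _ | a | b
  · exact uA_mem_hs
  · exact pJ_mem (f_ne hf ho a).1 (f_ne hf ho a).2
  · exact pO_mem ((hf.2 b).mp b.2) (blk_mem hf ho b).1 (blk_mem hf ho b).2

theorem mem_blk (hf : Lab f B) (a : α) (s : Finset α) : f a ∈ s.image f ∪ out f ↔ a ∈ s := by
  rw [Finset.mem_union, Finset.mem_image, mem_out]
  constructor
  · rintro (⟨b, hb, h⟩ | h)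
    · rw [← hf.1 h]; exact hb
    · exact absurd rfl (h a)
  · intro h; exact Or.inl ⟨a, h, rfl⟩

theorem dot_J_J {i j : GolayPt} (h : i ≠ j) : dotInt (uo i (-3)) (uo j (-3)) = 16 := by
  rw [dot_uo, sum_uo, uo_ne _ h]; norm_num

theorem dot_J_O {i : GolayPt} {O : Finset GolayPt} (hO : O ∈ octads) : dotInt (uo i (-3)) (ww O) = if i ∈ O then 8 else 16 := by
  rw [dot_uo, sum_ww8 hO]
  unfold ww
  split_ifs <;> norm_num

theorem dot_O_O (O O' : Finset GolayPt) : dotInt (ww O) (ww O') = 4 * ((O ∩ O').card : ℤ) := by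
  unfold dotInt ww
  rw [Finset.sum_congr rfl (g := fun i => if i ∈ O ∩ O' then (4 : ℤ) else 0), Finset.sum_ite_mem, Finset.univ_inter, Finset.sum_const, nsmul_eq_mul, mul_comm]
  intro i _
  by_cases h1 : i ∈ O <;> by_cases h2 : i ∈ O' <;> simp [h1, h2]

theorem card_inter_blk (hf : Lab f B) (ho : out f = {pt 0, pt 1}) (s t : Finset α) : ((s.image f ∪ out f) ∩ (t.image f ∪ out f)).card = (s ∩ t).card + 2 := by
  have h : (s.image f ∪ out f) ∩ (t.image f ∪ out f) = (s ∩ t).image f ∪ out f := by
    rw [← Finset.inter_union_distrib_right, Finset.image_inter _ _ hf.1]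
  rw [h, card_image_union hf.1, ho, Finset.card_pair pt01]

theorem adj_iff (hf : Lab f B) (ho : out f = {pt 0, pt 1}) (s t : Option (α ⊕ B)) : (pointBlockGraph B).Adj s t ↔ dotInt (vtx hf s : GolayPt → ℤ) (vtx hf t : GolayPt → ℤ) = 8 := by
  unfold pointBlockGraph
  rw [SimpleGraph.fromRel_adj]
  have hAA : dotInt ((uA : leechLattice) : GolayPt → ℤ) (uA : leechLattice) = 32 := by rw [← sqNorm_eq_dot, norm_uA]
  rcases s with _ | a | b <;> rcases t with _ | a' | b'
  · show _ ↔ dotInt ((uA : leechLattice) : GolayPt → ℤ) (uA : leechLattice) = 8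
    rw [hAA]
    constructor
    · rintro ⟨h, -⟩; exact absurd rfl h
    · intro h; norm_num at h
  · show _ ↔ dotInt ((uA : leechLattice) : GolayPt → ℤ) (uo (f a') (-3)) = 8
    rw [dot_A_J (f_ne hf ho a').1 (f_ne hf ho a').2]
    simp [pointBlockRel]
  · show _ ↔ dotInt ((uA : leechLattice) : GolayPt → ℤ) (ww _) = 8
    rw [dot_A_O (blk_mem hf ho b').1 (blk_mem hf ho b').2]
    simp [pointBlockRel]
  · show _ ↔ dotInt (uo (f a) (-3)) ((uA : leechLattice) : GolayPt → ℤ) = 8
    rw [dot_symm, dot_A_J (f_ne hf ho a).1 (f_ne hf ho a).2]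
    simp [pointBlockRel]
  · show _ ↔ dotInt (uo (f a) (-3)) (uo (f a') (-3)) = 8
    by_cases h : a = a'
    · subst h
      rw [← sqNorm_eq_dot, norm_uo]
      simp [pointBlockRel]
    · rw [dot_J_J (fun h' => h (hf.1 h'))]
      simp [pointBlockRel]
  · show _ ↔ dotInt (uo (f a) (-3)) (ww _) = 8
    rw [dot_J_O ((hf.2 b').mp b'.2)]
    simp only [mem_blk hf]
    simp [pointBlockRel]
  · show _ ↔ dotInt (ww _) ((uA : leechLattice) : GolayPt → ℤ) = 8
    rw [dot_symm, dot_A_O (blk_mem hf ho b).1 (blk_mem hf ho b).2]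
    simp [pointBlockRel]
  · show _ ↔ dotInt (ww _) (uo (f a') (-3)) = 8
    rw [dot_symm, dot_J_O ((hf.2 b).mp b.2)]
    simp only [mem_blk hf]
    simp [pointBlockRel]
  · show _ ↔ dotInt (ww _) (ww _) = 8
    rw [dot_O_O, card_inter_blk hf ho]
    have hne : (b : Finset α).card ≠ 0 := by
      have h1 := octad_card ((hf.2 b).mp b.2)
      rw [card_image_union hf.1, ho, Finset.card_pair pt01] at h1
      omega
    simp only [pointBlockRel]
    constructor
    · rintro ⟨h, h' | h'⟩
      · rw [Finset.disjoint_iff_inter_eq_empty] at h'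
        rw [h']; norm_num
      · rw [disjoint_comm, Finset.disjoint_iff_inter_eq_empty] at h'
        rw [h']; norm_num
    · intro h
      have h0 : ((b : Finset α) ∩ b').card = 0 := by push_cast at h; omega
      rw [Finset.card_eq_zero] at h0
      refine ⟨?_, Or.inl (Finset.disjoint_iff_inter_eq_empty.mpr h0)⟩
      rintro h'
      have h'' : b = b' := by simpa using h'
      subst h''
      rw [Finset.inter_self] at h0
      rw [h0] at hne
      exact hne rfl

theorem vtx_inj (hf : Lab f B) (ho : out f = {pt 0, pt 1}) : Function.Injective (vtx hf) := by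
  have hAJ : ∀ a, uA ≠ pJ (f a) := by
    intro a h
    have h1 := dot_A_J (f_ne hf ho a).1 (f_ne hf ho a).2
    have h2 : uo (f a) (-3) = ((uA : leechLattice) : GolayPt → ℤ) := (congrArg Subtype.val h).symm
    rw [h2, ← sqNorm_eq_dot, norm_uA] at h1
    norm_num at h1
  have hAO : ∀ b : B, uA ≠ pO ((hf.2 b).mp b.2) := by
    intro b h
    have h1 := dot_A_O (blk_mem hf ho b).1 (blk_mem hf ho b).2
    have h2 : ww ((b : Finset α).image f ∪ out f) = ((uA : leechLattice) : GolayPt → ℤ) := (congrArg Subtype.val h).symm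
    rw [h2, ← sqNorm_eq_dot, norm_uA] at h1
    norm_num at h1
  have hJO : ∀ a (b : B), pJ (f a) ≠ pO ((hf.2 b).mp b.2) := by
    intro a b h
    have h2 : uo (f a) (-3) = ww ((b : Finset α).image f ∪ out f) := congrArg Subtype.val h
    have h3 := congrFun h2 (f a)
    rw [uo_same] at h3
    unfold ww at h3
    split_ifs at h3 <;> omega
  intro s t h
  rcases s with _ | a | b <;> rcases t with _ | a' | b'
  · rfl
  · exact absurd h (hAJ a')
  · exact absurd h (hAO b')
  · exact absurd h.symm (hAJ a)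
  · have := hf.1 (pJ_inj h)
    rw [this]
  · exact absurd h (hJO a b')
  · exact absurd h.symm (hAO b)
  · exact absurd h.symm (hJO a' b)
  · have h2 : ww ((b : Finset α).image f ∪ out f) = ww ((b' : Finset α).image f ∪ out f) := congrArg Subtype.val h
    have h3 : (b : Finset α) = b' := by
      ext a
      rw [← mem_blk hf, ← mem_blk hf (s := (b' : Finset α))]
      have h4 := congrFun h2 (f a)
      unfold ww at h4
      by_cases h5 : f a ∈ (b : Finset α).image f ∪ out f <;> by_cases h6 : f a ∈ (b' : Finset α).image f ∪ out f <;> simp only [h5, h6, if_true, if_false] at h4 ⊢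
      · norm_num at h4
      · norm_num at h4
    rw [Subtype.ext h3]

theorem vtx_surj (hf : Lab f B) (ho : out f = {pt 0, pt 1}) {x : leechLattice} (hx : x ∈ hsPts u5 uD) : ∃ s, vtx hf s = x := by
  rcases hs_class hx with h | ⟨j, h0, h1, h⟩ | ⟨O, hO, h0, h1, h⟩
  · exact ⟨none, h.symm⟩
  · have : j ∉ out f := by rw [ho]; simp [h0, h1]
    rw [mem_out] at this
    push Not at this
    obtain ⟨a, ha⟩ := this
    exact ⟨some (Sum.inl a), Subtype.ext (by rw [h, ← ha]; rfl)⟩
  · let b : Finset α := univ.filter (fun a => f a ∈ O)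
    have hb : b.image f ∪ out f = O := by
      ext y
      by_cases hy : y ∈ out f
      · have : y ∈ O := by
          rw [ho] at hy
          simp only [Finset.mem_insert, Finset.mem_singleton] at hy
          rcases hy with rfl | rfl <;> assumption
        exact ⟨fun _ => this, fun _ => Finset.mem_union_right _ hy⟩
      · have hy' := hy
        rw [mem_out] at hy'
        push Not at hy'
        obtain ⟨a, rfl⟩ := hy'
        rw [mem_blk hf]
        simp [b]
    have hbB : b ∈ B := by rw [hf.2, hb]; exact hO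
    refine ⟨some (Sum.inr ⟨b, hbB⟩), Subtype.ext ?_⟩
    rw [h]
    show ww (b.image f ∪ out f) = ww O
    rw [hb]

/-- vertices and lattice vectors -/
noncomputable def vEquiv (hf : Lab f B) (ho : out f = {pt 0, pt 1}) : Option (α ⊕ B) ≃ hsPts u5 uD :=
  Equiv.ofBijective (fun s => ⟨vtx hf s, vtx_mem hf ho s⟩) ⟨fun s t h => vtx_inj hf ho (congrArg Subtype.val h), fun x => by
    obtain ⟨s, hs⟩ := vtx_surj hf ho x.2
    exact ⟨s, Subtype.ext hs⟩⟩

theorem vEquiv_coe (hf : Lab f B) (ho : out f = {pt 0, pt 1}) (s : Option (α ⊕ B)) : ((vEquiv hf ho s : hsPts u5 uD) : leechLattice) = vtx hf s := rfl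

/-- action of HS on the 100 points -/
def hsPerm (g : ↥(MulAction.stabilizer Co0 u5 ⊓ MulAction.stabilizer Co0 uD)) : hsPts u5 uD → hsPts u5 uD := fun x => ⟨(g : Co0) • (x : leechLattice), by
  have h1 : (g : Co0) • u5 = u5 := g.2.1
  have h2 : (g : Co0) • uD = uD := g.2.2
  have := (hs_mem_smul (g : Co0)).mpr x.2
  rwa [h1, h2] at this⟩

/-- the graph automorphism attached to an element -/
noncomputable def hsAut (hf : Lab f B) (ho : out f = {pt 0, pt 1}) : ↥(MulAction.stabilizer Co0 u5 ⊓ MulAction.stabilizer Co0 uD) →* (pointBlockGraph B ≃g pointBlockGraph B) where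
  toFun g :=
    { toFun := fun s => (vEquiv hf ho).symm (hsPerm g (vEquiv hf ho s))
      invFun := fun s => (vEquiv hf ho).symm (hsPerm g⁻¹ (vEquiv hf ho s))
      left_inv := fun s => by
        show (vEquiv hf ho).symm (hsPerm g⁻¹ ((vEquiv hf ho) ((vEquiv hf ho).symm (hsPerm g ((vEquiv hf ho) s))))) = s
        rw [Equiv.apply_symm_apply, Equiv.symm_apply_eq]
        apply Subtype.ext
        exact inv_smul_smul (g : Co0) _
      right_inv := fun s => by
        show (vEquiv hf ho).symm (hsPerm g ((vEquiv hf ho) ((vEquiv hf ho).symm (hsPerm g⁻¹ ((vEquiv hf ho) s))))) = s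
        rw [Equiv.apply_symm_apply, Equiv.symm_apply_eq]
        apply Subtype.ext
        exact smul_inv_smul (g : Co0) _
      map_rel_iff' := by
        intro s t
        show (pointBlockGraph B).Adj ((vEquiv hf ho).symm (hsPerm g (vEquiv hf ho s))) ((vEquiv hf ho).symm (hsPerm g (vEquiv hf ho t))) ↔ _
        rw [adj_iff hf ho, adj_iff hf ho, ← vEquiv_coe hf ho, ← vEquiv_coe hf ho, ← vEquiv_coe hf ho, ← vEquiv_coe hf ho, Equiv.apply_symm_apply, Equiv.apply_symm_apply]
        exact Iff.of_eq (congrArg (· = 8) (co_dot (g : Co0) _ _)) }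
  map_one' := by
    apply RelIso.ext
    intro s
    show (vEquiv hf ho).symm (hsPerm 1 (vEquiv hf ho s)) = s
    rw [Equiv.symm_apply_eq]
    apply Subtype.ext
    exact one_smul Co0 _
  map_mul' g h := by
    apply RelIso.ext
    intro s
    show (vEquiv hf ho).symm (hsPerm (g * h) (vEquiv hf ho s)) = (vEquiv hf ho).symm (hsPerm g (vEquiv hf ho ((vEquiv hf ho).symm (hsPerm h (vEquiv hf ho s)))))
    rw [Equiv.apply_symm_apply]
    apply congrArg
    apply Subtype.ext
    exact mul_smul (g : Co0) (h : Co0) _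

theorem vtx_hsAut (hf : Lab f B) (ho : out f = {pt 0, pt 1}) (g : ↥(MulAction.stabilizer Co0 u5 ⊓ MulAction.stabilizer Co0 uD)) (s : Option (α ⊕ B)) :
    vtx hf (hsAut hf ho g s) = (g : Co0) • vtx hf s := by
  rw [← vEquiv_coe hf ho, ← vEquiv_coe hf ho]
  show (((vEquiv hf ho) ((vEquiv hf ho).symm (hsPerm g (vEquiv hf ho s))) : hsPts u5 uD) : leechLattice) = _
  rw [Equiv.apply_symm_apply]; rfl

theorem hsAut_trans (hf : Lab f B) (ho : out f = {pt 0, pt 1}) (s t : Option (α ⊕ B)) : ∃ g, hsAut hf ho g s = t := by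
  obtain ⟨g, h1, h2, h3⟩ := hs_trans norm_u5 norm_uD dot_D5 (vtx_mem hf ho s) (vtx_mem hf ho t)
  refine ⟨⟨g, ⟨h1, h2⟩⟩, ?_⟩
  apply vtx_inj hf ho
  rw [vtx_hsAut]
  exact h3

theorem hsAut_inj (hf : Lab f B) (ho : out f = {pt 0, pt 1}) (a : α) : Function.Injective (hsAut hf ho) := by
  rw [← MonoidHom.ker_eq_bot_iff]
  have hs := simple_hs_std
  rcases hs.eq_bot_or_eq_top_of_normal (hsAut hf ho).ker inferInstance with h | h
  · exact h
  · exfalso
    obtain ⟨g, hg⟩ := hsAut_trans hf ho none (some (Sum.inl a))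
    have h1 : g ∈ (hsAut hf ho).ker := by rw [h]; exact Subgroup.mem_top g
    rw [MonoidHom.mem_ker] at h1
    rw [h1] at hg
    exact absurd hg (by simp)

/-- extension of an automorphism of the system to the graph -/
def extAut (σ : setSystemAut B) : pointBlockGraph B ≃g pointBlockGraph B where
  toFun
    | none => none
    | some (Sum.inl a) => some (Sum.inl ((σ : Equiv.Perm α) a))
    | some (Sum.inr b) => some (Sum.inr ⟨(σ : Equiv.Perm α) • (b : Finset α), by
        have h : (σ : Equiv.Perm α) • B = B := σ.2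
        exact (Set.ext_iff.mp h _).mp (Set.smul_mem_smul_set b.2)⟩)
  invFun
    | none => none
    | some (Sum.inl a) => some (Sum.inl (((σ : Equiv.Perm α)⁻¹ : Equiv.Perm α) a))
    | some (Sum.inr b) => some (Sum.inr ⟨(σ : Equiv.Perm α)⁻¹ • (b : Finset α), by
        have h : (σ : Equiv.Perm α)⁻¹ • B = B := inv_smul_eq_iff.mpr (show B = (σ : Equiv.Perm α) • B from (show (σ : Equiv.Perm α) • B = B from σ.2).symm)
        exact (Set.ext_iff.mp h _).mp (Set.smul_mem_smul_set b.2)⟩)
  left_inv := by
    rintro (_ | a | b)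
    · rfl
    · simp
    · simp
  right_inv := by
    rintro (_ | a | b)
    · rfl
    · simp
    · simp
  map_rel_iff' := by
    have hdisj : ∀ (s t : Finset α), Disjoint ((σ : Equiv.Perm α) • s) ((σ : Equiv.Perm α) • t) ↔ Disjoint s t := by
      intro s t
      rw [Finset.disjoint_left, Finset.disjoint_left]
      constructor
      · intro h x hx hx'
        exact h (Finset.smul_mem_smul_finset hx) (Finset.smul_mem_smul_finset hx')
      · intro h x hx hx'
        rw [Finset.mem_smul_finset] at hx hx'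
        obtain ⟨y, hy, rfl⟩ := hx
        obtain ⟨z, hz, hzy⟩ := hx'
        have : z = y := (σ : Equiv.Perm α).injective hzy
        subst this
        exact h hy hz
    have hmem : ∀ (a : α) (s : Finset α), (σ : Equiv.Perm α) a ∈ (σ : Equiv.Perm α) • s ↔ a ∈ s := by
      intro a s
      rw [← Equiv.Perm.smul_def, Finset.smul_mem_smul_finset_iff]
    intro s t
    unfold pointBlockGraph
    rcases s with _ | a | b <;> rcases t with _ | a' | b' <;> simp [pointBlockRel, hdisj, hmem, Subtype.ext_iff]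

instance actV : MulAction (pointBlockGraph B ≃g pointBlockGraph B) (Option (α ⊕ B)) where
  smul g x := g x
  one_smul _ := rfl
  mul_smul _ _ _ := rfl

theorem actV_def (g : pointBlockGraph B ≃g pointBlockGraph B) (x : Option (α ⊕ B)) : g • x = g x := rfl

theorem extAut_inj : Function.Injective (extAut (B := B)) := by
  intro σ τ h
  apply Subtype.ext
  apply Equiv.ext
  intro a
  have h1 : extAut σ (some (Sum.inl a)) = extAut τ (some (Sum.inl a)) := by rw [h]
  have h2 : (some (Sum.inl ((σ : Equiv.Perm α) a)) : Option (α ⊕ B)) = some (Sum.inl ((τ : Equiv.Perm α) a)) := h1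
  simpa using h2

theorem adj_none (t : Option (α ⊕ B)) : (pointBlockGraph B).Adj none t ↔ ∃ a, t = some (Sum.inl a) := by
  unfold pointBlockGraph
  rcases t with _ | a | b <;> simp [pointBlockRel]

theorem adj_pt_blk (a : α) (b : B) : (pointBlockGraph B).Adj (some (Sum.inl a)) (some (Sum.inr b)) ↔ a ∈ (b : Finset α) := by
  unfold pointBlockGraph
  simp [pointBlockRel]

theorem extAut_surj {g : pointBlockGraph B ≃g pointBlockGraph B} (hg : g none = none) : ∃ σ : setSystemAut B, extAut σ = g := by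
  have h1 : ∀ a, ∃ a', g (some (Sum.inl a)) = some (Sum.inl a') := by
    intro a
    have h := (adj_none (B := B) (some (Sum.inl a))).mpr ⟨a, rfl⟩
    rw [← g.map_rel_iff, hg, adj_none] at h
    exact h
  choose σ hσ using h1
  have hinj : Function.Injective σ := by
    intro a b h
    have h2 : g (some (Sum.inl a)) = g (some (Sum.inl b)) := by rw [hσ, hσ, h]
    simpa using g.injective h2
  let σ' : Equiv.Perm α := Equiv.ofBijective σ (Finite.injective_iff_bijective.mp hinj)
  have hσ' : ∀ a, σ' a = σ a := fun a => rfl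
  have h2 : ∀ b : B, ∃ b' : B, g (some (Sum.inr b)) = some (Sum.inr b') := by
    intro b
    rcases h : g (some (Sum.inr b)) with _ | a | b'
    · exfalso
      rw [← hg] at h
      exact absurd (g.injective h) (by simp)
    · exfalso
      have h3 : g (some (Sum.inl (σ'.symm a))) = some (Sum.inl a) := by
        rw [hσ, ← hσ', Equiv.apply_symm_apply]
      rw [← h3] at h
      exact absurd (g.injective h) (by simp)
    · exact ⟨b', rfl⟩
  choose β hβ using h2
  have h3 : ∀ b : B, ((β b : B) : Finset α) = σ' • (b : Finset α) := by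
    intro b
    ext x
    have h4 : g (some (Sum.inl (σ'.symm x))) = some (Sum.inl x) := by
      rw [hσ, ← hσ', Equiv.apply_symm_apply]
    have h5 := g.map_rel_iff (a := some (Sum.inl (σ'.symm x))) (b := some (Sum.inr b))
    rw [h4, hβ, adj_pt_blk, adj_pt_blk] at h5
    rw [h5, Finset.mem_smul_finset]
    constructor
    · intro h; exact ⟨_, h, Equiv.apply_symm_apply σ' x⟩
    · rintro ⟨y, hy, rfl⟩
      show σ'.symm (σ' y) ∈ (b : Finset α)
      rw [Equiv.symm_apply_apply]; exact hy
  have hmem : σ' ∈ setSystemAut B := by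
    show σ' • B = B
    apply Set.eq_of_subset_of_ncard_le
    · rintro _ ⟨b, hb, rfl⟩
      show σ' • b ∈ B
      rw [← h3 ⟨b, hb⟩]; exact (β ⟨b, hb⟩).2
    · rw [Set.ncard_smul_set]
    · exact Set.toFinite _
  refine ⟨⟨σ', hmem⟩, ?_⟩
  apply RelIso.ext
  rintro (_ | a | b)
  · exact hg.symm
  · rw [hσ]; rfl
  · rw [hβ]
    show (some (Sum.inr ⟨σ' • (b : Finset α), _⟩) : Option (α ⊕ B)) = some (Sum.inr (β b))
    congr 2
    exact Subtype.ext (h3 b).symm

theorem card_graph_aut (hf : Lab f B) (ho : out f = {pt 0, pt 1}) (h : Nat.card (setSystemAut B) = 887040) : Nat.card (pointBlockGraph B ≃g pointBlockGraph B) = 88704000 := by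
  have h1 := card_stab_mul (⊤ : Subgroup (pointBlockGraph B ≃g pointBlockGraph B)) (MulAction.stabilizer (pointBlockGraph B ≃g pointBlockGraph B) (none : Option (α ⊕ B))) (none : Option (α ⊕ B)) Set.univ (fun g => by simp) (fun x => by
    constructor
    · intro _
      obtain ⟨g, hg⟩ := hsAut_trans hf ho none x
      exact ⟨_, Subgroup.mem_top _, hg⟩
    · intro _; trivial)
  have h2 : Nat.card (MulAction.stabilizer (pointBlockGraph B ≃g pointBlockGraph B) (none : Option (α ⊕ B))) = 887040 := by
    rw [← h]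
    symm
    apply Nat.card_congr
    refine Equiv.ofBijective (fun σ => ⟨extAut σ, rfl⟩) ⟨fun σ τ hst => extAut_inj (congrArg Subtype.val hst), fun g => ?_⟩
    obtain ⟨σ, hσ⟩ := extAut_surj (g := (g : pointBlockGraph B ≃g pointBlockGraph B)) g.2
    exact ⟨σ, Subtype.ext hσ⟩
  rw [h2, Set.ncard_univ, Nat.card_congr (vEquiv hf ho), Nat.card_coe_set_eq, ncard_hs_std, Subgroup.card_top] at h1
  exact h1.symm

end graph

end CfsgLib.Leech
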