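import Mathlib
import Cfsg.Agent.Lib.Leech33
import Cfsg.Agent.Lib.GolaySext

/-!
The McLaughlin group on 275 points.
-/

set_option autoImplicit false

namespace CfsgLib.Leech

open CfsgLib.Golay Finset Cfsg
open scoped Pointwise

theorem sum_w2_le {x : GolayPt → ℤ} {S : Finset GolayPt} (hS : S ∈ octads) (h2 : ∀ i ∈ S, x i = 2 ∨ x i = -2) (h0 : ∀ i, i ∉ S → x i = 0) : ∑ i, x i ≤ 16 :=
  (w2_sum_le hS h2 h0).1

/-- odd vectors with value 3 at one point of an octad -/
def od3 (C : Finset GolayPt) (p : GolayPt) : GolayPt → ℤ := fun i => if i = p then 3 else if i ∈ C then -1 else 1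

theorem od3_same (C : Finset GolayPt) (p : GolayPt) : od3 C p p = 3 := if_pos rfl
theorem od3_in {C : Finset GolayPt} {p i : GolayPt} (h : i ≠ p) (hi : i ∈ C) : od3 C p i = -1 := by unfold od3; rw [if_neg h, if_pos hi]
theorem od3_out {C : Finset GolayPt} {p i : GolayPt} (h : i ≠ p) (hi : i ∉ C) : od3 C p i = 1 := by unfold od3; rw [if_neg h, if_neg hi]

theorem od3_eq {C : Finset GolayPt} {p : GolayPt} (hp : p ∈ C) (i : GolayPt) : od3 C p i = 1 + (-2) * (if i ∈ C then 1 else 0) + 4 * (if i = p then 1 else 0) := by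
  unfold od3
  by_cases h : i = p
  · rw [if_pos h, if_pos h, h, if_pos hp]; norm_num
  · rw [if_neg h, if_neg h]
    split_ifs <;> norm_num

theorem dot_od3 (x : GolayPt → ℤ) {C : Finset GolayPt} {p : GolayPt} (hp : p ∈ C) : dotInt (od3 C p) x = 4 * x p + ∑ i, x i - 2 * ∑ i ∈ C, x i := by
  unfold dotInt
  have h : ∀ i ∈ univ, od3 C p i * x i = x i + (-2) * (if i ∈ C then x i else 0) + 4 * (if i = p then x i else 0) := by
    intro i _
    rw [od3_eq hp]
    split_ifs <;> ring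
  rw [Finset.sum_congr rfl h, Finset.sum_add_distrib, Finset.sum_add_distrib, ← Finset.mul_sum, ← Finset.mul_sum, Finset.sum_ite_eq' univ p, if_pos (Finset.mem_univ p), Finset.sum_ite_mem, Finset.univ_inter]
  ring

theorem od3_mem {C : Finset GolayPt} (hC : C ∈ octads) {p : GolayPt} (hp : p ∈ C) : od3 C p ∈ leechLattice := by
  have h := (mono (one_mem M24) hC.1 • (⟨uo p (-3), uo_mem (by norm_num) (by norm_num)⟩ : leechLattice)).2
  have h2 : ((mono (one_mem M24) hC.1 • (⟨uo p (-3), uo_mem (by norm_num) (by norm_num)⟩ : leechLattice) : leechLattice) : GolayPt → ℤ) = od3 C p := by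
    funext i
    rw [mono_one_apply]
    show (if i ∈ C then -(uo p (-3) i) else uo p (-3) i) = od3 C p i
    by_cases hi : i = p
    · rw [hi, if_pos hp, uo_same, od3_same]; norm_num
    · rw [uo_ne _ hi]
      by_cases hc : i ∈ C
      · rw [if_pos hc, od3_in hi hc]
      · rw [if_neg hc, od3_out hi hc]
  rw [h2] at h
  exact h

theorem norm_od3 {C : Finset GolayPt} {p : GolayPt} : sqNorm (od3 C p) = 32 := by
  unfold sqNorm
  rw [← Finset.add_sum_erase univ _ (Finset.mem_univ p), od3_same, Finset.sum_congr rfl (g := fun _ => (1 : ℤ))]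
  · rw [Finset.sum_const, Finset.card_erase_of_mem (Finset.mem_univ p), card_univ_G]; norm_num
  · intro i hi
    have h := Finset.ne_of_mem_erase hi
    by_cases hc : i ∈ C
    · rw [od3_in h hc]; norm_num
    · rw [od3_out h hc]; norm_num

theorem sum_od3 {C : Finset GolayPt} (hC : C ∈ octads) {p : GolayPt} (hp : p ∈ C) : ∑ i, od3 C p i = 12 := by
  have h := dot_od3 (fun _ => 1) hp
  unfold dotInt at h
  simp only [mul_one] at h
  rw [h, Finset.sum_const, Finset.sum_const, octad_card hC, card_univ_G]; norm_num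

/-- the 275 points -/
def mcPts (v w : leechLattice) : Set leechLattice := {x | sqNorm (x : GolayPt → ℤ) = 32 ∧ dotInt (v : GolayPt → ℤ) x = 16 ∧ dotInt (w : GolayPt → ℤ) x = 8}

theorem mc_mem_smul (g : Co0) {v w x : leechLattice} : g • x ∈ mcPts (g • v) (g • w) ↔ x ∈ mcPts v w := by
  unfold mcPts
  rw [Set.mem_setOf_eq, Set.mem_setOf_eq, co_norm, co_dot, co_dot]

theorem norm_u3' : sqNorm ((u3 : leechLattice) : GolayPt → ℤ) = 32 := by rw [u3_val, norm_uo]; norm_num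

theorem dot_A3 : dotInt ((uA : leechLattice) : GolayPt → ℤ) ((u3 : leechLattice) : GolayPt → ℤ) = -8 := by
  rw [uA_val, u3_val, dot_symm, dot_u44, uo_same, uo_ne _ pt01.symm]; norm_num

theorem pt02 : pt 0 ≠ pt 2 := by decide
theorem pt12 : pt 1 ≠ pt 2 := by decide

def uE : leechLattice := ⟨u44 (pt 1) (pt 2) 4 4, u44_mem pt12 (Or.inl rfl) (Or.inl rfl)⟩
theorem uE_val : ((uE : leechLattice) : GolayPt → ℤ) = u44 (pt 1) (pt 2) 4 4 := rfl

theorem mc_mem_J {x : leechLattice} {j : GolayPt} (h0 : j ≠ pt 0) (h1 : j ≠ pt 1) (h : (x : GolayPt → ℤ) = u44 (pt 1) j 4 4) : x ∈ mcPts uA u3 := by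
  refine ⟨?_, ?_, ?_⟩
  · rw [h, norm_u44 h1.symm (Or.inl rfl) (Or.inl rfl)]
  · rw [uA_val, dot_symm, dot_u44, h, u44_other pt01 h0.symm, u44_left h1.symm]; norm_num
  · rw [h, dot_u44, u3_val, uo_ne _ pt01.symm, uo_ne _ h0]; norm_num

theorem mc_mem_O {x : leechLattice} {O : Finset GolayPt} (hO : O ∈ octads) (h0 : pt 0 ∈ O) (h1 : pt 1 ∈ O) (h : (x : GolayPt → ℤ) = ww O) : x ∈ mcPts uA u3 := by
  refine ⟨?_, ?_, ?_⟩
  · rw [h, norm_ww, octad_card hO]; norm_num
  · rw [uA_val, dot_symm, dot_u44, h]; unfold ww; rw [if_pos h0, if_pos h1]; norm_num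
  · rw [u3_val, dot_uo, h, sum_ww8 hO]; unfold ww; rw [if_pos h0]; norm_num

theorem mc_mem_C {x : leechLattice} {C : Finset GolayPt} (hC : C ∈ octads) (h0 : pt 0 ∉ C) (h1 : pt 1 ∈ C) (h : (x : GolayPt → ℤ) = od3 C (pt 1)) : x ∈ mcPts uA u3 := by
  refine ⟨?_, ?_, ?_⟩
  · rw [h, norm_od3]
  · rw [uA_val, dot_symm, dot_u44, h, od3_same, od3_out pt01 h0]; norm_num
  · rw [u3_val, dot_uo, h, sum_od3 hC h1, od3_out pt01 h0]; norm_num

/-- classification of the 275 points -/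
theorem mc_class {x : leechLattice} (hx : x ∈ mcPts uA u3) : (∃ j, j ≠ pt 0 ∧ j ≠ pt 1 ∧ (x : GolayPt → ℤ) = u44 (pt 1) j 4 4) ∨
    (∃ O ∈ octads, pt 0 ∈ O ∧ pt 1 ∈ O ∧ (x : GolayPt → ℤ) = ww O) ∨ ∃ C ∈ octads, pt 0 ∉ C ∧ pt 1 ∈ C ∧ (x : GolayPt → ℤ) = od3 C (pt 1) := by
  obtain ⟨hn, h1, h2⟩ := hx
  rw [u3_val, dot_uo] at h2
  rw [uA_val, dot_symm, dot_u44] at h1
  rcases Int.emod_two_eq_zero_or_one ((x : GolayPt → ℤ) (pt 0)) with he | he
  · rcases shape32_even x.2 hn he with ⟨p, q, hpq, a, b, ha, hb, hxx⟩ | ⟨S, hS, hx2, hx0⟩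
    · left
      have hsum : ∑ i, (x : GolayPt → ℤ) i = a + b := by rw [hxx, sum_u44]
      have hvals : ∀ i, (x : GolayPt → ℤ) i = 0 ∨ (x : GolayPt → ℤ) i = 4 ∨ (x : GolayPt → ℤ) i = -4 := by
        intro i
        rw [hxx]
        by_cases hi : i = p
        · rw [hi, u44_left hpq]; omega
        · by_cases hj : i = q
          · rw [hj, u44_right hpq]; omega
          · rw [u44_other hi hj]; omega
      have e1 : (x : GolayPt → ℤ) (pt 1) = 4 := by
        rcases hvals (pt 0) with h | h | h <;> rcases hvals (pt 1) with h' | h' | h' <;> omega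
      have e0 : (x : GolayPt → ℤ) (pt 0) = 0 := by omega
      obtain ⟨j, hj, b', hb', hxj⟩ := shape4' x.2 hn (Or.inl rfl) e1
      have hs' : 4 + b' = 8 := by
        have h5 : ∑ i, (x : GolayPt → ℤ) i = 4 + b' := by rw [hxj, sum_u44]
        omega
      have hb4 : b' = 4 := by omega
      refine ⟨j, ?_, hj, by rw [hxj, hb4]⟩
      rintro rfl
      rw [hxj, u44_right hj.symm] at e0
      omega
    · right; left
      obtain ⟨h3, h4⟩ := w2_sum_le hS hx2 hx0
      have hv : ∀ i, (x : GolayPt → ℤ) i = 0 ∨ (x : GolayPt → ℤ) i = 2 ∨ (x : GolayPt → ℤ) i = -2 := by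
        intro i
        by_cases hi : i ∈ S
        · right; exact hx2 _ hi
        · left; exact hx0 _ hi
      have hv0 : (x : GolayPt → ℤ) (pt 0) = 2 := by rcases hv (pt 0) with h | h | h <;> rcases hv (pt 1) with h' | h' | h' <;> omega
      have hv1 : (x : GolayPt → ℤ) (pt 1) = 2 := by omega
      refine ⟨S, hS, ?_, ?_, h4 (by omega)⟩
      · by_contra hi; rw [hx0 _ hi] at hv0; omega
      · by_contra hi; rw [hx0 _ hi] at hv1; omega
  · right; right
    obtain ⟨C, hC, hm, p, hp, h1'⟩ := shape32_odd x.2 hn he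
    have hsum := sum_odd hm h1'
    have hv : ∀ i, i ≠ p → ((x : GolayPt → ℤ) i = 1 ∨ (x : GolayPt → ℤ) i = -1) := h1'
    have hp01 : p = pt 0 ∨ p = pt 1 := by
      by_contra hcon
      push Not at hcon
      have e0 := hv _ hcon.1.symm
      have e1 := hv _ hcon.2.symm
      omega
    rcases hp01 with rfl | rfl
    · exfalso
      have e1 := hv _ pt01.symm
      have e0 : (x : GolayPt → ℤ) (pt 0) = 3 := by omega
      have hmp := hm (pt 0)
      have hpC : pt 0 ∈ C := by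
        by_contra h
        rw [if_neg h, e0] at hmp; norm_num at hmp
      have hcc := Finset.card_erase_of_mem hpC
      have hpos : 0 < C.card := Finset.card_pos.mpr ⟨_, hpC⟩
      rcases supports_card hC with h | h | h | h | h <;> omega
    · have e0 := hv _ pt01
      have e1 : (x : GolayPt → ℤ) (pt 1) = 3 := by omega
      have e0' : (x : GolayPt → ℤ) (pt 0) = 1 := by omega
      have hmp := hm (pt 1)
      have hpC : pt 1 ∈ C := by
        by_contra h
        rw [if_neg h, e1] at hmp; norm_num at hmp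
      have h0C : pt 0 ∉ C := by
        intro h
        have := hm (pt 0)
        rw [if_pos h, e0'] at this; norm_num at this
      have hcc := Finset.card_erase_of_mem hpC
      have hpos : 0 < C.card := Finset.card_pos.mpr ⟨_, hpC⟩
      have h8 : C.card = 8 := by
        rcases supports_card hC with h | h | h | h | h <;> omega
      refine ⟨C, ⟨hC, h8⟩, h0C, hpC, funext fun i => ?_⟩
      by_cases hi : i = pt 1
      · rw [hi, od3_same, e1]
      · have h3 := hm i
        rcases hv i hi with h | h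
        · rw [h]
          rw [od3_out hi]
          intro hi'
          rw [if_pos hi', h] at h3; norm_num at h3
        · rw [h]
          rw [od3_in hi]
          by_contra hi'
          rw [if_neg hi', h] at h3; norm_num at h3

/-- moving an auxiliary vector to a coordinate vector -/
theorem mc_red {f : leechLattice} (hf : sqNorm (f : GolayPt → ℤ) = 64) (hfA : dotInt (uA : GolayPt → ℤ) f = 32) (hf3 : dotInt (u3 : GolayPt → ℤ) f = -24) :
    ∃ g : Co0, g • uA = uA ∧ g • u3 = u3 ∧ g • f = e8 (pt 0) := by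
  obtain ⟨g, b, hb, h1, h2, h3, h4⟩ := pair_form' uA u3 f hf norm_uA (c := 4) (a := -3) (Or.inl rfl) (by norm_num) (by rw [norm_u3']; norm_num) (by rw [hfA]; norm_num) (by rw [hf3]; norm_num)
  rw [dot_A3] at h1
  have hb4 : b = 4 := by omega
  rw [hb4] at h2
  exact ⟨g, Subtype.ext h2, Subtype.ext h3, h4⟩

theorem mc_red_x {f x : leechLattice} (hf : sqNorm (f : GolayPt → ℤ) = 64) (hfA : dotInt (uA : GolayPt → ℤ) f = 32) (hf3 : dotInt (u3 : GolayPt → ℤ) f = -24)
    (hx : x ∈ mcPts uA u3) (hxf : dotInt (x : GolayPt → ℤ) f = 0) : ∃ g : Co0, g • uA = uA ∧ g • u3 = u3 ∧ g • x = uE ∧ g • f = e8 (pt 0) := by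
  obtain ⟨g, h1, h2, h3⟩ := mc_red hf hfA hf3
  have hx' : g • x ∈ mcPts uA u3 := by
    have := (mc_mem_smul g).mpr hx
    rwa [h1, h2] at this
  have h0 : ((g • x : leechLattice) : GolayPt → ℤ) (pt 0) = 0 := by
    have := co_dot g x f
    rw [h3, dot_e8, hxf] at this
    omega
  rcases mc_class hx' with ⟨j, j0, j1, h⟩ | ⟨O, hO, o0, o1, h⟩ | ⟨C, hC, c0, c1, h⟩
  · obtain ⟨σ, hσ, hj⟩ := point_trans j0 j1 pt02.symm pt12.symm
    have s0 : σ (pt 0) = pt 0 := hσ.2 _ (by simp)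
    have s1 : σ (pt 1) = pt 1 := hσ.2 _ (by simp)
    refine ⟨mono hσ.1 empty_mem * g, ?_, ?_, ?_, ?_⟩
    · rw [mul_smul, h1]; apply Subtype.ext; rw [mono_smul, uA_val, spE_u44, s0, s1, if_neg (Finset.notMem_empty _), if_neg (Finset.notMem_empty _)]
    · rw [mul_smul, h2]; apply Subtype.ext; rw [mono_smul, u3_val, spE_uo _ _ s0]
    · rw [mul_smul]; apply Subtype.ext; rw [mono_smul, h, spE_u44, hj, s1, if_neg (Finset.notMem_empty _), if_neg (Finset.notMem_empty _), uE_val]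
    · rw [mul_smul, h3, mono_e8, if_neg (Finset.notMem_empty _), s0]
  · exfalso
    rw [h] at h0
    unfold ww at h0
    rw [if_pos o0] at h0
    norm_num at h0
  · exfalso
    rw [h, od3_out pt01 c0] at h0
    norm_num at h0

/-- octad vectors as auxiliary vectors -/
theorem aux_oct {O : Finset GolayPt} (hO : O ∈ octads) (h0 : pt 0 ∉ O) (h1 : pt 1 ∉ O) : sqNorm ((uA - pO hO : leechLattice) : GolayPt → ℤ) = 64 ∧
    dotInt (uA : GolayPt → ℤ) ((uA - pO hO : leechLattice) : GolayPt → ℤ) = 32 ∧ dotInt (u3 : GolayPt → ℤ) ((uA - pO hO : leechLattice) : GolayPt → ℤ) = -24 := by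
  have hc : ((uA - pO hO : leechLattice) : GolayPt → ℤ) = (uA : GolayPt → ℤ) - ww O := rfl
  have hd : dotInt (uA : GolayPt → ℤ) (ww O) = 0 := by
    rw [uA_val, dot_symm, dot_u44]; unfold ww; rw [if_neg h0, if_neg h1]; norm_num
  rw [hc]
  refine ⟨?_, ?_, ?_⟩
  · rw [norm_sub, norm_uA, norm_ww, octad_card hO, hd]; norm_num
  · rw [dot_sub_right, ← sqNorm_eq_dot, norm_uA, hd]; norm_num
  · rw [dot_sub_right, dot_symm, dot_A3, u3_val, dot_uo, sum_ww8 hO]
    unfold ww; rw [if_neg h0]; norm_num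

theorem sum_ww_in (O C : Finset GolayPt) : ∑ i ∈ C, ww O i = 2 * ((O ∩ C).card : ℤ) := by
  unfold ww
  rw [← Finset.sum_filter, Finset.sum_const, Finset.filter_mem_eq_inter, Finset.inter_comm]
  rw [nsmul_eq_mul]; ring

theorem exists_aux {x : leechLattice} (hx : x ∈ mcPts uA u3) : ∃ f : leechLattice, sqNorm (f : GolayPt → ℤ) = 64 ∧ dotInt (uA : GolayPt → ℤ) f = 32 ∧ dotInt (u3 : GolayPt → ℤ) f = -24 ∧ dotInt (x : GolayPt → ℤ) f = 0 := by
  have key : ∀ {O : Finset GolayPt} (hO : O ∈ octads), dotInt (x : GolayPt → ℤ) ((uA - pO hO : leechLattice) : GolayPt → ℤ) = 16 - dotInt (x : GolayPt → ℤ) (ww O) := by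
    intro O hO
    have hc : ((uA - pO hO : leechLattice) : GolayPt → ℤ) = (uA : GolayPt → ℤ) - ww O := rfl
    rw [hc, dot_sub_right, dot_symm, hx.2.1]
  rcases mc_class hx with ⟨j, j0, j1, h⟩ | ⟨O, hO, o0, o1, h⟩ | ⟨C, hC, c0, c1, h⟩
  · refine ⟨e8 (pt 0), norm_e8 _, ?_, ?_, ?_⟩
    · rw [dot_e8, uA_val, u44_left pt01]; norm_num
    · rw [dot_e8, u3_val, uo_same]; norm_num
    · rw [dot_e8, h, u44_other pt01 j0.symm]; norm_num
  · -- four points of `O`, one point outside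
    obtain ⟨T, hT, hT4⟩ := Finset.exists_subset_card_eq (card_rest (S := O) {pt 0, pt 1} 4 (by rw [octad_card hO, Finset.card_pair pt01]; norm_num))
    obtain ⟨q, hq⟩ : ∃ q, q ∉ O := by
      by_contra hcon
      push Not at hcon
      have h8 := octad_card hO
      rw [Finset.eq_univ_iff_forall.mpr hcon, card_univ_G] at h8
      norm_num at h8
    have hTO : T ⊆ O := hT.trans Finset.sdiff_subset
    have hqT : q ∉ T := fun h => hq (hTO h)
    obtain ⟨O', hO', hs⟩ := exists_octad_five (s := insert q T) (by rw [Finset.card_insert_of_notMem hqT, hT4])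
    have hqO' : q ∈ O' := hs (Finset.mem_insert_self _ _)
    have hTO' : T ⊆ O' := (Finset.subset_insert _ _).trans hs
    have hne : O ≠ O' := by rintro rfl; exact hq hqO'
    have hsub : T ⊆ O ∩ O' := Finset.subset_inter hTO hTO'
    have h4 : (O ∩ O').card = 4 := by
      have := Finset.card_le_card hsub
      rcases octad_inter_octad hO hO' hne with h | h | h <;> omega
    have heq : T = O ∩ O' := Finset.eq_of_subset_of_card_le hsub (by omega)
    have h0 : pt 0 ∉ O' := by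
      intro h
      have h' : pt 0 ∈ T := by rw [heq]; exact Finset.mem_inter.mpr ⟨o0, h⟩
      have := hT h'
      simp at this
    have h1 : pt 1 ∉ O' := by
      intro h
      have h' : pt 1 ∈ T := by rw [heq]; exact Finset.mem_inter.mpr ⟨o1, h⟩
      have := hT h'
      simp at this
    obtain ⟨a1, a2, a3⟩ := aux_oct hO' h0 h1
    refine ⟨_, a1, a2, a3, ?_⟩
    rw [key hO', h, dot_O_O, h4]; norm_num
  · obtain ⟨z, hz⟩ : ∃ z, z ∉ insert (pt 0) C := by
      by_contra hcon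
      push Not at hcon
      have h8 : (insert (pt 0) C).card = 9 := by rw [Finset.card_insert_of_notMem c0, octad_card hC]
      rw [Finset.eq_univ_iff_forall.mpr hcon, card_univ_G] at h8
      norm_num at h8
    rw [Finset.mem_insert, not_or] at hz
    have h15 := ncard_disjoint_through hC hz.2
    obtain ⟨O₁, hO₁, hdis, -⟩ := Set.nonempty_of_ncard_ne_zero (s := {o' : Finset GolayPt | o' ∈ octads ∧ Disjoint C o' ∧ z ∈ o'}) (by rw [h15]; norm_num)
    obtain ⟨O', hO', hd', h0'⟩ : ∃ O' ∈ octads, Disjoint C O' ∧ pt 0 ∉ O' := by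
      by_cases h0 : pt 0 ∈ O₁
      · refine ⟨_, third_octad hC hO₁ hdis, ?_, ?_⟩
        · rw [Finset.disjoint_left]
          intro i hi hi'
          exact Finset.mem_compl.mp hi' (Finset.mem_union_left _ hi)
        · intro h'
          exact Finset.mem_compl.mp h' (Finset.mem_union_right _ h0)
      · exact ⟨O₁, hO₁, hdis, h0⟩
    have h1' : pt 1 ∉ O' := Finset.disjoint_left.mp hd' c1
    obtain ⟨a1, a2, a3⟩ := aux_oct hO' h0' h1'
    refine ⟨_, a1, a2, a3, ?_⟩
    rw [key hO', h, dot_od3 _ c1, sum_ww8 hO', sum_ww_in, Finset.inter_comm, Finset.disjoint_iff_inter_eq_empty.mp hd', Finset.card_empty]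
    unfold ww; rw [if_neg h1']; norm_num

theorem mc_form (v w x : leechLattice) (hv : sqNorm (v : GolayPt → ℤ) = 32) (hw : sqNorm (w : GolayPt → ℤ) = 32) (hvw : dotInt (v : GolayPt → ℤ) w = -8) (hx : x ∈ mcPts v w) :
    ∃ g : Co0, g • v = uA ∧ g • w = u3 ∧ g • x = uE := by
  obtain ⟨g, h1, h2⟩ := trans_T2 v w hv hw hvw
  have hx' : g • x ∈ mcPts uA u3 := by
    have := (mc_mem_smul g).mpr hx
    rwa [h1, h2] at this
  obtain ⟨f, f1, f2, f3, f4⟩ := exists_aux hx'
  obtain ⟨k, k1, k2, k3, -⟩ := mc_red_x f1 f2 f3 hx' f4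
  exact ⟨k * g, by rw [mul_smul, h1, k1], by rw [mul_smul, h2, k2], by rw [mul_smul, k3]⟩

theorem mc_trans {v w x x' : leechLattice} (hv : sqNorm (v : GolayPt → ℤ) = 32) (hw : sqNorm (w : GolayPt → ℤ) = 32) (hvw : dotInt (v : GolayPt → ℤ) w = -8) (hx : x ∈ mcPts v w) (hx' : x' ∈ mcPts v w) :
    ∃ g : Co0, g • v = v ∧ g • w = w ∧ g • x = x' := by
  obtain ⟨g, h1, h2, h3⟩ := mc_form v w x hv hw hvw hx
  obtain ⟨k, k1, k2, k3⟩ := mc_form v w x' hv hw hvw hx'
  exact ⟨k⁻¹ * g, by rw [mul_smul, h1, ← k1, inv_smul_smul], by rw [mul_smul, h2, ← k2, inv_smul_smul], by rw [mul_smul, h3, ← k3, inv_smul_smul]⟩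

/-! ### counting -/

theorem card_thru {s : Finset GolayPt} (hs : s.card ≤ 5) : ((CfsgLib.Steiner.bl octads).filter (fun b => s ⊆ b)).card = CfsgLib.Steiner.lam 24 5 8 s.card := by
  rw [← card_univ_G, Finset.card_univ]
  exact CfsgLib.Steiner.card_containing octads_steiner_bl s hs (by norm_num)

theorem lam1 : CfsgLib.Steiner.lam 24 5 8 1 = 253 := by decide +kernel
theorem lam2 : CfsgLib.Steiner.lam 24 5 8 2 = 77 := by decide +kernel
theorem lam3 : CfsgLib.Steiner.lam 24 5 8 3 = 21 := by decide +kernel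
theorem lam4 : CfsgLib.Steiner.lam 24 5 8 4 = 5 := by decide +kernel

theorem thru1 (p : GolayPt) : ((CfsgLib.Steiner.bl octads).filter (fun b => p ∈ b)).card = 253 := by
  have h := card_thru (s := {p}) (by simp)
  rw [Finset.card_singleton, lam1] at h
  rw [← h]; congr 1; apply Finset.filter_congr; intro b _; simp
theorem thru2 {p q : GolayPt} (h : p ≠ q) : ((CfsgLib.Steiner.bl octads).filter (fun b => p ∈ b ∧ q ∈ b)).card = 77 := by
  have h' := card_thru (s := {p, q}) (by rw [Finset.card_pair h]; norm_num)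
  rw [Finset.card_pair h, lam2] at h'
  rw [← h']; congr 1; apply Finset.filter_congr; intro b _; simp [Finset.insert_subset_iff]
theorem thru3 {p q r : GolayPt} (h : p ≠ q) (h' : p ≠ r) (h'' : q ≠ r) : ((CfsgLib.Steiner.bl octads).filter (fun b => p ∈ b ∧ q ∈ b ∧ r ∈ b)).card = 21 := by
  have hc : ({p, q, r} : Finset GolayPt).card = 3 := Finset.card_eq_three.mpr ⟨p, q, r, h, h', h'', rfl⟩
  have h' := card_thru (s := {p, q, r}) (by rw [hc]; norm_num)
  rw [hc, lam3] at h'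
  rw [← h']; congr 1; apply Finset.filter_congr; intro b _; simp [Finset.insert_subset_iff]
theorem thru1n {p q : GolayPt} (h : p ≠ q) : ((CfsgLib.Steiner.bl octads).filter (fun b => p ∈ b ∧ q ∉ b)).card = 176 := by
  have h1 := Finset.card_filter_add_card_filter_not (s := (CfsgLib.Steiner.bl octads).filter (fun b => p ∈ b)) (fun b => q ∈ b)
  rw [Finset.filter_filter, Finset.filter_filter, thru1, thru2 h] at h1
  omega
theorem thru2n {p q r : GolayPt} (h : p ≠ q) (h' : p ≠ r) (h'' : q ≠ r) : ((CfsgLib.Steiner.bl octads).filter (fun b => (p ∈ b ∧ q ∈ b) ∧ r ∉ b)).card = 56 := by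
  have h1 := Finset.card_filter_add_card_filter_not (s := (CfsgLib.Steiner.bl octads).filter (fun b => p ∈ b ∧ q ∈ b)) (fun b => r ∈ b)
  rw [Finset.filter_filter, Finset.filter_filter, thru2 h] at h1
  have h2 := thru3 h h' h''
  have h3 : ((CfsgLib.Steiner.bl octads).filter (fun b => (p ∈ b ∧ q ∈ b) ∧ r ∈ b)) = ((CfsgLib.Steiner.bl octads).filter (fun b => p ∈ b ∧ q ∈ b ∧ r ∈ b)) := by
    apply Finset.filter_congr; intro b _; tauto
  rw [h3, h2] at h1
  omega

noncomputable section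
open Classical in
/-- the three kinds of points -/
def mF1 : Finset (GolayPt → ℤ) := (univ \ {pt 0, pt 1}).image (fun j => u44 (pt 1) j 4 4)
open Classical in
def mF2 : Finset (GolayPt → ℤ) := ((CfsgLib.Steiner.bl octads).filter (fun b => pt 0 ∈ b ∧ pt 1 ∈ b)).image ww
open Classical in
def mF3 : Finset (GolayPt → ℤ) := ((CfsgLib.Steiner.bl octads).filter (fun b => pt 1 ∈ b ∧ pt 0 ∉ b)).image (fun C => od3 C (pt 1))
end

theorem mem_mF1 {x : GolayPt → ℤ} : x ∈ mF1 ↔ ∃ j, j ≠ pt 0 ∧ j ≠ pt 1 ∧ x = u44 (pt 1) j 4 4 := by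
  classical
  unfold mF1
  rw [Finset.mem_image]
  constructor
  · rintro ⟨j, hj, rfl⟩
    simp only [Finset.mem_sdiff, Finset.mem_univ, true_and, Finset.mem_insert, Finset.mem_singleton, not_or] at hj
    exact ⟨j, hj.1, hj.2, rfl⟩
  · rintro ⟨j, h0, h1, rfl⟩
    exact ⟨j, by simp [h0, h1], rfl⟩
theorem mem_mF2 {x : GolayPt → ℤ} : x ∈ mF2 ↔ ∃ O ∈ octads, pt 0 ∈ O ∧ pt 1 ∈ O ∧ x = ww O := by
  classical
  unfold mF2
  rw [Finset.mem_image]
  constructor
  · rintro ⟨O, hO, rfl⟩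
    rw [Finset.mem_filter, CfsgLib.Steiner.mem_bl] at hO
    exact ⟨O, hO.1, hO.2.1, hO.2.2, rfl⟩
  · rintro ⟨O, hO, h0, h1, rfl⟩
    exact ⟨O, by rw [Finset.mem_filter, CfsgLib.Steiner.mem_bl]; exact ⟨hO, h0, h1⟩, rfl⟩
theorem mem_mF3 {x : GolayPt → ℤ} : x ∈ mF3 ↔ ∃ C ∈ octads, pt 0 ∉ C ∧ pt 1 ∈ C ∧ x = od3 C (pt 1) := by
  classical
  unfold mF3
  rw [Finset.mem_image]
  constructor
  · rintro ⟨O, hO, rfl⟩
    rw [Finset.mem_filter, CfsgLib.Steiner.mem_bl] at hO
    exact ⟨O, hO.1, hO.2.2, hO.2.1, rfl⟩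
  · rintro ⟨O, hO, h0, h1, rfl⟩
    exact ⟨O, by rw [Finset.mem_filter, CfsgLib.Steiner.mem_bl]; exact ⟨hO, h1, h0⟩, rfl⟩

theorem ww_inj {S T : Finset GolayPt} (h : ww S = ww T) : S = T := by
  ext i
  have h1 := congrFun h i
  unfold ww at h1
  constructor
  · intro hi
    by_contra hn
    rw [if_pos hi, if_neg hn] at h1; norm_num at h1
  · intro hi
    by_contra hn
    rw [if_pos hi, if_neg hn] at h1; norm_num at h1

theorem od3_inj {S T : Finset GolayPt} {p : GolayPt} (hS : p ∈ S) (hT : p ∈ T) (h : od3 S p = od3 T p) : S = T := by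
  ext i
  by_cases hip : i = p
  · rw [hip]; exact ⟨fun _ => hT, fun _ => hS⟩
  have h1 := congrFun h i
  constructor
  · intro hi
    by_contra hn
    rw [od3_in hip hi, od3_out hip hn] at h1; norm_num at h1
  · intro hi
    by_contra hn
    rw [od3_in hip hi, od3_out hip hn] at h1; norm_num at h1

theorem mc_ncard (P : (GolayPt → ℤ) → Prop) [DecidablePred P] : {y : leechLattice | y ∈ mcPts uA u3 ∧ P (y : GolayPt → ℤ)}.ncard = (mF1.filter P).card + (mF2.filter P).card + (mF3.filter P).card := by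
  classical
  have h : (Subtype.val : leechLattice → GolayPt → ℤ) '' {y : leechLattice | y ∈ mcPts uA u3 ∧ P (y : GolayPt → ℤ)} = ((mF1.filter P ∪ mF2.filter P ∪ mF3.filter P : Finset (GolayPt → ℤ)) : Set (GolayPt → ℤ)) := by
    ext x
    rw [Finset.mem_coe, Finset.mem_union, Finset.mem_union, Finset.mem_filter, Finset.mem_filter, Finset.mem_filter, mem_mF1, mem_mF2, mem_mF3]
    constructor
    · rintro ⟨y, ⟨hy, hP⟩, rfl⟩
      rcases mc_class hy with h | h | h
      · exact Or.inl (Or.inl ⟨h, hP⟩)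
      · exact Or.inl (Or.inr ⟨h, hP⟩)
      · exact Or.inr ⟨h, hP⟩
    · rintro ((⟨⟨j, h0, h1, rfl⟩, hP⟩ | ⟨⟨O, hO, h0, h1, rfl⟩, hP⟩) | ⟨⟨C, hC, h0, h1, rfl⟩, hP⟩)
      · exact ⟨⟨_, u44_mem h1.symm (Or.inl rfl) (Or.inl rfl)⟩, ⟨mc_mem_J h0 h1 rfl, hP⟩, rfl⟩
      · exact ⟨⟨_, ww_mem hO.1⟩, ⟨mc_mem_O hO h0 h1 rfl, hP⟩, rfl⟩
      · exact ⟨⟨_, od3_mem hC h1⟩, ⟨mc_mem_C hC h0 h1 rfl, hP⟩, rfl⟩
  rw [← Set.ncard_image_of_injective _ Subtype.val_injective, h, Set.ncard_coe_finset, Finset.card_union_of_disjoint, Finset.card_union_of_disjoint]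
  · rw [Finset.disjoint_left]
    intro x hx hx'
    rw [Finset.mem_filter, mem_mF1] at hx
    rw [Finset.mem_filter, mem_mF2] at hx'
    obtain ⟨⟨j, h0, h1, e⟩, -⟩ := hx
    obtain ⟨⟨O, hO, h0', h1', e'⟩, -⟩ := hx'
    rw [e] at e'
    have e2 := congrFun e' (pt 0)
    rw [u44_other pt01 h0.symm] at e2
    unfold ww at e2
    rw [if_pos h0'] at e2
    norm_num at e2
  · rw [Finset.disjoint_left]
    intro x hx hx'
    rw [Finset.mem_filter, mem_mF3] at hx'
    obtain ⟨⟨O, hO, h0', h1', e'⟩, -⟩ := hx'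
    rw [Finset.mem_union, Finset.mem_filter, Finset.mem_filter, mem_mF1, mem_mF2] at hx
    rcases hx with ⟨⟨j, h0, h1, e⟩, -⟩ | ⟨⟨O, hO, h0, h1, e⟩, -⟩
    · rw [e] at e'
      have e2 := congrFun e' (pt 0)
      rw [u44_other pt01 h0.symm, od3_out pt01 h0'] at e2
      norm_num at e2
    · rw [e] at e'
      have e2 := congrFun e' (pt 0)
      rw [od3_out pt01 h0'] at e2
      unfold ww at e2
      rw [if_pos h0] at e2
      norm_num at e2

theorem u44_inj_right {p i j : GolayPt} (hi : i ≠ p) (hj : j ≠ p) (h : u44 p i 4 4 = u44 p j 4 4) : i = j := by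
  by_contra hne
  have h1 := congrFun h i
  rw [u44_right hi.symm, u44_other hi hne] at h1
  norm_num at h1

theorem card_mF1 : mF1.card = 22 := by
  classical
  unfold mF1
  rw [Finset.card_image_of_injOn, Finset.card_sdiff_of_subset (Finset.subset_univ _), card_univ_G, Finset.card_pair pt01]
  intro i hi j hj h
  simp only [Finset.coe_sdiff, Finset.coe_univ, Finset.coe_insert, Finset.coe_singleton, Set.mem_diff, Set.mem_univ, true_and, Set.mem_insert_iff, Set.mem_singleton_iff, not_or] at hi hj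
  exact u44_inj_right hi.2 hj.2 h

theorem card_mF2 (P : (GolayPt → ℤ) → Prop) [DecidablePred P] (Q : Finset GolayPt → Prop) [DecidablePred Q] (h : ∀ O ∈ octads, pt 0 ∈ O → pt 1 ∈ O → (P (ww O) ↔ Q O)) :
    (mF2.filter P).card = ((CfsgLib.Steiner.bl octads).filter (fun b => (pt 0 ∈ b ∧ pt 1 ∈ b) ∧ Q b)).card := by
  classical
  have h1 : mF2.filter P = ((CfsgLib.Steiner.bl octads).filter (fun b => (pt 0 ∈ b ∧ pt 1 ∈ b) ∧ Q b)).image ww := by
    ext x
    rw [Finset.mem_filter, mem_mF2, Finset.mem_image]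
    constructor
    · rintro ⟨⟨O, hO, h0, h1, rfl⟩, hP⟩
      exact ⟨O, by rw [Finset.mem_filter, CfsgLib.Steiner.mem_bl]; exact ⟨hO, ⟨h0, h1⟩, (h O hO h0 h1).mp hP⟩, rfl⟩
    · rintro ⟨O, hO, rfl⟩
      rw [Finset.mem_filter, CfsgLib.Steiner.mem_bl] at hO
      exact ⟨⟨O, hO.1, hO.2.1.1, hO.2.1.2, rfl⟩, (h O hO.1 hO.2.1.1 hO.2.1.2).mpr hO.2.2⟩
  rw [h1, Finset.card_image_of_injective _ (fun S T h => ww_inj h)]

theorem card_mF3 (P : (GolayPt → ℤ) → Prop) [DecidablePred P] (Q : Finset GolayPt → Prop) [DecidablePred Q] (h : ∀ C ∈ octads, pt 0 ∉ C → pt 1 ∈ C → (P (od3 C (pt 1)) ↔ Q C)) :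
    (mF3.filter P).card = ((CfsgLib.Steiner.bl octads).filter (fun b => (pt 1 ∈ b ∧ pt 0 ∉ b) ∧ Q b)).card := by
  classical
  have h1 : mF3.filter P = ((CfsgLib.Steiner.bl octads).filter (fun b => (pt 1 ∈ b ∧ pt 0 ∉ b) ∧ Q b)).image (fun C => od3 C (pt 1)) := by
    ext x
    rw [Finset.mem_filter, mem_mF3, Finset.mem_image]
    constructor
    · rintro ⟨⟨O, hO, h0, h1, rfl⟩, hP⟩
      exact ⟨O, by rw [Finset.mem_filter, CfsgLib.Steiner.mem_bl]; exact ⟨hO, ⟨h1, h0⟩, (h O hO h0 h1).mp hP⟩, rfl⟩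
    · rintro ⟨O, hO, rfl⟩
      rw [Finset.mem_filter, CfsgLib.Steiner.mem_bl] at hO
      exact ⟨⟨O, hO.1, hO.2.1.2, hO.2.1.1, rfl⟩, (h O hO.1 hO.2.1.2 hO.2.1.1).mpr hO.2.2⟩
  rw [h1, Finset.card_image_of_injOn]
  intro S hS T hT h
  rw [Finset.mem_coe, Finset.mem_filter] at hS hT
  exact od3_inj hS.2.1.1 hT.2.1.1 h

theorem ncard_mc_std : (mcPts uA u3).ncard = 275 := by
  classical
  have h := mc_ncard (fun _ => True)
  have e : {y : leechLattice | y ∈ mcPts uA u3 ∧ True} = mcPts uA u3 := by ext y; simp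
  rw [e] at h
  rw [h, card_mF2 _ (fun _ => True) (fun _ _ _ _ => Iff.rfl), card_mF3 _ (fun _ => True) (fun _ _ _ _ => Iff.rfl), Finset.filter_true, card_mF1]
  simp only [and_true]
  rw [thru2 pt01, thru1n pt01.symm]

theorem mc_ncard_smul {v w : leechLattice} (hv : sqNorm (v : GolayPt → ℤ) = 32) (hw : sqNorm (w : GolayPt → ℤ) = 32) (hvw : dotInt (v : GolayPt → ℤ) w = -8) : (mcPts v w).ncard = 275 := by
  obtain ⟨g, h1, h2⟩ := trans_T2 v w hv hw hvw
  refine Eq.trans ?_ ncard_mc_std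
  have h : mcPts uA u3 = (fun x => g • x) '' mcPts v w := by
    ext x
    constructor
    · intro hx
      refine ⟨g⁻¹ • x, ?_, smul_inv_smul g x⟩
      rw [← mc_mem_smul g, smul_inv_smul, h1, h2]; exact hx
    · rintro ⟨x, hx, rfl⟩
      rw [← h1, ← h2]
      exact (mc_mem_smul g).mpr hx
  rw [h, Set.ncard_image_of_injective _ (MulAction.injective g)]

/-- translation of the hypotheses -/
theorem mc_conv {u v : leechLattice} (hu : sqNorm (u : GolayPt → ℤ) = 48) (hv : sqNorm (v : GolayPt → ℤ) = 32 ∧ sqNorm ((u - v) : GolayPt → ℤ) = 32) :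
    sqNorm ((u - v : leechLattice) : GolayPt → ℤ) = 32 ∧ dotInt (v : GolayPt → ℤ) ((u - v : leechLattice) : GolayPt → ℤ) = -8 ∧
      {x : leechLattice | sqNorm (x : GolayPt → ℤ) = 32 ∧ sqNorm ((u - x) : GolayPt → ℤ) = 32 ∧ dotInt (v : GolayPt → ℤ) (x : GolayPt → ℤ) = 16} = mcPts v (u - v) := by
  have hc : ((u - v : leechLattice) : GolayPt → ℤ) = (u : GolayPt → ℤ) - (v : GolayPt → ℤ) := rfl
  obtain ⟨hv, hv'⟩ := hv
  have huv : dotInt (u : GolayPt → ℤ) (v : GolayPt → ℤ) = 24 := by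
    rw [norm_sub, hu, hv] at hv'; omega
  refine ⟨hv', ?_, ?_⟩
  · rw [hc, dot_sub_right, ← sqNorm_eq_dot, hv, dot_symm, huv]; norm_num
  · ext x
    unfold mcPts
    rw [Set.mem_setOf_eq, Set.mem_setOf_eq, hc, dot_sub_left]
    constructor
    · rintro ⟨h1, h2, h3⟩
      rw [norm_sub, hu, h1] at h2
      exact ⟨h1, h3, by omega⟩
    · rintro ⟨h1, h2, h3⟩
      refine ⟨h1, ?_, h2⟩
      rw [norm_sub, hu, h1]; omega

end CfsgLib.Leech
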