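import Mathlib
import Cfsg.Agent.Lib.Leech34

/-!
The McLaughlin group on 275 points: rank three.
-/

set_option autoImplicit false

namespace CfsgLib.Leech

open CfsgLib.Golay Finset Cfsg
open scoped Pointwise

theorem dot_E_J {j : GolayPt} (h1 : j ≠ pt 1) (h2 : j ≠ pt 2) : dotInt (uE : GolayPt → ℤ) (u44 (pt 1) j 4 4) = 16 := by
  rw [uE_val, dot_symm, dot_u44, u44_left h1.symm, u44_other pt12.symm h2.symm]; norm_num

theorem dot_E_E : dotInt (uE : GolayPt → ℤ) (uE : GolayPt → ℤ) = 32 := by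
  rw [← sqNorm_eq_dot, uE_val, norm_u44 pt12 (Or.inl rfl) (Or.inl rfl)]

theorem dot_E_O {O : Finset GolayPt} (h1 : pt 1 ∈ O) : dotInt (uE : GolayPt → ℤ) (ww O) = if pt 2 ∈ O then 16 else 8 := by
  rw [uE_val, dot_symm, dot_u44]; unfold ww; rw [if_pos h1]; split_ifs <;> norm_num

theorem dot_E_C (C : Finset GolayPt) : dotInt (uE : GolayPt → ℤ) (od3 C (pt 1)) = if pt 2 ∈ C then 8 else 16 := by
  rw [uE_val, dot_symm, dot_u44, od3_same]
  by_cases h : pt 2 ∈ C
  · rw [od3_in pt12.symm h, if_pos h]; norm_num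
  · rw [od3_out pt12.symm h, if_neg h]; norm_num

theorem uE_mem : uE ∈ mcPts uA u3 := mc_mem_J pt02.symm pt12.symm rfl

theorem ncard112 : {y : leechLattice | y ∈ mcPts uA u3 ∧ dotInt (uE : GolayPt → ℤ) (y : GolayPt → ℤ) = 8}.ncard = 112 := by
  classical
  rw [mc_ncard (fun y => dotInt (uE : GolayPt → ℤ) y = 8), card_mF2 _ (fun b => pt 2 ∉ b) (by
    intro O _ _ h1
    rw [dot_E_O h1]
    split_ifs with h
    · simp [h]
    · simp [h]), card_mF3 _ (fun b => pt 2 ∈ b) (by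
    intro O _ _ h1
    rw [dot_E_C]
    split_ifs with h
    · simp [h]
    · simp [h]), thru2n pt01 pt02 pt12]
  have h0 : mF1.filter (fun y => dotInt (uE : GolayPt → ℤ) y = 8) = ∅ := by
    rw [Finset.filter_eq_empty_iff]
    intro x hx hd
    rw [mem_mF1] at hx
    obtain ⟨j, h0, h1, rfl⟩ := hx
    by_cases h2 : j = pt 2
    · rw [h2] at hd
      have := dot_E_E
      rw [uE_val] at this hd
      rw [this] at hd
      norm_num at hd
    · rw [dot_E_J h1 h2] at hd; norm_num at hd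
  have h3 : ((CfsgLib.Steiner.bl octads).filter (fun b => (pt 1 ∈ b ∧ pt 0 ∉ b) ∧ pt 2 ∈ b)) = ((CfsgLib.Steiner.bl octads).filter (fun b => (pt 1 ∈ b ∧ pt 2 ∈ b) ∧ pt 0 ∉ b)) := by
    apply Finset.filter_congr; intro b _; tauto
  rw [h0, Finset.card_empty, h3, thru2n pt12 pt01.symm pt02.symm]

theorem mc_dots {y : leechLattice} (hy : y ∈ mcPts uA u3) : y = uE ∨ dotInt (uE : GolayPt → ℤ) (y : GolayPt → ℤ) = 8 ∨ dotInt (uE : GolayPt → ℤ) (y : GolayPt → ℤ) = 16 := by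
  rcases mc_class hy with ⟨j, j0, j1, h⟩ | ⟨O, hO, o0, o1, h⟩ | ⟨C, hC, c0, c1, h⟩
  · by_cases h2 : j = pt 2
    · left; apply Subtype.ext; rw [h, h2, uE_val]
    · right; right; rw [h, dot_E_J j1 h2]
  · right; rw [h, dot_E_O o1]; split_ifs <;> simp
  · right; rw [h, dot_E_C]; split_ifs <;> simp

theorem mc_finite (u y : leechLattice) : (mcPts u y).Finite := by
  apply Set.Finite.subset (Finset.finite_toSet (Fs 32))
  intro x hx
  rw [Finset.mem_coe, mem_Fs]
  exact hx.1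

theorem ncard162 : {y : leechLattice | y ∈ mcPts uA u3 ∧ y ≠ uE ∧ dotInt (uE : GolayPt → ℤ) (y : GolayPt → ℤ) = 16}.ncard = 162 := by
  have h : {y : leechLattice | y ∈ mcPts uA u3 ∧ y ≠ uE ∧ dotInt (uE : GolayPt → ℤ) (y : GolayPt → ℤ) = 16} =
      (mcPts uA u3 \ {uE}) \ {y : leechLattice | y ∈ mcPts uA u3 ∧ dotInt (uE : GolayPt → ℤ) (y : GolayPt → ℤ) = 8} := by
    ext y
    simp only [Set.mem_setOf_eq, Set.mem_diff, Set.mem_singleton_iff]
    constructor
    · rintro ⟨h1, h2, h3⟩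
      refine ⟨⟨h1, h2⟩, ?_⟩
      rintro ⟨-, h4⟩
      omega
    · rintro ⟨⟨h1, h2⟩, h3⟩
      refine ⟨h1, h2, ?_⟩
      rcases mc_dots h1 with h | h | h
      · exact absurd h h2
      · exact absurd ⟨h1, h⟩ h3
      · exact h
  have hfin := mc_finite uA u3
  rw [h, Set.ncard_diff _ (hfin.subset (fun y hy => hy.1)), ncard112, Set.ncard_diff_singleton_of_mem uE_mem, ncard_mc_std]
  rintro y ⟨hy, hd⟩
  refine ⟨hy, ?_⟩
  rintro rfl
  rw [dot_E_E] at hd; norm_num at hd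

/-- auxiliary octad vector with two positive signs -/
theorem aux_w2 {O : Finset GolayPt} (hO : O ∈ octads) (h0 : pt 0 ∈ O) (h1 : pt 1 ∈ O) (h2 : pt 2 ∈ O) {q : GolayPt} (hq : q ∈ O) (q0 : q ≠ pt 0) (q1 : q ≠ pt 1) (q2 : q ≠ pt 2) :
    ∃ f : leechLattice, (f : GolayPt → ℤ) = (uA : GolayPt → ℤ) + w2 O (O \ {pt 0, q}) ∧ sqNorm (f : GolayPt → ℤ) = 64 ∧ dotInt (uA : GolayPt → ℤ) f = 32 ∧ dotInt (u3 : GolayPt → ℤ) f = -24 ∧ dotInt (uE : GolayPt → ℤ) f = 0 := by
  have hsub : ({pt 0, q} : Finset GolayPt) ⊆ O := by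
    intro i hi; simp only [Finset.mem_insert, Finset.mem_singleton] at hi; rcases hi with rfl | rfl <;> assumption
  have hcT : (O \ {pt 0, q}).card = 6 := by rw [Finset.card_sdiff_of_subset hsub, octad_card hO, Finset.card_pair q0.symm]
  have hm : w2 O (O \ {pt 0, q}) ∈ leechLattice := w2_mem hO Finset.sdiff_subset (by rw [hcT])
  have v0 : w2 O (O \ {pt 0, q}) (pt 0) = 2 := by
    unfold w2; rw [if_pos h0, if_neg]; simp
  have v1 : w2 O (O \ {pt 0, q}) (pt 1) = -2 := by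
    unfold w2; rw [if_pos h1, if_pos]; simp [h1, pt01.symm, q1.symm]
  have v2 : w2 O (O \ {pt 0, q}) (pt 2) = -2 := by
    unfold w2; rw [if_pos h2, if_pos]; simp [h2, pt02.symm, q2.symm]
  have hs : ∑ i, w2 O (O \ {pt 0, q}) i = -8 := by
    have h3 := dot_w2 (fun _ => 1) O (O \ {pt 0, q})
    unfold dotInt at h3
    simp only [one_mul] at h3
    rw [h3, ← Finset.sum_sdiff hsub, Finset.sum_congr rfl (g := fun _ => (-2 : ℤ)) (fun i hi => by rw [if_pos hi]), Finset.sum_const, hcT, Finset.sum_congr rfl (s₁ := ({pt 0, q} : Finset GolayPt)) (g := fun _ => (2 : ℤ)) (fun i hi => by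
      rw [if_neg]
      intro h; exact (Finset.mem_sdiff.mp h).2 hi), Finset.sum_const, Finset.card_pair q0.symm]
    norm_num
  have hA : dotInt (uA : GolayPt → ℤ) (w2 O (O \ {pt 0, q})) = 0 := by rw [uA_val, dot_symm, dot_u44, v0, v1]; norm_num
  have h3 : dotInt (u3 : GolayPt → ℤ) (w2 O (O \ {pt 0, q})) = -16 := by rw [u3_val, dot_uo, hs, v0]; norm_num
  have hE : dotInt (uE : GolayPt → ℤ) (w2 O (O \ {pt 0, q})) = -16 := by rw [uE_val, dot_symm, dot_u44, v1, v2]; norm_num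
  refine ⟨uA + ⟨_, hm⟩, rfl, ?_, ?_, ?_, ?_⟩
  · show sqNorm ((uA : GolayPt → ℤ) + w2 O (O \ {pt 0, q})) = 64
    rw [norm_add, norm_uA, norm_w2 hO, hA]; norm_num
  · show dotInt _ ((uA : GolayPt → ℤ) + w2 O (O \ {pt 0, q})) = 32
    rw [dot_add_right, ← sqNorm_eq_dot, norm_uA, hA]; norm_num
  · show dotInt _ ((uA : GolayPt → ℤ) + w2 O (O \ {pt 0, q})) = -24
    rw [dot_add_right, dot_symm, dot_A3, h3]; norm_num
  · show dotInt _ ((uA : GolayPt → ℤ) + w2 O (O \ {pt 0, q})) = 0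
    rw [dot_add_right, hE, uE_val, uA_val, dot_u44, u44_other pt01 pt02, u44_left pt12]; norm_num

theorem sum_w2_in {O C : Finset GolayPt} {T : Finset GolayPt} (h : O ∩ C ⊆ T) : ∑ i ∈ C, w2 O T i = -(2 * ((O ∩ C).card : ℤ)) := by
  have h1 : ∑ i ∈ C, w2 O T i = ∑ i ∈ C, (if i ∈ O then (-2 : ℤ) else 0) := by
    apply Finset.sum_congr rfl
    intro i hi
    unfold w2
    by_cases hO : i ∈ O
    · rw [if_pos hO, if_pos hO, if_pos (h (Finset.mem_inter.mpr ⟨hO, hi⟩))]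
    · rw [if_neg hO, if_neg hO]
  rw [h1, ← Finset.sum_filter, Finset.sum_const, Finset.filter_mem_eq_inter, Finset.inter_comm, nsmul_eq_mul]; ring

theorem aux112 {y : leechLattice} (hy : y ∈ mcPts uA u3) (hd : dotInt (uE : GolayPt → ℤ) (y : GolayPt → ℤ) = 8) :
    ∃ f : leechLattice, sqNorm (f : GolayPt → ℤ) = 64 ∧ dotInt (uA : GolayPt → ℤ) f = 32 ∧ dotInt (u3 : GolayPt → ℤ) f = -24 ∧ dotInt (uE : GolayPt → ℤ) f = 0 ∧ dotInt (y : GolayPt → ℤ) f = 16 := by
  rcases mc_class hy with ⟨j, j0, j1, h⟩ | ⟨O, hO, o0, o1, h⟩ | ⟨C, hC, c0, c1, h⟩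
  · exfalso
    by_cases h2 : j = pt 2
    · have : y = uE := Subtype.ext (by rw [h, h2, uE_val])
      rw [this, dot_E_E] at hd; norm_num at hd
    · rw [h, dot_E_J j1 h2] at hd; norm_num at hd
  · refine ⟨e8 (pt 0), norm_e8 _, ?_, ?_, ?_, ?_⟩
    · rw [dot_e8, uA_val, u44_left pt01]; norm_num
    · rw [dot_e8, u3_val, uo_same]; norm_num
    · rw [dot_e8, uE_val, u44_other pt01 pt02]; norm_num
    · rw [dot_e8, h]; unfold ww; rw [if_pos o0]; norm_num
  · have c2 : pt 2 ∈ C := by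
      by_contra h2
      rw [h, dot_E_C, if_neg h2] at hd; norm_num at hd
    obtain ⟨a, b, ha, hb, hab⟩ := two_of_card (card_rest (S := C) {pt 1, pt 2} 2 (by rw [octad_card hC, Finset.card_pair pt12]; norm_num))
    rw [Finset.mem_sdiff, Finset.mem_insert, Finset.mem_singleton, not_or] at ha hb
    obtain ⟨O, hO, hs⟩ := exists_octad_five (s := {pt 0, pt 1, pt 2, a, b}) (Finset.card_le_five)
    have o0 : pt 0 ∈ O := hs (by simp)
    have o1 : pt 1 ∈ O := hs (by simp)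
    have o2 : pt 2 ∈ O := hs (by simp)
    have oa : a ∈ O := hs (by simp)
    have ob : b ∈ O := hs (by simp)
    have hne : O ≠ C := by rintro rfl; exact c0 o0
    have hcard : 4 ≤ (O ∩ C).card := by
      have hsub : ({pt 1, pt 2, a, b} : Finset GolayPt) ⊆ O ∩ C := by
        intro i hi
        simp only [Finset.mem_insert, Finset.mem_singleton] at hi
        rw [Finset.mem_inter]
        rcases hi with rfl | rfl | rfl | rfl
        · exact ⟨o1, c1⟩
        · exact ⟨o2, c2⟩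
        · exact ⟨oa, ha.1⟩
        · exact ⟨ob, hb.1⟩
      have h4 : ({pt 1, pt 2, a, b} : Finset GolayPt).card = 4 := by
        rw [Finset.card_insert_of_notMem, Finset.card_insert_of_notMem, Finset.card_pair hab]
        · simp only [Finset.mem_insert, Finset.mem_singleton, not_or]; exact ⟨fun h => ha.2.2 h.symm, fun h => hb.2.2 h.symm⟩
        · simp only [Finset.mem_insert, Finset.mem_singleton, not_or]; exact ⟨pt12, fun h => ha.2.1 h.symm, fun h => hb.2.1 h.symm⟩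
      have := Finset.card_le_card hsub
      omega
    have h4 : (O ∩ C).card = 4 := by
      rcases octad_inter_octad hO hC hne with h | h | h <;> omega
    obtain ⟨q, hq⟩ : ((O \ (O ∩ C)) \ {pt 0}).Nonempty := by
      rw [← Finset.card_pos]
      have h5 : (O \ (O ∩ C)).card = 4 := by rw [Finset.card_sdiff_of_subset Finset.inter_subset_left, octad_card hO, h4]
      have := Finset.le_card_sdiff ({pt 0} : Finset GolayPt) (O \ (O ∩ C))
      rw [Finset.card_singleton] at this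
      omega
    rw [Finset.mem_sdiff, Finset.mem_sdiff, Finset.mem_inter, Finset.mem_singleton] at hq
    obtain ⟨⟨hqO, hqC⟩, hq0⟩ := hq
    have hqC : q ∉ C := fun h => hqC ⟨hqO, h⟩
    obtain ⟨f, hf, f1, f2, f3, f4⟩ := aux_w2 hO o0 o1 o2 hqO hq0 (by rintro rfl; exact hqC c1) (by rintro rfl; exact hqC c2)
    refine ⟨f, f1, f2, f3, f4, ?_⟩
    have hy16 := hy.2.1
    rw [hf, dot_add_right, dot_symm, hy16, h, dot_od3 _ c1]
    have v1 : w2 O (O \ {pt 0, q}) (pt 1) = -2 := by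
      unfold w2; rw [if_pos o1, if_pos]
      simp only [Finset.mem_sdiff, Finset.mem_insert, Finset.mem_singleton, not_or]
      exact ⟨o1, pt01.symm, by rintro rfl; exact hqC c1⟩
    have hsum : ∑ i, w2 O (O \ {pt 0, q}) i = -8 := by
      have e := f3
      rw [hf, dot_add_right, dot_symm, dot_A3, u3_val, dot_uo] at e
      have v0 : w2 O (O \ {pt 0, q}) (pt 0) = 2 := by
        unfold w2; rw [if_pos o0, if_neg]; simp
      rw [v0] at e
      omega
    have hC' : ∑ i ∈ C, w2 O (O \ {pt 0, q}) i = -8 := by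
      rw [sum_w2_in, h4]
      · norm_num
      · intro i hi
        rw [Finset.mem_inter] at hi
        simp only [Finset.mem_sdiff, Finset.mem_insert, Finset.mem_singleton, not_or]
        exact ⟨hi.1, by rintro rfl; exact c0 hi.2, by rintro rfl; exact hqC hi.2⟩
    rw [v1, hsum, hC']; norm_num

theorem exists_E {C : Finset GolayPt} (hC : C ∈ octads) (h0 : pt 0 ∉ C) (h1 : pt 1 ∈ C) (h2 : pt 2 ∉ C) : ∃ E ∈ octads, pt 0 ∈ E ∧ pt 2 ∈ E ∧ pt 1 ∉ E ∧ (E ∩ C).card = 4 := by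
  obtain ⟨T, hT, hT4⟩ := Finset.exists_subset_card_eq (card_rest (S := C) {pt 1} 4 (by rw [octad_card hC, Finset.card_singleton]; norm_num))
  have hTC : T ⊆ C := hT.trans Finset.sdiff_subset
  have hT1 : pt 1 ∉ T := fun h => by have := hT h; simp at this
  have key : ∀ d ∈ T, ∃ E ∈ octads, pt 0 ∈ E ∧ pt 2 ∈ E ∧ T.erase d ⊆ E ∧ (E ∩ C).card = 4 := by
    intro d hd
    have h3 : (T.erase d).card = 3 := by rw [Finset.card_erase_of_mem hd, hT4]
    obtain ⟨E, hE, hs⟩ := exists_octad_five (s := insert (pt 0) (insert (pt 2) (T.erase d))) (by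
      have h5 := Finset.card_insert_le (pt 0) (insert (pt 2) (T.erase d))
      have h6 := Finset.card_insert_le (pt 2) (T.erase d)
      omega)
    have e0 : pt 0 ∈ E := hs (by simp)
    have e2 : pt 2 ∈ E := hs (by simp)
    have eT : T.erase d ⊆ E := ((Finset.subset_insert _ _).trans (Finset.subset_insert _ _)).trans hs
    refine ⟨E, hE, e0, e2, eT, ?_⟩
    have hne : E ≠ C := by rintro rfl; exact h0 e0
    have h7 : 3 ≤ (E ∩ C).card := by
      rw [← h3]
      exact Finset.card_le_card (Finset.subset_inter eT ((Finset.erase_subset _ _).trans hTC))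
    rcases octad_inter_octad hE hC hne with h | h | h <;> omega
  obtain ⟨d, hd⟩ : T.Nonempty := Finset.card_pos.mp (by omega)
  obtain ⟨a, ha⟩ : (T.erase d).Nonempty := Finset.card_pos.mp (by rw [Finset.card_erase_of_mem hd]; omega)
  obtain ⟨E₁, hE₁, a0, a2, aT, a4⟩ := key d hd
  by_cases ha1 : pt 1 ∈ E₁
  · obtain ⟨E₂, hE₂, b0, b2, bT, b4⟩ := key a (Finset.mem_of_mem_erase ha)
    refine ⟨E₂, hE₂, b0, b2, ?_, b4⟩
    intro hb1
    have hnot : ∀ x ∈ T, x ≠ pt 0 ∧ x ≠ pt 1 ∧ x ≠ pt 2 := fun x hx => ⟨by rintro rfl; exact h0 (hTC hx), by rintro rfl; exact hT1 hx, by rintro rfl; exact h2 (hTC hx)⟩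
    have h5 : 5 ≤ (E₁ ∩ E₂).card := by
      have hsub : insert (pt 0) (insert (pt 1) (insert (pt 2) ((T.erase d).erase a))) ⊆ E₁ ∩ E₂ := by
        intro i hi
        simp only [Finset.mem_insert] at hi
        rw [Finset.mem_inter]
        rcases hi with rfl | rfl | rfl | hi
        · exact ⟨a0, b0⟩
        · exact ⟨ha1, hb1⟩
        · exact ⟨a2, b2⟩
        · refine ⟨aT (Finset.mem_of_mem_erase hi), bT ?_⟩
          rw [Finset.mem_erase, Finset.mem_erase] at hi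
          exact Finset.mem_erase.mpr ⟨hi.1, hi.2.2⟩
      have hc : (insert (pt 0) (insert (pt 1) (insert (pt 2) ((T.erase d).erase a)))).card = 5 := by
        have hx : ∀ x ∈ (T.erase d).erase a, x ∈ T := fun x hx => Finset.mem_of_mem_erase (Finset.mem_of_mem_erase hx)
        rw [Finset.card_insert_of_notMem, Finset.card_insert_of_notMem, Finset.card_insert_of_notMem, Finset.card_erase_of_mem ha, Finset.card_erase_of_mem hd, hT4]
        · intro h; exact (hnot _ (hx _ h)).2.2 rfl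
        · rw [Finset.mem_insert, not_or]; exact ⟨pt12, fun h => (hnot _ (hx _ h)).2.1 rfl⟩
        · rw [Finset.mem_insert, Finset.mem_insert, not_or, not_or]; exact ⟨pt01, pt02, fun h => (hnot _ (hx _ h)).1 rfl⟩
      rw [← hc]; exact Finset.card_le_card hsub
    have heq := eq_of_five hE₁ hE₂ h5
    have h6 : insert (pt 1) T ⊆ E₁ ∩ C := by
      intro i hi
      rw [Finset.mem_insert] at hi
      rw [Finset.mem_inter]
      rcases hi with rfl | hi
      · exact ⟨ha1, h1⟩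
      · refine ⟨?_, hTC hi⟩
        by_cases hid : i = d
        · rw [heq]; apply bT; rw [Finset.mem_erase]; exact ⟨by rw [hid]; rintro rfl; exact (Finset.mem_erase.mp ha).1 rfl, hi⟩
        · exact aT (Finset.mem_erase.mpr ⟨hid, hi⟩)
    have h7 := Finset.card_le_card h6
    rw [Finset.card_insert_of_notMem hT1] at h7
    omega
  · exact ⟨E₁, hE₁, a0, a2, ha1, a4⟩

theorem aux162 {y : leechLattice} (hy : y ∈ mcPts uA u3) (hne : y ≠ uE) (hd : dotInt (uE : GolayPt → ℤ) (y : GolayPt → ℤ) ≠ 8) :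
    ∃ f : leechLattice, sqNorm (f : GolayPt → ℤ) = 64 ∧ dotInt (uA : GolayPt → ℤ) f = 32 ∧ dotInt (u3 : GolayPt → ℤ) f = -24 ∧ dotInt (uE : GolayPt → ℤ) f = 0 ∧ dotInt (y : GolayPt → ℤ) f = 0 := by
  have hy16 := hy.2.1
  rcases mc_class hy with ⟨j, j0, j1, h⟩ | ⟨O, hO, o0, o1, h⟩ | ⟨C, hC, c0, c1, h⟩
  · refine ⟨e8 (pt 0), norm_e8 _, ?_, ?_, ?_, ?_⟩
    · rw [dot_e8, uA_val, u44_left pt01]; norm_num
    · rw [dot_e8, u3_val, uo_same]; norm_num
    · rw [dot_e8, uE_val, u44_other pt01 pt02]; norm_num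
    · rw [dot_e8, h, u44_other pt01 j0.symm]; norm_num
  · have o2 : pt 2 ∈ O := by
      by_contra h2
      rw [h, dot_E_O o1, if_neg h2] at hd; exact hd rfl
    obtain ⟨q, hq⟩ : (O \ {pt 0, pt 1, pt 2}).Nonempty := by
      rw [← Finset.card_pos]
      have := card_rest (S := O) {pt 0, pt 1, pt 2} 1 (by
        have := Finset.card_le_three (a := pt 0) (b := pt 1) (c := pt 2)
        rw [octad_card hO]; omega)
      omega
    simp only [Finset.mem_sdiff, Finset.mem_insert, Finset.mem_singleton, not_or] at hq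
    obtain ⟨f, hf, f1, f2, f3, f4⟩ := aux_w2 hO o0 o1 o2 hq.1 hq.2.1 hq.2.2.1 hq.2.2.2
    refine ⟨f, f1, f2, f3, f4, ?_⟩
    have hsum : ∑ i, w2 O (O \ {pt 0, q}) i = -8 := by
      have e := f3
      rw [hf, dot_add_right, dot_symm, dot_A3, u3_val, dot_uo] at e
      have v0 : w2 O (O \ {pt 0, q}) (pt 0) = 2 := by
        unfold w2; rw [if_pos o0, if_neg]; simp
      rw [v0] at e
      omega
    have hww : dotInt (ww O) (w2 O (O \ {pt 0, q})) = 2 * ∑ i, w2 O (O \ {pt 0, q}) i := by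
      unfold dotInt
      rw [Finset.mul_sum]
      apply Finset.sum_congr rfl
      intro i _
      unfold ww w2
      by_cases hi : i ∈ O
      · rw [if_pos hi]
      · rw [if_neg hi, if_neg hi]; ring
    rw [hf, dot_add_right, dot_symm, hy16, h, hww, hsum]; norm_num
  · have c2 : pt 2 ∉ C := by
      intro h2
      rw [h, dot_E_C, if_pos h2] at hd; exact hd rfl
    obtain ⟨E, hE, e0, e2, e1, e4⟩ := exists_E hC c0 c1 c2
    have hc : ((uA - ⟨od3 E (pt 2), od3_mem hE e2⟩ : leechLattice) : GolayPt → ℤ) = (uA : GolayPt → ℤ) - od3 E (pt 2) := rfl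
    have v0 : od3 E (pt 2) (pt 0) = -1 := od3_in pt02 e0
    have v1 : od3 E (pt 2) (pt 1) = 1 := od3_out pt12 e1
    have v2 : od3 E (pt 2) (pt 2) = 3 := od3_same _ _
    have hA : dotInt (uA : GolayPt → ℤ) (od3 E (pt 2)) = 0 := by rw [uA_val, dot_symm, dot_u44, v0, v1]; norm_num
    refine ⟨uA - ⟨od3 E (pt 2), od3_mem hE e2⟩, ?_, ?_, ?_, ?_, ?_⟩
    · rw [hc, norm_sub, norm_uA, norm_od3, hA]; norm_num
    · rw [hc, dot_sub_right, ← sqNorm_eq_dot, norm_uA, hA]; norm_num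
    · rw [hc, dot_sub_right, dot_symm, dot_A3, u3_val, dot_uo, sum_od3 hE e2, v0]; norm_num
    · rw [hc, dot_sub_right, uE_val, dot_symm _ (od3 E (pt 2)), dot_u44, v1, v2, uA_val, dot_u44, u44_other pt01 pt02, u44_left pt12]; norm_num
    · have hs : ∑ i ∈ E, od3 C (pt 1) i = 0 := by
        have h5 : ∀ i ∈ E, od3 C (pt 1) i = 1 + (-2) * (if i ∈ C then 1 else 0) := by
          intro i hi
          rw [od3_eq c1, if_neg (c := i = pt 1) (by rintro rfl; exact e1 hi)]; ring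
        rw [Finset.sum_congr rfl h5, Finset.sum_add_distrib, ← Finset.mul_sum, Finset.sum_const, octad_card hE, ← Finset.sum_filter, Finset.sum_const, Finset.filter_mem_eq_inter, e4]
        norm_num
      rw [hc, dot_sub_right, dot_symm, hy16, h, dot_symm, dot_od3 _ e2, sum_od3 hC c1, hs, od3_out pt12.symm c2]; norm_num

/-- transitivity on octads through two points missing a third -/
theorem octad_trans21 {O O' : Finset GolayPt} {a b c : GolayPt} (hab : a ≠ b) (hO : O ∈ octads) (hO' : O' ∈ octads) (h0 : a ∈ O) (h1 : b ∈ O) (h2 : c ∉ O) (h0' : a ∈ O') (h1' : b ∈ O') (h2' : c ∉ O') :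
    ∃ σ ∈ M24, σ a = a ∧ σ b = b ∧ σ c = c ∧ σ • O = O' := by
  have key : ∀ {O : Finset GolayPt}, O ∈ octads → a ∈ O → b ∈ O → c ∉ O → ∃ g ∈ M24, g • O = O0 ∧ g a = pt 0 ∧ g b = pt 1 ∧ g c = pt 5 := by
    intro O hO h0 h1 h2
    obtain ⟨l, hl, hlen, hmem⟩ := exists_extend_in O 6 (by rw [octad_card hO]; norm_num) [a, b] (by simp [hab]) (by
      intro x hx; simp only [List.mem_cons, List.not_mem_nil, or_false] at hx; rcases hx with rfl | rfl <;> assumption) (by simp)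
    obtain ⟨g, hg, g1, g2, g3⟩ := frame_list hO hl hlen hmem h2
    simp only [List.map_append, List.map_cons, List.map_nil, List.cons_append, List.nil_append, List.cons.injEq] at g2
    exact ⟨g, hg, g1, g2.1, g2.2.1, g3⟩
  obtain ⟨g, hg, g1, g2, g3, g4⟩ := key hO h0 h1 h2
  obtain ⟨k, hk, k1, k2, k3, k4⟩ := key hO' h0' h1' h2'
  refine ⟨k⁻¹ * g, Subgroup.mul_mem _ (Subgroup.inv_mem _ hk) hg, combine_pt g2 k2, combine_pt g3 k3, combine_pt g4 k4, ?_⟩
  rw [mul_smul, g1, ← k1, inv_smul_smul]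

theorem mc_rank3_std {y y' : leechLattice} (hy : y ∈ mcPts uA u3) (hy' : y' ∈ mcPts uA u3) (hn : y ≠ uE) (hn' : y' ≠ uE)
    (h : dotInt (uE : GolayPt → ℤ) (y : GolayPt → ℤ) = dotInt (uE : GolayPt → ℤ) (y' : GolayPt → ℤ)) : ∃ g : Co0, g • uA = uA ∧ g • u3 = u3 ∧ g • uE = uE ∧ g • y = y' := by
  -- elements of M24 fixing three points
  have hm : ∀ {σ : Equiv.Perm GolayPt} (hσ : σ ∈ M24), σ (pt 0) = pt 0 → σ (pt 1) = pt 1 → σ (pt 2) = pt 2 → (mono hσ empty_mem • uA = uA ∧ mono hσ empty_mem • u3 = u3 ∧ mono hσ empty_mem • uE = uE) := by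
    intro σ hσ s0 s1 s2
    refine ⟨?_, ?_, ?_⟩
    · apply Subtype.ext; rw [mono_smul, uA_val, spE_u44, s0, s1, if_neg (Finset.notMem_empty _), if_neg (Finset.notMem_empty _)]
    · apply Subtype.ext; rw [mono_smul, u3_val, spE_uo _ _ s0]
    · apply Subtype.ext; rw [mono_smul, uE_val, spE_u44, s1, s2, if_neg (Finset.notMem_empty _), if_neg (Finset.notMem_empty _)]
  have fin : ∀ {z z' : leechLattice} {g g' k : Co0}, (g • uA = uA ∧ g • u3 = u3 ∧ g • uE = uE) → (g' • uA = uA ∧ g' • u3 = u3 ∧ g' • uE = uE) → (k • uA = uA ∧ k • u3 = u3 ∧ k • uE = uE) →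
      k • g • z = g' • z' → ∃ g : Co0, g • uA = uA ∧ g • u3 = u3 ∧ g • uE = uE ∧ g • z = z' := by
    intro z z' g g' k hg hg' hk he
    refine ⟨g'⁻¹ * k * g, ?_, ?_, ?_, ?_⟩
    · rw [mul_smul, mul_smul, hg.1, hk.1]; nth_rewrite 1 [← hg'.1]; rw [inv_smul_smul]
    · rw [mul_smul, mul_smul, hg.2.1, hk.2.1]; nth_rewrite 1 [← hg'.2.1]; rw [inv_smul_smul]
    · rw [mul_smul, mul_smul, hg.2.2, hk.2.2]; nth_rewrite 1 [← hg'.2.2]; rw [inv_smul_smul]
    · rw [mul_smul, mul_smul, he, inv_smul_smul]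
  by_cases h8 : dotInt (uE : GolayPt → ℤ) (y : GolayPt → ℤ) = 8
  · have h8' := h8
    rw [h] at h8'
    have key : ∀ {y : leechLattice}, y ∈ mcPts uA u3 → dotInt (uE : GolayPt → ℤ) (y : GolayPt → ℤ) = 8 → ∃ g : Co0, (g • uA = uA ∧ g • u3 = u3 ∧ g • uE = uE) ∧ ∃ O ∈ octads, pt 0 ∈ O ∧ pt 1 ∈ O ∧ pt 2 ∉ O ∧ ((g • y : leechLattice) : GolayPt → ℤ) = ww O := by
      intro y hy hd
      obtain ⟨f, f1, f2, f3, f4, f5⟩ := aux112 hy hd
      obtain ⟨g, g1, g2, g3, g4⟩ := mc_red_x f1 f2 f3 uE_mem f4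
      refine ⟨g, ⟨g1, g2, g3⟩, ?_⟩
      have hgy : g • y ∈ mcPts uA u3 := by have := (mc_mem_smul g).mpr hy; rwa [g1, g2] at this
      have hv : ((g • y : leechLattice) : GolayPt → ℤ) (pt 0) = 2 := by
        have := co_dot g y f
        rw [g4, dot_e8, f5] at this; omega
      have hd' : dotInt (uE : GolayPt → ℤ) ((g • y : leechLattice) : GolayPt → ℤ) = 8 := by
        have := co_dot g uE y
        rw [g3, hd] at this; exact this
      rcases mc_class hgy with ⟨j, j0, j1, h⟩ | ⟨O, hO, o0, o1, h⟩ | ⟨C, hC, c0, c1, h⟩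
      · exfalso; rw [h, u44_other pt01 j0.symm] at hv; omega
      · refine ⟨O, hO, o0, o1, ?_, h⟩
        intro h2
        rw [h, dot_E_O o1, if_pos h2] at hd'; omega
      · exfalso; rw [h, od3_out pt01 c0] at hv; omega
    obtain ⟨g, hg, O, hO, o0, o1, o2, e⟩ := key hy h8
    obtain ⟨g', hg', O', hO', o0', o1', o2', e'⟩ := key hy' h8'
    obtain ⟨σ, hσ, s0, s1, s2, s3⟩ := octad_trans21 pt01 hO hO' o0 o1 o2 o0' o1' o2'
    refine fin hg hg' (hm hσ s0 s1 s2) ?_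
    apply Subtype.ext
    rw [mono_smul, e, e', spE_ww, s3]
  · have h8' := h8
    rw [h] at h8'
    have key : ∀ {y : leechLattice}, y ∈ mcPts uA u3 → y ≠ uE → dotInt (uE : GolayPt → ℤ) (y : GolayPt → ℤ) ≠ 8 → ∃ g : Co0, (g • uA = uA ∧ g • u3 = u3 ∧ g • uE = uE) ∧ ∃ j, j ≠ pt 0 ∧ j ≠ pt 1 ∧ j ≠ pt 2 ∧ ((g • y : leechLattice) : GolayPt → ℤ) = u44 (pt 1) j 4 4 := by
      intro y hy hn hd
      obtain ⟨f, f1, f2, f3, f4, f5⟩ := aux162 hy hn hd
      obtain ⟨g, g1, g2, g3, g4⟩ := mc_red_x f1 f2 f3 uE_mem f4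
      refine ⟨g, ⟨g1, g2, g3⟩, ?_⟩
      have hgy : g • y ∈ mcPts uA u3 := by have := (mc_mem_smul g).mpr hy; rwa [g1, g2] at this
      have hv : ((g • y : leechLattice) : GolayPt → ℤ) (pt 0) = 0 := by
        have := co_dot g y f
        rw [g4, dot_e8, f5] at this; omega
      rcases mc_class hgy with ⟨j, j0, j1, h⟩ | ⟨O, hO, o0, o1, h⟩ | ⟨C, hC, c0, c1, h⟩
      · refine ⟨j, j0, j1, ?_, h⟩
        rintro rfl
        apply hn
        have : g • y = g • uE := by rw [g3]; exact Subtype.ext h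
        exact MulAction.injective g this
      · exfalso; rw [h] at hv; unfold ww at hv; rw [if_pos o0] at hv; omega
      · exfalso; rw [h, od3_out pt01 c0] at hv; omega
    obtain ⟨g, hg, j, j0, j1, j2, e⟩ := key hy hn h8
    obtain ⟨g', hg', k, k0, k1, k2, e'⟩ := key hy' hn' h8'
    obtain ⟨σ, hσ, hσl⟩ := trans_list (l := [pt 0, pt 1, pt 2, j]) (l' := [pt 0, pt 1, pt 2, k]) (by simp [pt01, pt02, pt12, j0.symm, j1.symm, j2.symm]) (by simp [pt01, pt02, pt12, k0.symm, k1.symm, k2.symm]) rfl (by simp)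
    simp only [List.map_cons, List.map_nil, List.cons.injEq, and_true] at hσl
    obtain ⟨s0, s1, s2, s3⟩ := hσl
    refine fin hg hg' (hm hσ s0 s1 s2) ?_
    apply Subtype.ext
    rw [mono_smul, e, e', spE_u44, s1, s3, if_neg (Finset.notMem_empty _), if_neg (Finset.notMem_empty _)]

theorem mc_rank3 {v w x : leechLattice} (hv : sqNorm (v : GolayPt → ℤ) = 32) (hw : sqNorm (w : GolayPt → ℤ) = 32) (hvw : dotInt (v : GolayPt → ℤ) w = -8) (hx : x ∈ mcPts v w) :
    {z : leechLattice | z ∈ mcPts v w ∧ dotInt (x : GolayPt → ℤ) (z : GolayPt → ℤ) = 8}.ncard = 112 ∧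
    {z : leechLattice | z ∈ mcPts v w ∧ z ≠ x ∧ dotInt (x : GolayPt → ℤ) (z : GolayPt → ℤ) = 16}.ncard = 162 ∧
    ∀ z ∈ mcPts v w, ∀ z' ∈ mcPts v w, z ≠ x → z' ≠ x → dotInt (x : GolayPt → ℤ) (z : GolayPt → ℤ) = dotInt (x : GolayPt → ℤ) (z' : GolayPt → ℤ) →
      ∃ g : Co0, g • v = v ∧ g • w = w ∧ g • x = x ∧ g • z = z' := by
  obtain ⟨g, h1, h2, h3⟩ := mc_form v w x hv hw hvw hx
  refine ⟨?_, ?_, ?_⟩
  · refine Eq.trans ?_ ncard112
    have h : {y : leechLattice | y ∈ mcPts uA u3 ∧ dotInt (uE : GolayPt → ℤ) (y : GolayPt → ℤ) = 8} = (fun z => g • z) '' {z : leechLattice | z ∈ mcPts v w ∧ dotInt (x : GolayPt → ℤ) (z : GolayPt → ℤ) = 8} := by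
      ext z
      constructor
      · rintro ⟨hz, hz'⟩
        refine ⟨g⁻¹ • z, ⟨?_, ?_⟩, smul_inv_smul g z⟩
        · rw [← mc_mem_smul g, smul_inv_smul, h1, h2]; exact hz
        · rw [← co_dot g, smul_inv_smul, h3]; exact hz'
      · rintro ⟨z, ⟨hz, hz'⟩, rfl⟩
        refine ⟨?_, ?_⟩
        · rw [← h1, ← h2]; exact (mc_mem_smul g).mpr hz
        · rw [← h3, co_dot]; exact hz'
    rw [h, Set.ncard_image_of_injective _ (MulAction.injective g)]
  · refine Eq.trans ?_ ncard162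
    have h : {y : leechLattice | y ∈ mcPts uA u3 ∧ y ≠ uE ∧ dotInt (uE : GolayPt → ℤ) (y : GolayPt → ℤ) = 16} = (fun z => g • z) '' {z : leechLattice | z ∈ mcPts v w ∧ z ≠ x ∧ dotInt (x : GolayPt → ℤ) (z : GolayPt → ℤ) = 16} := by
      ext z
      constructor
      · rintro ⟨hz, hzx, hz'⟩
        refine ⟨g⁻¹ • z, ⟨?_, ?_, ?_⟩, smul_inv_smul g z⟩
        · rw [← mc_mem_smul g, smul_inv_smul, h1, h2]; exact hz
        · intro h; apply hzx; rw [← h3, ← h, smul_inv_smul]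
        · rw [← co_dot g, smul_inv_smul, h3]; exact hz'
      · rintro ⟨z, ⟨hz, hzx, hz'⟩, rfl⟩
        refine ⟨?_, ?_, ?_⟩
        · rw [← h1, ← h2]; exact (mc_mem_smul g).mpr hz
        · intro h; apply hzx; rw [← h3] at h; exact MulAction.injective g h
        · rw [← h3, co_dot]; exact hz'
    rw [h, Set.ncard_image_of_injective _ (MulAction.injective g)]
  · intro z hz z' hz' hzx hzx' hiff
    obtain ⟨k, k1, k2, k3, k4⟩ := mc_rank3_std (y := g • z) (y' := g • z') (by rw [← h1, ← h2]; exact (mc_mem_smul g).mpr hz) (by rw [← h1, ← h2]; exact (mc_mem_smul g).mpr hz')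
      (fun h => hzx (MulAction.injective g (h.trans h3.symm))) (fun h => hzx' (MulAction.injective g (h.trans h3.symm))) (by rw [← h3, co_dot, co_dot]; exact hiff)
    refine ⟨g⁻¹ * k * g, ?_, ?_, ?_, ?_⟩
    · rw [mul_smul, mul_smul, h1, k1, ← h1, inv_smul_smul]
    · rw [mul_smul, mul_smul, h2, k2, ← h2, inv_smul_smul]
    · rw [mul_smul, mul_smul, h3, k3, ← h3, inv_smul_smul]
    · rw [mul_smul, mul_smul, k4, inv_smul_smul]

end CfsgLib.Leech
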