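import Mathlib
import Cfsg.Agent.Lib.Leech35

/-!
The McLaughlin group on 2025 points.
-/

set_option autoImplicit false

namespace CfsgLib.Leech

open CfsgLib.Golay Finset Cfsg
open scoped Pointwise

/-- one point outside the base octad fixed, the others are moved to a base point -/
def tabTwo : List (ℕ × ℕ) := [(6, 0x8b569749f784ea0b0a88518a761061), (8, 0x9c6cd74248a26ec59de61d4aa01041), (9, 0x725135ddf69422369cd4654a009142), (11, 0xba670a3e356b90030ed212ca123147), (13, 0xa5df65ce304b4c492aa80b8a03886c), (14, 0x6ded3751f581a2459e491a0aa0b040), (15, 0x9d6f075928349a4881740bca261c6a), (16, 0xb3e128b5265de6740a8e654a01a881), (17, 0x9c975b5ccd8d2077012f620a412823), (18, 0xabaf47996994e00431b1158a309d44), (19, 0x5be9032137745a399e56054a412981), (20, 0x5d6e68bd098364470e740d8a262807), (21, 0x42cd2a46c97d600985b7538a221c6c), (22, 0x49914b2db79c223aa9d213ca03b024), (23, 0x352b0b35d15a5e740677048aa1b044)]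

theorem base_two {x : GolayPt} (hx : x ∉ O0) (h5 : x ≠ pt 5) : ∃ g ∈ M24, g • O0 = O0 ∧ g (pt 5) = pt 5 ∧ g x = pt 6 := by
  have key : chkTab (fixes [5] [5279]) 6 16771904 tabTwo = true := by decide +kernel
  have hx' : (16771904 : ℕ).testBit (idx x) = true := by
    rw [← toFS_mask O0, mask_O0, mem_toFS] at hx
    revert hx x; decide
  obtain ⟨g, hg, P, hP, hPf, hgx⟩ := chkTab_spec key hx'
  refine ⟨g, hg, ?_, fixes_pt hPf hP (by simp) (by norm_num), hgx⟩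
  rw [← toFS_mask O0, mask_O0]
  exact fixes_mask hPf hP (by simp) (by norm_num)

/-- transitivity on octads missing two points -/
theorem octad_trans_out {O O' : Finset GolayPt} {a b : GolayPt} (hab : a ≠ b) (hO : O ∈ octads) (hO' : O' ∈ octads) (h0 : a ∉ O) (h1 : b ∉ O) (h0' : a ∉ O') (h1' : b ∉ O') :
    ∃ σ ∈ M24, σ a = a ∧ σ b = b ∧ σ • O = O' := by
  have key : ∀ {O : Finset GolayPt}, O ∈ octads → a ∉ O → b ∉ O → ∃ g ∈ M24, g • O = O0 ∧ g a = pt 5 ∧ g b = pt 6 := by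
    intro O hO h0 h1
    obtain ⟨l, hl, hlen, hmem⟩ := exists_extend_in O 6 (by rw [octad_card hO]; norm_num) [] (by simp) (by simp) (by simp)
    obtain ⟨g, hg, g1, g2, g3⟩ := frame_list hO hl hlen hmem h0
    obtain ⟨k, hk, k1, k2, k3⟩ := base_two (x := g b) (by rw [← g1]; exact fun h => h1 (mem_smul_iff.mp h)) (by
      rw [← g3]; exact fun h => hab (g.injective h).symm)
    exact ⟨k * g, M24_mul hk hg, by rw [mul_smul, g1, k1], by rw [Equiv.Perm.mul_apply, g3, k2], by rw [Equiv.Perm.mul_apply, k3]⟩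
  obtain ⟨g, hg, g1, g2, g3⟩ := key hO h0 h1
  obtain ⟨k, hk, k1, k2, k3⟩ := key hO' h0' h1'
  refine ⟨k⁻¹ * g, Subgroup.mul_mem _ (Subgroup.inv_mem _ hk) hg, combine_pt g2 k2, combine_pt g3 k3, ?_⟩
  rw [mul_smul, g1, ← k1, inv_smul_smul]

/-- three points in an octad, one outside -/
theorem octad_trans31 {O O' : Finset GolayPt} {a b c a' b' c' x x' : GolayPt} (h : [a, b, c].Nodup) (h' : [a', b', c'].Nodup) (hO : O ∈ octads) (hO' : O' ∈ octads) (ha : a ∈ O) (hb : b ∈ O) (hc : c ∈ O) (hx : x ∉ O)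
    (ha' : a' ∈ O') (hb' : b' ∈ O') (hc' : c' ∈ O') (hx' : x' ∉ O') : ∃ σ ∈ M24, σ a = a' ∧ σ b = b' ∧ σ c = c' ∧ σ x = x' ∧ σ • O = O' := by
  have key : ∀ {O : Finset GolayPt} {a b c x : GolayPt}, O ∈ octads → [a, b, c].Nodup → a ∈ O → b ∈ O → c ∈ O → x ∉ O → ∃ g ∈ M24, g • O = O0 ∧ g a = pt 0 ∧ g b = pt 1 ∧ g c = pt 2 ∧ g x = pt 5 := by
    intro O a b c x hO h h0 h1 h2 hx
    obtain ⟨l, hl, hlen, hmem⟩ := exists_extend_in O 6 (by rw [octad_card hO]; norm_num) [a, b, c] h (by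
      intro x hx; simp only [List.mem_cons, List.not_mem_nil, or_false] at hx; rcases hx with rfl | rfl | rfl <;> assumption) (by simp)
    obtain ⟨g, hg, g1, g2, g3⟩ := frame_list hO hl hlen hmem hx
    simp only [List.map_append, List.map_cons, List.map_nil, List.cons_append, List.nil_append, List.cons.injEq] at g2
    exact ⟨g, hg, g1, g2.1, g2.2.1, g2.2.2.1, g3⟩
  obtain ⟨g, hg, g1, g2, g3, g4, g5⟩ := key hO h ha hb hc hx
  obtain ⟨k, hk, k1, k2, k3, k4, k5⟩ := key hO' h' ha' hb' hc' hx'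
  refine ⟨k⁻¹ * g, Subgroup.mul_mem _ (Subgroup.inv_mem _ hk) hg, combine_pt g2 k2, combine_pt g3 k3, combine_pt g4 k4, combine_pt g5 k5, ?_⟩
  rw [mul_smul, g1, ← k1, inv_smul_smul]

theorem thru0 : (CfsgLib.Steiner.bl octads).card = 759 := by
  have h := card_thru (s := ∅) (by simp)
  rw [Finset.card_empty] at h
  have e : (CfsgLib.Steiner.bl octads).filter (fun b => (∅ : Finset GolayPt) ⊆ b) = CfsgLib.Steiner.bl octads := Finset.filter_true_of_mem (fun b _ => Finset.empty_subset b)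
  rw [e] at h
  rw [h]; decide +kernel

theorem thru0nn {p q : GolayPt} (h : p ≠ q) : ((CfsgLib.Steiner.bl octads).filter (fun b => p ∉ b ∧ q ∉ b)).card = 330 := by
  have h1 := Finset.card_filter_add_card_filter_not (s := CfsgLib.Steiner.bl octads) (fun b => p ∈ b)
  rw [thru1, thru0] at h1
  have h2 := Finset.card_filter_add_card_filter_not (s := (CfsgLib.Steiner.bl octads).filter (fun b => p ∉ b)) (fun b => q ∈ b)
  rw [Finset.filter_filter, Finset.filter_filter] at h2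
  have h3 : ((CfsgLib.Steiner.bl octads).filter (fun b => p ∉ b ∧ q ∈ b)).card = 176 := by
    rw [← thru1n h.symm]; congr 1; apply Finset.filter_congr; intro b _; tauto
  omega

/-! ### the set of 2025 points -/

def m2Pts (v w : leechLattice) : Set leechLattice := {x | sqNorm (x : GolayPt → ℤ) = 32 ∧ dotInt (v : GolayPt → ℤ) x = 0 ∧ dotInt (w : GolayPt → ℤ) x = 16}

theorem m2_mem_smul (g : Co0) {v w x : leechLattice} : g • x ∈ m2Pts (g • v) (g • w) ↔ x ∈ m2Pts v w := by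
  unfold m2Pts
  rw [Set.mem_setOf_eq, Set.mem_setOf_eq, co_norm, co_dot, co_dot]

theorem uD_mem_m2 : uD ∈ m2Pts uA u3 := by
  refine ⟨norm_uD, ?_, ?_⟩
  · rw [uD_val, dot_u44, uA_val, u44_left pt01, u44_right pt01]; norm_num
  · rw [uD_val, dot_u44, u3_val, uo_same, uo_ne _ pt01.symm]; norm_num

theorem m2_form (v w x : leechLattice) (hv : sqNorm (v : GolayPt → ℤ) = 32) (hw : sqNorm (w : GolayPt → ℤ) = 32) (hvw : dotInt (v : GolayPt → ℤ) w = -8) (hx : x ∈ m2Pts v w) :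
    ∃ g : Co0, g • v = uA ∧ g • w = u3 ∧ g • x = uD := by
  obtain ⟨hx, hvx, hwx⟩ := hx
  have hc : ((v - x : leechLattice) : GolayPt → ℤ) = (v : GolayPt → ℤ) - x := rfl
  obtain ⟨g, b, hb, h1, h2, h3, h4⟩ := pair_form' v w (v - x) (by rw [hc, norm_sub, hv, hx, hvx]; norm_num) hv (c := 4) (a := -3) (Or.inl rfl) (by norm_num) (by rw [hw]; norm_num)
    (by rw [hc, dot_sub_right, hvx, ← sqNorm_eq_dot, hv]; norm_num) (by rw [hc, dot_sub_right, hwx, dot_symm, hvw]; norm_num)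
  rw [hvw] at h1
  have hb4 : b = 4 := by omega
  rw [hb4] at h2
  have e1 : g • v = uA := Subtype.ext h2
  refine ⟨g, e1, Subtype.ext h3, ?_⟩
  rw [co_sub, e1] at h4
  have h5 : g • x = uA - e8 (pt 0) := by rw [← h4]; abel
  rw [h5, ← uAD_sub]; abel

theorem m22_iff' {g : Co0} : (g • uA = uA ∧ g • u3 = u3) ∧ g • uD = uD ↔ ∃ τ : PS [pt 0, pt 1], g = mo (psi _ τ) := by
  constructor
  · rintro ⟨⟨h1, h2⟩, h3⟩
    have h0 : g • e8 (pt 0) = e8 (pt 0) := by rw [← uAD_sub, co_sub, h1, h3]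
    obtain ⟨σ, hσ, rfl⟩ := fix_form h0 u3_val h2
    exact ⟨⟨σ, mem_PS_two hσ (fix_one hσ (by norm_num) uA_val h1)⟩, rfl⟩
  · rintro ⟨τ, rfl⟩
    have a0 : (τ : Equiv.Perm GolayPt) (pt 0) = pt 0 := τ.2.2 _ (by simp)
    have a1 : (τ : Equiv.Perm GolayPt) (pt 1) = pt 1 := τ.2.2 _ (by simp)
    exact ⟨⟨mo_u44 a0 a1 uA_val, mo_uo a0 u3_val⟩, mo_u44 a0 a1 uD_val⟩

theorem card_m22' : Nat.card ↥(MulAction.stabilizer Co0 uA ⊓ MulAction.stabilizer Co0 u3 ⊓ MulAction.stabilizer Co0 uD) = 443520 := by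
  rw [← card_PS_two pt01]
  symm
  have hinj : Function.Injective (mo.comp (psi [pt 0, pt 1])) := mo_inj.comp (psi_inj _)
  have h : MulAction.stabilizer Co0 uA ⊓ MulAction.stabilizer Co0 u3 ⊓ MulAction.stabilizer Co0 uD = (mo.comp (psi [pt 0, pt 1])).range := by
    ext g
    rw [Subgroup.mem_inf, Subgroup.mem_inf, MulAction.mem_stabilizer_iff, MulAction.mem_stabilizer_iff, MulAction.mem_stabilizer_iff, m22_iff', MonoidHom.mem_range]
    exact ⟨fun ⟨τ, h⟩ => ⟨τ, h.symm⟩, fun ⟨τ, h⟩ => ⟨τ, h.symm⟩⟩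
  rw [h]
  exact Nat.card_congr (MonoidHom.ofInjective hinj).toEquiv

theorem m2_trans {v w x x' : leechLattice} (hv : sqNorm (v : GolayPt → ℤ) = 32) (hw : sqNorm (w : GolayPt → ℤ) = 32) (hvw : dotInt (v : GolayPt → ℤ) w = -8) (hx : x ∈ m2Pts v w) (hx' : x' ∈ m2Pts v w) :
    ∃ g : Co0, g • v = v ∧ g • w = w ∧ g • x = x' := by
  obtain ⟨g, h1, h2, h3⟩ := m2_form v w x hv hw hvw hx
  obtain ⟨k, k1, k2, k3⟩ := m2_form v w x' hv hw hvw hx'
  exact ⟨k⁻¹ * g, by rw [mul_smul, h1, ← k1, inv_smul_smul], by rw [mul_smul, h2, ← k2, inv_smul_smul], by rw [mul_smul, h3, ← k3, inv_smul_smul]⟩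

theorem ncard_m2_std : (m2Pts uA u3).ncard = 2025 := by
  have h := card_stab_mul (MulAction.stabilizer Co0 uA ⊓ MulAction.stabilizer Co0 u3) (MulAction.stabilizer Co0 uA ⊓ MulAction.stabilizer Co0 u3 ⊓ MulAction.stabilizer Co0 uD) uD (m2Pts uA u3) (fun g => Iff.rfl) (fun x => by
    constructor
    · intro hx
      obtain ⟨g, h1, h2, h3⟩ := m2_trans norm_uA norm_u3' dot_A3 uD_mem_m2 hx
      exact ⟨g, ⟨h1, h2⟩, h3⟩
    · rintro ⟨g, ⟨h1, h2⟩, rfl⟩
      have h1 : g • uA = uA := h1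
      have h2 : g • u3 = u3 := h2
      have := (m2_mem_smul g).mpr uD_mem_m2
      rwa [h1, h2] at this)
  rw [card_m22', card_mcl norm_uA norm_u3' dot_A3] at h
  omega

theorem ncard_m2 {v w : leechLattice} (hv : sqNorm (v : GolayPt → ℤ) = 32) (hw : sqNorm (w : GolayPt → ℤ) = 32) (hvw : dotInt (v : GolayPt → ℤ) w = -8) : (m2Pts v w).ncard = 2025 := by
  obtain ⟨g, h1, h2⟩ := trans_T2 v w hv hw hvw
  refine Eq.trans ?_ ncard_m2_std
  have h : m2Pts uA u3 = (fun x => g • x) '' m2Pts v w := by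
    ext x
    constructor
    · intro hx
      refine ⟨g⁻¹ • x, ?_, smul_inv_smul g x⟩
      rw [← m2_mem_smul g, smul_inv_smul, h1, h2]; exact hx
    · rintro ⟨x, hx, rfl⟩
      rw [← h1, ← h2]
      exact (m2_mem_smul g).mpr hx
  rw [h, Set.ncard_image_of_injective _ (MulAction.injective g)]

/-- orbits of stabilizers of three vectors under conjugation -/
theorem orbit_conj3 {g : Co0} {v w x v' w' x' y : leechLattice} (h1 : g • v = v') (h2 : g • w = w') (h3 : g • x = x') :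
    (MulAction.orbit ↥(MulAction.stabilizer Co0 v ⊓ MulAction.stabilizer Co0 w ⊓ MulAction.stabilizer Co0 x) y).ncard =
      (MulAction.orbit ↥(MulAction.stabilizer Co0 v' ⊓ MulAction.stabilizer Co0 w' ⊓ MulAction.stabilizer Co0 x') (g • y)).ncard := by
  have h : MulAction.orbit ↥(MulAction.stabilizer Co0 v' ⊓ MulAction.stabilizer Co0 w' ⊓ MulAction.stabilizer Co0 x') (g • y) =
      (fun z => g • z) '' MulAction.orbit ↥(MulAction.stabilizer Co0 v ⊓ MulAction.stabilizer Co0 w ⊓ MulAction.stabilizer Co0 x) y := by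
    ext z
    constructor
    · rintro ⟨⟨k, ⟨⟨k1, k2⟩, k3⟩⟩, rfl⟩
      have k1 : k • v' = v' := k1
      have k2 : k • w' = w' := k2
      have k3 : k • x' = x' := k3
      refine ⟨(g⁻¹ * k * g) • y, ⟨⟨g⁻¹ * k * g, ⟨⟨?_, ?_⟩, ?_⟩⟩, rfl⟩, ?_⟩
      · show (g⁻¹ * k * g) • v = v
        rw [mul_smul, mul_smul, h1, k1, ← h1, inv_smul_smul]
      · show (g⁻¹ * k * g) • w = w
        rw [mul_smul, mul_smul, h2, k2, ← h2, inv_smul_smul]
      · show (g⁻¹ * k * g) • x = x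
        rw [mul_smul, mul_smul, h3, k3, ← h3, inv_smul_smul]
      · show g • ((g⁻¹ * k * g) • y) = k • (g • y)
        rw [mul_smul, mul_smul, smul_inv_smul]
    · rintro ⟨_, ⟨⟨k, ⟨⟨k1, k2⟩, k3⟩⟩, rfl⟩, rfl⟩
      have k1 : k • v = v := k1
      have k2 : k • w = w := k2
      have k3 : k • x = x := k3
      refine ⟨⟨g * k * g⁻¹, ⟨⟨?_, ?_⟩, ?_⟩⟩, ?_⟩
      · show (g * k * g⁻¹) • v' = v'
        rw [mul_smul, mul_smul, ← h1, inv_smul_smul, k1]
      · show (g * k * g⁻¹) • w' = w'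
        rw [mul_smul, mul_smul, ← h2, inv_smul_smul, k2]
      · show (g * k * g⁻¹) • x' = x'
        rw [mul_smul, mul_smul, ← h3, inv_smul_smul, k3]
      · show (g * k * g⁻¹) • (g • y) = g • (k • y)
        rw [mul_smul, mul_smul, inv_smul_smul]
  rw [h, Set.ncard_image_of_injective _ (MulAction.injective g)]

/-- orbits of `M22` -/
theorem orbit_m22 {y : leechLattice} (S : Set leechLattice) (h1 : ∀ {σ : Equiv.Perm GolayPt} (hσ : σ ∈ M24), σ (pt 0) = pt 0 → σ (pt 1) = pt 1 → mono hσ empty_mem • y ∈ S)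
    (h2 : ∀ z ∈ S, ∃ (σ : Equiv.Perm GolayPt) (hσ : σ ∈ M24), σ (pt 0) = pt 0 ∧ σ (pt 1) = pt 1 ∧ mono hσ empty_mem • y = z) :
    MulAction.orbit ↥(MulAction.stabilizer Co0 uA ⊓ MulAction.stabilizer Co0 u3 ⊓ MulAction.stabilizer Co0 uD) y = S := by
  ext z
  constructor
  · rintro ⟨⟨k, hk⟩, rfl⟩
    obtain ⟨τ, rfl⟩ := m22_iff'.mp hk
    exact h1 τ.2.1 (τ.2.2 _ (by simp)) (τ.2.2 _ (by simp))
  · intro hz
    obtain ⟨σ, hσ, s0, s1, rfl⟩ := h2 z hz
    exact ⟨⟨mono hσ empty_mem, m22_iff'.mpr ⟨⟨σ, mem_PS_two (σ := ⟨σ, hσ⟩) s0 s1⟩, rfl⟩⟩, rfl⟩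

theorem w2_inj {O O' T T' : Finset GolayPt} (hT : T ⊆ O) (hT' : T' ⊆ O') (h : w2 O T = w2 O' T') : O = O' ∧ T = T' := by
  have h1 : ∀ i, (i ∈ O ↔ i ∈ O') := by
    intro i
    have := congrFun h i
    unfold w2 at this
    by_cases h1 : i ∈ O <;> by_cases h2 : i ∈ O' <;> by_cases h3 : i ∈ T <;> by_cases h4 : i ∈ T' <;> simp [h1, h2, h3, h4] at this ⊢
  have hO : O = O' := Finset.ext h1
  refine ⟨hO, Finset.ext fun i => ?_⟩
  have := congrFun h i
  unfold w2 at this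
  constructor
  · intro h3
    by_contra h4
    rw [if_pos (hT h3), if_pos h3, if_pos ((h1 i).mp (hT h3)), if_neg h4] at this
    norm_num at this
  · intro h4
    by_contra h3
    rw [if_pos ((h1 i).mpr (hT' h4)), if_neg h3, if_pos (hT' h4), if_pos h4] at this
    norm_num at this

theorem spE_w2 {σ : Equiv.Perm GolayPt} (O T : Finset GolayPt) : spE σ ∅ (w2 O T) = w2 (σ • O) (σ • T) := by
  funext i
  show (if i ∈ (∅ : Finset GolayPt) then -(w2 O T (σ.symm i)) else w2 O T (σ.symm i)) = w2 (σ • O) (σ • T) i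
  rw [if_neg (Finset.notMem_empty _)]
  unfold w2
  have h : ∀ S : Finset GolayPt, i ∈ σ • S ↔ σ.symm i ∈ S := fun S => smul_eq_image σ S i
  simp only [h]

theorem spE_od3 {σ : Equiv.Perm GolayPt} (C : Finset GolayPt) (p : GolayPt) : spE σ ∅ (od3 C p) = od3 (σ • C) (σ p) := by
  funext i
  show (if i ∈ (∅ : Finset GolayPt) then -(od3 C p (σ.symm i)) else od3 C p (σ.symm i)) = od3 (σ • C) (σ p) i
  rw [if_neg (Finset.notMem_empty _)]
  unfold od3
  simp only [smul_eq_image σ C i, Equiv.symm_apply_eq]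

theorem od3_inj' {S T : Finset GolayPt} {p q : GolayPt} (hS : p ∈ S) (hT : q ∈ T) (h : od3 S p = od3 T q) : S = T ∧ p = q := by
  have hpq : p = q := by
    by_contra hne
    have h1 := congrFun h p
    rw [od3_same] at h1
    by_cases h2 : p ∈ T
    · rw [od3_in hne h2] at h1; norm_num at h1
    · rw [od3_out hne h2] at h1; norm_num at h1
  subst hpq
  exact ⟨od3_inj hS hT h, rfl⟩

theorem ncard_val (S : Set leechLattice) : S.ncard = ((Subtype.val : leechLattice → GolayPt → ℤ) '' S).ncard := (Set.ncard_image_of_injective _ Subtype.val_injective).symm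

/-- suborbit of length 330 -/
theorem orbit330 {O : Finset GolayPt} (hO : O ∈ octads) (h0 : pt 0 ∉ O) (h1 : pt 1 ∉ O) :
    (MulAction.orbit ↥(MulAction.stabilizer Co0 uA ⊓ MulAction.stabilizer Co0 u3 ⊓ MulAction.stabilizer Co0 uD) (pO hO)).ncard = 330 := by
  classical
  rw [orbit_m22 {z | ∃ O ∈ octads, pt 0 ∉ O ∧ pt 1 ∉ O ∧ (z : GolayPt → ℤ) = ww O}]
  · rw [ncard_val]
    have h : (Subtype.val : leechLattice → GolayPt → ℤ) '' {z : leechLattice | ∃ O ∈ octads, pt 0 ∉ O ∧ pt 1 ∉ O ∧ (z : GolayPt → ℤ) = ww O} = (((CfsgLib.Steiner.bl octads).filter (fun b => pt 0 ∉ b ∧ pt 1 ∉ b)).image ww : Finset (GolayPt → ℤ)) := by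
      ext x
      rw [Finset.mem_coe, Finset.mem_image]
      constructor
      · rintro ⟨y, ⟨O, hO, h0, h1, e⟩, rfl⟩
        exact ⟨O, by rw [Finset.mem_filter, CfsgLib.Steiner.mem_bl]; exact ⟨hO, h0, h1⟩, e.symm⟩
      · rintro ⟨O, hO, rfl⟩
        rw [Finset.mem_filter, CfsgLib.Steiner.mem_bl] at hO
        exact ⟨⟨ww O, ww_mem hO.1.1⟩, ⟨O, hO.1, hO.2.1, hO.2.2, rfl⟩, rfl⟩
    rw [h, Set.ncard_coe_finset, Finset.card_image_of_injective _ (fun S T h => ww_inj h), thru0nn pt01]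
  · intro σ hσ s0 s1
    refine ⟨σ • O, (smul_mem_octads hσ).mpr hO, ?_, ?_, ?_⟩
    · rw [← s0]; exact fun h => h0 (mem_smul_iff.mp h)
    · rw [← s1]; exact fun h => h1 (mem_smul_iff.mp h)
    · rw [mono_smul]; exact spE_ww O
  · rintro z ⟨O', hO', h0', h1', e⟩
    obtain ⟨σ, hσ, s0, s1, s2⟩ := octad_trans_out pt01 hO hO' h0 h1 h0' h1'
    exact ⟨σ, hσ, s0, s1, Subtype.ext (by rw [mono_smul, e, ← s2]; exact spE_ww O)⟩

theorem w2_pair_mem {O : Finset GolayPt} (hO : O ∈ octads) {p q : GolayPt} (hp : p ∈ O) (hq : q ∈ O) (h : p ≠ q) : w2 O {p, q} ∈ leechLattice :=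
  w2_mem hO (by intro i hi; simp only [Finset.mem_insert, Finset.mem_singleton] at hi; rcases hi with rfl | rfl <;> assumption) (by rw [Finset.card_pair h])

theorem pair_sub {O : Finset GolayPt} {p q : GolayPt} (hp : p ∈ O) (hq : q ∈ O) : ({p, q} : Finset GolayPt) ⊆ O := by
  intro i hi; simp only [Finset.mem_insert, Finset.mem_singleton] at hi; rcases hi with rfl | rfl <;> assumption

theorem smul_pair' (σ : Equiv.Perm GolayPt) (p q : GolayPt) : σ • ({p, q} : Finset GolayPt) = {σ p, σ q} := by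
  rw [Finset.smul_finset_insert, Finset.smul_finset_singleton]; rfl

/-- suborbit of length 462 -/
theorem orbit462 {O : Finset GolayPt} (hO : O ∈ octads) (h0 : pt 0 ∈ O) (h1 : pt 1 ∈ O) {q : GolayPt} (hq : q ∈ O) (q0 : q ≠ pt 0) (q1 : q ≠ pt 1) :
    (MulAction.orbit ↥(MulAction.stabilizer Co0 uA ⊓ MulAction.stabilizer Co0 u3 ⊓ MulAction.stabilizer Co0 uD) (⟨w2 O {pt 0, q}, w2_pair_mem hO h0 hq q0.symm⟩ : leechLattice)).ncard = 462 := by
  classical
  rw [orbit_m22 {z | ∃ O ∈ octads, pt 0 ∈ O ∧ pt 1 ∈ O ∧ ∃ q ∈ O, q ≠ pt 0 ∧ q ≠ pt 1 ∧ (z : GolayPt → ℤ) = w2 O {pt 0, q}}]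
  · rw [ncard_val]
    have h : (Subtype.val : leechLattice → GolayPt → ℤ) '' {z : leechLattice | ∃ O ∈ octads, pt 0 ∈ O ∧ pt 1 ∈ O ∧ ∃ q ∈ O, q ≠ pt 0 ∧ q ≠ pt 1 ∧ (z : GolayPt → ℤ) = w2 O {pt 0, q}} =
        (((((CfsgLib.Steiner.bl octads).filter (fun b => pt 0 ∈ b ∧ pt 1 ∈ b)).sigma (fun O => O \ {pt 0, pt 1})).image (fun s : (Σ _ : Finset GolayPt, GolayPt) => w2 s.1 {pt 0, s.2}) : Finset (GolayPt → ℤ)) : Set (GolayPt → ℤ)) := by
      ext x
      rw [Finset.mem_coe, Finset.mem_image]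
      constructor
      · rintro ⟨y, ⟨O, hO, h0, h1, q, hq, q0, q1, e⟩, rfl⟩
        refine ⟨⟨O, q⟩, ?_, e.symm⟩
        rw [Finset.mem_sigma, Finset.mem_filter, CfsgLib.Steiner.mem_bl]
        exact ⟨⟨hO, h0, h1⟩, by simp [hq, q0, q1]⟩
      · rintro ⟨⟨O, q⟩, hO, rfl⟩
        rw [Finset.mem_sigma, Finset.mem_filter, CfsgLib.Steiner.mem_bl] at hO
        obtain ⟨⟨hO, h0, h1⟩, hq⟩ := hO
        simp only [Finset.mem_sdiff, Finset.mem_insert, Finset.mem_singleton, not_or] at hq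
        exact ⟨⟨_, w2_pair_mem hO h0 hq.1 (Ne.symm hq.2.1)⟩, ⟨O, hO, h0, h1, q, hq.1, hq.2.1, hq.2.2, rfl⟩, rfl⟩
    rw [h, Set.ncard_coe_finset, Finset.card_image_of_injOn, Finset.card_sigma, Finset.sum_congr rfl (g := fun _ => 6), Finset.sum_const, thru2 pt01]
    · norm_num
    · intro O hO
      rw [Finset.mem_filter, CfsgLib.Steiner.mem_bl] at hO
      rw [Finset.card_sdiff_of_subset (pair_sub hO.2.1 hO.2.2), octad_card hO.1, Finset.card_pair pt01]
    · rintro ⟨O, q⟩ hs ⟨O', q'⟩ hs' e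
      rw [Finset.mem_coe, Finset.mem_sigma, Finset.mem_filter] at hs hs'
      simp only [Finset.mem_sdiff, Finset.mem_insert, Finset.mem_singleton, not_or] at hs hs'
      obtain ⟨rfl, e2⟩ := w2_inj (pair_sub hs.1.2.1 hs.2.1) (pair_sub hs'.1.2.1 hs'.2.1) e
      have h3 : q ∈ ({pt 0, q'} : Finset GolayPt) := by rw [← e2]; simp
      simp only [Finset.mem_insert, Finset.mem_singleton] at h3
      rcases h3 with h3 | h3
      · exact absurd h3 hs.2.2.1
      · rw [h3]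
  · intro σ hσ s0 s1
    refine ⟨σ • O, (smul_mem_octads hσ).mpr hO, ?_, ?_, σ q, mem_smul_iff.mpr hq, ?_, ?_, ?_⟩
    · rw [← s0]; exact mem_smul_iff.mpr h0
    · rw [← s1]; exact mem_smul_iff.mpr h1
    · intro h; exact q0 (σ.injective (h.trans s0.symm))
    · intro h; exact q1 (σ.injective (h.trans s1.symm))
    · rw [mono_smul]
      show spE σ ∅ (w2 O {pt 0, q}) = _
      rw [spE_w2, smul_pair', s0]
  · rintro z ⟨O', hO', h0', h1', q', hq', q0', q1', e⟩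
    obtain ⟨x, hx⟩ : ∃ x, x ∉ O := by
      by_contra hcon
      push Not at hcon
      have h8 := octad_card hO
      rw [Finset.eq_univ_iff_forall.mpr hcon, card_univ_G] at h8
      norm_num at h8
    obtain ⟨x', hx'⟩ : ∃ x, x ∉ O' := by
      by_contra hcon
      push Not at hcon
      have h8 := octad_card hO'
      rw [Finset.eq_univ_iff_forall.mpr hcon, card_univ_G] at h8
      norm_num at h8
    obtain ⟨σ, hσ, s0, s1, s2, -, s3⟩ := octad_trans31 (a := pt 0) (b := pt 1) (c := q) (a' := pt 0) (b' := pt 1) (c' := q') (by simp [pt01, q0.symm, q1.symm]) (by simp [pt01, q0'.symm, q1'.symm]) hO hO' h0 h1 hq hx h0' h1' hq' hx'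
    refine ⟨σ, hσ, s0, s1, Subtype.ext ?_⟩
    rw [mono_smul, e]
    show spE σ ∅ (w2 O {pt 0, q}) = _
    rw [spE_w2, smul_pair', s0, s2, s3]

/-- suborbit of length 1232 -/
theorem orbit1232 {C : Finset GolayPt} (hC : C ∈ octads) (h0 : pt 0 ∈ C) (h1 : pt 1 ∉ C) {q : GolayPt} (hq : q ∈ C) (q0 : q ≠ pt 0) :
    (MulAction.orbit ↥(MulAction.stabilizer Co0 uA ⊓ MulAction.stabilizer Co0 u3 ⊓ MulAction.stabilizer Co0 uD) (⟨od3 C q, od3_mem hC hq⟩ : leechLattice)).ncard = 1232 := by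
  classical
  rw [orbit_m22 {z | ∃ C ∈ octads, pt 0 ∈ C ∧ pt 1 ∉ C ∧ ∃ q ∈ C, q ≠ pt 0 ∧ (z : GolayPt → ℤ) = od3 C q}]
  · rw [ncard_val]
    have h : (Subtype.val : leechLattice → GolayPt → ℤ) '' {z : leechLattice | ∃ C ∈ octads, pt 0 ∈ C ∧ pt 1 ∉ C ∧ ∃ q ∈ C, q ≠ pt 0 ∧ (z : GolayPt → ℤ) = od3 C q} =
        (((((CfsgLib.Steiner.bl octads).filter (fun b => pt 0 ∈ b ∧ pt 1 ∉ b)).sigma (fun O => O.erase (pt 0))).image (fun s : (Σ _ : Finset GolayPt, GolayPt) => od3 s.1 s.2) : Finset (GolayPt → ℤ)) : Set (GolayPt → ℤ)) := by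
      ext x
      rw [Finset.mem_coe, Finset.mem_image]
      constructor
      · rintro ⟨y, ⟨O, hO, h0, h1, q, hq, q0, e⟩, rfl⟩
        refine ⟨⟨O, q⟩, ?_, e.symm⟩
        rw [Finset.mem_sigma, Finset.mem_filter, CfsgLib.Steiner.mem_bl]
        exact ⟨⟨hO, h0, h1⟩, Finset.mem_erase.mpr ⟨q0, hq⟩⟩
      · rintro ⟨⟨O, q⟩, hO, rfl⟩
        rw [Finset.mem_sigma, Finset.mem_filter, CfsgLib.Steiner.mem_bl] at hO
        obtain ⟨⟨hO, h0, h1⟩, hq⟩ := hO
        rw [Finset.mem_erase] at hq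
        exact ⟨⟨_, od3_mem hO hq.2⟩, ⟨O, hO, h0, h1, q, hq.2, hq.1, rfl⟩, rfl⟩
    rw [h, Set.ncard_coe_finset, Finset.card_image_of_injOn, Finset.card_sigma, Finset.sum_congr rfl (g := fun _ => 7), Finset.sum_const, thru1n pt01]
    · norm_num
    · intro O hO
      rw [Finset.mem_filter, CfsgLib.Steiner.mem_bl] at hO
      rw [Finset.card_erase_of_mem hO.2.1, octad_card hO.1]
    · rintro ⟨O, q⟩ hs ⟨O', q'⟩ hs' e
      rw [Finset.mem_coe, Finset.mem_sigma, Finset.mem_filter] at hs hs'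
      obtain ⟨rfl, rfl⟩ := od3_inj' (Finset.mem_of_mem_erase hs.2) (Finset.mem_of_mem_erase hs'.2) e
      rfl
  · intro σ hσ s0 s1
    refine ⟨σ • C, (smul_mem_octads hσ).mpr hC, ?_, ?_, σ q, mem_smul_iff.mpr hq, ?_, ?_⟩
    · rw [← s0]; exact mem_smul_iff.mpr h0
    · rw [← s1]; exact fun h => h1 (mem_smul_iff.mp h)
    · intro h; exact q0 (σ.injective (h.trans s0.symm))
    · rw [mono_smul]
      exact spE_od3 C q
  · rintro z ⟨O', hO', h0', h1', q', hq', q0', e⟩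
    obtain ⟨r, hr⟩ : (C \ {pt 0, q}).Nonempty := by
      rw [← Finset.card_pos]
      have := card_rest (S := C) {pt 0, q} 1 (by rw [octad_card hC, Finset.card_pair q0.symm]; norm_num)
      omega
    obtain ⟨r', hr'⟩ : (O' \ {pt 0, q'}).Nonempty := by
      rw [← Finset.card_pos]
      have := card_rest (S := O') {pt 0, q'} 1 (by rw [octad_card hO', Finset.card_pair q0'.symm]; norm_num)
      omega
    simp only [Finset.mem_sdiff, Finset.mem_insert, Finset.mem_singleton, not_or] at hr hr'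
    obtain ⟨σ, hσ, s0, s1, -, s2, s3⟩ := octad_trans31 (a := pt 0) (b := q) (c := r) (a' := pt 0) (b' := q') (c' := r') (by simp [q0.symm, Ne.symm hr.2.1, Ne.symm hr.2.2]) (by simp [q0'.symm, Ne.symm hr'.2.1, Ne.symm hr'.2.2]) hC hO' h0 hq hr.1 h1 h0' hq' hr'.1 h1'
    refine ⟨σ, hσ, s0, s2, Subtype.ext ?_⟩
    rw [mono_smul, e, ← s1, ← s3]
    exact spE_od3 C q

/-- the rank four statement -/
theorem m2_rank4 {v w x : leechLattice} (hv : sqNorm (v : GolayPt → ℤ) = 32) (hw : sqNorm (w : GolayPt → ℤ) = 32) (hvw : dotInt (v : GolayPt → ℤ) w = -8) (hx : x ∈ m2Pts v w) :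
    ∃ y₁ ∈ m2Pts v w, ∃ y₂ ∈ m2Pts v w, ∃ y₃ ∈ m2Pts v w,
      (MulAction.orbit ↥(MulAction.stabilizer Co0 v ⊓ MulAction.stabilizer Co0 w ⊓ MulAction.stabilizer Co0 x) y₁).ncard = 330 ∧
      (MulAction.orbit ↥(MulAction.stabilizer Co0 v ⊓ MulAction.stabilizer Co0 w ⊓ MulAction.stabilizer Co0 x) y₂).ncard = 462 ∧
      (MulAction.orbit ↥(MulAction.stabilizer Co0 v ⊓ MulAction.stabilizer Co0 w ⊓ MulAction.stabilizer Co0 x) y₃).ncard = 1232 := by
  obtain ⟨g, g1, g2, g3⟩ := m2_form v w x hv hw hvw hx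
  have key : ∀ {y : leechLattice} {n : ℕ}, y ∈ m2Pts uA u3 → (MulAction.orbit ↥(MulAction.stabilizer Co0 uA ⊓ MulAction.stabilizer Co0 u3 ⊓ MulAction.stabilizer Co0 uD) y).ncard = n →
      g⁻¹ • y ∈ m2Pts v w ∧ (MulAction.orbit ↥(MulAction.stabilizer Co0 v ⊓ MulAction.stabilizer Co0 w ⊓ MulAction.stabilizer Co0 x) (g⁻¹ • y)).ncard = n := by
    intro y n hy hn
    refine ⟨?_, ?_⟩
    · rw [← m2_mem_smul g, smul_inv_smul, g1, g2]; exact hy
    · rw [orbit_conj3 g1 g2 g3, smul_inv_smul, hn]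
  -- an octad through the two points
  obtain ⟨O, hO, hs⟩ := exists_octad_five (s := {pt 0, pt 1}) (by rw [Finset.card_pair pt01]; norm_num)
  have o0 : pt 0 ∈ O := hs (by simp)
  have o1 : pt 1 ∈ O := hs (by simp)
  obtain ⟨q, hq⟩ : (O \ {pt 0, pt 1}).Nonempty := by
    rw [← Finset.card_pos]
    have := card_rest (S := O) {pt 0, pt 1} 1 (by rw [octad_card hO, Finset.card_pair pt01]; norm_num)
    omega
  simp only [Finset.mem_sdiff, Finset.mem_insert, Finset.mem_singleton, not_or] at hq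
  obtain ⟨O₁, hO₁⟩ : ((CfsgLib.Steiner.bl octads).filter (fun b => pt 0 ∉ b ∧ pt 1 ∉ b)).Nonempty := by
    rw [← Finset.card_pos, thru0nn pt01]; norm_num
  rw [Finset.mem_filter, CfsgLib.Steiner.mem_bl] at hO₁
  obtain ⟨C, hC⟩ : ((CfsgLib.Steiner.bl octads).filter (fun b => pt 0 ∈ b ∧ pt 1 ∉ b)).Nonempty := by
    rw [← Finset.card_pos, thru1n pt01]; norm_num
  rw [Finset.mem_filter, CfsgLib.Steiner.mem_bl] at hC
  obtain ⟨r, hr⟩ : (C.erase (pt 0)).Nonempty := by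
    rw [← Finset.card_pos, Finset.card_erase_of_mem hC.2.1, octad_card hC.1]; norm_num
  rw [Finset.mem_erase] at hr
  have m1 : pO hO₁.1 ∈ m2Pts uA u3 := by
    refine ⟨?_, ?_, ?_⟩
    · show sqNorm (ww O₁) = 32
      rw [norm_ww, octad_card hO₁.1]; norm_num
    · show dotInt _ (ww O₁) = 0
      rw [uA_val, dot_symm, dot_u44]; unfold ww; rw [if_neg hO₁.2.1, if_neg hO₁.2.2]; norm_num
    · show dotInt _ (ww O₁) = 16
      rw [u3_val, dot_uo, sum_ww8 hO₁.1]; unfold ww; rw [if_neg hO₁.2.1]; norm_num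
  have m2 : (⟨w2 O {pt 0, q}, w2_pair_mem hO o0 hq.1 (Ne.symm hq.2.1)⟩ : leechLattice) ∈ m2Pts uA u3 := by
    have v0 : w2 O {pt 0, q} (pt 0) = -2 := by unfold w2; rw [if_pos o0, if_pos (by simp)]
    have v1 : w2 O {pt 0, q} (pt 1) = 2 := by
      unfold w2; rw [if_pos o1, if_neg]
      simp only [Finset.mem_insert, Finset.mem_singleton, not_or]
      exact ⟨pt01.symm, fun h => hq.2.2 h.symm⟩
    have hs : ∑ i, w2 O {pt 0, q} i = 8 := by
      have h3 := dot_w2 (fun _ => 1) O {pt 0, q}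
      unfold dotInt at h3
      simp only [one_mul] at h3
      rw [h3, ← Finset.sum_sdiff (pair_sub o0 hq.1), Finset.sum_congr rfl (g := fun _ => (2 : ℤ)) (fun i hi => by rw [if_neg (Finset.mem_sdiff.mp hi).2]), Finset.sum_const,
        Finset.card_sdiff_of_subset (pair_sub o0 hq.1), octad_card hO, Finset.sum_congr rfl (s₁ := ({pt 0, q} : Finset GolayPt)) (g := fun _ => (-2 : ℤ)) (fun i hi => by rw [if_pos hi]), Finset.sum_const, Finset.card_pair (Ne.symm hq.2.1)]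
      norm_num
    refine ⟨norm_w2 hO, ?_, ?_⟩
    · show dotInt _ (w2 O {pt 0, q}) = 0
      rw [uA_val, dot_symm, dot_u44, v0, v1]; norm_num
    · show dotInt _ (w2 O {pt 0, q}) = 16
      rw [u3_val, dot_uo, v0, hs]; norm_num
  have m3 : (⟨od3 C r, od3_mem hC.1 hr.2⟩ : leechLattice) ∈ m2Pts uA u3 := by
    have v0 : od3 C r (pt 0) = -1 := od3_in (Ne.symm hr.1) hC.2.1
    have v1 : od3 C r (pt 1) = 1 := od3_out (by rintro rfl; exact hC.2.2 hr.2) hC.2.2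
    refine ⟨norm_od3, ?_, ?_⟩
    · show dotInt _ (od3 C r) = 0
      rw [uA_val, dot_symm, dot_u44, v0, v1]; norm_num
    · show dotInt _ (od3 C r) = 16
      rw [u3_val, dot_uo, v0, sum_od3 hC.1 hr.2]; norm_num
  obtain ⟨a1, a2⟩ := key m1 (orbit330 hO₁.1 hO₁.2.1 hO₁.2.2)
  obtain ⟨b1, b2⟩ := key m2 (orbit462 hO o0 o1 hq.1 hq.2.1 hq.2.2)
  obtain ⟨c1, c2⟩ := key m3 (orbit1232 hC.1 hC.2.1 hC.2.2 hr.2 hr.1)
  exact ⟨_, a1, _, b1, _, c1, a2, b2, c2⟩

end CfsgLib.Leech
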