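import Cfsg.Agent.Lib.MD4
set_option autoImplicit false
set_option linter.style.haveILetI false
set_option linter.unusedSectionVars false

/-! Minimal degrees in cross characteristic: eigenspaces of abelian groups over algebraically closed fields. -/

namespace CfsgLib.MDK

section eig
variable {K : Type*} [Field K] {W : Type*} [AddCommGroup W] [Fintype W] {V : Type*} [AddCommGroup V] [Module K V]
  (σ : W → (V →ₗ[K] V)) (h0 : σ 0 = 1) (hadd : ∀ w w', σ (w + w') = σ w * σ w') (hne : (Fintype.card W : K) ≠ 0)

/-- eigenvectors -/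
def Eig (χ : AddChar W K) (x : V) : Prop := ∀ w, σ w x = χ w • x

/-- projections -/
noncomputable def pr (χ : AddChar W K) : V →ₗ[K] V := (Fintype.card W : K)⁻¹ • ∑ w, χ (-w) • σ w

theorem pr_apply (χ : AddChar W K) (x : V) : pr σ χ x = (Fintype.card W : K)⁻¹ • ∑ w, χ (-w) • σ w x := by
  simp [pr]

include hadd in
theorem pr_eig (χ : AddChar W K) (x : V) : Eig σ χ (pr σ χ x) := by
  intro w
  rw [pr_apply, map_smul, map_sum, smul_comm (χ w)]
  congr 1
  rw [Finset.smul_sum]
  refine Fintype.sum_equiv (Equiv.addLeft w) _ _ (fun u => ?_)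
  rw [map_smul, smul_smul, Equiv.coe_addLeft, neg_add, AddChar.map_add_eq_mul, ← mul_assoc, ← AddChar.map_add_eq_mul, add_neg_cancel,
    AddChar.map_zero_eq_one, one_mul, hadd]
  rfl

include hne in
theorem pr_of_eig {χ : AddChar W K} {x : V} (h : Eig σ χ x) : pr σ χ x = x := by
  rw [pr_apply]
  have h1 : ∀ w : W, χ (-w) • σ w x = x := by
    intro w
    rw [h w, smul_smul, ← AddChar.map_add_eq_mul, neg_add_cancel, AddChar.map_zero_eq_one, one_smul]
  simp only [h1, Finset.sum_const, Finset.card_univ]
  rw [← Nat.cast_smul_eq_nsmul K, smul_smul, inv_mul_cancel₀ hne, one_smul]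

theorem pr_of_eig_ne {χ χ' : AddChar W K} (hne : χ' ≠ χ) {x : V} (h : Eig σ χ' x) : pr σ χ x = 0 := by
  classical
  rw [pr_apply]
  have h1 : ∀ w : W, χ (-w) • σ w x = (χ' - χ) w • x := by
    intro w
    rw [h w, smul_smul, AddChar.sub_apply, mul_comm]
  simp only [h1]
  rw [← Finset.sum_smul, AddChar.sum_eq_ite, if_neg (sub_ne_zero.mpr hne), zero_smul, smul_zero]

include hne in
theorem card_le [FiniteDimensional K V] (S : Finset (AddChar W K)) (hS : ∀ χ ∈ S, ∃ x, x ≠ 0 ∧ Eig σ χ x) :
    S.card ≤ Module.finrank K V := by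
  classical
  choose e he using fun χ : S => hS χ.1 χ.2
  have hli : LinearIndependent K e := by
    rw [linearIndependent_iff']
    intro s g hg i hi
    have h1 := congrArg (pr σ i.1) hg
    rw [map_sum, map_zero, Finset.sum_eq_single i] at h1
    · rw [map_smul, pr_of_eig σ hne (he i).2] at h1
      exact (smul_eq_zero.mp h1).resolve_right (he i).1
    · intro j _ hji
      rw [map_smul, pr_of_eig_ne σ (fun h => hji (Subtype.ext h)) (he j).2, smul_zero]
    · intro h
      exact absurd hi h
  have := hli.fintype_card_le_finrank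
  rwa [Fintype.card_coe] at this

variable (W) in
theorem finite_char : Finite (AddChar W K) := by
  refine Finite.of_injective (fun χ : AddChar W K => (fun w => (⟨χ w, ?_⟩ : {z : K // z ∈ Polynomial.nthRootsFinset (Fintype.card W) (1 : K)}))) ?_
  · rw [Polynomial.mem_nthRootsFinset Fintype.card_pos, ← AddChar.map_nsmul_eq_pow, card_nsmul_eq_zero, AddChar.map_zero_eq_one]
  · intro χ χ' h
    ext w
    exact congrArg Subtype.val (congrFun h w)

include h0 hne in
theorem sum_pr [IsAlgClosed K] [Fintype (AddChar W K)] (x : V) : ∑ χ : AddChar W K, pr σ χ x = x := by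
  classical
  have horth : ∀ w : W, w ≠ 0 → ∑ χ : AddChar W K, χ w = 0 := by
    intro w hw
    haveI : NeZero ((Monoid.exponent (Multiplicative W) : ℕ) : K) := ⟨by
      intro h
      have h1 : Monoid.exponent (Multiplicative W) ∣ Nat.card (Multiplicative W) := Group.exponent_dvd_nat_card
      obtain ⟨c, hc⟩ := h1
      apply hne
      rw [← Nat.card_eq_fintype_card, show Nat.card W = Nat.card (Multiplicative W) from rfl, hc]
      push_cast
      rw [h, zero_mul]⟩
    obtain ⟨φ, hφ⟩ := CommGroup.exists_apply_ne_one_of_hasEnoughRootsOfUnity (Multiplicative W) K (a := Multiplicative.ofAdd w) (by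
      intro h
      exact hw (Multiplicative.ofAdd.injective h))
    let χ1 : AddChar W K := { toFun := fun w => (φ (Multiplicative.ofAdd w) : K)
                              map_zero_eq_one' := by rw [ofAdd_zero, map_one, Units.val_one]
                              map_add_eq_mul' := fun a b => by rw [ofAdd_add, map_mul, Units.val_mul] }
    have hχ1 : χ1 w ≠ 1 := fun h => hφ (Units.ext h)
    have h1 : χ1 w * ∑ χ : AddChar W K, χ w = ∑ χ : AddChar W K, χ w := by
      rw [Finset.mul_sum]
      refine Fintype.sum_equiv (Equiv.addLeft χ1) _ _ (fun χ => ?_)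
      rfl
    have h2 : (χ1 w - 1) * ∑ χ : AddChar W K, χ w = 0 := by rw [sub_mul, h1, one_mul, sub_self]
    exact (mul_eq_zero.mp h2).resolve_left (sub_ne_zero.mpr hχ1)
  simp only [pr_apply]
  rw [← Finset.smul_sum, Finset.sum_comm]
  have h1 : ∀ w : W, ∑ χ : AddChar W K, χ (-w) • σ w x = (if w = 0 then (Fintype.card (AddChar W K) : K) else 0) • σ w x := by
    intro w
    rw [← Finset.sum_smul]
    congr 1
    by_cases hw : w = 0
    · rw [if_pos hw, hw, neg_zero]
      simp
    · rw [if_neg hw, horth _ (neg_ne_zero.mpr hw)]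
  simp only [h1, ite_smul, zero_smul]
  rw [Finset.sum_ite_eq' Finset.univ (0 : W), if_pos (Finset.mem_univ _), h0, smul_smul]
  have h2 : (Fintype.card (AddChar W K) : K) = Fintype.card W := by
    have h3 : ∑ χ : AddChar W K, ∑ w : W, χ w = ∑ w : W, ∑ χ : AddChar W K, χ w := Finset.sum_comm
    have h4 : ∀ χ : AddChar W K, ∑ w : W, χ w = if χ = 0 then (Fintype.card W : K) else 0 := fun χ => AddChar.sum_eq_ite χ
    have h5 : ∀ w : W, ∑ χ : AddChar W K, χ w = if w = 0 then (Fintype.card (AddChar W K) : K) else 0 := by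
      intro w
      by_cases hw : w = 0
      · rw [if_pos hw, hw]; simp
      · rw [if_neg hw, horth w hw]
    rw [Finset.sum_congr rfl (fun χ _ => h4 χ), Finset.sum_congr rfl (fun w _ => h5 w), Finset.sum_ite_eq' Finset.univ (0 : AddChar W K),
      if_pos (Finset.mem_univ _), Finset.sum_ite_eq' Finset.univ (0 : W), if_pos (Finset.mem_univ _)] at h3
    exact h3.symm
  rw [h2, inv_mul_cancel₀ hne, one_smul]
  rfl

include h0 hadd hne in
/-- an occurring character nontrivial at a given element -/
theorem exists_char [IsAlgClosed K] (w0 : W) (hw0 : σ w0 ≠ 1) : ∃ (χ : AddChar W K) (x : V), x ≠ 0 ∧ Eig σ χ x ∧ χ w0 ≠ 1 := by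
  by_contra hc
  push Not at hc
  apply hw0
  apply LinearMap.ext
  intro x
  change σ w0 x = x
  haveI := finite_char (K := K) W
  haveI := Fintype.ofFinite (AddChar W K)
  conv_rhs => rw [← sum_pr σ h0 hne x]
  conv_lhs => rw [← sum_pr σ h0 hne x]
  rw [map_sum]
  refine Finset.sum_congr rfl fun χ _ => ?_
  by_cases h : pr σ χ x = 0
  · rw [h, map_zero]
  · rw [pr_eig σ hadd χ x w0, hc χ _ h (pr_eig σ hadd χ x), one_smul]

end eig

section shift
variable {F : Type*} [Field F] [Fintype F] {K : Type*} [Field K]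

/-- additive characters of a finite field -/
theorem exists_shift {β0 : AddChar F K} (h0 : β0 ≠ 1) (β : AddChar F K) : ∃ c, ∀ v, β v = β0 (c * v) := by
  haveI := finite_char (K := K) F
  haveI := Fintype.ofFinite (AddChar F K)
  have h1 := AddChar.to_mulShift_inj_of_isPrimitive (AddChar.IsPrimitive.of_ne_one h0)
  have h3 : Fintype.card (AddChar F K) ≤ Fintype.card F := by
    have h4 : LinearIndependent K (fun χ : AddChar F K => (fun w : F => χ w)) := by
      have h5 := linearIndependent_monoidHom (Multiplicative F) K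
      have h6 := h5.comp (fun χ : AddChar F K => AddChar.toMonoidHom χ) (fun a b hab => by
        ext w
        exact DFunLike.congr_fun hab (Multiplicative.ofAdd w))
      exact h6
    have h5 := h4.fintype_card_le_finrank
    rwa [Module.finrank_fintype_fun_eq_card] at h5
  have h2 : Function.Bijective (AddChar.mulShift β0) :=
    (Fintype.bijective_iff_injective_and_card _).mpr ⟨h1, le_antisymm (Fintype.card_le_of_injective _ h1) h3⟩
  obtain ⟨c, hc⟩ := h2.2 β
  refine ⟨c, fun v => ?_⟩
  rw [← hc, AddChar.mulShift_apply]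

theorem psi_inj {ψ : AddChar F K} (hψ : ψ ≠ 1) {a b : F} (h : ∀ c, ψ (a * c) = ψ (b * c)) : a = b := by
  refine AddChar.to_mulShift_inj_of_isPrimitive (AddChar.IsPrimitive.of_ne_one hψ) ?_
  ext c
  rw [AddChar.mulShift_apply, AddChar.mulShift_apply, h]

end shift

end CfsgLib.MDK
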