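import Cfsg.Agent.Lib.MDK
import Cfsg.Agent.Lib.QF3
import Cfsg.Agent.Lib.WL3
set_option autoImplicit false
set_option linter.style.haveILetI false
set_option linter.unusedSectionVars false

/-! Minimal degrees in cross characteristic: symplectic and special linear groups. -/

namespace CfsgLib.MDK
open Matrix CfsgLib.MD CfsgLib.QF

section conv
variable {F : Type*} [Field F] [Fintype F] {K : Type*} [Field K]

theorem card_ne (h : ringChar K ≠ ringChar F) : (Fintype.card F : K) ≠ 0 := by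
  intro h0
  obtain ⟨p, hp⟩ := CharP.exists F
  obtain ⟨n, hp', hn⟩ := FiniteField.card F p
  have h1 : ringChar F = p := (ringChar.eq F p)
  rw [hn] at h0
  push_cast at h0
  have h2 := pow_eq_zero_iff (by exact n.ne_zero) |>.mp h0
  have h3 : ringChar K ∣ p := (ringChar.spec K p).mp h2
  rcases (Nat.dvd_prime hp').mp h3 with h4 | h4
  · exact CharP.ringChar_ne_one h4
  · exact h (h4.trans h1.symm)

theorem chi_ne {A : Type*} [AddGroup A] (χ : AddChar A K) (z : A) : χ z ≠ 0 := fun hz => by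
  have := AddChar.map_add_eq_mul χ z (-z)
  rw [add_neg_cancel, AddChar.map_zero_eq_one, hz, zero_mul] at this
  exact one_ne_zero this

/-- extension of scalars of a matrix representation -/
noncomputable def ext {G : Type*} [Group G] {d : ℕ} (ρ : G →* GL (Fin d) K) : G →* Module.End (AlgebraicClosure K) (Fin d → AlgebraicClosure K) where
  toFun g := Matrix.toLin' ((ρ g).1.map (algebraMap K (AlgebraicClosure K)))
  map_one' := by
    rw [map_one, Units.val_one, Matrix.map_one _ (map_zero _) (map_one _), Matrix.toLin'_one]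
    rfl
  map_mul' g g' := by
    rw [map_mul, Units.val_mul, Matrix.map_mul, Matrix.toLin'_mul]
    rfl

theorem ext_ne {G : Type*} [Group G] {d : ℕ} (ρ : G →* GL (Fin d) K) {g : G} (h : ρ g ≠ 1) : ext ρ g ≠ 1 := by
  intro h1
  apply h
  apply Units.ext
  have h2 : Matrix.toLin' ((ρ g).1.map (algebraMap K (AlgebraicClosure K))) = Matrix.toLin' (1 : Matrix (Fin d) (Fin d) (AlgebraicClosure K)) := by
    rw [Matrix.toLin'_one]; exact h1
  have h3 := Matrix.toLin'.injective h2
  ext i j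
  have h4 := congrFun (congrFun h3 i) j
  rw [Matrix.map_apply] at h4
  apply (algebraMap K (AlgebraicClosure K)).injective
  rw [h4, Units.val_one, Matrix.one_apply, Matrix.one_apply]
  split_ifs
  · rw [map_one]
  · rw [map_zero]

end conv

section symp
variable {F : Type*} [Field F] [Fintype F] {n : ℕ} {K : Type*} [Field K] [IsAlgClosed K]

theorem symW_ne (hq : (Fintype.card F : K) ≠ 0) : (Fintype.card (SymW F n) : K) ≠ 0 := by
  have h1 : Nat.card (SymW F n) ∣ Nat.card (Matrix (Fin n) (Fin n) F) := AddSubgroup.card_addSubgroup_dvd_card _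
  rw [Nat.card_eq_fintype_card, Nat.card_eq_fintype_card] at h1
  have h2 : Fintype.card (Matrix (Fin n) (Fin n) F) = (Fintype.card F ^ n) ^ n := by
    rw [show Fintype.card (Matrix (Fin n) (Fin n) F) = Fintype.card (Fin n → Fin n → F) from rfl, Fintype.card_fun, Fintype.card_fun, Fintype.card_fin]
  obtain ⟨c, hc⟩ := h1
  intro h0
  rw [h2] at hc
  have h3 : (((Fintype.card F ^ n) ^ n : ℕ) : K) = 0 := by rw [hc]; push_cast; rw [h0, zero_mul]
  push_cast at h3
  exact pow_ne_zero _ (pow_ne_zero _ hq) h3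

theorem symp_setup {k : ℕ} (hq : (Fintype.card F : K) ≠ 0) (ρ : Matrix.symplecticGroup (Fin n) F →* Module.End K (Fin k → K)) (v0 : Fin n → F)
    (hX0 : ρ (aE (r1 1 v0)) ≠ 1) :
    ∃ Q0 : QuadraticForm F (Fin n → F), Q0 v0 ≠ 0 ∧ Nat.card (Set.range (fun A : GL (Fin n) F => fun v => Q0 (A.1 *ᵥ v))) ≤ k := by
  classical
  obtain ⟨χ0, x0, hx0, he, hχ⟩ := exists_char (fun X : SymW F n => ρ (aE X)) (by rw [aE_zero, map_one]) (fun X Y => by rw [aE_add, map_mul])
    (symW_ne hq) (r1 1 v0) hX0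
  have hz : ∀ v, χ0 (r1 0 v) = 1 := fun v => by
    rw [show r1 0 v = 0 from Subtype.ext (zero_smul _ _), AddChar.map_zero_eq_one]
  let cc : (Fin n → F) → AddChar F K := fun v =>
    { toFun := fun c => χ0 (r1 c v)
      map_zero_eq_one' := hz v
      map_add_eq_mul' := fun c c' => by rw [r1_add, AddChar.map_add_eq_mul] }
  set ψ : AddChar F K := cc v0 with hψd
  have hψ : ψ ≠ 1 := by
    intro h
    apply hχ
    have : ψ 1 = 1 := by rw [h]; rfl
    exact this
  have h1 : ∀ v : Fin n → F, ∃ a, ∀ c, χ0 (r1 c v) = ψ (a * c) := fun v => exists_shift hψ (cc v)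
  choose Q hQ using h1
  have hpol : ∀ c v w, χ0 (r2 c v w) = ψ (QuadraticMap.polar Q v w * c) := by
    intro c v w
    have h2 : χ0 (r1 c (v + w)) = χ0 (r1 c v) * χ0 (r1 c w) * χ0 (r2 c v w) := by
      rw [r1_addv, AddChar.map_add_eq_mul, AddChar.map_add_eq_mul]
    rw [hQ, hQ, hQ] at h2
    have h3 : ψ (Q (v + w) * c) = ψ (Q v * c) * ψ (Q w * c) * ψ (QuadraticMap.polar Q v w * c) := by
      rw [← AddChar.map_add_eq_mul, ← AddChar.map_add_eq_mul, QuadraticMap.polar]
      congr 1; ring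
    rw [h3] at h2
    exact (mul_left_cancel₀ (mul_ne_zero (chi_ne ψ _) (chi_ne ψ _)) h2).symm
  let Q0 : QuadraticForm F (Fin n → F) := QuadraticMap.ofPolar Q
    (fun a v => psi_inj hψ (fun c => by
      rw [← hQ, r1_smul, hQ, smul_eq_mul]
      congr 1; ring))
    (fun v v' w => psi_inj hψ (fun c => by
      rw [← hpol, r2_addl, AddChar.map_add_eq_mul, hpol, hpol, ← AddChar.map_add_eq_mul]
      congr 1; ring))
    (fun a v w => psi_inj hψ (fun c => by
      rw [← hpol, r2_smull, hpol, smul_eq_mul]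
      congr 1; ring))
  refine ⟨Q0, ?_, ?_⟩
  · intro h
    apply hψ
    ext c
    change χ0 (r1 c v0) = 1
    rw [hQ, show Q v0 = 0 from h, zero_mul, AddChar.map_zero_eq_one]
  let χA : GL (Fin n) F → AddChar (SymW F n) K := fun A =>
    { toFun := fun X => χ0 (actW A X)
      map_zero_eq_one' := by
        rw [show actW A 0 = 0 from Subtype.ext (by change A.1 * 0 * A.1ᵀ = 0; simp), AddChar.map_zero_eq_one]
      map_add_eq_mul' := fun X Y => by rw [actW_add, AddChar.map_add_eq_mul] }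
  have hcard := card_le (fun X : SymW F n => ρ (aE X)) (symW_ne hq) (Finset.univ.image χA) (by
    intro χ hχ
    obtain ⟨A, -, rfl⟩ := Finset.mem_image.mp hχ
    have h1 : ρ (gE A) * ρ (gE A)⁻¹ = 1 := by rw [← map_mul, mul_inv_cancel, map_one]
    refine ⟨ρ (gE A)⁻¹ x0, ?_, ?_⟩
    · intro h
      apply hx0
      have h2 : x0 = (ρ (gE A) * ρ (gE A)⁻¹) x0 := by rw [h1]; rfl
      rw [h2, Module.End.mul_apply, h, map_zero]
    · intro X
      change ρ (aE X) (ρ (gE A)⁻¹ x0) = χ0 (actW A X) • ρ (gE A)⁻¹ x0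
      have h2 : aE X * (gE A)⁻¹ = (gE A)⁻¹ * aE (actW A X) := by
        rw [eq_inv_mul_iff_mul_eq, ← mul_assoc, gE_aE, mul_assoc, mul_inv_cancel, mul_one]
      have h3 : ρ (aE X) (ρ (gE A)⁻¹ x0) = (ρ (aE X * (gE A)⁻¹)) x0 := by rw [map_mul]; rfl
      have h4 : ρ (aE (actW A X)) x0 = χ0 (actW A X) • x0 := he (actW A X)
      rw [h3, h2, map_mul, Module.End.mul_apply, h4, map_smul])
  rw [Module.finrank_fin_fun] at hcard
  refine le_trans ?_ hcard
  have hfin : (Set.range (fun A : GL (Fin n) F => fun v => Q0 (A.1 *ᵥ v))) ⊆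
      (((Finset.univ.image χA).image (fun χ => fun v => if h : ∃ a, ∀ c, χ (r1 c v) = ψ (a * c) then h.choose else 0) : Finset _) : Set ((Fin n → F) → F)) := by
    rintro _ ⟨A, rfl⟩
    rw [Finset.mem_coe, Finset.mem_image]
    refine ⟨χA A, Finset.mem_image_of_mem _ (Finset.mem_univ _), ?_⟩
    funext v
    have h4 : ∀ c, χA A (r1 c v) = ψ (Q (A.1 *ᵥ v) * c) := by
      intro c
      change χ0 (actW A (r1 c v)) = _
      rw [actW_r1, hQ]
    have h5 : ∃ a, ∀ c, χA A (r1 c v) = ψ (a * c) := ⟨_, h4⟩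
    change (if h : ∃ a, ∀ c, χA A (r1 c v) = ψ (a * c) then h.choose else 0) = Q (A.1 *ᵥ v)
    rw [dif_pos h5]
    exact psi_inj hψ (fun c => by rw [← h5.choose_spec c, h4])
  refine (Nat.card_mono (Finset.finite_toSet _) hfin).trans ?_
  rw [Nat.card_coe_set_eq, Set.ncard_coe_finset]
  exact Finset.card_image_le

theorem sp_bound [DecidableEq F] (h2 : (2 : F) ≠ 0) (hn : 2 ≤ n) {K : Type*} [Field K] (hK : ringChar K ≠ ringChar F) {d : ℕ}
    (ρ : Matrix.symplecticGroup (Fin n) F →* GL (Fin d) K) (hker : ρ.ker ≤ Subgroup.center _) : Fintype.card F ^ n - 1 ≤ 2 * d := by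
  obtain ⟨m, rfl⟩ : ∃ m, n = m + 1 := ⟨n - 1, by omega⟩
  set X0 : SymW F (m + 1) := r1 1 (Pi.single 0 1) with hX0
  have hX00 : X0 ≠ 0 := by
    intro h
    have h1 := congrArg (fun z : SymW F (m + 1) => z.1 0 0) h
    simp [hX0, r1, Matrix.vecMulVec_apply] at h1
  have hne : ρ (aE X0) ≠ 1 := fun h => CfsgLib.WL.aE_not_central h2 (by omega) hX00 (hker (MonoidHom.mem_ker.mpr h))
  have hq : (Fintype.card F : AlgebraicClosure K) ≠ 0 := by
    intro h
    apply card_ne hK
    apply (algebraMap K (AlgebraicClosure K)).injective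
    rw [map_natCast, map_zero, h]
  obtain ⟨Q0, h1, h3⟩ := symp_setup hq (ext ρ) (Pi.single 0 1) (ext_ne ρ hne)
  exact (orb1_le h2 Q0 h1).trans (Nat.mul_le_mul_left _ h3)

end symp

end CfsgLib.MDK
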