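import Cfsg.Agent.Lib.MDK2
import Cfsg.Agent.Lib.AutPSL4
set_option autoImplicit false
set_option linter.style.haveILetI false
set_option linter.unusedSectionVars false

/-! Minimal degrees in cross characteristic: special linear groups. -/

namespace CfsgLib.MDK
open Matrix CfsgLib.AutPSL

variable {F : Type*} [Field F] {m : ℕ}

/-- the radical of the stabiliser -/
noncomputable def aN (v : Fin m → F) : Matrix.SpecialLinearGroup (Fin (m + 1)) F := tv (Fin.cons 0 v : Fin (m + 1) → F) (Pi.single 0 1)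

theorem e0_cons (v : Fin m → F) : (Pi.single 0 1 : Fin (m + 1) → F) ⬝ᵥ (Fin.cons 0 v : Fin (m + 1) → F) = 0 := by
  rw [single_one_dotProduct]; rfl

theorem cons_add (v w : Fin m → F) : (Fin.cons 0 (v + w) : Fin (m + 1) → F) = Fin.cons 0 v + Fin.cons 0 w := by
  funext i
  refine Fin.cases ?_ (fun j => ?_) i
  · simp
  · simp

theorem aN_add (v w : Fin m → F) : aN (v + w) = aN v * aN w := by
  rw [aN, cons_add, tv_mul (e0_cons v) (e0_cons w)]
  rfl

theorem aN_zero : aN (0 : Fin m → F) = 1 := by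
  have h : (Fin.cons 0 (0 : Fin m → F) : Fin (m + 1) → F) = 0 := by
    funext i
    refine Fin.cases ?_ (fun j => ?_) i
    · simp
    · simp
  rw [aN, h, tv_zero]

theorem aN_coe (v : Fin m → F) : ((aN v : Matrix.SpecialLinearGroup (Fin (m + 1)) F) : Matrix (Fin (m + 1)) (Fin (m + 1)) F) =
    1 + vecMulVec (Fin.cons 0 v : Fin (m + 1) → F) (Pi.single 0 1) := tv_coe (e0_cons v)

/-- Levi transvections -/
noncomputable def gN (w φ : Fin m → F) : Matrix.SpecialLinearGroup (Fin (m + 1)) F := tv (Fin.cons 0 w : Fin (m + 1) → F) (Fin.cons 0 φ : Fin (m + 1) → F)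

theorem cons_dot (v w : Fin m → F) : (Fin.cons 0 v : Fin (m + 1) → F) ⬝ᵥ (Fin.cons 0 w : Fin (m + 1) → F) = v ⬝ᵥ w := by
  rw [dotProduct, Fin.sum_univ_succ]
  simp [dotProduct]

theorem gN_coe {w φ : Fin m → F} (h : φ ⬝ᵥ w = 0) : ((gN w φ : Matrix.SpecialLinearGroup (Fin (m + 1)) F) : Matrix (Fin (m + 1)) (Fin (m + 1)) F) =
    1 + vecMulVec (Fin.cons 0 w : Fin (m + 1) → F) (Fin.cons 0 φ : Fin (m + 1) → F) := tv_coe (by rw [cons_dot, h])

theorem gN_aN {w φ : Fin m → F} (h : φ ⬝ᵥ w = 0) (v : Fin m → F) : gN w φ * aN v = aN (v + (φ ⬝ᵥ v) • w) * gN w φ := by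
  apply Subtype.ext
  change ((gN w φ : Matrix.SpecialLinearGroup (Fin (m + 1)) F) : Matrix (Fin (m + 1)) (Fin (m + 1)) F) * ((aN v : Matrix.SpecialLinearGroup (Fin (m + 1)) F) : Matrix (Fin (m + 1)) (Fin (m + 1)) F) =
    ((aN (v + (φ ⬝ᵥ v) • w) : Matrix.SpecialLinearGroup (Fin (m + 1)) F) : Matrix (Fin (m + 1)) (Fin (m + 1)) F) * ((gN w φ : Matrix.SpecialLinearGroup (Fin (m + 1)) F) : Matrix (Fin (m + 1)) (Fin (m + 1)) F)
  rw [gN_coe h, aN_coe, aN_coe]
  have e1 : (Fin.cons 0 (v + (φ ⬝ᵥ v) • w) : Fin (m + 1) → F) = Fin.cons 0 v + (φ ⬝ᵥ v) • Fin.cons 0 w := by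
    funext i
    refine Fin.cases ?_ (fun j => ?_) i
    · simp
    · simp
  rw [e1]
  simp only [mul_add, add_mul, one_mul, mul_one, vecMulVec_mul_vecMulVec, cons_dot, e0_cons, zero_smul, vecMulVec_smul, vecMulVec_zero, add_zero, add_vecMulVec, smul_vecMulVec, smul_mul_assoc, smul_zero]
  abel

section occ
variable {K : Type*} [Field K] {k : ℕ} (ρ : Matrix.SpecialLinearGroup (Fin (m + 1)) F →* Module.End K (Fin k → K)) (ψ : AddChar F K)

/-- occurring characters -/
def Occ (x : Fin m → F) : Prop := ∃ y : Fin k → K, y ≠ 0 ∧ ∀ v, ρ (aN v) y = ψ (x ⬝ᵥ v) • y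

theorem Occ.step {x w φ : Fin m → F} (hx : Occ ρ ψ x) (h : φ ⬝ᵥ w = 0) : Occ ρ ψ (x + (x ⬝ᵥ w) • φ) := by
  obtain ⟨y, hy, hyv⟩ := hx
  refine ⟨ρ (gN w φ)⁻¹ y, ?_, fun v => ?_⟩
  · intro h0
    apply hy
    have h2 : y = (ρ (gN w φ) * ρ (gN w φ)⁻¹) y := by rw [← map_mul, mul_inv_cancel, map_one]; rfl
    rw [h2, Module.End.mul_apply, h0, map_zero]
  · have h2 : aN v * (gN w φ)⁻¹ = (gN w φ)⁻¹ * aN (v + (φ ⬝ᵥ v) • w) := by
      rw [eq_inv_mul_iff_mul_eq, ← mul_assoc, gN_aN h, mul_assoc, mul_inv_cancel, mul_one]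
    have h3 : ρ (aN v) (ρ (gN w φ)⁻¹ y) = (ρ (aN v * (gN w φ)⁻¹)) y := by rw [map_mul]; rfl
    rw [h3, h2, map_mul, Module.End.mul_apply, hyv, map_smul]
    congr 2
    rw [dotProduct_add, dotProduct_smul, add_dotProduct, smul_dotProduct, smul_eq_mul, smul_eq_mul]
    ring

theorem Occ.ind {x x' : Fin m → F} (hx : Occ ρ ψ x) (hne : x ∉ Submodule.span F {x' - x}) : Occ ρ ψ x' := by
  obtain ⟨f, hf, hf2⟩ := Submodule.exists_dual_map_eq_bot_of_notMem hne inferInstance
  have hf3 : f (x' - x) = 0 := by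
    have h2 : f (x' - x) ∈ (Submodule.span F {x' - x}).map f := ⟨_, Submodule.mem_span_singleton_self _, rfl⟩
    rwa [hf2, Submodule.mem_bot] at h2
  have hfd : ∀ z : Fin m → F, z ⬝ᵥ (fun i => f (Pi.single i 1)) = f z := by
    intro z
    have hz : z = ∑ i, z i • Pi.single i (1 : F) := by
      conv_lhs => rw [← Finset.univ_sum_single z]
      refine Finset.sum_congr rfl fun i _ => ?_
      rw [← Pi.single_smul, smul_eq_mul, mul_one]
    conv_rhs => rw [hz, map_sum]
    refine Finset.sum_congr rfl fun i _ => ?_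
    rw [map_smul, smul_eq_mul]
  have h1 := hx.step ρ ψ (w := (f x)⁻¹ • (fun i => f (Pi.single i 1))) (φ := x' - x) (by rw [dotProduct_smul, hfd, hf3, smul_zero])
  rw [dotProduct_smul, hfd, smul_eq_mul, inv_mul_cancel₀ hf, one_smul] at h1
  rwa [add_sub_cancel] at h1

theorem Occ.all (hm : 2 ≤ m) {x x' : Fin m → F} (hx : Occ ρ ψ x) (hx0 : x ≠ 0) (hx'0 : x' ≠ 0) : Occ ρ ψ x' := by
  by_cases h1 : x ∈ Submodule.span F {x' - x}
  · -- x' is a multiple of x
    obtain ⟨a, ha⟩ := Submodule.mem_span_singleton.mp h1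
    have ha0 : a ≠ 0 := by
      rintro rfl
      rw [zero_smul] at ha
      exact hx0 ha.symm
    have hxx : x' = (a⁻¹ * (1 + a)) • x := by
      have h2 : a • x' = (1 + a) • x := by
        rw [add_smul, one_smul]
        nth_rewrite 1 [← ha]
        rw [smul_sub]; abel
      rw [mul_smul, ← h2, smul_smul, inv_mul_cancel₀ ha0, one_smul]
    obtain ⟨w, hw⟩ : ∃ w : Fin m → F, w ∉ Submodule.span F {x} := by
      by_contra hcon
      push Not at hcon
      have h2 : Submodule.span F {x} = ⊤ := by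
        rw [eq_top_iff]; intro z _; exact hcon z
      have h3 := finrank_span_singleton (K := F) hx0
      rw [h2, finrank_top, Module.finrank_fin_fun] at h3
      omega
    have h2 : Occ ρ ψ w := hx.ind ρ ψ (by
      intro hh
      obtain ⟨b, hb⟩ := Submodule.mem_span_singleton.mp hh
      apply hw
      have hb0 : b ≠ 0 := by
        rintro rfl
        rw [zero_smul] at hb
        exact hx0 hb.symm
      have h2 : b • w = (1 + b) • x := by
        rw [add_smul, one_smul]
        nth_rewrite 1 [← hb]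
        rw [smul_sub]; abel
      have h3 : w = (b⁻¹ * (1 + b)) • x := by rw [mul_smul, ← h2, smul_smul, inv_mul_cancel₀ hb0, one_smul]
      rw [h3]
      exact Submodule.smul_mem _ _ (Submodule.mem_span_singleton_self _))
    refine h2.ind ρ ψ (fun hh => ?_)
    obtain ⟨b, hb⟩ := Submodule.mem_span_singleton.mp hh
    apply hw
    have h3 : (1 + b) • w = b • x' := by
      rw [add_smul, one_smul]
      nth_rewrite 1 [← hb]
      rw [smul_sub]; abel
    by_cases hb1 : 1 + b = 0
    · rw [hb1, zero_smul] at h3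
      have hb0 : b ≠ 0 := by
        rintro rfl
        rw [add_zero] at hb1
        exact one_ne_zero hb1
      exact absurd ((smul_eq_zero.mp h3.symm).resolve_left hb0) hx'0
    · have h4 : w = ((1 + b)⁻¹ * b) • x' := by rw [mul_smul, ← h3, smul_smul, inv_mul_cancel₀ hb1, one_smul]
      rw [h4, hxx, smul_smul]
      exact Submodule.smul_mem _ _ (Submodule.mem_span_singleton_self _)
  · exact hx.ind ρ ψ h1

end occ

/-- the characters of `F^m` -/
noncomputable def chx {K : Type*} [Field K] (ψ : AddChar F K) (x : Fin m → F) : AddChar (Fin m → F) K where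
  toFun t := ψ (x ⬝ᵥ t)
  map_zero_eq_one' := by rw [dotProduct_zero, AddChar.map_zero_eq_one]
  map_add_eq_mul' s t := by rw [dotProduct_add, AddChar.map_add_eq_mul]

theorem sl_bound [Fintype F] (hm : 2 ≤ m) {K : Type*} [Field K] (hK : ringChar K ≠ ringChar F) {d : ℕ}
    (ρ : Matrix.SpecialLinearGroup (Fin (m + 1)) F →* GL (Fin d) K) (hker : ρ.ker ≤ Subgroup.center _) : Fintype.card F ^ m - 1 ≤ d := by
  classical
  have hq : (Fintype.card F : AlgebraicClosure K) ≠ 0 := by
    intro h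
    apply card_ne hK
    apply (algebraMap K (AlgebraicClosure K)).injective
    rw [map_natCast, map_zero, h]
  have hqm : (Fintype.card (Fin m → F) : AlgebraicClosure K) ≠ 0 := by
    rw [Fintype.card_fun, Fintype.card_fin]
    push_cast
    exact pow_ne_zero _ hq
  have hm0 : 0 < m := by omega
  set i0 : Fin m := ⟨0, hm0⟩ with hi0
  have hne : ρ (aN (Pi.single i0 1)) ≠ 1 := by
    intro h
    have h1 := hker (MonoidHom.mem_ker.mpr h)
    rw [Matrix.SpecialLinearGroup.mem_center_iff] at h1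
    obtain ⟨r, -, hr⟩ := h1
    have h2 := congrFun (congrFun hr i0.succ) 0
    rw [aN_coe] at h2
    simp [Matrix.scalar_apply, vecMulVec_apply, Fin.succ_ne_zero] at h2
  obtain ⟨χ, y, hy, hE, hχ⟩ := exists_char (fun v : Fin m → F => ext ρ (aN v)) (by rw [aN_zero, map_one]) (fun v w => by rw [aN_add, map_mul])
    hqm (Pi.single i0 1) (ext_ne ρ hne)
  let cc : Fin m → AddChar F (AlgebraicClosure K) := fun i =>
    { toFun := fun c => χ (Pi.single i c)
      map_zero_eq_one' := by rw [Pi.single_zero, AddChar.map_zero_eq_one]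
      map_add_eq_mul' := fun c c' => by rw [Pi.single_add, AddChar.map_add_eq_mul] }
  set ψ := cc i0 with hψd
  have hψ : ψ ≠ 1 := by
    intro h
    apply hχ
    have : ψ 1 = 1 := by rw [h]; rfl
    exact this
  have h1 : ∀ i, ∃ a, ∀ c, cc i c = ψ (a * c) := fun i => exists_shift hψ (cc i)
  choose x hx using h1
  have hχx : ∀ v, χ v = ψ (x ⬝ᵥ v) := by
    intro v
    have h2 : v = ∑ i, Pi.single i (v i) := (Finset.univ_sum_single v).symm
    have h3 : ∀ (s : Finset (Fin m)), χ (∑ i ∈ s, Pi.single i (v i)) = ψ (∑ i ∈ s, x i * v i) := by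
      intro s
      induction s using Finset.induction_on with
      | empty => rw [Finset.sum_empty, Finset.sum_empty, AddChar.map_zero_eq_one, AddChar.map_zero_eq_one]
      | insert i s hi ih =>
        rw [Finset.sum_insert hi, Finset.sum_insert hi, AddChar.map_add_eq_mul, AddChar.map_add_eq_mul, ih, ← hx]
        rfl
    conv_lhs => rw [h2]
    exact h3 Finset.univ
  have hocc : Occ (ext ρ) ψ x := ⟨y, hy, fun v => by rw [← hχx]; exact hE v⟩
  have hx0 : x ≠ 0 := by
    intro h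
    apply hχ
    rw [hχx, h, zero_dotProduct, AddChar.map_zero_eq_one]
  have hinj : Function.Injective (chx (m := m) ψ) := by
    intro x x' h
    funext i
    refine psi_inj hψ (fun c => ?_)
    have h1 : ψ (x ⬝ᵥ Pi.single i c) = ψ (x' ⬝ᵥ Pi.single i c) := congrArg (fun χ : AddChar (Fin m → F) _ => χ (Pi.single i c)) h
    rwa [dotProduct_single, dotProduct_single] at h1
  have h3 := card_le (fun v : Fin m → F => ext ρ (aN v)) hqm ((Finset.univ.erase (0 : Fin m → F)).image (chx ψ)) (by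
    intro χ' hχ'
    obtain ⟨x', hx', rfl⟩ := Finset.mem_image.mp hχ'
    obtain ⟨y', hy', hyv'⟩ := hocc.all (ext ρ) ψ hm hx0 (Finset.ne_of_mem_erase hx')
    exact ⟨y', hy', hyv'⟩)
  rw [Finset.card_image_of_injective _ hinj, Finset.card_erase_of_mem (Finset.mem_univ _), Finset.card_univ, Fintype.card_fun, Fintype.card_fin,
    Module.finrank_fin_fun] at h3
  exact h3

end CfsgLib.MDK
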