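import Mathlib

namespace CfsgLib.MaschkeAb
open Subgroup

theorem main {V A : Type*} [CommGroup V] [Finite V] [Group A] [Finite A] (φ : A →* MulAut V) (hcop : (Nat.card A).Coprime (Nat.card V))
    (U W : Subgroup V) (hU : ∀ a : A, ∀ u ∈ U, φ a u ∈ U) (h1 : U ⊓ W = ⊥) (h2 : U ⊔ W = ⊤) :
    ∃ W' : Subgroup V, (∀ a : A, ∀ w ∈ W', φ a w ∈ W') ∧ U ⊓ W' = ⊥ ∧ U ⊔ W' = ⊤ := by
  classical
  haveI := Fintype.ofFinite A
  have hbij : Function.Bijective (U.subtype.coprod W.subtype) := by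
    constructor
    · rw [← MonoidHom.ker_eq_bot_iff, eq_bot_iff]
      rintro ⟨u, w⟩ h
      have h' : (u : V) * w = 1 := h
      have h3 : (u : V) ∈ U ⊓ W := ⟨u.2, by rw [eq_inv_of_mul_eq_one_left h']; exact W.inv_mem w.2⟩
      rw [h1, mem_bot] at h3
      rw [h3, one_mul] at h'
      exact Prod.ext (Subtype.ext h3) (Subtype.ext h')
    · intro v
      have hv : v ∈ U ⊔ W := by rw [h2]; exact mem_top v
      rw [mem_sup] at hv
      obtain ⟨u, hu, w, hw, rfl⟩ := hv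
      exact ⟨(⟨u, hu⟩, ⟨w, hw⟩), rfl⟩
  let e := MulEquiv.ofBijective _ hbij
  let π : V →* V := U.subtype.comp ((MonoidHom.fst U W).comp e.symm.toMonoidHom)
  have hπU : ∀ v, π v ∈ U := fun v => ((MonoidHom.fst U W) (e.symm v)).2
  have hπ1 : ∀ u ∈ U, π u = u := by
    intro u hu
    have h3 : e (⟨u, hu⟩, 1) = u := by
      show u * ((1 : W) : V) = u
      simp
    have h4 : e.symm u = (⟨u, hu⟩, 1) := (MulEquiv.symm_apply_eq e).2 h3.symm
    show (((MonoidHom.fst U W) (e.symm u) : U) : V) = u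
    rw [h4]; rfl
  let σ : V →* V :=
    { toFun := fun v => ∏ a : A, φ a (π (φ a⁻¹ v))
      map_one' := by simp
      map_mul' := fun x y => by simp [Finset.prod_mul_distrib] }
  have hσ : ∀ v, σ v = ∏ a : A, φ a (π (φ a⁻¹ v)) := fun v => rfl
  have hσU : ∀ v, σ v ∈ U := fun v => by
    rw [hσ]; exact U.prod_mem (fun a _ => hU a _ (hπU _))
  have hσ1 : ∀ u ∈ U, σ u = u ^ Nat.card A := by
    intro u hu
    rw [hσ]
    have : ∀ a : A, φ a (π (φ a⁻¹ u)) = u := by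
      intro a
      rw [hπ1 _ (hU _ _ hu)]; simp
    simp only [this, Finset.prod_const, Finset.card_univ, Nat.card_eq_fintype_card]
  have hσφ : ∀ (b : A) (v : V), σ (φ b v) = φ b (σ v) := by
    intro b v
    rw [hσ, hσ, map_prod]
    refine (Fintype.prod_equiv (Equiv.mulLeft b) _ _ (fun a => ?_)).symm
    simp [map_mul]
  have hcU : (Nat.card U).Coprime (Nat.card A) := (Nat.Coprime.coprime_dvd_right (card_subgroup_dvd_card U) hcop).symm
  refine ⟨σ.ker, ?_, ?_, ?_⟩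
  · intro a w hw
    rw [MonoidHom.mem_ker] at hw ⊢
    rw [hσφ, hw, map_one]
  · rw [eq_bot_iff]
    rintro u ⟨hu, huk⟩
    have huk' : σ u = 1 := huk
    rw [hσ1 u hu] at huk'
    have h3 := (powCoprime hcU).injective (a₁ := ⟨u, hu⟩) (a₂ := 1) (Subtype.ext (by
      simpa using huk'))
    exact congrArg Subtype.val h3
  · rw [eq_top_iff]
    intro v _
    obtain ⟨u, hu⟩ := (powCoprime hcU).surjective ⟨σ v, hσU v⟩
    have hu' : (u : V) ^ Nat.card A = σ v := congrArg Subtype.val hu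
    have h3 : (u : V)⁻¹ * v ∈ σ.ker := by
      rw [MonoidHom.mem_ker, map_mul, map_inv, hσ1 _ u.2, hu', inv_mul_cancel]
    have h4 : v = u * ((u : V)⁻¹ * v) := by group
    rw [h4]
    exact mul_mem_sup u.2 h3

theorem s0660 {G : Type*} [Group G] [Finite G] (V A U : Subgroup G) (hVab : IsMulCommutative V) (hAV : A ≤ Subgroup.normalizer (V : Set G)) (hcop : (Nat.card A).Coprime (Nat.card V)) (hUV : U ≤ V) (hAU : A ≤ Subgroup.normalizer (U : Set G)) (W : Subgroup G) (hWV : W ≤ V) (hUW : U ⊓ W = ⊥) (hUWV : U ⊔ W = V) : ∃ W' : Subgroup G, W' ≤ V ∧ A ≤ Subgroup.normalizer (W' : Set G) ∧ U ⊓ W' = ⊥ ∧ U ⊔ W' = V := by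
  letI : CommGroup V := { (inferInstance : Group V) with mul_comm := fun x y => hVab.is_comm.comm x y }
  let φ : A →* MulAut V := V.normalizerMonoidHom.comp (Subgroup.inclusion hAV)
  have hφ : ∀ (f : A) (v : V), ((φ f v : V) : G) = f * v * (f : G)⁻¹ := fun f v => rfl
  obtain ⟨W', h1, h2, h3⟩ := main φ hcop (U.subgroupOf V) (W.subgroupOf V) (by
    intro a u hu
    rw [mem_subgroupOf, hφ]
    exact (mem_normalizer_iff.1 (hAU a.2) _).1 hu) (by
    rw [eq_bot_iff]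
    rintro x ⟨hx1, hx2⟩
    have hx : (x : G) ∈ U ⊓ W := ⟨hx1, hx2⟩
    rw [hUW, mem_bot] at hx
    exact Subtype.ext hx) (by
    rw [← subgroupOf_sup hUV hWV, hUWV, subgroupOf_self])
  have hin : ∀ a ∈ A, ∀ w ∈ W'.map V.subtype, a * w * a⁻¹ ∈ W'.map V.subtype := by
    rintro a ha _ ⟨w, hw, rfl⟩
    exact ⟨φ ⟨a, ha⟩ w, h1 _ w hw, rfl⟩
  refine ⟨W'.map V.subtype, map_subtype_le _, ?_, ?_, ?_⟩
  · intro a ha
    rw [mem_normalizer_iff]
    intro w
    refine ⟨hin a ha w, fun h => ?_⟩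
    have := hin a⁻¹ (A.inv_mem ha) _ h
    simpa [mul_assoc] using this
  · rw [eq_bot_iff]
    rintro x ⟨hx1, w, hw, rfl⟩
    have hx : w ∈ U.subgroupOf V ⊓ W' := ⟨hx1, hw⟩
    rw [h2, mem_bot] at hx
    rw [hx]; exact mem_bot.2 rfl
  · have h4 := congrArg (Subgroup.map V.subtype) h3
    rw [Subgroup.map_sup, map_subgroupOf_eq_of_le hUV, ← MonoidHom.range_eq_map, range_subtype] at h4
    exact h4

end CfsgLib.MaschkeAb
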