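import Mathlib

set_option autoImplicit false

/-! Computing with 2x2 matrix groups over `ZMod q` by explicit lists. -/
namespace CfsgLib.MatList

abbrev Qd := ℕ × ℕ × ℕ × ℕ

def mulq (q : ℕ) (x y : Qd) : Qd :=
  ((x.1 * y.1 + x.2.1 * y.2.2.1) % q, (x.1 * y.2.1 + x.2.1 * y.2.2.2) % q,
   (x.2.2.1 * y.1 + x.2.2.2 * y.2.2.1) % q, (x.2.2.1 * y.2.1 + x.2.2.2 * y.2.2.2) % q)

def toM (q : ℕ) (x : Qd) : Matrix (Fin 2) (Fin 2) (ZMod q) :=
  !![(x.1 : ZMod q), (x.2.1 : ZMod q); (x.2.2.1 : ZMod q), (x.2.2.2 : ZMod q)]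

def oneq : Qd := (1, 0, 0, 1)

theorem toM_one (q : ℕ) : toM q oneq = 1 := by
  unfold toM oneq
  ext i j
  fin_cases i <;> fin_cases j <;> simp

theorem toM_mul (q : ℕ) (x y : Qd) : toM q (mulq q x y) = toM q x * toM q y := by
  unfold toM mulq
  ext i j
  fin_cases i <;> fin_cases j <;> simp [Matrix.mul_apply, Fin.sum_univ_two]

def red (q : ℕ) (x : Qd) : Bool := decide (x.1 < q) && decide (x.2.1 < q) && decide (x.2.2.1 < q) && decide (x.2.2.2 < q)

theorem toM_inj {q : ℕ} {x y : Qd} (hx : red q x = true) (hy : red q y = true) (h : toM q x = toM q y) : x = y := by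
  unfold red at hx hy
  simp only [Bool.and_eq_true, decide_eq_true_eq] at hx hy
  have h00 := congrFun (congrFun h 0) 0
  have h01 := congrFun (congrFun h 0) 1
  have h10 := congrFun (congrFun h 1) 0
  have h11 := congrFun (congrFun h 1) 1
  simp only [toM, Matrix.of_apply, Matrix.cons_val', Matrix.cons_val_zero, Matrix.cons_val_one, Matrix.cons_val_fin_one] at h00 h01 h10 h11
  rw [ZMod.natCast_eq_natCast_iff, Nat.ModEq, Nat.mod_eq_of_lt, Nat.mod_eq_of_lt] at h00 h01 h10 h11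
  · exact Prod.ext h00 (Prod.ext h01 (Prod.ext h10 h11))
  all_goals omega

def evalN (q : ℕ) (gens : List Qd) : List ℕ → Qd
  | [] => oneq
  | i :: w => mulq q (gens.getD i oneq) (evalN q gens w)

def evalG {Γ : Type*} [Group Γ] (g : ℕ → Γ) : List ℕ → Γ
  | [] => 1
  | i :: w => g i * evalG g w

/-- the check: list of reduced distinct matrices containing `1` and closed under left multiplication by the generators -/
def check (q : ℕ) (gens : List Qd) (L : List Qd) : Bool :=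
  L.all (red q) && decide L.Nodup && L.contains oneq && gens.all (fun a => L.all (fun x => L.contains (mulq q a x)))

theorem evalG_eq {q : ℕ} [Fact q.Prime] (gens : List Qd) (g : ℕ → GL (Fin 2) (ZMod q))
    (hg : ∀ i, (g i : Matrix (Fin 2) (Fin 2) (ZMod q)) = toM q (gens.getD i oneq)) (w : List ℕ) :
    ((evalG g w : GL (Fin 2) (ZMod q)) : Matrix (Fin 2) (Fin 2) (ZMod q)) = toM q (evalN q gens w) := by
  induction w with
  | nil => simp [evalG, evalN, toM_one]
  | cons i w ih =>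
    change ((g i * evalG g w : GL (Fin 2) (ZMod q)) : Matrix (Fin 2) (Fin 2) (ZMod q)) = toM q (mulq q (gens.getD i oneq) (evalN q gens w))
    rw [toM_mul, ← ih, ← hg]
    rfl

theorem closure_list {q : ℕ} [Fact q.Prime] (gens : List Qd) (g : ℕ → GL (Fin 2) (ZMod q))
    (hg : ∀ i, (g i : Matrix (Fin 2) (Fin 2) (ZMod q)) = toM q (gens.getD i oneq)) (S : Set (GL (Fin 2) (ZMod q)))
    (hS1 : ∀ s ∈ S, ∃ i, i < gens.length ∧ s = g i) (hS2 : ∀ i, g i ∈ Subgroup.closure S)
    (W : List (List ℕ)) (hc : check q gens (W.map (evalN q gens)) = true) :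
    Nat.card (Subgroup.closure S) = W.length ∧
      ∀ M ∈ Subgroup.closure S, ∃ x ∈ W.map (evalN q gens), (M : Matrix (Fin 2) (Fin 2) (ZMod q)) = toM q x := by
  classical
  set L := W.map (evalN q gens) with hL
  unfold check at hc
  simp only [Bool.and_eq_true, decide_eq_true_eq, List.all_eq_true, List.contains_iff_mem] at hc
  obtain ⟨⟨⟨hred, hnodup⟩, hone⟩, hclos⟩ := hc
  have hmem : ∀ M ∈ Subgroup.closure S, ∃ x ∈ L, (M : Matrix (Fin 2) (Fin 2) (ZMod q)) = toM q x := by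
    intro M hM
    rw [← Subgroup.mem_toSubmonoid, Subgroup.closure_toSubmonoid_of_finite] at hM
    induction hM using Submonoid.closure_induction_left with
    | one => exact ⟨oneq, hone, by rw [toM_one]; rfl⟩
    | mul_left s hs y hy ih =>
      obtain ⟨x, hx, hxy⟩ := ih
      obtain ⟨i, hi, rfl⟩ := hS1 s hs
      refine ⟨mulq q (gens.getD i oneq) x, ?_, ?_⟩
      · apply hclos _ _ _ hx
        rw [List.getD_eq_getElem _ _ hi]
        exact List.getElem_mem hi
      · rw [toM_mul, ← hxy, ← hg]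
        rfl
  have hmem2 : ∀ w : List ℕ, evalG g w ∈ Subgroup.closure S := by
    intro w
    induction w with
    | nil => exact one_mem _
    | cons i w ih => exact mul_mem (hS2 i) ih
  refine ⟨?_, hmem⟩
  have hcard : L.toFinset.card = W.length := by
    rw [List.toFinset_card_of_nodup hnodup, hL, List.length_map]
  rw [← hcard]
  choose! f hf1 hf2 using hmem
  have hsub : Nat.card {x // x ∈ L} = L.toFinset.card := by
    rw [Nat.card_eq_fintype_card, Fintype.card_of_subtype L.toFinset (fun x => List.mem_toFinset)]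
  rw [← hsub]
  refine Nat.card_congr (Equiv.ofBijective (fun M : Subgroup.closure S => (⟨f M, hf1 M M.2⟩ : {x // x ∈ L})) ⟨?_, ?_⟩)
  · intro M N hMN
    have h1 : f M = f N := congrArg Subtype.val hMN
    apply Subtype.ext
    apply Units.ext
    rw [hf2 M M.2, hf2 N N.2, h1]
  · rintro ⟨x, hx⟩
    have hx' := hx
    rw [hL, List.mem_map] at hx'
    obtain ⟨w, hw, hwx⟩ := hx'
    refine ⟨⟨evalG g w, hmem2 w⟩, ?_⟩
    apply Subtype.ext
    apply toM_inj (hred _ (hf1 _ (hmem2 w))) (hred _ hx)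
    change toM q (f (evalG g w)) = toM q x
    rw [← hf2 _ (hmem2 w), evalG_eq gens g hg w, hwx]

/-- a subgroup of `GL(2,q)` of order `q^2-1` in which the stabiliser of `e₁` is trivial is regular on nonzero vectors -/
theorem regular_of_card {q : ℕ} [Fact q.Prime] (H : Subgroup (GL (Fin 2) (ZMod q))) (hH : Nat.card H = q ^ 2 - 1)
    (hst : ∀ M ∈ H, (M : Matrix (Fin 2) (Fin 2) (ZMod q)) 0 0 = 1 → (M : Matrix (Fin 2) (Fin 2) (ZMod q)) 1 0 = 0 → M = 1) :
    ∀ v w : Fin 2 → ZMod q, v ≠ 0 → w ≠ 0 →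
      ∃! h : H, Matrix.mulVec ((h : GL (Fin 2) (ZMod q)) : Matrix (Fin 2) (Fin 2) (ZMod q)) v = w := by
  classical
  set e : Fin 2 → ZMod q := ![1, 0] with he
  have he0 : e ≠ 0 := by
    intro h
    have := congrFun h 0
    simp [he] at this
  have hcomp : ∀ (M N : GL (Fin 2) (ZMod q)) (v : Fin 2 → ZMod q),
      Matrix.mulVec ((M * N : GL (Fin 2) (ZMod q)) : Matrix (Fin 2) (Fin 2) (ZMod q)) v =
      Matrix.mulVec (M : Matrix (Fin 2) (Fin 2) (ZMod q)) (Matrix.mulVec (N : Matrix (Fin 2) (Fin 2) (ZMod q)) v) := by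
    intro M N v
    rw [Matrix.mulVec_mulVec]; rfl
  have hone : ∀ v : Fin 2 → ZMod q, Matrix.mulVec ((1 : GL (Fin 2) (ZMod q)) : Matrix (Fin 2) (Fin 2) (ZMod q)) v = v := by
    intro v
    change Matrix.mulVec (1 : Matrix (Fin 2) (Fin 2) (ZMod q)) v = v
    exact Matrix.one_mulVec v
  have hinv : ∀ (M : GL (Fin 2) (ZMod q)) (v w : Fin 2 → ZMod q), Matrix.mulVec (M : Matrix (Fin 2) (Fin 2) (ZMod q)) v = w →
      Matrix.mulVec ((M⁻¹ : GL (Fin 2) (ZMod q)) : Matrix (Fin 2) (Fin 2) (ZMod q)) w = v := by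
    intro M v w h
    rw [← h, ← hcomp, inv_mul_cancel, hone]
  have hst' : ∀ M ∈ H, Matrix.mulVec (M : Matrix (Fin 2) (Fin 2) (ZMod q)) e = e → M = 1 := by
    intro M hM h
    apply hst M hM
    · have := congrFun h 0
      simpa [he, Matrix.mulVec, dotProduct, Fin.sum_univ_two] using this
    · have := congrFun h 1
      simpa [he, Matrix.mulVec, dotProduct, Fin.sum_univ_two] using this
  let f : H → {v : Fin 2 → ZMod q // v ≠ 0} := fun h => ⟨Matrix.mulVec ((h : GL (Fin 2) (ZMod q)) : Matrix (Fin 2) (Fin 2) (ZMod q)) e, by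
    intro h0
    apply he0
    have := hinv h e 0 h0
    rw [Matrix.mulVec_zero] at this
    exact this.symm⟩
  have hfinj : Function.Injective f := by
    intro h k hhk
    have h1 : Matrix.mulVec ((h : GL (Fin 2) (ZMod q)) : Matrix (Fin 2) (Fin 2) (ZMod q)) e =
      Matrix.mulVec ((k : GL (Fin 2) (ZMod q)) : Matrix (Fin 2) (Fin 2) (ZMod q)) e := congrArg Subtype.val hhk
    have h2 := hst' ((k : GL (Fin 2) (ZMod q))⁻¹ * h) (mul_mem (inv_mem k.2) h.2) (by
      rw [hcomp, h1, ← hcomp, inv_mul_cancel, hone])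
    exact Subtype.ext (inv_mul_eq_one.1 h2).symm
  have hcard : Nat.card {v : Fin 2 → ZMod q // v ≠ 0} = q ^ 2 - 1 := by
    rw [Nat.card_eq_fintype_card, Fintype.card_subtype_compl, Fintype.card_subtype_eq, Fintype.card_fun, Fintype.card_fin, ZMod.card]
  have hbij : Function.Bijective f := by
    rw [Nat.bijective_iff_injective_and_card]
    exact ⟨hfinj, by rw [hcard, hH]⟩
  intro v w hv hw
  obtain ⟨a, ha⟩ := hbij.2 ⟨v, hv⟩
  obtain ⟨b, hb⟩ := hbij.2 ⟨w, hw⟩
  have ha' : Matrix.mulVec ((a : GL (Fin 2) (ZMod q)) : Matrix (Fin 2) (Fin 2) (ZMod q)) e = v := congrArg Subtype.val ha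
  have hb' : Matrix.mulVec ((b : GL (Fin 2) (ZMod q)) : Matrix (Fin 2) (Fin 2) (ZMod q)) e = w := congrArg Subtype.val hb
  refine ⟨b * a⁻¹, ?_, ?_⟩
  · change Matrix.mulVec (((b : GL (Fin 2) (ZMod q)) * (a : GL (Fin 2) (ZMod q))⁻¹ : GL (Fin 2) (ZMod q)) : Matrix (Fin 2) (Fin 2) (ZMod q)) v = w
    rw [hcomp, hinv _ _ _ ha', hb']
  · intro c hc
    have hc' : Matrix.mulVec ((c : GL (Fin 2) (ZMod q)) : Matrix (Fin 2) (Fin 2) (ZMod q)) v = w := hc
    rw [eq_mul_inv_iff_mul_eq]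
    apply hfinj
    apply Subtype.ext
    change Matrix.mulVec (((c : GL (Fin 2) (ZMod q)) * (a : GL (Fin 2) (ZMod q)) : GL (Fin 2) (ZMod q)) : Matrix (Fin 2) (Fin 2) (ZMod q)) e = _
    rw [hcomp, ha', hc']
    exact hb'.symm

end CfsgLib.MatList
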