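import Mathlib
import Cfsg.Agent.Lib.BrauerInd7

/-!
# Taketa's theorem, Artin's induction theorem
-/

set_option autoImplicit false
set_option linter.style.haveILetI false
set_option linter.unusedSectionVars false

open scoped ComplexConjugate commutatorElement

namespace CfsgLib.MonoChar2

open Cfsg CfsgLib.CharBasic CfsgLib.CharInd CfsgLib.CharClifford CfsgLib.CliffordCorr CfsgLib.BrauerInd CfsgLib.BrauerInd2 CfsgLib.BrauerInd5 CfsgLib.MonoChar CfsgLib.BrauerInd7

universe u v

section

variable {G : Type u} [Group G] [Fintype G]

theorem mem_of_perm_eq {H : Subgroup G} {g : G} (h : indFun H (fun _ => 1) g = indFun H (fun _ => 1) 1) : g ∈ H := by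
  classical
  haveI : Fintype (G ⧸ H) := Fintype.ofFinite _
  rw [ind_one_quotient, ind_one_quotient] at h
  have h1 : (Finset.univ.filter (fun ω : G ⧸ H => (1 : G) • ω = ω)) = Finset.univ := by
    ext ω; simp
  rw [h1] at h
  have h2 : (Finset.univ.filter (fun ω : G ⧸ H => g • ω = ω)).card = (Finset.univ : Finset (G ⧸ H)).card := by exact_mod_cast h
  have h3 := Finset.eq_univ_of_card _ (h2.trans Finset.card_univ)
  have h4 : ((1 : G) : G ⧸ H) ∈ Finset.univ.filter (fun ω : G ⧸ H => g • ω = ω) := by rw [h3]; exact Finset.mem_univ _
  have h5 := (Finset.mem_filter.mp h4).2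
  have h6 : ((g * 1 : G) : G ⧸ H) = ((1 : G) : G ⧸ H) := h5
  rw [mul_one] at h6
  have h7 := QuotientGroup.eq.mp h6.symm
  simpa using h7

theorem taketa (hM : ∀ χ : G → ℂ, IsIrrCharacter G χ → ∃ (H : Subgroup G) (lam : H →* ℂˣ), χ = indFun H (fun h => (lam h : ℂ))) : Group.IsSolvable G := by
  classical
  have key : ∀ n : ℕ, ∀ χ : G → ℂ, IsIrrCharacter G χ → ∀ d : ℕ, χ 1 = (d : ℂ) → d ≤ n → ∀ g ∈ derivedSeries G n, χ g = χ 1 := by
    intro n
    induction n with
    | zero =>
      intro χ hχ d hd hdn
      exfalso
      have : d = 0 := by omega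
      exact IsIrrCharacter.one_ne_zero hχ (by rw [hd, this]; simp)
    | succ n ih =>
      intro χ hχ d hd hdn g hg
      by_cases hd1 : d = 1
      · have h1 : χ 1 = 1 := by rw [hd, hd1]; simp
        have h2 : g ∈ commutator G := by
          have : derivedSeries G (n + 1) ≤ derivedSeries G 1 := derivedSeries_antitone G (by omega)
          have h3 := this hg
          rwa [derivedSeries_one] at h3
        rw [h1]
        exact IsCharacter.eq_one_of_mem_commutator (IsIrrCharacter.isCharacter hχ) h1 h2
      · obtain ⟨H, lam, hH⟩ := hM χ hχ
        have hidx : H.index = d := by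
          have h1 := indFun_one H (fun h => (lam h : ℂ))
          rw [← hH, hd, map_one, Units.val_one, mul_one] at h1
          exact_mod_cast h1.symm
        -- derived series inside H
        have hDH : derivedSeries G n ≤ H := by
          intro y hy
          apply mem_of_perm_eq
          have hpc : IsCharacter G (indFun H (fun _ => 1)) := isCharacter_indFun H (IsIrrCharacter.isCharacter isIrr_one')
          have hps := eq_sum_inner (IsCharacter.isClassFunction hpc)
          rw [hps, Finset.sum_apply, Finset.sum_apply]
          apply Finset.sum_congr rfl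
          intro ψ _
          rw [Pi.smul_apply, Pi.smul_apply]
          by_cases h0 : classInner (indFun H (fun _ => 1)) (ψ : G → ℂ) = 0
          · rw [h0, zero_smul, zero_smul]
          · congr 1
            obtain ⟨e, he, he'⟩ := IsIrrCharacter.exists_pos ψ.2
            have h1 := constituent_degree_le hpc ψ.2 h0
            have h2 : indFun H (fun _ => 1) 1 = (d : ℂ) := by rw [indFun_one, hidx, mul_one]
            rw [h2, he', Complex.natCast_re, Complex.natCast_re] at h1
            have h3 : e < d := by
              by_contra hge
              have hge' : (d : ℝ) ≤ (e : ℝ) := by exact_mod_cast not_lt.mp hge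
              have h4 := h1.2 hge'
              -- then the permutation character is irreducible and equals 1
              have h5 : classInner (indFun H (fun _ => 1)) (1 : G → ℂ) ≠ 0 := by
                haveI : Fintype H := Fintype.ofFinite _
                rw [frobenius H _ (IsCharacter.isClassFunction isCharacter_one)]
                have : classInner (fun _ : H => (1 : ℂ)) (fun h : H => (1 : G → ℂ) h) = 1 := by
                  have := IsIrrCharacter.inner_self (isIrr_one' (G := H))
                  exact this
                rw [this]; exact one_ne_zero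
              rw [h4] at h5
              have h6 : (ψ : G → ℂ) = 1 := by
                by_contra hne
                exact h5 (IsIrrCharacter.inner_eq_zero ψ.2 isIrr_one hne)
              rw [h4, h6, Pi.one_apply] at h2
              apply hd1
              exact_mod_cast h2.symm
            exact ih ψ ψ.2 e he' (by omega) y hy
        -- D_{n+1} in the kernel of lam
        have hker : ∀ y ∈ derivedSeries G (n + 1), ∃ hy : y ∈ H, lam ⟨y, hy⟩ = 1 := by
          have h1 : derivedSeries G (n + 1) ≤ lam.ker.map H.subtype := by
            rw [derivedSeries_succ, Subgroup.commutator_le]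
            intro a ha b hb
            refine Subgroup.mem_map.mpr ⟨⁅(⟨a, hDH ha⟩ : H), ⟨b, hDH hb⟩⁆, ?_, rfl⟩
            rw [MonoidHom.mem_ker, map_commutatorElement, commutatorElement_eq_one_iff_mul_comm, mul_comm]
          intro y hy
          obtain ⟨z, hz, rfl⟩ := Subgroup.mem_map.mp (h1 hy)
          exact ⟨z.2, hz⟩
        rw [hH, indFun_apply, indFun_apply]
        congr 1
        apply Finset.sum_congr rfl
        intro x _
        have h1 : x⁻¹ * g * x ∈ derivedSeries G (n + 1) := by
          have := (derivedSeries_normal G (n + 1)).conj_mem g hg x⁻¹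
          rwa [inv_inv] at this
        obtain ⟨hy, hy'⟩ := hker _ h1
        rw [ext_of_mem hy, hy']
        have h2 : x⁻¹ * 1 * x = 1 := by group
        rw [h2, ext_of_mem H.one_mem]
        have h3 : (⟨1, H.one_mem⟩ : H) = 1 := rfl
        rw [h3, map_one]
  refine ⟨Nat.card G, ?_⟩
  rw [eq_bot_iff]
  intro g hg
  rw [Subgroup.mem_bot, ← isConj_one_right]
  rw [isConj_iff_forall_irr]
  intro χ
  obtain ⟨e, he, he'⟩ := IsIrrCharacter.exists_pos χ.2
  have h1 := IsIrrCharacter.degree_dvd χ.2 he'
  exact (key (Nat.card G) χ χ.2 e he' (Nat.le_of_dvd Nat.card_pos h1) g hg).symm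

end

end CfsgLib.MonoChar2
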