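import Mathlib
import Cfsg.Agent.Lib.Quad8
import Cfsg.Agent.Lib.Quad9

/-! Membership in Omega through the Dickson invariant; the two classes of maximal singular subspaces. -/

namespace CfsgLib.Omg

open Module CfsgLib.Quad Cfsg

section two

variable {F : Type*} [Field F] [Finite F] {ι : Type} [Fintype ι] [DecidableEq ι]

theorem mem_Omega_dick (h2 : (2 : F) = 0) {Q : QuadraticForm F (ι → F)}
    (hQ : (QuadraticMap.polarBilin Q).Nondegenerate) (h4 : (∃ c : F, c ≠ 0 ∧ c ≠ 1) ∨ Fintype.card ι ≠ 4)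
    (g : isometryGroup F ⇑Q) : g ∈ Omega F ⇑Q ↔ dick hQ (isometryGroupEquiv Q g) = 1 := by
  rw [← Module.finrank_fintype_fun_eq_card F] at h4
  rw [Omega, ← mem_commutator_congr (isometryGroupEquiv Q), commutator_eq_ker_dick h2 hQ h4, MonoidHom.mem_ker]

theorem pairs_set (Q : QuadraticForm F (ι → F)) : {g : ↥(isometryGroup F ⇑Q) |
      ∃ u v : ι → F, Q u ≠ 0 ∧ Q v ≠ 0 ∧ ((g : GL ι F) : Matrix ι ι F) =
        reflectionMatrix ⇑Q u * reflectionMatrix ⇑Q v} =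
      {x | ∃ a ∈ reflSet Q, ∃ b ∈ reflSet Q, x = a * b} := by
  ext g
  constructor
  · rintro ⟨u, v, hu, hv, hg⟩
    refine ⟨CfsgLib.QuadMat.reflG Q u hu, ⟨u, hu, rfl⟩, CfsgLib.QuadMat.reflG Q v hv,
      ⟨v, hv, rfl⟩, ?_⟩
    apply Subtype.ext
    apply Units.ext
    exact hg
  · rintro ⟨a, ⟨u, hu, ha⟩, b, ⟨v, hv, hb⟩, rfl⟩
    refine ⟨u, v, hu, hv, ?_⟩
    rw [← ha, ← hb]
    rfl

theorem dick_reflSet {Q : QuadraticForm F (ι → F)} (hQ : (QuadraticMap.polarBilin Q).Nondegenerate)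
    {r : isometryGroup F ⇑Q} (hr : r ∈ reflSet Q) : dick hQ (isometryGroupEquiv Q r) = -1 := by
  obtain ⟨v, hv, h⟩ := hr
  rw [eq_reflO_of_coe Q hv r h, dick_reflO]

theorem Omega_eq_closure (h2 : (2 : F) = 0) {Q : QuadraticForm F (ι → F)}
    (hQ : (QuadraticMap.polarBilin Q).Nondegenerate) (h4 : (∃ c : F, c ≠ 0 ∧ c ≠ 1) ∨ Fintype.card ι ≠ 4) :
    Omega F ⇑Q = Subgroup.closure {g : ↥(isometryGroup F ⇑Q) |
      ∃ u v : ι → F, Q u ≠ 0 ∧ Q v ≠ 0 ∧ ((g : GL ι F) : Matrix ι ι F) =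
        reflectionMatrix ⇑Q u * reflectionMatrix ⇑Q v} := by
  rw [pairs_set]
  have hle : Subgroup.closure {x | ∃ a ∈ reflSet Q, ∃ b ∈ reflSet Q, x = a * b} ≤ Omega F ⇑Q := by
    rw [Subgroup.closure_le]
    rintro _ ⟨a, ha, b, hb, rfl⟩
    change a * b ∈ Omega F ⇑Q
    rw [mem_Omega_dick h2 hQ h4, map_mul, map_mul, dick_reflSet hQ ha, dick_reflSet hQ hb]
    simp
  apply le_antisymm _ hle
  intro g hg
  rcases mem_closure_pairs reflSet_mul_self (closure_reflSet hQ h4) g with h | ⟨r, hr, h⟩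
  · exact h
  · exfalso
    have h5 := hle h
    rw [mem_Omega_dick h2 hQ h4] at h5 hg
    rw [map_mul, map_mul, hg, dick_reflSet hQ hr, one_mul] at h5
    exact absurd h5 (by decide)

theorem trans_line (h2 : (2 : F) = 0) {Q : QuadraticForm F (ι → F)}
    (hQ : (QuadraticMap.polarBilin Q).Nondegenerate) (h4 : (∃ c : F, c ≠ 0 ∧ c ≠ 1) ∨ Fintype.card ι ≠ 4)
    {u v : ι → F} (hu : Q u ≠ 0) (hv : Q v ≠ 0) : ∃ g : isometryGroup F ⇑Q, g ∈ Omega F ⇑Q ∧
      Submodule.span F {((g : GL ι F) : Matrix ι ι F).mulVec u} = Submodule.span F {v} := by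
  obtain ⟨s, hs⟩ := isSquare_of_two_eq_zero h2 (Q u / Q v)
  have hs0 : s ≠ 0 := by
    rintro rfl
    rw [mul_zero, div_eq_zero_iff] at hs
    tauto
  have hQs : Q (s • v) = Q u := by
    rw [CfsgLib.Quad.map_smul, pow_two, ← hs, div_mul_cancel₀ _ hv]
  have hsv : Q (s • v) ≠ 0 := by rw [hQs]; exact hu
  have ha : ∀ {x : ι → F}, Q x ≠ 0 → x ≠ 0 := by
    rintro x hx rfl
    exact hx (by simp)
  obtain ⟨g, hg, hgu⟩ := exists_O_family hQ (fun _ : Fin 1 => u) (fun _ : Fin 1 => s • v)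
    (LinearIndependent.of_subsingleton (i := 0) (ha hu)) (LinearIndependent.of_subsingleton (i := 0) (ha hsv))
    (fun _ => hQs.symm) (fun _ _ => by
      rw [polar_self, polar_self, hQs])
  have hgu' : g u = s • v := hgu 0
  have main : ∀ g' : O Q, g'.1 u = s • v → dick hQ g' = 1 → ∃ g : isometryGroup F ⇑Q, g ∈ Omega F ⇑Q ∧
      Submodule.span F {((g : GL ι F) : Matrix ι ι F).mulVec u} = Submodule.span F {v} := by
    intro g' h1 h3
    refine ⟨(isometryGroupEquiv Q).symm g', ?_, ?_⟩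
    · rw [mem_Omega_dick h2 hQ h4, MulEquiv.apply_symm_apply, h3]
    · have h5 := isometryGroupEquiv_apply Q ((isometryGroupEquiv Q).symm g') u
      rw [MulEquiv.apply_symm_apply] at h5
      rw [← h5, h1]
      exact Submodule.span_singleton_smul_eq (IsUnit.mk0 _ hs0) v
  by_cases hd : dick hQ ⟨g, hg⟩ = 1
  · exact main ⟨g, hg⟩ hgu' hd
  · refine main (reflO hsv * ⟨g, hg⟩) ?_ ?_
    · change (reflO hsv).1 (g u) = s • v
      rw [hgu', reflO_self]
      have h5 : (s • v) + (s • v) = 0 := by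
        rw [← two_smul F, h2, zero_smul]
      exact (eq_neg_of_add_eq_zero_left h5).symm
    · rw [map_mul, dick_reflO]
      rcases Int.units_eq_one_or (dick hQ ⟨g, hg⟩) with h | h
      · exact absurd h hd
      · rw [h]; simp

end two

end CfsgLib.Omg
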