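import Mathlib
import Cfsg.Agent.Lib.OMG1
import Cfsg.Agent.Lib.Quad14

/-! The two classes of maximal singular subspaces. -/

namespace CfsgLib.Omg

open Module CfsgLib.Quad Cfsg

variable {F V : Type*} [Field F] [AddCommGroup V] [Module F V] [FiniteDimensional F V]

/-- maximal totally singular subspaces of half dimension -/
def MS (Q : QuadraticForm F V) (m : ℕ) (W : Submodule F V) : Prop := finrank F W = m ∧ ∀ w ∈ W, Q w = 0

theorem MS.map {Q : QuadraticForm F V} {m : ℕ} {W : Submodule F V} (h : MS Q m W) (g : O Q) :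
    MS Q m (W.map (g.1 : V →ₗ[F] V)) := by
  refine ⟨?_, ?_⟩
  · rw [LinearEquiv.finrank_map_eq]
    exact h.1
  · rintro _ ⟨w, hw, rfl⟩
    have := map_coe Q g w
    exact this.trans (h.2 w hw)

theorem finrank_inf_map {Q : QuadraticForm F V} (g : O Q) (A B : Submodule F V) :
    finrank F ↥(A.map (g.1 : V →ₗ[F] V) ⊓ B.map (g.1 : V →ₗ[F] V)) = finrank F ↥(A ⊓ B) := by
  rw [← Submodule.map_inf _ g.1.injective, LinearEquiv.finrank_map_eq]

theorem map_mul_O {Q : QuadraticForm F V} (g h : O Q) (A : Submodule F V) :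
    A.map ((g * h).1 : V →ₗ[F] V) = (A.map (h.1 : V →ₗ[F] V)).map (g.1 : V →ₗ[F] V) := by
  rw [← Submodule.map_comp]
  rfl

/-- the parity subgroup -/
def parG {Q : QuadraticForm F V} (hQ : (QuadraticMap.polarBilin Q).Nondegenerate) {m : ℕ}
    (hV : finrank F V = 2 * m) : Subgroup (O Q) where
  carrier := {g | ∀ W, MS Q m W → (-1 : ℤˣ) ^ (m + finrank F ↥(W ⊓ W.map (g.1 : V →ₗ[F] V))) = dick hQ g}
  one_mem' := by
    intro W hW
    have h1 : W.map ((1 : O Q).1 : V →ₗ[F] V) = W := Submodule.map_id W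
    rw [h1, inf_idem, hW.1, map_one, ← two_mul, pow_mul]
    simp
  mul_mem' := by
    intro g h hg hh W hW
    have h1 := even_three hQ hV W (W.map (g.1 : V →ₗ[F] V)) (W.map ((g * h).1 : V →ₗ[F] V)) hW.1 hW.2
      (hW.map g).1 (hW.map g).2 (hW.map _).1 (hW.map _).2
    have h2 := hg W hW
    have h3 := hh W hW
    have h4 : finrank F ↥(W.map (g.1 : V →ₗ[F] V) ⊓ W.map ((g * h).1 : V →ₗ[F] V)) =
        finrank F ↥(W ⊓ W.map (h.1 : V →ₗ[F] V)) := by
      rw [map_mul_O, finrank_inf_map]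
    rw [h4] at h1
    rw [map_mul, ← h2, ← h3, ← pow_add]
    apply neg_one_pow_congr
    rw [Nat.even_iff] at h1
    rw [Nat.even_iff, Nat.even_iff]
    omega
  inv_mem' := by
    intro g hg W hW
    have h2 := hg _ (hW.map g⁻¹)
    rw [← map_mul_O, mul_inv_cancel] at h2
    have h1 : W.map ((1 : O Q).1 : V →ₗ[F] V) = W := Submodule.map_id W
    rw [h1, inf_comm] at h2
    rw [h2, map_inv]
    rcases Int.units_eq_one_or (dick hQ g) with h | h <;> rw [h] <;> rfl

theorem refl_par {Q : QuadraticForm F V} (hQ : (QuadraticMap.polarBilin Q).Nondegenerate) {m : ℕ}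
    (hV : finrank F V = 2 * m) {w : V} (hw : Q w ≠ 0) {W : Submodule F V} (hW : MS Q m W) :
    finrank F ↥(W ⊓ W.map ((reflO hw).1 : V →ₗ[F] V)) + 1 = m := by
  have hwW : w ∉ W := fun h => hw (hW.2 w h)
  have h1 : W ⊓ W.map ((reflO hw).1 : V →ₗ[F] V) =
      (LinearMap.ker ((QuadraticMap.polarBilin Q w).domRestrict W)).map W.subtype := by
    ext x
    constructor
    · rintro ⟨hx, y, hy, hyx⟩
      refine ⟨⟨x, hx⟩, ?_, rfl⟩
      rw [SetLike.mem_coe, LinearMap.mem_ker]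
      change QuadraticMap.polarBilin Q w x = 0
      by_contra hne
      apply hwW
      have h2 : (reflO hw).1 x = y := by
        have h3 : (reflO hw).1 y = x := hyx
        rw [← h3]
        change (reflO hw * reflO hw).1 y = y
        rw [reflO_mul_self]
        rfl
      rw [reflO_apply] at h2
      have h3 : ((Q w)⁻¹ * QuadraticMap.polarBilin Q w x) • w = x - y := by
        rw [← h2]; abel
      have h4 : ((Q w)⁻¹ * QuadraticMap.polarBilin Q w x) • w ∈ W := by
        rw [h3]; exact W.sub_mem hx hy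
      exact (W.smul_mem_iff (mul_ne_zero (inv_ne_zero hw) hne)).1 h4
    · rintro ⟨⟨x', hx'⟩, hx, rfl⟩
      rw [SetLike.mem_coe, LinearMap.mem_ker] at hx
      have hx2 : QuadraticMap.polarBilin Q w x' = 0 := hx
      refine ⟨hx', x', hx', ?_⟩
      exact reflO_of_orthogonal hw hx2
  rw [h1, Submodule.finrank_map_subtype_eq]
  have h2 : (QuadraticMap.polarBilin Q w).domRestrict W ≠ 0 := by
    intro h
    apply hwW
    rw [← orth_eq_self hQ hV hW.1 hW.2, mem_orth]
    intro x hx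
    rw [polar_comm]
    exact LinearMap.congr_fun h ⟨x, hx⟩
  have h3 := Module.Dual.finrank_ker_add_one_of_ne_zero h2
  rw [hW.1] at h3
  exact h3

theorem par_eq_dick {Q : QuadraticForm F V} (hQ : (QuadraticMap.polarBilin Q).Nondegenerate) {m : ℕ}
    (hV : finrank F V = 2 * m) (h4 : (∃ c : F, c ≠ 0 ∧ c ≠ 1) ∨ finrank F V ≠ 4) (g : O Q)
    {W : Submodule F V} (hW : MS Q m W) :
    (-1 : ℤˣ) ^ (m + finrank F ↥(W ⊓ W.map (g.1 : V →ₗ[F] V))) = dick hQ g := by
  have h1 : parG hQ hV = ⊤ := by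
    apply eq_top_of_reflO hQ h4
    intro w hw W' hW'
    have h2 := refl_par hQ hV hw hW'
    rw [dick_reflO]
    have h3 : m + finrank F ↥(W' ⊓ W'.map ((reflO hw).1 : V →ₗ[F] V)) =
        2 * finrank F ↥(W' ⊓ W'.map ((reflO hw).1 : V →ₗ[F] V)) + 1 := by omega
    rw [h3, pow_succ, pow_mul]
    simp
  have h2 : g ∈ parG hQ hV := by rw [h1]; trivial
  exact h2 W hW

theorem even_sub_iff {Q : QuadraticForm F V} (hQ : (QuadraticMap.polarBilin Q).Nondegenerate) {m : ℕ}
    (hV : finrank F V = 2 * m) (h4 : (∃ c : F, c ≠ 0 ∧ c ≠ 1) ∨ finrank F V ≠ 4) (g : O Q)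
    {W : Submodule F V} (hW : MS Q m W) :
    Even (m - finrank F ↥(W ⊓ W.map (g.1 : V →ₗ[F] V))) ↔ dick hQ g = 1 := by
  have h1 := par_eq_dick hQ hV h4 g hW
  have h2 : finrank F ↥(W ⊓ W.map (g.1 : V →ₗ[F] V)) ≤ m := by
    rw [← hW.1]
    exact Submodule.finrank_mono inf_le_left
  rw [← h1]
  obtain ⟨a, ha⟩ : ∃ a, a = finrank F ↥(W ⊓ W.map (g.1 : V →ₗ[F] V)) := ⟨_, rfl⟩
  rw [← ha] at h2 ⊢
  have h3 : (-1 : ℤˣ) ^ (m + a) = 1 ↔ Even (m + a) := by
    constructor
    · intro h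
      by_contra h5
      rw [Nat.not_even_iff_odd] at h5
      rw [h5.neg_one_pow] at h
      exact absurd h (by decide)
    · intro h
      exact h.neg_one_pow
  rw [h3, Nat.even_iff, Nat.even_iff]
  omega

end CfsgLib.Omg
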