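import Mathlib
import Cfsg.Agent.Lib.OMG2
import Cfsg.Agent.Lib.Quad10

/-! Moving subspaces by Omega. -/

namespace CfsgLib.Omg

open Module CfsgLib.Quad Cfsg

section mat

variable {F : Type*} [Field F] {ι : Type} [Fintype ι] [DecidableEq ι]

theorem map_mulVecLin (Q : QuadraticForm F (ι → F)) (g : isometryGroup F ⇑Q) (W : Submodule F (ι → F)) :
    W.map (Matrix.mulVecLin ((g : GL ι F) : Matrix ι ι F)) =
      W.map ((isometryGroupEquiv Q g).1 : (ι → F) →ₗ[F] (ι → F)) := by
  have h1 : Matrix.mulVecLin ((g : GL ι F) : Matrix ι ι F) =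
      ((isometryGroupEquiv Q g).1 : (ι → F) →ₗ[F] (ι → F)) := by
    apply LinearMap.ext
    intro v
    rw [Matrix.mulVecLin_apply]
    exact (isometryGroupEquiv_apply Q g v).symm
  rw [h1]

/-- the determinant of an isometry is its Dickson sign -/
theorem det_eq_dick (h2 : (2 : F) ≠ 0) {Q : QuadraticForm F (ι → F)}
    (hQ : (QuadraticMap.polarBilin Q).Nondegenerate) (g : isometryGroup F ⇑Q) :
    ((g : GL ι F) : Matrix ι ι F).det = 1 ↔ dick hQ (isometryGroupEquiv Q g) = 1 := by
  have hm1 : (-1 : F) ≠ 1 := fun h => h2 (by linear_combination -h)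
  have hgen := closure_reflSet hQ (Or.inl ⟨-1, neg_ne_zero.mpr one_ne_zero, hm1⟩)
  have key : ∀ x : isometryGroup F ⇑Q, ((x : GL ι F) : Matrix ι ι F).det =
      ((dick hQ (isometryGroupEquiv Q x) : ℤ) : F) := by
    intro x
    have hx : x ∈ Subgroup.closure (reflSet Q) := by rw [hgen]; trivial
    have hr : ∀ y ∈ reflSet Q, ((y : GL ι F) : Matrix ι ι F).det =
      ((dick hQ (isometryGroupEquiv Q y) : ℤ) : F) := by
      intro y hy
      obtain ⟨v, hv, h⟩ := hy
      rw [h, CfsgLib.QuadMat.reflection_det Q hv, eq_reflO_of_coe Q hv y h, dick_reflO]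
      simp
    induction hx using Subgroup.closure_induction with
    | mem y hy => exact hr y hy
    | one =>
      rw [map_one, map_one]
      change ((1 : Matrix ι ι F)).det = _
      rw [Matrix.det_one]
      simp
    | mul a b _ _ ha hb =>
      rw [map_mul, map_mul]
      change (((a : GL ι F) : Matrix ι ι F) * ((b : GL ι F) : Matrix ι ι F)).det = _
      rw [Matrix.det_mul, ha, hb]
      push_cast
      rfl
    | inv a _ ha =>
      have h1 : ((a : GL ι F) : Matrix ι ι F).det * (((a⁻¹ : isometryGroup F ⇑Q) : GL ι F) : Matrix ι ι F).det = 1 := by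
        rw [← Matrix.det_mul]
        have : ((a : GL ι F) : Matrix ι ι F) * (((a⁻¹ : isometryGroup F ⇑Q) : GL ι F) : Matrix ι ι F) = 1 := by
          change ((((a : GL ι F) * (a : GL ι F)⁻¹ : GL ι F)) : Matrix ι ι F) = 1
          rw [mul_inv_cancel]; rfl
        rw [this, Matrix.det_one]
      rw [map_inv, map_inv, Int.units_inv_eq_self]
      rw [ha] at h1
      rcases Int.units_eq_one_or (dick hQ (isometryGroupEquiv Q a)) with h | h
      · rw [h] at h1 ⊢
        simpa using h1
      · rw [h] at h1 ⊢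
        simp only [Units.val_neg, Units.val_one, Int.cast_neg, Int.cast_one] at h1 ⊢
        linear_combination -h1
  rw [key]
  rcases Int.units_eq_one_or (dick hQ (isometryGroupEquiv Q g)) with h | h
  · rw [h]; simp
  · rw [h]
    constructor
    · intro h5
      exfalso
      apply hm1
      simpa using h5
    · intro h5
      exact absurd h5 (by decide)

theorem par_mat {Q : QuadraticForm F (ι → F)}
    (hQ : (QuadraticMap.polarBilin Q).Nondegenerate) {m : ℕ} (hV : finrank F (ι → F) = 2 * m)
    (h4 : (∃ c : F, c ≠ 0 ∧ c ≠ 1) ∨ Fintype.card ι ≠ 4) (g : isometryGroup F ⇑Q)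
    {W : Submodule F (ι → F)} (hW : MS Q m W) :
    Even (m - finrank F ↥(W ⊓ W.map (Matrix.mulVecLin ((g : GL ι F) : Matrix ι ι F)))) ↔
      dick hQ (isometryGroupEquiv Q g) = 1 := by
  rw [map_mulVecLin]
  apply even_sub_iff hQ hV _ _ hW
  rw [Module.finrank_fintype_fun_eq_card]
  exact h4

end mat

theorem U0_MS {F : Type*} [Field F] (m : ℕ) :
    MS (QP m F) m (LinearMap.ker (LinearMap.funLeft F F (Sum.inr : Fin m → Fin m ⊕ Fin m))) := by
  constructor
  · have h1 := LinearMap.finrank_range_add_finrank_ker (LinearMap.funLeft F F (Sum.inr : Fin m → Fin m ⊕ Fin m))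
    have h2 : LinearMap.range (LinearMap.funLeft F F (Sum.inr : Fin m → Fin m ⊕ Fin m)) = ⊤ :=
      LinearMap.range_eq_top.2 (LinearMap.funLeft_surjective_of_injective _ _ _ Sum.inr_injective)
    rw [h2, finrank_top, finrank_QP, Module.finrank_fintype_fun_eq_card, Fintype.card_fin] at h1
    omega
  · intro w hw
    rw [LinearMap.mem_ker] at hw
    rw [QP_apply]
    have h1 : ∀ i, w (Sum.inr i) = 0 := fun i => congrFun hw i
    simp [quadFormPlus, h1]

end CfsgLib.Omg
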