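import Mathlib
import Cfsg.Agent.Lib.OMG3

/-! The spinor norm through `sgnO`. -/

namespace CfsgLib.Omg

open Module CfsgLib.Quad Cfsg

section eta

variable {F : Type*} [Field F] [Finite F]

open Classical in
/-- quadratic character -/
noncomputable def eta (x : F) : ℤˣ := if IsSquare x then 1 else -1

theorem eta_eq_one {x : F} : eta x = 1 ↔ IsSquare x := by
  unfold eta
  split_ifs with h
  · exact ⟨fun _ => h, fun _ => rfl⟩
  · exact ⟨fun h5 => absurd h5 (by decide), fun h5 => absurd h5 h⟩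

theorem eta_mul {x y : F} (hx : x ≠ 0) (hy : y ≠ 0) : eta (x * y) = eta x * eta y := by
  by_cases h1 : IsSquare x
  · by_cases h2 : IsSquare y
    · rw [eta_eq_one.2 h1, eta_eq_one.2 h2, eta_eq_one.2 (h1.mul h2), mul_one]
    · have h3 : ¬ IsSquare (x * y) := by
        intro h
        apply h2
        obtain ⟨a, ha⟩ := h1
        obtain ⟨b, hb⟩ := h
        have ha0 : a ≠ 0 := by rintro rfl; apply hx; rw [ha, mul_zero]
        refine ⟨b / a, ?_⟩
        field_simp
        rw [ha] at hb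
        linear_combination hb
      unfold eta
      rw [if_pos h1, if_neg h2, if_neg h3, one_mul]
  · by_cases h2 : IsSquare y
    · have h3 : ¬ IsSquare (x * y) := by
        intro h
        apply h1
        obtain ⟨a, ha⟩ := h2
        obtain ⟨b, hb⟩ := h
        have ha0 : a ≠ 0 := by rintro rfl; apply hy; rw [ha, mul_zero]
        refine ⟨b / a, ?_⟩
        field_simp
        rw [ha] at hb
        linear_combination hb
      unfold eta
      rw [if_neg h1, if_pos h2, if_neg h3, mul_one]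
    · have h3 : IsSquare (x * y) := isSquare_mul_of_not h1 h2
      unfold eta
      rw [if_neg h1, if_neg h2, if_pos h3]
      simp

end eta

section gen

variable {F V : Type*} [Field F] [Finite F] [AddCommGroup V] [Module F V] [FiniteDimensional F V]

theorem sgn_refl (h2 : (2 : F) ≠ 0) {Q : QuadraticForm F V} {w : V} (hw : Q w ≠ 0) :
    sgnO Q 1 (reflO hw) = - eta (Q w) := by
  rw [sgnO_reflO h2 one_ne_zero, one_mul]
  unfold eta
  split_ifs <;> simp

theorem mem_comm_iff (h2 : (2 : F) ≠ 0) {Q : QuadraticForm F V}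
    (hQ : (QuadraticMap.polarBilin Q).Nondegenerate) (hV : 2 ≤ finrank F V) (g : O Q) :
    g ∈ commutator (O Q) ↔ dick hQ g = 1 ∧ sgnO Q 1 g = 1 := by
  rw [commutator_eq_ker_chiO h2 hQ hV 1 one_ne_zero, MonoidHom.mem_ker]
  constructor
  · intro h
    exact ⟨congrArg Prod.fst h, congrArg Prod.snd h⟩
  · rintro ⟨h3, h5⟩
    exact Prod.ext h3 h5

/-- negation of a hyperbolic pair -/
theorem exists_negpair (h2 : (2 : F) ≠ 0) {Q : QuadraticForm F V}
    (hQ : (QuadraticMap.polarBilin Q).Nondegenerate) {e f : V} (he : Q e = 0) (hf : Q f = 0)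
    (hef : QuadraticMap.polarBilin Q e f = 1) : ∃ g : O Q, dick hQ g = 1 ∧ sgnO Q 1 g = eta (-1 : F) ∧
      ∀ x, g.1 x = x + (-2 * QuadraticMap.polarBilin Q f x) • e + (-2 * QuadraticMap.polarBilin Q e x) • f := by
  have hm : (-1 : F) ≠ 0 := neg_ne_zero.2 one_ne_zero
  have e1 : Q (e - (-1 : F)⁻¹ • f) = 1 := by
    rw [CfsgLib.Quad.map_sub, CfsgLib.Quad.map_smul, he, hf, LinearMap.map_smul, hef, inv_neg, inv_one]
    simp
  have e2 : Q (e - f) = -1 := by
    rw [CfsgLib.Quad.map_sub, he, hf, hef]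
    simp
  have h1 : Q (e - (-1 : F)⁻¹ • f) ≠ 0 := by rw [e1]; exact one_ne_zero
  have h3 : Q (e - f) ≠ 0 := by rw [e2]; exact hm
  refine ⟨reflO h1 * reflO h3, ?_, ?_, ?_⟩
  · rw [map_mul, dick_reflO, dick_reflO]; simp
  · rw [map_mul, sgn_refl h2, sgn_refl h2, e1, e2, eta_eq_one.2 IsSquare.one]
    simp
  · intro x
    rw [exists_hscale he hf hef hm h1 h3, inv_neg, inv_one]
    congr 2
    · congr 1; congr 1; ring
    · congr 1; congr 1; ring

end gen

section mat

variable {F : Type*} [Field F] [Finite F] {ι : Type} [Fintype ι] [DecidableEq ι]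

theorem refl_list (h2 : (2 : F) ≠ 0) {Q : QuadraticForm F (ι → F)}
    (hQ : (QuadraticMap.polarBilin Q).Nondegenerate) (vs : List (ι → F)) (hvs : ∀ v ∈ vs, Q v ≠ 0) :
    ∃ g : O Q, (∀ x, ((vs.map (fun v => reflectionMatrix ⇑Q v)).prod).mulVec x = g.1 x) ∧
      dick hQ g = (-1) ^ vs.length ∧ sgnO Q 1 g = (-1) ^ vs.length * eta ((vs.map (fun v => Q v)).prod) := by
  induction vs with
  | nil =>
    refine ⟨1, fun x => ?_, ?_, ?_⟩
    · rw [List.map_nil, List.prod_nil, Matrix.one_mulVec]; rfl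
    · rw [map_one]; simp
    · rw [map_one, List.map_nil, List.prod_nil, eta_eq_one.2 IsSquare.one]; simp
  | cons v vs ih =>
    obtain ⟨g, h1, h3, h5⟩ := ih (fun w hw => hvs w (List.mem_cons_of_mem _ hw))
    have hv : Q v ≠ 0 := hvs v List.mem_cons_self
    refine ⟨reflO hv * g, fun x => ?_, ?_, ?_⟩
    · rw [List.map_cons, List.prod_cons, ← Matrix.mulVec_mulVec, h1, reflO_eq_mulVec Q hv]
      rfl
    · rw [map_mul, dick_reflO, h3, List.length_cons, pow_succ']
    · have hp : (vs.map (fun v => Q v)).prod ≠ 0 := by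
        apply List.prod_ne_zero
        intro h
        rw [List.mem_map] at h
        obtain ⟨w, hw, h⟩ := h
        exact hvs w (List.mem_cons_of_mem _ hw) h
      rw [map_mul, sgn_refl h2, h5, List.map_cons, List.prod_cons, eta_mul hv hp, List.length_cons, pow_succ']
      simp [mul_comm, mul_left_comm]

theorem mem_Omega_iff (h2 : (2 : F) ≠ 0) {Q : QuadraticForm F (ι → F)}
    (hQ : (QuadraticMap.polarBilin Q).Nondegenerate) (hn : 2 ≤ Fintype.card ι) (g : isometryGroup F ⇑Q) :
    g ∈ Omega F ⇑Q ↔ dick hQ (isometryGroupEquiv Q g) = 1 ∧ sgnO Q 1 (isometryGroupEquiv Q g) = 1 := by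
  rw [Omega, ← mem_commutator_congr (isometryGroupEquiv Q), mem_comm_iff h2 hQ (by
    rw [Module.finrank_fintype_fun_eq_card]; exact hn)]

end mat

end CfsgLib.Omg
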