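import Mathlib
import Cfsg.Agent.Lib.Quad14
import Cfsg.Agent.Lib.Disc

/-! Discriminants and classification of quadratic forms. -/

namespace CfsgLib.Omg

open Module CfsgLib.Quad Cfsg

open CfsgLib.Disc

/-- minus and plus forms are not isometric -/
theorem not_isom {F : Type*} [Field F] [Finite F] {m : ℕ} {a b : F} (hab : Aniso a b)
    (g : (Fin (m + 1) ⊕ Fin (m + 1) → F) ≃ₗ[F] ((Fin m ⊕ Fin m) ⊕ Fin 2 → F)) :
    ¬ (∀ v : Fin (m + 1) ⊕ Fin (m + 1) → F, quadFormMinus m F a b (g v) = quadFormPlus (m + 1) F v) := by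
  intro h
  have h1 := card_plus_zero (F := F) m
  have h2 := card_minus_zero hab m
  have h3 : Nat.card {v : Fin (m + 1) ⊕ Fin (m + 1) → F // quadFormPlus (m + 1) F v = 0} =
      Nat.card {v : (Fin m ⊕ Fin m) ⊕ Fin 2 → F // quadFormMinus m F a b v = 0} :=
    Nat.card_congr (g.toEquiv.subtypeEquiv fun v => by
      change _ ↔ quadFormMinus m F a b (g v) = 0
      rw [h])
  have h4 : Nat.card F ^ m < Nat.card F ^ (m + 1) := Nat.pow_lt_pow_succ Finite.one_lt_card
  omega

section class'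

variable {F V V' : Type*} [Field F] [AddCommGroup V] [Module F V] [FiniteDimensional F V]
  [AddCommGroup V'] [Module F V'] [FiniteDimensional F V']
  {ι κ : Type*} [Fintype ι] [DecidableEq ι] [Fintype κ] [DecidableEq κ]

theorem isSquare_of_isom {Q₁ : QuadraticForm F V} {Q₂ : QuadraticForm F V'} (g : V ≃ₗ[F] V')
    (hg : ∀ v, Q₂ (g v) = Q₁ v) (b : Basis ι F V) (b' : Basis κ F V') :
    IsSquare (gd (QuadraticMap.polarBilin Q₁) b * gd (QuadraticMap.polarBilin Q₂) b') := by
  have h1 : gd (QuadraticMap.polarBilin Q₁) b = gd (QuadraticMap.polarBilin Q₂) (b.map g) := by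
    unfold gd
    congr 1
    ext i j
    simp only [Matrix.of_apply, QuadraticMap.polarBilin_apply_apply, QuadraticMap.polar, Basis.map_apply]
    rw [← hg, ← hg, ← hg, _root_.map_add]
  obtain ⟨s, hs0, hs⟩ := exists_gd_eq (QuadraticMap.polarBilin Q₂) b' (b.map g)
  rw [h1, hs]
  exact ⟨s * gd (QuadraticMap.polarBilin Q₂) b', by ring⟩

theorem isom_of_gd [Finite F] (h2 : (2 : F) ≠ 0) {Q₁ : QuadraticForm F V} {Q₂ : QuadraticForm F V'}
    (h₁ : (QuadraticMap.polarBilin Q₁).Nondegenerate) (h₂ : (QuadraticMap.polarBilin Q₂).Nondegenerate)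
    (hV : finrank F V = finrank F V') (b : Basis ι F V) (b' : Basis κ F V')
    (h : IsSquare (gd (QuadraticMap.polarBilin Q₁) b * gd (QuadraticMap.polarBilin Q₂) b')) :
    ∃ g : V ≃ₗ[F] V', ∀ v, Q₂ (g v) = Q₁ v := by
  rcases Nat.eq_zero_or_pos (finrank F V) with h0 | hpos
  · refine ⟨LinearEquiv.ofFinrankEq V V' hV, fun v => ?_⟩
    haveI : Subsingleton V := finrank_zero_iff.1 h0
    rw [Subsingleton.elim v 0, _root_.map_zero, QuadraticMap.map_zero, QuadraticMap.map_zero]
  · obtain ⟨n, hn⟩ : ∃ n, finrank F V = n + 1 := ⟨finrank F V - 1, by omega⟩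
    obtain ⟨e, he⟩ := exists_isometry_of_gd h2 (B := QuadraticMap.polarBilin Q₁)
      (B' := QuadraticMap.polarBilin Q₂) ⟨fun x y => CfsgLib.Quad.polar_comm Q₁ x y⟩ ⟨fun x y => CfsgLib.Quad.polar_comm Q₂ x y⟩
      h₁ h₂ hn (hV ▸ hn) b b' h
    refine ⟨e, fun v => ?_⟩
    have h5 := he v v
    rw [CfsgLib.Quad.polar_self, CfsgLib.Quad.polar_self] at h5
    exact mul_left_cancel₀ h2 h5

/-- scaling -/
theorem smul_polar (c : F) (Q : QuadraticForm F V) (x y : V) :
    QuadraticMap.polarBilin (c • Q) x y = c * QuadraticMap.polarBilin Q x y := by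
  simp only [QuadraticMap.polarBilin_apply_apply, QuadraticMap.polar, QuadraticMap.smul_apply, smul_eq_mul]
  ring

theorem smul_nondeg {c : F} (hc : c ≠ 0) {Q : QuadraticForm F V}
    (h : (QuadraticMap.polarBilin Q).Nondegenerate) : (QuadraticMap.polarBilin (c • Q)).Nondegenerate := by
  apply nondegenerate_of_left
  intro x hx
  apply h.1
  intro y
  have := hx y
  rw [smul_polar] at this
  exact (mul_eq_zero.1 this).resolve_left hc

theorem gd_smul (c : F) (Q : QuadraticForm F V) (b : ι → V) :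
    gd (QuadraticMap.polarBilin (c • Q)) b = c ^ Fintype.card ι * gd (QuadraticMap.polarBilin Q) b := by
  unfold gd
  rw [← Matrix.det_smul]
  congr 1
  ext i j
  rw [Matrix.of_apply, smul_polar]
  rfl

theorem similar [Finite F] {Q : QuadraticForm F V} (hQ : (QuadraticMap.polarBilin Q).Nondegenerate)
    (he : Even (finrank F V)) {c : F} (hc : c ≠ 0) : ∃ g : V ≃ₗ[F] V, ∀ v, Q (g v) = c * Q v := by
  by_cases h2 : (2 : F) = 0
  · obtain ⟨s, hs⟩ := isSquare_of_two_eq_zero h2 c
    have hs0 : s ≠ 0 := by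
      rintro rfl
      apply hc
      rw [hs, mul_zero]
    refine ⟨LinearEquiv.smulOfNeZero F V s hs0, fun v => ?_⟩
    rw [LinearEquiv.smulOfNeZero_apply, CfsgLib.Quad.map_smul, hs, pow_two]
  · let b := finBasis F V
    have h1 : IsSquare (gd (QuadraticMap.polarBilin (c • Q)) b * gd (QuadraticMap.polarBilin Q) b) := by
      obtain ⟨k, hk⟩ := he
      have h5 : c ^ finrank F V = c ^ k * c ^ k := by rw [hk, pow_add]
      rw [gd_smul, Fintype.card_fin, h5]
      exact ⟨c ^ k * gd (QuadraticMap.polarBilin Q) b, by ring⟩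
    obtain ⟨g, hg⟩ := isom_of_gd h2 (smul_nondeg hc hQ) hQ rfl b b h1
    exact ⟨g, fun v => by rw [hg]; rfl⟩

end class'

end CfsgLib.Omg
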