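import Mathlib
import Cfsg.Agent.Lib.OMG8

/-! Discriminants of the standard forms; standard bases. -/

namespace CfsgLib.Omg

open Module CfsgLib.Quad Cfsg

open CfsgLib.Disc

theorem arith {m q : ℕ} (hq : Odd q) : Even (m * (q - 1) / 2) ↔ (Even m ∨ q % 4 = 1) := by
  obtain ⟨k, rfl⟩ := hq
  have h1 : m * (2 * k + 1 - 1) / 2 = m * k := by
    rw [Nat.add_sub_cancel]
    rw [show m * (2 * k) = (m * k) * 2 by ring]
    exact Nat.mul_div_cancel _ (by norm_num)
  rw [h1, Nat.even_mul]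
  have h2 : Even k ↔ (2 * k + 1) % 4 = 1 := by
    rw [Nat.even_iff]; omega
  rw [h2]

section

variable {F : Type*} [Field F] [Fintype F]

theorem neg_one_pow_sq (hq : Odd (Fintype.card F)) (m : ℕ) :
    IsSquare ((-1 : F) ^ m) ↔ Even (m * (Fintype.card F - 1) / 2) := by
  rw [arith hq]
  rcases Nat.even_or_odd m with h | h
  · rw [h.neg_one_pow]
    exact ⟨fun _ => Or.inl h, fun _ => IsSquare.one⟩
  · rw [h.neg_one_pow, FiniteField.isSquare_neg_one_iff]
    rw [Nat.odd_iff] at hq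
    rw [← Nat.not_even_iff_odd] at h
    constructor
    · intro h5
      right
      omega
    · rintro (h5 | h5)
      · exact absurd h5 h
      · omega

theorem two_ne (hq : Odd (Fintype.card F)) : (2 : F) ≠ 0 := by
  apply two_ne_zero_of_odd
  rwa [Nat.card_eq_fintype_card]

theorem isSquare_mul_iff {x y : F} (hx : x ≠ 0) (hy : y ≠ 0) (h : IsSquare (x * y)) : IsSquare x ↔ IsSquare y := by
  constructor
  · rintro ⟨a, ha⟩
    obtain ⟨b, hb⟩ := h
    have ha0 : a ≠ 0 := by rintro rfl; apply hx; rw [ha, mul_zero]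
    refine ⟨b / a, ?_⟩
    field_simp
    rw [ha] at hb
    linear_combination hb
  · rintro ⟨a, ha⟩
    obtain ⟨b, hb⟩ := h
    have ha0 : a ≠ 0 := by rintro rfl; apply hy; rw [ha, mul_zero]
    refine ⟨b / a, ?_⟩
    field_simp
    rw [ha] at hb
    linear_combination hb

theorem gd_plus (hq : Odd (Fintype.card F)) (m : ℕ) {ι : Type*} [Fintype ι] [DecidableEq ι]
    (b : Basis ι F (Fin m ⊕ Fin m → F)) :
    IsSquare (gd (QuadraticMap.polarBilin (QP m F)) b) ↔ Even (m * (Fintype.card F - 1) / 2) := by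
  obtain ⟨W, hW, hW0⟩ := exists_max_singular (F := F) m
  have h1 : IsSquare ((-1) ^ m * gd (QuadraticMap.polarBilin (QP m F)) b) := by
    refine isSquare_of_isotropic (B := QuadraticMap.polarBilin (QP m F))
      ⟨fun x y => CfsgLib.Quad.polar_comm _ x y⟩ (finrank_QP m) W hW ?_ b
    intro x hx y hy
    have h6 := CfsgLib.Quad.map_add (QP m F) x y
    rw [hW0 _ (W.add_mem hx hy), hW0 x hx, hW0 y hy] at h6
    simpa using h6.symm
  rw [← neg_one_pow_sq hq]
  exact (isSquare_mul_iff (pow_ne_zero _ (neg_ne_zero.2 one_ne_zero))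
    (gd_ne_zero (QP_nondegenerate m) b) h1).symm

/-- the minus form -/
noncomputable def QM (m : ℕ) (a c : F) : QuadraticForm F ((Fin m ⊕ Fin m) ⊕ Fin 2 → F) :=
  (hypSum m (binQ a c)).comp (eMinus m a c).toLinearMap

theorem QM_apply (m : ℕ) (a c : F) (v : (Fin m ⊕ Fin m) ⊕ Fin 2 → F) : QM m a c v = quadFormMinus m F a c v :=
  eMinus_apply m a c v

theorem QM_nondeg (m : ℕ) {a c : F} (hac : Aniso a c) : (QuadraticMap.polarBilin (QM m a c)).Nondegenerate :=
  nondegenerate_congr (eMinus m a c).symm (Q := hypSum m (binQ a c)) (fun u => by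
    change hypSum m (binQ a c) ((eMinus m a c) ((eMinus m a c).symm u)) = _
    rw [LinearEquiv.apply_symm_apply]) (hypSum_nondegenerate m (binQ_nondegenerate hac))

theorem gd_minus (hq : Odd (Fintype.card F)) (m : ℕ) {a c : F} (hac : Aniso a c) {ι : Type*} [Fintype ι]
    [DecidableEq ι] (b : Basis ι F ((Fin m ⊕ Fin m) ⊕ Fin 2 → F)) :
    IsSquare (gd (QuadraticMap.polarBilin (QM m a c)) b) ↔ ¬ Even ((m + 1) * (Fintype.card F - 1) / 2) := by
  rw [← gd_plus hq (m + 1) (Pi.basisFun F (Fin (m + 1) ⊕ Fin (m + 1)))]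
  have hfr : finrank F (Fin (m + 1) ⊕ Fin (m + 1) → F) = finrank F ((Fin m ⊕ Fin m) ⊕ Fin 2 → F) := by
    simp only [Module.finrank_fintype_fun_eq_card, Fintype.card_sum, Fintype.card_fin]
    ring
  have h1 : ¬ IsSquare (gd (QuadraticMap.polarBilin (QP (m + 1) F)) (Pi.basisFun F (Fin (m + 1) ⊕ Fin (m + 1))) *
      gd (QuadraticMap.polarBilin (QM m a c)) b) := by
    intro h
    obtain ⟨g, hg⟩ := isom_of_gd (two_ne hq) (QP_nondegenerate (m + 1)) (QM_nondeg m hac) hfr _ b h
    apply not_isom hac g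
    intro v
    rw [← QM_apply, ← QP_apply, hg]
  constructor
  · intro h5 h6
    exact h1 (h6.mul h5)
  · intro h5
    by_contra h6
    exact h1 (isSquare_mul_of_not h5 h6)

end

/-- standard bases in odd dimension -/
theorem odd_basis {F V : Type*} [Field F] [Finite F] [AddCommGroup V] [Module F V] [FiniteDimensional F V] {m : ℕ}
    (hV : finrank F V = 2 * m + 1) (Q : QuadraticForm F V) (hQ : (QuadraticMap.polarBilin Q).Nondegenerate) :
    ∃ (c : F) (g : (Unit ⊕ (Fin m ⊕ Fin m) → F) ≃ₗ[F] V), c ≠ 0 ∧ ∀ v, c * Q (g v) = quadFormOdd m F v := by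
  have h2 : (2 : F) ≠ 0 := by
    intro h2
    obtain ⟨k, hk⟩ := exists_finrank_ker (QuadraticMap.polarBilin Q) (fun x => by
      rw [CfsgLib.Quad.polar_self, h2, zero_mul])
    have hker : LinearMap.ker (QuadraticMap.polarBilin Q) = ⊥ := by
      rw [eq_bot_iff]
      intro x hx
      rw [LinearMap.mem_ker] at hx
      rw [Submodule.mem_bot]
      apply hQ.1
      intro y
      rw [hx]
      rfl
    rw [hker, finrank_bot] at hk
    omega
  let Q0 : QuadraticForm F (Unit ⊕ (Fin m ⊕ Fin m) → F) := (hypSum m (sqQ F)).comp (eOdd m F).toLinearMap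
  have hQ0a : ∀ v, Q0 v = quadFormOdd m F v := fun v => eOdd_apply m v
  have hQ0 : (QuadraticMap.polarBilin Q0).Nondegenerate :=
    nondegenerate_congr (eOdd m F).symm (Q := hypSum m (sqQ F)) (fun u => by
      change hypSum m (sqQ F) ((eOdd m F) ((eOdd m F).symm u)) = _
      rw [LinearEquiv.apply_symm_apply]) (hypSum_nondegenerate m (sqQ_nondegenerate h2))
  have hfr : finrank F (Unit ⊕ (Fin m ⊕ Fin m) → F) = finrank F V := by
    rw [hV]
    simp only [Module.finrank_fintype_fun_eq_card, Fintype.card_sum, Fintype.card_fin, Fintype.card_unit]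
    ring
  let b0 := Pi.basisFun F (Unit ⊕ (Fin m ⊕ Fin m))
  let b := finBasis F V
  have hb0 := gd_ne_zero hQ0 b0
  have hb := gd_ne_zero hQ b
  obtain ⟨c, hc⟩ : ∃ c, c = gd (QuadraticMap.polarBilin Q0) b0 * gd (QuadraticMap.polarBilin Q) b := ⟨_, rfl⟩
  have hc0 : c ≠ 0 := by rw [hc]; exact mul_ne_zero hb0 hb
  have hsq : IsSquare (gd (QuadraticMap.polarBilin Q0) b0 * gd (QuadraticMap.polarBilin (c • Q)) b) := by
    have h5 : c ^ finrank F V = c ^ (2 * m + 1) := by rw [hV]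
    rw [gd_smul, Fintype.card_fin, h5]
    refine ⟨c ^ m * c, ?_⟩
    have h6 : gd (QuadraticMap.polarBilin Q0) b0 * (c ^ (2 * m + 1) * gd (QuadraticMap.polarBilin Q) b) =
        c ^ (2 * m + 1) * (gd (QuadraticMap.polarBilin Q0) b0 * gd (QuadraticMap.polarBilin Q) b) := by ring
    rw [h6, ← hc]
    ring
  obtain ⟨g, hg⟩ := isom_of_gd h2 hQ0 (smul_nondeg hc0 hQ) hfr b0 b hsq
  refine ⟨c, g, hc0, fun v => ?_⟩
  rw [← hQ0a, ← hg]
  rfl

end CfsgLib.Omg
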