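import Mathlib
import Cfsg.Agent.Lib.OMG9
import Cfsg.Agent.Lib.OMG10

/-! Involutions negating hyperbolic pairs. -/

namespace CfsgLib.Omg

open Module CfsgLib.Quad Cfsg

section mat

variable {F : Type*} [Field F] [Finite F] {ι : Type} [Fintype ι] [DecidableEq ι]

theorem exists_negI (h2 : (2 : F) ≠ 0) {Q : QuadraticForm F (ι → F)}
    (hQ : (QuadraticMap.polarBilin Q).Nondegenerate) {m : ℕ} (p q : Fin m → ι) (idx : ι → ℕ)
    (hp : ∀ j, Q (Pi.single (p j) 1) = 0) (hq : ∀ j, Q (Pi.single (q j) 1) = 0)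
    (hβp : ∀ j x, QuadraticMap.polarBilin Q (Pi.single (p j) 1) x = x (q j))
    (hβq : ∀ j x, QuadraticMap.polarBilin Q (Pi.single (q j) 1) x = x (p j))
    (hip : ∀ j, idx (p j) = j) (hiq : ∀ j, idx (q j) = j) (hpq : ∀ j, p j ≠ q j)
    (hidx : ∀ k (j : Fin m), idx k = j → k = p j ∨ k = q j) (i : ℕ) (hi : i ≤ m) :
    ∃ g : O Q, dick hQ g = 1 ∧ sgnO Q 1 g = eta (-1 : F) ^ i ∧
      ∀ x k, g.1 x k = if idx k < i then -x k else x k := by
  induction i with
  | zero =>
    refine ⟨1, map_one _, ?_, fun x k => ?_⟩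
    · rw [map_one, pow_zero]
    · simp
  | succ i ih =>
    obtain ⟨g, h1, h3, h5⟩ := ih (by omega)
    obtain ⟨j, hj⟩ : ∃ j : Fin m, (j : ℕ) = i := ⟨⟨i, by omega⟩, rfl⟩
    obtain ⟨n, n1, n2, n3⟩ := exists_negpair h2 hQ (hp j) (hq j) (by
      rw [hβp, Pi.single_eq_same])
    refine ⟨n * g, ?_, ?_, fun x k => ?_⟩
    · rw [map_mul, n1, h1, mul_one]
    · rw [map_mul, n2, h3, pow_succ']
    · change n.1 (g.1 x) k = _
      rw [n3, hβp, hβq]
      simp only [Pi.add_apply, Pi.smul_apply, smul_eq_mul, h5, hip, hiq, hj, lt_irrefl, if_false]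
      by_cases hk : idx k = i
      · rcases hidx k j (by rw [hj]; exact hk) with h | h
        · subst h
          rw [Pi.single_eq_same, Pi.single_eq_of_ne (hpq j), hip, hj, if_neg (lt_irrefl i), if_pos (Nat.lt_succ_self i)]
          ring
        · subst h
          rw [Pi.single_eq_same, Pi.single_eq_of_ne (hpq j).symm, hiq, hj, if_neg (lt_irrefl i), if_pos (Nat.lt_succ_self i)]
          ring
      · have hkp : k ≠ p j := by rintro rfl; exact hk ((hip j).trans hj)
        have hkq : k ≠ q j := by rintro rfl; exact hk ((hiq j).trans hj)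
        rw [Pi.single_eq_of_ne hkp, Pi.single_eq_of_ne hkq, mul_zero, mul_zero, add_zero, add_zero]
        by_cases hlt : idx k < i
        · rw [if_pos hlt, if_pos (by omega)]
        · rw [if_neg hlt, if_neg (by omega)]

end mat

theorem eta_pow {F : Type*} [Field F] [Fintype F] (hq : Odd (Fintype.card F)) (i : ℕ) :
    eta (-1 : F) ^ i = 1 ↔ Fintype.card F ^ i % 4 = 1 := by
  have hodd := hq
  rw [Nat.odd_iff] at hq
  by_cases h3 : Fintype.card F % 4 = 3
  · have h1 : eta (-1 : F) = -1 := by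
      unfold eta
      rw [if_neg]
      rw [FiniteField.isSquare_neg_one_iff]
      exact fun h => h h3
    rw [h1]
    rcases Nat.even_or_odd i with h | h
    · rw [h.neg_one_pow]
      obtain ⟨k, rfl⟩ := h
      have h5 : Fintype.card F ^ (k + k) % 4 = 1 := by
        rw [← two_mul, pow_mul, Nat.pow_mod, Nat.pow_mod (Fintype.card F) 2 4, h3]
        norm_num
      simp [h5]
    · rw [h.neg_one_pow]
      obtain ⟨k, rfl⟩ := h
      have h5 : Fintype.card F ^ (2 * k + 1) % 4 = 3 := by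
        rw [pow_succ, pow_mul, Nat.mul_mod, Nat.pow_mod (Fintype.card F ^ 2) k 4, Nat.pow_mod (Fintype.card F) 2 4, h3]
        norm_num
      rw [h5]
      constructor
      · intro h; exact absurd h (by decide)
      · intro h; omega
  · have h4 : Fintype.card F % 4 = 1 := by omega
    have h1 : eta (-1 : F) = 1 := by
      rw [eta_eq_one, FiniteField.isSquare_neg_one_iff]
      exact h3
    rw [h1, one_pow, Nat.pow_mod, h4, one_pow]
    simp

theorem negI_iff {F : Type*} [Field F] [Fintype F] (hodd : Odd (Fintype.card F)) {ι : Type} [Fintype ι]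
    [DecidableEq ι] {Q : QuadraticForm F (ι → F)}
    (hQ : (QuadraticMap.polarBilin Q).Nondegenerate) {m : ℕ} (p q : Fin m → ι) (idx : ι → ℕ)
    (hp : ∀ j, Q (Pi.single (p j) 1) = 0) (hq : ∀ j, Q (Pi.single (q j) 1) = 0)
    (hβp : ∀ j x, QuadraticMap.polarBilin Q (Pi.single (p j) 1) x = x (q j))
    (hβq : ∀ j x, QuadraticMap.polarBilin Q (Pi.single (q j) 1) x = x (p j))
    (hip : ∀ j, idx (p j) = j) (hiq : ∀ j, idx (q j) = j) (hpq : ∀ j, p j ≠ q j)
    (hidx : ∀ k (j : Fin m), idx k = j → k = p j ∨ k = q j) (i : ℕ) (hi : i ≤ m) (hn : 2 ≤ Fintype.card ι) :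
    (∃ g : ↥(isometryGroup F ⇑Q), g ∈ Omega F ⇑Q ∧ ((g : GL ι F) : Matrix ι ι F) =
      Matrix.diagonal (fun k : ι => if idx k < i then (-1 : F) else 1)) ↔ Fintype.card F ^ i % 4 = 1 := by
  have h2 := two_ne hodd
  obtain ⟨g0, h1, h3, h5⟩ := exists_negI h2 hQ p q idx hp hq hβp hβq hip hiq hpq hidx i hi
  have hM := coe_isometryGroupEquiv_symm Q g0 (Matrix.diagonal (fun k : ι => if idx k < i then (-1 : F) else 1))
    (fun v => by
      funext k
      rw [Matrix.mulVec_diagonal, h5]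
      split_ifs <;> ring)
  constructor
  · rintro ⟨g, hg, hgm⟩
    have hgg : g = (isometryGroupEquiv Q).symm g0 := Subtype.ext (Units.ext (hgm.trans hM.symm))
    rw [mem_Omega_iff h2 hQ hn, hgg, MulEquiv.apply_symm_apply, h3] at hg
    exact (eta_pow hodd i).1 hg.2
  · intro h
    refine ⟨(isometryGroupEquiv Q).symm g0, ?_, hM⟩
    rw [mem_Omega_iff h2 hQ hn, MulEquiv.apply_symm_apply, h3]
    exact ⟨h1, (eta_pow hodd i).2 h⟩

end CfsgLib.Omg
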