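import Mathlib
import Cfsg.Agent.Lib.OMG11

/-! Polar forms of the standard forms in coordinates. -/

namespace CfsgLib.Omg

open Module CfsgLib.Quad Cfsg

variable {F : Type*} [Field F]

theorem polarP (m : ℕ) (x y : Fin m ⊕ Fin m → F) : QuadraticMap.polarBilin (QP m F) x y =
    ∑ i, (x (Sum.inl i) * y (Sum.inr i) + x (Sum.inr i) * y (Sum.inl i)) := by
  rw [QuadraticMap.polarBilin_apply_apply, QuadraticMap.polar, QP_apply, QP_apply, QP_apply]
  simp only [quadFormPlus, Pi.add_apply]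
  rw [← Finset.sum_sub_distrib, ← Finset.sum_sub_distrib]
  apply Finset.sum_congr rfl
  intro i _
  ring

theorem polarM [Fintype F] (m : ℕ) (a c : F) (x y : (Fin m ⊕ Fin m) ⊕ Fin 2 → F) :
    QuadraticMap.polarBilin (QM m a c) x y =
    ∑ i, (x (Sum.inl (Sum.inl i)) * y (Sum.inl (Sum.inr i)) + x (Sum.inl (Sum.inr i)) * y (Sum.inl (Sum.inl i))) +
      (2 * (x (Sum.inr 0) * y (Sum.inr 0)) + a * (x (Sum.inr 0) * y (Sum.inr 1) + y (Sum.inr 0) * x (Sum.inr 1)) +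
        2 * c * (x (Sum.inr 1) * y (Sum.inr 1))) := by
  rw [QuadraticMap.polarBilin_apply_apply, QuadraticMap.polar, QM_apply, QM_apply, QM_apply]
  simp only [quadFormMinus, Pi.add_apply]
  have h1 : ∑ i : Fin m, (x (Sum.inl (Sum.inl i)) + y (Sum.inl (Sum.inl i))) * (x (Sum.inl (Sum.inr i)) + y (Sum.inl (Sum.inr i))) =
      ∑ i : Fin m, x (Sum.inl (Sum.inl i)) * x (Sum.inl (Sum.inr i)) + ∑ i : Fin m, y (Sum.inl (Sum.inl i)) * y (Sum.inl (Sum.inr i)) +
      ∑ i : Fin m, (x (Sum.inl (Sum.inl i)) * y (Sum.inl (Sum.inr i)) + x (Sum.inl (Sum.inr i)) * y (Sum.inl (Sum.inl i))) := by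
    rw [← Finset.sum_add_distrib, ← Finset.sum_add_distrib]
    apply Finset.sum_congr rfl
    intro i _
    ring
  rw [h1]
  ring

/-- the odd form -/
noncomputable def QOd (m : ℕ) (F : Type*) [Field F] : QuadraticForm F (Unit ⊕ (Fin m ⊕ Fin m) → F) :=
  (hypSum m (sqQ F)).comp (eOdd m F).toLinearMap

theorem QOd_apply (m : ℕ) (v : Unit ⊕ (Fin m ⊕ Fin m) → F) : QOd m F v = quadFormOdd m F v :=
  eOdd_apply m v

theorem QOd_nondeg (h2 : (2 : F) ≠ 0) (m : ℕ) : (QuadraticMap.polarBilin (QOd m F)).Nondegenerate :=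
  nondegenerate_congr (eOdd m F).symm (Q := hypSum m (sqQ F)) (fun u => by
    change hypSum m (sqQ F) ((eOdd m F) ((eOdd m F).symm u)) = _
    rw [LinearEquiv.apply_symm_apply]) (hypSum_nondegenerate m (sqQ_nondegenerate h2))

theorem polarO (m : ℕ) (x y : Unit ⊕ (Fin m ⊕ Fin m) → F) : QuadraticMap.polarBilin (QOd m F) x y =
    2 * (x (Sum.inl ()) * y (Sum.inl ())) +
      ∑ i, (x (Sum.inr (Sum.inl i)) * y (Sum.inr (Sum.inr i)) + x (Sum.inr (Sum.inr i)) * y (Sum.inr (Sum.inl i))) := by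
  rw [QuadraticMap.polarBilin_apply_apply, QuadraticMap.polar, QOd_apply, QOd_apply, QOd_apply]
  simp only [quadFormOdd, Pi.add_apply]
  have h1 : ∑ i : Fin m, (x (Sum.inr (Sum.inl i)) + y (Sum.inr (Sum.inl i))) * (x (Sum.inr (Sum.inr i)) + y (Sum.inr (Sum.inr i))) =
      ∑ i : Fin m, x (Sum.inr (Sum.inl i)) * x (Sum.inr (Sum.inr i)) + ∑ i : Fin m, y (Sum.inr (Sum.inl i)) * y (Sum.inr (Sum.inr i)) +
      ∑ i : Fin m, (x (Sum.inr (Sum.inl i)) * y (Sum.inr (Sum.inr i)) + x (Sum.inr (Sum.inr i)) * y (Sum.inr (Sum.inl i))) := by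
    rw [← Finset.sum_add_distrib, ← Finset.sum_add_distrib]
    apply Finset.sum_congr rfl
    intro i _
    ring
  rw [h1]
  ring

end CfsgLib.Omg
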