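import Mathlib
import Cfsg.Agent.Lib.Linear

/-! Generation of the special linear group by root elements and a monomial matrix. -/

namespace CfsgLib.SLg

open Matrix Matrix.SpecialLinearGroup
open scoped Fin.CommRing

variable {K : Type*} [Field K] {n : ℕ}

/-- sign entry -/
def sE (K : Type*) [Field K] (n : ℕ) (j : Fin (n + 1)) : K := if j = 0 then (-1) ^ n else 1

theorem sE_ne (j : Fin (n + 1)) : sE K n j ≠ 0 := by
  unfold sE
  split_ifs
  · exact pow_ne_zero _ (neg_ne_zero.2 one_ne_zero)
  · exact one_ne_zero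

theorem add_one_iff (i j : Fin (n + 1)) : j = i + 1 ↔ (j.val = i.val + 1 ∨ (i.val = n ∧ j.val = 0)) := by
  rw [Fin.ext_iff, Fin.val_add_one]
  have := j.isLt
  have := i.isLt
  split_ifs with h
  · have h1 : i.val = n := by rw [h]; simp
    constructor
    · intro h2; right; exact ⟨h1, h2⟩
    · rintro (h2 | h2)
      · omega
      · exact h2.2
  · have h1 : i.val ≠ n := by
      intro h1
      apply h
      apply Fin.ext
      simpa using h1
    constructor
    · intro h2; left; exact h2
    · rintro (h2 | h2)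
      · exact h2
      · exact absurd h2.1 h1

theorem w_entry {w : SpecialLinearGroup (Fin (n + 1)) K}
    (hw : (w : Matrix (Fin (n + 1)) (Fin (n + 1)) K) =
      Matrix.of (fun i j => if j.val = i.val + 1 then 1 else if i.val = n ∧ j.val = 0 then (-1) ^ n else 0)) (i j : Fin (n + 1)) :
    (w : Matrix (Fin (n + 1)) (Fin (n + 1)) K) i j = if j = i + 1 then sE K n j else 0 := by
  rw [hw, Matrix.of_apply]
  by_cases h1 : j.val = i.val + 1
  · rw [if_pos h1, if_pos ((add_one_iff i j).2 (Or.inl h1)), sE, if_neg]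
    intro h
    rw [h] at h1
    simp at h1
  · rw [if_neg h1]
    by_cases h2 : i.val = n ∧ j.val = 0
    · rw [if_pos h2, if_pos ((add_one_iff i j).2 (Or.inr h2)), sE, if_pos (Fin.ext h2.2)]
    · rw [if_neg h2, if_neg]
      rw [add_one_iff]
      rintro (h | h)
      · exact h1 h
      · exact h2 h

theorem shift {w : SpecialLinearGroup (Fin (n + 1)) K}
    (hw : ∀ i j, (w : Matrix (Fin (n + 1)) (Fin (n + 1)) K) i j = if j = i + 1 then sE K n j else 0)
    {a b : Fin (n + 1)} (hab : a ≠ b) (hab' : a + 1 ≠ b + 1) {c c' : K} (hc : c * sE K n (a + 1) = c' * sE K n (b + 1)) :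
    w * transvection hab' c = transvection hab c' * w := by
  apply Subtype.ext
  change (w : Matrix (Fin (n + 1)) (Fin (n + 1)) K) * (transvection hab' c : Matrix (Fin (n + 1)) (Fin (n + 1)) K) =
    (transvection hab c' : Matrix (Fin (n + 1)) (Fin (n + 1)) K) * (w : Matrix (Fin (n + 1)) (Fin (n + 1)) K)
  rw [transvection_coe, transvection_coe, mul_add, add_mul, mul_one, one_mul]
  congr 1
  ext k l
  rw [Matrix.mul_apply, Matrix.mul_apply, Finset.sum_eq_single (a + 1), Finset.sum_eq_single b]
  · rw [hw, hw, Matrix.single_apply, Matrix.single_apply]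
    by_cases hk : a = k
    · subst hk
      by_cases hl : b + 1 = l
      · subst hl
        rw [if_pos rfl, if_pos ⟨rfl, rfl⟩, if_pos ⟨rfl, rfl⟩, if_pos rfl, ← hc, mul_comm]
      · rw [if_neg (c := a + 1 = a + 1 ∧ b + 1 = l) (fun h => hl h.2), if_neg (c := l = b + 1) (fun h => hl h.symm), mul_zero, mul_zero]
    · rw [if_neg (fun h => hk (add_right_cancel h)), if_neg (c := a = k ∧ b = b) (fun h => hk h.1), zero_mul, zero_mul]
  · intro m _ hm
    rw [Matrix.single_apply, if_neg (fun h => hm h.2.symm), zero_mul]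
  · intro h
    exact absurd (Finset.mem_univ _) h
  · intro m _ hm
    rw [Matrix.single_apply, if_neg (fun h => hm h.1.symm), mul_zero]
  · intro h
    exact absurd (Finset.mem_univ _) h

/-- all root elements at a position belong to `H` -/
def P (H : Subgroup (SpecialLinearGroup (Fin (n + 1)) K)) (a b : Fin (n + 1)) : Prop :=
  ∀ (h : a ≠ b) (c : K), transvection h c ∈ H

theorem P_succ {H : Subgroup (SpecialLinearGroup (Fin (n + 1)) K)} {w : SpecialLinearGroup (Fin (n + 1)) K}
    (hw : ∀ i j, (w : Matrix (Fin (n + 1)) (Fin (n + 1)) K) i j = if j = i + 1 then sE K n j else 0)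
    (hwH : w ∈ H) {a b : Fin (n + 1)} (h : P H a b) : P H (a + 1) (b + 1) := by
  intro hab' c
  have hab : a ≠ b := fun h => hab' (by rw [h])
  have h1 := shift hw hab hab' (c := c) (c' := c * sE K n (a + 1) * (sE K n (b + 1))⁻¹) (by
    rw [mul_assoc (c * _), inv_mul_cancel₀ (sE_ne _), mul_one])
  rw [← eq_inv_mul_iff_mul_eq] at h1
  rw [h1]
  exact H.mul_mem (H.inv_mem hwH) (H.mul_mem (h hab _) hwH)

theorem gen (hn : 1 ≤ n) {H : Subgroup (SpecialLinearGroup (Fin (n + 1)) K)} {w : SpecialLinearGroup (Fin (n + 1)) K}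
    (hw : ∀ i j, (w : Matrix (Fin (n + 1)) (Fin (n + 1)) K) i j = if j = i + 1 then sE K n j else 0)
    (hwH : w ∈ H) (h : P H 0 1) : H = ⊤ := by
  have hne : ∀ (a : Fin (n + 1)) (d : ℕ), 1 ≤ d → d ≤ n → a ≠ a + (d : Fin (n + 1)) := by
    intro a d hd hd' hcon
    have h1 : (d : Fin (n + 1)) = 0 := by
      rw [eq_comm, add_eq_left] at hcon
      exact hcon
    rw [Fin.natCast_eq_zero] at h1
    have := Nat.le_of_dvd hd h1
    omega
  have h1 : ∀ k : ℕ, P H (k : Fin (n + 1)) ((k : Fin (n + 1)) + 1) := by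
    intro k
    induction k with
    | zero =>
      rw [Nat.cast_zero, zero_add]
      exact h
    | succ k ih =>
      rw [Nat.cast_succ]
      exact P_succ hw hwH ih
  have h1' : ∀ a : Fin (n + 1), P H a (a + 1) := by
    intro a
    have := h1 a.val
    rwa [Fin.cast_val_eq_self] at this
  have h2 : ∀ d : ℕ, 1 ≤ d → d ≤ n → ∀ a : Fin (n + 1), P H a (a + (d : Fin (n + 1))) := by
    intro d hd
    induction d, hd using Nat.le_induction with
    | base =>
      intro _ a
      rw [Nat.cast_one]
      exact h1' a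
    | succ d hd ih =>
      intro hdn a hne' c
      have e : a + ((d + 1 : ℕ) : Fin (n + 1)) = (a + (d : Fin (n + 1))) + 1 := by
        rw [Nat.cast_succ, add_assoc]
      have n1 : a ≠ a + (d : Fin (n + 1)) := hne a d hd (by omega)
      have n2 : a + (d : Fin (n + 1)) ≠ a + ((d + 1 : ℕ) : Fin (n + 1)) := by
        rw [e]
        have := hne (a + (d : Fin (n + 1))) 1 le_rfl hn
        rwa [Nat.cast_one] at this
      have h3 := CfsgLib.Linear.commutator_transvection n1 n2 hne' c 1
      rw [mul_one] at h3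
      rw [← h3]
      have m1 : transvection n1 c ∈ H := ih (by omega) a n1 c
      have m2 : transvection n2 (1 : K) ∈ H := by
        have := h1' (a + (d : Fin (n + 1)))
        rw [← e] at this
        exact this n2 1
      exact H.mul_mem (H.mul_mem (H.mul_mem m1 m2) (H.inv_mem m1)) (H.inv_mem m2)
  haveI : Nontrivial (Fin (n + 1)) := Fin.nontrivial_iff_two_le.2 (by omega)
  apply CfsgLib.Linear.le_of_transvections_mem
  intro i j hij c
  have h3 : (j - i).val ≠ 0 := by
    intro h0
    have : j - i = 0 := Fin.ext h0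
    exact hij (sub_eq_zero.1 this).symm
  have h4 := h2 (j - i).val (by omega) (by omega) i
  rw [Fin.cast_val_eq_self, add_sub_cancel] at h4
  exact h4 hij c

end CfsgLib.SLg
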