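import Mathlib
import Cfsg.Agent.Lib.Herm9
import Cfsg.Agent.Lib.Symp2

/-! Restriction of scalars for unitary groups. -/

namespace CfsgLib.GUs

open Module CfsgLib.Herm

theorem setup {K F : Type*} [Field K] [Fintype K] [Field F] [Fintype F] {q : ℕ} (hK : Fintype.card K = q ^ 2)
    (hF : Fintype.card F = q) : ∃ (σ : K →+* K) (ι : F →+* K), (∀ a, σ a = a ^ q) ∧ (∀ a, σ a = a ↔ ∃ k, ι k = a) ∧ (∀ a, σ (σ a) = a) := by
  obtain ⟨σ, hσ⟩ := exists_sigma (F := K) (q := q) (by rw [Nat.card_eq_fintype_card, hK])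
  obtain ⟨ι, hι⟩ := exists_embedding (K := F) hσ (by rw [Nat.card_eq_fintype_card, hF])
  refine ⟨σ, ι, hσ.pow, hι, fun a => ?_⟩
  rw [hσ.pow, hσ.pow, ← pow_mul, ← pow_two, ← hK]
  exact FiniteField.pow_card a

theorem finrank_two {K F : Type*} [Field K] [Fintype K] [Field F] [Fintype F] [Algebra F K] {q : ℕ} (hK : Fintype.card K = q ^ 2)
    (hF : Fintype.card F = q) : finrank F K = 2 := by
  have h1 := Module.card_eq_pow_finrank (K := F) (V := K)
  rw [hK, hF] at h1
  have hq : 2 ≤ q := by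
    rw [← hF]
    exact Fintype.one_lt_card
  exact (Nat.pow_right_injective hq h1).symm

/-- scalar restriction -/
def L {K : Type*} [Field K] (F : Type*) [Field F] [Algebra F K] (m : ℕ) : GL (Fin m) K →* ((Fin m → K) ≃ₗ[F] (Fin m → K)) where
  toFun g :=
    { toFun := fun v => (g : Matrix (Fin m) (Fin m) K).mulVec v
      map_add' := fun u v => Matrix.mulVec_add _ u v
      map_smul' := fun c v => Matrix.mulVec_smul _ c v
      invFun := fun v => ((g⁻¹ : GL (Fin m) K) : Matrix (Fin m) (Fin m) K).mulVec v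
      left_inv := fun v => by
        change ((g⁻¹ : GL (Fin m) K) : Matrix (Fin m) (Fin m) K).mulVec ((g : Matrix (Fin m) (Fin m) K).mulVec v) = v
        rw [Matrix.mulVec_mulVec, ← Units.val_mul, inv_mul_cancel, Units.val_one, Matrix.one_mulVec]
      right_inv := fun v => by
        change (g : Matrix (Fin m) (Fin m) K).mulVec (((g⁻¹ : GL (Fin m) K) : Matrix (Fin m) (Fin m) K).mulVec v) = v
        rw [Matrix.mulVec_mulVec, ← Units.val_mul, mul_inv_cancel, Units.val_one, Matrix.one_mulVec] }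
  map_one' := by
    ext1 v
    exact Matrix.one_mulVec v
  map_mul' g h := by
    ext1 v
    change ((g * h : GL (Fin m) K) : Matrix (Fin m) (Fin m) K).mulVec v = (g : Matrix (Fin m) (Fin m) K).mulVec ((h : Matrix (Fin m) (Fin m) K).mulVec v)
    rw [Matrix.mulVec_mulVec, Units.val_mul]

theorem L_apply {K : Type*} [Field K] (F : Type*) [Field F] [Algebra F K] (m : ℕ) (g : GL (Fin m) K) (v : Fin m → K) :
    L F m g v = (g : Matrix (Fin m) (Fin m) K).mulVec v := rfl

theorem L_inj {K : Type*} [Field K] (F : Type*) [Field F] [Algebra F K] (m : ℕ) : Function.Injective (L (K := K) F m) := by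
  intro g h hgh
  apply Units.ext
  apply Matrix.toLin'.injective
  ext1
  ext1
  rename_i i
  change (g : Matrix (Fin m) (Fin m) K).mulVec _ = (h : Matrix (Fin m) (Fin m) K).mulVec _
  exact congrArg (fun f : (Fin m → K) ≃ₗ[F] (Fin m → K) => f _) hgh

end CfsgLib.GUs
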