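import Mathlib
import Cfsg.Agent.Lib.OMG3

/-! Moving subspaces by Omega (II). -/

namespace CfsgLib.Omg

open Module CfsgLib.Quad Cfsg

section gen

variable {F V : Type*} [Field F] [AddCommGroup V] [Module F V] [FiniteDimensional F V]

/-- the stabiliser of a subspace -/
def stab (Q : QuadraticForm F V) (W : Submodule F V) : Subgroup (O Q) where
  carrier := {g | W.map (g.1 : V →ₗ[F] V) = W}
  one_mem' := Submodule.map_id W
  mul_mem' := by
    intro g h hg hh
    change W.map ((g * h).1 : V →ₗ[F] V) = W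
    rw [map_mul_O, hh, hg]
  inv_mem' := by
    intro g hg
    change W.map ((g⁻¹).1 : V →ₗ[F] V) = W
    have h1 : (W.map (g.1 : V →ₗ[F] V)).map ((g⁻¹).1 : V →ₗ[F] V) = W := by
      rw [← map_mul_O, inv_mul_cancel]
      exact Submodule.map_id W
    rw [hg] at h1
    exact h1

theorem mem_stab_of {Q : QuadraticForm F V} {W : Submodule F V} {g : O Q} (h : ∀ x ∈ W, g.1 x ∈ W) : g ∈ stab Q W := by
  change W.map (g.1 : V →ₗ[F] V) = W
  apply Submodule.eq_of_le_of_finrank_eq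
  · rintro _ ⟨x, hx, rfl⟩
    exact h x hx
  · exact LinearEquiv.finrank_map_eq g.1 W

theorem refl_stab_left {Q : QuadraticForm F V} {W : Submodule F V} {w : V} (hw : Q w ≠ 0) (h : w ∈ W) :
    reflO hw ∈ stab Q W := by
  apply mem_stab_of
  intro x hx
  rw [reflO_apply]
  exact W.sub_mem hx (W.smul_mem _ h)

theorem refl_stab_right {Q : QuadraticForm F V} {W : Submodule F V} {w : V} (hw : Q w ≠ 0)
    (h : ∀ x ∈ W, QuadraticMap.polarBilin Q w x = 0) : reflO hw ∈ stab Q W := by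
  apply mem_stab_of
  intro x hx
  rw [reflO_of_orthogonal hw (h x hx)]
  exact hx

theorem move {Q : QuadraticForm F V} {U W : Submodule F V} {g s : O Q} (hg : U.map (g.1 : V →ₗ[F] V) = W)
    (hs : s ∈ stab Q W) : U.map ((s * g).1 : V →ₗ[F] V) = W := by
  rw [map_mul_O, hg]
  exact hs

variable [Finite F]

theorem fix_even (h2 : (2 : F) = 0) {Q : QuadraticForm F V} (hQ : (QuadraticMap.polarBilin Q).Nondegenerate)
    (h4 : (∃ c : F, c ≠ 0 ∧ c ≠ 1) ∨ finrank F V ≠ 4) (S : Subgroup (O Q)) (g : O Q)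
    (h : dick hQ g = 1 ∨ ∃ r ∈ S, dick hQ r = -1) : ∃ s ∈ S, s * g ∈ commutator (O Q) := by
  rw [commutator_eq_ker_dick h2 hQ h4]
  rcases Int.units_eq_one_or (dick hQ g) with h1 | h1
  · exact ⟨1, S.one_mem, by rw [one_mul]; exact h1⟩
  · rcases h with h | ⟨r, hr, h⟩
    · exact ⟨1, S.one_mem, by rw [one_mul]; exact h⟩
    · refine ⟨r, hr, ?_⟩
      rw [MonoidHom.mem_ker, map_mul, h, h1]
      simp

theorem fix_odd (h2 : (2 : F) ≠ 0) {Q : QuadraticForm F V} (hQ : (QuadraticMap.polarBilin Q).Nondegenerate)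
    (hV : 2 ≤ finrank F V) {c : F} (hc : c ≠ 0) (S : Subgroup (O Q)) (g : O Q)
    (h : dick hQ g = 1 ∨ ∃ r ∈ S, dick hQ r = -1) {s : O Q} (hs : s ∈ S) (hs1 : dick hQ s = 1)
    (hs2 : sgnO Q c s = -1) : ∃ s ∈ S, s * g ∈ commutator (O Q) := by
  rw [commutator_eq_ker_chiO h2 hQ hV c hc]
  have key : ∀ t : O Q, t ∈ S → dick hQ (t * g) = 1 → ∃ s ∈ S, s * g ∈ (chiO hQ c).ker := by
    intro t ht h1
    rcases Int.units_eq_one_or (sgnO Q c (t * g)) with h3 | h3
    · refine ⟨t, ht, ?_⟩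
      rw [MonoidHom.mem_ker]
      exact Prod.ext h1 h3
    · refine ⟨s * t, S.mul_mem hs ht, ?_⟩
      rw [MonoidHom.mem_ker, mul_assoc]
      refine Prod.ext ?_ ?_
      · change dick hQ (s * (t * g)) = 1
        rw [map_mul, hs1, h1, one_mul]
      · change sgnO Q c (s * (t * g)) = 1
        rw [map_mul, hs2, h3]
        simp
  rcases Int.units_eq_one_or (dick hQ g) with h1 | h1
  · exact key 1 S.one_mem (by rw [one_mul]; exact h1)
  · rcases h with h | ⟨r, hr, h⟩
    · exact key 1 S.one_mem (by rw [one_mul]; exact h)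
    · exact key r hr (by rw [map_mul, h, h1]; simp)

/-- the hyperbolic scaling of a maximal singular subspace -/
theorem exists_scale (h2 : (2 : F) ≠ 0) {Q : QuadraticForm F V} (hQ : (QuadraticMap.polarBilin Q).Nondegenerate)
    {W : Submodule F V} (hW0 : ∀ w ∈ W, Q w = 0) (hne : W ≠ ⊥) :
    ∃ s ∈ stab Q W, dick hQ s = 1 ∧ sgnO Q (-1) s = -1 := by
  obtain ⟨e, heW, he0⟩ := (Submodule.ne_bot_iff W).1 hne
  obtain ⟨f, hf, hef⟩ := exists_partner hQ he0 (hW0 e heW)
  obtain ⟨c, hc⟩ := exists_nonsquare h2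
  have hc0 : c ≠ 0 := by
    rintro rfl
    exact hc (IsSquare.zero)
  have hQe : Q e = 0 := hW0 e heW
  have e1 : Q (e - c⁻¹ • f) = -c⁻¹ := by
    rw [CfsgLib.Quad.map_sub, CfsgLib.Quad.map_smul, hQe, hf, LinearMap.map_smul, hef]
    simp
  have e2 : Q (e - f) = -1 := by
    rw [CfsgLib.Quad.map_sub, hQe, hf, hef]
    simp
  have h1 : Q (e - c⁻¹ • f) ≠ 0 := by rw [e1]; exact neg_ne_zero.2 (inv_ne_zero hc0)
  have h3 : Q (e - f) ≠ 0 := by rw [e2]; exact neg_ne_zero.2 one_ne_zero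
  refine ⟨reflO h1 * reflO h3, ?_, ?_, ?_⟩
  · apply mem_stab_of
    intro x hx
    rw [exists_hscale hQe hf hef hc0 h1 h3]
    have h5 : QuadraticMap.polarBilin Q e x = 0 := by
      have h6 := CfsgLib.Quad.map_add Q e x
      rw [hW0 _ (W.add_mem heW hx), hQe, hW0 x hx] at h6
      simpa using h6.symm
    rw [h5, mul_zero, zero_smul, add_zero]
    exact W.add_mem hx (W.smul_mem _ heW)
  · rw [map_mul, dick_reflO, dick_reflO]; simp
  · rw [map_mul, sgnO_reflO h2 (neg_ne_zero.2 one_ne_zero), sgnO_reflO h2 (neg_ne_zero.2 one_ne_zero), e1, e2]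
    have h5 : ¬ IsSquare (-1 * -c⁻¹ : F) := by
      rw [neg_mul_neg, one_mul]
      intro h
      apply hc
      have := h.inv
      rwa [inv_inv] at this
    have h6 : IsSquare (-1 * -1 : F) := ⟨-1, rfl⟩
    rw [if_neg h5, if_pos h6]
    simp

end gen

section mat

variable {F : Type*} [Field F] {ι : Type} [Fintype ι] [DecidableEq ι]

theorem to_mat (Q : QuadraticForm F (ι → F)) {U W : Submodule F (ι → F)} {g : O Q}
    (hg : g ∈ commutator (O Q)) (h : U.map (g.1 : (ι → F) →ₗ[F] (ι → F)) = W) :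
    ∃ g' : isometryGroup F ⇑Q, g' ∈ Omega F ⇑Q ∧
      U.map (Matrix.mulVecLin ((g' : GL ι F) : Matrix ι ι F)) = W := by
  refine ⟨(isometryGroupEquiv Q).symm g, ?_, ?_⟩
  · rw [Omega, ← mem_commutator_congr (isometryGroupEquiv Q), MulEquiv.apply_symm_apply]
    exact hg
  · rw [map_mulVecLin, MulEquiv.apply_symm_apply]
    exact h

end mat

end CfsgLib.Omg
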