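import Mathlib
import Cfsg.Agent.Lib.OMG4

/-! Moving subspaces by Omega (III). -/

namespace CfsgLib.Omg

open Module CfsgLib.Quad Cfsg

variable {F V : Type*} [Field F] [AddCommGroup V] [Module F V] [FiniteDimensional F V]

theorem witt_map {Q : QuadraticForm F V} (hQ : (QuadraticMap.polarBilin Q).Nondegenerate)
    {U W : Submodule F V} (e : U ≃ₗ[F] W) (he : ∀ u : U, Q (e u : V) = Q (u : V)) :
    ∃ g : O Q, U.map (g.1 : V →ₗ[F] V) = W := by
  obtain ⟨g, hg, h⟩ := exists_O_extension hQ U (W.subtype ∘ₗ (e : U →ₗ[F] W))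
    (W.injective_subtype.comp e.injective) he
  refine ⟨⟨g, hg⟩, ?_⟩
  apply le_antisymm
  · rintro _ ⟨x, hx, rfl⟩
    have h1 := h ⟨x, hx⟩
    change g x ∈ W
    rw [h1]
    exact (e ⟨x, hx⟩).2
  · intro y hy
    refine ⟨(e.symm ⟨y, hy⟩ : V), (e.symm ⟨y, hy⟩).2, ?_⟩
    have h1 := h (e.symm ⟨y, hy⟩)
    change g _ = y
    rw [h1]
    change ((e (e.symm ⟨y, hy⟩) : W) : V) = y
    rw [LinearEquiv.apply_symm_apply]

theorem exists_perp_nonsing {Q : QuadraticForm F V} (hQ : (QuadraticMap.polarBilin Q).Nondegenerate)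
    {W : Submodule F V} (hk : 2 * finrank F W < finrank F V) :
    ∃ w, Q w ≠ 0 ∧ ∀ x ∈ W, QuadraticMap.polarBilin Q w x = 0 := by
  by_contra hcon
  push Not at hcon
  have h1 : ∀ w ∈ LinearMap.BilinForm.orthogonal (QuadraticMap.polarBilin Q) W, Q w = 0 := by
    intro w hw
    by_contra hne
    obtain ⟨x, hx, h⟩ := hcon w hne
    rw [mem_orth] at hw
    apply h
    rw [polar_comm]
    exact hw x hx
  have h2 : LinearMap.BilinForm.orthogonal (QuadraticMap.polarBilin Q) W ≤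
      LinearMap.BilinForm.orthogonal (QuadraticMap.polarBilin Q)
        (LinearMap.BilinForm.orthogonal (QuadraticMap.polarBilin Q) W) := by
    intro x hx
    rw [mem_orth]
    intro y hy
    have h6 := CfsgLib.Quad.map_add Q y x
    rw [h1 _ (Submodule.add_mem _ hy hx), h1 y hy, h1 x hx] at h6
    simpa using h6.symm
  have h3 := LinearMap.BilinForm.finrank_orthogonal hQ W
  have h4 := LinearMap.BilinForm.finrank_orthogonal hQ
    (LinearMap.BilinForm.orthogonal (QuadraticMap.polarBilin Q) W)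
  have h5 := Submodule.finrank_mono h2
  have h6 := Submodule.finrank_le W
  omega

theorem trans_sing [Finite F] {Q : QuadraticForm F V} (hQ : (QuadraticMap.polarBilin Q).Nondegenerate)
    (h4 : (∃ c : F, c ≠ 0 ∧ c ≠ 1) ∨ finrank F V ≠ 4) {U W : Submodule F V}
    (hUW : finrank F U = finrank F W) (hk : 2 * finrank F W < finrank F V)
    (hU0 : ∀ u ∈ U, Q u = 0) (hW0 : ∀ w ∈ W, Q w = 0) :
    ∃ g : O Q, g ∈ commutator (O Q) ∧ U.map (g.1 : V →ₗ[F] V) = W := by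
  by_cases hWb : W = ⊥
  · subst hWb
    rw [finrank_bot, Submodule.finrank_eq_zero] at hUW
    subst hUW
    exact ⟨1, one_mem _, Submodule.map_bot _⟩
  obtain ⟨g, hg⟩ := witt_map hQ (LinearEquiv.ofFinrankEq U W hUW)
    (fun u => by rw [hU0 _ u.2, hW0 _ (LinearEquiv.ofFinrankEq U W hUW u).2])
  obtain ⟨w, hw, hwW⟩ := exists_perp_nonsing hQ hk
  have hr : dick hQ g = 1 ∨ ∃ r ∈ stab Q W, dick hQ r = -1 :=
    Or.inr ⟨reflO hw, refl_stab_right hw hwW, dick_reflO hQ hw⟩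
  by_cases h2 : (2 : F) = 0
  · obtain ⟨s, hs, h⟩ := fix_even h2 hQ h4 (stab Q W) g hr
    exact ⟨s * g, h, move hg hs⟩
  · obtain ⟨t, ht, ht1, ht2⟩ := exists_scale h2 hQ hW0 hWb
    have hpos : 0 < finrank F W := Submodule.one_le_finrank_iff.2 hWb
    obtain ⟨s, hs, h⟩ := fix_odd h2 hQ (by omega) (neg_ne_zero.2 one_ne_zero) (stab Q W) g hr ht ht1 ht2
    exact ⟨s * g, h, move hg hs⟩

theorem trans_max [Finite F] {Q : QuadraticForm F V} (hQ : (QuadraticMap.polarBilin Q).Nondegenerate)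
    (h4 : (∃ c : F, c ≠ 0 ∧ c ≠ 1) ∨ finrank F V ≠ 4) {m : ℕ} (hm : 1 ≤ m) (hV : finrank F V = 2 * m)
    {U W : Submodule F V} (hU : MS Q m U) (hW : MS Q m W) (he : Even (m - finrank F ↥(U ⊓ W))) :
    ∃ g : O Q, g ∈ commutator (O Q) ∧ U.map (g.1 : V →ₗ[F] V) = W := by
  obtain ⟨g, hg⟩ := witt_map hQ (LinearEquiv.ofFinrankEq U W (hU.1.trans hW.1.symm))
    (fun u => by rw [hU.2 _ u.2, hW.2 _ (LinearEquiv.ofFinrankEq U W (hU.1.trans hW.1.symm) u).2])
  have hd : dick hQ g = 1 := by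
    rw [← even_sub_iff hQ hV h4 g hU, hg]
    exact he
  by_cases h2 : (2 : F) = 0
  · obtain ⟨s, hs, h⟩ := fix_even h2 hQ h4 (stab Q W) g (Or.inl hd)
    exact ⟨s * g, h, move hg hs⟩
  · have hWb : W ≠ ⊥ := by
      rintro rfl
      have := hW.1
      rw [finrank_bot] at this
      omega
    obtain ⟨t, ht, ht1, ht2⟩ := exists_scale h2 hQ hW.2 hWb
    obtain ⟨s, hs, h⟩ := fix_odd h2 hQ (by omega) (neg_ne_zero.2 one_ne_zero) (stab Q W) g (Or.inl hd) ht ht1 ht2
    exact ⟨s * g, h, move hg hs⟩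

theorem resQ_nondeg {Q : QuadraticForm F V} {W : Submodule F V}
    (h : W ⊓ LinearMap.BilinForm.orthogonal (QuadraticMap.polarBilin Q) W = ⊥) :
    (QuadraticMap.polarBilin (resQ Q W)).Nondegenerate := by
  apply nondegenerate_of_left
  intro x hx
  have h1 : (x : V) ∈ W ⊓ LinearMap.BilinForm.orthogonal (QuadraticMap.polarBilin Q) W := by
    refine ⟨x.2, ?_⟩
    rw [SetLike.mem_coe, mem_orth]
    intro y hy
    have := hx ⟨y, hy⟩
    rw [resQ_polar] at this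
    rw [polar_comm]
    exact this
  rw [h, Submodule.mem_bot] at h1
  exact Subtype.ext h1

theorem trans_nondeg [Finite F] {Q : QuadraticForm F V} (hQ : (QuadraticMap.polarBilin Q).Nondegenerate)
    (h4 : (∃ c : F, c ≠ 0 ∧ c ≠ 1) ∨ finrank F V ≠ 4) (hn : 3 ≤ finrank F V) {U W : Submodule F V}
    (hW : W ⊓ LinearMap.BilinForm.orthogonal (QuadraticMap.polarBilin Q) W = ⊥)
    (e : U ≃ₗ[F] W) (he : ∀ u : U, Q (e u : V) = Q (u : V)) :
    ∃ g : O Q, g ∈ commutator (O Q) ∧ U.map (g.1 : V →ₗ[F] V) = W := by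
  obtain ⟨g, hg⟩ := witt_map hQ e he
  by_cases h2 : (2 : F) = 0
  · have hr : ∃ r ∈ stab Q W, dick hQ r = -1 := by
      by_cases hWb : W = ⊥
      · obtain ⟨w, hw⟩ := exists_ne_zero_of_nondegenerate hQ (by omega)
        refine ⟨reflO hw, refl_stab_right hw ?_, dick_reflO hQ hw⟩
        intro x hx
        rw [hWb, Submodule.mem_bot] at hx
        rw [hx, _root_.map_zero]
      · have hpos : 0 < finrank F W := Submodule.one_le_finrank_iff.2 hWb
        obtain ⟨w, hw⟩ := exists_ne_zero_of_nondegenerate (resQ_nondeg hW) hpos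
        rw [resQ_apply] at hw
        exact ⟨reflO hw, refl_stab_left hw w.2, dick_reflO hQ hw⟩
    obtain ⟨s, hs, h⟩ := fix_even h2 hQ h4 (stab Q W) g (Or.inr hr)
    exact ⟨s * g, h, move hg hs⟩
  · obtain ⟨ν, hν⟩ := exists_nonsquare h2
    have hν0 : ν ≠ 0 := by rintro rfl; exact hν IsSquare.zero
    have key : ∃ (w₁ w₂ : V) (h₁ : Q w₁ ≠ 0) (h₂ : Q w₂ ≠ 0), Q w₁ = 1 ∧ Q w₂ = ν ∧
        reflO h₁ ∈ stab Q W ∧ reflO h₂ ∈ stab Q W := by
      by_cases hd : 2 ≤ finrank F W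
      · obtain ⟨w₁, e₁⟩ := exists_map_eq (resQ_nondeg hW) hd 1
        obtain ⟨w₂, e₂⟩ := exists_map_eq (resQ_nondeg hW) hd ν
        rw [resQ_apply] at e₁ e₂
        have h₁ : Q w₁.1 ≠ 0 := by rw [e₁]; exact one_ne_zero
        have h₂ : Q w₂.1 ≠ 0 := by rw [e₂]; exact hν0
        exact ⟨w₁, w₂, h₁, h₂, e₁, e₂, refl_stab_left h₁ w₁.2, refl_stab_left h₂ w₂.2⟩
      · have hperp := LinearMap.BilinForm.finrank_orthogonal hQ W
        have hoo := LinearMap.BilinForm.orthogonal_orthogonal hQ (polar_isRefl Q) W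
        have hW' : LinearMap.BilinForm.orthogonal (QuadraticMap.polarBilin Q) W ⊓
            LinearMap.BilinForm.orthogonal (QuadraticMap.polarBilin Q)
              (LinearMap.BilinForm.orthogonal (QuadraticMap.polarBilin Q) W) = ⊥ := by
          rw [hoo, inf_comm, hW]
        obtain ⟨w₁, e₁⟩ := exists_map_eq (resQ_nondeg hW') (by omega) 1
        obtain ⟨w₂, e₂⟩ := exists_map_eq (resQ_nondeg hW') (by omega) ν
        rw [resQ_apply] at e₁ e₂
        have h₁ : Q w₁.1 ≠ 0 := by rw [e₁]; exact one_ne_zero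
        have h₂ : Q w₂.1 ≠ 0 := by rw [e₂]; exact hν0
        have hp : ∀ w : LinearMap.BilinForm.orthogonal (QuadraticMap.polarBilin Q) W, ∀ x ∈ W,
            QuadraticMap.polarBilin Q w.1 x = 0 := by
          intro w x hx
          rw [polar_comm]
          exact mem_orth.1 w.2 x hx
        exact ⟨w₁, w₂, h₁, h₂, e₁, e₂, refl_stab_right h₁ (hp w₁), refl_stab_right h₂ (hp w₂)⟩
    obtain ⟨w₁, w₂, h₁, h₂, e₁, e₂, m₁, m₂⟩ := key
    have hs1 : dick hQ (reflO h₁ * reflO h₂) = 1 := by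
      rw [map_mul, dick_reflO, dick_reflO]; simp
    have hs2 : sgnO Q 1 (reflO h₁ * reflO h₂) = -1 := by
      rw [map_mul, sgnO_reflO h2 one_ne_zero, sgnO_reflO h2 one_ne_zero, e₁, e₂]
      have h5 : ¬ IsSquare (1 * ν : F) := by rwa [one_mul]
      have h6 : IsSquare (1 * 1 : F) := ⟨1, rfl⟩
      rw [if_neg h5, if_pos h6]
      simp
    obtain ⟨s, hs, h⟩ := fix_odd h2 hQ (by omega) one_ne_zero (stab Q W) g
      (Or.inr ⟨reflO h₁, m₁, dick_reflO hQ h₁⟩) ((stab Q W).mul_mem m₁ m₂) hs1 hs2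
    exact ⟨s * g, h, move hg hs⟩

end CfsgLib.Omg
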