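import Mathlib
import Cfsg.Agent.Lib.OMG4

/-! Omega of orthogonal sums. -/

namespace CfsgLib.Omg

open Module CfsgLib.Quad Cfsg

section gen

variable {F V₁ V₂ : Type*} [Field F] [AddCommGroup V₁] [Module F V₁] [FiniteDimensional F V₁]
  [AddCommGroup V₂] [Module F V₂] [FiniteDimensional F V₂]

/-- orthogonal sum of two quadratic forms -/
noncomputable def oplus (Q₁ : QuadraticForm F V₁) (Q₂ : QuadraticForm F V₂) : QuadraticForm F (V₁ × V₂) :=
  Q₁.comp (LinearMap.fst F V₁ V₂) + Q₂.comp (LinearMap.snd F V₁ V₂)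

theorem oplus_apply (Q₁ : QuadraticForm F V₁) (Q₂ : QuadraticForm F V₂) (x : V₁ × V₂) :
    oplus Q₁ Q₂ x = Q₁ x.1 + Q₂ x.2 := rfl

theorem oplus_polar (Q₁ : QuadraticForm F V₁) (Q₂ : QuadraticForm F V₂) (x y : V₁ × V₂) :
    QuadraticMap.polarBilin (oplus Q₁ Q₂) x y =
      QuadraticMap.polarBilin Q₁ x.1 y.1 + QuadraticMap.polarBilin Q₂ x.2 y.2 := by
  simp only [QuadraticMap.polarBilin_apply_apply, QuadraticMap.polar, oplus_apply, Prod.fst_add, Prod.snd_add]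
  ring

theorem oplus_nondeg {Q₁ : QuadraticForm F V₁} {Q₂ : QuadraticForm F V₂}
    (h₁ : (QuadraticMap.polarBilin Q₁).Nondegenerate) (h₂ : (QuadraticMap.polarBilin Q₂).Nondegenerate) :
    (QuadraticMap.polarBilin (oplus Q₁ Q₂)).Nondegenerate := by
  apply nondegenerate_of_left
  intro x hx
  refine Prod.ext ?_ ?_
  · apply h₁.1
    intro y
    have := hx (y, 0)
    rw [oplus_polar] at this
    simpa using this
  · apply h₂.1
    intro y
    have := hx (0, y)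
    rw [oplus_polar] at this
    simpa using this

/-- the product of the orthogonal groups -/
def pr (Q₁ : QuadraticForm F V₁) (Q₂ : QuadraticForm F V₂) : O Q₁ × O Q₂ →* O (oplus Q₁ Q₂) where
  toFun p := ⟨p.1.1.prodCongr p.2.1, by
    rw [mem_O]
    intro x
    have h1 := map_coe Q₁ p.1 x.1
    have h2 := map_coe Q₂ p.2 x.2
    rw [oplus_apply, oplus_apply, ← h1, ← h2]
    rfl⟩
  map_one' := by
    apply O_ext
    intro x
    rfl
  map_mul' := by
    intro p q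
    apply O_ext
    intro x
    rfl

theorem pr_apply (Q₁ : QuadraticForm F V₁) (Q₂ : QuadraticForm F V₂) (p : O Q₁ × O Q₂) (x : V₁ × V₂) :
    (pr Q₁ Q₂ p).1 x = (p.1.1 x.1, p.2.1 x.2) := rfl

theorem pr_refl_left {Q₁ : QuadraticForm F V₁} (Q₂ : QuadraticForm F V₂) {w : V₁} (hw : Q₁ w ≠ 0)
    (hw' : oplus Q₁ Q₂ (w, 0) ≠ 0) : pr Q₁ Q₂ (reflO hw, 1) = reflO hw' := by
  apply O_ext
  intro x
  have h1 : oplus Q₁ Q₂ (w, 0) = Q₁ w := by
    rw [oplus_apply]
    simp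
  rw [pr_apply, reflO_apply hw', oplus_polar, h1]
  refine Prod.ext ?_ ?_
  · simp [reflO_apply]
  · simp

theorem pr_refl_right (Q₁ : QuadraticForm F V₁) {Q₂ : QuadraticForm F V₂} {w : V₂} (hw : Q₂ w ≠ 0)
    (hw' : oplus Q₁ Q₂ (0, w) ≠ 0) : pr Q₁ Q₂ (1, reflO hw) = reflO hw' := by
  apply O_ext
  intro x
  have h1 : oplus Q₁ Q₂ (0, w) = Q₂ w := by
    rw [oplus_apply]
    simp
  rw [pr_apply, reflO_apply hw', oplus_polar, h1]
  refine Prod.ext ?_ ?_
  · simp
  · simp [reflO_apply]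

theorem pr_comm {Q₁ : QuadraticForm F V₁} {Q₂ : QuadraticForm F V₂} {g₁ : O Q₁} {g₂ : O Q₂}
    (h₁ : g₁ ∈ commutator (O Q₁)) (h₂ : g₂ ∈ commutator (O Q₂)) :
    pr Q₁ Q₂ (g₁, g₂) ∈ commutator (O (oplus Q₁ Q₂)) := by
  have h3 : pr Q₁ Q₂ (g₁, g₂) = ((pr Q₁ Q₂).comp (MonoidHom.inl _ _)) g₁ *
      ((pr Q₁ Q₂).comp (MonoidHom.inr _ _)) g₂ := by
    rw [MonoidHom.comp_apply, MonoidHom.comp_apply, ← map_mul]
    simp
  rw [h3]
  exact Subgroup.mul_mem _ (map_mem_commutator _ _ h₁) (map_mem_commutator _ _ h₂)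

/-- product of submodules -/
def prodE (p : Submodule F V₁) (q : Submodule F V₂) : ↥(p.prod q) ≃ₗ[F] (p × q) where
  toFun x := (⟨x.1.1, x.2.1⟩, ⟨x.1.2, x.2.2⟩)
  invFun y := ⟨(y.1.1, y.2.1), y.1.2, y.2.2⟩
  left_inv x := rfl
  right_inv y := rfl
  map_add' x y := rfl
  map_smul' c x := rfl

theorem fixS_pr {Q₁ : QuadraticForm F V₁} {Q₂ : QuadraticForm F V₂} (p : O Q₁ × O Q₂) :
    finrank F (fixS (pr Q₁ Q₂ p)) = finrank F (fixS p.1) + finrank F (fixS p.2) := by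
  have h1 : fixS (pr Q₁ Q₂ p) = (fixS p.1).prod (fixS p.2) := by
    ext x
    rw [mem_fixS, Submodule.mem_prod, mem_fixS, mem_fixS, pr_apply, Prod.ext_iff]
  rw [h1, ← finrank_prod, (prodE (fixS p.1) (fixS p.2)).finrank_eq]

theorem dick_pr {Q₁ : QuadraticForm F V₁} {Q₂ : QuadraticForm F V₂}
    (h₁ : (QuadraticMap.polarBilin Q₁).Nondegenerate) (h₂ : (QuadraticMap.polarBilin Q₂).Nondegenerate)
    (p : O Q₁ × O Q₂) : dick (oplus_nondeg h₁ h₂) (pr Q₁ Q₂ p) = dick h₁ p.1 * dick h₂ p.2 := by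
  rw [dick_apply, dick_apply, dick_apply, fixS_pr, finrank_prod, ← pow_add]
  congr 1
  ring

end gen

section fin

variable {F V₁ V₂ : Type*} [Field F] [Finite F] [AddCommGroup V₁] [Module F V₁] [FiniteDimensional F V₁]
  [AddCommGroup V₂] [Module F V₂] [FiniteDimensional F V₂]

theorem sgn_pr (h2 : (2 : F) ≠ 0) {Q₁ : QuadraticForm F V₁} (Q₂ : QuadraticForm F V₂)
    (h₁ : (QuadraticMap.polarBilin Q₁).Nondegenerate) {c : F} (hc : c ≠ 0) (g : O Q₁) :
    sgnO (oplus Q₁ Q₂) c (pr Q₁ Q₂ (g, 1)) = sgnO Q₁ c g := by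
  have hm1 : (-1 : F) ≠ 1 := fun h => h2 (by linear_combination -h)
  have h1 : (((sgnO (oplus Q₁ Q₂) c).comp ((pr Q₁ Q₂).comp (MonoidHom.inl _ _))).eqLocus (sgnO Q₁ c)) = ⊤ := by
    apply eq_top_of_reflO h₁ (Or.inl ⟨-1, neg_ne_zero.mpr one_ne_zero, hm1⟩)
    intro w hw
    change sgnO (oplus Q₁ Q₂) c (pr Q₁ Q₂ (reflO hw, 1)) = sgnO Q₁ c (reflO hw)
    have hq : oplus Q₁ Q₂ (w, 0) = Q₁ w := by
      rw [oplus_apply]
      simp
    have hw' : oplus Q₁ Q₂ (w, 0) ≠ 0 := by rw [hq]; exact hw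
    rw [pr_refl_left Q₂ hw hw', sgnO_reflO h2 hc, sgnO_reflO h2 hc, hq]
  have h3 : g ∈ (((sgnO (oplus Q₁ Q₂) c).comp ((pr Q₁ Q₂).comp (MonoidHom.inl _ _))).eqLocus (sgnO Q₁ c)) := by
    rw [h1]; trivial
  exact h3

theorem comm_pr_iff {Q₁ : QuadraticForm F V₁} {Q₂ : QuadraticForm F V₂}
    (h₁ : (QuadraticMap.polarBilin Q₁).Nondegenerate) (h₂ : (QuadraticMap.polarBilin Q₂).Nondegenerate)
    (h4 : (∃ c : F, c ≠ 0 ∧ c ≠ 1) ∨ (finrank F V₁ ≠ 4 ∧ finrank F V₁ + finrank F V₂ ≠ 4)) (g : O Q₁) :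
    pr Q₁ Q₂ (g, 1) ∈ commutator (O (oplus Q₁ Q₂)) ↔ g ∈ commutator (O Q₁) := by
  constructor
  · intro h
    have hd : dick h₁ g = 1 := by
      have h5 : dick (oplus_nondeg h₁ h₂) (pr Q₁ Q₂ (g, 1)) = 1 :=
        Abelianization.commutator_subset_ker _ h
      rw [dick_pr h₁ h₂, map_one, mul_one] at h5
      exact h5
    by_cases h2 : (2 : F) = 0
    · rw [commutator_eq_ker_dick h2 h₁ (h4.imp id And.left)]
      exact hd
    · by_cases hk : 2 ≤ finrank F V₁
      · rw [commutator_eq_ker_chiO h2 h₁ hk 1 one_ne_zero, MonoidHom.mem_ker]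
        refine Prod.ext hd ?_
        change sgnO Q₁ 1 g = 1
        rw [← sgn_pr h2 Q₂ h₁ one_ne_zero g]
        exact Abelianization.commutator_subset_ker (sgnO (oplus Q₁ Q₂) 1) h
      · have hfix : finrank F (fixS g) = finrank F V₁ := by
          rw [dick_apply] at hd
          have h6 := Submodule.finrank_le (fixS g)
          by_contra hne
          have h7 : finrank F V₁ + finrank F (fixS g) = 1 := by omega
          rw [h7] at hd
          exact absurd hd (by decide)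
        have h8 : fixS g = ⊤ := Submodule.eq_top_of_finrank_eq hfix
        have h9 : g = 1 := by
          apply O_ext
          intro x
          have : x ∈ fixS g := by rw [h8]; trivial
          exact (mem_fixS g x).1 this
        rw [h9]
        exact one_mem _
  · intro h
    exact pr_comm h (one_mem _)

theorem comm_pr_diag {Q : QuadraticForm F V₁} (hQ : (QuadraticMap.polarBilin Q).Nondegenerate)
    (h4 : (∃ c : F, c ≠ 0 ∧ c ≠ 1) ∨ finrank F V₁ ≠ 2) (g : O Q) :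
    pr Q Q (g, g) ∈ commutator (O (oplus Q Q)) := by
  by_cases h2 : (2 : F) = 0
  · rw [commutator_eq_ker_dick h2 (oplus_nondeg hQ hQ) (by
      rcases h4 with h | h
      · exact Or.inl h
      · right; rw [finrank_prod]; omega), MonoidHom.mem_ker, dick_pr hQ hQ]
    rcases Int.units_eq_one_or (dick hQ g) with h | h
    · rw [h]; simp
    · rw [h]; simp
  · have hm1 : (-1 : F) ≠ 1 := fun h => h2 (by linear_combination -h)
    have h1 : (commutator (O (oplus Q Q))).comap ((pr Q Q).comp (MonoidHom.prod (MonoidHom.id _) (MonoidHom.id _))) = ⊤ := by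
      apply eq_top_of_reflO hQ (Or.inl ⟨-1, neg_ne_zero.mpr one_ne_zero, hm1⟩)
      intro w hw
      rw [Subgroup.mem_comap]
      change pr Q Q (reflO hw, reflO hw) ∈ _
      have hq1 : oplus Q Q (w, 0) = Q w := by
        rw [oplus_apply]
        simp
      have hq2 : oplus Q Q (0, w) = Q w := by
        rw [oplus_apply]
        simp
      have hw1 : oplus Q Q (w, 0) ≠ 0 := by rw [hq1]; exact hw
      have hw2 : oplus Q Q (0, w) ≠ 0 := by rw [hq2]; exact hw
      have h3 : pr Q Q (reflO hw, reflO hw) = reflO hw1 * reflO hw2 := by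
        rw [← pr_refl_left Q hw hw1, ← pr_refl_right Q hw hw2, ← map_mul]
        simp
      obtain ⟨t, ht⟩ := exists_conj_reflO (oplus_nondeg hQ hQ) hw1 hw2 (by rw [hq1, hq2])
      rw [h3, mem_commutator_iff, map_mul, ← ht, of_conj, ← map_mul, reflO_mul_self, map_one]
    have h3 : g ∈ (commutator (O (oplus Q Q))).comap ((pr Q Q).comp (MonoidHom.prod (MonoidHom.id _) (MonoidHom.id _))) := by
      rw [h1]; trivial
    exact h3

end fin

end CfsgLib.Omg
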