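import Mathlib
import Cfsg.Agent.Lib.OMG6

/-! Omega of orthogonal sums, matrix form. -/

namespace CfsgLib.Omg

open Module CfsgLib.Quad Cfsg

variable {F : Type*} [Field F] {k l : ℕ}

/-- the splitting of the coordinates -/
def sE (F : Type*) [Field F] (k l : ℕ) : (Fin k ⊕ Fin l → F) ≃ₗ[F] (Fin k → F) × (Fin l → F) :=
  LinearEquiv.sumArrowLequivProdArrow _ _ F F

theorem sE_apply (v : Fin k ⊕ Fin l → F) : sE F k l v = (v ∘ Sum.inl, v ∘ Sum.inr) := rfl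

/-- orthogonal sum on coordinate space -/
noncomputable def sQ (Q₁ : QuadraticForm F (Fin k → F)) (Q₂ : QuadraticForm F (Fin l → F)) :
    QuadraticForm F (Fin k ⊕ Fin l → F) := (oplus Q₁ Q₂).comp (sE F k l).toLinearMap

theorem sQ_coe (Q₁ : QuadraticForm F (Fin k → F)) (Q₂ : QuadraticForm F (Fin l → F)) :
    (fun v : Fin k ⊕ Fin l → F => Q₁ (v ∘ Sum.inl) + Q₂ (v ∘ Sum.inr)) = ⇑(sQ Q₁ Q₂) := rfl

/-- the matrix of a product isometry -/
theorem exists_mat (Q₁ : QuadraticForm F (Fin k → F)) (Q₂ : QuadraticForm F (Fin l → F))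
    (p : O Q₁ × O Q₂) : ∃ x : isometryGroup F ⇑(sQ Q₁ Q₂),
      (x ∈ Omega F ⇑(sQ Q₁ Q₂) ↔ pr Q₁ Q₂ p ∈ commutator (O (oplus Q₁ Q₂))) ∧
      ((x : GL (Fin k ⊕ Fin l) F) : Matrix (Fin k ⊕ Fin l) (Fin k ⊕ Fin l) F) =
        Matrix.fromBlocks ((((isometryGroupEquiv Q₁).symm p.1 : GL (Fin k) F)) : Matrix (Fin k) (Fin k) F) 0 0
          ((((isometryGroupEquiv Q₂).symm p.2 : GL (Fin l) F)) : Matrix (Fin l) (Fin l) F) := by
  have hc : ∀ u, (oplus Q₁ Q₂) (sE F k l u) = sQ Q₁ Q₂ u := fun u => rfl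
  refine ⟨(isometryGroupEquiv (sQ Q₁ Q₂)).symm ((OCongr (sE F k l) hc).symm (pr Q₁ Q₂ p)), ?_, ?_⟩
  · rw [Omega, ← mem_commutator_congr (isometryGroupEquiv (sQ Q₁ Q₂)), MulEquiv.apply_symm_apply,
      ← mem_commutator_congr (OCongr (sE F k l) hc), MulEquiv.apply_symm_apply]
  · apply coe_isometryGroupEquiv_symm
    intro v
    have h1 := isometryGroupEquiv_apply Q₁ ((isometryGroupEquiv Q₁).symm p.1) (v ∘ Sum.inl)
    have h2 := isometryGroupEquiv_apply Q₂ ((isometryGroupEquiv Q₂).symm p.2) (v ∘ Sum.inr)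
    rw [MulEquiv.apply_symm_apply] at h1 h2
    rw [Matrix.fromBlocks_mulVec, Matrix.zero_mulVec, Matrix.zero_mulVec, add_zero, zero_add, ← h1, ← h2]
    have h3 : ((OCongr (sE F k l) hc).symm (pr Q₁ Q₂ p)).1 v = (sE F k l).symm ((pr Q₁ Q₂ p).1 (sE F k l v)) := rfl
    rw [h3, pr_apply]
    rfl

theorem uniq_mat {Q : QuadraticForm F (Fin k ⊕ Fin l → F)} {x y : isometryGroup F ⇑Q}
    (h : ((x : GL (Fin k ⊕ Fin l) F) : Matrix (Fin k ⊕ Fin l) (Fin k ⊕ Fin l) F) =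
      ((y : GL (Fin k ⊕ Fin l) F) : Matrix (Fin k ⊕ Fin l) (Fin k ⊕ Fin l) F)) : x = y :=
  Subtype.ext (Units.ext h)

theorem coe_symm_one (Q : QuadraticForm F (Fin l → F)) :
    ((((isometryGroupEquiv Q).symm 1 : GL (Fin l) F)) : Matrix (Fin l) (Fin l) F) = 1 := by
  rw [map_one]; rfl

end CfsgLib.Omg
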