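import Cfsg.Agent.Lib.Exc
import Cfsg.Agent.Lib.Quad14
import Cfsg.Agent.Lib.Symp2

/-!
# `O_{2m+1}(q) ≅ Sp_{2m}(q)` in characteristic two
-/

namespace CfsgLib.OSp2

open Module CfsgLib.Quad CfsgLib.IsomDecomp Cfsg CfsgLib.Symp CfsgLib.Exc CfsgLib.AltForm

set_option linter.unusedSimpArgs false
set_option linter.unusedSectionVars false

variable {F : Type*} [Field F]

/-- The underlying space. -/
abbrev W (m : ℕ) (F : Type*) := Fin m ⊕ Fin m → F

/-- The form `t² + P(x)`. -/
noncomputable def QO (m : ℕ) (F : Type*) [Field F] : QuadraticForm F (F × W m F) :=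
  (QuadraticMap.sq (R := F)).comp (LinearMap.fst F F (W m F)) +
    (QP m F).comp (LinearMap.snd F F (W m F))

lemma QO_apply (m : ℕ) (v : F × W m F) : QO m F v = v.1 ^ 2 + QP m F v.2 := by
  rw [QO, QuadraticMap.add_apply, QuadraticMap.comp_apply, QuadraticMap.comp_apply,
    QuadraticMap.sq_apply, ← pow_two]
  rfl

/-- Coordinates. -/
def eO (m : ℕ) (F : Type*) [Field F] : (Unit ⊕ (Fin m ⊕ Fin m) → F) ≃ₗ[F] F × W m F where
  toFun v := (v (.inl ()), fun i => v (.inr i))
  invFun x := Sum.elim (fun _ => x.1) x.2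
  map_add' x y := rfl
  map_smul' c x := rfl
  left_inv v := by
    funext i
    rcases i with i | i <;> rfl
  right_inv x := rfl

lemma QO_eO (m : ℕ) (v : Unit ⊕ (Fin m ⊕ Fin m) → F) : QO m F (eO m F v) = quadFormOdd m F v := by
  rw [QO_apply, QP_apply]
  rfl

section chartwo

variable (h2 : (2 : F) = 0) (m : ℕ)

include h2

lemma polar_QO (v w : F × W m F) : QuadraticMap.polarBilin (QO m F) v w =
    QuadraticMap.polarBilin (QP m F) v.2 w.2 := by
  rw [QuadraticMap.polarBilin_apply_apply, QuadraticMap.polarBilin_apply_apply, QuadraticMap.polar,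
    QuadraticMap.polar, QO_apply, QO_apply, QO_apply, Prod.fst_add, Prod.snd_add]
  linear_combination (v.1 * w.1) * h2

lemma polar_QP (x y : W m F) : QuadraticMap.polarBilin (QP m F) x y = sympB m F x y := by
  rw [QuadraticMap.polarBilin_apply_apply, QuadraticMap.polar, QP_apply, QP_apply, QP_apply,
    sympB_apply, sympForm_eq, quadFormPlus, quadFormPlus, quadFormPlus, ← Finset.sum_sub_distrib,
    ← Finset.sum_sub_distrib]
  apply Finset.sum_congr rfl
  intro i _
  rw [Pi.add_apply, Pi.add_apply]
  linear_combination (x (Sum.inl i) * y (Sum.inr i)) * h2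

lemma snd_map_fst (g : O (QO m F)) (t : F) : (g.1 (t, 0)).2 = 0 := by
  apply (QP_nondegenerate (F := F) m).2
  intro y
  have h1 := polar_coe (QO m F) g (g⁻¹.1 (0, y)) (t, 0)
  have h3 : g.1 (g⁻¹.1 (0, y)) = (0, y) := LinearEquiv.apply_symm_apply g.1 _
  rw [h3, polar_QO h2, polar_QO h2] at h1
  change QuadraticMap.polarBilin (QP m F) y (g.1 (t, 0)).2 = _ at h1
  rw [h1]
  exact LinearMap.map_zero _

/-- The induced action. -/
noncomputable def indRep : O (QO m F) →* Module.End F (W m F) where
  toFun g := (LinearMap.snd F F (W m F)).comp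
    ((g.1 : (F × W m F) →ₗ[F] (F × W m F)).comp (LinearMap.inr F F (W m F)))
  map_one' := rfl
  map_mul' g h := by
    apply LinearMap.ext
    intro x
    change (g.1 (h.1 (0, x))).2 = (g.1 (0, (h.1 (0, x)).2)).2
    have h1 : h.1 (0, x) = ((h.1 (0, x)).1, 0) + (0, (h.1 (0, x)).2) := by simp
    rw [h1, _root_.map_add, Prod.snd_add, snd_map_fst h2, zero_add]
    simp

lemma indRep_apply (g : O (QO m F)) (x : W m F) : indRep h2 m g x = (g.1 (0, x)).2 := rfl

/-- The homomorphism to the symplectic group. -/
noncomputable def toSp : O (QO m F) →* isom (sympB m F) :=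
  (repHom (indRep h2 m)).codRestrict (isom (sympB m F)) fun g => by
    intro x y
    rw [repHom_apply, repHom_apply, ← polar_QP h2, ← polar_QP h2, indRep_apply, indRep_apply]
    have h1 := polar_coe (QO m F) g (0, x) (0, y)
    rw [polar_QO h2, polar_QO h2] at h1
    exact h1

lemma toSp_apply (g : O (QO m F)) (x : W m F) : (toSp h2 m g).1 x = (g.1 (0, x)).2 := rfl

lemma toSp_injective : Function.Injective (toSp h2 m) := by
  rw [injective_iff_map_eq_one]
  intro g hg
  have h1 : ∀ x, (g.1 (0, x)).2 = x := by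
    intro x
    rw [← toSp_apply h2, hg]
    rfl
  have h3 : ∀ x, (g.1 (0, x)).1 = 0 := by
    intro x
    have h4 := map_coe (QO m F) g (0, x)
    rw [QO_apply, QO_apply, h1] at h4
    have h5 : (g.1 (0, x)).1 ^ 2 = 0 := by
      change _ = (0 : F) ^ 2 + QP m F x at h4
      linear_combination h4
    exact pow_eq_zero_iff (two_ne_zero) |>.mp h5
  have h4 : ∀ t, g.1 (t, 0) = (t, 0) := by
    intro t
    apply Prod.ext
    · have h4 := map_coe (QO m F) g (t, 0)
      rw [QO_apply, QO_apply, snd_map_fst h2] at h4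
      change _ = t ^ 2 + QP m F 0 at h4
      have h5 : ((g.1 (t, 0)).1 - t) ^ 2 = 0 := by
        linear_combination h4 - ((g.1 (t, 0)).1 * t - t ^ 2) * h2
      exact sub_eq_zero.mp (pow_eq_zero_iff (two_ne_zero) |>.mp h5)
    · exact snd_map_fst h2 m g t
  apply O_ext
  rintro ⟨t, x⟩
  have h5 : ((t, x) : F × W m F) = (t, 0) + (0, x) := by simp
  have h6 : g.1 (0, x) = (0, x) := Prod.ext (h3 x) (h1 x)
  rw [h5, _root_.map_add, h4, h6]
  rfl

lemma toSp_surjective [Finite F] : Function.Surjective (toSp h2 m) := by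
  rintro ⟨h, hh⟩
  have : CharP F 2 := CharTwo.of_one_ne_zero_of_two_eq_zero one_ne_zero h2
  have : Fact (Nat.Prime 2) := ⟨Nat.prime_two⟩
  let r : F →+* F := (frobeniusEquiv F 2).symm.toRingHom
  have hr : ∀ z : F, r z ^ 2 = z := by
    intro z
    have := (frobeniusEquiv F 2).apply_symm_apply z
    rw [frobeniusEquiv_apply, frobenius_def] at this
    exact this
  have hr2 : ∀ z : F, r (z ^ 2) = z := by
    intro z
    have := (frobeniusEquiv F 2).symm_apply_apply z
    rw [frobeniusEquiv_apply, frobenius_def] at this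
    exact this
  have hP : ∀ x y : W m F, QP m F (x + y) = QP m F x + QP m F y + sympB m F x y := by
    intro x y
    rw [← polar_QP h2, QuadraticMap.polarBilin_apply_apply, QuadraticMap.polar]
    ring
  let s : W m F →ₗ[F] F :=
    { toFun := fun x => r (QP m F x + QP m F (h x))
      map_add' := fun x y => by
        rw [← _root_.map_add r]
        congr 1
        rw [_root_.map_add h, hP, hP]
        have h3 : sympB m F (h x) (h y) = sympB m F x y := hh x y
        rw [h3]
        linear_combination (sympB m F x y) * h2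
      map_smul' := fun c x => by
        rw [_root_.map_smul h, QuadraticMap.map_smul, QuadraticMap.map_smul, smul_eq_mul,
          smul_eq_mul, ← mul_add, _root_.map_mul, ← pow_two, hr2]
        rfl }
  have hs : ∀ x, s x ^ 2 = QP m F x + QP m F (h x) := fun x => hr _
  let G : (F × W m F) ≃ₗ[F] (F × W m F) :=
    { toFun := fun v => (v.1 + s v.2, h v.2)
      map_add' := fun v w => by
        apply Prod.ext
        · simp only [Prod.fst_add, Prod.snd_add, _root_.map_add]; ring
        · simp only [Prod.fst_add, Prod.snd_add, _root_.map_add]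
      map_smul' := fun c v => by
        apply Prod.ext
        · simp only [Prod.smul_fst, Prod.smul_snd, _root_.map_smul, smul_eq_mul, RingHom.id_apply]; ring
        · simp only [Prod.smul_snd, _root_.map_smul, RingHom.id_apply]
      invFun := fun v => (v.1 - s (h.symm v.2), h.symm v.2)
      left_inv := fun v => by
        apply Prod.ext
        · simp
        · simp
      right_inv := fun v => by
        apply Prod.ext
        · simp
        · simp }
  have hG : G ∈ O (QO m F) := by
    rw [mem_O]
    intro v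
    rw [QO_apply, QO_apply]
    change (v.1 + s v.2) ^ 2 + QP m F (h v.2) = _
    linear_combination hs v.2 + (v.1 * s v.2 + QP m F (h v.2)) * h2
  refine ⟨⟨G, hG⟩, ?_⟩
  apply Subtype.ext
  apply LinearEquiv.ext
  intro x
  rfl

end chartwo

/-- `O_{2m+1}(q) ≅ Sp_{2m}(q)`, `q` even. -/
theorem isometryGroup_equiv_symplecticGroup [Finite F] (h2 : (2 : F) = 0) (m : ℕ) :
    Nonempty (isometryGroup F (quadFormOdd m F) ≃* Matrix.symplecticGroup (Fin m) F) :=
  ⟨((isoMat (quadFormOdd m F) (QO m F) (eO m F) (QO_eO m)).trans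
    (MulEquiv.ofBijective (toSp h2 m) ⟨toSp_injective h2 m, toSp_surjective h2 m⟩)).trans
    (toIsom m F).symm⟩

end CfsgLib.OSp2
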