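import Mathlib
import Cfsg.Prelude.Def_RootSubgroups
import Cfsg.Agent.Lib.Core

/-!
# Odd transpositions acting on O_2
-/

set_option autoImplicit false
set_option linter.all false
open scoped commutatorElement

namespace CfsgLib.OddTr

variable {G : Type*} [Group G]

theorem two_pow {D : Set G} (hD : Cfsg.IsOddTranspositionSet D) {x y : G} (hx : x ∈ D) (hy : y ∈ D) {n : ℕ} (h : (x * y) ^ (2 ^ n) = 1) :
    x * y = y * x := by
  have hx2 : x * x = 1 := by have := pow_orderOf_eq_one x; rwa [hD.1.orderOf_eq x hx, pow_two] at this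
  have hy2 : y * y = 1 := by have := pow_orderOf_eq_one y; rwa [hD.1.orderOf_eq y hy, pow_two] at this
  rcases hD.1.pair x hx y hy with h1 | h1 | h1
  · exact h1
  · have h2 : orderOf (x * y) = 1 := Nat.eq_one_of_dvd_coprimes (Nat.Coprime.pow_right n (Nat.coprime_two_right.2 h1))
      dvd_rfl (orderOf_dvd_of_pow_eq_one h)
    rw [orderOf_eq_one_iff] at h2
    have : y = x⁻¹ := (inv_eq_of_mul_eq_one_right h2).symm
    rw [this, mul_inv_cancel, inv_mul_cancel]
  · exact absurd h1.1 (hD.2 x hx y hy)

theorem s5049 [Finite G] {D : Set G} (hD : Cfsg.IsOddTranspositionSet D) {a : G} (ha : a ∈ D) :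
    (∀ e ∈ Cfsg.commutingMembers D a, ∀ q ∈ ⁅Cfsg.pCore 2 G, Subgroup.zpowers a⁆, e * q = q * e) ∧
    (∀ b ∈ Cfsg.oddPartners D a,
      Cfsg.pCore 2 G ⊓ Subgroup.centralizer {a * b} = Cfsg.pCore 2 G ⊓ Subgroup.centralizer {a} ⊓ Subgroup.centralizer {b}) := by
  haveI : Fact (Nat.Prime 2) := ⟨Nat.prime_two⟩
  have hn := CfsgLib.Core.pCore_normal 2 G
  have hp := CfsgLib.Core.pCore_isPGroup 2 G
  have ha2 : a * a = 1 := by have := pow_orderOf_eq_one a; rwa [hD.1.orderOf_eq a ha, pow_two] at this
  have hai : a⁻¹ = a := inv_eq_of_mul_eq_one_left ha2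
  have hpow : ∀ x ∈ Cfsg.pCore 2 G, ∃ n : ℕ, x ^ (2 ^ n) = 1 := by
    intro x hx
    obtain ⟨n, hn'⟩ := hp ⟨x, hx⟩
    exact ⟨n, congrArg Subtype.val hn'⟩
  constructor
  · rintro e ⟨heD, hea⟩ q hq
    have he2 : e * e = 1 := by have := pow_orderOf_eq_one e; rwa [hD.1.orderOf_eq e heD, pow_two] at this
    suffices h : ⁅Cfsg.pCore 2 G, Subgroup.zpowers a⁆ ≤ Subgroup.centralizer {e} by
      exact (Subgroup.mem_centralizer_singleton_iff.1 (h hq)).symm
    rw [Subgroup.commutator_le]
    intro x hx y hy
    obtain ⟨n, rfl⟩ := Subgroup.mem_zpowers_iff.1 hy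
    rw [Subgroup.mem_centralizer_singleton_iff, commutatorElement_def]
    -- e commutes with x a x⁻¹
    have hxD : x * a * x⁻¹ ∈ D := hD.1.conj_mem a ha x
    have hu : a * (x * a * x⁻¹) ∈ Cfsg.pCore 2 G := by
      have h1 : a * (x * a * x⁻¹) = (a * x * a⁻¹) * x⁻¹ := by rw [hai]; group
      rw [h1]
      exact mul_mem (hn.conj_mem _ hx a) (inv_mem hx)
    have hcomm : e * (x * a * x⁻¹) = (x * a * x⁻¹) * e := by
      have h1 : e * (x * a * x⁻¹) = (e * a) * (a * (x * a * x⁻¹)) := by
        have h0 : (e * a) * (a * (x * a * x⁻¹)) = e * (a * a) * (x * a * x⁻¹) := by group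
        rw [h0, ha2, mul_one]
      have h2 : (e * (x * a * x⁻¹)) ^ 2 ∈ Cfsg.pCore 2 G := by
        rw [h1]
        generalize a * (x * a * x⁻¹) = u at hu
        have hea2 : (e * a) * (e * a) = 1 := by
          calc e * a * (e * a) = e * (a * e) * a := by group
            _ = e * (e * a) * a := by rw [hea]
            _ = (e * e) * (a * a) := by group
            _ = 1 := by rw [he2, ha2, one_mul]
        have h3 : (e * a * u) ^ 2 = ((e * a) * u * (e * a)⁻¹) * u := by
          have h4 : (e * a)⁻¹ = e * a := inv_eq_of_mul_eq_one_left hea2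
          rw [h4, pow_two]; group
        rw [h3]
        exact mul_mem (hn.conj_mem _ hu _) hu
      obtain ⟨n, hn'⟩ := hpow _ h2
      apply two_pow hD heD hxD (n := n + 1)
      rw [pow_succ', pow_mul]
      exact hn'
    have c1 : Commute e (x * a * x⁻¹) := hcomm
    have c2 : Commute e a := hea
    have h5 : x * a ^ n * x⁻¹ * (a ^ n)⁻¹ = (x * a * x⁻¹) ^ n * (a ^ n)⁻¹ := by rw [conj_zpow]
    rw [h5]
    exact (((c1.zpow_right n).mul_right (c2.zpow_right n).inv_right).eq).symm
  · intro b hb
    have hbD : b ∈ D := hb.1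
    have hb2 : b * b = 1 := by have := pow_orderOf_eq_one b; rwa [hD.1.orderOf_eq b hbD, pow_two] at this
    apply le_antisymm
    · rintro q ⟨hq, hqc⟩
      have hqc' : q * (a * b) = (a * b) * q := Subgroup.mem_centralizer_singleton_iff.1 hqc
      set e := q * a * q⁻¹ with he
      set f := q * b * q⁻¹ with hf
      have heD : e ∈ D := hD.1.conj_mem a ha q
      have hfD : f ∈ D := hD.1.conj_mem b hbD q
      have hef : e * f = a * b := by
        calc e * f = q * (a * b) * q⁻¹ := by rw [he, hf]; group
          _ = a * b := by rw [hqc']; group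
      have hf2 : f * f = 1 := by have := pow_orderOf_eq_one f; rwa [hD.1.orderOf_eq f hfD, pow_two] at this
      have hae : a * e = b * f := by
        have h1 : e = a * b * f := by rw [← hef, mul_assoc, hf2, mul_one]
        calc a * e = a * (a * b * f) := by rw [← h1]
          _ = (a * a) * (b * f) := by group
          _ = b * f := by rw [ha2, one_mul]
      have huQ : a * e ∈ Cfsg.pCore 2 G := by
        have h1 : a * e = (a * q * a⁻¹) * q⁻¹ := by rw [he, hai]; group
        rw [h1]
        exact mul_mem (hn.conj_mem _ hq a) (inv_mem hq)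
      obtain ⟨n, hn'⟩ := hpow _ huQ
      have cae : a * e = e * a := two_pow hD ha heD hn'
      have cbf : b * f = f * b := two_pow hD hbD hfD (by rw [← hae]; exact hn')
      have cua : Commute (a * e) a := by
        show a * e * a = a * (a * e)
        rw [mul_assoc, cae]
      have cub : Commute (a * e) b := by
        show a * e * b = b * (a * e)
        rw [hae, mul_assoc, cbf]
      have hu2 : (a * e) * (a * e) = 1 := by
        have he2 : e * e = 1 := by have := pow_orderOf_eq_one e; rwa [hD.1.orderOf_eq e heD, pow_two] at this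
        calc a * e * (a * e) = a * (e * a) * e := by group
          _ = a * (a * e) * e := by rw [cae]
          _ = (a * a) * (e * e) := by group
          _ = 1 := by rw [ha2, he2, one_mul]
      -- a * f = (a b) (b f)
      have haf : a * f = (a * b) * (a * e) := by
        rw [hae]
        calc a * f = a * (b * b) * f := by rw [hb2, mul_one]
          _ = a * b * (b * f) := by group
      have hodd : Odd (orderOf (a * b)) := hb.2.2
      have hne : a * b ≠ 1 := by
        intro h
        apply hb.2.1
        have : b = a⁻¹ := (inv_eq_of_mul_eq_one_right h).symm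
        rw [this, hai]
      have hu1 : a * e = 1 := by
        have cc : Commute (a * b) (a * e) := (cua.mul_right cub).symm
        by_contra hu
        have ho : orderOf (a * e) = 2 := orderOf_eq_prime (by rw [pow_two]; exact hu2) hu
        have ho2 : orderOf (a * f) = orderOf (a * b) * 2 := by
          rw [haf, cc.orderOf_mul_eq_mul_orderOf_of_coprime (by rw [ho]; exact Nat.coprime_two_right.2 hodd), ho]
        rcases hD.1.pair a ha f hfD with h | h | h
        · have h3 : (a * f) ^ 2 = 1 := by
            rw [pow_two]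
            calc a * f * (a * f) = a * (f * a) * f := by group
              _ = a * (a * f) * f := by rw [h]
              _ = (a * a) * (f * f) := by group
              _ = 1 := by rw [ha2, hf2, one_mul]
          have h4 := orderOf_dvd_of_pow_eq_one h3
          rw [ho2] at h4
          have h5 : orderOf (a * b) ∣ 1 := Nat.dvd_of_mul_dvd_mul_right (by norm_num : 0 < 2) (by rwa [one_mul])
          exact hne (orderOf_eq_one_iff.1 (Nat.dvd_one.1 h5))
        · rw [ho2] at h
          exact (Nat.not_odd_iff_even.2 (even_two.mul_left _)) h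
        · exact hD.2 a ha f hfD h.1
      have hea' : e = a := by
        have : e = a⁻¹ := (inv_eq_of_mul_eq_one_right hu1).symm
        rw [this, hai]
      have hfb : f = b := by
        have h1 : b * f = 1 := by rw [← hae]; exact hu1
        have h2 : f = b⁻¹ := (inv_eq_of_mul_eq_one_right h1).symm
        rw [h2]; exact inv_eq_of_mul_eq_one_left hb2
      refine ⟨⟨hq, ?_⟩, ?_⟩
      · show q ∈ Subgroup.centralizer {a}
        rw [Subgroup.mem_centralizer_singleton_iff, ← mul_inv_eq_iff_eq_mul]
        exact hea'
      · show q ∈ Subgroup.centralizer {b}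
        rw [Subgroup.mem_centralizer_singleton_iff, ← mul_inv_eq_iff_eq_mul]
        exact hfb
    · rintro q ⟨⟨hq, hqa⟩, hqb⟩
      refine ⟨hq, ?_⟩
      show q ∈ Subgroup.centralizer {a * b}
      have c1 : Commute q a := Subgroup.mem_centralizer_singleton_iff.1 hqa
      have c2 : Commute q b := Subgroup.mem_centralizer_singleton_iff.1 hqb
      rw [Subgroup.mem_centralizer_singleton_iff]
      exact (c1.mul_right c2).eq

end CfsgLib.OddTr
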