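import Cfsg.Agent.Lib.Quad8
import Cfsg.Agent.Lib.Quad14
import Cfsg.Agent.Lib.AutPO8
import Cfsg.Prelude.Def_SporadicB

/-!
# Orthogonal transvections over the field with two elements
-/

set_option autoImplicit false

open CfsgLib.Quad Cfsg Module

namespace CfsgLib.Orth2

variable {ι : Type} [Fintype ι] [DecidableEq ι] {Q : QuadraticForm (ZMod 2) (ι → ZMod 2)}

local notation "β[" Q "]" => QuadraticMap.polarBilin Q

theorem z2 (a : ZMod 2) : a = 0 ∨ a = 1 := by revert a; decide

theorem Q_add (x y : ι → ZMod 2) : Q (x + y) = Q x + Q y + β[Q] x y := QuadraticMap.map_add Q x y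

theorem neg_eq (u : ι → ZMod 2) : -u = u := by
  ext i
  exact (show ∀ a : ZMod 2, -a = a by decide) _

theorem act_eq (g : isometryGroup (ZMod 2) ⇑Q) (x : ι → ZMod 2) :
    (((g : GL ι (ZMod 2)) : Matrix ι ι (ZMod 2)) - 1).mulVec x = (isometryGroupEquiv Q g).1 x - x := by
  rw [Matrix.sub_mulVec, Matrix.one_mulVec, ← isometryGroupEquiv_apply]

theorem rank_iff (hQ : (β[Q]).Nondegenerate) (g : isometryGroup (ZMod 2) ⇑Q) :
    (((g : GL ι (ZMod 2)) : Matrix ι ι (ZMod 2)) - 1).rank = 1 ↔ ∃ (v : ι → ZMod 2) (hv : Q v ≠ 0), isometryGroupEquiv Q g = reflO hv := by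
  rw [Matrix.rank, finrank_eq_one_iff']
  constructor
  · rintro ⟨⟨u, x0, hx0⟩, hu0, hall⟩
    have hu0' : u ≠ 0 := fun h => hu0 (Subtype.ext h)
    have hx0' : (isometryGroupEquiv Q g).1 x0 = x0 + u := by
      have h1 : (((g : GL ι (ZMod 2)) : Matrix ι ι (ZMod 2)) - 1).mulVec x0 = u := hx0
      rw [act_eq] at h1
      rw [← h1]; abel
    have hcase : ∀ x, (isometryGroupEquiv Q g).1 x = x ∨ (isometryGroupEquiv Q g).1 x = x + u := by
      intro x
      obtain ⟨c, hc⟩ := hall ⟨_, x, rfl⟩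
      have h1 : c • u = (((g : GL ι (ZMod 2)) : Matrix ι ι (ZMod 2)) - 1).mulVec x := congrArg Subtype.val hc
      rw [act_eq] at h1
      rcases z2 c with rfl | rfl
      · left; rw [zero_smul] at h1; exact (sub_eq_zero.1 h1.symm)
      · right; rw [one_smul] at h1; rw [h1]; abel
    have h1 : ∀ x, (isometryGroupEquiv Q g).1 x = x + u → β[Q] x u = Q u := by
      intro x hx
      have h2 := map_coe Q (isometryGroupEquiv Q g) x
      rw [hx, Q_add] at h2
      have e : ∀ a b c : ZMod 2, a + b + c = a → c = b := by decide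
      exact e _ _ _ h2
    have h2 : ∀ x, (isometryGroupEquiv Q g).1 x = x → β[Q] x u = 0 := by
      intro x hx
      have h3 := polar_coe Q (isometryGroupEquiv Q g) x x0
      rw [hx, hx0', LinearMap.map_add] at h3
      have e : ∀ a b : ZMod 2, a + b = a → b = 0 := by decide
      exact e _ _ h3
    have hQu : Q u ≠ 0 := by
      intro h0
      apply hu0'
      apply hQ.2 u
      intro x
      rcases hcase x with h | h
      · exact h2 x h
      · rw [h1 x h, h0]
    refine ⟨u, hQu, O_ext fun x => ?_⟩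
    rw [reflO_apply]
    have hQ1 : Q u = 1 := (z2 _).resolve_left hQu
    have hcomm : β[Q] u x = β[Q] x u := QuadraticMap.polar_comm _ _ _
    rw [hcomm, hQ1]
    rcases hcase x with h | h
    · rw [h, h2 x h, mul_zero, zero_smul, sub_zero]
    · rw [h, h1 x h, hQ1, inv_one, one_mul, one_smul, sub_eq_add_neg, neg_eq]
  · rintro ⟨v, hv, hg⟩
    have hv1 : Q v = 1 := (z2 _).resolve_left hv
    have hv0 : v ≠ 0 := by rintro rfl; exact hv (QuadraticMap.map_zero Q)
    have hval : ∀ x, (((g : GL ι (ZMod 2)) : Matrix ι ι (ZMod 2)) - 1).mulVec x = (β[Q] v x) • v := by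
      intro x
      rw [act_eq, hg, reflO_apply, hv1, inv_one, one_mul, sub_sub_cancel_left, neg_eq]
    obtain ⟨x0, hx0⟩ : ∃ x0, β[Q] v x0 = 1 := by
      by_contra hcon
      push Not at hcon
      apply hv0
      apply hQ.1 v
      intro x
      exact (z2 _).resolve_right (hcon x)
    refine ⟨⟨v, x0, ?_⟩, fun h => hv0 (congrArg Subtype.val h), ?_⟩
    · rw [Matrix.mulVecLin_apply, hval, hx0, one_smul]
    · rintro ⟨_, x, rfl⟩
      refine ⟨β[Q] v x, Subtype.ext ?_⟩
      show β[Q] v x • v = (((g : GL ι (ZMod 2)) : Matrix ι ι (ZMod 2)) - 1).mulVecLin x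
      rw [Matrix.mulVecLin_apply, hval]

theorem reflO_congr {V : Type*} [AddCommGroup V] [Module (ZMod 2) V] [FiniteDimensional (ZMod 2) V] {Q : QuadraticForm (ZMod 2) V} {v w : V} (h : v = w) (hv : Q v ≠ 0) (hw : Q w ≠ 0) :
    reflO hv = reflO hw := by subst h; rfl

theorem refl_act {u v : ι → ZMod 2} (hu : Q u ≠ 0) : (reflO hu).1 v = v + (β[Q] u v) • u := by
  have hu1 : Q u = 1 := (z2 _).resolve_left hu
  rw [reflO_apply, hu1, inv_one, one_mul, sub_eq_add_neg, ← smul_neg, neg_eq]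

theorem is_class (hQ : (β[Q]).Nondegenerate) (hn : 5 ≤ Fintype.card ι) :
    Cfsg.IsThreeTranspositionClass {g : isometryGroup (ZMod 2) ⇑Q | (((g : GL ι (ZMod 2)) : Matrix ι ι (ZMod 2)) - 1).rank = 1} := by
  have hfr : finrank (ZMod 2) (ι → ZMod 2) = Fintype.card ι := Module.finrank_fintype_fun_eq_card _
  set e := isometryGroupEquiv Q with he
  have hsq : ∀ g : isometryGroup (ZMod 2) ⇑Q, (((g : GL ι (ZMod 2)) : Matrix ι ι (ZMod 2)) - 1).rank = 1 → g * g = 1 := by
    intro g hg
    obtain ⟨v, hv, h⟩ := (rank_iff hQ g).1 hg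
    apply e.injective
    rw [map_mul, map_one, he, h, reflO_mul_self]
  refine ⟨⟨?_, ?_⟩, ?_, ?_⟩
  · intro g hg
    apply orderOf_eq_prime
    · rw [pow_two]; exact hsq g hg
    · rintro rfl
      have hg' : (((1 : isometryGroup (ZMod 2) ⇑Q) : GL ι (ZMod 2)) : Matrix ι ι (ZMod 2)) - 1 = 0 := sub_self _
      have hg2 : ((((1 : isometryGroup (ZMod 2) ⇑Q) : GL ι (ZMod 2)) : Matrix ι ι (ZMod 2)) - 1).rank = 1 := hg
      rw [hg', Matrix.rank_zero] at hg2
      exact absurd hg2 (by norm_num)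
  · intro g hg h hh
    have hgg := hsq g hg
    have hhh := hsq h hh
    obtain ⟨u, hu, h1⟩ := (rank_iff hQ g).1 hg
    obtain ⟨v, hv, h2⟩ := (rank_iff hQ h).1 hh
    have i1 : (reflO hu)⁻¹ = reflO hu := inv_eq_of_mul_eq_one_left (reflO_mul_self hu)
    have i2 : (reflO hv)⁻¹ = reflO hv := inv_eq_of_mul_eq_one_left (reflO_mul_self hv)
    have c1 := reflO_conj (reflO hu) hv
    have c2 := reflO_conj (reflO hv) hu
    rw [i1] at c1
    rw [i2] at c2
    rcases z2 (β[Q] u v) with hb | hb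
    · left
      have h3 : reflO hu * reflO hv * reflO hu = reflO hv := by
        rw [c1]
        apply reflO_congr
        rw [refl_act, hb, zero_smul, add_zero]
      have h4 : g * h * g = h := by
        apply e.injective
        rw [map_mul, map_mul, he, h1, h2, h3]
      calc (g * h) ^ 2 = g * h * g * h := by rw [pow_two]; group
        _ = 1 := by rw [h4, hhh]
    · right
      have hb' : β[Q] v u = 1 := by rw [← hb]; exact QuadraticMap.polar_comm _ _ _
      have h3 : reflO hu * reflO hv * reflO hu = reflO hv * reflO hu * reflO hv := by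
        rw [c1, c2]
        apply reflO_congr
        rw [refl_act, refl_act, hb, hb', one_smul, one_smul, add_comm]
      have h4 : g * h * g = h * g * h := by
        apply e.injective
        simp only [map_mul]
        rw [he, h1, h2, h3]
      calc (g * h) ^ 3 = (g * h * g) * (h * g * h) := by rw [pow_succ, pow_two]; group
        _ = h * g * (h * h) * (g * h) := by rw [h4]; group
        _ = h * (g * g) * h := by rw [hhh]; group
        _ = 1 := by rw [hgg, mul_one, hhh]
  · obtain ⟨u, hu⟩ := exists_map_eq hQ (by omega) (1 : ZMod 2)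
    have hu0 : Q u ≠ 0 := by rw [hu]; decide
    have hd : (((e.symm (reflO hu0) : isometryGroup (ZMod 2) ⇑Q) : GL ι (ZMod 2)) : Matrix ι ι (ZMod 2)).rank = 0 ∨ True := Or.inr trivial
    refine ⟨e.symm (reflO hu0), (rank_iff hQ _).2 ⟨u, hu0, by rw [he, MulEquiv.apply_symm_apply]⟩, ?_⟩
    ext g
    constructor
    · intro hg
      obtain ⟨v, hv, h1⟩ := (rank_iff hQ g).1 hg
      have hu1 : u ≠ 0 := by rintro rfl; exact hu0 (QuadraticMap.map_zero Q)
      have hv1 : v ≠ 0 := by rintro rfl; exact hv (QuadraticMap.map_zero Q)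
      obtain ⟨k, hk, hku⟩ := exists_O_family hQ (n := 1) (fun _ => u) (fun _ => v)
        (linearIndependent_unique_iff.2 hu1) (linearIndependent_unique_iff.2 hv1) (fun _ => by rw [hu]; exact ((z2 _).resolve_left hv).symm) (fun _ _ => by
          rw [polar_self, polar_self, hu, (z2 _).resolve_left hv])
      show IsConj _ _
      rw [isConj_iff]
      refine ⟨e.symm ⟨k, hk⟩, ?_⟩
      apply e.injective
      rw [map_mul, map_mul, map_inv, MulEquiv.apply_symm_apply, MulEquiv.apply_symm_apply, reflO_conj, he, h1]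
      exact reflO_congr (hku 0) _ _
    · intro hg
      obtain ⟨k, rfl⟩ := isConj_iff.1 (show IsConj _ g from hg)
      apply (rank_iff hQ _).2
      refine ⟨(e k).1 u, by rw [map_coe]; exact hu0, ?_⟩
      rw [← he, map_mul, map_mul, map_inv, MulEquiv.apply_symm_apply, reflO_conj]
  · rw [eq_top_iff, ← closure_reflSet hQ (Or.inr (by omega))]
    apply Subgroup.closure_mono
    rintro g ⟨v, hv, hg⟩
    exact (rank_iff hQ g).2 ⟨v, hv, eq_reflO_of_coe Q hv g hg⟩

theorem s1629 (m : ℕ) (hm : 3 ≤ m) : Cfsg.IsThreeTranspositionClass {g : ↥(Cfsg.isometryGroup (ZMod 2) (Cfsg.quadFormPlus m (ZMod 2))) | (((g : GL (Fin m ⊕ Fin m) (ZMod 2)) : Matrix (Fin m ⊕ Fin m) (Fin m ⊕ Fin m) (ZMod 2)) - 1).rank = 1} := by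
  have h1 : ⇑(QP m (ZMod 2)) = Cfsg.quadFormPlus m (ZMod 2) := funext (QP_apply m)
  rw [← h1]
  exact is_class (QP_nondegenerate m) (by simp; omega)

theorem s1630 (m : ℕ) (hm : 2 ≤ m) : Cfsg.IsThreeTranspositionClass {g : ↥(Cfsg.isometryGroup (ZMod 2) (Cfsg.quadFormMinus m (ZMod 2) 1 1)) | (((g : GL ((Fin m ⊕ Fin m) ⊕ Fin 2) (ZMod 2)) : Matrix ((Fin m ⊕ Fin m) ⊕ Fin 2) ((Fin m ⊕ Fin m) ⊕ Fin 2) (ZMod 2)) - 1).rank = 1} := by
  rw [← CfsgLib.AutPO.QM_coe]
  exact is_class (CfsgLib.AutPO.QM_nondegenerate m (by unfold Aniso; decide)) (by simp; omega)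

end CfsgLib.Orth2
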