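import Cfsg.Agent.Lib.TT10
import Cfsg.Prelude.Def_FischerSpaces

/-!
# Reflections of orthogonal spaces over the field with three elements
-/

set_option autoImplicit false

open Subgroup QuadraticMap
open scoped Matrix

namespace CfsgLib.Orth3

variable {n : ℕ}

abbrev V (n : ℕ) := Fin n → ZMod 3

variable (Q : QuadraticForm (ZMod 3) (V n))

/-! ### scalars -/

theorem sc_mul {c : ZMod 3} (hc : c ≠ 0) : c * c = 1 := by revert c; decide
theorem sc_inv {c : ZMod 3} (hc : c ≠ 0) : c⁻¹ = c := (eq_inv_of_mul_eq_one_left (sc_mul hc)).symm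
theorem sc_cases {a b : ZMod 3} (ha : a ≠ 0) (hb : b ≠ 0) : a = b ∨ a = -b := by revert a b; decide

theorem polar_self' (x : V n) : polar Q x x = 2 * Q x := by
  rw [QuadraticMap.polar_self, nsmul_eq_mul]; rfl

theorem Q_add (x y : V n) : Q (x + y) = Q x + Q y + polar Q x y := QuadraticMap.map_add Q x y

theorem Q_smul (a : ZMod 3) (x : V n) : Q (a • x) = a * a * Q x := by
  rw [QuadraticMap.map_smul, smul_eq_mul]

theorem B_smul_right (a : ZMod 3) (x y : V n) : polar Q x (a • y) = a * polar Q x y := by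
  rw [polar_smul_right, smul_eq_mul]

theorem B_smul_left (a : ZMod 3) (x y : V n) : polar Q (a • x) y = a * polar Q x y := by
  rw [polar_smul_left, smul_eq_mul]

theorem B_comm (x y : V n) : polar Q x y = polar Q y x := polar_comm _ _ _

theorem B_zero_right (x : V n) : polar Q x 0 = 0 := by
  have := B_smul_right Q 0 x 0
  rwa [zero_smul, zero_mul] at this

/-! ### reflections -/

theorem polarVec_dot (v x : V n) : Cfsg.polarVec Q v ⬝ᵥ x = polar Q v x := by
  have h := LinearMap.pi_apply_eq_sum_univ (QuadraticMap.polarBilin Q v) x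
  rw [QuadraticMap.polarBilin_apply_apply] at h
  rw [h, dotProduct]
  apply Finset.sum_congr rfl
  intro j _
  rw [smul_eq_mul, mul_comm]
  congr 1
  show polar Q v (Pi.single j 1) = polar Q v _
  congr 1
  ext i
  rw [Pi.single_apply]
  by_cases h : i = j
  · rw [if_pos h, if_pos h.symm]
  · rw [if_neg h, if_neg (fun h' => h h'.symm)]

theorem refl_mulVec (v x : V n) : Cfsg.reflectionMatrix (⇑Q) v *ᵥ x = x - ((Q v)⁻¹ * polar Q v x) • v := by
  rw [Cfsg.reflectionMatrix, Matrix.sub_mulVec, Matrix.one_mulVec, Matrix.smul_mulVec, Matrix.vecMulVec_mulVec, polarVec_dot]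
  rw [mul_smul]
  congr 2
  ext i
  simp [mul_comm]

theorem mat_ext {M N : Matrix (Fin n) (Fin n) (ZMod 3)} (h : ∀ x, M *ᵥ x = N *ᵥ x) : M = N :=
  Matrix.ext_of_mulVec_single (fun i => h _)

theorem refl_sq {v : V n} (hv : Q v ≠ 0) : Cfsg.reflectionMatrix (⇑Q) v * Cfsg.reflectionMatrix (⇑Q) v = 1 := by
  apply mat_ext
  intro x
  rw [← Matrix.mulVec_mulVec, refl_mulVec, refl_mulVec, Matrix.one_mulVec, sub_eq_add_neg x, ← neg_smul, polar_add_right,
    B_smul_right, polar_self', sc_inv hv]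
  have := sc_mul hv
  have e : ∀ q p : ZMod 3, q * q = 1 → q * (p + -(q * p) * (2 * q)) = - (q * p) := by decide
  rw [e _ _ this, neg_smul]
  abel

theorem refl_norm {v : V n} (hv : Q v ≠ 0) (x : V n) : Q (Cfsg.reflectionMatrix (⇑Q) v *ᵥ x) = Q x := by
  rw [refl_mulVec, sub_eq_add_neg, ← neg_smul, Q_add, Q_smul, B_smul_right, B_comm Q x v, sc_inv hv]
  have := sc_mul hv
  have e : ∀ q p a : ZMod 3, q * q = 1 → a + -(q * p) * -(q * p) * q + -(q * p) * p = a := by decide
  exact e _ _ _ this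

abbrev O := Cfsg.isometryGroup (ZMod 3) (⇑Q)

variable {Q}

/-- the action on vectors -/
def act (g : O Q) (x : V n) : V n := ((g : Matrix.GeneralLinearGroup (Fin n) (ZMod 3)) : Matrix (Fin n) (Fin n) (ZMod 3)) *ᵥ x

theorem act_mul (g h : O Q) (x : V n) : act (g * h) x = act g (act h x) := by
  show ((g : Matrix.GeneralLinearGroup (Fin n) (ZMod 3)) * (h : Matrix.GeneralLinearGroup (Fin n) (ZMod 3)) : Matrix (Fin n) (Fin n) (ZMod 3)) *ᵥ x = _
  rw [← Matrix.mulVec_mulVec]; rfl

theorem act_one (x : V n) : act (1 : O Q) x = x := Matrix.one_mulVec x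

theorem act_inv_act (g : O Q) (x : V n) : act g⁻¹ (act g x) = x := by rw [← act_mul, inv_mul_cancel, act_one]
theorem act_act_inv (g : O Q) (x : V n) : act g (act g⁻¹ x) = x := by rw [← act_mul, mul_inv_cancel, act_one]

theorem act_sub (g : O Q) (x y : V n) : act g (x - y) = act g x - act g y := Matrix.mulVec_sub _ _ _
theorem act_add (g : O Q) (x y : V n) : act g (x + y) = act g x + act g y := Matrix.mulVec_add _ _ _
theorem act_smul (g : O Q) (a : ZMod 3) (x : V n) : act g (a • x) = a • act g x := Matrix.mulVec_smul _ _ _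

theorem act_ext {g h : O Q} (hh : ∀ x, act g x = act h x) : g = h := by
  apply Subtype.ext
  apply Units.ext
  exact mat_ext hh

theorem act_Q (g : O Q) (x : V n) : Q (act g x) = Q x := g.2 x x

theorem act_B (g : O Q) (x y : V n) : polar Q (act g x) (act g y) = polar Q x y := by
  unfold polar
  rw [← act_add, act_Q, act_Q, act_Q]

/-- the reflection as an isometry -/
def gl (v : V n) (hv : Q v ≠ 0) : O Q :=
  ⟨⟨Cfsg.reflectionMatrix (⇑Q) v, Cfsg.reflectionMatrix (⇑Q) v, refl_sq Q hv, refl_sq Q hv⟩, fun x _ => refl_norm Q hv x⟩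

theorem act_gl (v : V n) (hv : Q v ≠ 0) (x : V n) : act (gl v hv) x = x - (Q v * polar Q v x) • v := by
  rw [← sc_inv hv, act, ← refl_mulVec]
  have h : (Q v)⁻¹ = Q v := sc_inv hv
  rfl

theorem gl_sq (v : V n) (hv : Q v ≠ 0) : gl v hv * gl v hv = 1 := by
  apply Subtype.ext
  apply Units.ext
  exact refl_sq Q hv

theorem act_gl_self (v : V n) (hv : Q v ≠ 0) : act (gl v hv) v = -v := by
  rw [act_gl, polar_self']
  have e : ∀ q : ZMod 3, q ≠ 0 → q * (2 * q) = 2 := by decide
  rw [e _ hv]
  have : (2 : ZMod 3) • v = v + v := two_smul _ v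
  rw [this]; abel

theorem ne_zero_of {v : V n} (hv : Q v ≠ 0) : v ≠ 0 := by
  rintro rfl
  exact hv (QuadraticMap.map_zero Q)

theorem two_ne {v : V n} (hv : v ≠ 0) : -v ≠ v := by
  intro h
  apply hv
  have h1 : (2 : ZMod 3) • v = 0 := by
    rw [two_smul]
    nth_rewrite 1 [← h]
    abel
  rcases smul_eq_zero.1 h1 with h2 | h2
  · exact absurd h2 (by decide)
  · exact h2

theorem gl_ne_one (v : V n) (hv : Q v ≠ 0) : gl v hv ≠ 1 := by
  intro h
  have h1 := act_gl_self v hv
  rw [h, act_one] at h1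
  exact two_ne (ne_zero_of hv) h1.symm

theorem gl_conj (g : O Q) (v : V n) (hv : Q v ≠ 0) : g * gl v hv * g⁻¹ = gl (act g v) (by rw [act_Q]; exact hv) := by
  apply act_ext
  intro x
  rw [act_mul, act_mul, act_gl, act_gl, act_sub, act_smul, act_act_inv, act_Q]
  have : polar Q v (act g⁻¹ x) = polar Q (act g v) x := by
    rw [← act_B g, act_act_inv]
  rw [this]

theorem gl_neg (v : V n) (hv : Q v ≠ 0) (hv' : Q (-v) ≠ 0) : gl (-v) hv' = gl v hv := by
  apply act_ext
  intro x
  rw [act_gl, act_gl, QuadraticMap.map_neg, polar_neg_left, mul_neg, neg_smul, smul_neg, neg_neg]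

theorem gl_congr {v w : V n} (h : v = w) (hv : Q v ≠ 0) (hw : Q w ≠ 0) : gl v hv = gl w hw := by subst h; rfl

theorem gl_eq {v w : V n} (hv : Q v ≠ 0) (hw : Q w ≠ 0) (hvw : Q v = Q w) : gl v hv = gl w hw ↔ w = v ∨ w = -v := by
  constructor
  · intro h
    have h1 := act_gl_self v hv
    rw [h, act_gl] at h1
    -- v - a w = -v
    have h2 : (2 : ZMod 3) • v = (Q w * polar Q w v) • w := by
      rw [two_smul]
      have := sub_eq_iff_eq_add.1 h1
      nth_rewrite 1 [this]
      abel
    have h3 : v = (2 * (Q w * polar Q w v)) • w := by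
      rw [mul_smul, ← h2, smul_smul]
      have : (2 : ZMod 3) * 2 = 1 := by decide
      rw [this, one_smul]
    have h4 : ∀ a : ZMod 3, a = 0 ∨ a = 1 ∨ a = -1 := by decide
    rcases h4 (2 * (Q w * polar Q w v)) with h5 | h5 | h5
    · rw [h5, zero_smul] at h3
      exact absurd h3 (ne_zero_of hv)
    · rw [h5, one_smul] at h3
      exact Or.inl h3.symm
    · rw [h5, neg_smul, one_smul] at h3
      right
      rw [h3, neg_neg]
  · rintro (h | h)
    · exact gl_congr h.symm _ _
    · subst h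
      exact (gl_neg v hv hw).symm

theorem comm_iff {v w : V n} (hv : Q v ≠ 0) (hw : Q w ≠ 0) (hvw : Q v = Q w) : Commute (gl v hv) (gl w hw) ↔ polar Q v w = 0 ∨ w = v ∨ w = -v := by
  have h1 : Commute (gl v hv) (gl w hw) ↔ gl v hv * gl w hw * (gl v hv)⁻¹ = gl w hw := by
    constructor
    · intro h
      rw [h.eq, mul_inv_cancel_right]
    · intro h
      show gl v hv * gl w hw = gl w hw * gl v hv
      nth_rewrite 2 [← h]
      rw [inv_mul_cancel_right]
  rw [h1, gl_conj, gl_eq _ hw (by rw [act_Q]), act_gl]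
  constructor
  · rintro (h | h)
    · left
      have h2 : (Q v * polar Q v w) • v = 0 := by
        have := sub_eq_iff_eq_add.1 h.symm
        have h3 : w + (Q v * polar Q v w) • v = w + 0 := by rw [add_zero]; exact this.symm
        exact add_left_cancel h3
      rcases smul_eq_zero.1 h2 with h3 | h3
      · exact (mul_eq_zero.1 h3).resolve_left hv
      · exact absurd h3 (ne_zero_of hv)
    · have h2 : (2 : ZMod 3) • w = (Q v * polar Q v w) • v := by
        rw [two_smul]
        nth_rewrite 1 [h]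
        abel
      have h3 : w = (2 * (Q v * polar Q v w)) • v := by
        rw [mul_smul, ← h2, smul_smul]
        have : (2 : ZMod 3) * 2 = 1 := by decide
        rw [this, one_smul]
      have h4 : ∀ a : ZMod 3, a = 0 ∨ a = 1 ∨ a = -1 := by decide
      rcases h4 (2 * (Q v * polar Q v w)) with h5 | h5 | h5
      · rw [h5, zero_smul] at h3
        exact absurd h3 (ne_zero_of hw)
      · rw [h5, one_smul] at h3
        exact Or.inr (Or.inl h3)
      · rw [h5, neg_smul, one_smul] at h3
        exact Or.inr (Or.inr h3)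
  · rintro (h | h | h)
    · left; rw [h, mul_zero, zero_smul, sub_zero]
    · subst h
      right
      have := act_gl_self w hw
      rw [act_gl] at this
      rw [this, neg_neg]
    · subst h
      right
      have := act_gl_self v hv
      rw [act_gl] at this
      rw [polar_neg_right, mul_neg, neg_smul, sub_neg_eq_add]
      have h2 := sub_eq_iff_eq_add.1 this
      rw [← h2]

theorem braid {v w : V n} (hv : Q v ≠ 0) (hw : Q w ≠ 0) (hvw : Q v = Q w) (h : polar Q v w ≠ 0) :
    gl v hv * gl w hw * gl v hv = gl w hw * gl v hv * gl w hw := by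
  have i1 : (gl v hv)⁻¹ = gl v hv := inv_eq_of_mul_eq_one_left (gl_sq v hv)
  have i2 : (gl w hw)⁻¹ = gl w hw := inv_eq_of_mul_eq_one_left (gl_sq w hw)
  have e1 := gl_conj (gl v hv) w hw
  have e2 := gl_conj (gl w hw) v hv
  rw [i1] at e1
  rw [i2] at e2
  rw [e1, e2, gl_eq _ _ (by rw [act_Q, act_Q]; exact hvw.symm), act_gl, act_gl, B_comm Q w v, ← hvw]
  have hne : Q v * polar Q v w ≠ 0 := mul_ne_zero hv h
  rcases (show ∀ a : ZMod 3, a ≠ 0 → a = 1 ∨ a = -1 by decide) _ hne with h5 | h5
  · rw [h5, one_smul, one_smul]; right; abel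
  · rw [h5, neg_smul, neg_smul, one_smul, one_smul]; left; abel

theorem s5358 (hQ : True) (u v : V n) (hu : Q u ≠ 0) (huv : Q u = Q v) (h1 : v ≠ u) (h2 : v ≠ -u) : Commute (Cfsg.reflectionMatrix (⇑Q) u) (Cfsg.reflectionMatrix (⇑Q) v) ↔ polar (⇑Q) u v = 0 := by
  have hv : Q v ≠ 0 := huv ▸ hu
  have h3 := comm_iff hu hv huv
  have h4 : Commute (gl u hu) (gl v hv) ↔ Commute (Cfsg.reflectionMatrix (⇑Q) u) (Cfsg.reflectionMatrix (⇑Q) v) := by
    constructor
    · intro h
      exact congrArg (fun g : O Q => ((g : Matrix.GeneralLinearGroup (Fin n) (ZMod 3)) : Matrix (Fin n) (Fin n) (ZMod 3))) h.eq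
    · intro h
      apply Subtype.ext
      apply Units.ext
      exact h.eq
  rw [← h4, h3]
  tauto

end CfsgLib.Orth3
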