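import Cfsg.Agent.Lib.Orth3

/-!
# The reflection class of an orthogonal space over the field with three elements
-/

set_option autoImplicit false

open Subgroup QuadraticMap
open scoped Matrix

namespace CfsgLib.Orth3

variable {n : ℕ} {Q : QuadraticForm (ZMod 3) (V n)}

/-- nonisotropic vectors orthogonal to a few given ones -/
theorem E0 (hQ : (QuadraticMap.polarBilin Q).Nondegenerate) {k : ℕ} (hk : k < n) (es : Fin k → V n)
    (h1 : ∀ i j, i ≠ j → polar Q (es i) (es j) = 0) (h2 : ∀ i, Q (es i) ≠ 0) :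
    ∃ x, (∀ i, polar Q (es i) x = 0) ∧ Q x ≠ 0 := by
  by_contra hcon
  push Not at hcon
  let f : V n →ₗ[ZMod 3] (Fin k → ZMod 3) := LinearMap.pi (fun i => QuadraticMap.polarBilin Q (es i))
  have hf : LinearMap.ker f ≠ ⊥ := by
    apply LinearMap.ker_ne_bot_of_finrank_lt
    rw [Module.finrank_fin_fun, Module.finrank_fin_fun]
    exact hk
  obtain ⟨w, hw, hw0⟩ := (Submodule.ne_bot_iff _).1 hf
  have hwe : ∀ i, polar Q (es i) w = 0 := fun i => congrFun hw i
  apply hw0
  apply hQ.1 w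
  intro y
  show polar Q w y = 0
  -- project y
  let y' : V n := y - ∑ i, (2 * (Q (es i) * polar Q (es i) y)) • es i
  have hy' : ∀ i, polar Q (es i) y' = 0 := by
    intro i
    have e1 : polar Q (es i) y' = polar Q (es i) y - ∑ j, (2 * (Q (es j) * polar Q (es j) y)) * polar Q (es i) (es j) := by
      have := map_sub (QuadraticMap.polarBilin Q (es i)) y (∑ j, (2 * (Q (es j) * polar Q (es j) y)) • es j)
      rw [map_sum] at this
      simp only [map_smul, smul_eq_mul, QuadraticMap.polarBilin_apply_apply] at this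
      exact this
    rw [e1, Finset.sum_eq_single i]
    · rw [polar_self']
      have := sc_mul (h2 i)
      have e : ∀ q p : ZMod 3, q * q = 1 → p - 2 * (q * p) * (2 * q) = 0 := by decide
      exact e _ _ this
    · intro j _ hj
      rw [h1 i j (fun h => hj h.symm), mul_zero]
    · intro h; exact absurd (Finset.mem_univ i) h
  have e2 : polar Q w y' = 0 := by
    have q1 := hcon w hwe
    have q2 := hcon y' hy'
    have q3 := hcon (w + y') (fun i => by rw [polar_add_right, hwe, hy', add_zero])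
    unfold polar
    rw [q1, q2, q3]; ring
  have e3 : polar Q w y' = polar Q w y := by
    have := map_sub (QuadraticMap.polarBilin Q w) y (∑ j, (2 * (Q (es j) * polar Q (es j) y)) • es j)
    rw [map_sum] at this
    simp only [map_smul, smul_eq_mul, QuadraticMap.polarBilin_apply_apply] at this
    have h5 : polar Q w y' = polar Q w y - ∑ j, (2 * (Q (es j) * polar Q (es j) y)) * polar Q w (es j) := this
    rw [h5, Finset.sum_eq_zero, sub_zero]
    intro j _
    rw [B_comm Q w (es j), hwe, mul_zero]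
  rw [← e3, e2]

theorem E1 (hQ : (QuadraticMap.polarBilin Q).Nondegenerate) {k : ℕ} (hk : k + 1 < n) (es : Fin k → V n)
    (h1 : ∀ i j, i ≠ j → polar Q (es i) (es j) = 0) (h2 : ∀ i, Q (es i) ≠ 0) {c : ZMod 3} (hc : c ≠ 0) :
    ∃ x, (∀ i, polar Q (es i) x = 0) ∧ Q x = c := by
  obtain ⟨x, hx, hqx⟩ := E0 hQ (by omega) es h1 h2
  rcases sc_cases hqx hc with h | h
  · exact ⟨x, hx, h⟩
  obtain ⟨y, hy, hqy⟩ := E0 hQ hk (Fin.cons x es : Fin (k + 1) → V n) (by
    intro i j hij
    induction i using Fin.cases with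
    | zero =>
      induction j using Fin.cases with
      | zero => exact absurd rfl hij
      | succ j => rw [Fin.cons_zero, Fin.cons_succ, B_comm]; exact hx j
    | succ i =>
      induction j using Fin.cases with
      | zero => rw [Fin.cons_zero, Fin.cons_succ]; exact hx i
      | succ j => rw [Fin.cons_succ, Fin.cons_succ]; exact h1 i j (fun h => hij (by rw [h]))) (by
    intro i
    induction i using Fin.cases with
    | zero => rw [Fin.cons_zero]; exact hqx
    | succ i => rw [Fin.cons_succ]; exact h2 i)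
  have hxy : polar Q x y = 0 := by have := hy 0; rwa [Fin.cons_zero] at this
  have hye : ∀ i, polar Q (es i) y = 0 := fun i => by have := hy i.succ; rwa [Fin.cons_succ] at this
  rcases sc_cases hqy hc with h' | h'
  · exact ⟨y, hye, h'⟩
  · refine ⟨x + y, fun i => by rw [polar_add_right, hx, hye, add_zero], ?_⟩
    rw [Q_add, hxy, h, h']
    exact (show ∀ c : ZMod 3, -c + -c + 0 = c by decide) c

variable (hQ : (QuadraticMap.polarBilin Q).Nondegenerate) {c : ZMod 3} (hc : c ≠ 0)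

include hQ

theorem ex0 (hn : 2 ≤ n) {a : ZMod 3} (ha : a ≠ 0) : ∃ x, Q x = a := by
  obtain ⟨x, _, h⟩ := E1 hQ (k := 0) (by omega) (fun i => i.elim0) (fun i => i.elim0) (fun i => i.elim0) ha
  exact ⟨x, h⟩

theorem ex1 (hn : 3 ≤ n) {u : V n} (hu : Q u ≠ 0) {a : ZMod 3} (ha : a ≠ 0) : ∃ x, polar Q u x = 0 ∧ Q x = a := by
  obtain ⟨x, h, h'⟩ := E1 hQ (k := 1) (by omega) (fun _ => u) (fun i j hij => absurd (Subsingleton.elim i j) hij) (fun _ => hu) ha
  exact ⟨x, h 0, h'⟩

theorem ex2 (hn : 4 ≤ n) {u v : V n} (hu : Q u ≠ 0) (hv : Q v ≠ 0) (huv : polar Q u v = 0) {a : ZMod 3} (ha : a ≠ 0) :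
    ∃ x, polar Q u x = 0 ∧ polar Q v x = 0 ∧ Q x = a := by
  have huv' : polar Q v u = 0 := by rw [B_comm]; exact huv
  obtain ⟨x, h, h'⟩ := E1 hQ (k := 2) (by omega) ![u, v] (by
    intro i j hij
    fin_cases i <;> fin_cases j <;> first | exact absurd rfl hij | exact huv | exact huv') (by
    intro i
    fin_cases i
    · exact hu
    · exact hv) ha
  exact ⟨x, h 0, h 1, h'⟩

theorem ex3 (hn : 5 ≤ n) {u v w : V n} (hu : Q u ≠ 0) (hv : Q v ≠ 0) (hw : Q w ≠ 0) (huv : polar Q u v = 0) (huw : polar Q u w = 0)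
    (hvw : polar Q v w = 0) {a : ZMod 3} (ha : a ≠ 0) :
    ∃ x, polar Q u x = 0 ∧ polar Q v x = 0 ∧ polar Q w x = 0 ∧ Q x = a := by
  have huv' : polar Q v u = 0 := by rw [B_comm]; exact huv
  have huw' : polar Q w u = 0 := by rw [B_comm]; exact huw
  have hvw' : polar Q w v = 0 := by rw [B_comm]; exact hvw
  obtain ⟨x, h, h'⟩ := E1 hQ (k := 3) (by omega) ![u, v, w] (by
    intro i j hij
    fin_cases i <;> fin_cases j <;> first | exact absurd rfl hij | exact huv | exact huv' | exact huw | exact huw' | exact hvw | exact hvw') (by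
    intro i
    fin_cases i
    · exact hu
    · exact hv
    · exact hw) ha
  exact ⟨x, h 0, h 1, h 2, h'⟩

omit hQ in
theorem isotropic {u v : V n} (hu : Q u = c) (hv : Q v = c) (hc : c ≠ 0) (huv : polar Q u v ≠ 0) :
    Q (v + (c * polar Q u v) • u) = 0 ∧ polar Q u (v + (c * polar Q u v) • u) = 0 := by
  have h1 := sc_mul hc
  constructor
  · rw [Q_add, Q_smul, B_smul_right, hu, hv, B_comm Q v u]
    have e : ∀ p : ZMod 3, p ≠ 0 → ∀ q : ZMod 3, q * q = 1 → q + q * p * (q * p) * q + q * p * p = 0 := by decide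
    exact e _ huv _ h1
  · rw [polar_add_right, B_smul_right, polar_self', hu]
    have e : ∀ p : ZMod 3, ∀ q : ZMod 3, q * q = 1 → p + q * p * (2 * q) = 0 := by decide
    exact e _ _ h1

/-- a hyperbolic partner in `u^⊥` -/
theorem partner {u r : V n} (hu : Q u ≠ 0) (hr0 : r ≠ 0) (hr : Q r = 0) (hur : polar Q u r = 0) :
    ∃ s, Q s = 0 ∧ polar Q u s = 0 ∧ polar Q r s = 1 := by
  have h1 : ∃ y, polar Q r y ≠ 0 := by
    by_contra hcon
    push Not at hcon
    exact hr0 (hQ.1 r hcon)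
  obtain ⟨y, hy⟩ := h1
  -- make it orthogonal to u
  let y1 : V n := y - (2 * (Q u * polar Q u y)) • u
  have hy1u : polar Q u y1 = 0 := by
    show polar Q u (y - (2 * (Q u * polar Q u y)) • u) = 0
    rw [polar_sub_right, B_smul_right, polar_self']
    have e : ∀ q p : ZMod 3, q * q = 1 → p - 2 * (q * p) * (2 * q) = 0 := by decide
    exact e _ _ (sc_mul hu)
  have hy1r : polar Q r y1 = polar Q r y := by
    show polar Q r (y - (2 * (Q u * polar Q u y)) • u) = _
    rw [polar_sub_right, B_smul_right, B_comm Q r u, hur, mul_zero, sub_zero]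
  let y2 : V n := (polar Q r y) • y1
  have hy2u : polar Q u y2 = 0 := by
    show polar Q u ((polar Q r y) • y1) = 0
    rw [B_smul_right, hy1u, mul_zero]
  have hy2r : polar Q r y2 = 1 := by
    show polar Q r ((polar Q r y) • y1) = 1
    rw [B_smul_right, hy1r]; exact sc_mul hy
  clear_value y2
  refine ⟨y2 - (Q y2) • r, ?_, ?_, ?_⟩
  · rw [sub_eq_add_neg, ← neg_smul, Q_add, Q_smul, hr, B_smul_right, B_comm Q y2 r, hy2r]; ring
  · rw [polar_sub_right, B_smul_right, hur, hy2u]; ring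
  · rw [polar_sub_right, B_smul_right, polar_self', hr, hy2r]; ring

/-! ### the class -/

variable (Q) (c)

omit hQ in
theorem mem_refl {g : O Q} (hc : c ≠ 0) : g ∈ Cfsg.reflectionsOfNorm (⇑Q) c ↔ ∃ (v : V n) (hv : Q v = c), g = gl v (hv ▸ hc) := by
  constructor
  · rintro ⟨v, hv, hg⟩
    refine ⟨v, hv, ?_⟩
    apply Subtype.ext
    apply Units.ext
    exact hg
  · rintro ⟨v, hv, rfl⟩
    exact ⟨v, hv, rfl⟩

abbrev R := Cfsg.reflectionSubgroup (⇑Q) c

/-- the class inside the reflection group -/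
def DD : Set (R Q c) := {g | (g : O Q) ∈ Cfsg.reflectionsOfNorm (⇑Q) c}

variable {Q} {c}

omit hQ in
theorem gl_mem (hc : c ≠ 0) {v : V n} (hv : Q v = c) : gl v (hv ▸ hc) ∈ R Q c :=
  subset_closure ((mem_refl Q c hc).2 ⟨v, hv, rfl⟩)

/-- elements of the class -/
def rr (hc : c ≠ 0) (v : V n) (hv : Q v = c) : R Q c := ⟨gl v (hv ▸ hc), gl_mem hc hv⟩

omit hQ in
theorem mem_DD (hc : c ≠ 0) {g : R Q c} : g ∈ DD Q c ↔ ∃ (v : V n) (hv : Q v = c), g = rr hc v hv := by
  rw [DD, Set.mem_setOf_eq, mem_refl Q c hc]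
  constructor
  · rintro ⟨v, hv, h⟩; exact ⟨v, hv, Subtype.ext h⟩
  · rintro ⟨v, hv, rfl⟩; exact ⟨v, hv, rfl⟩

omit hQ in
theorem rr_mem (hc : c ≠ 0) (v : V n) (hv : Q v = c) : rr hc v hv ∈ DD Q c := (mem_DD hc).2 ⟨v, hv, rfl⟩

omit hQ in
theorem rr_comm (hc : c ≠ 0) {v w : V n} (hv : Q v = c) (hw : Q w = c) : Commute (rr hc v hv) (rr hc w hw) ↔ polar Q v w = 0 ∨ w = v ∨ w = -v := by
  rw [← comm_iff (hv ▸ hc) (hw ▸ hc) (hv.trans hw.symm)]
  constructor
  · intro h; exact congrArg Subtype.val h.eq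
  · intro h; exact Subtype.ext h.eq

omit hQ in
theorem rr_eq (hc : c ≠ 0) {v w : V n} (hv : Q v = c) (hw : Q w = c) : rr hc v hv = rr hc w hw ↔ w = v ∨ w = -v := by
  rw [← gl_eq (hv ▸ hc) (hw ▸ hc) (hv.trans hw.symm)]
  constructor
  · intro h; exact congrArg Subtype.val h
  · intro h; exact Subtype.ext h

omit hQ in
theorem rr_braid (hc : c ≠ 0) {v w : V n} (hv : Q v = c) (hw : Q w = c) (h : polar Q v w ≠ 0) :
    rr hc v hv * rr hc w hw * rr hc v hv = rr hc w hw * rr hc v hv * rr hc w hw :=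
  Subtype.ext (braid (hv ▸ hc) (hw ▸ hc) (hv.trans hw.symm) h)

omit hQ in
theorem rr_sq (hc : c ≠ 0) {v : V n} (hv : Q v = c) : rr hc v hv * rr hc v hv = 1 := Subtype.ext (gl_sq v (hv ▸ hc))

omit hQ in
theorem rr_conj (hc : c ≠ 0) (g : R Q c) {v : V n} (hv : Q v = c) : g * rr hc v hv * g⁻¹ = rr hc (act (g : O Q) v) (by rw [act_Q]; exact hv) :=
  Subtype.ext (gl_conj (g : O Q) v (hv ▸ hc))

omit hQ in
/-- non-orthogonal ones are conjugate -/
theorem conj_of (hc : c ≠ 0) {v w : V n} (hv : Q v = c) (hw : Q w = c) (h : polar Q v w ≠ 0) : ∃ g : R Q c, g * rr hc v hv * g⁻¹ = rr hc w hw := by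
  refine ⟨rr hc v hv * rr hc w hw, ?_⟩
  have b := rr_braid hc hv hw h
  have s1 := rr_sq hc hv
  have s2 := rr_sq hc hw
  have i1 : (rr hc v hv)⁻¹ = rr hc v hv := inv_eq_of_mul_eq_one_left s1
  have i2 : (rr hc w hw)⁻¹ = rr hc w hw := inv_eq_of_mul_eq_one_left s2
  rw [mul_inv_rev, i1, i2]
  calc rr hc v hv * rr hc w hw * rr hc v hv * (rr hc w hw * rr hc v hv) = (rr hc v hv * rr hc w hw * rr hc v hv) * rr hc w hw * rr hc v hv := by group
    _ = rr hc w hw * rr hc v hv * (rr hc w hw * rr hc w hw) * rr hc v hv := by rw [b]; group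
    _ = rr hc w hw * (rr hc v hv * rr hc v hv) := by rw [s2]; group
    _ = _ := by rw [s1, mul_one]

theorem conj_all (hc : c ≠ 0) (hn : 4 ≤ n) {v w : V n} (hv : Q v = c) (hw : Q w = c) : ∃ g : R Q c, g * rr hc v hv * g⁻¹ = rr hc w hw := by
  by_cases h : polar Q v w = 0
  · obtain ⟨z, hz1, hz2, hz⟩ := ex2 hQ hn (hv ▸ hc) (hw ▸ hc) h (neg_ne_zero.2 hc)
    have hzv : polar Q z v = 0 := by rw [B_comm]; exact hz1
    have hzw : polar Q z w = 0 := by rw [B_comm]; exact hz2
    have hwv : polar Q w v = 0 := by rw [B_comm]; exact h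
    have hq : Q (v + w + z) = c := by
      rw [Q_add, Q_add, polar_add_left, hv, hw, hz, h, hz1, hz2]; ring
    have h1 : polar Q v (v + w + z) ≠ 0 := by
      rw [polar_add_right, polar_add_right, hz1, h, polar_self', hv, add_zero, add_zero]
      exact mul_ne_zero (by decide) hc
    have h2 : polar Q (v + w + z) w ≠ 0 := by
      rw [polar_add_left, polar_add_left, hzw, h, polar_self', hw, add_zero, zero_add]
      exact mul_ne_zero (by decide) hc
    obtain ⟨g1, hg1⟩ := conj_of hc hv hq h1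
    obtain ⟨g2, hg2⟩ := conj_of hc hq hw h2
    refine ⟨g2 * g1, ?_⟩
    rw [← hg2, ← hg1]; group
  · exact conj_of hc hv hw h

omit hQ in
theorem DD_conj (hc : c ≠ 0) (g : R Q c) {d : R Q c} (hd : d ∈ DD Q c) : g * d * g⁻¹ ∈ DD Q c := by
  obtain ⟨v, hv, rfl⟩ := (mem_DD hc).1 hd
  rw [rr_conj]
  exact rr_mem hc _ _

theorem is_class (hc : c ≠ 0) (hn : 4 ≤ n) : Cfsg.IsThreeTranspositionClass (DD Q c) := by
  refine ⟨⟨?_, ?_⟩, ?_, ?_⟩
  · intro d hd
    obtain ⟨v, hv, rfl⟩ := (mem_DD hc).1 hd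
    apply orderOf_eq_prime
    · rw [pow_two]; exact rr_sq hc hv
    · intro h
      exact gl_ne_one v (hv ▸ hc) (congrArg Subtype.val h)
  · intro d hd e he
    obtain ⟨v, hv, rfl⟩ := (mem_DD hc).1 hd
    obtain ⟨w, hw, rfl⟩ := (mem_DD hc).1 he
    by_cases h : Commute (rr hc v hv) (rr hc w hw)
    · left
      rw [h.mul_pow, pow_two, pow_two, rr_sq hc hv, rr_sq hc hw, one_mul]
    · right
      rw [rr_comm hc hv hw] at h
      push Not at h
      have b := rr_braid hc hv hw h.1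
      have s1 := rr_sq hc hv
      have s2 := rr_sq hc hw
      calc (rr hc v hv * rr hc w hw) ^ 3 = (rr hc v hv * rr hc w hw * rr hc v hv) * (rr hc w hw * rr hc v hv * rr hc w hw) := by
            rw [pow_succ, pow_two]; group
        _ = (rr hc w hw * rr hc v hv) * (rr hc w hw * rr hc w hw) * (rr hc v hv * rr hc w hw) := by rw [b]; group
        _ = rr hc w hw * (rr hc v hv * rr hc v hv) * rr hc w hw := by rw [s2]; group
        _ = 1 := by rw [s1, mul_one, s2]
  · obtain ⟨u, hu⟩ := ex0 hQ (by omega) hc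
    refine ⟨rr hc u hu, rr_mem hc u hu, ?_⟩
    ext x
    constructor
    · intro hx
      obtain ⟨v, hv, rfl⟩ := (mem_DD hc).1 hx
      exact isConj_iff.2 (conj_all hQ hc hn hu hv)
    · intro hx
      obtain ⟨g, rfl⟩ := isConj_iff.1 (show IsConj (rr hc u hu) x from hx)
      exact DD_conj hc g (rr_mem hc u hu)
  · exact closure_closure_coe_preimage

end CfsgLib.Orth3
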