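import Cfsg.Agent.Lib.Orth3b

/-!
# Structure of the reflection groups over the field with three elements
-/

set_option autoImplicit false

open Subgroup QuadraticMap

namespace CfsgLib.TT

universe u
variable {G : Type u} [Group G] [Finite G] {D : Set G}

theorem R1.core_central' (r : R1 D) (hV : ∀ d ∈ D, ∀ e ∈ D, (∀ x ∈ D, Commute d x ↔ Commute e x) → d = e)
    (hW : ∀ d ∈ D, ∀ e ∈ D, P D d = P D e → d = e) : Cfsg.pCore 2 G ≤ center G ∧ Cfsg.pCore 3 G ≤ center G := by
  haveI : Fact (Nat.Prime 2) := ⟨Nat.prime_two⟩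
  haveI : Fact (Nat.Prime 3) := ⟨Nat.prime_three⟩
  have h := r.tt
  obtain ⟨d, hd⟩ := r.ne
  constructor
  · have hn := CfsgLib.Core.pCore_normal 2 G
    apply r.le_center hn hd
    intro q hq
    have hm : d * (q * d * q⁻¹) ∈ Cfsg.pCore 2 G := by
      have e : d * (q * d * q⁻¹) = (d * q * d⁻¹) * q⁻¹ := by rw [h.inv hd]; group
      rw [e]; exact mul_mem (hn.conj_mem q hq d) (inv_mem hq)
    exact (hV d hd _ (h.cj q d hd) (VF_eq.1 (V_of_core h hd (h.cj q d hd) hm))).symm
  · have hn := CfsgLib.Core.pCore_normal 3 G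
    apply r.le_center hn hd
    intro q hq
    have hm : d * (q * d * q⁻¹) ∈ Cfsg.pCore 3 G := by
      have e : d * (q * d * q⁻¹) = (d * q * d⁻¹) * q⁻¹ := by rw [h.inv hd]; group
      rw [e]; exact mul_mem (hn.conj_mem q hq d) (inv_mem hq)
    exact (hW d hd _ (h.cj q d hd) (WF_eq.1 (W_of_core h hd (h.cj q d hd) hm))).symm

end CfsgLib.TT

namespace CfsgLib.Orth3

variable {n : ℕ} {Q : QuadraticForm (ZMod 3) (V n)} (hQ : (QuadraticMap.polarBilin Q).Nondegenerate) {c : ZMod 3} (hc : c ≠ 0)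

include hQ hc

theorem V_triv (hn : 5 ≤ n) : ∀ d ∈ DD Q c, ∀ e ∈ DD Q c, (∀ x ∈ DD Q c, Commute d x ↔ Commute e x) → d = e := by
  intro d hd e he hV
  obtain ⟨u, hu, rfl⟩ := (mem_DD hc).1 hd
  obtain ⟨v, hv, rfl⟩ := (mem_DD hc).1 he
  by_contra hne
  rw [rr_eq] at hne
  have h1 := (hV _ hd).1 (Commute.refl _)
  rw [rr_comm hc hv hu] at h1
  have hvu : polar Q v u = 0 := by
    rcases h1 with h | h | h
    · exact h
    · exact absurd (Or.inl h.symm) hne
    · exact absurd (Or.inr (by rw [h, neg_neg])) hne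
  have hu0 : Q u ≠ 0 := hu ▸ hc
  have hv0 : Q v ≠ 0 := hv ▸ hc
  have huv : polar Q u v = 0 := by rw [B_comm]; exact hvu
  obtain ⟨z1, a1, a2, a3⟩ := ex2 hQ (by omega) hu0 hv0 huv (a := 1) (by decide)
  obtain ⟨z2, b1, b2, b3, b4⟩ := ex3 hQ hn hu0 hv0 (w := z1) (by rw [a3]; decide) huv a1 a2 (a := -1) (by decide)
  have hz : Q (z1 + z2) = 0 := by rw [Q_add, a3, b4, b3]; ring
  have hz0 : z1 + z2 ≠ 0 := by
    intro h
    have h2 : polar Q z1 (z1 + z2) = 2 := by rw [polar_add_right, polar_self', a3, b3]; ring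
    rw [h, B_zero_right] at h2
    exact absurd h2 (by decide)
  have hvz : polar Q v (z1 + z2) = 0 := by rw [polar_add_right, a2, b2, add_zero]
  have huz : polar Q u (z1 + z2) = 0 := by rw [polar_add_right, a1, b1, add_zero]
  have hx : Q (v + (z1 + z2)) = c := by rw [Q_add, hv, hz, hvz, add_zero, add_zero]
  have hvx : polar Q v (v + (z1 + z2)) ≠ 0 := by
    rw [polar_add_right, hvz, polar_self', hv, add_zero]
    exact mul_ne_zero (by decide) hc
  have h2 := (hV _ (rr_mem hc _ hx)).1 ((rr_comm hc hu hx).2 (Or.inl (by rw [polar_add_right, huv, huz, add_zero])))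
  rcases (rr_comm hc hv hx).1 h2 with h | h | h
  · exact hvx h
  · exact hz0 (by simpa using h)
  · have h3 : z1 + z2 = -v - v := by rw [← h]; abel
    have h4 : z1 + z2 = v := by
      rw [h3]
      have : (3 : ZMod 3) • v = 0 := by
        have h5 : (3 : ZMod 3) = 0 := by decide
        rw [h5, zero_smul]
      have h6 : (3 : ZMod 3) • v = v + v + v := by
        have h7 : (3 : ZMod 3) = 1 + 1 + 1 := by decide
        rw [h7, add_smul, add_smul, one_smul]
      rw [h6] at this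
      have h8 : -v - v = v - (v + v + v) := by abel
      rw [h8, this, sub_zero]
    rw [h4] at hz
    exact hv0 hz

/-- the isotropic vector of a non-orthogonal pair is nonzero -/
theorem iso_ne {u v : V n} (hne : ¬ (v = u ∨ v = -u)) (hu : Q u = c) (hv : Q v = c) (huv : polar Q u v ≠ 0) : v + (c * polar Q u v) • u ≠ 0 := by
  intro h
  apply hne
  have hcb : c * polar Q u v ≠ 0 := mul_ne_zero hc huv
  rcases (show ∀ a : ZMod 3, a ≠ 0 → a = 1 ∨ a = -1 by decide) _ hcb with h5 | h5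
  · rw [h5, one_smul] at h
    exact Or.inr (eq_neg_of_add_eq_zero_left h)
  · rw [h5, neg_smul, one_smul] at h
    exact Or.inl (by rw [← sub_eq_add_neg] at h; exact sub_eq_zero.1 h)

theorem W_triv : ∀ d ∈ DD Q c, ∀ e ∈ DD Q c, CfsgLib.TT.P (DD Q c) d = CfsgLib.TT.P (DD Q c) e → d = e := by
  intro d hd e he hW
  obtain ⟨u, hu, rfl⟩ := (mem_DD hc).1 hd
  obtain ⟨v, hv, rfl⟩ := (mem_DD hc).1 he
  by_contra hne
  have hne' := hne
  rw [rr_eq] at hne'
  have hu0 : Q u ≠ 0 := hu ▸ hc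
  have huv : polar Q u v ≠ 0 := by
    intro h
    have h1 : rr hc v hv ∈ CfsgLib.TT.P (DD Q c) (rr hc u hu) := ⟨he, fun h2 => hne h2.symm, (rr_comm hc hu hv).2 (Or.inl h)⟩
    rw [hW] at h1
    exact h1.2.1 rfl
  have hr0 := iso_ne hQ hc hne' hu hv huv
  obtain ⟨hr, hur⟩ := isotropic hu hv hc huv
  obtain ⟨s, hs, hus, hrs⟩ := partner hQ hu0 hr0 hr hur
  have hx : Q (s + c • (v + (c * polar Q u v) • u)) = c := by
    rw [Q_add, Q_smul, hr, hs, B_smul_right, B_comm Q s, hrs]; ring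
  have hux : polar Q u (s + c • (v + (c * polar Q u v) • u)) = 0 := by
    rw [polar_add_right, B_smul_right, hur, hus]; ring
  -- polar of v with x
  have hrx : polar Q (v + (c * polar Q u v) • u) (s + c • (v + (c * polar Q u v) • u)) = 1 := by
    rw [polar_add_right Q (v + (c * polar Q u v) • u) s, B_smul_right, polar_self', hr, hrs]; ring
  have hvx : polar Q v (s + c • (v + (c * polar Q u v) • u)) = 1 := by
    rw [polar_add_left, B_smul_left, hux, mul_zero, add_zero] at hrx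
    exact hrx
  generalize s + c • (v + (c * polar Q u v) • u) = x at hx hux hvx
  have hxu : ¬ (x = u ∨ x = -u) := by
    rintro (h | h)
    · rw [h, polar_self', hu] at hux
      exact mul_ne_zero (by decide) hc hux
    · rw [h, polar_neg_right, polar_self', hu, neg_eq_zero] at hux
      exact mul_ne_zero (by decide) hc hux
  have hm : rr hc x hx ∈ CfsgLib.TT.P (DD Q c) (rr hc u hu) := by
    refine ⟨rr_mem hc x hx, ?_, (rr_comm hc hu hx).2 (Or.inl hux)⟩
    intro h
    exact hxu ((rr_eq hc hu hx).1 h.symm)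
  rw [hW] at hm
  rcases (rr_comm hc hv hx).1 hm.2.2 with h | h | h
  · rw [hvx] at h; exact absurd h (by decide)
  · exact hm.2.1 ((rr_eq hc hv hx).2 (Or.inl h)).symm
  · exact hm.2.1 ((rr_eq hc hv hx).2 (Or.inr h)).symm

theorem conn (hn : 5 ≤ n) : (Cfsg.commutingGraph (DD Q c)).Connected := by
  haveI : Nonempty (DD Q c) := by
    obtain ⟨u, hu⟩ := ex0 hQ (by omega) hc
    exact ⟨⟨_, rr_mem hc u hu⟩⟩
  have hadj : ∀ a b : DD Q c, Commute (a : R Q c) (b : R Q c) → (Cfsg.commutingGraph (DD Q c)).Reachable a b := by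
    intro a b h
    by_cases hab : a = b
    · rw [hab]
    · exact ((CfsgLib.TT.adj_iff).2 ⟨hab, h⟩).reachable
  refine ⟨?_⟩
  intro a b
  obtain ⟨u, hu, hau⟩ := (mem_DD hc).1 a.2
  obtain ⟨v, hv, hbv⟩ := (mem_DD hc).1 b.2
  by_cases hab : Commute (a : R Q c) (b : R Q c)
  · exact hadj a b hab
  rw [hau, hbv, rr_comm hc hu hv] at hab
  push Not at hab
  obtain ⟨huv, h1, h2⟩ := hab
  have hu0 : Q u ≠ 0 := hu ▸ hc
  have hne' : ¬ (v = u ∨ v = -u) := by rintro (h | h); exacts [h1 h, h2 h]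
  have hr0 := iso_ne hQ hc hne' hu hv huv
  obtain ⟨hr, hur⟩ := isotropic hu hv hc huv
  obtain ⟨s, hs, hus, hrs⟩ := partner hQ hu0 hr0 hr hur
  have hsr : polar Q s (v + (c * polar Q u v) • u) = 1 := by rw [B_comm]; exact hrs
  have q2 : Q (s + (v + (c * polar Q u v) • u)) = 1 := by rw [Q_add, hs, hr, hsr]; ring
  have q3 : Q (s - (v + (c * polar Q u v) • u)) = -1 := by
    rw [sub_eq_add_neg, Q_add, QuadraticMap.map_neg, polar_neg_right, hs, hr, hsr]; ring
  have p23 : polar Q (s + (v + (c * polar Q u v) • u)) (s - (v + (c * polar Q u v) • u)) = 0 := by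
    rw [polar_add_left Q s, polar_sub_right Q s, polar_sub_right Q (v + (c * polar Q u v) • u), polar_self', polar_self', hs, hr, hsr, hrs]; ring
  have pu2 : polar Q u (s + (v + (c * polar Q u v) • u)) = 0 := by rw [polar_add_right Q u s, hus, hur, add_zero]
  have pu3 : polar Q u (s - (v + (c * polar Q u v) • u)) = 0 := by rw [polar_sub_right Q u s, hus, hur, sub_zero]
  obtain ⟨w, w1, w2, w3, w4⟩ := ex3 hQ hn hu0 (by rw [q2]; decide) (by rw [q3]; decide) pu2 pu3 p23 hc
  -- w orthogonal to v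
  have hrw : polar Q (v + (c * polar Q u v) • u) w = 0 := by
    rw [polar_add_left Q s] at w2
    rw [polar_sub_left Q s] at w3
    have e : ∀ a b : ZMod 3, a + b = 0 → a - b = 0 → b = 0 := by decide
    exact e _ _ w2 w3
  have hvw : polar Q v w = 0 := by
    rw [polar_add_left, B_smul_left, w1, mul_zero, add_zero] at hrw
    exact hrw
  have r1 := hadj a ⟨_, rr_mem hc w w4⟩ (by rw [hau]; exact (rr_comm hc hu w4).2 (Or.inl w1))
  have r2 := hadj b ⟨_, rr_mem hc w w4⟩ (by rw [hbv]; exact (rr_comm hc hv w4).2 (Or.inl hvw))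
  exact r1.trans r2.symm

theorem s5360 (hn : 5 ≤ n) : Cfsg.IsQuasisimple (commutator (R Q c)) ∧ (commutator (R Q c)).index ≤ 2 ∧ Cfsg.generalizedFittingSubgroup (R Q c) = Subgroup.center (R Q c) ⊔ commutator (R Q c) ∧ Cfsg.IsPrimitiveUnderConj (DD Q c) := by
  have hcl := is_class hQ hc (by omega)
  have hD2 : ∃ a ∈ DD Q c, ∃ b ∈ DD Q c, a ≠ b := by
    obtain ⟨u, hu⟩ := ex0 hQ (by omega) hc
    obtain ⟨v, hv1, hv⟩ := ex1 hQ (by omega) (hu ▸ hc) hc
    refine ⟨_, rr_mem hc u hu, _, rr_mem hc v hv, ?_⟩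
    intro h
    rcases (rr_eq hc hu hv).1 h with h1 | h1
    · rw [h1, polar_self', hu] at hv1
      exact mul_ne_zero (by decide) hc hv1
    · rw [h1, polar_neg_right, polar_self', hu, neg_eq_zero] at hv1
      exact mul_ne_zero (by decide) hc hv1
  have r := CfsgLib.TT.r1_of hcl hD2
  obtain ⟨h2, h3⟩ := r.core_central' (V_triv hQ hc hn) (W_triv hQ hc)
  obtain ⟨K, hK⟩ := r.exists_comp h2 h3
  haveI hKn := CfsgLib.TT.comp_normal r.tt r.gen hK r.cl
  have hidx := r.index_le hK (conn hQ hc hn)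
  have heq : commutator (R Q c) = K := by
    apply le_antisymm (CfsgLib.TT.commutator_le_of_index hidx)
    have h1 := CfsgLib.Comp.component_perfect hK
    rw [← h1, _root_.commutator_def]
    exact Subgroup.commutator_mono le_top le_top
  refine ⟨?_, ?_, ?_, ?_⟩
  · rw [heq]; exact hK.2
  · rw [heq]; exact hidx
  · rw [heq, r.gfs_eq h2 h3 hK, sup_comm]
  · exact CfsgLib.TT.isPrim_of_prim r.tt r.cl hD2 (r.prim_of_index h2 h3 hK hidx)

end CfsgLib.Orth3
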