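import Cfsg.Agent.Lib.Orth3c
import Cfsg.Agent.Lib.Quad8

/-!
# The reflection subgroup has index two
-/

set_option autoImplicit false

open Subgroup QuadraticMap

namespace CfsgLib.TT

universe u
variable {G : Type u} [Group G] {D : Set G}

theorem reach_rel (hconn : (Cfsg.commutingGraph D).Connected) (rel : D → D → Prop) (hr : ∀ u, rel u u)
    (hs : ∀ u v w : D, u ≠ v → Commute (u : G) (v : G) → rel v w → rel u w) : ∀ a b, rel a b := by
  have key : ∀ x y : D, (Cfsg.commutingGraph D).Walk x y → rel x y := by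
    intro x y w
    induction w with
    | nil => exact hr _
    | cons hadj _ ih =>
      obtain ⟨hne, hcm⟩ := adj_iff.1 hadj
      exact hs _ _ _ hne hcm ih
  intro a b
  obtain ⟨w⟩ := hconn.preconnected a b
  exact key _ _ w

end CfsgLib.TT

namespace CfsgLib.Orth3

variable {n : ℕ} {Q : QuadraticForm (ZMod 3) (V n)}

/-- the sign character on vectors of norm `-c` -/
noncomputable def χ (Q : QuadraticForm (ZMod 3) (V n)) (c : ZMod 3) : O Q →* ℤˣ := (CfsgLib.Quad.sgnO Q (-c)).comp (CfsgLib.Quad.isometryGroupEquiv Q).toMonoidHom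

theorem orth_prod {a b : V n} {c : ZMod 3} (hc : c ≠ 0) (ha : Q a = -c) (hb : Q b = -c) (hab : polar Q a b = 0)
    (h1 : Q (a + b) = c) (h2 : Q (a - b) = c) :
    gl a (ha ▸ neg_ne_zero.2 hc) * gl b (hb ▸ neg_ne_zero.2 hc) = gl (a + b) (h1 ▸ hc) * gl (a - b) (h2 ▸ hc) := by
  apply act_ext
  intro x
  have hba : polar Q b a = 0 := by rw [B_comm]; exact hab
  rw [act_mul, act_mul, act_gl, act_gl, act_gl, act_gl, ha, hb, h1, h2]
  rw [polar_sub_right Q a x, B_smul_right, hab, polar_sub_right Q (a + b) x, B_smul_right]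
  have h3 : polar Q (a + b) (a - b) = 0 := by
    rw [polar_add_left, polar_sub_right, polar_sub_right, polar_self', polar_self', ha, hb, hab, hba]; ring
  rw [h3, polar_add_left, polar_sub_left]
  generalize polar Q a x = p
  generalize polar Q b x = q
  have h3 : (3 : ZMod 3) = 0 := by decide
  ext i
  simp only [Pi.sub_apply, Pi.add_apply, Pi.smul_apply, smul_eq_mul]
  linear_combination (c * (p * a i + q * b i)) * h3

theorem Q_norm {a b : V n} {c : ZMod 3} (ha : Q a = -c) (hb : Q b = -c) (hab : polar Q a b = 0) : Q (a + b) = c ∧ Q (a - b) = c := by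
  have e : ∀ c : ZMod 3, -c + -c = c := by decide
  constructor
  · rw [Q_add, ha, hb, hab, add_zero]; exact e c
  · rw [sub_eq_add_neg, Q_add, QuadraticMap.map_neg, polar_neg_right, ha, hb, hab, neg_zero, add_zero]; exact e c

variable (hQ : (QuadraticMap.polarBilin Q).Nondegenerate) {c : ZMod 3} (hc : c ≠ 0)

include hQ hc

theorem step_mem {x y w : O Q} {a b : V n} (ha : Q a = -c) (hb : Q b = -c) (hx : x = gl a (ha ▸ neg_ne_zero.2 hc)) (hy : y = gl b (hb ▸ neg_ne_zero.2 hc))
    (hab : polar Q a b = 0) (h : y * w ∈ R Q c) : x * w ∈ R Q c := by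
  obtain ⟨n1, n2⟩ := Q_norm ha hb hab
  have h3 : x * y ∈ R Q c := by
    rw [hx, hy, orth_prod hc ha hb hab n1 n2]
    exact mul_mem (gl_mem hc n1) (gl_mem hc n2)
  have h5 : y * y = 1 := by rw [hy]; exact gl_sq _ _
  have h4 := mul_mem h3 h
  have h6 : x * y * (y * w) = x * w := by
    calc x * y * (y * w) = x * (y * y) * w := by group
      _ = _ := by rw [h5, mul_one]
  rwa [h6] at h4

theorem prod_mem (hn : 5 ≤ n) {a b : V n} (ha : Q a = -c) (hb : Q b = -c) :
    gl a (ha ▸ neg_ne_zero.2 hc) * gl b (hb ▸ neg_ne_zero.2 hc) ∈ R Q c := by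
  have hc' := neg_ne_zero.2 hc
  have key := CfsgLib.TT.reach_rel (conn hQ hc' hn) (fun x y => ((x : R Q (-c)) : O Q) * ((y : R Q (-c)) : O Q) ∈ R Q c)
    (by
      intro u
      obtain ⟨v, hv, hu⟩ := (mem_DD hc').1 u.2
      have : ((u : R Q (-c)) : O Q) = gl v (hv ▸ hc') := congrArg Subtype.val hu
      show ((u : R Q (-c)) : O Q) * ((u : R Q (-c)) : O Q) ∈ R Q c
      rw [this, gl_sq]; exact one_mem _)
    (by
      intro u v w hne hcm ih
      obtain ⟨v1, hv1, hu1⟩ := (mem_DD hc').1 u.2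
      obtain ⟨v2, hv2, hu2⟩ := (mem_DD hc').1 v.2
      have hne' : ¬ (v2 = v1 ∨ v2 = -v1) := by
        intro h
        apply hne
        apply Subtype.ext
        rw [hu1, hu2]
        exact (rr_eq hc' hv1 hv2).2 h
      have hcm' : polar Q v1 v2 = 0 := by
        rw [hu1, hu2] at hcm
        rcases (rr_comm hc' hv1 hv2).1 hcm with h | h
        · exact h
        · exact absurd h hne'
      exact step_mem hQ hc hv1 hv2 (congrArg Subtype.val hu1) (congrArg Subtype.val hu2) hcm' ih)
  exact key ⟨_, rr_mem hc' a ha⟩ ⟨_, rr_mem hc' b hb⟩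

omit hQ in
theorem R_normal : (R Q c).Normal := by
  constructor
  intro h hh g
  induction hh using Subgroup.closure_induction with
  | mem x hx =>
    obtain ⟨v, hv, rfl⟩ := (mem_refl Q c hc).1 hx
    rw [gl_conj]
    exact gl_mem hc (by rw [act_Q]; exact hv)
  | one => rw [mul_one, mul_inv_cancel]; exact one_mem _
  | mul a b _ _ ha hb =>
    have : g * (a * b) * g⁻¹ = (g * a * g⁻¹) * (g * b * g⁻¹) := by group
    rw [this]; exact mul_mem ha hb
  | inv a _ ha =>
    have : g * a⁻¹ * g⁻¹ = (g * a * g⁻¹)⁻¹ := by group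
    rw [this]; exact inv_mem ha

omit hQ in
theorem χ_gl (w : V n) (hw : Q w ≠ 0) : χ Q c (gl w hw) = if IsSquare (-c * Q w) then -1 else 1 := by
  have h1 := CfsgLib.Quad.eq_reflO_of_coe Q hw (gl w hw) rfl
  show CfsgLib.Quad.sgnO Q (-c) (CfsgLib.Quad.isometryGroupEquiv Q (gl w hw)) = _
  rw [h1]
  convert CfsgLib.Quad.sgnO_reflO (by decide) (neg_ne_zero.2 hc) hw

theorem s5359 (hn : 5 ≤ n) : (R Q c).index = 2 := by
  haveI := R_normal (Q := Q) hc
  have hc' := neg_ne_zero.2 hc
  obtain ⟨w0, hw0⟩ := ex0 hQ (by omega) hc'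
  have hw0' : Q w0 ≠ 0 := hw0 ▸ hc'
  have hsq : gl w0 hw0' * gl w0 hw0' = 1 := gl_sq _ _
  have hinv : (gl w0 hw0')⁻¹ = gl w0 hw0' := inv_eq_of_mul_eq_one_left hsq
  have hle : R Q c ≤ (χ Q c).ker := by
    show Subgroup.closure (Cfsg.reflectionsOfNorm (⇑Q) c) ≤ _
    rw [closure_le]
    intro g hg
    obtain ⟨v, hv, rfl⟩ := (mem_refl Q c hc).1 hg
    rw [SetLike.mem_coe, MonoidHom.mem_ker, χ_gl hc, hv]
    rw [if_neg]
    have : ∀ c : ZMod 3, c ≠ 0 → ¬ ∃ r, -c * c = r * r := by decide
    exact this c hc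
  have hχ : χ Q c (gl w0 hw0') = -1 := by
    rw [χ_gl hc, hw0, if_pos]
    exact ⟨-c, rfl⟩
  rw [Subgroup.index_eq_two_iff]
  refine ⟨gl w0 hw0', fun b => ?_⟩
  have hor : b ∈ R Q c ∨ b * gl w0 hw0' ∈ R Q c := by
    have hb : b ∈ Subgroup.closure (CfsgLib.Quad.reflSet Q) := by
      rw [CfsgLib.Quad.closure_reflSet hQ (Or.inr (by rw [Fintype.card_fin]; omega))]
      exact Subgroup.mem_top b
    have hconj : ∀ g ∈ R Q c, gl w0 hw0' * g * gl w0 hw0' ∈ R Q c := by
      intro g hg
      have := (R_normal (Q := Q) hc).conj_mem g hg (gl w0 hw0')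
      rwa [hinv] at this
    induction hb using Subgroup.closure_induction with
    | mem x hx =>
      obtain ⟨v, hv, hx⟩ := hx
      have hxg : x = gl v hv := by
        apply Subtype.ext
        apply Units.ext
        exact hx
      rcases sc_cases hv hc with h | h
      · left
        rw [hxg]
        exact gl_mem hc h
      · right
        rw [hxg]
        exact prod_mem hQ hc hn h hw0
    | one => left; exact one_mem _
    | mul x y _ _ hx hy =>
      rcases hx with hx | hx <;> rcases hy with hy | hy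
      · left; exact mul_mem hx hy
      · right; rw [mul_assoc]; exact mul_mem hx hy
      · right
        have := mul_mem hx (hconj y hy)
        have e : x * gl w0 hw0' * (gl w0 hw0' * y * gl w0 hw0') = x * y * gl w0 hw0' := by
          calc _ = x * (gl w0 hw0' * gl w0 hw0') * y * gl w0 hw0' := by group
            _ = _ := by rw [hsq, mul_one]
        rwa [e] at this
      · left
        have := mul_mem hx (hconj _ hy)
        have e : x * gl w0 hw0' * (gl w0 hw0' * (y * gl w0 hw0') * gl w0 hw0') = x * y := by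
          calc _ = x * (gl w0 hw0' * gl w0 hw0') * y * (gl w0 hw0' * gl w0 hw0') := by group
            _ = _ := by rw [hsq, mul_one, mul_one]
        rwa [e] at this
    | inv x _ hx =>
      rcases hx with hx | hx
      · left; exact inv_mem hx
      · right
        have := hconj _ (inv_mem hx)
        have e : gl w0 hw0' * (x * gl w0 hw0')⁻¹ * gl w0 hw0' = x⁻¹ * gl w0 hw0' := by
          rw [mul_inv_rev, hinv]
          calc _ = (gl w0 hw0' * gl w0 hw0') * x⁻¹ * gl w0 hw0' := by group
            _ = _ := by rw [hsq, one_mul]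
        rwa [e] at this
  have hnot : ¬ (b ∈ R Q c ∧ b * gl w0 hw0' ∈ R Q c) := by
    rintro ⟨h1, h2⟩
    have h3 : gl w0 hw0' ∈ R Q c := by
      have := mul_mem (inv_mem h1) h2
      rwa [inv_mul_cancel_left] at this
    have h4 := hle h3
    rw [MonoidHom.mem_ker, hχ] at h4
    exact absurd h4 (by decide)
  rcases hor with h | h
  · right
    exact ⟨h, fun h2 => hnot ⟨h, h2⟩⟩
  · left
    exact ⟨h, fun h2 => hnot ⟨h2, h⟩⟩

end CfsgLib.Orth3
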