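import Cfsg.Agent.Lib.LinearGL
set_option autoImplicit false

/-! elements of order `3` and `6` in `PSL(3, 4)`. -/

namespace CfsgLib.P34

open Matrix

variable {F : Type*} [Field F]

/-- second coefficient of the characteristic polynomial. -/
def s2 (A : Matrix (Fin 3) (Fin 3) F) : F :=
  A 0 0 * A 1 1 - A 0 1 * A 1 0 + (A 0 0 * A 2 2 - A 0 2 * A 2 0) + (A 1 1 * A 2 2 - A 1 2 * A 2 1)

theorem ch3 (A : Matrix (Fin 3) (Fin 3) F) :
    A * (A * A) = A.trace • (A * A) - s2 A • A + A.det • (1 : Matrix (Fin 3) (Fin 3) F) := by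
  ext i j
  fin_cases i <;> fin_cases j <;>
    simp [s2, Matrix.mul_apply, Fin.sum_univ_three, Matrix.trace, Matrix.det_fin_three] <;> ring

theorem det_sub (A : Matrix (Fin 3) (Fin 3) F) (l : F) :
    (A - l • (1 : Matrix (Fin 3) (Fin 3) F)).det = A.det - s2 A * l + A.trace * l ^ 2 - l ^ 3 := by
  simp [s2, Matrix.det_fin_three, Matrix.trace, Fin.sum_univ_three]
  ring

theorem nonscalar {A : Matrix (Fin 3) (Fin 3) F} (hA : ∀ r : F, A ≠ r • (1 : Matrix (Fin 3) (Fin 3) F)) {x y : F}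
    (h : x • A = y • (1 : Matrix (Fin 3) (Fin 3) F)) : x = 0 ∧ y = 0 := by
  have hx : x = 0 := by
    by_contra hx
    apply hA (x⁻¹ * y)
    rw [mul_smul, ← h, smul_smul, inv_mul_cancel₀ hx, one_smul]
  refine ⟨hx, ?_⟩
  rw [hx, zero_smul] at h
  have := congrFun (congrFun h 0) 0
  simpa using this.symm

theorem key (h2 : (2 : F) = 0) (hq : ∀ a : F, a ≠ 0 → a ^ 3 = 1) {A : Matrix (Fin 3) (Fin 3) F} (hd : A.det = 1)
    (hA : ∀ r : F, A ≠ r • (1 : Matrix (Fin 3) (Fin 3) F)) {c : F} (hc : A * (A * A) = c • (1 : Matrix (Fin 3) (Fin 3) F)) :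
    A.trace = 0 ∧ s2 A = 0 ∧ c = 1 := by
  have hc0 : c ≠ 0 := by
    rintro rfl
    have := congrArg Matrix.det hc
    rw [det_mul, det_mul, hd, zero_smul] at this
    simp at this
  have h := ch3 A
  rw [hc, hd, one_smul] at h
  by_cases ht : A.trace = 0
  · rw [ht, zero_smul, zero_sub] at h
    have h3 : s2 A • A = (1 - c) • (1 : Matrix (Fin 3) (Fin 3) F) := by
      rw [sub_smul, one_smul, h]; abel
    obtain ⟨h4, h5⟩ := nonscalar hA h3
    exact ⟨ht, h4, (sub_eq_zero.1 h5).symm⟩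
  · exfalso
    have h3 : A * A = (A.trace⁻¹ * s2 A) • A + (A.trace⁻¹ * (c - 1)) • (1 : Matrix (Fin 3) (Fin 3) F) := by
      have e1 : A.trace • (A * A) = s2 A • A + (c - 1) • (1 : Matrix (Fin 3) (Fin 3) F) := by
        rw [sub_smul, one_smul, h]; abel
      rw [mul_smul, mul_smul, ← smul_add, ← e1, smul_smul, inv_mul_cancel₀ ht, one_smul]
    generalize A.trace⁻¹ * s2 A = a at h3
    obtain ⟨b, hb⟩ : ∃ b, b = A.trace⁻¹ * (c - 1) := ⟨_, rfl⟩
    rw [← hb] at h3
    have h4 : (a ^ 2 + b) • A = (c - a * b) • (1 : Matrix (Fin 3) (Fin 3) F) := by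
      have e1 : c • (1 : Matrix (Fin 3) (Fin 3) F) = (a ^ 2 + b) • A + (a * b) • (1 : Matrix (Fin 3) (Fin 3) F) := by
        rw [← hc, h3, mul_add, Matrix.mul_smul, Matrix.mul_smul, mul_one, h3]
        rw [smul_add, smul_smul, smul_smul, add_smul, pow_two]; abel
      rw [sub_smul, e1]; abel
    obtain ⟨h5, h6⟩ := nonscalar hA h4
    have ha : a ≠ 0 := by
      rintro rfl
      apply hc0
      linear_combination h6
    have h7 : c = 1 := by linear_combination h6 + a * h5 - hq a ha - h2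
    apply ha
    rw [h7, sub_self, mul_zero] at hb
    rw [hb, add_zero] at h5
    exact pow_eq_zero_iff (two_ne_zero) |>.1 h5

/-- the diagonal element. -/
def dd (w : F) : Fin 3 → F := ![1, w, w ^ 2]

def DD (w : F) (hw : w ^ 3 = 1) : SpecialLinearGroup (Fin 3) F := ⟨diagonal (dd w), by
  rw [det_diagonal, Fin.prod_univ_three]
  simp only [dd, Matrix.cons_val_zero, Matrix.cons_val_one, Matrix.cons_val]
  linear_combination hw⟩

theorem dd_inj {w : F} (hw : w ^ 3 = 1) (hw1 : w ≠ 1) : Function.Injective (dd w) := by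
  have h0 : w ≠ 0 := by rintro rfl; norm_num at hw
  have h2 : w ^ 2 ≠ 1 := fun h => hw1 (by linear_combination hw - w * h)
  have h3 : w ^ 2 ≠ w := fun h => hw1 (by
    apply mul_left_cancel₀ h0
    linear_combination h)
  intro i j hij
  by_contra hne
  fin_cases i <;> fin_cases j <;> first | exact hne rfl | exact hw1 hij.symm | exact hw1 hij | exact h2 hij.symm | exact h2 hij | exact h3 hij | exact h3 hij.symm

theorem conjD (h2 : (2 : F) = 0) (hq : ∀ a : F, a ≠ 0 → a ^ 3 = 1) {w : F} (hw : w ^ 3 = 1) (hw1 : w ≠ 1) {A : SpecialLinearGroup (Fin 3) F}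
    (hA : ∀ r : F, (A : Matrix (Fin 3) (Fin 3) F) ≠ r • (1 : Matrix (Fin 3) (Fin 3) F)) {c : F}
    (hc : (A : Matrix (Fin 3) (Fin 3) F) * ((A : Matrix (Fin 3) (Fin 3) F) * (A : Matrix (Fin 3) (Fin 3) F)) = c • (1 : Matrix (Fin 3) (Fin 3) F)) :
    ∃ P : SpecialLinearGroup (Fin 3) F, P⁻¹ * A * P = DD w hw := by
  obtain ⟨ht, hs, -⟩ := key h2 hq A.2 hA hc
  have hv : ∀ j : Fin 3, ∃ v : Fin 3 → F, v ≠ 0 ∧ (A : Matrix (Fin 3) (Fin 3) F) *ᵥ v = dd w j • v := by
    intro j
    have hl : dd w j ^ 3 = 1 := by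
      fin_cases j
      · simp [dd]
      · simpa [dd] using hw
      · simp only [dd]
        change (w ^ 2) ^ 3 = 1
        linear_combination (w ^ 3 + 1) * hw
    have h3 : ((A : Matrix (Fin 3) (Fin 3) F) - dd w j • (1 : Matrix (Fin 3) (Fin 3) F)).det = 0 := by
      rw [det_sub, ht, hs, hl, A.2]; ring
    obtain ⟨v, hv0, hv⟩ := exists_mulVec_eq_zero_iff.2 h3
    refine ⟨v, hv0, ?_⟩
    rw [sub_mulVec, smul_mulVec, one_mulVec, sub_eq_zero] at hv
    exact hv
  choose v hv0 hv using hv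
  have hli : LinearIndependent F v := by
    refine Module.End.eigenvectors_linearIndependent' (Matrix.toLin' (A : Matrix (Fin 3) (Fin 3) F)) (dd w) (dd_inj hw hw1) v ?_
    intro i
    exact ⟨Module.End.mem_eigenspace_iff.2 (by rw [toLin'_apply]; exact hv i), hv0 i⟩
  set P : Matrix (Fin 3) (Fin 3) F := Matrix.of fun i j => v j i with hP
  have hAP : (A : Matrix (Fin 3) (Fin 3) F) * P = P * diagonal (dd w) := by
    ext i j
    rw [mul_diagonal, mul_apply]
    have := congrFun (hv j) i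
    rw [mulVec, dotProduct, Pi.smul_apply, smul_eq_mul] at this
    rw [hP, of_apply, mul_comm, ← this]
    rfl
  have hdet : P.det ≠ 0 := by
    intro h0
    obtain ⟨u, hu0, hu⟩ := exists_mulVec_eq_zero_iff.2 h0
    apply hu0
    have h5 : ∑ j, u j • v j = 0 := by
      ext i
      have := congrFun hu i
      rw [mulVec, dotProduct] at this
      rw [Finset.sum_apply]
      simp only [Pi.smul_apply, smul_eq_mul]
      rw [← this]
      exact Finset.sum_congr rfl fun j _ => mul_comm _ _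
    exact funext fun j => Fintype.linearIndependent_iff.1 hli u h5 j
  let Q : SpecialLinearGroup (Fin 3) F := ⟨P * diagonal ![P.det⁻¹, 1, 1], by
    rw [det_mul, det_diagonal, Fin.prod_univ_three]
    simp [hdet]⟩
  refine ⟨Q, ?_⟩
  rw [mul_assoc, inv_mul_eq_iff_eq_mul]
  apply Subtype.ext
  change (A : Matrix (Fin 3) (Fin 3) F) * (P * diagonal ![P.det⁻¹, 1, 1]) = P * diagonal ![P.det⁻¹, 1, 1] * diagonal (dd w)
  rw [← mul_assoc, hAP, mul_assoc, mul_assoc, diagonal_mul_diagonal, diagonal_mul_diagonal]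
  congr 2
  ext i
  rw [mul_comm]

abbrev PSL3 (F : Type*) [Field F] := ProjectiveSpecialLinearGroup (Fin 3) F

abbrev pr (F : Type*) [Field F] : SpecialLinearGroup (Fin 3) F →* PSL3 F := QuotientGroup.mk' _

theorem mem_center_of_scalar {A : SpecialLinearGroup (Fin 3) F} {r : F} (h : (A : Matrix (Fin 3) (Fin 3) F) = r • (1 : Matrix (Fin 3) (Fin 3) F)) :
    A ∈ Subgroup.center (SpecialLinearGroup (Fin 3) F) := by
  rw [Subgroup.mem_center_iff]
  intro B
  apply Subtype.ext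
  change (B : Matrix (Fin 3) (Fin 3) F) * (A : Matrix (Fin 3) (Fin 3) F) = (A : Matrix (Fin 3) (Fin 3) F) * (B : Matrix (Fin 3) (Fin 3) F)
  rw [h, Matrix.mul_smul, Matrix.smul_mul, one_mul, mul_one]

theorem scalar_of_mem_center {A : SpecialLinearGroup (Fin 3) F} (h : A ∈ Subgroup.center (SpecialLinearGroup (Fin 3) F)) :
    ∃ r : F, r ^ 3 = 1 ∧ (A : Matrix (Fin 3) (Fin 3) F) = r • (1 : Matrix (Fin 3) (Fin 3) F) := by
  rw [Matrix.SpecialLinearGroup.mem_center_iff] at h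
  obtain ⟨r, hr, h⟩ := h
  exact ⟨r, by simpa using hr, by rw [← h, smul_one_eq_diagonal]; rfl⟩

theorem conjPSL (h2 : (2 : F) = 0) (hq : ∀ a : F, a ≠ 0 → a ^ 3 = 1) {w : F} (hw : w ^ 3 = 1) (hw1 : w ≠ 1) {x : PSL3 F} (hx : x ^ 3 = 1) (hx1 : x ≠ 1) :
    ∃ g : PSL3 F, g⁻¹ * x * g = pr F (DD w hw) := by
  obtain ⟨A, rfl⟩ := QuotientGroup.mk'_surjective (Subgroup.center (SpecialLinearGroup (Fin 3) F)) x
  have hA : ∀ r : F, (A : Matrix (Fin 3) (Fin 3) F) ≠ r • (1 : Matrix (Fin 3) (Fin 3) F) := by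
    intro r hr
    exact hx1 ((QuotientGroup.eq_one_iff A).2 (mem_center_of_scalar hr))
  have h3 : A ^ 3 ∈ Subgroup.center (SpecialLinearGroup (Fin 3) F) := by
    rw [← map_pow] at hx
    exact (QuotientGroup.eq_one_iff _).1 hx
  obtain ⟨c, -, hc⟩ := scalar_of_mem_center h3
  have hc' : (A : Matrix (Fin 3) (Fin 3) F) * ((A : Matrix (Fin 3) (Fin 3) F) * (A : Matrix (Fin 3) (Fin 3) F)) = c • (1 : Matrix (Fin 3) (Fin 3) F) := by
    rw [← hc, pow_three]; rfl
  obtain ⟨P, hP⟩ := conjD h2 hq hw hw1 hA hc'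
  refine ⟨pr F P, ?_⟩
  rw [← hP, map_mul, map_mul, map_inv]

theorem no_six (h2 : (2 : F) = 0) (hq : ∀ a : F, a ≠ 0 → a ^ 3 = 1) {w : F} (hw : w ^ 3 = 1) (hw1 : w ≠ 1) {z : PSL3 F} (hz : z ^ 6 = 1) (hz2 : z ^ 2 ≠ 1) : z ^ 3 = 1 := by
  obtain ⟨g, hg⟩ := conjPSL h2 hq hw hw1 (x := z ^ 2) (by rw [← pow_mul]; exact hz) hz2
  have hy : ∃ y, y = g⁻¹ * z ^ 3 * g := ⟨_, rfl⟩
  obtain ⟨y, hy⟩ := hy
  suffices h : y = 1 by
    rw [h] at hy
    have : z ^ 3 = g * 1 * g⁻¹ := by rw [hy]; group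
    rw [this]; group
  have hy2 : y ^ 2 = 1 := by
    have : y ^ 2 = g⁻¹ * z ^ 6 * g := by rw [hy, pow_two]; group
    rw [this, hz]; group
  have hcom : y * pr F (DD w hw) = pr F (DD w hw) * y := by
    rw [hy, ← hg]
    have e1 : g⁻¹ * z ^ 3 * g * (g⁻¹ * z ^ 2 * g) = g⁻¹ * z ^ 5 * g := by group
    have e2 : g⁻¹ * z ^ 2 * g * (g⁻¹ * z ^ 3 * g) = g⁻¹ * z ^ 5 * g := by group
    rw [e1, e2]
  obtain ⟨B, rfl⟩ := QuotientGroup.mk'_surjective (Subgroup.center (SpecialLinearGroup (Fin 3) F)) y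
  have hm : B * B ∈ Subgroup.center (SpecialLinearGroup (Fin 3) F) := by
    rw [← map_pow, pow_two] at hy2
    exact (QuotientGroup.eq_one_iff _).1 hy2
  have hcc : B * DD w hw * (DD w hw * B)⁻¹ ∈ Subgroup.center (SpecialLinearGroup (Fin 3) F) := by
    apply (QuotientGroup.eq_one_iff _).1
    change pr F (B * DD w hw * (DD w hw * B)⁻¹) = 1
    rw [map_mul, map_inv, map_mul, map_mul, mul_inv_eq_one]
    exact hcom
  obtain ⟨c, hcdef⟩ : ∃ c, c = B * DD w hw * (DD w hw * B)⁻¹ := ⟨_, rfl⟩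
  rw [← hcdef] at hcc
  have h5 : B * DD w hw = c * (DD w hw * B) := by rw [hcdef]; group
  obtain ⟨r, hr, hcr⟩ := scalar_of_mem_center hcc
  have hc3 : c ^ 3 = 1 := by
    apply Subtype.ext
    rw [pow_three]
    change (c : Matrix (Fin 3) (Fin 3) F) * ((c : Matrix (Fin 3) (Fin 3) F) * (c : Matrix (Fin 3) (Fin 3) F)) = 1
    rw [hcr]
    simp only [Matrix.mul_smul, Matrix.smul_mul, mul_one, smul_smul]
    rw [show r * r * r = 1 by rw [← hr]; ring, one_smul]
  have hc2 : c * c = 1 := by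
    have e1 : (B * B) * DD w hw = c * c * (DD w hw * (B * B)) := by
      calc (B * B) * DD w hw = B * (B * DD w hw) := by group
        _ = B * (c * (DD w hw * B)) := by rw [h5]
        _ = (B * c) * (DD w hw * B) := by group
        _ = (c * B) * (DD w hw * B) := by rw [Subgroup.mem_center_iff.1 hcc B]
        _ = c * (B * DD w hw) * B := by group
        _ = c * (c * (DD w hw * B)) * B := by rw [h5]
        _ = c * c * (DD w hw * (B * B)) := by group
    rw [Subgroup.mem_center_iff.1 hm (DD w hw)] at e1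
    exact (mul_eq_right.1 e1.symm)
  have hc1 : c = 1 := by
    rw [pow_three, hc2, mul_one] at hc3
    exact hc3
  rw [hc1, one_mul] at h5
  have h6 : (B : Matrix (Fin 3) (Fin 3) F) * diagonal (dd w) = diagonal (dd w) * (B : Matrix (Fin 3) (Fin 3) F) := congrArg Subtype.val h5
  have h7 : ∀ i j, i ≠ j → (B : Matrix (Fin 3) (Fin 3) F) i j = 0 := by
    intro i j hij
    have := congrFun (congrFun h6 i) j
    rw [mul_diagonal, diagonal_mul] at this
    have h8 : (B : Matrix (Fin 3) (Fin 3) F) i j * (dd w j - dd w i) = 0 := by linear_combination this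
    rcases mul_eq_zero.1 h8 with h9 | h9
    · exact h9
    · exact absurd (dd_inj hw hw1 (sub_eq_zero.1 h9)).symm hij
  have h8 : (B : Matrix (Fin 3) (Fin 3) F) = diagonal fun i => (B : Matrix (Fin 3) (Fin 3) F) i i := by
    ext i j
    by_cases hij : i = j
    · subst hij; rw [diagonal_apply_eq]
    · rw [diagonal_apply_ne _ hij, h7 i j hij]
  have h9 : B ^ 3 = 1 := by
    apply Subtype.ext
    have e0 : ∀ i, (B : Matrix (Fin 3) (Fin 3) F) i i ≠ 0 := by
      have := B.2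
      rw [h8, det_diagonal] at this
      intro i hi
      rw [Finset.prod_eq_zero (Finset.mem_univ i) (by exact hi)] at this
      exact zero_ne_one this
    rw [pow_three]
    change (B : Matrix (Fin 3) (Fin 3) F) * ((B : Matrix (Fin 3) (Fin 3) F) * (B : Matrix (Fin 3) (Fin 3) F)) = 1
    rw [h8, diagonal_mul_diagonal, diagonal_mul_diagonal, ← diagonal_one]
    congr 1
    ext i
    have := hq _ (e0 i)
    linear_combination this
  have h10 : (pr F B) ^ 3 = 1 := by rw [← map_pow, h9, map_one]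
  have h11 : (pr F B) ^ 3 = (pr F B) ^ 2 * pr F B := pow_succ _ _
  rw [h11] at h10
  have h12 : (pr F B) ^ 2 = 1 := hy2
  rw [h12, one_mul] at h10
  exact h10

theorem char_two [Fintype F] (hF : Fintype.card F = 4) : (2 : F) = 0 := by
  have := FiniteField.cast_card_eq_zero F
  rw [hF] at this
  have h : (2 : F) * 2 = 0 := by rw [← this]; norm_num
  exact (mul_self_eq_zero.1 h)

theorem cube [Fintype F] (hF : Fintype.card F = 4) (a : F) (ha : a ≠ 0) : a ^ 3 = 1 := by
  have := FiniteField.pow_card_sub_one_eq_one a ha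
  rwa [hF] at this

theorem exists_w [Fintype F] (hF : Fintype.card F = 4) : ∃ w : F, w ^ 3 = 1 ∧ w ≠ 1 := by
  classical
  obtain ⟨w, hw⟩ : ∃ w : F, w ∉ ({0, 1} : Finset F) := by
    by_contra hcon
    push Not at hcon
    have h1 : (Finset.univ : Finset F) ⊆ {0, 1} := fun x _ => hcon x
    have h2 := Finset.card_le_card h1
    rw [Finset.card_univ, hF] at h2
    have h3 := Finset.card_le_two (a := (0 : F)) (b := 1)
    omega
  simp only [Finset.mem_insert, Finset.mem_singleton, not_or] at hw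
  exact ⟨w, cube hF w hw.1, hw.2⟩

end CfsgLib.P34
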