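import Mathlib
import Cfsg.Agent.Lib.PChain2

namespace CfsgLib.PChain
open Subgroup

theorem pPrimeCore_quot_U {G : Type*} [Group G] [Finite G] {p : ℕ} [Fact p.Prime] (k : ℕ) :
    Cfsg.pPrimeCore p (G ⧸ U p G (2 * k + 1)) = ⊥ := by
  have hp : p.Prime := Fact.out
  have hE : Even (2 * k) := even_two_mul k
  unfold Cfsg.pPrimeCore
  rw [sSup_eq_bot]
  rintro N ⟨hN, hc⟩
  have h1 : U p G (2 * k + 1) ≤ N.comap (QuotientGroup.mk' (U p G (2 * k + 1))) := by
    intro x hx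
    have : QuotientGroup.mk' (U p G (2 * k + 1)) x = 1 := (QuotientGroup.eq_one_iff x).2 hx
    rw [mem_comap, this]; exact N.one_mem
  have h2 : (U p G (2 * k + 1)).relIndex (N.comap (QuotientGroup.mk' (U p G (2 * k + 1)))) = Nat.card N := relIndex_comap_mk _ _
  have h3 : St p (2 * k) ((U p G (2 * k)).relIndex (N.comap (QuotientGroup.mk' (U p G (2 * k + 1))))) := by
    rw [← relIndex_mul_relIndex (U p G (2 * k)) (U p G (2 * k + 1)) _ (U_le_succ _) h1]
    exact St.mul (St_U _) (by rw [h2]; exact ⟨fun _ => hc, fun h => absurd hE h⟩)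
  have h4 := le_U_succ (le_refl (U p G (2 * k))) (hN.comap _) h3
  rw [eq_bot_iff]
  intro y hy
  obtain ⟨x, rfl⟩ := QuotientGroup.mk'_surjective _ y
  exact (QuotientGroup.eq_one_iff x).2 (h4 hy)

theorem s0634 {G : Type*} [Group G] [Finite G] {p : ℕ} [Fact p.Prime] (hsol : Cfsg.IsPSolvable p G) (k : ℕ) : Subgroup.centralizer ((((Cfsg.upperPSeries p G (2 * k + 2)).1.map (QuotientGroup.mk' (Cfsg.upperPSeries p G (2 * k + 1)).1)) : Subgroup (G ⧸ (Cfsg.upperPSeries p G (2 * k + 1)).1)) : Set (G ⧸ (Cfsg.upperPSeries p G (2 * k + 1)).1)) ≤ (Cfsg.upperPSeries p G (2 * k + 2)).1.map (QuotientGroup.mk' (Cfsg.upperPSeries p G (2 * k + 1)).1) := by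
  have hp : p.Prime := Fact.out
  have h0 : (U p G (2 * k + 1 + 1)).map (QuotientGroup.mk' (U p G (2 * k + 1))) = Cfsg.pCore p (G ⧸ U p G (2 * k + 1)) := by
    rw [U_succ_odd (n := 2 * k + 1) (by simp)]
    exact map_comap_eq_self_of_surjective (QuotientGroup.mk'_surjective _) _
  show Subgroup.centralizer ((((U p G (2 * k + 1 + 1)).map (QuotientGroup.mk' (U p G (2 * k + 1)))) : Subgroup (G ⧸ U p G (2 * k + 1))) : Set (G ⧸ U p G (2 * k + 1))) ≤ (U p G (2 * k + 1 + 1)).map (QuotientGroup.mk' (U p G (2 * k + 1)))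
  rw [h0]
  exact centralizer_pCore_le (quotient hp hsol _) (pPrimeCore_quot_U k)

end CfsgLib.PChain
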