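import Cfsg.Agent.Lib.PG3
import Cfsg.Agent.Lib.CoprimeGen

set_option autoImplicit false
set_option linter.style.haveILetI false
open scoped commutatorElement Pointwise

namespace CfsgLib.PG4
open CfsgLib.SZ CfsgLib.PG CfsgLib.PG2 CfsgLib.PG3

universe u
variable {G : Type u} [Group G] [Finite G]

/-- If every characteristic abelian subgroup is central then the class is at most two. -/
theorem commutator_le_center_of_char_abelian (hnil : Group.IsNilpotent G)
    (h : ∀ D : Subgroup G, D.Characteristic → IsMulCommutative D → D ≤ Subgroup.center G) : commutator G ≤ Subgroup.center G := by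
  classical
  set Z := Subgroup.center G with hZ
  by_contra hne
  obtain ⟨x, hxG, hxZ, hx⟩ := exists_central_mod_of_nilpotent hnil (N := Z) (C := commutator G) hne
  set D := commutator G ⊓ Subgroup.upperCentralSeries G 2 with hD
  have hZ2 : ∀ y ∈ Subgroup.upperCentralSeries G 2, ∀ g : G, ⁅g, y⁆ ∈ Z := by
    intro y hy g
    have h1 : ⁅y, g⁆ ∈ Subgroup.upperCentralSeries G 1 := Subgroup.mem_upperCentralSeries_succ_iff.mp hy g
    rw [Subgroup.upperCentralSeries_one] at h1
    have := Z.inv_mem h1
    rwa [commutatorElement_inv] at this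
  have hcomm : ∀ y ∈ Subgroup.upperCentralSeries G 2, ∀ g ∈ commutator G, ⁅g, y⁆ = 1 := by
    intro y hy g hg
    let φ : G →* Z :=
      { toFun := fun g => ⟨⁅g, y⁆, hZ2 y hy g⟩
        map_one' := by ext; simp
        map_mul' := fun a b => by
          ext
          show ⁅a * b, y⁆ = ⁅a, y⁆ * ⁅b, y⁆
          have e : ⁅a * b, y⁆ = a * ⁅b, y⁆ * a⁻¹ * ⁅a, y⁆ := by simp only [commutatorElement_def]; group
          have h1 := Subgroup.mem_center_iff.mp (hZ2 y hy b) a
          have h2 := Subgroup.mem_center_iff.mp (hZ2 y hy b) ⁅a, y⁆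
          rw [e, h1, mul_inv_cancel_right, h2] }
    have h5 : commutator G ≤ φ.ker := by
      rw [commutator_def, Subgroup.commutator_le]
      intro a _ b _
      rw [MonoidHom.mem_ker, map_commutatorElement, commutatorElement_eq_one_iff_mul_comm]
      ext
      exact (Subgroup.mem_center_iff.mp (φ b).2 (φ a : G))
    exact congrArg Subtype.val (MonoidHom.mem_ker.mp (h5 hg))
  have hDab : IsMulCommutative D := by
    rw [← Subgroup.le_centralizer_iff_isMulCommutative]
    intro a ha
    rw [Subgroup.mem_centralizer_iff]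
    intro b hb
    exact commutatorElement_eq_one_iff_mul_comm.mp (hcomm a ha.2 b hb.1)
  have hDc : D.Characteristic := by rw [hD]; infer_instance
  apply hxZ
  apply h D hDc hDab
  refine ⟨hxG, ?_⟩
  show x ∈ Subgroup.upperCentralSeries G (1 + 1)
  rw [Subgroup.mem_upperCentralSeries_succ_iff]
  intro y
  rw [Subgroup.upperCentralSeries_one, ← commutatorElement_inv]
  exact Z.inv_mem (hx y)

theorem aut_special {p : ℕ} [hp : Fact p.Prime] (hG : IsPGroup p G) (A : Subgroup (MulAut G))
    (hA : Nat.Coprime (Nat.card A) p) (hGA : Subgroup.closure {x : G | ∃ g : G, ∃ a ∈ A, x = g⁻¹ * a g} = ⊤)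
    (hchar : ∀ H : Subgroup G, H.Characteristic → IsMulCommutative H → ∀ a ∈ A, ∀ h ∈ H, a h = h) :
    Cfsg.IsSpecial p G ∧ (∀ g : G, (g ∈ Subgroup.center G ↔ ∀ a ∈ A, a g = g)) := by
  classical
  set Z := Subgroup.center G with hZ
  have hcen : ∀ D : Subgroup G, D.Characteristic → IsMulCommutative D → D ≤ Z := by
    intro D hD hDab d hd
    have h1 : (⊤ : Subgroup G) ≤ Subgroup.centralizer {d} := by
      rw [← hGA, Subgroup.closure_le]
      rintro _ ⟨g, a, ha, rfl⟩
      show g⁻¹ * a g ∈ Subgroup.centralizer {d}
      rw [Subgroup.mem_centralizer_iff]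
      intro y hy
      rw [Set.mem_singleton_iff.mp hy]
      haveI := hD
      have hDn : D.Normal := inferInstance
      have h2 : g * d * g⁻¹ ∈ D := hDn.conj_mem d hd g
      have h3 := hchar D hD hDab a ha _ h2
      rw [map_mul, map_mul, map_inv, hchar D hD hDab a ha d hd] at h3
      calc d * (g⁻¹ * a g) = g⁻¹ * (g * d * g⁻¹) * a g := by group
        _ = g⁻¹ * (a g * d * (a g)⁻¹) * a g := by rw [h3]
        _ = _ := by group
    rw [hZ, Subgroup.mem_center_iff]
    intro g
    exact (Subgroup.mem_centralizer_iff.mp (h1 (Subgroup.mem_top g)) d rfl).symm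
  have hG' : commutator G ≤ Z := commutator_le_center_of_char_abelian hG.isNilpotent hcen
  have hcl := class_two_iff.mpr hG'
  -- fixed points lie in G'
  have hfix : ∀ g : G, (∀ a ∈ A, a g = g) → g ∈ commutator G := by
    intro g hg
    let act : A →* MulAut (Abelianization G) := (CfsgLib.Coprime.mulAutAbelianization G).comp A.subtype
    have hact : ∀ (a : A) (x : G), act a (Abelianization.of x) = Abelianization.of ((a : MulAut G) x) := fun a x => rfl
    haveI : Fintype A := Fintype.ofFinite A
    let N : Abelianization G →* Abelianization G := ∏ a : A, (act a).toMonoidHom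
    have hN : ∀ v, N v = ∏ a : A, act a v := by
      intro v
      simp only [N, MonoidHom.finsetProd_apply]
      rfl
    have hN1 : ∀ x : G, N (Abelianization.of x) = 1 := by
      have h1 : (⊤ : Subgroup G) ≤ (N.comp Abelianization.of).ker := by
        rw [← hGA, Subgroup.closure_le]
        rintro _ ⟨g, a, ha, rfl⟩
        show N (Abelianization.of (g⁻¹ * a g)) = 1
        rw [map_mul, map_inv, map_mul, map_inv, inv_mul_eq_one, hN, hN]
        have h2 : ∀ b : A, act b (Abelianization.of (a g)) = act (b * ⟨a, ha⟩) (Abelianization.of g) := by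
          intro b
          rw [map_mul]; rfl
        simp only [h2]
        exact (Fintype.prod_equiv (Equiv.mulRight (⟨a, ha⟩ : A)) _ (fun b => act b (Abelianization.of g)) (fun b => rfl)).symm
      intro x
      exact h1 (Subgroup.mem_top x)
    have h2 := hN1 g
    rw [hN] at h2
    have h3 : ∀ a : A, act a (Abelianization.of g) = Abelianization.of g := by
      intro a; rw [hact, hg a a.2]
    simp only [h3, Finset.prod_const, Finset.card_univ] at h2
    rw [← Nat.card_eq_fintype_card] at h2
    have h4 : Abelianization.of g = 1 := by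
      obtain ⟨k, hk⟩ := IsPGroup.iff_orderOf.mp (hG.to_quotient (commutator G)) (Abelianization.of g)
      have h5 : orderOf (Abelianization.of g) ∣ Nat.card A := orderOf_dvd_of_pow_eq_one h2
      have hk' : orderOf (Abelianization.of g) = p ^ k := hk
      rw [← orderOf_eq_one_iff]
      rw [hk'] at h5 ⊢
      exact Nat.eq_one_of_dvd_coprimes (Nat.Coprime.pow_right k hA) h5 (dvd_refl _)
    rw [← Abelianization.ker_of, MonoidHom.mem_ker]
    exact h4
  have hZab : IsMulCommutative Z := by rw [hZ]; infer_instance
  have hZfix : ∀ g ∈ Z, ∀ a ∈ A, a g = g := fun g hg a ha => hchar Z inferInstance hZab a ha g hg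
  have hZeq : Z = commutator G := le_antisymm (fun g hg => hfix g (hZfix g hg)) hG'
  -- exponent
  have hexp : ∃ m, ∀ x : G, x ^ p ^ m ∈ Z := by
    obtain ⟨m, hm⟩ := (IsPGroup.iff_card (p := p)).mp hG
    refine ⟨m, fun x => ?_⟩
    rw [← hm, pow_card_eq_one']
    exact Z.one_mem
  have hp1 : ∀ x : G, x ^ p ∈ Z := by
    set m := Nat.find hexp with hm
    have hm1 : ∀ x : G, x ^ p ^ m ∈ Z := Nat.find_spec hexp
    by_cases hm2 : m ≤ 1
    · intro x
      rcases Nat.le_one_iff_eq_zero_or_eq_one.mp hm2 with h | h
      · have := hm1 x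
        rw [h, pow_zero, pow_one] at this
        exact Z.pow_mem this p
      · have := hm1 x
        rwa [h, pow_one] at this
    · exfalso
      push Not at hm2
      have hmin := Nat.find_min hexp (m := m - 1) (by omega)
      apply hmin
      -- E = closure of p^{m-1} powers
      set E := Subgroup.closure {y : G | ∃ x : G, y = x ^ p ^ (m - 1)} with hE
      have hEab : IsMulCommutative E := by
        apply Subgroup.isMulCommutative_closure
        rintro _ ⟨x, rfl⟩ _ ⟨y, rfl⟩
        rw [← commutatorElement_eq_one_iff_mul_comm, comm_pow_left hcl, comm_pow_right hcl, ← pow_mul, ← comm_pow_left hcl,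
          commutatorElement_eq_one_iff_mul_comm]
        have h1 : x ^ (p ^ (m - 1) * p ^ (m - 1)) ∈ Z := by
          rw [← pow_add, show m - 1 + (m - 1) = m + (m - 2) by omega, pow_add, pow_mul]
          exact Z.pow_mem (hm1 x) _
        exact ((Subgroup.mem_center_iff.mp h1) y).symm
      have hEc : E.Characteristic := by
        rw [Subgroup.characteristic_iff_map_le]
        intro φ
        rw [hE, MonoidHom.map_closure]
        apply Subgroup.closure_mono
        rintro _ ⟨_, ⟨x, rfl⟩, rfl⟩
        exact ⟨φ x, by simp⟩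
      intro x
      exact hcen E hEc hEab (Subgroup.subset_closure ⟨x, rfl⟩)
  refine ⟨⟨hG, ?_, hZeq.symm⟩, fun g => ⟨fun hg => hZfix g hg, fun hg => hG' (hfix g hg)⟩⟩
  apply le_antisymm
  · apply frattini_le_of_pow_mem hG Z hp1
    intro x y
    exact hG' (Subgroup.commutator_mem_commutator (Subgroup.mem_top x) (Subgroup.mem_top y))
  · rw [← hZ, hZeq]
    exact CfsgLib.Frattini.commutator_le_frattini_of_nilpotent hG.isNilpotent

end CfsgLib.PG4
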