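import Cfsg.Agent.Lib.PL4
import Cfsg.Prelude.Def_OddOrderLocal

set_option autoImplicit false
set_option linter.style.haveILetI false
set_option linter.unusedVariables false

namespace CfsgLib.PL5

universe u v
variable {G : Type u} [Group G]

open CfsgLib CfsgLib.Coprime CfsgLib.JSub CfsgLib.PL1 CfsgLib.PL2 CfsgLib.PL3 CfsgLib.PL4
open scoped commutatorElement Pointwise

theorem comm_of_card_sq {p : ℕ} [hp : Fact p.Prime] {A : Subgroup G} (h : Nat.card A = p ^ 2) : IsMulCommutative A := by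
  haveI : Finite A := Nat.finite_of_card_ne_zero (by rw [h]; exact pow_ne_zero _ hp.out.ne_zero)
  exact IsPGroup.isMulCommutative_of_card_eq_prime_sq h

/-- Ω₁ of a noncyclic `p`-group with a cyclic subgroup of index `p`, `p` odd -/
theorem omega_cyclic_index [Finite G] {p : ℕ} [hp : Fact p.Prime] (hp2 : p ≠ 2) (hG : IsPGroup p G) {A : Subgroup G} (hA : IsCyclic A)
    (hidx : A.index = p) (hnc : ¬ IsCyclic G) : ∃ Ω : Subgroup G, Ω.Characteristic ∧ IsMulCommutative Ω ∧ (∀ x : G, x ∈ Ω ↔ x ^ p = 1) ∧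
      Nat.card Ω = p ^ 2 := by
  obtain ⟨⟨a, haA⟩, ha⟩ := hA.exists_generator
  have hAz : A = Subgroup.zpowers a := by
    apply le_antisymm
    · intro x hx
      obtain ⟨k, hk⟩ := ha ⟨x, hx⟩
      exact ⟨k, congrArg Subtype.val hk⟩
    · rw [Subgroup.zpowers_le]; exact haA
  rw [hAz] at hidx
  obtain ⟨n, hn⟩ := IsPGroup.iff_card.mp (hG.to_subgroup (Subgroup.zpowers a))
  rw [Nat.card_zpowers] at hn
  obtain ⟨hn1, hhom, b, hb, hbp, t, ht⟩ := cyclic_index hp2 hG hidx hnc hn
  let φ : G →* G := { toFun := fun x => x ^ p, map_one' := one_pow p, map_mul' := hhom }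
  have hφ : ∀ x, φ x = x ^ p := fun _ => rfl
  have hmem : ∀ x : G, x ∈ φ.ker ↔ x ^ p = 1 := fun x => MonoidHom.mem_ker
  have hco : IsCoatom (Subgroup.zpowers a) := CfsgLib.PGrp.isCoatom_of_index_prime hidx
  have hrange : φ.range = Subgroup.zpowers (a ^ p) := by
    apply le_antisymm
    · rintro _ ⟨x, rfl⟩
      have h1 : Subgroup.zpowers a < (Subgroup.zpowers (a ^ p)).comap φ := by
        refine lt_of_le_of_ne (Subgroup.zpowers_le.mpr (Subgroup.mem_zpowers (a ^ p))) fun h => hb ?_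
        rw [h]
        show φ b ∈ Subgroup.zpowers (a ^ p)
        rw [hφ, hbp]; exact one_mem _
      have h2 := hco.2 _ h1
      have h3 : x ∈ (Subgroup.zpowers (a ^ p)).comap φ := by rw [h2]; exact Subgroup.mem_top x
      exact h3
    · rw [Subgroup.zpowers_le]; exact ⟨a, rfl⟩
  have hcard : Nat.card φ.ker = p ^ 2 := by
    have h1 := φ.ker.card_mul_index
    have h2 := (Subgroup.zpowers a).card_mul_index
    rw [Subgroup.index_ker, hrange, Nat.card_zpowers, orderOf_pow_of_dvd hp.out.ne_zero (by rw [hn]; exact dvd_pow_self p (by omega)), hn] at h1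
    rw [hidx, Nat.card_zpowers, hn] at h2
    rw [← h2] at h1
    have h3 : p ^ n = p ^ n / p * p := (Nat.div_mul_cancel (dvd_pow_self p (by omega))).symm
    have hpos : 0 < p ^ n / p := Nat.div_pos (Nat.le_of_dvd (pow_pos hp.out.pos n) (dvd_pow_self p (by omega))) hp.out.pos
    apply Nat.eq_of_mul_eq_mul_right hpos
    rw [h1]
    nth_rewrite 1 [h3]
    ring
  refine ⟨φ.ker, ?_, comm_of_card_sq hcard, hmem, hcard⟩
  rw [Subgroup.characteristic_iff_le_map]
  intro ψ x hx
  refine ⟨ψ.symm x, ?_, by simp⟩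
  show ψ.symm x ∈ φ.ker
  rw [hmem] at hx ⊢
  rw [← map_pow, hx, map_one]

/-- S0645 -/
theorem cyclic_maximal_odd [Finite G] {p : ℕ} [hp : Fact p.Prime] (hp2 : p ≠ 2) (n : ℕ) (hn : 3 ≤ n) (hG : Nat.card G = p ^ n) (C : Subgroup G)
    (hC : IsCyclic C) (hCi : C.index = p) (hna : ∃ x y : G, x * y ≠ y * x) :
    ∃ a b : G, orderOf a = p ^ (n - 1) ∧ orderOf b = p ∧ b ∉ Subgroup.zpowers a ∧ b * a * b⁻¹ = a ^ (1 + p ^ (n - 2)) := by
  have hGp : IsPGroup p G := IsPGroup.of_card hG
  have hnc : ¬ IsCyclic G := by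
    intro h
    obtain ⟨x, y, hxy⟩ := hna
    exact hxy (IsCyclic.commGroup.mul_comm x y)
  obtain ⟨⟨a, haA⟩, ha⟩ := hC.exists_generator
  have hAz : C = Subgroup.zpowers a := by
    apply le_antisymm
    · intro x hx
      obtain ⟨k, hk⟩ := ha ⟨x, hx⟩
      exact ⟨k, congrArg Subtype.val hk⟩
    · rw [Subgroup.zpowers_le]; exact haA
  rw [hAz] at hCi
  have hord : orderOf a = p ^ (n - 1) := by
    have h1 := (Subgroup.zpowers a).card_mul_index
    rw [hCi, Nat.card_zpowers, hG] at h1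
    have h2 : p ^ n = p ^ (n - 1) * p := by rw [← pow_succ]; congr 1; omega
    rw [h2] at h1
    exact Nat.eq_of_mul_eq_mul_right hp.out.pos h1
  obtain ⟨-, -, b, hb, hbp, t, ht⟩ := cyclic_index hp2 hGp hCi hnc hord
  have hn2 : n - 1 - 1 = n - 2 := by omega
  rw [hn2] at ht
  have hco : IsCoatom (Subgroup.zpowers a) := CfsgLib.PGrp.isCoatom_of_index_prime hCi
  have hpt : ¬ (p : ℤ) ∣ t := by
    rintro ⟨s, rfl⟩
    -- then G is abelian
    have h1 : b * a * b⁻¹ = a := by
      rw [ht]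
      have h2 : (1 + (p : ℤ) * s * (p : ℤ) ^ (n - 2)) = 1 + (p : ℤ) ^ (n - 1) * s := by
        have : (p : ℤ) ^ (n - 1) = p * (p : ℤ) ^ (n - 2) := by rw [← pow_succ']; congr 1; omega
        rw [this]; ring
      rw [h2, zpow_add, zpow_one, zpow_mul]
      have h7 : a ^ ((p : ℤ) ^ (n - 1)) = 1 := by
        have := pow_orderOf_eq_one a
        rw [hord] at this
        exact_mod_cast this
      rw [h7, one_zpow, mul_one]
    have hab : a * b = b * a := by
      calc a * b = (b * a * b⁻¹) * b := by rw [h1]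
        _ = b * a := by group
    have hgen : ∀ K : Subgroup G, a ∈ K → b ∈ K → K = ⊤ := by
      intro K ha hbK
      exact hco.2 K (lt_of_le_of_ne (Subgroup.zpowers_le.mpr ha) (fun h => hb (h ▸ hbK)))
    have h3 := hgen (Subgroup.centralizer {a}) (Subgroup.mem_centralizer_singleton_iff.mpr rfl) (Subgroup.mem_centralizer_singleton_iff.mpr hab.symm)
    have h4 := hgen (Subgroup.centralizer {b}) (Subgroup.mem_centralizer_singleton_iff.mpr hab) (Subgroup.mem_centralizer_singleton_iff.mpr rfl)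
    obtain ⟨x, y, hxy⟩ := hna
    apply hxy
    have h5 := hgen (Subgroup.centralizer {x}) (by
      have : x ∈ Subgroup.centralizer {a} := by rw [h3]; exact Subgroup.mem_top x
      exact Subgroup.mem_centralizer_singleton_iff.mpr (Subgroup.mem_centralizer_singleton_iff.mp this).symm) (by
      have : x ∈ Subgroup.centralizer {b} := by rw [h4]; exact Subgroup.mem_top x
      exact Subgroup.mem_centralizer_singleton_iff.mpr (Subgroup.mem_centralizer_singleton_iff.mp this).symm)
    have : y ∈ Subgroup.centralizer {x} := by rw [h5]; exact Subgroup.mem_top y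
    exact (Subgroup.mem_centralizer_singleton_iff.mp this).symm
  -- choose j with j t = 1 mod p
  obtain ⟨j, hj⟩ : ∃ j : ℕ, ((j : ℤ) * t) ≡ 1 [ZMOD p] := by
    haveI : Fact p.Prime := hp
    have ht0 : (t : ZMod p) ≠ 0 := fun h => hpt ((ZMod.intCast_zmod_eq_zero_iff_dvd t p).mp h)
    refine ⟨((t : ZMod p)⁻¹).val, ?_⟩
    rw [← ZMod.intCast_eq_intCast_iff]
    push_cast
    rw [ZMod.natCast_val, ZMod.cast_id', id, inv_mul_cancel₀ ht0]
  have hjp : ¬ p ∣ j := by
    intro h
    have h1 : (p : ℤ) ∣ (j : ℤ) * t := (Int.natCast_dvd_natCast.mpr h).mul_right t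
    have h2 := (Int.modEq_zero_iff_dvd.mpr h1).symm.trans hj
    have h3 := (Int.modEq_iff_dvd.mp h2)
    rw [sub_zero] at h3
    have h4 : p ∣ 1 := by exact_mod_cast h3
    exact hp.out.one_lt.ne' (Nat.dvd_one.mp h4)
  have hb1 : b ≠ 1 := fun h => hb (h ▸ one_mem _)
  have hbo : orderOf b = p := orderOf_eq_prime hbp hb1
  refine ⟨a, b ^ j, hord, ?_, ?_, ?_⟩
  · rw [Nat.Coprime.orderOf_pow, hbo]
    rw [hbo]; exact (Nat.Prime.coprime_iff_not_dvd hp.out).mpr hjp
  · intro h
    apply hb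
    exact CfsgLib.PG5.mem_of_pow_mem hGp (k := (j : ℤ)) (by exact_mod_cast hjp) (by rwa [zpow_natCast])
  · rw [conj_pow_iter ht j]
    -- (1 + t q)^j = 1 + j t q mod p^(n-1)
    have hq2 : (p : ℤ) ^ (n - 1) ∣ ((p : ℤ) ^ (n - 2)) * ((p : ℤ) ^ (n - 2)) := by
      rw [← pow_add]; exact pow_dvd_pow _ (by omega)
    have h1 : ∀ m : ℕ, (1 + t * (p : ℤ) ^ (n - 2)) ^ m ≡ 1 + (m : ℤ) * t * (p : ℤ) ^ (n - 2) [ZMOD (p : ℤ) ^ (n - 1)] := by
      intro m
      induction m with
      | zero => simp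
      | succ m ih =>
        rw [pow_succ]
        refine (ih.mul_right _).trans ?_
        rw [Int.modEq_iff_dvd]
        have h2 : (1 + ((m + 1 : ℕ) : ℤ) * t * (p : ℤ) ^ (n - 2)) - (1 + (m : ℤ) * t * (p : ℤ) ^ (n - 2)) * (1 + t * (p : ℤ) ^ (n - 2)) =
            (((p : ℤ) ^ (n - 2)) * ((p : ℤ) ^ (n - 2))) * (-(m * t * t)) := by push_cast; ring
        rw [h2]
        exact hq2.mul_right _
    have h2 : (1 + t * (p : ℤ) ^ (n - 2)) ^ j ≡ ((1 + p ^ (n - 2) : ℕ) : ℤ) [ZMOD (p : ℤ) ^ (n - 1)] := by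
      refine (h1 j).trans ?_
      push_cast
      apply Int.ModEq.add_left
      obtain ⟨s, hs⟩ := Int.modEq_iff_dvd.mp hj
      rw [Int.modEq_iff_dvd]
      refine ⟨s, ?_⟩
      have : (p : ℤ) ^ (n - 1) = p * (p : ℤ) ^ (n - 2) := by rw [← pow_succ']; congr 1; omega
      calc (p : ℤ) ^ (n - 2) - j * t * (p : ℤ) ^ (n - 2) = (1 - j * t) * (p : ℤ) ^ (n - 2) := by ring
        _ = p * s * (p : ℤ) ^ (n - 2) := by rw [hs]
        _ = (p : ℤ) ^ (n - 1) * s := by rw [this]; ring
    rw [← zpow_natCast, zpow_eq_zpow_iff_modEq, hord]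
    push_cast at h2 ⊢
    exact h2

/-- S0636 -/
theorem exists_normal_in_normal [Finite G] {p : ℕ} [hp : Fact p.Prime] (hp2 : p ≠ 2) (hG : IsPGroup p G) (S : Subgroup G) [hSn : S.Normal]
    (hS : ¬ IsCyclic S) : ∃ A : Subgroup G, A ≤ S ∧ A.Normal ∧ Cfsg.IsElementaryAbelian p A ∧ Nat.card A = p ^ 2 := by
  obtain ⟨A, hA⟩ := (Set.toFinite {A : Subgroup G | A ≤ S ∧ A.Normal ∧ IsCyclic A}).exists_maximal ⟨⊥, bot_le, Subgroup.normal_bot, inferInstance⟩
  have hAS : A < S := lt_of_le_of_ne hA.1.1 fun h => hS (h ▸ hA.1.2.2)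
  obtain ⟨B, hB1, hB2, hB3, hB4⟩ := CfsgLib.PGrp.exists_normal_step hG hA.1.2.1 hSn hAS
  have hBnc : ¬ IsCyclic B := by
    intro h
    have h1 := hA.2 ⟨hB3, hB1, h⟩ hB2
    have h2 : B = A := le_antisymm h1 hB2
    rw [h2] at hB4
    have : 0 < Nat.card A := Nat.card_pos
    nlinarith [hp.out.one_lt]
  have hAc : IsCyclic (A.subgroupOf B) := by
    have := hA.1.2.2
    exact isCyclic_of_surjective (Subgroup.subgroupOfEquivOfLe hB2).symm (Subgroup.subgroupOfEquivOfLe hB2).symm.surjective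
  have hidx : (A.subgroupOf B).index = p := by
    have h14 := Subgroup.card_mul_index (A.subgroupOf B)
    have h15 : Nat.card (A.subgroupOf B) = Nat.card A := Nat.card_congr (Subgroup.subgroupOfEquivOfLe hB2).toEquiv
    rw [h15, hB4] at h14
    exact Nat.eq_of_mul_eq_mul_left Nat.card_pos h14
  obtain ⟨Ω, hΩc, hΩab, hΩ, hΩcard⟩ := omega_cyclic_index hp2 (hG.to_subgroup B) hAc hidx hBnc
  refine ⟨Ω.map B.subtype, (Subgroup.map_subtype_le Ω).trans hB3, inferInstance, ⟨?_, ?_⟩, ?_⟩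
  · exact comm_of_card_sq (p := p) (by rw [Subgroup.card_map_of_injective B.subtype_injective, hΩcard])
  · rintro _ ⟨x, hx, rfl⟩
    exact congrArg Subtype.val ((hΩ x).mp hx)
  · rw [Subgroup.card_map_of_injective B.subtype_injective, hΩcard]

/-- S0638 -/
theorem metacyclic_omega [Finite G] {p : ℕ} [hp : Fact p.Prime] (hp2 : p ≠ 2) (hG : IsPGroup p G) (hnc : ¬ IsCyclic G) (m : ℕ) :
    ∀ N : Subgroup G, N.index ≤ m → ∀ [N.Normal], IsCyclic N → IsCyclic (G ⧸ N) →
      ∃ Ω : Subgroup G, IsMulCommutative Ω ∧ (∀ x : G, x ∈ Ω ↔ x ^ p = 1) ∧ Nat.card Ω = p ^ 2 := by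
  classical
  induction m with
  | zero => intro N hN; exact absurd (Nat.le_zero.mp hN) Subgroup.index_ne_zero_of_finite
  | succ m ih =>
    intro N hNm hNn hNc hQ
    have hNt : N ≠ ⊤ := by
      intro h
      apply hnc
      subst h
      exact isCyclic_of_surjective (Subgroup.topEquiv : (⊤ : Subgroup G) ≃* G) (Subgroup.topEquiv).surjective
    have hQp : IsPGroup p (G ⧸ N) := hG.to_quotient N
    haveI : Nontrivial (G ⧸ N) := QuotientGroup.nontrivial_iff.mpr hNt
    letI := hQ.commGroup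
    let ψ : (G ⧸ N) →* (G ⧸ N) := powMonoidHom p
    have hker : Nat.card ψ.ker = p := by
      apply le_antisymm
      · haveI : Fintype (G ⧸ N) := Fintype.ofFinite _
        have h1 := IsCyclic.card_pow_eq_one_le (α := G ⧸ N) (n := p) hp.out.pos
        have h2 : Nat.card ψ.ker = (Finset.univ.filter fun a : G ⧸ N => a ^ p = 1).card := by
          rw [← Fintype.card_subtype, ← Nat.card_eq_fintype_card]
          exact Nat.card_congr (Equiv.subtypeEquivRight fun x => MonoidHom.mem_ker)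
        rw [h2]
        convert h1
      · obtain ⟨k, hk⟩ := IsPGroup.iff_card.mp hQp
        have hk0 : k ≠ 0 := by
          intro h
          rw [h, pow_zero] at hk
          exact absurd hk Finite.one_lt_card.ne'
        obtain ⟨y, hy⟩ := exists_prime_orderOf_dvd_card' (G := G ⧸ N) p (by rw [hk]; exact dvd_pow_self p hk0)
        have h1 : Subgroup.zpowers y ≤ ψ.ker := by
          rw [Subgroup.zpowers_le, MonoidHom.mem_ker]
          show y ^ p = 1
          rw [← hy, pow_orderOf_eq_one]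
        have h2 := Subgroup.card_le_of_le h1
        rwa [Nat.card_zpowers, hy] at h2
    set R := ψ.ker.comap (QuotientGroup.mk' N) with hR
    have hNR : N ≤ R := CfsgLib.Core2.le_comap_mk N _
    have hmemR : ∀ x : G, x ^ p = 1 → x ∈ R := by
      intro x hx
      rw [hR, Subgroup.mem_comap, MonoidHom.mem_ker]
      show (QuotientGroup.mk' N x) ^ p = 1
      rw [← map_pow, hx, map_one]
    have hidx : (N.subgroupOf R).index = p := by
      have h1 := relIndex_mul_card hNR
      rw [hR, CfsgLib.Hall.card_comap_mk, hker] at h1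
      exact Nat.eq_of_mul_eq_mul_right Nat.card_pos h1
    have hNc' : IsCyclic (N.subgroupOf R) :=
      isCyclic_of_surjective (Subgroup.subgroupOfEquivOfLe hNR).symm (Subgroup.subgroupOfEquivOfLe hNR).symm.surjective
    by_cases hRc : IsCyclic R
    · haveI : R.Normal := by rw [hR]; infer_instance
      have h1 : R.index ≤ m := by
        have h2 := Subgroup.relIndex_mul_index hNR
        have h3 : N.relIndex R = p := hidx
        rw [h3] at h2
        have h4 : 0 < R.index := Nat.pos_of_ne_zero Subgroup.index_ne_zero_of_finite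
        have h5 := hp.out.one_lt
        nlinarith
      apply ih R h1 hRc
      exact isCyclic_of_surjective (QuotientGroup.map N R (MonoidHom.id G) hNR) (QuotientGroup.map_surjective_of_surjective _ _ _ (by
        exact (QuotientGroup.mk'_surjective R).comp Function.surjective_id) _)
    · obtain ⟨Ω, hΩc, hΩab, hΩ, hΩcard⟩ := omega_cyclic_index hp2 (hG.to_subgroup R) hNc' hidx hRc
      refine ⟨Ω.map R.subtype, comm_of_card_sq (p := p) (by rw [Subgroup.card_map_of_injective R.subtype_injective, hΩcard]), fun x => ?_,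
        by rw [Subgroup.card_map_of_injective R.subtype_injective, hΩcard]⟩
      constructor
      · rintro ⟨y, hy, rfl⟩
        exact congrArg Subtype.val ((hΩ y).mp hy)
      · intro hx
        exact ⟨⟨x, hmemR x hx⟩, (hΩ _).mpr (Subtype.ext hx), rfl⟩

end CfsgLib.PL5
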