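import Mathlib

/-!
# Involutions of PSL_3(4)
-/

set_option autoImplicit false
set_option linter.all false

namespace CfsgLib.PSL34

open Matrix

variable {F : Type*} [Field F]

/-- the standard transvection -/
def J : SpecialLinearGroup (Fin 3) F := ⟨!![1, 0, 0; 1, 1, 0; 0, 0, 1], by simp [Matrix.det_fin_three]⟩

theorem conj_std (Y : SpecialLinearGroup (Fin 3) F) (h : ((Y : Matrix (Fin 3) (Fin 3) F) - 1) * ((Y : Matrix (Fin 3) (Fin 3) F) - 1) = 0)
    (hN : (Y : Matrix (Fin 3) (Fin 3) F) - 1 ≠ 0) : ∃ P : SpecialLinearGroup (Fin 3) F, Y * P = P * J := by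
  classical
  set N : Matrix (Fin 3) (Fin 3) F := (Y : Matrix (Fin 3) (Fin 3) F) - 1 with hNdef
  let f : (Fin 3 → F) →ₗ[F] (Fin 3 → F) := N.mulVecLin
  have hff : ∀ v, f (f v) = 0 := by
    intro v
    show N.mulVec (N.mulVec v) = 0
    rw [Matrix.mulVec_mulVec, h, Matrix.zero_mulVec]
  obtain ⟨v, hv⟩ : ∃ v, f v ≠ 0 := by
    by_contra hcon
    push Not at hcon
    apply hN
    apply Matrix.mulVec_injective
    funext v
    rw [Matrix.zero_mulVec]
    exact hcon v
  set w := f v with hw
  have hfw : f w = 0 := hff v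
  obtain ⟨u, hu, huw⟩ : ∃ u, f u = 0 ∧ u ∉ Submodule.span F {w} := by
    by_contra hcon
    push Not at hcon
    have h1 : LinearMap.ker f ≤ Submodule.span F {w} := fun u hu => hcon u hu
    have h2 := Submodule.finrank_mono h1
    have h3 := finrank_span_le_card (R := F) ({w} : Set (Fin 3 → F))
    have h4 := LinearMap.finrank_range_add_finrank_ker f
    have h5 : LinearMap.range f ≤ LinearMap.ker f := by
      rintro _ ⟨x, rfl⟩
      exact hff x
    have h6 := Submodule.finrank_mono h5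
    simp at h3 h4
    omega
  have hlin : LinearIndependent F (Matrix.of ![v, w, u]).row := by
    rw [Fintype.linearIndependent_iff]
    intro g hg
    rw [Fin.sum_univ_three] at hg
    have hg' : g 0 • v + g 1 • w + g 2 • u = 0 := hg
    have h1 := congrArg f hg'
    rw [map_add, map_add, map_smul, map_smul, map_smul, hfw, hu, map_zero, smul_zero, smul_zero, add_zero, add_zero] at h1
    have hg0 : g 0 = 0 := (smul_eq_zero.1 h1).resolve_right hv
    rw [hg0, zero_smul, zero_add] at hg'
    have hg2 : g 2 = 0 := by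
      by_contra hne
      apply huw
      rw [Submodule.mem_span_singleton]
      refine ⟨-(g 2)⁻¹ * g 1, ?_⟩
      have h3 : g 2 • u = -(g 1 • w) := by
        rw [eq_neg_iff_add_eq_zero, add_comm]; exact hg'
      have h4 : u = (g 2)⁻¹ • (g 2 • u) := by rw [smul_smul, inv_mul_cancel₀ hne, one_smul]
      rw [h4, h3, smul_neg, smul_smul, neg_mul, neg_smul]
    rw [hg2, zero_smul, add_zero] at hg'
    have hg1 : g 1 = 0 := (smul_eq_zero.1 hg').resolve_right hv
    intro i
    fin_cases i
    · exact hg0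
    · exact hg1
    · exact hg2
  have hdet : (Matrix.of ![v, w, u]).det ≠ 0 := by
    have := Matrix.linearIndependent_rows_iff_isUnit.1 hlin
    exact (Matrix.isUnit_iff_isUnit_det _).1 this |>.ne_zero
  set δ := (Matrix.of ![v, w, u]).det with hδ
  set u' : Fin 3 → F := δ⁻¹ • u with hu'
  have hdet' : ((Matrix.of ![v, w, u'])ᵀ).det = 1 := by
    rw [Matrix.det_transpose]
    have hgen : ∀ c : F, (Matrix.of ![v, w, c • u]).det = c * (Matrix.of ![v, w, u]).det := by
      intro c
      rw [Matrix.det_fin_three, Matrix.det_fin_three]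
      simp
      ring
    rw [hu', hgen, ← hδ, inv_mul_cancel₀ hdet]
  have hYv : ∀ x : Fin 3 → F, (Y : Matrix (Fin 3) (Fin 3) F).mulVec x = x + f x := by
    intro x
    show _ = x + N.mulVec x
    rw [hNdef, Matrix.sub_mulVec, Matrix.one_mulVec]
    abel
  refine ⟨⟨(Matrix.of ![v, w, u'])ᵀ, hdet'⟩, ?_⟩
  apply Subtype.ext
  show (Y : Matrix (Fin 3) (Fin 3) F) * (Matrix.of ![v, w, u'])ᵀ = (Matrix.of ![v, w, u'])ᵀ * !![1, 0, 0; 1, 1, 0; 0, 0, 1]
  have e0 := hYv v
  have e1 := hYv w
  have e2 := hYv u'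
  rw [hfw, add_zero] at e1
  rw [show f u' = 0 by rw [hu', map_smul, hu, smul_zero], add_zero] at e2
  ext i j
  have e0' := congrFun e0 i
  have e1' := congrFun e1 i
  have e2' := congrFun e2 i
  simp only [Matrix.mulVec, dotProduct, Fin.sum_univ_three, Pi.add_apply] at e0' e1' e2'
  fin_cases j
  · simp [Matrix.mul_apply, Fin.sum_univ_three]
    rw [e0']
  · simp [Matrix.mul_apply, Fin.sum_univ_three]
    rw [e1']
  · simp only [Matrix.mul_apply, Fin.sum_univ_three, Matrix.transpose_apply, Matrix.of_apply]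
    simp
    rw [e2']

theorem s0820 {F : Type*} [Field F] [Fintype F] (hF : Fintype.card F = 4) (x y : Matrix.ProjectiveSpecialLinearGroup (Fin 3) F)
    (hx : orderOf x = 2) (hy : orderOf y = 2) : IsConj x y := by
  classical
  haveI : CharP F 2 := by
    obtain ⟨p, hp⟩ := CharP.exists F
    haveI := hp
    obtain ⟨n, hpp, hc⟩ := FiniteField.card F p
    rw [hF] at hc
    have h2 : p ∣ 4 := by rw [hc]; exact dvd_pow_self _ n.2.ne'
    have h3 : p = 2 := by
      have h4 : p ∣ 2 ^ 2 := h2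
      exact (Nat.prime_dvd_prime_iff_eq hpp Nat.prime_two).1 (hpp.dvd_of_dvd_pow h4)
    rw [← h3]; exact hp
  have key : ∀ x : Matrix.ProjectiveSpecialLinearGroup (Fin 3) F, orderOf x = 2 →
      ∃ P : SpecialLinearGroup (Fin 3) F, x = (QuotientGroup.mk (P * J * P⁻¹)) := by
    intro x hx
    obtain ⟨X, rfl⟩ := QuotientGroup.mk_surjective x
    have h1 : X ^ 2 ∈ Subgroup.center (SpecialLinearGroup (Fin 3) F) := by
      rw [← QuotientGroup.eq_one_iff]
      have := pow_orderOf_eq_one (QuotientGroup.mk X : Matrix.ProjectiveSpecialLinearGroup (Fin 3) F)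
      rw [hx] at this
      exact this
    obtain ⟨c, hc3, hc⟩ := Matrix.SpecialLinearGroup.mem_center_iff.1 h1
    rw [Fintype.card_fin] at hc3
    let Z : SpecialLinearGroup (Fin 3) F := ⟨Matrix.scalar (Fin 3) c, by simp [Matrix.det_fin_three, ← hc3]⟩
    have hZ : Z ∈ Subgroup.center (SpecialLinearGroup (Fin 3) F) :=
      Matrix.SpecialLinearGroup.mem_center_iff.2 ⟨c, by rw [Fintype.card_fin]; exact hc3, rfl⟩
    have hY : (QuotientGroup.mk (Z * X) : Matrix.ProjectiveSpecialLinearGroup (Fin 3) F) = QuotientGroup.mk X := by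
      rw [QuotientGroup.mk_mul, (QuotientGroup.eq_one_iff Z).2 hZ, one_mul]
    have hYY : (Z * X) * (Z * X) = 1 := by
      have h2 : (Z * X) * (Z * X) = Z * Z * X ^ 2 := by
        rw [pow_two, mul_assoc, ← mul_assoc X Z X, (Subgroup.mem_center_iff.1 hZ X)]
        simp [mul_assoc]
      rw [h2]
      apply Subtype.ext
      rw [Matrix.SpecialLinearGroup.coe_mul, Matrix.SpecialLinearGroup.coe_mul, ← hc]
      show Matrix.scalar (Fin 3) c * Matrix.scalar (Fin 3) c * Matrix.scalar (Fin 3) c = 1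
      rw [← map_mul, ← map_mul, show c * c * c = 1 by rw [← hc3]; ring, map_one]
    obtain ⟨P, hP⟩ := conj_std (Z * X) (by
      have h3 : ((Z * X : SpecialLinearGroup (Fin 3) F) : Matrix (Fin 3) (Fin 3) F) * ((Z * X : SpecialLinearGroup (Fin 3) F) : Matrix (Fin 3) (Fin 3) F) = 1 := by
        rw [← Matrix.SpecialLinearGroup.coe_mul, hYY]; rfl
      have h4 : (1 : Matrix (Fin 3) (Fin 3) F) + 1 = 0 := CharTwo.add_self_eq_zero _
      have h5 : ∀ A : Matrix (Fin 3) (Fin 3) F, A + A = 0 := fun A => CharTwo.add_self_eq_zero A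
      rw [sub_mul, mul_sub, mul_sub, h3, mul_one, one_mul, mul_one]
      generalize ((Z * X : SpecialLinearGroup (Fin 3) F) : Matrix (Fin 3) (Fin 3) F) = A
      have h6 : 1 - A - (A - 1) = (1 + 1) - (A + A) := by abel
      rw [h6, h4, h5, sub_zero]) (by
      intro h3
      rw [sub_eq_zero] at h3
      have h4 : Z * X = 1 := Subtype.ext h3
      rw [← hY, h4] at hx
      rw [QuotientGroup.mk_one, orderOf_one] at hx
      omega)
    refine ⟨P, ?_⟩
    rw [← hY]
    congr 1
    rw [← hP]; group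
  obtain ⟨P, hP⟩ := key x hx
  obtain ⟨Q, hQ⟩ := key y hy
  rw [isConj_iff]
  refine ⟨QuotientGroup.mk (Q * P⁻¹), ?_⟩
  rw [hP, hQ, ← QuotientGroup.mk_inv, ← QuotientGroup.mk_mul, ← QuotientGroup.mk_mul]
  congr 1
  group

end CfsgLib.PSL34
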