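import Mathlib

/-!
# No element of order 15 in PSL_3(4)
-/

set_option autoImplicit false
set_option linter.all false

namespace CfsgLib.PSL34

open Matrix

def ad (i j : Fin 4) : Fin 4 := i ^^^ j
def mu : Fin 4 → Fin 4 → Fin 4 := ![![0,0,0,0], ![0,1,2,3], ![0,2,3,1], ![0,3,1,2]]

def stepT (a b : Fin 4) (s : Fin 4 × Fin 4 × Fin 4) : Fin 4 × Fin 4 × Fin 4 :=
  (ad (mu a s.1) s.2.1, ad (mu b s.1) s.2.2, s.1)

def st (a b : Fin 4) (n : ℕ) : Fin 4 × Fin 4 × Fin 4 := (stepT a b)^[n] (0, 0, 1)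

theorem table : ∀ a b : Fin 4, ((st a b 5).1 = 0 ∧ (st a b 5).2.1 = 0) ∨ st a b 21 = (0, 0, 1) ∨ st a b 12 = (0, 0, 1) := by
  decide +kernel

section
variable {F : Type*} [Field F]

def ff (w : F) : Fin 4 → F := ![0, 1, w, w + 1]

theorem ff_ad {w : F} (h2 : (1 : F) + 1 = 0) (i j : Fin 4) : ff w (ad i j) = ff w i + ff w j := by
  have h3 : ∀ x : F, x + x = 0 := fun x => by
    have : x + x = x * (1 + 1) := by ring
    rw [this, h2, mul_zero]
  have h2' : (2 : F) = 0 := by rw [← one_add_one_eq_two]; exact h2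
  fin_cases i <;> fin_cases j <;> simp [ff, ad] <;> first | rfl | (ring1; done) | (linear_combination (-w) * h2') | (linear_combination (-(1:F)) * h2') | (linear_combination (-(w + 1)) * h2') | (linear_combination (w) * h2') | (linear_combination (1:F) * h2') | (linear_combination ((w + 1)) * h2')

theorem ff_mu {w : F} (h2 : (1 : F) + 1 = 0) (hw : w * w = w + 1) (i j : Fin 4) : ff w (mu i j) = ff w i * ff w j := by
  have h2' : (2 : F) = 0 := by rw [← one_add_one_eq_two]; exact h2
  fin_cases i <;> fin_cases j <;> simp [ff, mu] <;> first | rfl | (linear_combination (-(1:F)) * hw) | (linear_combination (-(1:F)) * hw - (w + 1) * h2') | (linear_combination (-(1:F)) * hw - w * h2') | (linear_combination (-(1:F)) * hw - (w) * h2' - h2')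

theorem ch (X : Matrix (Fin 3) (Fin 3) F) (hd : X.det = 1) : ∃ a b : F, X ^ 3 = a • X ^ 2 + b • X + 1 := by
  refine ⟨X 0 0 + X 1 1 + X 2 2, -(X 0 0 * X 1 1 - X 0 1 * X 1 0 + X 0 0 * X 2 2 - X 0 2 * X 2 0 + X 1 1 * X 2 2 - X 1 2 * X 2 1), ?_⟩
  rw [Matrix.det_fin_three] at hd
  rw [pow_succ, pow_two]
  ext i j
  fin_cases i <;> fin_cases j <;>
    simp [Matrix.mul_apply, Fin.sum_univ_three] <;> first | (linear_combination hd) | ring

end

theorem s0819 {F : Type*} [Field F] [Fintype F] (hF : Fintype.card F = 4) (g : Matrix.ProjectiveSpecialLinearGroup (Fin 3) F) :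
    orderOf g ≠ 15 := by
  classical
  intro hg
  have hcar : ∀ x : F, x ^ 4 = x := fun x => by rw [← hF]; exact FiniteField.pow_card x
  haveI : CharP F 2 := by
    obtain ⟨p, hp⟩ := CharP.exists F
    haveI := hp
    obtain ⟨n, hpp, hc⟩ := FiniteField.card F p
    rw [hF] at hc
    have h2 : p ∣ 4 := by rw [hc]; exact dvd_pow_self _ n.2.ne'
    have h3 : p = 2 := by
      have h4 : p ∣ 2 ^ 2 := h2
      exact (Nat.prime_dvd_prime_iff_eq hpp Nat.prime_two).1 (hpp.dvd_of_dvd_pow h4)
    rw [← h3]; exact hp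
  have h2 : (1 : F) + 1 = 0 := CharTwo.add_self_eq_zero 1
  have h2' : (2 : F) = 0 := by rw [← one_add_one_eq_two]; exact h2
  obtain ⟨w, hw0, hw1⟩ : ∃ w : F, w ≠ 0 ∧ w ≠ 1 := by
    by_contra hcon
    push Not at hcon
    have : (Finset.univ : Finset F) ⊆ {0, 1} := by
      intro x _
      by_cases hx : x = 0
      · simp [hx]
      · simp [hcon x hx]
    have h3 := Finset.card_le_card this
    rw [Finset.card_univ, hF] at h3
    have h4 : ({0, 1} : Finset F).card ≤ 2 := Finset.card_le_two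
    omega
  have hw : w * w = w + 1 := by
    have h3 : w * (w - 1) * (w * w + w + 1) = 0 := by linear_combination hcar w
    have h4 := (mul_eq_zero.1 h3).resolve_left (mul_ne_zero hw0 (sub_ne_zero.2 hw1))
    linear_combination h4 - (w + 1) * h2'
  have hsurj : ∀ x : F, ∃ i : Fin 4, ff w i = x := by
    have hinj : Function.Injective (ff w) := by
      have a1 : (0 : F) ≠ 1 := zero_ne_one
      have a3 : w + 1 ≠ 0 := fun h => hw1 (by linear_combination h - h2')
      have a4 : w + 1 ≠ 1 := fun h => hw0 (by linear_combination h)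
      have a5 : w + 1 ≠ w := fun h => a1 (by linear_combination -h)
      intro i j hij
      fin_cases i <;> fin_cases j <;> simp [ff] at hij ⊢ <;> first | exact a1 hij | exact a1 hij.symm | exact hw0 hij | exact hw0 hij.symm | exact hw1 hij | exact hw1 hij.symm | exact a3 hij | exact a3 hij.symm | exact a4 hij | exact a4 hij.symm | exact a5 hij | exact a5 hij.symm
    have hb : Function.Bijective (ff w) := by
      rw [Fintype.bijective_iff_injective_and_card]
      exact ⟨hinj, by rw [hF]; rfl⟩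
    exact hb.2
  obtain ⟨X, rfl⟩ := QuotientGroup.mk_surjective g
  obtain ⟨a, b, hab⟩ := ch (X : Matrix (Fin 3) (Fin 3) F) X.2
  obtain ⟨i, rfl⟩ := hsurj a
  obtain ⟨j, rfl⟩ := hsurj b
  have hpow : ∀ n : ℕ, (X : Matrix (Fin 3) (Fin 3) F) ^ n = ff w (st i j n).1 • (X : Matrix (Fin 3) (Fin 3) F) ^ 2 + ff w (st i j n).2.1 • (X : Matrix (Fin 3) (Fin 3) F) + ff w (st i j n).2.2 • 1 := by
    intro n
    induction n with
    | zero =>
      simp [st, ff]
    | succ n ih =>
      have hs : st i j (n + 1) = stepT i j (st i j n) := by rw [st, Function.iterate_succ_apply']; rfl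
      rw [pow_succ, ih, hs, stepT]
      simp only [ff_ad h2, ff_mu h2 hw]
      rw [add_mul, add_mul, smul_mul_assoc, smul_mul_assoc, smul_mul_assoc, one_mul, ← pow_succ, hab, ← pow_two]
      simp only [smul_add, add_smul, smul_smul]
      rw [mul_comm (ff w (st i j n).1), mul_comm (ff w (st i j n).1)]
      abel
  have horder : ∀ n : ℕ, (∃ c : F, (X : Matrix (Fin 3) (Fin 3) F) ^ n = c • 1) → orderOf (QuotientGroup.mk X : Matrix.ProjectiveSpecialLinearGroup (Fin 3) F) ∣ n := by
    rintro n ⟨c, hc⟩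
    apply orderOf_dvd_of_pow_eq_one
    show (QuotientGroup.mk (X ^ n) : Matrix.ProjectiveSpecialLinearGroup (Fin 3) F) = 1
    rw [QuotientGroup.eq_one_iff, Matrix.SpecialLinearGroup.mem_center_iff]
    have hc' : Matrix.scalar (Fin 3) c = (X : Matrix (Fin 3) (Fin 3) F) ^ n := by
      rw [hc, Matrix.scalar_apply, Matrix.smul_one_eq_diagonal]
    refine ⟨c, ?_, by rw [hc', Matrix.SpecialLinearGroup.coe_pow]⟩
    have h5 : ((X : Matrix (Fin 3) (Fin 3) F) ^ n).det = 1 := by rw [Matrix.det_pow, X.2, one_pow]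
    rw [← hc'] at h5
    rw [← h5]
    simp
  have hf0 : ff w 0 = 0 := rfl
  have hf1 : ff w 1 = 1 := rfl
  rcases table i j with ⟨h5, h6⟩ | h5 | h5
  · have := horder 5 ⟨ff w (st i j 5).2.2, by
      rw [hpow 5, h5, h6, hf0, zero_smul, zero_smul, zero_add, zero_add]⟩
    rw [hg] at this
    omega
  · have := horder 21 ⟨1, by
      rw [hpow 21, h5]
      simp only [hf0, hf1, zero_smul, zero_add]⟩
    rw [hg] at this
    omega
  · have := horder 12 ⟨1, by
      rw [hpow 12, h5]
      simp only [hf0, hf1, zero_smul, zero_add]⟩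
    rw [hg] at this
    omega

end CfsgLib.PSL34
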