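import Mathlib
import Cfsg.Prelude.Def_Characters
import Cfsg.Agent.Lib.CharBasic
import Cfsg.Agent.Lib.CharBasic2

/-!
# Permutation characters
-/

set_option autoImplicit false
set_option linter.style.haveILetI false
set_option linter.unusedSectionVars false

open scoped ComplexConjugate

namespace CfsgLib.PermChar

open Cfsg CfsgLib.CharBasic MulAction

universe u v

variable {G : Type u} [Group G]

theorem perm_apply (X : Type v) [MulAction G X] [Finite X] (g : G) : (Representation.ofMulAction ℂ G X).character g = (Nat.card (fixedBy X g) : ℂ) := by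
  classical
  haveI : Fintype X := Fintype.ofFinite X
  rw [Representation.character, LinearMap.trace_eq_matrix_trace ℂ (MonoidAlgebra.basis X ℂ), Matrix.trace]
  have h1 : ∀ x : X, (LinearMap.toMatrix (MonoidAlgebra.basis X ℂ) (MonoidAlgebra.basis X ℂ) (Representation.ofMulAction ℂ G X g)).diag x = if g • x = x then (1 : ℂ) else 0 := by
    intro x
    rw [Matrix.diag_apply, LinearMap.toMatrix_apply, MonoidAlgebra.basis_apply, Representation.ofMulAction_single]
    show (Finsupp.single (g • x) (1 : ℂ)) x = _
    rw [Finsupp.single_apply]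
  rw [Finset.sum_congr rfl (fun x _ => h1 x), Finset.sum_boole]
  congr 1
  rw [← Fintype.card_subtype, ← Nat.card_eq_fintype_card]
  rfl

theorem isCharacter_perm (X : Type v) [MulAction G X] [Finite X] : IsCharacter G (fun g => (Nat.card (fixedBy X g) : ℂ)) := by
  haveI : Module.Finite ℂ (MonoidAlgebra ℂ X) := Module.Finite.of_basis (MonoidAlgebra.basis X ℂ)
  have := isCharacter_character (Representation.ofMulAction ℂ G X)
  have h : (Representation.ofMulAction ℂ G X).character = fun g => (Nat.card (fixedBy X g) : ℂ) := funext (perm_apply X)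
  rwa [h] at this

/-- Burnside's lemma as an inner product -/
theorem inner_one [Fintype G] (X : Type v) [MulAction G X] [Finite X] : classInner (fun g : G => (Nat.card (fixedBy X g) : ℂ)) (fun _ => 1) = (Nat.card (orbitRel.Quotient G X) : ℂ) := by
  classical
  haveI : Fintype X := Fintype.ofFinite X
  haveI : Fintype (Quotient (orbitRel G X)) := Fintype.ofFinite _
  have h := sum_card_fixedBy_eq_card_orbits_mul_card_group G X
  rw [classInner]
  simp only [map_one, mul_one]
  have h1 : ∑ g : G, (Nat.card (fixedBy X g) : ℂ) = (Nat.card (orbitRel.Quotient G X) : ℂ) * Nat.card G := by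
    have h2 : ∑ g : G, Nat.card (fixedBy X g) = Nat.card (orbitRel.Quotient G X) * Nat.card G := by
      simp only [Nat.card_eq_fintype_card]
      convert h using 2
    exact_mod_cast h2
  rw [h1]
  have h3 : (Nat.card G : ℂ) ≠ 0 := card_ne_zero
  field_simp

theorem fixedBy_prod (X : Type v) [MulAction G X] (g : G) : Nat.card (fixedBy (X × X) g) = Nat.card (fixedBy X g) ^ 2 := by
  rw [sq, ← Nat.card_prod]
  exact Nat.card_congr
    { toFun := fun p => (⟨p.1.1, (Prod.ext_iff.mp p.2).1⟩, ⟨p.1.2, (Prod.ext_iff.mp p.2).2⟩)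
      invFun := fun q => ⟨(q.1.1, q.2.1), Prod.ext q.1.2 q.2.2⟩
      left_inv := fun p => rfl
      right_inv := fun q => rfl }

theorem inner_self_perm [Fintype G] (X : Type v) [MulAction G X] [Finite X] :
    classInner (fun g : G => (Nat.card (fixedBy X g) : ℂ)) (fun g => (Nat.card (fixedBy X g) : ℂ)) = (Nat.card (orbitRel.Quotient G (X × X)) : ℂ) := by
  rw [← inner_one, classInner, classInner]
  congr 1
  apply Finset.sum_congr rfl
  intro g _
  rw [fixedBy_prod, Complex.conj_natCast, map_one]
  push_cast
  ring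

/-- the reduced permutation character -/
theorem isCharacter_sub_one [Fintype G] (X : Type v) [MulAction G X] [Finite X] [Nonempty X] : IsCharacter G (fun g => (Nat.card (fixedBy X g) : ℂ) - 1) := by
  classical
  have h := isCharacter_perm (G := G) X
  obtain ⟨m, hm⟩ := IsCharacter.exists_nat_coeff h
  have h1 : classInner (fun g : G => (Nat.card (fixedBy X g) : ℂ)) (irrOne G : G → ℂ) = m (irrOne G) := by
    rw [hm, classInner_sum_smul_left]
  have h2 : (irrOne G : G → ℂ) = fun _ => 1 := funext (fun g => irrOne_apply g)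
  rw [h2, inner_one] at h1
  have h3 : m (irrOne G) = Nat.card (orbitRel.Quotient G X) := by exact_mod_cast h1.symm
  have h4 : 1 ≤ m (irrOne G) := by
    rw [h3]
    haveI : Finite (orbitRel.Quotient G X) := Quotient.finite _
    haveI : Nonempty (orbitRel.Quotient G X) := ⟨Quotient.mk _ (Classical.arbitrary X)⟩
    exact Nat.card_pos
  have h5 : (fun g => (Nat.card (fixedBy X g) : ℂ) - 1) = ∑ χ : IrrCharacter G, ((if χ = irrOne G then m χ - 1 else m χ : ℕ) : ℂ) • (χ : G → ℂ) := by
    have h6 : ∀ χ : IrrCharacter G, ((if χ = irrOne G then m χ - 1 else m χ : ℕ) : ℂ) • (χ : G → ℂ) = (m χ : ℂ) • (χ : G → ℂ) - if χ = irrOne G then (χ : G → ℂ) else 0 := by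
      intro χ
      by_cases hχ : χ = irrOne G
      · rw [if_pos hχ, if_pos hχ, hχ, Nat.cast_sub h4, Nat.cast_one, sub_smul, one_smul]
      · rw [if_neg hχ, if_neg hχ, sub_zero]
    rw [Finset.sum_congr rfl (fun χ _ => h6 χ), Finset.sum_sub_distrib, ← hm, Finset.sum_ite_eq' Finset.univ (irrOne G), if_pos (Finset.mem_univ _), h2]
    rfl
  rw [h5]
  exact isCharacter_nat_comb _

end CfsgLib.PermChar
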