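import Mathlib
import Cfsg.Agent.Lib.PermG1

set_option autoImplicit false

namespace CfsgLib.PermG2

open MulAction CfsgLib.PermG1

universe u

variable {α : Type u}

theorem trans_map (G : Subgroup (Equiv.Perm α)) (M : Subgroup G) (h : IsPretransitive M α) :
    IsPretransitive (M.map G.subtype) α := by
  refine ⟨fun a b => ?_⟩
  obtain ⟨m, hm⟩ := exists_smul_eq M a b
  exact ⟨⟨(m : G), Subgroup.mem_map.2 ⟨m, m.2, rfl⟩⟩, hm⟩

theorem stab_map (G : Subgroup (Equiv.Perm α)) (M : Subgroup G) (a : α)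
    (h : stabilizer (M.map G.subtype) a = ⊥) : stabilizer M a = ⊥ := by
  rw [Subgroup.eq_bot_iff_forall] at h ⊢
  intro x hx
  have h1 := h ⟨((x : G) : Equiv.Perm α), Subgroup.mem_map.2 ⟨x, x.2, rfl⟩⟩ hx
  apply Subtype.ext
  apply Subtype.ext
  have h2 : (((x : G) : Equiv.Perm α)) = 1 := congrArg (fun z : M.map G.subtype => (z : Equiv.Perm α)) h1
  exact h2

theorem central_of_mem (G : Subgroup (Equiv.Perm α)) (M N : Subgroup G)
    (h : ∀ m ∈ M, ∀ n ∈ N, m * n = n * m) {n : G} (hn : n ∈ N) :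
    (n : Equiv.Perm α) ∈ Subgroup.centralizer ((M.map G.subtype : Subgroup (Equiv.Perm α)) : Set (Equiv.Perm α)) := by
  rw [Subgroup.mem_centralizer_iff]
  rintro _ ⟨m, hm, rfl⟩
  exact congrArg Subtype.val (h m hm n hn)

/-- if `N` centralises `M` and both are transitive then both are regular and each other's
centralisers -/
theorem regular_of_commute (G : Subgroup (Equiv.Perm α)) (M N : Subgroup G)
    (h : ∀ m ∈ M, ∀ n ∈ N, m * n = n * m) (hM : IsPretransitive M α) (hN : IsPretransitive N α) (a₀ : α) :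
    (∀ a : α, stabilizer M a = ⊥) ∧
    Subgroup.centralizer ((M.map G.subtype : Subgroup (Equiv.Perm α)) : Set (Equiv.Perm α)) =
      N.map G.subtype := by
  haveI := trans_map G M hM
  have hC : IsPretransitive (Subgroup.centralizer ((M.map G.subtype : Subgroup (Equiv.Perm α)) : Set (Equiv.Perm α))) α := by
    refine ⟨fun a b => ?_⟩
    obtain ⟨n, hn⟩ := exists_smul_eq N a b
    exact ⟨⟨((n : G) : Equiv.Perm α), central_of_mem G M N h n.2⟩, hn⟩
  refine ⟨fun a => stab_map G M a ((centralizer_transitive_iff _).1 hC a), ?_⟩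
  apply le_antisymm
  · intro c hc
    obtain ⟨n, hn⟩ := exists_smul_eq N a₀ (c a₀)
    have hn' : ((n : G) : Equiv.Perm α) a₀ = c a₀ := hn
    have h1 : ((n : G) : Equiv.Perm α)⁻¹ * c = 1 := by
      apply central_eq_one (M.map G.subtype) (a := a₀)
      · exact mul_mem (inv_mem (central_of_mem G M N h n.2)) hc
      · rw [Equiv.Perm.mul_apply, ← hn']
        exact Equiv.symm_apply_apply _ _
    rw [inv_mul_eq_one] at h1
    exact Subgroup.mem_map.2 ⟨n, n.2, h1⟩
  · rintro _ ⟨n, hn, rfl⟩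
    exact central_of_mem G M N h hn

theorem commute_of_inf_bot {G : Type*} [Group G] (M N : Subgroup G) [M.Normal] [N.Normal]
    (h : M ⊓ N = ⊥) : ∀ m ∈ M, ∀ n ∈ N, m * n = n * m := by
  intro m hm n hn
  exact Subgroup.commute_of_normal_of_disjoint M N ‹_› ‹_› (disjoint_iff.2 h) m n hm hn

theorem min_inf {G : Type*} [Group G] (M N : Subgroup G) [M.Normal] [N.Normal] (hM : M ≠ ⊥) (hN : N ≠ ⊥)
    (hMmin : ∀ L : Subgroup G, L.Normal → L ≤ M → L = ⊥ ∨ L = M)
    (hNmin : ∀ L : Subgroup G, L.Normal → L ≤ N → L = ⊥ ∨ L = N) : M = N ∨ M ⊓ N = ⊥ := by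
  rcases hMmin (M ⊓ N) inferInstance inf_le_left with h | h
  · exact Or.inr h
  · left
    rcases hNmin M inferInstance (h ▸ inf_le_right) with h' | h'
    · exact absurd h' hM
    · exact h'

end CfsgLib.PermG2
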