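import Mathlib
import Cfsg.Agent.Lib.PermG3

set_option autoImplicit false

/-! Regular normal subgroups of multiply primitive groups. -/

namespace CfsgLib.PermJ1

open MulAction SubMulAction
open scoped Pointwise

universe u v

variable {G : Type v} [Group G] {X : Type u} [MulAction G X]

theorem block_compl [Finite X] {s : Set X} (h : IsPreprimitive (fixingSubgroup G s) (ofFixingSubgroup G s))
    (B : Set X) (hB : B ⊆ sᶜ)
    (hblock : ∀ g : G, (∀ x ∈ s, g • x = x) → ∀ y ∈ B, g • y ∈ B → ∀ z ∈ B, g • z ∈ B) :
    B.Subsingleton ∨ B = sᶜ := by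
  classical
  let B' : Set (ofFixingSubgroup G s) := {x | (x : X) ∈ B}
  have hB' : IsBlock (fixingSubgroup G s) B' := by
    rw [isBlock_iff_smul_eq_of_mem]
    intro g y hy hgy
    have hfix : ∀ x ∈ s, (g : G) • x = x := fun x hx => (mem_fixingSubgroup_iff G).1 g.2 x hx
    have hsub : g • B' ⊆ B' := by
      rintro _ ⟨z, hz, rfl⟩
      exact hblock g hfix y hy hgy z hz
    haveI : Finite (ofFixingSubgroup G s) := Subtype.finite
    apply Set.eq_of_subset_of_ncard_le hsub
    rw [Set.ncard_smul_set]
  rcases h.isTrivialBlock_of_isBlock hB' with h1 | h1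
  · left
    intro a ha b hb
    have := h1 (x := (⟨a, hB ha⟩ : ofFixingSubgroup G s)) ha (y := (⟨b, hB hb⟩ : ofFixingSubgroup G s)) hb
    exact congrArg Subtype.val this
  · right
    apply Set.Subset.antisymm hB
    intro x hx
    have : (⟨x, hx⟩ : ofFixingSubgroup G s) ∈ B' := by rw [h1]; exact Set.mem_univ _
    exact this

section regular

variable (N : Subgroup G) (htrans : IsPretransitive N X) (hreg : ∀ x : X, stabilizer N x = ⊥)

include htrans in
theorem reg_ex (x y : X) : ∃ n ∈ N, n • x = y := by
  obtain ⟨n, hn⟩ := htrans.exists_smul_eq x y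
  exact ⟨n, n.2, hn⟩

include hreg in
theorem reg_uniq {n m : G} (hn : n ∈ N) (hm : m ∈ N) {x : X} (h : n • x = m • x) : n = m := by
  have h1 : (⟨m, hm⟩ : N)⁻¹ * ⟨n, hn⟩ ∈ stabilizer N x := by
    rw [mem_stabilizer_iff, mul_smul, inv_smul_eq_iff]
    exact h
  rw [hreg, Subgroup.mem_bot, inv_mul_eq_one] at h1
  exact (congrArg Subtype.val h1).symm

end regular

/-- S0695 -/
theorem regular_normal_two [Fintype X] (hX : 2 ≤ Fintype.card X) (h2 : IsMultiplyPreprimitive G X 2)
    (N : Subgroup G) [hNn : N.Normal] (htrans : IsPretransitive N X) (hreg : ∀ x : X, stabilizer N x = ⊥) :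
    Fintype.card X = 3 ∨ ((∀ a ∈ N, ∀ b ∈ N, a * b = b * a) ∧ (∀ n ∈ N, n * n = 1) ∧ ∃ m : ℕ, Fintype.card X = 2 ^ m) := by
  classical
  obtain ⟨x⟩ : Nonempty X := Fintype.card_pos_iff.1 (by omega)
  have hprim : IsPreprimitive (fixingSubgroup G {x}) (ofFixingSubgroup G {x}) :=
    h2.isPreprimitive_ofFixingSubgroup (s := {x}) (by rw [Set.encard_singleton]; norm_num)
  by_cases hall : ∀ n ∈ N, n * n = 1
  · right
    have hcomm : ∀ a ∈ N, ∀ b ∈ N, a * b = b * a := by
      intro a ha b hb
      have h1 := hall (a * b) (mul_mem ha hb)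
      have ha' := hall a ha
      have hb' := hall b hb
      have e1 : a⁻¹ = a := inv_eq_of_mul_eq_one_left ha'
      have e2 : b⁻¹ = b := inv_eq_of_mul_eq_one_left hb'
      have e3 : (a * b)⁻¹ = a * b := inv_eq_of_mul_eq_one_left h1
      rw [← e3, mul_inv_rev, e1, e2]
    refine ⟨hcomm, hall, ?_⟩
    have hbij : Function.Bijective (fun n : N => n • x) :=
      ⟨fun n m h => Subtype.ext (reg_uniq N hreg n.2 m.2 h), fun y => htrans.exists_smul_eq x y⟩
    haveI : Finite N := Finite.of_injective _ hbij.1
    have hpg : IsPGroup 2 N := by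
      intro n
      refine ⟨1, ?_⟩
      rw [pow_one, pow_two]
      exact Subtype.ext (hall n n.2)
    haveI : Fact (Nat.Prime 2) := ⟨Nat.prime_two⟩
    obtain ⟨m, hm⟩ := IsPGroup.iff_card.1 hpg
    refine ⟨m, ?_⟩
    rw [← hm, Nat.card_congr (Equiv.ofBijective _ hbij), Nat.card_eq_fintype_card]
  · left
    push Not at hall
    obtain ⟨n, hn, hnn⟩ := hall
    have hne : n⁻¹ • x ≠ n • x := by
      intro h
      have := reg_uniq N hreg (inv_mem hn) hn h
      apply hnn
      rw [inv_eq_iff_mul_eq_one] at this
      exact this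
    have hn1 : n ≠ 1 := by rintro rfl; exact hnn (mul_one 1)
    have hnx : n • x ≠ x := by
      intro h
      apply hn1
      exact reg_uniq N hreg hn (one_mem _) (by rw [h, one_smul])
    have hnx' : n⁻¹ • x ≠ x := by
      intro h
      apply hn1
      rw [inv_smul_eq_iff] at h
      exact reg_uniq N hreg hn (one_mem _) (by rw [one_smul, ← h])
    have hconj : ∀ g : G, g • x = x → ∀ m ∈ N, ∀ k ∈ N, g • (m • x) = k • x → g * m * g⁻¹ = k := by
      intro g hg m hm k hk h
      apply reg_uniq N hreg (hNn.conj_mem m hm g) hk (x := x)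
      have hg' : g⁻¹ • x = x := by rw [inv_smul_eq_iff, hg]
      rw [mul_smul, mul_smul, hg', h]
    have hB := block_compl hprim {n • x, n⁻¹ • x} (by
      intro y hy
      rw [Set.mem_compl_iff, Set.mem_singleton_iff]
      rcases hy with rfl | rfl
      · exact hnx
      · exact hnx') (by
      intro g hg y hy hgy z hz
      have hgx : g • x = x := hg x (Set.mem_singleton x)
      -- g n g⁻¹ is n or n⁻¹
      have key : g * n * g⁻¹ = n ∨ g * n * g⁻¹ = n⁻¹ := by
        rcases hy with rfl | rfl <;> rcases hgy with h | h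
        · exact Or.inl (hconj g hgx n hn n hn h)
        · exact Or.inr (hconj g hgx n hn n⁻¹ (inv_mem hn) h)
        · right
          have := hconj g hgx n⁻¹ (inv_mem hn) n hn h
          have h5 : (g * n * g⁻¹)⁻¹ = n := by
            rw [mul_inv_rev, mul_inv_rev, inv_inv, ← mul_assoc]; exact this
          rw [← inv_inv (g * n * g⁻¹), h5]
        · left
          have := hconj g hgx n⁻¹ (inv_mem hn) n⁻¹ (inv_mem hn) h
          have h5 : (g * n * g⁻¹)⁻¹ = n⁻¹ := by
            rw [mul_inv_rev, mul_inv_rev, inv_inv, ← mul_assoc]; exact this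
          exact inv_injective h5
      have hact : ∀ m : G, g • (m • x) = (g * m * g⁻¹) • x := by
        intro m
        have hg' : g⁻¹ • x = x := by rw [inv_smul_eq_iff, hgx]
        rw [mul_smul, mul_smul, hg']
      rcases hz with rfl | rfl
      · rw [hact]
        rcases key with h | h
        · rw [h]; exact Set.mem_insert _ _
        · rw [h]; exact Set.mem_insert_of_mem _ rfl
      · rw [hact]
        have e : g * n⁻¹ * g⁻¹ = (g * n * g⁻¹)⁻¹ := by group
        rw [e]
        rcases key with h | h
        · rw [h]; exact Set.mem_insert_of_mem _ rfl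
        · rw [h, inv_inv]; exact Set.mem_insert _ _)
    rcases hB with h | h
    · exfalso
      exact hne (h (Set.mem_insert_of_mem _ rfl) (Set.mem_insert _ _))
    · have h3 : ({n • x, n⁻¹ • x} : Set X).ncard = 2 := Set.ncard_pair hne.symm
      rw [h, Set.ncard_compl, Set.ncard_singleton, Nat.card_eq_fintype_card] at h3
      omega

/-- S0696 -/
theorem regular_normal_three [Fintype X] (hX : 3 ≤ Fintype.card X) (h3 : IsMultiplyPreprimitive G X 3)
    (N : Subgroup G) [hNn : N.Normal] (htrans : IsPretransitive N X) (hreg : ∀ x : X, stabilizer N x = ⊥) :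
    Fintype.card X = 3 ∨ Fintype.card X = 4 := by
  classical
  have h2 : IsMultiplyPreprimitive G X 2 := isMultiplyPreprimitive_of_le G X h3 (by norm_num) (by
    rw [ENat.card_eq_coe_fintype_card]; exact_mod_cast hX)
  rcases regular_normal_two (by omega) h2 N htrans hreg with h | ⟨hcomm, hinv, m, hm⟩
  · exact Or.inl h
  · right
    obtain ⟨x⟩ : Nonempty X := Fintype.card_pos_iff.1 (by omega)
    obtain ⟨w, hw⟩ := Fintype.exists_ne_of_one_lt_card (by omega : 1 < Fintype.card X) x
    obtain ⟨n, hn, rfl⟩ := reg_ex N htrans x w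
    obtain ⟨y, hy⟩ : ∃ y, y ∉ ({x, n • x} : Finset X) := by
      by_contra hcon
      push Not at hcon
      have : Fintype.card X ≤ ({x, n • x} : Finset X).card := by
        rw [← Finset.card_univ]
        exact Finset.card_le_card (fun z _ => hcon z)
      have h2 := Finset.card_le_two (a := x) (b := n • x)
      omega
    rw [Finset.mem_insert, Finset.mem_singleton, not_or] at hy
    have hprim : IsPreprimitive (fixingSubgroup G {x, n • x}) (ofFixingSubgroup G {x, n • x}) :=
      h3.isPreprimitive_ofFixingSubgroup (s := {x, n • x}) (by rw [Set.encard_pair hw.symm]; norm_num)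
    have hnn : ∀ z : X, n • (n • z) = z := by
      intro z
      rw [← mul_smul, hinv n hn, one_smul]
    have hny : n • y ≠ y := by
      intro h
      have : n = 1 := reg_uniq N hreg hn (one_mem _) (by rw [h, one_smul])
      rw [this, one_smul] at hw
      exact hw rfl
    have hB := block_compl hprim {y, n • y} (by
      intro z hz
      rw [Set.mem_compl_iff]
      rintro (h | h)
      · rcases hz with rfl | hz
        · exact hy.1 h
        · rw [Set.mem_singleton_iff] at hz
          rw [h] at hz
          apply hy.2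
          rw [hz, hnn]
      · rw [Set.mem_singleton_iff] at h
        rcases hz with rfl | hz
        · exact hy.2 h
        · rw [Set.mem_singleton_iff] at hz
          rw [h] at hz
          exact hy.1 (smul_left_cancel n hz).symm) (by
      intro g hg z hz hgz w hw'
      have h1 : g • x = x := hg x (Set.mem_insert _ _)
      have h2 : g • (n • x) = n • x := hg _ (Set.mem_insert_of_mem _ rfl)
      have hcg : g * n * g⁻¹ = n := by
        apply reg_uniq N hreg (hNn.conj_mem n hn g) hn (x := x)
        have hg' : g⁻¹ • x = x := by rw [inv_smul_eq_iff, h1]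
        rw [mul_smul, mul_smul, hg', h2]
      have hgn : ∀ t : X, g • (n • t) = n • (g • t) := by
        intro t
        rw [← mul_smul, ← mul_smul]
        congr 1
        rw [mul_inv_eq_iff_eq_mul] at hcg
        exact hcg
      have hgy : g • y = y ∨ g • y = n • y := by
        rcases hz with rfl | hz
        · exact hgz
        · rw [Set.mem_singleton_iff] at hz
          rw [hz, hgn] at hgz
          rcases hgz with h | h
          · right
            rw [← hnn (g • y), h]
          · left
            rw [Set.mem_singleton_iff] at h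
            exact smul_left_cancel n h
      rcases hw' with rfl | hw'
      · exact hgy
      · rw [Set.mem_singleton_iff] at hw'
        rw [hw', hgn]
        rcases hgy with h | h
        · rw [h]; exact Set.mem_insert_of_mem _ rfl
        · rw [h, hnn]; exact Set.mem_insert _ _)
    rcases hB with h | h
    · exact absurd (h (Set.mem_insert_of_mem _ rfl) (Set.mem_insert _ _)) hny
    · have h3 : ({y, n • y} : Set X).ncard = 2 := Set.ncard_pair hny.symm
      rw [h, Set.ncard_compl, Set.ncard_pair hw.symm, Nat.card_eq_fintype_card] at h3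
      omega

end CfsgLib.PermJ1
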