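import Mathlib
import Cfsg.Agent.Lib.PermJ1
import Cfsg.Agent.Lib.PermG4

set_option autoImplicit false

/-! Normal subgroups of multiply primitive groups. -/

namespace CfsgLib.PermJ2

open MulAction SubMulAction CfsgLib.PermG3 CfsgLib.PermG4 CfsgLib.PermJ1
open scoped Pointwise

universe u v

/-- a 3-transitive group of degree at most 4 induces the whole symmetric group -/
theorem all_perms {G : Type v} [Group G] {X : Type u} [MulAction G X] [Fintype X] [DecidableEq X]
    (h3 : IsMultiplyPretransitive G X 3) (hX : Fintype.card X = 3 ∨ Fintype.card X = 4) (σ : Equiv.Perm X) :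
    ∃ g : G, ∀ x, g • x = σ x := by
  classical
  obtain ⟨f⟩ : Nonempty (Fin 3 ↪ X) := by
    apply Function.Embedding.nonempty_of_card_le
    rw [Fintype.card_fin]; omega
  rw [mt_iff] at h3
  obtain ⟨g, hg⟩ := h3 f (f.trans σ.toEmbedding)
  refine ⟨g, ?_⟩
  -- the permutation σ⁻¹ g fixes at least |X| - 1 points
  let τ : Equiv.Perm X := σ⁻¹ * toPermHom G X g
  have hτ : ∀ i, τ (f i) = f i := by
    intro i
    change σ⁻¹ (g • f i) = f i
    rw [hg i]
    exact Equiv.symm_apply_apply _ _
  have hsupp : τ.support ⊆ Finset.univ \ (Finset.univ.map f) := by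
    intro x hx
    rw [Equiv.Perm.mem_support] at hx
    rw [Finset.mem_sdiff]
    refine ⟨Finset.mem_univ _, ?_⟩
    intro h
    rw [Finset.mem_map] at h
    obtain ⟨i, -, rfl⟩ := h
    exact hx (hτ i)
  have hcard : τ.support.card ≤ 1 := by
    refine (Finset.card_le_card hsupp).trans ?_
    rw [Finset.card_sdiff_of_subset (Finset.subset_univ _), Finset.card_map, Finset.card_univ, Finset.card_univ, Fintype.card_fin]
    omega
  have hτ1 : τ = 1 := Equiv.Perm.card_support_le_one.1 hcard
  intro x
  have h1 : σ (τ x) = g • x := by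
    change σ (σ⁻¹ (g • x)) = g • x
    exact Equiv.apply_symm_apply _ _
  rw [← h1, hτ1]
  rfl

/-- the regular normal subgroup of a sharply 2-transitive normal subgroup -/
theorem regular_of_sharp {G : Type v} [Group G] [Finite G] {X : Type u} [MulAction G X] [Fintype X] [DecidableEq X]
    (H : Subgroup G) [hH : H.Normal] (h2 : IsMultiplyPretransitive H X 2)
    (hsharp : ∀ x : Fin 2 ↪ X, stabilizer H x = ⊥) (hX : 2 ≤ Fintype.card X) :
    ∃ A : Subgroup G, A.Normal ∧ IsPretransitive A X ∧ ∀ x : X, stabilizer A x = ⊥ := by
  classical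
  obtain ⟨p, j, A, hp, hj1, hj, hAn, hAc, hAp, hAcard, hAmem⟩ := sharp_two_kernel H h2 hsharp hX
  have hmem : ∀ g : G, g ∈ A.map H.subtype ↔ g ∈ H ∧ (g = 1 ∨ ∀ a : X, g • a ≠ a) := by
    intro g
    constructor
    · rintro ⟨h, hh, rfl⟩
      refine ⟨h.2, ?_⟩
      rcases (hAmem h).1 hh with h1 | h1
      · left; rw [h1]; rfl
      · right; exact h1
    · rintro ⟨h1, h2⟩
      refine ⟨⟨g, h1⟩, (hAmem _).2 ?_, rfl⟩
      rcases h2 with h2 | h2
      · left; exact Subtype.ext h2
      · right; exact h2
  refine ⟨A.map H.subtype, ⟨?_⟩, ?_, ?_⟩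
  · intro x hx g
    rw [hmem] at hx ⊢
    refine ⟨hH.conj_mem x hx.1 g, ?_⟩
    rcases hx.2 with h1 | h1
    · left; rw [h1, mul_one, mul_inv_cancel]
    · right
      intro a ha
      apply h1 (g⁻¹ • a)
      rw [mul_smul, mul_smul] at ha
      rw [eq_inv_smul_iff]
      exact ha
  · obtain ⟨a₀⟩ : Nonempty X := Fintype.card_pos_iff.1 (by omega)
    letI : Fintype A := Fintype.ofFinite A
    have hbij : Function.Bijective (fun s : A => (s : H) • a₀) := by
      rw [Fintype.bijective_iff_injective_and_card]
      constructor
      · intro s t h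
        have h' : (s : H) • a₀ = (t : H) • a₀ := h
        have h1 : (t : H)⁻¹ * (s : H) ∈ A := mul_mem (inv_mem t.2) s.2
        rcases (hAmem _).1 h1 with h2 | h2
        · rw [inv_mul_eq_one] at h2
          exact Subtype.ext h2.symm
        · exact absurd (by rw [mul_smul, h', inv_smul_smul]) (h2 a₀)
      · rw [← hAcard, Nat.card_eq_fintype_card]
    refine ⟨fun x y => ?_⟩
    obtain ⟨s, hs⟩ := hbij.2 x
    obtain ⟨t, ht⟩ := hbij.2 y
    have hs' : ((s : H) : G) • a₀ = x := hs
    have ht' : ((t : H) : G) • a₀ = y := ht
    refine ⟨⟨((t : H) : G) * ((s : H) : G)⁻¹, ?_⟩, ?_⟩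
    · exact mul_mem ⟨_, t.2, rfl⟩ (inv_mem ⟨_, s.2, rfl⟩)
    · change (((t : H) : G) * ((s : H) : G)⁻¹) • x = y
      rw [mul_smul, ← hs', inv_smul_smul, ht']
  · intro x
    rw [Subgroup.eq_bot_iff_forall]
    rintro ⟨g, hg⟩ hgx
    rcases ((hmem g).1 hg).2 with h1 | h1
    · exact Subtype.ext h1
    · exact absurd hgx (h1 x)

/-- transfer between `stabilizer H a` on `ofStabilizer H a` and `H.subgroupOf (stabilizer G a)` on
`ofStabilizer G a` -/
theorem mt_succ_of_stab {G : Type v} [Group G] {X : Type u} [MulAction G X] (H : Subgroup G)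
    [IsPretransitive H X] (a : X) {n : ℕ}
    (h : IsMultiplyPretransitive (H.subgroupOf (stabilizer G a)) (ofStabilizer G a) n) :
    IsMultiplyPretransitive H X (n + 1) := by
  rw [ofStabilizer.isMultiplyPretransitive (a := a)]
  rw [mt_iff] at h ⊢
  intro u v
  let c : ∀ w : Fin n ↪ ofStabilizer H a, Fin n ↪ ofStabilizer G a := fun w =>
    ⟨fun i => ⟨(w i : X), (w i).2⟩, fun i j hij => w.injective (Subtype.ext (congrArg (fun z : ofStabilizer G a => (z : X)) hij))⟩
  obtain ⟨g, hg⟩ := h (c u) (c v)
  refine ⟨⟨⟨((g : stabilizer G a) : G), g.2⟩, (g : stabilizer G a).2⟩, fun i => ?_⟩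
  apply Subtype.ext
  exact congrArg (fun z : ofStabilizer G a => (z : X)) (hg i)

/-- S0697 -/
theorem normal_mt (k : ℕ) : ∀ (G : Type v) [Group G] [Finite G] (X : Type u) [MulAction G X] [Fintype X]
    [FaithfulSMul G X] (hk : 1 ≤ k) (hkn : k ≤ Fintype.card X) (hG : IsMultiplyPreprimitive G X k)
    (htop₀ : k ≤ 2 ∨ ¬ ∀ σ : Equiv.Perm X, ∃ g : G, ∀ x, g • x = σ x) (H : Subgroup G) [hH : H.Normal]
    (hnr : ∃ a : X, stabilizer H a ≠ ⊥), IsMultiplyPretransitive H X k := by
  classical
  induction k with
  | zero => intro _ _ _ _ _ _ _ hk; exact absurd hk (by omega)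
  | succ n ih =>
    intro G _ _ X _ _ _ _ hkn hG htop₀ H hH hnr
    obtain ⟨a, ha⟩ := hnr
    have hG1 : IsMultiplyPreprimitive G X 1 := isMultiplyPreprimitive_of_le G X hG (by omega) (by
      rw [ENat.card_eq_coe_fintype_card]; exact_mod_cast hkn)
    haveI hprim : IsPreprimitive G X := (is_one_preprimitive_iff G X).1 hG1
    have hHne : H ≠ ⊥ := by
      rintro rfl
      apply ha
      rw [Subgroup.eq_bot_iff_forall]
      intro x _
      exact Subsingleton.elim _ _
    haveI hHt : IsPretransitive H X := by
      apply IsQuasiPreprimitive.isPretransitive_of_normal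
      intro hall
      apply hHne
      rw [Subgroup.eq_bot_iff_forall]
      intro x hx
      apply FaithfulSMul.eq_of_smul_eq_smul (α := X)
      intro y
      rw [one_smul]
      have : y ∈ fixedPoints H X := by rw [hall]; exact Set.mem_univ _
      exact this ⟨x, hx⟩
    rcases Nat.eq_zero_or_pos n with rfl | hn
    · rw [zero_add, is_one_pretransitive_iff]
      exact hHt
    · apply mt_succ_of_stab H a
      have hGa : IsMultiplyPreprimitive (stabilizer G a) (ofStabilizer G a) n :=
        isMultiplyPreprimitive_ofStabilizer G X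
      haveI hf : FaithfulSMul (stabilizer G a) (ofStabilizer G a) := by
        refine ⟨fun {g h} hgh => ?_⟩
        apply Subtype.ext
        apply FaithfulSMul.eq_of_smul_eq_smul (α := X)
        intro x
        by_cases hx : x = a
        · rw [hx]
          exact (g.2 : (g : G) • a = a).trans (h.2 : (h : G) • a = a).symm
        · exact congrArg (fun z : ofStabilizer G a => (z : X)) (hgh ⟨x, hx⟩)
      have hcardX' : Fintype.card (ofStabilizer G a) = Fintype.card X - 1 := by
        have h1 : Fintype.card {x : X // x ≠ a} = Fintype.card X - 1 := by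
          rw [Fintype.card_subtype_compl, Fintype.card_subtype_eq]
        rw [← h1]
        exact Fintype.card_congr (Equiv.refl _)
      have htop' : n ≤ 2 ∨ ¬ ∀ σ : Equiv.Perm (ofStabilizer G a), ∃ g : stabilizer G a, ∀ x, g • x = σ x := by
        by_cases hn2 : n ≤ 2
        · exact Or.inl hn2
        right
        intro hall
        have htop := htop₀.resolve_left (by omega)
        apply htop
        intro σ
        obtain ⟨g₀, hg₀⟩ := exists_smul_eq G a (σ a)
        -- g₀⁻¹ σ fixes a
        let τ : Equiv.Perm X := (toPermHom G X g₀)⁻¹ * σ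
        have hτa : τ a = a := by
          change (toPermHom G X g₀)⁻¹ (σ a) = a
          rw [← hg₀]
          exact Equiv.symm_apply_apply (toPermHom G X g₀) a
        have hτ' : ∀ x : X, x ≠ a ↔ τ x ≠ a := by
          intro x
          constructor
          · intro hx h
            rw [← hτa] at h
            exact hx (τ.injective h)
          · intro hx h
            rw [h] at hx
            exact hx hτa
        obtain ⟨g, hg⟩ := hall (τ.subtypePerm (fun x => (hτ' x).symm) : Equiv.Perm {x : X // x ≠ a})
        refine ⟨g₀ * g, fun x => ?_⟩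
        have h1 : (g : G) • x = τ x := by
          by_cases hx : x = a
          · rw [hx, hτa]; exact g.2
          · exact congrArg (fun z : ofStabilizer G a => (z : X)) (hg ⟨x, hx⟩)
        rw [mul_smul, h1]
        exact Equiv.apply_symm_apply (toPermHom G X g₀) (σ x)
      haveI hH' : (H.subgroupOf (stabilizer G a)).Normal := by
        refine ⟨fun x hx g => ?_⟩
        rw [Subgroup.mem_subgroupOf] at hx ⊢
        exact hH.conj_mem _ hx _
      by_cases hnr' : ∃ b : ofStabilizer G a, stabilizer (H.subgroupOf (stabilizer G a)) b ≠ ⊥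
      · exact ih (stabilizer G a) (ofStabilizer G a) hn (by rw [hcardX']; omega) hGa htop' (H.subgroupOf (stabilizer G a)) hnr'
      · push Not at hnr'
        -- H_a is regular on the rest
        have hG1' : IsMultiplyPreprimitive (stabilizer G a) (ofStabilizer G a) 1 := isMultiplyPreprimitive_of_le _ _ hGa hn (by
          rw [ENat.card_eq_coe_fintype_card, hcardX']; exact_mod_cast (by omega))
        haveI hprim' : IsPreprimitive (stabilizer G a) (ofStabilizer G a) := (is_one_preprimitive_iff _ _).1 hG1'
        have hH'ne : H.subgroupOf (stabilizer G a) ≠ ⊥ := by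
          intro h
          apply ha
          rw [Subgroup.eq_bot_iff_forall] at h ⊢
          intro x hx
          have h1 := h ⟨(x : G), hx⟩ (by rw [Subgroup.mem_subgroupOf]; exact x.2)
          exact Subtype.ext (congrArg (fun z : stabilizer G a => (z : G)) h1)
        haveI hH't : IsPretransitive (H.subgroupOf (stabilizer G a)) (ofStabilizer G a) := by
          apply IsQuasiPreprimitive.isPretransitive_of_normal
          intro hall
          apply hH'ne
          rw [Subgroup.eq_bot_iff_forall]
          intro x hx
          apply FaithfulSMul.eq_of_smul_eq_smul (α := ofStabilizer G a)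
          intro y
          rw [one_smul]
          have : y ∈ fixedPoints (H.subgroupOf (stabilizer G a)) (ofStabilizer G a) := by rw [hall]; exact Set.mem_univ _
          exact this ⟨x, hx⟩
        by_cases hn1 : n = 1
        · subst hn1
          rw [is_one_pretransitive_iff]
          exact hH't
        · exfalso
          -- H is sharply 2-transitive
          have hH2 : IsMultiplyPretransitive H X 2 := by
            apply mt_succ_of_stab H a
            rw [is_one_pretransitive_iff]
            exact hH't
          have hcard3 : 3 ≤ Fintype.card X := by omega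
          have hsharp : ∀ x : Fin 2 ↪ X, stabilizer H x = ⊥ := by
            intro x
            rw [Subgroup.eq_bot_iff_forall]
            intro g hg
            -- move x 0 to a
            obtain ⟨k, hk⟩ := exists_smul_eq H (x 0) a
            have h0 : g • x 0 = x 0 := DFunLike.congr_fun hg 0
            have h1 : g • x 1 = x 1 := DFunLike.congr_fun hg 1
            have e0 : (k * g * k⁻¹) • a = a := by
              rw [← hk, mul_smul, mul_smul, inv_smul_smul, h0]
            have e1 : (k * g * k⁻¹) • (k • x 1) = k • x 1 := by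
              rw [mul_smul, mul_smul, inv_smul_smul, h1]
            have hne : k • x 1 ≠ a := by
              intro h
              rw [← hk] at h
              have := x.injective (smul_left_cancel k h)
              exact absurd this (by decide)
            have h2 := hnr' ⟨k • x 1, hne⟩
            rw [Subgroup.eq_bot_iff_forall] at h2
            have h3 := h2 ⟨⟨((k * g * k⁻¹ : H) : G), e0⟩, (k * g * k⁻¹ : H).2⟩ (Subtype.ext e1)
            have h4 : ((k * g * k⁻¹ : H) : G) = 1 := congrArg (fun z : H.subgroupOf (stabilizer G a) => ((z : stabilizer G a) : G)) h3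
            have h5 : k * g * k⁻¹ = 1 := Subtype.ext h4
            rw [mul_inv_eq_one] at h5
            exact mul_eq_left.1 h5
          obtain ⟨A, hAn, hAt, hAr⟩ := regular_of_sharp H hH2 hsharp (by omega)
          have hG3 : IsMultiplyPreprimitive G X 3 := isMultiplyPreprimitive_of_le G X hG (by omega) (by
            rw [ENat.card_eq_coe_fintype_card]; exact_mod_cast hkn)
          have h34 := regular_normal_three hcard3 hG3 A hAt hAr
          apply htop₀.resolve_left (by omega)
          intro σ
          exact all_perms hG3.isMultiplyPretransitive h34 σ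

/-- normal subgroups of `k`-transitive groups (Jordan) -/
theorem jordan_normal {α : Type u} [Fintype α] [DecidableEq α] (G : Subgroup (Equiv.Perm α)) {k : ℕ} (hk : 1 < k)
    (hdeg : k < Fintype.card α) (hG : IsMultiplyPretransitive G α k) (N : Subgroup G) [N.Normal] (hN : N ≠ ⊥) :
    IsMultiplyPretransitive N α (k - 1) ∨ (k = 3 ∧ (∀ a ∈ N, ∀ b ∈ N, a * b = b * a) ∧ (∀ n ∈ N, n * n = 1) ∧
      (∀ a : α, stabilizer N a = ⊥) ∧ ∃ m : ℕ, Fintype.card α = 2 ^ m) := by
  classical
  obtain ⟨n, rfl⟩ : ∃ n, k = n + 1 := ⟨k - 1, by omega⟩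
  rw [Nat.add_sub_cancel]
  haveI := hG
  have hGp : IsMultiplyPreprimitive G α n := isMultiplyPreprimitive_of_isMultiplyPretransitive_succ G α (by
    rw [ENat.card_eq_coe_fintype_card]; exact_mod_cast (by omega : n + 1 ≤ Fintype.card α))
  have hG1 : IsMultiplyPreprimitive G α 1 := isMultiplyPreprimitive_of_le G α hGp (by omega) (by
    rw [ENat.card_eq_coe_fintype_card]; exact_mod_cast (by omega : n ≤ Fintype.card α))
  haveI hprim : IsPreprimitive G α := (is_one_preprimitive_iff G α).1 hG1
  haveI hNt : IsPretransitive N α := by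
    apply IsQuasiPreprimitive.isPretransitive_of_normal
    intro hall
    apply hN
    rw [Subgroup.eq_bot_iff_forall]
    intro x hx
    apply Subtype.ext
    ext y
    have : y ∈ fixedPoints N α := by rw [hall]; exact Set.mem_univ _
    exact this ⟨x, hx⟩
  by_cases hn1 : n = 1
  · left
    subst hn1
    rw [is_one_pretransitive_iff]
    exact hNt
  by_cases hnr : ∃ a : α, stabilizer N a ≠ ⊥
  · left
    by_cases hn2 : n ≤ 2
    · exact normal_mt n G α (by omega) (by omega) hGp (Or.inl hn2) N hnr
    by_cases htop : ∀ σ : Equiv.Perm α, ∃ g : G, ∀ x, g • x = σ x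
    · -- G is the symmetric group
      have hGtop : G = ⊤ := by
        rw [Subgroup.eq_top_iff']
        intro σ
        obtain ⟨g, hg⟩ := htop σ
        have : (g : Equiv.Perm α) = σ := Equiv.ext hg
        rw [← this]
        exact g.2
      subst hGtop
      -- N.map subtype is normal in Perm α
      have hN' : (N.map (⊤ : Subgroup (Equiv.Perm α)).subtype).Normal := by
        refine ⟨?_⟩
        rintro _ ⟨x, hx, rfl⟩ g
        exact ⟨⟨g, Subgroup.mem_top g⟩ * x * ⟨g, Subgroup.mem_top g⟩⁻¹, Subgroup.Normal.conj_mem inferInstance x hx _, rfl⟩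
      have hAle : alternatingGroup α ≤ N.map (⊤ : Subgroup (Equiv.Perm α)).subtype := by
        apply Equiv.Perm.alternatingGroup_le_of_normal
        · rw [Nat.card_eq_fintype_card]; omega
        · rw [Subgroup.nontrivial_iff_ne_bot]
          intro h
          apply hN
          rw [Subgroup.map_eq_bot_iff_of_injective _ (Subgroup.subtype_injective _)] at h
          exact h
      haveI := alternatingGroup.isMultiplyPretransitive α
      rw [mt_iff]
      have h3 : IsMultiplyPretransitive (alternatingGroup α) α n := by
        apply isMultiplyPretransitive_of_le (n := Nat.card α - 2)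
        · rw [Nat.card_eq_fintype_card]; omega
        · rw [Nat.card_eq_fintype_card]; omega
      rw [mt_iff] at h3
      intro u v
      obtain ⟨g, hg⟩ := h3 u v
      obtain ⟨m, hm, hmg⟩ := hAle g.2
      refine ⟨⟨m, hm⟩, fun i => ?_⟩
      rw [← hg i]
      change (m : Equiv.Perm α) (u i) = (g : Equiv.Perm α) (u i)
      rw [← hmg]
      rfl
    · exact normal_mt n G α (by omega) (by omega) hGp (Or.inr htop) N hnr
  · push Not at hnr
    right
    have hG2 : IsMultiplyPreprimitive G α 2 := isMultiplyPreprimitive_of_le G α hGp (by omega) (by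
      rw [ENat.card_eq_coe_fintype_card]; exact_mod_cast (by omega : n ≤ Fintype.card α))
    rcases regular_normal_two (by omega) hG2 N hNt hnr with h | ⟨h1, h2, h3⟩
    · omega
    · refine ⟨?_, h1, h2, hnr, h3⟩
      by_contra hne
      have hG3 : IsMultiplyPreprimitive G α 3 := isMultiplyPreprimitive_of_le G α hGp (by omega) (by
        rw [ENat.card_eq_coe_fintype_card]; exact_mod_cast (by omega : n ≤ Fintype.card α))
      have := regular_normal_three (by omega) hG3 N hNt hnr
      omega

end CfsgLib.PermJ2
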