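import Mathlib
import Cfsg.Agent.Lib.PermG3
import Cfsg.Agent.Lib.SylowIn
import Cfsg.Agent.Lib.H5Sylow
import Cfsg.Agent.S0705

set_option autoImplicit false

/-! Generously transitive groups. -/

namespace CfsgLib.PermJ3

open MulAction CfsgLib.PermG3 CfsgLib.SylowIn
open scoped Pointwise

universe u

section

variable {α : Type u} [Fintype α] [DecidableEq α] (G : Subgroup (Equiv.Perm α))

theorem fix_in {p : ℕ} [hp : Fact p.Prime] {H : Type*} [Group H] [MulAction H α] (Q : Subgroup H) (hQ : IsPGroup p Q)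
    (S : Set α) (hS : ∀ q ∈ Q, ∀ x ∈ S, q • x ∈ S) (hcard : ¬ p ∣ Nat.card S) : ∃ y ∈ S, ∀ q ∈ Q, q • y = y := by
  classical
  letI : MulAction Q S :=
    { smul := fun q x => ⟨(q : H) • (x : α), hS q q.2 x x.2⟩
      one_smul := fun x => Subtype.ext (one_smul _ _)
      mul_smul := fun q r x => Subtype.ext (mul_smul _ _ _) }
  by_contra hcon
  push Not at hcon
  have h1 := hQ.card_modEq_card_fixedPoints S
  have h2 : Nat.card (fixedPoints Q S) = 0 := by
    rw [Nat.card_eq_zero]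
    left
    refine ⟨?_⟩
    rintro ⟨y, hy⟩
    obtain ⟨q, hq, hqy⟩ := hcon y y.2
    exact hqy (congrArg Subtype.val (hy ⟨q, hq⟩))
  rw [h2] at h1
  exact hcard ((Nat.modEq_zero_iff_dvd).1 h1)

theorem mem_fix (s : Finset α) (g : G) : g ∈ fixingSubgroup G (s : Set α) ↔ ∀ x ∈ s, g • x = x := by
  rw [mem_fixingSubgroup_iff]
  rfl

/-- pointwise stabilisers of `k`-sets of a `k`-transitive group have the same order -/
theorem card_fix_eq {k : ℕ} (hG : IsMultiplyPretransitive G α k) (s t : Finset α) (hs : s.card = k) (ht : t.card = k) :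
    Nat.card (fixingSubgroup G (s : Set α)) = Nat.card (fixingSubgroup G (t : Set α)) := by
  classical
  rw [mt_iff] at hG
  let es : Fin k ≃ s := (Finset.equivFinOfCardEq hs).symm
  let et : Fin k ≃ t := (Finset.equivFinOfCardEq ht).symm
  obtain ⟨g, hg⟩ := hG (es.toEmbedding.trans (Function.Embedding.subtype _)) (et.toEmbedding.trans (Function.Embedding.subtype _))
  have hg' : ∀ i, g • ((es i : s) : α) = (et i : t) := hg
  have h1 : ∀ x ∈ s, g • x ∈ t := by
    intro x hx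
    have := hg' (es.symm ⟨x, hx⟩)
    rw [Equiv.apply_symm_apply] at this
    rw [this]
    exact (et _).2
  have h2 : ∀ y ∈ t, g⁻¹ • y ∈ s := by
    intro y hy
    have := hg' (et.symm ⟨y, hy⟩)
    rw [Equiv.apply_symm_apply] at this
    have h3 : g⁻¹ • y = (es (et.symm ⟨y, hy⟩) : s) := by
      rw [inv_smul_eq_iff]; exact this.symm
    rw [h3]
    exact (es _).2
  have hcj : fixingSubgroup G (t : Set α) = cj g (fixingSubgroup G (s : Set α)) := by
    ext x
    rw [mem_cj, mem_fix, mem_fix]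
    constructor
    · intro h y hy
      rw [mul_smul, mul_smul, h _ (h1 y hy), inv_smul_smul]
    · intro h y hy
      have := h _ (h2 y hy)
      rw [mul_smul, mul_smul, smul_inv_smul, smul_left_cancel_iff] at this
      exact this
  rw [hcj, card_cj]

/-- S0706 -/
theorem generous_orbit {k : ℕ} (hk : k < Fintype.card α)
    (hgen : ∀ s : Finset α, s.card = k + 1 → ∀ σ : Equiv.Perm ↥s, ∃ g ∈ G, ∀ x : ↥s, g (x : α) = σ x)
    {p : ℕ} (hp : p.Prime) (hpk : p ≤ k) (Γ : Finset α) (hΓ : Γ.card = k) (f : Fin p → α)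
    (hf : ∀ i, f i ∉ Γ) (hdist : ∀ i j, i ≠ j → f j ∉ orbit (fixingSubgroup G (Γ : Set α)) (f i)) :
    ∃ i, p ∣ Nat.card (orbit (fixingSubgroup G (Γ : Set α)) (f i)) := by
  classical
  haveI := Fact.mk hp
  by_contra hcon
  push Not at hcon
  obtain ⟨hmt, hstab⟩ := Cfsg.Agent.S0705.result G hk hgen
  set F : Finset α → Subgroup G := fun s => fixingSubgroup G (s : Set α) with hF
  have hFmem : ∀ s g, g ∈ F s ↔ ∀ x ∈ s, g • x = x := fun s g => mem_fix G s g
  obtain ⟨P, hP⟩ := exists_isSylowIn p (F Γ)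
  have hPle : P ≤ F Γ := hP.1
  have hPp : IsPGroup p P := hP.2.1
  have horbΓ : ∀ i, ∀ y ∈ orbit (F Γ) (f i), y ∉ Γ := by
    rintro i _ ⟨g, rfl⟩ hy
    apply hf i
    have h1 := (hFmem Γ (g⁻¹ : F Γ)).1 (g⁻¹).2 _ hy
    have h2 : (g⁻¹ : F Γ) • (g • f i) = g • f i := h1
    rw [inv_smul_smul] at h2
    rw [h2]; exact hy
  have horbP : ∀ i, ∀ q ∈ F Γ, ∀ x ∈ orbit (F Γ) (f i), q • x ∈ orbit (F Γ) (f i) := by
    rintro i q hq _ ⟨g, rfl⟩
    exact ⟨⟨q, hq⟩ * g, mul_smul _ _ _⟩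
  -- P is Sylow in the fixer of every k-set of its fixed points
  have hSyl : ∀ s : Finset α, s.card = k → (∀ x ∈ s, ∀ q ∈ P, q • x = x) → IsSylowIn p P (F s) := by
    intro s hs hfix
    have hle : P ≤ F s := fun q hq => (hFmem s q).2 (fun x hx => hfix x hx q hq)
    obtain ⟨R, hPR, hR⟩ := exists_isSylowIn_ge hle hPp
    have hcard : Nat.card R = Nat.card P := by
      have h1 : Nat.card (F s) = Nat.card (F Γ) := card_fix_eq G hmt s Γ hs hΓ
      obtain ⟨T, hT⟩ := hR.exists_sylow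
      obtain ⟨T', hT'⟩ := hP.exists_sylow
      have e1 : Nat.card R = p ^ (Nat.card (F s)).factorization p := by
        rw [← T.card_eq_multiplicity, ← card_subgroupOf_of_le hR.1, ← hT]
      have e2 : Nat.card P = p ^ (Nat.card (F Γ)).factorization p := by
        rw [← T'.card_eq_multiplicity, ← card_subgroupOf_of_le hP.1, ← hT']
      rw [e1, e2, h1]
    exact hR.of_card_le hle hPp hcard.le
  -- N(P) induces the full symmetric group on (k+1)-sets of fixed points
  have hN : ∀ s : Finset α, s.card = k + 1 → (∀ x ∈ s, ∀ q ∈ P, q • x = x) → ∀ σ : Equiv.Perm ↥s,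
      ∃ g : G, g ∈ Subgroup.normalizer (P : Set G) ∧ ∀ x : ↥s, g • (x : α) = σ x := by
    intro s hs hfix σ
    obtain ⟨g, hg, hgσ⟩ := hgen s hs σ
    obtain ⟨x₀, hx₀⟩ : s.Nonempty := Finset.card_pos.1 (by omega)
    have hsylk := hSyl (s.erase x₀) (by rw [Finset.card_erase_of_mem hx₀, hs]; rfl)
      (fun x hx => hfix x (Finset.mem_of_mem_erase hx))
    have hPs : P ≤ F s := fun q hq => (hFmem s q).2 (fun x hx => hfix x hx q hq)
    have hFs : F s ≤ F (s.erase x₀) := by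
      intro q hq
      rw [hFmem] at hq ⊢
      exact fun x hx => hq x (Finset.mem_of_mem_erase hx)
    have hsyls : IsSylowIn p P (F s) := hsylk.of_le hPs hFs
    -- the conjugate g⁻¹ P g
    have hgs : ∀ x : ↥s, (⟨g, hg⟩ : G) • (x : α) = σ x := hgσ
    have hconj : ∀ q ∈ cj (⟨g, hg⟩ : G)⁻¹ P, q ∈ F s := by
      intro q hq
      rw [mem_cj, inv_inv] at hq
      rw [hFmem]
      intro x hx
      have h1 := hfix _ (σ ⟨x, hx⟩).2 _ hq
      rw [← hgs ⟨x, hx⟩, mul_smul, mul_smul, inv_smul_smul, smul_left_cancel_iff] at h1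
      exact h1
    obtain ⟨h, hh, hhP⟩ := hsyls.exists_conj (T := cj (⟨g, hg⟩ : G)⁻¹ P) hconj
      (hPp.map _)
    refine ⟨⟨g, hg⟩ * h⁻¹, ?_, ?_⟩
    · apply mem_normalizer_of_cj_eq
      apply Eq.symm
      apply Subgroup.eq_of_le_of_card_ge
      · -- P ≤ cj (g h⁻¹) P
        intro q hq
        rw [mem_cj]
        have h2 : (⟨g, hg⟩ : G)⁻¹ * q * ⟨g, hg⟩ ∈ cj (⟨g, hg⟩ : G)⁻¹ P := by
          rw [mem_cj, inv_inv]
          have e : (⟨g, hg⟩ : G) * ((⟨g, hg⟩ : G)⁻¹ * q * ⟨g, hg⟩) * (⟨g, hg⟩ : G)⁻¹ = q := by group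
          rw [e]; exact hq
        have h3 := hhP _ h2
        have e : (⟨g, hg⟩ * h⁻¹ : G)⁻¹ * q * (⟨g, hg⟩ * h⁻¹) = h * ((⟨g, hg⟩ : G)⁻¹ * q * ⟨g, hg⟩) * h⁻¹ := by group
        rw [e]; exact h3
      · rw [card_cj]
    · intro x
      have h1 : h⁻¹ • (x : α) = x := (hFmem s _).1 (inv_mem hh) x x.2
      rw [mul_smul, h1, hgs]
  -- fixed points of P in the orbits
  have hp0 : 0 < p := hp.pos
  obtain ⟨y₀, hy₀, hy₀P⟩ := fix_in (H := G) P hPp (orbit (F Γ) (f ⟨0, hp0⟩)) (fun q hq x hx => horbP _ q (hPle hq) x hx) (hcon ⟨0, hp0⟩)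
  have hy₀Γ : y₀ ∉ Γ := horbΓ _ y₀ hy₀
  -- p points of Γ and a p-cycle on them
  obtain ⟨Δ, hΔΓ, hΔ⟩ := Finset.exists_subset_card_eq (s := Γ) (n := p) (by rw [hΓ]; exact hpk)
  have hΔ' : Fintype.card (ZMod p) = Fintype.card {x // x ∈ Δ} := by
    rw [ZMod.card, Fintype.card_coe, hΔ]
  let e : ZMod p ≃ {x // x ∈ Δ} := Fintype.equivOfCardEq hΔ'
  let c : Equiv.Perm α := (Equiv.addRight (1 : ZMod p)).extendDomain e
  have hce : ∀ i : ZMod p, c (e i) = e (i + 1) := fun i => Equiv.Perm.extendDomain_apply_image _ e i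
  have hcn : ∀ x, x ∉ Δ → c x = x := fun x hx => Equiv.Perm.extendDomain_apply_not_subtype _ e hx
  have hcΔ : ∀ x, x ∈ Δ → c x ∈ Δ := by
    intro x hx
    have := hce (e.symm ⟨x, hx⟩)
    rw [Equiv.apply_symm_apply] at this
    rw [show c x = _ from this]
    exact (e _).2
  set s : Finset α := insert y₀ Γ with hs
  have hsc : s.card = k + 1 := by rw [hs, Finset.card_insert_of_notMem hy₀Γ, hΓ]
  have hy₀Δ : y₀ ∉ Δ := fun h => hy₀Γ (hΔΓ h)
  have hcs : ∀ x, x ∈ s ↔ c x ∈ s := by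
    have h1 : ∀ x, x ∈ s → c x ∈ s := by
      intro x hx
      by_cases hxΔ : x ∈ Δ
      · exact Finset.mem_insert_of_mem (hΔΓ (hcΔ x hxΔ))
      · rw [hcn x hxΔ]; exact hx
    intro x
    refine ⟨h1 x, fun h => ?_⟩
    by_cases hxΔ : x ∈ Δ
    · exact Finset.mem_insert_of_mem (hΔΓ hxΔ)
    · rw [hcn x hxΔ] at h; exact h
  have hsfix : ∀ x ∈ s, ∀ q ∈ P, q • x = x := by
    intro x hx q hq
    rcases Finset.mem_insert.1 hx with rfl | hx
    · exact hy₀P q hq
    · exact (hFmem Γ q).1 (hPle hq) x hx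
  obtain ⟨g, hgN, hgc⟩ := hN s hsc hsfix (c.subtypePerm (fun x => (hcs x).symm))
  have hgc' : ∀ x ∈ s, g • x = c x := fun x hx => hgc ⟨x, hx⟩
  obtain ⟨t, hpt, htp⟩ := CfsgLib.H5Sylow.exists_pow_isPGroup p g
  -- action of powers of g
  have hgn : ∀ (n : ℕ) (i : ZMod p), (g ^ n) • ((e i : {x // x ∈ Δ}) : α) = e (i + n) := by
    intro n
    induction n with
    | zero => intro i; rw [pow_zero, one_smul, Nat.cast_zero, add_zero]
    | succ n ih =>
      intro i
      rw [pow_succ', mul_smul, ih, hgc' _ (Finset.mem_insert_of_mem (hΔΓ (e _).2)), hce, Nat.cast_add, Nat.cast_one, add_assoc]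
  have hgn' : ∀ (n : ℕ) x, x ∈ s → x ∉ Δ → (g ^ n) • x = x := by
    intro n
    induction n with
    | zero => intro x _ _; rw [pow_zero, one_smul]
    | succ n ih =>
      intro x hx hxΔ
      rw [pow_succ', mul_smul, ih x hx hxΔ, hgc' x hx, hcn x hxΔ]
  set z := g ^ t with hz
  have hzN : z ∈ Subgroup.normalizer (P : Set G) := Subgroup.pow_mem _ hgN t
  have hzΓ : ∀ x ∈ Γ, z • x ∈ Γ := by
    intro x hx
    by_cases hxΔ : x ∈ Δ
    · have := hgn t (e.symm ⟨x, hxΔ⟩)
      rw [Equiv.apply_symm_apply] at this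
      rw [show z • x = _ from this]
      exact hΔΓ (e _).2
    · rw [hz, hgn' t x (Finset.mem_insert_of_mem hx) hxΔ]; exact hx
  have hzΓ' : z • Γ = Γ := by
    apply Finset.eq_of_subset_of_card_le
    · intro y hy
      obtain ⟨x, hx, rfl⟩ := Finset.mem_smul_finset.1 hy
      exact hzΓ x hx
    · rw [Finset.card_smul_finset]
  -- z preserves the orbits
  have hzO : ∀ i, ∀ x ∈ orbit (F Γ) (f i), z • x ∈ orbit (F Γ) (f i) := by
    intro i x hx
    have hxΓ := horbΓ i x hx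
    have hzxΓ : z • x ∉ Γ := by
      intro h
      rw [← hzΓ', Finset.smul_mem_smul_finset_iff] at h
      exact hxΓ h
    obtain ⟨h, hh, hfix, hhx⟩ := hstab Γ hΓ x (z • x) hxΓ hzxΓ ⟨(z : Equiv.Perm α), z.2, hzΓ', rfl⟩
    have h1 : (⟨h, hh⟩ : G) ∈ F Γ := (hFmem Γ _).2 hfix
    have h2 : (⟨h, hh⟩ : G) • x = z • x := hhx
    rw [← h2]
    exact horbP i _ h1 x hx
  let P1 : Subgroup G := P ⊔ Subgroup.zpowers z
  have hP1p : IsPGroup p P1 := by
    have h1 : Subgroup.zpowers z ≤ Subgroup.normalizer (P : Set G) := by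
      rw [Subgroup.zpowers_le]; exact hzN
    exact IsPGroup.to_sup_of_normal_left' hPp htp h1
  have hP1O : ∀ i, ∀ q ∈ P1, ∀ x ∈ orbit (F Γ) (f i), q • x ∈ orbit (F Γ) (f i) := by
    intro i
    have hst : P1 ≤ stabilizer G (orbit (F Γ) (f i)) := by
      have key : ∀ q : G, (∀ x ∈ orbit (F Γ) (f i), q • x ∈ orbit (F Γ) (f i)) → q ∈ stabilizer G (orbit (F Γ) (f i)) := by
        intro q hq
        rw [mem_stabilizer_iff]
        apply Set.eq_of_subset_of_ncard_le
        · rintro _ ⟨x, hx, rfl⟩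
          exact hq x hx
        · rw [Set.ncard_smul_set]
        · exact Set.toFinite _
      apply sup_le
      · intro q hq
        exact key q (horbP i q (hPle hq))
      · rw [Subgroup.zpowers_le]
        exact key z (hzO i)
    intro q hq x hx
    have h1 := hst hq
    rw [mem_stabilizer_iff] at h1
    rw [← h1]
    exact Set.smul_mem_smul_set hx
  choose y hyO hyP using fun i => fix_in (H := G) P1 hP1p (orbit (F Γ) (f i)) (hP1O i) (hcon i)
  have hyinj : Function.Injective y := by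
    intro i j hij
    by_contra hne
    apply hdist i j hne
    obtain ⟨a, ha⟩ := hyO i
    obtain ⟨b, hb⟩ := hyO j
    refine ⟨b⁻¹ * a, ?_⟩
    change (b⁻¹ * a) • f i = f j
    change a • f i = y i at ha
    change b • f j = y j at hb
    rw [mul_smul, ha, hij, ← hb, inv_smul_smul]
  let Γ' : Finset α := (Γ \ Δ) ∪ (Finset.univ.image y)
  have hΓ'c : Γ'.card = k := by
    rw [Finset.card_union_of_disjoint, Finset.card_sdiff_of_subset hΔΓ, hΓ, hΔ, Finset.card_image_of_injective _ hyinj,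
      Finset.card_univ, Fintype.card_fin]
    · omega
    · rw [Finset.disjoint_left]
      intro x hx hx'
      obtain ⟨i, -, rfl⟩ := Finset.mem_image.1 hx'
      exact horbΓ i _ (hyO i) (Finset.mem_sdiff.1 hx).1
  have hΓ'P1 : ∀ x ∈ Γ', ∀ q ∈ P1, q • x = x := by
    intro x hx
    have hst : P1 ≤ stabilizer G x := by
      rcases Finset.mem_union.1 hx with hx | hx
      · rw [Finset.mem_sdiff] at hx
        apply sup_le
        · intro q hq
          exact (hFmem Γ q).1 (hPle hq) x hx.1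
        · rw [Subgroup.zpowers_le]
          exact hgn' t x (Finset.mem_insert_of_mem hx.1) hx.2
      · obtain ⟨i, -, rfl⟩ := Finset.mem_image.1 hx
        exact fun q hq => hyP i q hq
    exact fun q hq => hst hq
  have hsyl' := hSyl Γ' hΓ'c (fun x hx q hq => hΓ'P1 x hx q (Subgroup.mem_sup_left hq))
  have hP1F : P1 ≤ F Γ' := fun q hq => (hFmem Γ' q).2 (fun x hx => hΓ'P1 x hx q hq)
  have hP1P := hsyl'.eq_of_le hP1F hP1p le_sup_left
  have hzP : z ∈ P := by
    rw [← hP1P]; exact Subgroup.mem_sup_right (Subgroup.mem_zpowers z)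
  have h1 : z • ((e 0 : {x // x ∈ Δ}) : α) = e 0 := (hFmem Γ z).1 (hPle hzP) _ (hΔΓ (e 0).2)
  rw [hz, hgn t 0, zero_add] at h1
  have h2 := e.injective (Subtype.ext h1)
  rw [ZMod.natCast_eq_zero_iff] at h2
  exact hpt h2

end

end CfsgLib.PermJ3
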