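import Mathlib
import Cfsg.Prelude.Def_Perm
import Cfsg.Agent.Lib.PermP3

set_option autoImplicit false

namespace CfsgLib.PermP4

open MulAction Cfsg CfsgLib.PermP1 CfsgLib.PermP2 CfsgLib.PermP3

universe u v w

theorem exists_orbital_op {G : Type u} [Group G] {Ω : Type w} [Fintype Ω] [DecidableEq Ω] [MulAction G Ω]
    [IsPretransitive G Ω] (K : Type v) [Field K] (hn2 : ¬ IsMultiplyPretransitive G Ω 2) :
    ∃ φ : (Ω → K) →ₗ[K] (Ω → K), (∀ (g : G) (v : Ω → K), φ (permRep K G Ω g v) = permRep K G Ω g (φ v)) ∧
      φ (fun _ => 1) = 0 ∧ (∀ v, ∑ x, φ v x = 0) ∧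
      ∃ a b c d : Ω, a ≠ b ∧ c ≠ d ∧ (∀ w : Ω → K, (∀ x, w x = if x = b then 1 else 0) → φ w a = 1) ∧
        (∀ w : Ω → K, (∀ x, w x = if x = d then 1 else 0) → φ w c = 0) := by
  classical
  rw [CfsgLib.PermG3.mt_two_iff] at hn2
  push Not at hn2
  obtain ⟨a, b, c, d, hab, hcd, hne⟩ := hn2
  -- the orbital of (a, b)
  let E : Ω → Ω → Prop := fun x y => ∃ g : G, g • a = x ∧ g • b = y
  have hEinv : ∀ (g : G) (x y : Ω), E x y ↔ E (g • x) (g • y) := by
    intro g x y
    constructor
    · rintro ⟨k, h1, h2⟩
      exact ⟨g * k, by rw [mul_smul, h1], by rw [mul_smul, h2]⟩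
    · rintro ⟨k, h1, h2⟩
      exact ⟨g⁻¹ * k, by rw [mul_smul, h1, inv_smul_smul], by rw [mul_smul, h2, inv_smul_smul]⟩
  have hEab : E a b := ⟨1, one_smul _ _, one_smul _ _⟩
  have hEcd : ¬ E c d := by
    rintro ⟨g, h1, h2⟩
    exact hne g h1 h2
  -- row sums
  have hrow : ∀ x y : Ω, (Finset.univ.filter (fun z => E x z)).card = (Finset.univ.filter (fun z => E y z)).card := by
    intro x y
    obtain ⟨g, hg⟩ := MulAction.exists_smul_eq G x y
    refine Finset.card_bij (fun z _ => g • z) ?_ ?_ ?_
    · intro z hz
      rw [Finset.mem_filter] at hz ⊢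
      refine ⟨Finset.mem_univ _, ?_⟩
      rw [← hg]
      exact (hEinv g x z).1 hz.2
    · intro z _ z' _ h
      exact smul_left_cancel g h
    · intro z hz
      rw [Finset.mem_filter] at hz
      refine ⟨g⁻¹ • z, ?_, smul_inv_smul _ _⟩
      rw [Finset.mem_filter]
      refine ⟨Finset.mem_univ _, ?_⟩
      rw [hEinv g, smul_inv_smul, hg]
      exact hz.2
  set k := (Finset.univ.filter (fun z => E a z)).card with hk
  -- column sums
  have hcol : ∀ x y : Ω, (Finset.univ.filter (fun z => E z x)).card = (Finset.univ.filter (fun z => E z y)).card := by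
    intro x y
    obtain ⟨g, hg⟩ := MulAction.exists_smul_eq G x y
    refine Finset.card_bij (fun z _ => g • z) ?_ ?_ ?_
    · intro z hz
      rw [Finset.mem_filter] at hz ⊢
      refine ⟨Finset.mem_univ _, ?_⟩
      rw [← hg]
      exact (hEinv g z x).1 hz.2
    · intro z _ z' _ h
      exact smul_left_cancel g h
    · intro z hz
      rw [Finset.mem_filter] at hz
      refine ⟨g⁻¹ • z, ?_, smul_inv_smul _ _⟩
      rw [Finset.mem_filter]
      refine ⟨Finset.mem_univ _, ?_⟩
      rw [hEinv g, smul_inv_smul, hg]
      exact hz.2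
  have hcolk : ∀ y : Ω, (Finset.univ.filter (fun z => E z y)).card = k := by
    intro y
    have h1 : ∑ x : Ω, (Finset.univ.filter (fun z => E x z)).card = ∑ y : Ω, (Finset.univ.filter (fun z => E z y)).card := by
      simp only [Finset.card_filter]
      rw [Finset.sum_comm]
    rw [Finset.sum_congr rfl (fun x _ => hrow x a), Finset.sum_congr rfl (fun z _ => hcol z y), Finset.sum_const,
      Finset.sum_const] at h1
    have hpos : 0 < (Finset.univ : Finset Ω).card := Finset.card_pos.2 ⟨a, Finset.mem_univ _⟩
    exact (Nat.eq_of_mul_eq_mul_left hpos h1).symm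
  -- the operator
  let φ : (Ω → K) →ₗ[K] (Ω → K) :=
    { toFun := fun v x => (∑ y, if E x y then v y else 0) - (k : K) * v x
      map_add' := by
        intro v v'
        funext x
        simp only [Pi.add_apply]
        have : (∑ y, if E x y then v y + v' y else 0) = (∑ y, if E x y then v y else 0) + ∑ y, if E x y then v' y else 0 := by
          rw [← Finset.sum_add_distrib]
          refine Finset.sum_congr rfl (fun y _ => ?_)
          split_ifs <;> simp
        rw [this]
        ring
      map_smul' := by
        intro r v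
        funext x
        simp only [Pi.smul_apply, smul_eq_mul, RingHom.id_apply]
        have : (∑ y, if E x y then r * v y else 0) = r * (∑ y, if E x y then v y else 0) := by
          rw [Finset.mul_sum]
          refine Finset.sum_congr rfl (fun y _ => ?_)
          split_ifs <;> simp
        rw [this]
        ring }
  have hφ : ∀ v x, φ v x = (∑ y, if E x y then v y else 0) - (k : K) * v x := fun v x => rfl
  have hφG : ∀ (g : G) (v : Ω → K), φ (permRep K G Ω g v) = permRep K G Ω g (φ v) := by
    intro g v
    funext x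
    change (∑ y, if E x y then v (g⁻¹ • y) else 0) - (k : K) * v (g⁻¹ • x) = (∑ y, if E (g⁻¹ • x) y then v y else 0) - (k : K) * v (g⁻¹ • x)
    congr 1
    apply Fintype.sum_equiv (MulAction.toPerm (g⁻¹))
    intro y
    change (if E x y then v (g⁻¹ • y) else 0) = if E (g⁻¹ • x) (g⁻¹ • y) then v (g⁻¹ • y) else 0
    rw [if_congr (hEinv g⁻¹ x y) rfl rfl]
  have hφ1 : φ (fun _ => 1) = 0 := by
    funext x
    rw [hφ, Finset.sum_ite, Finset.sum_const_zero, add_zero, Finset.sum_const, nsmul_one, hrow x a, mul_one, sub_self]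
    rfl
  have hsumφ : ∀ v, ∑ x, φ v x = 0 := by
    intro v
    simp only [hφ]
    rw [Finset.sum_sub_distrib, Finset.sum_comm, ← Finset.mul_sum, sub_eq_zero]
    rw [Finset.mul_sum]
    refine Finset.sum_congr rfl (fun y _ => ?_)
    rw [Finset.sum_ite, Finset.sum_const_zero, add_zero, Finset.sum_const, hcolk y, nsmul_eq_mul]
  refine ⟨φ, hφG, hφ1, hsumφ, a, b, c, d, hab, hcd, ?_, ?_⟩
  · intro w hw
    rw [hφ, hw a, if_neg hab, mul_zero, sub_zero, Finset.sum_eq_single b]
    · rw [if_pos hEab, hw b, if_pos rfl]
    · intro z _ hz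
      rw [hw z, if_neg hz, ite_self]
    · intro h; exact absurd (Finset.mem_univ _) h
  · intro w hw
    rw [hφ, hw c, if_neg hcd, mul_zero, sub_zero, Finset.sum_eq_single d]
    · rw [if_neg hEcd]
    · intro z _ hz
      rw [hw z, if_neg hz, ite_self]
    · intro h; exact absurd (Finset.mem_univ _) h

theorem affine_three : ∀ σ : Equiv.Perm (ZMod 3), ∃ a b : ZMod 3, ∀ x, σ x = a * x + b := by decide

theorem affine_two : ∀ σ : Equiv.Perm (ZMod 2), ∃ a b : ZMod 2, ∀ x, σ x = a * x + b := by decide

/-- Burnside's theorem on transitive groups of prime degree -/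
theorem burnside {α : Type u} [Fintype α] [DecidableEq α] {p : ℕ} [hp : Fact p.Prime]
    (hα : Fintype.card α = p) (G : Subgroup (Equiv.Perm α)) [IsPretransitive G α] :
    Group.IsSolvable G ∨ IsMultiplyPretransitive G α 2 := by
  classical
  by_contra hcon
  push Not at hcon
  obtain ⟨hns, hn2⟩ := hcon
  obtain ⟨φ, hφG, hφ1, hsumφ, a, b, c, d, hab, hcd, hφab, hφcd⟩ := exists_orbital_op (K := ZMod p) hn2
  have hcardp : Fintype.card α = p ^ 1 := by rw [hα, pow_one]
  have hkerinv : ∀ ψ : (α → ZMod p) →ₗ[ZMod p] (α → ZMod p), (∀ (g : G) (v : α → ZMod p), ψ (permRep (ZMod p) G α g v) = permRep (ZMod p) G α g (ψ v)) →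
      ∀ g : G, ∀ v ∈ LinearMap.ker ψ, permRep (ZMod p) G α g v ∈ LinearMap.ker ψ := by
    intro ψ hψ g v hv
    rw [LinearMap.mem_ker] at hv ⊢
    rw [hψ, hv, map_zero]
  have hker1 : (fun _ : α => (1 : ZMod p)) ∈ LinearMap.ker φ := hφ1
  have h1ne : (fun _ : α => (1 : ZMod p)) ≠ 0 := fun h => one_ne_zero (congrFun h a)
  have hφne : φ ≠ 0 := by
    intro h
    have := hφab (fun x => if x = b then 1 else 0) (fun x => rfl)
    rw [h] at this
    exact zero_ne_one this
  have hdim : Module.finrank (ZMod p) (α → ZMod p) = p := by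
    rw [Module.finrank_fintype_fun_eq_card, hα]
  have hkerne : LinearMap.ker φ ≠ ⊤ := by
    intro h
    apply hφne
    exact LinearMap.ker_eq_top.1 h
  have hker0 : 1 ≤ Module.finrank (ZMod p) (LinearMap.ker φ) := by
    by_contra h
    have h0 : Module.finrank (ZMod p) (LinearMap.ker φ) = 0 := by omega
    rw [Submodule.finrank_eq_zero] at h0
    rw [h0, Submodule.mem_bot] at hker1
    exact h1ne hker1
  have hcore := fun W hW => core_solvable (K := ZMod p) hα G W hW
  -- range contains constants
  have hrange1 : (fun _ : α => (1 : ZMod p)) ∈ LinearMap.range φ := by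
    apply constants_le (G := G) hcardp
    · rintro g _ ⟨v, rfl⟩
      exact ⟨_, hφG g v⟩
    · intro h
      exact hφne (LinearMap.range_eq_bot.1 h)
  -- finrank ker φ < p - 1
  have hlt : Module.finrank (ZMod p) (LinearMap.ker φ) < p - 1 := by
    by_contra hge
    push Not at hge
    have hrn := LinearMap.finrank_range_add_finrank_ker φ
    rw [hdim] at hrn
    have hr1 : Module.finrank (ZMod p) (LinearMap.range φ) ≤ 1 := by
      have := hp.out.two_le
      omega
    -- range = constants
    have hrc : ∀ v, ∀ x y, φ v x = φ v y := by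
      intro v x y
      have h1 : LinearMap.range φ = Submodule.span (ZMod p) {(fun _ : α => (1 : ZMod p))} := by
        apply Eq.symm
        apply Submodule.eq_of_le_of_finrank_le
        · exact (Submodule.span_singleton_le_iff_mem _ _).2 hrange1
        · rw [finrank_span_singleton h1ne]
          exact hr1
      have h2 : φ v ∈ LinearMap.range φ := ⟨v, rfl⟩
      rw [h1] at h2
      obtain ⟨r, hr⟩ := Submodule.mem_span_singleton.1 h2
      rw [← hr]
      rfl
    have hker : ∀ v ∈ LinearMap.ker φ, ∑ x, v x = 0 :=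
      le_sumZero (G := G) hcardp (LinearMap.ker φ) (hkerinv φ hφG) hkerne
    -- sum zero functions form a space of dimension p - 1, so they are in the kernel
    have hsz : ∀ v : α → ZMod p, ∑ x, v x = 0 → φ v = 0 := by
      let S : Submodule (ZMod p) (α → ZMod p) := (permSumZero (ZMod p) G α).toSubmodule
      have hS : LinearMap.ker φ ≤ S := fun v hv => hker v hv
      have hSne : S ≠ ⊤ := by
        intro h
        have : (Pi.single a 1 : α → ZMod p) ∈ S := by rw [h]; exact Submodule.mem_top
        have h2 : ∑ x, (Pi.single a 1 : α → ZMod p) x = 0 := this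
        rw [Finset.sum_pi_single'] at h2
        simp at h2
      have hSlt : Module.finrank (ZMod p) S < p := by
        have hSlt' := Submodule.finrank_lt hSne
        rw [hdim] at hSlt'
        exact hSlt'
      have heq : LinearMap.ker φ = S := Submodule.eq_of_le_of_finrank_le hS (by omega)
      intro v hv
      have : v ∈ S := hv
      rw [← heq] at this
      exact this
    have hsingle : ∀ x y : α, φ (fun t => if t = x then 1 else 0) = φ (fun t => if t = y then 1 else 0) := by
      intro x y
      rw [← sub_eq_zero, ← map_sub]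
      apply hsz
      simp only [Pi.sub_apply]
      rw [Finset.sum_sub_distrib]
      simp
    have e1 := hφab _ (fun x => rfl)
    have e2 := hφcd _ (fun x => rfl)
    rw [hsingle d b, hrc _ c a, e1] at e2
    exact one_ne_zero e2
  by_cases h1 : Module.finrank (ZMod p) (LinearMap.ker φ) = 1
  · -- use the square
    obtain ⟨u, hu⟩ := hrange1
    have hlt2 : LinearMap.ker φ < LinearMap.ker (φ * φ) := by
      refine lt_of_le_of_ne ?_ ?_
      · intro v hv
        rw [LinearMap.mem_ker] at hv ⊢
        change φ (φ v) = 0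
        rw [hv, map_zero]
      · intro h
        have : u ∈ LinearMap.ker (φ * φ) := by
          rw [LinearMap.mem_ker]
          change φ (φ u) = 0
          rw [hu, hφ1]
        rw [← h, LinearMap.mem_ker, hu] at this
        exact h1ne this
    have h2 := Submodule.finrank_lt_finrank_of_lt hlt2
    have h3 := finrank_ker_mul φ φ
    have h4 : Module.finrank (ZMod p) (LinearMap.ker (φ * φ)) = 2 := by omega
    by_cases hp3 : 3 < p
    · exact hns (hcore (LinearMap.ker (φ * φ)) (hkerinv (φ * φ) (by
        intro g v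
        change φ (φ _) = _
        rw [hφG, hφG]
        rfl)) (by omega) (by omega))
    · -- small primes
      have hp2 := hp.out.two_le
      have hp3' : p = 3 := by omega
      subst hp3'
      apply hns
      obtain ⟨z, e, -, -, -⟩ := exists_coord hα G
      apply solvable_of_affine G e
      intro g _
      exact affine_three (e.symm.trans (g.trans e))
  · exact hns (hcore (LinearMap.ker φ) (hkerinv φ hφG) (by omega) hlt)

end CfsgLib.PermP4
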