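import Mathlib
import Cfsg.Prelude.Def_Perm
import Cfsg.Agent.Lib.PermP4

set_option autoImplicit false

namespace CfsgLib.PermP5

open MulAction Cfsg CfsgLib.PermP1 CfsgLib.PermP2 CfsgLib.PermP3 CfsgLib.PermP4

universe u

variable {α : Type u} [Fintype α] [DecidableEq α] {p : ℕ} [hp : Fact p.Prime]

theorem card_sylow (hα : Fintype.card α = p) (G : Subgroup (Equiv.Perm α)) (P : Sylow p G) :
    Nat.card P ∣ p := by
  have h1 : Nat.card G ∣ p.factorial := by
    have := Subgroup.card_subgroup_dvd_card G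
    rwa [Nat.card_eq_fintype_card (α := Equiv.Perm α), Fintype.card_perm, hα] at this
  have h2 : Nat.card P = p ^ (Nat.card G).factorization p := P.card_eq_multiplicity
  have h3 : (Nat.card G).factorization p ≤ 1 := by
    have h4 : p ^ (Nat.card G).factorization p ∣ p.factorial :=
      (Nat.ordProj_dvd _ _).trans h1
    by_contra hcon
    push Not at hcon
    have h5 : p ^ 2 ∣ p.factorial := (pow_dvd_pow p hcon).trans h4
    obtain ⟨q, hq⟩ : ∃ q, p = q + 1 := ⟨p - 1, by have := hp.out.pos; omega⟩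
    have h6 : p.factorial = p * q.factorial := by
      rw [hq, Nat.factorial_succ]
    rw [h6, pow_two] at h5
    have h7 : p ∣ q.factorial := Nat.dvd_of_mul_dvd_mul_left hp.out.pos h5
    rw [hp.out.dvd_factorial] at h7
    omega
  rw [h2]
  exact (pow_dvd_pow p h3).trans (by rw [pow_one])

/-- coordinates with a reflection, when the Sylow normaliser has even order -/
theorem exists_dihedral (hα : Fintype.card α = p) (hp2 : p ≠ 2) (G : Subgroup (Equiv.Perm α)) [IsPretransitive G α]
    (P : Sylow p G) (heven : Even (Nat.card (Subgroup.normalizer ((P : Subgroup G) : Set G)))) :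
    ∃ (z t : Equiv.Perm α) (e : α ≃ ZMod p) (b : ZMod p), z ∈ G ∧ t ∈ G ∧ (∀ x, e (z x) = e x + 1) ∧
      (∀ x, e (t x) = - e x + b) := by
  classical
  have hα1 : Nat.card α = p ^ 1 := by rw [Nat.card_eq_fintype_card, hα, pow_one]
  haveI hPt := sylow_transitive hα1 P
  haveI hP't : IsPretransitive ((P : Subgroup G).map G.subtype) α := by
    refine ⟨fun x y => ?_⟩
    obtain ⟨g, hg⟩ := exists_smul_eq P x y
    exact ⟨⟨((g : G) : Equiv.Perm α), (g : G), g.2, rfl⟩, hg⟩
  obtain ⟨z, e, hz, hzo, hze⟩ := exists_coord hα ((P : Subgroup G).map G.subtype)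
  obtain ⟨z', hz'P, hz'⟩ := hz
  have hz'' : (z' : Equiv.Perm α) = z := hz'
  subst hz''
  have hcard := card_sylow hα G P
  -- P = zpowers z'
  have hPz : (P : Subgroup G) = Subgroup.zpowers z' := by
    apply Eq.symm
    apply Subgroup.eq_of_le_of_card_ge
    · rw [Subgroup.zpowers_le]; exact hz'P
    · rw [Nat.card_zpowers, ← Subgroup.orderOf_coe, hzo]
      exact Nat.le_of_dvd hp.out.pos hcard
  haveI : Fact (Nat.Prime 2) := ⟨Nat.prime_two⟩
  obtain ⟨t, ht⟩ := exists_prime_orderOf_dvd_card' (G := Subgroup.normalizer ((P : Subgroup G) : Set G)) 2 heven.two_dvd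
  have ht2 : (((t : G) : Equiv.Perm α)) * ((t : G) : Equiv.Perm α) = 1 := by
    have : t ^ 2 = 1 := by rw [← ht]; exact pow_orderOf_eq_one t
    rw [pow_two] at this
    exact congrArg (fun s : Subgroup.normalizer ((P : Subgroup G) : Set G) => ((s : G) : Equiv.Perm α)) this
  have ht1 : ((t : G) : Equiv.Perm α) ≠ 1 := by
    intro h
    have : t = 1 := Subtype.ext (Subtype.ext h)
    rw [this, orderOf_one] at ht
    norm_num at ht
  have htN := t.2
  rw [Subgroup.mem_normalizer_iff] at htN
  have htz : (t : G) * z' * (t : G)⁻¹ ∈ Subgroup.zpowers z' := by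
    rw [← hPz]
    exact (htN z').1 hz'P
  obtain ⟨k, hk⟩ := Subgroup.mem_zpowers_iff.1 htz
  -- powers of z in coordinates
  have hzn : ∀ (n : ℕ) (x : α), e (((z' : Equiv.Perm α) ^ n) x) = e x + n := by
    intro n
    induction n with
    | zero => intro x; rw [pow_zero, Nat.cast_zero, add_zero]; rfl
    | succ n ih =>
      intro x
      rw [pow_succ, Equiv.Perm.mul_apply, ih, hze, Nat.cast_add, Nat.cast_one]
      ring
  have hzk : ∀ (n : ℤ) (x : α), e (((z' : Equiv.Perm α) ^ n) x) = e x + n := by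
    intro n x
    obtain ⟨m, rfl | rfl⟩ := n.eq_nat_or_neg
    · rw [zpow_natCast, hzn, Int.cast_natCast]
    · rw [zpow_neg, zpow_natCast]
      have h1 := hzn m ((((z' : Equiv.Perm α) ^ m)⁻¹) x)
      rw [CfsgLib.PermG3.apply_inv] at h1
      rw [Int.cast_neg, Int.cast_natCast]
      rw [h1]
      ring
  have hτ : ∀ x, e (((t : G) : Equiv.Perm α) ((z' : Equiv.Perm α) x)) = e (((t : G) : Equiv.Perm α) x) + (k : ZMod p) := by
    intro x
    have h1 : (((t : G) : Equiv.Perm α)) * (z' : Equiv.Perm α) = ((z' : Equiv.Perm α) ^ k) * ((t : G) : Equiv.Perm α) := by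
      have h2 : (t : G) * z' = z' ^ k * (t : G) := by rw [hk, inv_mul_cancel_right]
      have h3 := congrArg (fun s : G => (s : Equiv.Perm α)) h2
      exact h3
    rw [← Equiv.Perm.mul_apply, h1, Equiv.Perm.mul_apply, hzk]
  set τ : ZMod p → ZMod p := fun x => e (((t : G) : Equiv.Perm α) (e.symm x)) with hτd
  have hτ1 : ∀ x, τ (x + 1) = τ x + k := by
    intro x
    have h1 := hτ (e.symm x)
    have h2 : (z' : Equiv.Perm α) (e.symm x) = e.symm (x + 1) := by
      rw [Equiv.eq_symm_apply, hze, Equiv.apply_symm_apply]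
    rw [h2] at h1
    exact h1
  have hτn : ∀ n : ℕ, τ (n : ZMod p) = τ 0 + n * k := by
    intro n
    induction n with
    | zero => rw [Nat.cast_zero, zero_mul, add_zero]
    | succ n ih => rw [Nat.cast_add, Nat.cast_one, hτ1, ih]; ring
  have hτx : ∀ x : ZMod p, τ x = k * x + τ 0 := by
    intro x
    have := hτn x.val
    rw [ZMod.natCast_zmod_val] at this
    rw [this]; ring
  have hττ : ∀ x, τ (τ x) = x := by
    intro x
    change e (((t : G) : Equiv.Perm α) (e.symm (e (((t : G) : Equiv.Perm α) (e.symm x))))) = x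
    rw [Equiv.symm_apply_apply, ← Equiv.Perm.mul_apply, ht2, Equiv.Perm.one_apply, Equiv.apply_symm_apply]
  have hk2 : (k : ZMod p) * k = 1 := by
    have h1 := hττ 1
    have h0 := hττ 0
    rw [hτx (τ 1), hτx 1] at h1
    rw [hτx (τ 0)] at h0
    linear_combination h1 - h0
  have h2ne : (2 : ZMod p) ≠ 0 := by
    intro h
    have h3 : ((2 : ℕ) : ZMod p) = 0 := by exact_mod_cast h
    rw [ZMod.natCast_eq_zero_iff] at h3
    exact hp2 ((Nat.prime_dvd_prime_iff_eq hp.out Nat.prime_two).1 h3)
  have hkn : (k : ZMod p) = -1 := by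
    have h1 : ((k : ZMod p) - 1) * (k + 1) = 0 := by linear_combination hk2
    rcases mul_eq_zero.1 h1 with h | h
    · exfalso
      have hk1 : (k : ZMod p) = 1 := sub_eq_zero.1 h
      have h0 := hττ 0
      rw [hτx (τ 0), hk1, one_mul] at h0
      have h4 : τ 0 = 0 := by
        have : (2 : ZMod p) * τ 0 = 0 := by linear_combination h0
        exact (mul_eq_zero.1 this).resolve_left h2ne
      apply ht1
      ext x
      have h5 := hτx (e x)
      rw [hk1, h4, one_mul, add_zero] at h5
      have h6 : e (((t : G) : Equiv.Perm α) (e.symm (e x))) = e x := h5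
      rw [Equiv.symm_apply_apply] at h6
      exact e.injective h6
    · exact eq_neg_of_add_eq_zero_left h
  refine ⟨z', ((t : G) : Equiv.Perm α), e, τ 0, z'.2, (t : G).2, hze, ?_⟩
  intro x
  have h5 := hτx (e x)
  rw [hkn, neg_one_mul] at h5
  have h6 : e (((t : G) : Equiv.Perm α) (e.symm (e x))) = - e x + τ 0 := h5
  rw [Equiv.symm_apply_apply] at h6
  exact h6

end CfsgLib.PermP5
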