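import Mathlib
import Cfsg.Agent.Lib.PermP1
import Cfsg.Agent.Lib.PermP5

set_option autoImplicit false

/-! Sylow numbers in transitive groups of prime degree. -/
namespace CfsgLib.PermP6

open MulAction CfsgLib.PermP1 CfsgLib.PermP5

universe u

variable {α : Type u} [Fintype α] [DecidableEq α] {p : ℕ} [hp : Fact p.Prime]

theorem card_sylow_eq (hα : Fintype.card α = p) (G : Subgroup (Equiv.Perm α)) [IsPretransitive G α] (P : Sylow p G) :
    Nat.card P = p := by
  rcases (Nat.dvd_prime hp.out).1 (card_sylow hα G P) with h | h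
  · exfalso
    have h1 : p ∣ Nat.card G := by
      obtain ⟨a⟩ : Nonempty α := Fintype.card_pos_iff.1 (by rw [hα]; exact hp.out.pos)
      have h2 := MulAction.index_stabilizer_of_transitive G a
      rw [Nat.card_eq_fintype_card, hα] at h2
      rw [← h2]
      exact Subgroup.index_dvd_card _
    rw [P.card_eq_multiplicity] at h
    have h3 : 0 < (Nat.card G).factorization p := hp.out.factorization_pos_of_dvd Nat.card_pos.ne' h1
    have h4 : 1 < p ^ (Nat.card G).factorization p := Nat.one_lt_pow h3.ne' hp.out.one_lt
    omega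
  · exact h

theorem centralizer_card (hα : Fintype.card α = p) (G : Subgroup (Equiv.Perm α)) [IsPretransitive G α] (P : Sylow p G) :
    Nat.card (Subgroup.centralizer ((P : Subgroup G) : Set G)) = p := by
  classical
  have hα1 : Nat.card α = p ^ 1 := by rw [Nat.card_eq_fintype_card, hα, pow_one]
  haveI hPt := sylow_transitive hα1 P
  obtain ⟨a⟩ : Nonempty α := Fintype.card_pos_iff.1 (by rw [hα]; exact hp.out.pos)
  set C := Subgroup.centralizer ((P : Subgroup G) : Set G) with hC
  haveI hcyc : IsCyclic P := isCyclic_of_prime_card (card_sylow_eq hα G P)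
  have hPC : (P : Subgroup G) ≤ C := by
    rw [hC, Subgroup.le_centralizer_iff_isMulCommutative]
    exact ⟨⟨fun x y => (IsCyclic.commGroup (α := P)).mul_comm x y⟩⟩
  have h1 : p ∣ Nat.card C := by
    have h2 := Subgroup.card_dvd_of_le hPC
    have h3 : Nat.card (P : Subgroup G) = p := card_sylow_eq hα G P
    rwa [h3] at h2
  have h2 : Nat.card C ≤ p := by
    have h3 : Function.Injective (fun c : C => (c : G) • a) := by
      intro c d hcd
      have hcd' : (c : G) • a = (d : G) • a := hcd
      have h4 : (c : G) = d := by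
        apply Subtype.ext
        ext x
        obtain ⟨u, hu⟩ := hPt.exists_smul_eq a x
        have hu' : (u : G) • a = x := hu
        change (c : G) • x = (d : G) • x
        rw [← hu', ← mul_smul, ← mul_smul]
        have h5 : (u : G) * c = c * u := (Subgroup.mem_centralizer_iff.1 c.2) u u.2
        have h6 : (u : G) * d = d * u := (Subgroup.mem_centralizer_iff.1 d.2) u u.2
        rw [← h5, ← h6, mul_smul, mul_smul, hcd']
      exact Subtype.ext h4
    have h4 := Nat.card_le_card_of_injective _ h3
    rwa [Nat.card_eq_fintype_card (α := α), hα] at h4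
  exact le_antisymm h2 (Nat.le_of_dvd Nat.card_pos h1)

theorem normalizer_card (hα : Fintype.card α = p) (G : Subgroup (Equiv.Perm α)) [IsPretransitive G α] (P : Sylow p G) :
    ∃ d : ℕ, d ∣ p - 1 ∧ Nat.card (Subgroup.normalizer ((P : Subgroup G) : Set G)) = p * d := by
  classical
  haveI hcyc : IsCyclic P := isCyclic_of_prime_card (card_sylow_eq hα G P)
  let f := Subgroup.normalizerMonoidHom (P : Subgroup G)
  have h1 : Nat.card f.range ∣ p - 1 := by
    have h2 := Subgroup.card_subgroup_dvd_card f.range
    have h3 : Nat.card (MulAut (P : Subgroup G)) = p - 1 := by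
      have h4 : Nat.card (MulAut P) = Nat.totient (Nat.card P) := IsCyclic.card_mulAut P
      rw [card_sylow_eq hα G P, Nat.totient_prime hp.out] at h4
      exact h4
    rwa [h3] at h2
  refine ⟨Nat.card f.range, h1, ?_⟩
  have h2 : Nat.card f.ker = p := by
    have h3 : f.ker = (Subgroup.centralizer ((P : Subgroup G) : Set G)).subgroupOf (Subgroup.normalizer ((P : Subgroup G) : Set G)) :=
      Subgroup.normalizerMonoidHom_ker _
    rw [h3]
    refine Eq.trans ?_ (centralizer_card hα G P)
    exact Nat.card_congr (Subgroup.subgroupOfEquivOfLe (Subgroup.centralizer_le_normalizer _)).toEquiv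
  have h3 := Subgroup.card_mul_index f.ker
  rw [Subgroup.index_ker, h2] at h3
  exact h3.symm

theorem card_eq (hα : Fintype.card α = p) (G : Subgroup (Equiv.Perm α)) [IsPretransitive G α] (P : Sylow p G) :
    ∃ d r : ℕ, d ∣ p - 1 ∧ Nat.card (Subgroup.normalizer ((P : Subgroup G) : Set G)) = p * d ∧ r ≡ 1 [MOD p] ∧
      Nat.card G = p * d * r := by
  obtain ⟨d, hd, hN⟩ := normalizer_card hα G P
  refine ⟨d, Nat.card (Sylow p G), hd, hN, card_sylow_modEq_one p G, ?_⟩
  rw [P.card_eq_index_normalizer, ← hN]
  exact (Subgroup.card_mul_index _).symm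

end CfsgLib.PermP6
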