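import Mathlib
import Cfsg.Agent.Lib.PermP6
import Cfsg.Agent.Lib.PermP7
import Cfsg.Agent.Lib.PermP4

set_option autoImplicit false

/-! More on transitive groups of prime degree. -/
namespace CfsgLib.PermP8

open MulAction CfsgLib.PermP1 CfsgLib.PermP3 CfsgLib.PermG3 CfsgLib.PermP6 CfsgLib.PermP7

universe u

variable {α : Type u} [Fintype α] [DecidableEq α] {p : ℕ} [hp : Fact p.Prime]

theorem card_of_normalizer (hα : Fintype.card α = p) (G : Subgroup (Equiv.Perm α)) [IsPretransitive G α] (P : Sylow p G)
    (h : Nat.card (Subgroup.normalizer ((P : Subgroup G) : Set G)) = p) : Nat.card G = p := by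
  classical
  have hPc := card_sylow_eq hα G P
  have hPN : (P : Subgroup G) = Subgroup.normalizer ((P : Subgroup G) : Set G) := by
    apply Subgroup.eq_of_le_of_card_ge Subgroup.le_normalizer
    rw [h]; exact hPc.ge
  have hcomm : (Subgroup.normalizer ((P : Subgroup G) : Set G)) ≤ Subgroup.centralizer ((P : Subgroup G) : Set G) := by
    haveI hcyc : IsCyclic P := isCyclic_of_prime_card hPc
    rw [← hPN, Subgroup.le_centralizer_iff_isMulCommutative]
    exact ⟨⟨fun x y => (IsCyclic.commGroup (α := P)).mul_comm x y⟩⟩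
  have hcompl := MonoidHom.ker_transferSylow_isComplement' P hcomm
  set K := (MonoidHom.transferSylow P hcomm).ker with hK
  have hcard := hcompl.card_mul_card
  by_cases hKb : K = ⊥
  · rw [hKb, Subgroup.card_bot, one_mul] at hcard
    rw [← hcard]; exact hPc
  · exfalso
    haveI hKt := normal_transitive hα G K inferInstance hKb
    obtain ⟨a⟩ : Nonempty α := Fintype.card_pos_iff.1 (by rw [hα]; exact hp.out.pos)
    have h1 : p ∣ Nat.card K := by
      have h2 := MulAction.index_stabilizer_of_transitive K a
      rw [Nat.card_eq_fintype_card, hα] at h2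
      rw [← h2]
      exact Subgroup.index_dvd_card _
    have h2 : p ^ 2 ∣ Nat.card G := by
      rw [← hcard, pow_two]
      have h3 : Nat.card (P : Subgroup G) = p := hPc
      rw [h3]
      exact Nat.mul_dvd_mul h1 dvd_rfl
    have h3 := Sylow.card_eq_multiplicity P
    rw [hPc] at h3
    have h4 : 2 ≤ (Nat.card G).factorization p := (hp.out.pow_dvd_iff_le_factorization Nat.card_pos.ne').1 h2
    have h5 : p ^ 2 ≤ p ^ (Nat.card G).factorization p := Nat.pow_le_pow_right hp.out.pos h4
    rw [← h3] at h5
    have h6 : p * 1 < p * p := Nat.mul_lt_mul_of_pos_left hp.out.one_lt hp.out.pos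
    rw [pow_two] at h5
    omega

/-- a transitive group of prime degree with a nontrivial solvable normal subgroup is solvable -/
theorem solvable_of_normal (hα : Fintype.card α = p) (G N : Subgroup (Equiv.Perm α)) [IsPretransitive G α] [IsPretransitive N α]
    (hn : ∀ g ∈ G, ∀ n ∈ N, g * n * g⁻¹ ∈ N) (hs : Group.IsSolvable N) : Group.IsSolvable G := by
  classical
  obtain ⟨z, e, hz, hzo, hze, haff⟩ := affine_of_solvable hα N hs
  apply solvable_of_affine G e
  intro g hg
  -- g z g⁻¹ is a translation
  set c := g * z * g⁻¹ with hc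
  obtain ⟨a, b, hab⟩ := haff c (hn g hg z hz)
  have hpow : ∀ (n : ℕ) (x y : α), e ((c ^ n) x) - e ((c ^ n) y) = a ^ n * (e x - e y) := by
    intro n
    induction n with
    | zero => intro x y; simp
    | succ n ih =>
      intro x y
      have e1 : ∀ x, (c ^ (n + 1)) x = (c ^ n) (c x) := fun x => by rw [pow_succ]; rfl
      rw [e1, e1, ih, hab, hab, pow_succ]
      ring
  have hcp : c ^ p = 1 := by
    rw [hc, conj_pow, ← hzo, pow_orderOf_eq_one, mul_one, mul_inv_cancel]
  have ha : a = 1 := by
    have h1 := hpow p (e.symm 1) (e.symm 0)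
    rw [hcp, Equiv.Perm.one_apply, Equiv.Perm.one_apply, Equiv.apply_symm_apply, Equiv.apply_symm_apply, ZMod.pow_card, sub_zero, mul_one] at h1
    exact h1.symm
  have hstep : ∀ x, e (g (z x)) = e (g x) + b := by
    intro x
    have h1 := hab (g x)
    rw [ha, one_mul] at h1
    rw [← h1, hc, Equiv.Perm.mul_apply, Equiv.Perm.mul_apply, inv_apply]
  have h6 := affine_of_step (fun x => e (g (e.symm x))) b (by
    intro x
    change e (g (e.symm (x + 1))) = e (g (e.symm x)) + b
    have h2 : e.symm (x + 1) = z (e.symm x) := by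
      rw [Equiv.symm_apply_eq, hze, Equiv.apply_symm_apply]
    rw [h2, hstep])
  exact ⟨b, _, h6⟩

theorem mt_card_dvd {G : Type*} [Group G] [MulAction G α] {k : ℕ} (h : IsMultiplyPretransitive G α k) (hk : k ≤ Fintype.card α) :
    (Fintype.card α).descFactorial k ∣ Nat.card G := by
  classical
  haveI : IsPretransitive G (Fin k ↪ α) := h
  obtain ⟨x⟩ : Nonempty (Fin k ↪ α) := Function.Embedding.nonempty_of_card_le (by rw [Fintype.card_fin]; exact hk)
  have h2 := MulAction.index_stabilizer_of_transitive G x
  rw [Nat.card_eq_fintype_card, Fintype.card_embedding_eq, Fintype.card_fin] at h2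
  rw [← h2]
  exact Subgroup.index_dvd_card _

end CfsgLib.PermP8
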