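import Mathlib

set_option autoImplicit false

/-! Groups of fixed-point-free automorphisms with at most two orbits. -/
namespace CfsgLib.PermZ5

universe u

variable {G : Type u} [Group G] [Finite G]

theorem conj_dvd (A : Subgroup G) (S : Set G) (hinv : ∀ h ∈ A, ∀ x ∈ S, h * x * h⁻¹ ∈ S)
    (hfree : ∀ h ∈ A, ∀ x ∈ S, h * x * h⁻¹ = x → h = 1) : Nat.card A ∣ S.ncard := by
  classical
  letI : MulAction A S :=
    { smul := fun h x => ⟨(h : G) * x * (h : G)⁻¹, hinv h h.2 x x.2⟩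
      one_smul := fun x => Subtype.ext (by change (1 : G) * x * (1 : G)⁻¹ = x; simp)
      mul_smul := fun g h x => Subtype.ext (by
        change ((g : G) * h) * x * ((g : G) * h)⁻¹ = g * (h * x * (h : G)⁻¹) * (g : G)⁻¹
        group) }
  have h1 : ∀ b : S, MulAction.stabilizer A b = ⊥ := by
    intro b
    rw [eq_bot_iff]
    intro a ha
    rw [Subgroup.mem_bot]
    have h2 : (a : G) * b * (a : G)⁻¹ = b := congrArg Subtype.val ha
    exact Subtype.ext (hfree a a.2 b b.2 h2)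
  rw [← Nat.card_coe_set_eq, Nat.card_congr (MulAction.selfEquivOrbitsQuotientProd h1), Nat.card_prod]
  exact dvd_mul_left _ _

theorem order_conj (h u : G) : orderOf (h * u * h⁻¹) = orderOf u :=
  orderOf_injective (MulAut.conj h).toMonoidHom (MulAut.conj h).injective u

/-- at most two orbits: elementary abelian -/
theorem two_orbits (F H : Subgroup G) (hinv : ∀ h ∈ H, ∀ x ∈ F, h * x * h⁻¹ ∈ F)
    (hfree : ∀ h ∈ H, ∀ x ∈ F, x ≠ 1 → h * x * h⁻¹ = x → h = 1) (hF : 2 ≤ Nat.card F) (hd : Nat.card F - 1 ≤ 2 * Nat.card H) :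
    (∀ x ∈ F, ∀ y ∈ F, x * y = y * x) ∧ ∃ p f : ℕ, p.Prime ∧ (∀ x ∈ F, x ^ p = 1) ∧ Nat.card F = p ^ f := by
  classical
  have hfin : ∀ S : Set G, S.Finite := fun S => Set.toFinite S
  have hHpos : 0 < Nat.card H := Nat.card_pos
  -- invariant nonempty subsets
  have hset : ∀ S : Set G, (∀ x ∈ S, x ∈ F ∧ x ≠ 1) → (∀ h ∈ H, ∀ x ∈ S, h * x * h⁻¹ ∈ S) → S.Nonempty →
      Nat.card H ∣ S.ncard ∧ Nat.card H ≤ S.ncard := by
    intro S hS hi hne
    have h1 := conj_dvd H S hi (fun h hh x hx he => hfree h hh x (hS x hx).1 (hS x hx).2 he)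
    exact ⟨h1, Nat.le_of_dvd ((Set.ncard_pos (hfin S)).2 hne) h1⟩
  have hF1 : ({x : G | x ∈ F ∧ x ≠ 1}).ncard = Nat.card F - 1 := by
    have h1 : {x : G | x ∈ F ∧ x ≠ 1} = (F : Set G) \ {1} := by
      ext x; simp
    rw [h1, Set.ncard_diff_singleton_of_mem (one_mem F)]
    rfl
  -- two disjoint invariant sets
  have htwo : ∀ S T : Set G, (∀ x ∈ S, x ∈ F ∧ x ≠ 1) → (∀ h ∈ H, ∀ x ∈ S, h * x * h⁻¹ ∈ S) → S.Nonempty →
      (∀ x ∈ T, x ∈ F ∧ x ≠ 1) → (∀ h ∈ H, ∀ x ∈ T, h * x * h⁻¹ ∈ T) → T.Nonempty → Disjoint S T →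
      S.ncard = Nat.card H ∧ T.ncard = Nat.card H ∧ Nat.card F - 1 = 2 * Nat.card H ∧ S ∪ T = {x : G | x ∈ F ∧ x ≠ 1} := by
    intro S T hS1 hS2 hS3 hT1 hT2 hT3 hdis
    have h1 := hset S hS1 hS2 hS3
    have h2 := hset T hT1 hT2 hT3
    have h3 : S ∪ T ⊆ {x : G | x ∈ F ∧ x ≠ 1} := by
      intro x hx
      rcases hx with hx | hx
      · exact hS1 x hx
      · exact hT1 x hx
    have h4 := Set.ncard_le_ncard h3 (hfin _)
    rw [Set.ncard_union_eq hdis (hfin _) (hfin _), hF1] at h4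
    refine ⟨by omega, by omega, by omega, ?_⟩
    apply Set.eq_of_subset_of_ncard_le h3
    · rw [Set.ncard_union_eq hdis (hfin _) (hfin _), hF1]
      omega
  -- a prime
  obtain ⟨p, hp, hpd⟩ := Nat.exists_prime_and_dvd (show Nat.card F ≠ 1 by omega)
  haveI := Fact.mk hp
  have hord : ∀ r : ℕ, r.Prime → r ∣ Nat.card F → ∃ x ∈ F, orderOf x = r := by
    intro r hr hrd
    haveI := Fact.mk hr
    obtain ⟨x, hx⟩ := exists_prime_orderOf_dvd_card' (G := F) r hrd
    exact ⟨x, x.2, by rw [Subgroup.orderOf_coe, hx]⟩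
  -- only one prime
  have hone : ∀ q : ℕ, q.Prime → q ∣ Nat.card F → q = p := by
    intro q hq hqd
    by_contra hqp
    haveI := Fact.mk hq
    have hset2 : ∀ r : ℕ, r.Prime → ∀ x ∈ {x : G | x ∈ F ∧ orderOf x = r}, x ∈ F ∧ x ≠ 1 := by
      rintro r hr x ⟨hx1, hx2⟩
      refine ⟨hx1, ?_⟩
      rintro rfl
      rw [orderOf_one] at hx2
      exact hr.one_lt.ne hx2
    have hinv2 : ∀ r : ℕ, ∀ h ∈ H, ∀ x ∈ {x : G | x ∈ F ∧ orderOf x = r}, h * x * h⁻¹ ∈ {x : G | x ∈ F ∧ orderOf x = r} := by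
      rintro r h hh x ⟨hx1, hx2⟩
      exact ⟨hinv h hh x hx1, by rw [order_conj, hx2]⟩
    obtain ⟨e1, e2, e3, e4⟩ := htwo {x : G | x ∈ F ∧ orderOf x = p} {x : G | x ∈ F ∧ orderOf x = q} (hset2 p hp) (hinv2 p)
      (by obtain ⟨x, hx, hx2⟩ := hord p hp hpd; exact ⟨x, hx, hx2⟩) (hset2 q hq) (hinv2 q)
      (by obtain ⟨x, hx, hx2⟩ := hord q hq hqd; exact ⟨x, hx, hx2⟩) (by
        rw [Set.disjoint_left]
        rintro x ⟨-, hx⟩ ⟨-, hx'⟩
        exact hqp (hx'.symm.trans hx))
    have hall : ∀ x ∈ F, x ≠ 1 → orderOf x = p ∨ orderOf x = q := by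
      intro x hx hx1
      have h1 : x ∈ {x : G | x ∈ F ∧ x ≠ 1} := ⟨hx, hx1⟩
      rw [← e4] at h1
      rcases h1 with h1 | h1
      · exact Or.inl h1.2
      · exact Or.inr h1.2
    -- commuting elements
    have hcop : ∀ x ∈ F, ∀ y ∈ F, orderOf x = p → orderOf y = q → x * y ≠ y * x := by
      intro x hx y hy hxo hyo hc
      have h1 : orderOf (x * y) = p * q := by
        rw [← hxo, ← hyo]
        apply (show Commute x y from hc).orderOf_mul_eq_mul_orderOf_of_coprime
        rw [hxo, hyo]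
        exact (Nat.coprime_primes hp hq).2 (fun h => hqp h.symm)
      have h2 : x * y ≠ 1 := by
        intro h
        rw [h, orderOf_one] at h1
        have := Nat.one_lt_mul_iff.2 ⟨hp.pos, hq.pos, Or.inl hp.one_lt⟩
        omega
      rcases hall _ (mul_mem hx hy) h2 with h3 | h3
      · rw [h1] at h3
        have h4 : p * q = p * 1 := by rw [h3, mul_one]
        exact hq.one_lt.ne' (Nat.eq_of_mul_eq_mul_left hp.pos h4)
      · rw [h1] at h3
        have h4 : p * q = 1 * q := by rw [h3, one_mul]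
        exact hp.one_lt.ne' (Nat.eq_of_mul_eq_mul_right hq.pos h4)
    -- Sylow subgroups act freely
    have hsyl : ∀ r s : ℕ, r.Prime → s.Prime → r ≠ s → (∀ x ∈ F, ∀ y ∈ F, orderOf x = r → orderOf y = s → x * y ≠ y * x) →
        (∀ x ∈ F, x ≠ 1 → orderOf x = r ∨ orderOf x = s) → ({x : G | x ∈ F ∧ orderOf x = s}).ncard = Nat.card H →
        r ^ (Nat.card F).factorization r ∣ Nat.card H := by
      intro r s hr hs hrs hc ha hn
      haveI := Fact.mk hr
      obtain ⟨T⟩ : Nonempty (Sylow r F) := inferInstance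
      rw [← T.card_eq_multiplicity, ← hn]
      have h1 : Nat.card T = Nat.card ((T : Subgroup F).map F.subtype) :=
        (Subgroup.card_map_of_injective F.subtype_injective).symm
      rw [h1]
      apply conj_dvd
      · rintro _ ⟨t, ht, rfl⟩ x ⟨hx1, hx2⟩
        exact ⟨mul_mem (mul_mem t.2 hx1) (inv_mem t.2), by rw [order_conj, hx2]⟩
      · rintro _ ⟨t, ht, rfl⟩ x ⟨hx1, hx2⟩ he
        by_contra ht1
        have h2 : (t : G) * x = x * t := by
          have : (t : G) * x * (t : G)⁻¹ = x := he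
          rw [mul_inv_eq_iff_eq_mul] at this
          exact this
        obtain ⟨k, hk⟩ := T.2 ⟨t, ht⟩
        have hk' : (t : G) ^ r ^ k = 1 := by
          have := congrArg (fun z : (T : Subgroup F) => ((z : F) : G)) hk
          exact this
        have h3 : orderOf (t : G) ∣ r ^ k := orderOf_dvd_of_pow_eq_one hk'
        rcases ha t t.2 ht1 with h4 | h4
        · exact hc t t.2 x hx1 h4 hx2 h2
        · rw [h4] at h3
          have := (Nat.Prime.dvd_of_dvd_pow hs h3)
          exact hrs ((Nat.prime_dvd_prime_iff_eq hs hr).1 this).symm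
    have g1 := hsyl p q hp hq (fun h => hqp h.symm) hcop hall e2
    have g2 := hsyl q p hq hp hqp (fun x hx y hy hxo hyo h => hcop y hy x hx hyo hxo h.symm)
      (fun x hx hx1 => (hall x hx hx1).symm) e1
    have g3 : Nat.card F ∣ Nat.card H := by
      rw [← Nat.factorization_le_iff_dvd Nat.card_pos.ne' hHpos.ne']
      intro r
      by_cases hr : r.Prime
      · by_cases hrd : r ∣ Nat.card F
        · obtain ⟨x, hx, hxo⟩ := hord r hr hrd
          have hx1 : x ≠ 1 := by
            rintro rfl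
            rw [orderOf_one] at hxo
            exact hr.one_lt.ne hxo
          rcases hall x hx hx1 with h | h
          · rw [hxo] at h
            subst h
            exact (hp.pow_dvd_iff_le_factorization hHpos.ne').1 g1
          · rw [hxo] at h
            subst h
            exact (hq.pow_dvd_iff_le_factorization hHpos.ne').1 g2
        · rw [Nat.factorization_eq_zero_of_not_dvd hrd]
          exact Nat.zero_le _
      · rw [Nat.factorization_eq_zero_of_not_prime _ hr]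
        exact Nat.zero_le _
    have g4 := Nat.le_of_dvd hHpos g3
    omega
  obtain ⟨f, hf⟩ : ∃ f, Nat.card F = p ^ f := by
    refine ⟨(Nat.card F).primeFactorsList.length, Nat.eq_prime_pow_of_unique_prime_dvd Nat.card_pos.ne' ?_⟩
    intro d hd hdd
    exact hone d hd hdd
  have hFp : IsPGroup p F := IsPGroup.of_card hf
  -- the socle of the centre
  let Z : Subgroup G :=
    { carrier := {z | z ∈ F ∧ z ^ p = 1 ∧ ∀ u ∈ F, z * u = u * z}
      one_mem' := ⟨one_mem _, one_pow _, fun u _ => by rw [one_mul, mul_one]⟩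
      mul_mem' := by
        rintro a b ⟨ha1, ha2, ha3⟩ ⟨hb1, hb2, hb3⟩
        refine ⟨mul_mem ha1 hb1, ?_, fun u hu => ?_⟩
        · rw [(show Commute a b from ha3 b hb1).mul_pow, ha2, hb2, one_mul]
        · rw [mul_assoc, hb3 u hu, ← mul_assoc, ha3 u hu, mul_assoc]
      inv_mem' := by
        rintro a ⟨ha1, ha2, ha3⟩
        refine ⟨inv_mem ha1, by rw [inv_pow, ha2, inv_one], fun u hu => ?_⟩
        exact ((show Commute a u from ha3 u hu).inv_left).eq }
  have hZmem : ∀ z, z ∈ Z ↔ z ∈ F ∧ z ^ p = 1 ∧ ∀ u ∈ F, z * u = u * z := fun z => Iff.rfl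
  have hZF : Z ≤ F := fun z hz => hz.1
  have hinvZ : ∀ h ∈ H, ∀ x ∈ Z, h * x * h⁻¹ ∈ Z := by
    rintro h hh x ⟨h1, h2, h3⟩
    refine ⟨hinv h hh x h1, by rw [conj_pow, h2, mul_one, mul_inv_cancel], fun u hu => ?_⟩
    have h4 := hinv h⁻¹ (inv_mem hh) u hu
    rw [inv_inv] at h4
    have h5 := h3 _ h4
    have : h * x * h⁻¹ * u = h * (x * (h⁻¹ * u * h)) * h⁻¹ := by group
    rw [this, h5]
    group
  have hZne : ∃ z ∈ Z, z ≠ 1 := by
    haveI : Nontrivial F := by
      rw [← Finite.one_lt_card_iff_nontrivial]; omega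
    haveI := hFp.center_nontrivial
    obtain ⟨z, hz⟩ := exists_ne (1 : Subgroup.center F)
    have h1 : p ∣ Nat.card (Subgroup.center F) := by
      have h2 := (hFp.to_subgroup (Subgroup.center F)).card_eq_or_dvd
      rcases h2 with h2 | h2
      · exfalso
        have : 1 < Nat.card (Subgroup.center F) := Finite.one_lt_card_iff_nontrivial.2 inferInstance
        omega
      · exact h2
    obtain ⟨w, hw⟩ := exists_prime_orderOf_dvd_card' (G := Subgroup.center F) p h1
    refine ⟨((w : F) : G), ⟨(w : F).2, ?_, ?_⟩, ?_⟩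
    · have := pow_orderOf_eq_one w
      rw [hw] at this
      exact congrArg (fun z : Subgroup.center F => ((z : F) : G)) this
    · intro u hu
      have := (Subgroup.mem_center_iff.1 w.2) ⟨u, hu⟩
      exact (congrArg (fun z : F => (z : G)) this).symm
    · intro h
      have : w = 1 := Subtype.ext (Subtype.ext h)
      rw [this, orderOf_one] at hw
      exact hp.one_lt.ne hw
  have hZeq : Z = F := by
    by_contra hne
    obtain ⟨y, hyF, hyZ⟩ : ∃ y ∈ F, y ∉ Z := by
      by_contra hcon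
      push Not at hcon
      exact hne (le_antisymm hZF hcon)
    obtain ⟨e1, e2, e3, -⟩ := htwo {x : G | x ∈ Z ∧ x ≠ 1} {x : G | x ∈ F ∧ x ∉ Z} (fun x hx => ⟨hZF hx.1, hx.2⟩)
      (by
        rintro h hh x ⟨hx1, hx2⟩
        refine ⟨hinvZ h hh x hx1, fun h' => hx2 ?_⟩
        rw [mul_inv_eq_one] at h'
        exact mul_eq_left.1 h')
      (by obtain ⟨z, hz, hz1⟩ := hZne; exact ⟨z, hz, hz1⟩)
      (fun x hx => ⟨hx.1, fun h => hx.2 (by rw [h]; exact one_mem _)⟩)
      (by
        rintro h hh x ⟨hx1, hx2⟩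
        refine ⟨hinv h hh x hx1, fun h' => hx2 ?_⟩
        have := hinvZ h⁻¹ (inv_mem hh) _ h'
        have h3 : h⁻¹ * (h * x * h⁻¹) * h⁻¹⁻¹ = x := by group
        rwa [h3] at this)
      ⟨y, hyF, hyZ⟩ (by
        rw [Set.disjoint_left]
        rintro x ⟨hx, -⟩ ⟨-, hx'⟩
        exact hx' hx)
    have h1 : ({x : G | x ∈ Z ∧ x ≠ 1}).ncard = Nat.card Z - 1 := by
      have h1 : {x : G | x ∈ Z ∧ x ≠ 1} = (Z : Set G) \ {1} := by
        ext x; simp
      rw [h1, Set.ncard_diff_singleton_of_mem (one_mem Z)]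
      rfl
    have h2 : Nat.card Z ∣ Nat.card F := Subgroup.card_dvd_of_le hZF
    rw [e1] at h1
    have hZpos : 0 < Nat.card Z := Nat.card_pos
    obtain ⟨k, hk⟩ := h2
    -- |F| = 2|Z| - 1
    have h3 : Nat.card F + 1 = 2 * Nat.card Z := by omega
    have h4 : Nat.card Z ∣ 1 := by
      have h5 : Nat.card Z ∣ Nat.card F + 1 := ⟨2, by rw [h3, mul_comm]⟩
      exact (Nat.dvd_add_right ⟨k, hk⟩).1 h5
    have h5 := Nat.dvd_one.1 h4
    omega
  refine ⟨?_, p, f, hp, ?_, hf⟩
  · intro x hx y hy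
    rw [← hZeq] at hx
    exact hx.2.2 y hy
  · intro x hx
    rw [← hZeq] at hx
    exact hx.2.1

end CfsgLib.PermZ5
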