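import Mathlib

set_option autoImplicit false

/-! Fixed-point spaces in primitive linear groups. -/
namespace CfsgLib.PrimSol

open Module

universe u v w

variable {F : Type u} [Field F] {V : Type v} [AddCommGroup V] [Module F V] [FiniteDimensional F V]
variable {G : Type w} [Group G] (ρ : G →* (V →ₗ[F] V))

/-- fixed space -/
def fx (g : G) : Submodule F V := Module.End.eigenspace (ρ g) 1

theorem mem_fx {g : G} {v : V} : v ∈ fx ρ g ↔ ρ g v = v := by
  unfold fx
  rw [Module.End.mem_eigenspace_iff, one_smul]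

theorem rho_mul (g h : G) (v : V) : ρ (g * h) v = ρ g (ρ h v) := by rw [map_mul]; rfl

theorem rho_one (v : V) : ρ 1 v = v := by rw [map_one]; rfl

theorem rho_inv_rho (g : G) (v : V) : ρ g⁻¹ (ρ g v) = v := by rw [← rho_mul, inv_mul_cancel, rho_one]

theorem rho_rho_inv (g : G) (v : V) : ρ g (ρ g⁻¹ v) = v := by rw [← rho_mul, mul_inv_cancel, rho_one]

theorem rho_injective (g : G) : Function.Injective (ρ g) := fun v w h => by
  rw [← rho_inv_rho ρ g v, h, rho_inv_rho]

theorem fx_conj (x g : G) : fx ρ (x * g * x⁻¹) = (fx ρ g).map (ρ x) := by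
  ext v
  rw [Submodule.mem_map]
  constructor
  · intro h
    rw [mem_fx, rho_mul, rho_mul] at h
    refine ⟨ρ x⁻¹ v, ?_, rho_rho_inv ρ x v⟩
    rw [mem_fx]
    apply rho_injective ρ x
    rw [h, rho_rho_inv]
  · rintro ⟨w, hw, rfl⟩
    rw [mem_fx] at hw
    rw [mem_fx, rho_mul, rho_mul, rho_inv_rho, hw]

theorem finrank_map (x : G) (U : Submodule F V) : finrank F (U.map (ρ x)) = finrank F U :=
  (Submodule.equivMapOfInjective (ρ x) (rho_injective ρ x) U).finrank_eq.symm

theorem finrank_comm (x g : G) : 2 * finrank F (fx ρ g) ≤ finrank F V + finrank F (fx ρ (x * g * x⁻¹ * g⁻¹)) := by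
  have h1 : fx ρ g ⊓ fx ρ (x * g * x⁻¹) ≤ fx ρ (x * g * x⁻¹ * g⁻¹) := by
    rintro v ⟨hv1, hv2⟩
    have hv1' : ρ g v = v := (mem_fx ρ).1 hv1
    have hv2' : ρ (x * g * x⁻¹) v = v := (mem_fx ρ).1 hv2
    have h3 : ρ g⁻¹ v = v := by
      apply rho_injective ρ g
      rw [rho_rho_inv, hv1']
    rw [mem_fx, rho_mul, h3, hv2']
  have h2 := Submodule.finrank_mono h1
  have h3 := Submodule.finrank_sup_add_finrank_inf_eq (fx ρ g) (fx ρ (x * g * x⁻¹))
  have h4 := Submodule.finrank_le (fx ρ g ⊔ fx ρ (x * g * x⁻¹))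
  have h5 : finrank F (fx ρ (x * g * x⁻¹)) = finrank F (fx ρ g) := by
    rw [fx_conj, finrank_map]
  omega

/-- closedness -/
def P1 (A : Subgroup G) (U : Submodule F V) : Prop := ∀ v, (∀ b ∈ A, U ≤ fx ρ b → v ∈ fx ρ b) → v ∈ U

/-- minimality -/
def P2 (A : Subgroup G) (U : Submodule F V) : Prop := ∀ b ∈ A, U ≤ fx ρ b ∨ U ⊓ fx ρ b = ⊥

theorem indep (A : Subgroup G) (hA : ∀ x ∈ A, ∀ y ∈ A, x * y = y * x) {ι : Type*} (D : ι → Submodule F V)
    (hD : Function.Injective D) (h1 : ∀ i, P1 ρ A (D i)) (h2 : ∀ i, P2 ρ A (D i)) : iSupIndep D := by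
  classical
  have hinv : ∀ i, ∀ b ∈ A, ∀ u ∈ D i, ρ b u ∈ D i := by
    intro i b hb u hu
    apply h1 i
    intro c hc hcU
    have h3 := (mem_fx ρ).1 (hcU hu)
    rw [mem_fx, ← rho_mul, hA c hc b hb, rho_mul, h3]
  rw [iSupIndep_iff_finsetSum_eq_zero_imp_eq_zero]
  intro s
  induction s using Finset.induction_on with
  | empty => intro v _ _ i hi; exact absurd hi (Finset.notMem_empty i)
  | insert i s his ih =>
    intro v hv hsum
    rw [Finset.sum_insert his] at hsum
    have hvi := hv i (Finset.mem_insert_self _ _)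
    have key : ∀ j ∈ s, v j = 0 := by
      intro j hj
      have hvj := hv j (Finset.mem_insert_of_mem hj)
      by_contra hvj0
      -- every element of A trivial on D i fixes v j
      have h3 : ∀ b ∈ A, D i ≤ fx ρ b → v j ∈ fx ρ b := by
        intro b hb hbi
        have h4 : ρ b (v i) = v i := (mem_fx ρ).1 (hbi hvi)
        have h5 : ∑ k ∈ s, (ρ b (v k) - v k) = 0 := by
          rw [Finset.sum_sub_distrib, ← map_sum]
          have h6 : ∑ k ∈ s, v k = - v i := by
            rw [eq_neg_iff_add_eq_zero, add_comm]; exact hsum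
          rw [h6, map_neg, h4, sub_self]
        have h6 := ih (fun k => ρ b (v k) - v k) (fun k hk => (D k).sub_mem (hinv k b hb _ (hv k (Finset.mem_insert_of_mem hk))) (hv k (Finset.mem_insert_of_mem hk))) h5 j hj
        rw [mem_fx]
        exact sub_eq_zero.1 h6
      have h4 : v j ∈ D i := h1 i (v j) h3
      have h5 : ∀ b ∈ A, D i ≤ fx ρ b → D j ≤ fx ρ b := by
        intro b hb hbi
        rcases h2 j b hb with h | h
        · exact h
        · exfalso
          apply hvj0
          rw [← Submodule.mem_bot F, ← h]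
          exact ⟨hvj, h3 b hb hbi⟩
      have h6 : ∀ b ∈ A, D j ≤ fx ρ b → D i ≤ fx ρ b := by
        intro b hb hbj
        rcases h2 i b hb with h | h
        · exact h
        · exfalso
          apply hvj0
          rw [← Submodule.mem_bot F, ← h]
          exact ⟨h4, hbj hvj⟩
      have h7 : D i = D j := by
        apply le_antisymm
        · intro w hw
          exact h1 j w (fun b hb hbj => h6 b hb hbj hw)
        · intro w hw
          exact h1 i w (fun b hb hbi => h5 b hb hbi hw)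
      have h8 := hD h7
      exact his (h8 ▸ hj)
    intro j hj
    rcases Finset.mem_insert.1 hj with rfl | hj
    · rw [Finset.sum_eq_zero key, add_zero] at hsum
      exact hsum
    · exact key j hj

theorem fx_bot_of_abelian [Finite G] (hirr : ∀ W : Submodule F V, (∀ g, W.map (ρ g) ≤ W) → W = ⊥ ∨ W = ⊤)
    (hprim : ∀ (m t : ℕ) (D : Fin t → Submodule F V), 2 ≤ t → 0 < m → (∀ i, finrank F (D i) = m) → iSupIndep D → iSup D = ⊤ →
      (∀ g, ∃ σ : Equiv.Perm (Fin t), ∀ i, (D i).map (ρ g) = D (σ i)) → False)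
    (hinj : ∀ g, ρ g = 1 → g = 1)
    (A : Subgroup G) [hAn : A.Normal] (hA : ∀ x ∈ A, ∀ y ∈ A, x * y = y * x) {a : G} (ha : a ∈ A) (ha1 : a ≠ 1) :
    fx ρ a = ⊥ := by
  classical
  by_contra hne
  -- minimal member of the family
  let Fam : Submodule F V → Prop := fun U => U ≠ ⊥ ∧ U ≤ fx ρ a ∧ ∃ S : Set G, S ⊆ A ∧ U = ⨅ s ∈ S, fx ρ s
  have hFam : ∃ d : ℕ, ∃ U, Fam U ∧ finrank F U = d := by
    refine ⟨_, fx ρ a, ⟨hne, le_rfl, {a}, ?_, ?_⟩, rfl⟩
    · intro x hx
      rw [Set.mem_singleton_iff] at hx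
      rw [hx]; exact ha
    · rw [iInf_singleton]
  obtain ⟨U, ⟨hU0, hUa, S, hSA, hUS⟩, hUd⟩ := Nat.find_spec hFam
  have hmin : ∀ U', Fam U' → finrank F U ≤ finrank F U' := by
    intro U' hU'
    rw [hUd]
    exact Nat.find_min' hFam ⟨U', hU', rfl⟩
  have hUP1 : P1 ρ A U := by
    intro v hv
    rw [hUS, Submodule.mem_iInf]
    intro s
    rw [Submodule.mem_iInf]
    intro hs
    apply hv s (hSA hs)
    rw [hUS]
    exact iInf₂_le s hs
  have hUP2 : P2 ρ A U := by
    intro b hb
    by_cases h0 : U ⊓ fx ρ b = ⊥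
    · exact Or.inr h0
    · left
      have h1 := hmin (U ⊓ fx ρ b) ⟨h0, inf_le_left.trans hUa, insert b S, by
        intro x hx
        rcases Set.mem_insert_iff.1 hx with rfl | hx
        · exact hb
        · exact hSA hx, by rw [iInf_insert, ← hUS, inf_comm]⟩
      have h2 : U ⊓ fx ρ b = U := Submodule.eq_of_le_of_finrank_le inf_le_left h1
      exact inf_eq_left.1 h2
  -- conjugates
  have hconjfx : ∀ (x b : G), fx ρ b = (fx ρ (x⁻¹ * b * x)).map (ρ x) := by
    intro x b
    rw [← fx_conj]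
    congr 1
    group
  have hmemA : ∀ (x : G), ∀ b ∈ A, x⁻¹ * b * x ∈ A := by
    intro x b hb
    have := hAn.conj_mem b hb x⁻¹
    rwa [inv_inv] at this
  have hcP1 : ∀ x, P1 ρ A (U.map (ρ x)) := by
    intro x v hv
    rw [Submodule.mem_map]
    refine ⟨ρ x⁻¹ v, ?_, rho_rho_inv ρ x v⟩
    apply hUP1
    intro c hc hcU
    have h1 := hv (x * c * x⁻¹) (hAn.conj_mem c hc x) (by
      rw [fx_conj]
      exact Submodule.map_mono hcU)
    rw [fx_conj, Submodule.mem_map] at h1
    obtain ⟨w, hw, hwv⟩ := h1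
    rw [← hwv, rho_inv_rho]
    exact hw
  have hcP2 : ∀ x, P2 ρ A (U.map (ρ x)) := by
    intro x b hb
    rcases hUP2 _ (hmemA x b hb) with h | h
    · left
      rw [hconjfx x b]
      exact Submodule.map_mono h
    · right
      rw [hconjfx x b, ← Submodule.map_inf _ (rho_injective ρ x), h, Submodule.map_bot]
  -- the index set
  let I := {W : Submodule F V // ∃ x : G, U.map (ρ x) = W}
  haveI : Finite I := by
    have : Function.Surjective (fun x : G => (⟨U.map (ρ x), x, rfl⟩ : I)) := by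
      rintro ⟨W, x, hx⟩
      exact ⟨x, Subtype.ext hx⟩
    exact Finite.of_surjective _ this
  have hindep : iSupIndep (fun i : I => i.1) := by
    apply indep ρ A hA
    · exact Subtype.val_injective
    · rintro ⟨_, x, rfl⟩
      exact hcP1 x
    · rintro ⟨_, x, rfl⟩
      exact hcP2 x
  let e : Fin (Nat.card I) ≃ I := (Finite.equivFin I).symm
  have hU1 : U.map (ρ 1) = U := by
    rw [map_one]
    exact Submodule.map_id U
  have hmapI : ∀ (g : G) (i : I), ∃ x : G, U.map (ρ x) = i.1.map (ρ g) := by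
    rintro g ⟨_, x, rfl⟩
    refine ⟨g * x, ?_⟩
    rw [map_mul]
    exact Submodule.map_comp (ρ x) (ρ g) U
  have hsup : (⨆ i : Fin (Nat.card I), (e i).1) = ⊤ := by
    have h1 : (⨆ i : Fin (Nat.card I), (e i).1) = ⨆ i : I, i.1 := e.iSup_congr (fun i => rfl)
    rw [h1]
    rcases hirr (⨆ i : I, i.1) (by
      intro g
      rw [Submodule.map_iSup]
      apply iSup_le
      intro i
      exact le_iSup (fun i : I => i.1) (⟨i.1.map (ρ g), hmapI g i⟩ : I)) with h | h
    · exfalso
      apply hU0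
      rw [eq_bot_iff, ← h]
      exact le_iSup (fun i : I => i.1) (⟨U, 1, hU1⟩ : I)
    · exact h
  have ht : 2 ≤ Nat.card I := by
    by_contra hlt
    have h1 : Nat.card I ≤ 1 := by omega
    haveI : Subsingleton I := Finite.card_le_one_iff_subsingleton.1 h1
    have h2 : U = ⊤ := by
      rcases hirr U (by
        intro g
        have h3 : (⟨U.map (ρ g), g, rfl⟩ : I) = ⟨U, 1, hU1⟩ := Subsingleton.elim _ _
        exact (congrArg Subtype.val h3).le) with h | h
      · exact absurd h hU0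
      · exact h
    apply ha1
    apply hinj
    ext v
    have h3 : v ∈ U := by rw [h2]; exact Submodule.mem_top
    exact (mem_fx ρ).1 (hUa h3)
  apply hprim (finrank F U) (Nat.card I) (fun i => (e i).1) ht
  · rw [Module.finrank_pos_iff, Submodule.nontrivial_iff_ne_bot]
    exact hU0
  · intro i
    obtain ⟨x, hx⟩ := (e i).2
    rw [← hx, finrank_map]
  · exact hindep.comp e.injective
  · exact hsup
  · intro g
    let f : Fin (Nat.card I) → Fin (Nat.card I) := fun i => e.symm ⟨(e i).1.map (ρ g), hmapI g (e i)⟩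
    have hf : Function.Injective f := by
      intro i j hij
      have h1 := e.symm.injective hij
      have h2 : (e i).1.map (ρ g) = (e j).1.map (ρ g) := congrArg Subtype.val h1
      have h3 := Submodule.map_injective_of_injective (rho_injective ρ g) h2
      exact e.injective (Subtype.ext h3)
    refine ⟨Equiv.ofBijective f (Finite.injective_iff_bijective.1 hf), fun i => ?_⟩
    change (e i).1.map (ρ g) = (e (f i)).1
    rw [Equiv.apply_symm_apply]

theorem main [Finite G] (hsol : Group.IsSolvable G)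
    (hirr : ∀ W : Submodule F V, (∀ g, W.map (ρ g) ≤ W) → W = ⊥ ∨ W = ⊤)
    (hprim : ∀ (m t : ℕ) (D : Fin t → Submodule F V), 2 ≤ t → 0 < m → (∀ i, finrank F (D i) = m) → iSupIndep D → iSup D = ⊤ →
      (∀ g, ∃ σ : Equiv.Perm (Fin t), ∀ i, (D i).map (ρ g) = D (σ i)) → False)
    (hinj : ∀ g, ρ g = 1 → g = 1) {g : G} (hg1 : g ≠ 1) : 4 * finrank F (fx ρ g) ≤ 3 * finrank F V := by
  classical
  by_contra hcon
  push Not at hcon
  -- maximal abelian normal subgroup
  obtain ⟨A, ⟨hAn, hAc⟩, hAmax'⟩ := Set.exists_max_image {B : Subgroup G | B.Normal ∧ ∀ x ∈ B, ∀ y ∈ B, x * y = y * x}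
    (fun B => Nat.card B) (Set.toFinite _) ⟨⊥, inferInstance, by
      intro x hx y hy
      rw [Subgroup.mem_bot] at hx hy
      rw [hx, hy]⟩
  have hAmax : ∀ B : Subgroup G, B.Normal → (∀ x ∈ B, ∀ y ∈ B, x * y = y * x) → A ≤ B → B = A := by
    intro B h1 h2 h3
    exact (Subgroup.eq_of_le_of_card_ge h3 (hAmax' B ⟨h1, h2⟩)).symm
  haveI := hAn
  have hA0 : ∀ a ∈ A, a ≠ 1 → finrank F (fx ρ a) = 0 := by
    intro a ha ha1
    rw [fx_bot_of_abelian ρ hirr hprim hinj A hAc ha ha1, finrank_bot]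
  -- the family of normal subgroups
  let Bs : Subgroup G → Prop := fun B => B.Normal ∧ A ≤ B ∧ (∀ b ∈ B, ∀ a ∈ A, b * a = a * b) ∧ ∀ x ∈ B, ∀ y ∈ B, x * y * x⁻¹ * y⁻¹ ∈ A
  have hB2 : ∀ B, Bs B → ∀ h ∈ B, h ≠ 1 → 2 * finrank F (fx ρ h) ≤ finrank F V := by
    rintro B ⟨hBn, hAB, hBA, hBB⟩ h hh hh1
    by_cases hz : ∃ y ∈ B, y * h * y⁻¹ * h⁻¹ ≠ 1
    · obtain ⟨y, hy, hy1⟩ := hz
      have h1 := finrank_comm ρ y h
      rw [hA0 _ (hBB y hy h hh) hy1] at h1
      omega
    · push Not at hz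
      have hzc : ∀ y ∈ B, h * y = y * h := by
        intro y hy
        have := hz y hy
        rw [mul_inv_eq_one, mul_inv_eq_iff_eq_mul] at this
        exact this.symm
      have h1 : B ⊓ Subgroup.centralizer (B : Set G) = A := by
        apply hAmax
        · haveI := hBn
          infer_instance
        · intro x hx y hy
          exact ((Subgroup.mem_centralizer_iff.1 hx.2) y hy.1).symm
        · intro a ha
          exact ⟨hAB ha, Subgroup.mem_centralizer_iff.2 (fun b hb => hBA b hb a ha)⟩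
      have h2 : h ∈ A := by
        rw [← h1]
        exact ⟨hh, Subgroup.mem_centralizer_iff.2 (fun b hb => (hzc b hb).symm)⟩
      rw [hA0 h h2 hh1]
      omega
  have hgB : ∀ B, Bs B → ∀ b ∈ B, g * b = b * g := by
    intro B hB b hb
    have hc : b * g * b⁻¹ * g⁻¹ ∈ B := by
      have := hB.1.conj_mem b⁻¹ (inv_mem hb) g
      have h2 := mul_mem hb this
      have h3 : b * (g * b⁻¹ * g⁻¹) = b * g * b⁻¹ * g⁻¹ := by group
      rwa [h3] at h2
    have h1 := finrank_comm ρ b g
    by_contra hne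
    have hne' : b * g * b⁻¹ * g⁻¹ ≠ 1 := by
      intro h
      rw [mul_inv_eq_one, mul_inv_eq_iff_eq_mul] at h
      exact hne h.symm
    have h2 := hB2 B hB _ hc hne'
    omega
  -- the common centraliser
  have hABs : Bs A := by
    refine ⟨hAn, le_rfl, fun b hb a ha => hAc b hb a ha, fun x hx y hy => ?_⟩
    exact mul_mem (mul_mem (mul_mem hx hy) (inv_mem hx)) (inv_mem hy)
  let E : Subgroup G :=
    { carrier := {e | ∀ B, Bs B → ∀ b ∈ B, e * b = b * e}
      one_mem' := fun B hB b hb => by rw [one_mul, mul_one]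
      mul_mem' := by
        intro e f he hf B hB b hb
        rw [mul_assoc, hf B hB b hb, ← mul_assoc, he B hB b hb, mul_assoc]
      inv_mem' := by
        intro e he B hB b hb
        have := he B hB b hb
        exact ((show Commute e b from this).inv_left).eq }
  have hEmem : ∀ e, e ∈ E ↔ ∀ B, Bs B → ∀ b ∈ B, e * b = b * e := fun e => Iff.rfl
  have hEn : E.Normal := by
    refine ⟨fun e he x => ?_⟩
    rw [hEmem] at he ⊢
    intro B hB b hb
    have h1 := he B hB (x⁻¹ * b * x) (by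
      have := hB.1.conj_mem b hb x⁻¹
      rwa [inv_inv] at this)
    have h2 : x * e * x⁻¹ * b = x * (e * (x⁻¹ * b * x)) * x⁻¹ := by group
    rw [h2, h1]
    group
  have hAE : A ≤ E := by
    intro a ha B hB b hb
    exact (hB.2.2.1 b hb a ha).symm
  have hgE : g ∈ E := hgB
  -- derived series of E
  let D : ℕ → Subgroup G := fun k => @Nat.rec (fun _ => Subgroup G) E (fun _ H => ⁅H, H⁆) k
  have hD0 : D 0 = E := rfl
  have hDs : ∀ k, D (k + 1) = ⁅D k, D k⁆ := fun k => rfl
  have hDn : ∀ k, (D k).Normal := by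
    intro k
    induction k with
    | zero => exact hEn
    | succ k ih =>
      rw [hDs]
      haveI := ih
      exact @Subgroup.commutator_normal G _ (D k) (D k) ih ih
  have hDE : ∀ k, D k ≤ E := by
    intro k
    induction k with
    | zero => exact le_rfl
    | succ k ih =>
      rw [hDs]
      exact (Subgroup.commutator_mono ih ih).trans (by
        haveI := hEn
        exact Subgroup.commutator_le_left E E)
  have hDd : ∀ k, D k ≤ derivedSeries G k := by
    intro k
    induction k with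
    | zero => rw [derivedSeries_zero]; exact le_top
    | succ k ih =>
      rw [hDs, derivedSeries_succ]
      exact Subgroup.commutator_mono ih ih
  have hex : ∃ k, D k ≤ A := by
    obtain ⟨n, hn⟩ := hsol.solvable
    exact ⟨n, (hDd n).trans (by rw [hn]; exact bot_le)⟩
  have hspec := Nat.find_spec hex
  rcases Nat.eq_zero_or_pos (Nat.find hex) with h0 | hpos
  · rw [h0] at hspec
    have hgA : g ∈ A := hspec hgE
    have := hA0 g hgA hg1
    omega
  · obtain ⟨k, hk⟩ := Nat.exists_eq_succ_of_ne_zero hpos.ne'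
    rw [hk] at hspec
    have hkA : ¬ D k ≤ A := Nat.find_min hex (by omega)
    haveI := hDn k
    have hB1n : (D k ⊔ A).Normal := inferInstance
    have hB1E : D k ⊔ A ≤ E := sup_le (hDE k) hAE
    have hB1 : Bs (D k ⊔ A) := by
      refine ⟨hB1n, le_sup_right, fun b hb a ha => (hB1E hb) A hABs a ha, ?_⟩
      intro x hx y hy
      rw [← SetLike.mem_coe, Subgroup.mul_normal] at hx hy
      obtain ⟨d1, hd1, a1, ha1, rfl⟩ := hx
      obtain ⟨d2, hd2, a2, ha2, rfl⟩ := hy
      have c1 : ∀ z ∈ D k ⊔ A, ∀ a ∈ A, z * a = a * z := fun z hz a ha => (hB1E hz) A hABs a ha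
      have e1 : a1 * d2 = d2 * a1 := (c1 d2 (Subgroup.mem_sup_left hd2) a1 ha1).symm
      have e2 : a1 * a2 = a2 * a1 := hAc a1 ha1 a2 ha2
      have e3 : a2 * d1⁻¹ = d1⁻¹ * a2 := (c1 d1⁻¹ (Subgroup.mem_sup_left (inv_mem hd1)) a2 ha2).symm
      have h5 : d1 * a1 * (d2 * a2) * (d1 * a1)⁻¹ * (d2 * a2)⁻¹ = d1 * d2 * d1⁻¹ * d2⁻¹ := by
        calc d1 * a1 * (d2 * a2) * (d1 * a1)⁻¹ * (d2 * a2)⁻¹
            = d1 * (a1 * d2) * a2 * a1⁻¹ * d1⁻¹ * a2⁻¹ * d2⁻¹ := by group
          _ = d1 * d2 * (a1 * a2) * a1⁻¹ * d1⁻¹ * a2⁻¹ * d2⁻¹ := by rw [e1]; group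
          _ = d1 * d2 * (a2 * d1⁻¹) * a2⁻¹ * d2⁻¹ := by rw [e2]; group
          _ = d1 * d2 * d1⁻¹ * d2⁻¹ := by rw [e3]; group
      have h6 : d1 * d2 * d1⁻¹ * d2⁻¹ ∈ D (k + 1) := by
        rw [hDs]
        exact Subgroup.commutator_mem_commutator hd1 hd2
      have h7 : d1 * a1 * (d2 * a2) * (d1 * a1)⁻¹ * (d2 * a2)⁻¹ ∈ A := by
        rw [h5]
        exact hspec h6
      exact h7
    have h8 := hAmax (D k ⊔ A) hB1n (fun x hx y hy => (hB1E hx) _ hB1 y hy) le_sup_right
    apply hkA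
    rw [← h8]
    exact le_sup_left

end CfsgLib.PrimSol
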