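import Cfsg.Agent.Lib.Quad10
set_option autoImplicit false

/-! classification of nondegenerate quadratic forms of even dimension over finite fields. -/

namespace CfsgLib.QCl

open Module CfsgLib.IsomDecomp Cfsg CfsgLib.Quad

universe u v

variable {F : Type u} [Field F]

local notation "β[" Q "]" => QuadraticMap.polarBilin Q

section

variable {V : Type v} [AddCommGroup V] [Module F V]

theorem qadd (Q : QuadraticForm F V) (x y : V) : Q (x + y) = Q x + Q y + β[Q] x y := by
  rw [QuadraticMap.polarBilin_apply_apply, QuadraticMap.polar]; ring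

theorem qsmul (Q : QuadraticForm F V) (a : F) (x : V) : Q (a • x) = a * a * Q x := by
  rw [QuadraticMap.map_smul, smul_eq_mul]

/-- splitting off a hyperbolic plane. -/
theorem split [FiniteDimensional F V] {Q : QuadraticForm F V} {e f : V} (he : Q e = 0) (hf : Q f = 0) (hef : β[Q] e f = 1) :
    ∃ E : V ≃ₗ[F] (F × F) × hperp Q e f, ∀ v, hsum (resQ Q (hperp Q e f)) (E v) = Q v := by
  have hee : β[Q] e e = 0 := by rw [polar_self, he, mul_zero]
  have hff : β[Q] f f = 0 := by rw [polar_self, hf, mul_zero]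
  have hfe : β[Q] f e = 1 := by rw [polar_comm, hef]
  let E : V ≃ₗ[F] (F × F) × hperp Q e f :=
    { toFun := fun x => ((β[Q] f x, β[Q] e x), ⟨x - β[Q] f x • e - β[Q] e x • f, hperp_decomp he hf hef x⟩)
      map_add' := fun x y => by
        refine Prod.ext (Prod.ext (LinearMap.map_add _ _ _) (LinearMap.map_add _ _ _)) (Subtype.ext ?_)
        change x + y - β[Q] f (x + y) • e - β[Q] e (x + y) • f = (x - β[Q] f x • e - β[Q] e x • f) + (y - β[Q] f y • e - β[Q] e y • f)
        rw [LinearMap.map_add, LinearMap.map_add, add_smul, add_smul]; abel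
      map_smul' := fun c x => by
        refine Prod.ext (Prod.ext (LinearMap.map_smul _ _ _) (LinearMap.map_smul _ _ _)) (Subtype.ext ?_)
        change c • x - β[Q] f (c • x) • e - β[Q] e (c • x) • f = c • (x - β[Q] f x • e - β[Q] e x • f)
        rw [LinearMap.map_smul, LinearMap.map_smul, smul_sub, smul_sub, smul_smul, smul_smul, smul_eq_mul, smul_eq_mul]
      invFun := fun y => y.1.1 • e + y.1.2 • f + (y.2 : V)
      left_inv := fun x => by
        change β[Q] f x • e + β[Q] e x • f + (x - β[Q] f x • e - β[Q] e x • f) = x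
        abel
      right_inv := fun y => by
        obtain ⟨h1, h2⟩ := mem_hperp.1 y.2.2
        have e1 : β[Q] f (y.1.1 • e + y.1.2 • f + (y.2 : V)) = y.1.1 := by
          rw [LinearMap.map_add, LinearMap.map_add, LinearMap.map_smul, LinearMap.map_smul, hfe, hff, h2]; simp
        have e2 : β[Q] e (y.1.1 • e + y.1.2 • f + (y.2 : V)) = y.1.2 := by
          rw [LinearMap.map_add, LinearMap.map_add, LinearMap.map_smul, LinearMap.map_smul, hee, hef, h1]; simp
        refine Prod.ext (Prod.ext e1 e2) (Subtype.ext ?_)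
        change (y.1.1 • e + y.1.2 • f + (y.2 : V)) - β[Q] f (y.1.1 • e + y.1.2 • f + (y.2 : V)) • e - β[Q] e (y.1.1 • e + y.1.2 • f + (y.2 : V)) • f = (y.2 : V)
        rw [e1, e2]; abel }
  refine ⟨E, fun x => ?_⟩
  rw [hsum_apply]
  obtain ⟨y, rfl⟩ := E.symm.surjective x
  rw [E.apply_symm_apply]
  change y.1.1 * y.1.2 + Q (y.2 : V) = Q (y.1.1 • e + y.1.2 • f + (y.2 : V))
  obtain ⟨h1, h2⟩ := mem_hperp.1 y.2.2
  rw [qadd, qadd, qsmul, qsmul, he, hf]
  simp only [LinearMap.map_add, LinearMap.map_smul, LinearMap.add_apply, LinearMap.smul_apply, hef, h1, h2, smul_eq_mul]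
  ring

/-- the anisotropic plane. -/
theorem aniso_plane [FiniteDimensional F V] [Finite F] {Q : QuadraticForm F V} (hQ : (β[Q]).Nondegenerate) (hV : finrank F V = 2)
    (han : ∀ v, Q v = 0 → v = 0) : ∃ b : F, Aniso 1 b ∧ ∃ E : V ≃ₗ[F] QK (1 : F) b, ∀ v, binQ 1 b (E v) = Q v := by
  obtain ⟨x, hx⟩ := exists_map_eq hQ hV.ge 1
  have hx0 : x ≠ 0 := by rintro rfl; rw [QuadraticMap.map_zero] at hx; exact zero_ne_one hx
  obtain ⟨z, hz⟩ : ∃ z, z ∉ (F ∙ x) := by
    by_contra hcon
    push Not at hcon
    have h1 : (F ∙ x) = ⊤ := (Submodule.eq_top_iff').2 hcon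
    have h2 := finrank_span_singleton (K := F) hx0
    rw [h1, finrank_top, hV] at h2
    omega
  obtain ⟨y, hy, hxy⟩ : ∃ y, y ∉ (F ∙ x) ∧ β[Q] x y = 1 := by
    by_cases h2 : (2 : F) = 0
    · have hxx : β[Q] x x = 0 := by rw [polar_self, h2, zero_mul]
      have h3 : β[Q] x z ≠ 0 := by
        intro h3
        apply hx0
        apply hQ.1 x
        intro w
        have h4 : Submodule.span F {x, z} = ⊤ := by
          apply Submodule.eq_top_of_finrank_eq
          have hli : LinearIndependent F ![x, z] := by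
            rw [LinearIndependent.pair_iff' hx0]
            intro a ha
            exact hz (ha ▸ Submodule.smul_mem _ _ (Submodule.mem_span_singleton_self x))
          have := finrank_span_eq_card hli
          rw [Matrix.range_cons_cons_empty] at this
          rw [this, hV]; rfl
        have h5 : w ∈ Submodule.span F {x, z} := h4 ▸ Submodule.mem_top
        obtain ⟨a, b, rfl⟩ := Submodule.mem_span_pair.1 h5
        rw [LinearMap.map_add, LinearMap.map_smul, LinearMap.map_smul, hxx, h3]; simp
      refine ⟨(β[Q] x z)⁻¹ • z, fun h => hz ?_, by rw [LinearMap.map_smul, smul_eq_mul, inv_mul_cancel₀ h3]⟩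
      have := Submodule.smul_mem (F ∙ x) (β[Q] x z) h
      rwa [smul_smul, mul_inv_cancel₀ h3, one_smul] at this
    · refine ⟨z + ((1 - β[Q] x z) / 2) • x, fun h => hz ?_, ?_⟩
      · have := Submodule.sub_mem _ h (Submodule.smul_mem (F ∙ x) ((1 - β[Q] x z) / 2) (Submodule.mem_span_singleton_self x))
        rwa [add_sub_cancel_right] at this
      · rw [LinearMap.map_add, LinearMap.map_smul, polar_self, hx, smul_eq_mul]
        field_simp; ring
  have hli : LinearIndependent F ![x, y] := by
    rw [LinearIndependent.pair_iff' hx0]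
    intro a ha
    exact hy (ha ▸ Submodule.smul_mem _ _ (Submodule.mem_span_singleton_self x))
  have hq : ∀ a b : F, Q (a • x + b • y) = a ^ 2 + 1 * a * b + Q y * b ^ 2 := by
    intro a b
    rw [qadd, qsmul, qsmul, hx]
    simp only [LinearMap.map_smul, LinearMap.smul_apply, hxy, smul_eq_mul]
    ring
  refine ⟨Q y, ?_, ?_⟩
  · intro a b h
    have h1 := han (a • x + b • y) (by rw [hq, h])
    exact LinearIndependent.pair_iff.1 hli a b h1
  · let L : QK (1 : F) (Q y) →ₗ[F] V :=
      { toFun := fun z => z.re • x + z.im • y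
        map_add' := fun z w => by
          simp only [QuadraticAlgebra.re_add, QuadraticAlgebra.im_add, add_smul]; abel
        map_smul' := fun c z => by
          simp only [QuadraticAlgebra.re_smul, QuadraticAlgebra.im_smul, smul_add, smul_smul, RingHom.id_apply, smul_eq_mul] }
    have hL : Function.Injective L := by
      rw [← LinearMap.ker_eq_bot, LinearMap.ker_eq_bot']
      intro z hz
      have := LinearIndependent.pair_iff.1 hli z.re z.im hz
      exact QuadraticAlgebra.ext this.1 this.2
    have hfr : finrank F (QK (1 : F) (Q y)) = finrank F V := by rw [hV, QuadraticAlgebra.finrank_eq_two]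
    let E := LinearEquiv.ofInjectiveOfFinrankEq L hL hfr
    refine ⟨E.symm, fun v => ?_⟩
    obtain ⟨z, rfl⟩ := E.surjective v
    rw [E.symm_apply_apply, binQ_apply, QuadraticAlgebra.norm_def]
    change _ = Q (z.re • x + z.im • y)
    rw [hq]; ring

end

theorem classify0 [Finite F] (n : ℕ) : ∀ {V : Type v} [AddCommGroup V] [Module F V] [FiniteDimensional F V] (Q : QuadraticForm F V),
    (β[Q]).Nondegenerate → finrank F V = 2 * (n + 1) →
    (∃ E : V ≃ₗ[F] (Fin (n + 1) → F × F) × PUnit.{1}, ∀ v, hypSum (n + 1) (zeroQ F) (E v) = Q v) ∨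
    ∃ b : F, Aniso 1 b ∧ ∃ E : V ≃ₗ[F] (Fin n → F × F) × QK (1 : F) b, ∀ v, hypSum n (binQ 1 b) (E v) = Q v := by
  induction n with
  | zero =>
    intro V _ _ _ Q hQ hV
    by_cases han : ∀ v, Q v = 0 → v = 0
    · right
      obtain ⟨b, hb, E, hE⟩ := aniso_plane hQ hV han
      refine ⟨b, hb, E.trans (hypSumZero F _).symm, fun v => ?_⟩
      rw [← hypSumZero_apply', LinearEquiv.trans_apply, LinearEquiv.apply_symm_apply, hE]
    · left
      push Not at han
      obtain ⟨e, he, he0⟩ := han
      obtain ⟨f, hf, hef⟩ := exists_partner hQ he0 he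
      obtain ⟨E, hE⟩ := split he hf hef
      have h1 := finrank_hperp hQ he hf hef
      have h2 : finrank F (hperp Q e f) = finrank F ((Fin 0 → F × F) × PUnit.{1}) := by
        rw [finrank_zero_of_subsingleton (M := (Fin 0 → F × F) × PUnit.{1})]; omega
      let E2 : hperp Q e f ≃ₗ[F] (Fin 0 → F × F) × PUnit.{1} := LinearEquiv.ofFinrankEq _ _ h2
      have h3 : Subsingleton (hperp Q e f) := E2.toEquiv.subsingleton
      refine ⟨(E.trans ((LinearEquiv.refl F (F × F)).prodCongr E2)).trans (hypSumSucc 0 F _).symm, fun v => ?_⟩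
      rw [← hsum_hypSumSucc, LinearEquiv.trans_apply, LinearEquiv.apply_symm_apply, ← hE v, hsum_apply, hsum_apply]
      congr 1
      have e1 : (E v).2 = 0 := Subsingleton.elim _ _
      have e2 : ((E.trans ((LinearEquiv.refl F (F × F)).prodCongr E2)) v).2 = 0 := Subsingleton.elim _ _
      rw [e1, e2, QuadraticMap.map_zero, QuadraticMap.map_zero]
  | succ n ih =>
    intro V _ _ _ Q hQ hV
    obtain ⟨e, he0, he⟩ := exists_singular hQ (by omega)
    obtain ⟨f, hf, hef⟩ := exists_partner hQ he0 he
    obtain ⟨E, hE⟩ := split he hf hef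
    have h1 := finrank_hperp hQ he hf hef
    rcases ih (resQ Q (hperp Q e f)) (resQ_hperp_nondegenerate hQ he hf hef) (by omega) with ⟨E2, hE2⟩ | ⟨b, hb, E2, hE2⟩
    · left
      refine ⟨(E.trans ((LinearEquiv.refl F (F × F)).prodCongr E2)).trans (hypSumSucc (n + 1) F _).symm, fun v => ?_⟩
      rw [← hsum_hypSumSucc, LinearEquiv.trans_apply, LinearEquiv.apply_symm_apply, ← hE v, hsum_apply, hsum_apply]
      congr 1
      exact hE2 _
    · right
      refine ⟨b, hb, (E.trans ((LinearEquiv.refl F (F × F)).prodCongr E2)).trans (hypSumSucc n F _).symm, fun v => ?_⟩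
      rw [← hsum_hypSumSucc, LinearEquiv.trans_apply, LinearEquiv.apply_symm_apply, ← hE v, hsum_apply, hsum_apply]
      congr 1
      exact hE2 _

/-- classification of nondegenerate quadratic forms in even dimension over finite fields. -/
theorem classify [Finite F] (n : ℕ) {V : Type v} [AddCommGroup V] [Module F V] [FiniteDimensional F V] (Q : QuadraticForm F V)
    (hQ : (β[Q]).Nondegenerate) (hV : finrank F V = 2 * (n + 1)) :
    (∃ E : V ≃ₗ[F] (Fin (n + 1) ⊕ Fin (n + 1) → F), ∀ v, quadFormPlus (n + 1) F (E v) = Q v) ∨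
    ∃ b : F, Aniso 1 b ∧ ∃ E : V ≃ₗ[F] ((Fin n ⊕ Fin n) ⊕ Fin 2 → F), ∀ v, quadFormMinus n F 1 b (E v) = Q v := by
  rcases classify0 n Q hQ hV with ⟨E, hE⟩ | ⟨b, hb, E, hE⟩
  · left
    refine ⟨E.trans (ePlus (n + 1) F).symm, fun v => ?_⟩
    rw [← ePlus_apply, LinearEquiv.trans_apply, LinearEquiv.apply_symm_apply, hE]
  · right
    refine ⟨b, hb, E.trans (eMinus n 1 b).symm, fun v => ?_⟩
    rw [← eMinus_apply, LinearEquiv.trans_apply, LinearEquiv.apply_symm_apply, hE]

end CfsgLib.QCl
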