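import Cfsg.Agent.Lib.QCl1
set_option autoImplicit false

/-! quadratic functions over the field of two elements. -/

namespace CfsgLib.QCl

open Module CfsgLib.IsomDecomp Cfsg CfsgLib.Quad

theorem pp {F : Type*} [Field F] (m : ℕ) (u v : Fin m ⊕ Fin m → F) :
    quadFormPlus m F (u + v) - quadFormPlus m F u - quadFormPlus m F v = ∑ i, (u (.inl i) * v (.inr i) + v (.inl i) * u (.inr i)) := by
  simp only [quadFormPlus, Pi.add_apply]
  rw [← Finset.sum_sub_distrib, ← Finset.sum_sub_distrib]
  exact Finset.sum_congr rfl fun i _ => by ring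

theorem pm {F : Type*} [Field F] (m : ℕ) (b : F) (u v : (Fin m ⊕ Fin m) ⊕ Fin 2 → F) :
    quadFormMinus m F 1 b (u + v) - quadFormMinus m F 1 b u - quadFormMinus m F 1 b v =
      ∑ i, (u (.inl (.inl i)) * v (.inl (.inr i)) + v (.inl (.inl i)) * u (.inl (.inr i))) +
        (2 * u (.inr 0) * v (.inr 0) + (u (.inr 0) * v (.inr 1) + v (.inr 0) * u (.inr 1)) + 2 * b * u (.inr 1) * v (.inr 1)) := by
  simp only [quadFormMinus, Pi.add_apply]
  have : ∑ i, (u (.inl (.inl i)) * v (.inl (.inr i)) + v (.inl (.inl i)) * u (.inl (.inr i))) =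
    ∑ i, (u (.inl (.inl i)) + v (.inl (.inl i))) * (u (.inl (.inr i)) + v (.inl (.inr i))) - ∑ i, u (.inl (.inl i)) * u (.inl (.inr i)) - ∑ i, v (.inl (.inl i)) * v (.inl (.inr i)) := by
    rw [← Finset.sum_sub_distrib, ← Finset.sum_sub_distrib]
    exact Finset.sum_congr rfl fun i _ => by ring
  rw [this]; ring

/-- the polar form of the plus-type form. -/
def ff (m : ℕ) (u v : Fin m ⊕ Fin m → ZMod 2) : ZMod 2 :=
  quadFormPlus m (ZMod 2) (u + v) - quadFormPlus m (ZMod 2) u - quadFormPlus m (ZMod 2) v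

theorem ff_add_left (m : ℕ) (u v w : Fin m ⊕ Fin m → ZMod 2) : ff m (u + v) w = ff m u w + ff m v w := by
  simp only [ff, pp, Pi.add_apply]
  rw [← Finset.sum_add_distrib]
  exact Finset.sum_congr rfl fun i _ => by ring

theorem ff_comm (m : ℕ) (u v : Fin m ⊕ Fin m → ZMod 2) : ff m u v = ff m v u := by
  simp only [ff, pp]
  exact Finset.sum_congr rfl fun i _ => by ring

theorem ff_smul_left (m : ℕ) (a : ZMod 2) (u w : Fin m ⊕ Fin m → ZMod 2) : ff m (a • u) w = a * ff m u w := by
  simp only [ff, pp, Pi.smul_apply, smul_eq_mul]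
  rw [Finset.mul_sum]
  exact Finset.sum_congr rfl fun i _ => by ring

theorem ff_self (m : ℕ) (u : Fin m ⊕ Fin m → ZMod 2) : ff m u u = 0 := by
  simp only [ff, pp]
  apply Finset.sum_eq_zero
  intro i _
  exact CharTwo.add_self_eq_zero _

theorem ff_nondeg (m : ℕ) {w : Fin m ⊕ Fin m → ZMod 2} (h : ∀ u, ff m u w = 0) : w = 0 := by
  funext i
  rcases i with i | i
  · have := h (Pi.single (.inr i) 1)
    simp only [ff, pp] at this
    simpa [Pi.single_apply] using this
  · have := h (Pi.single (.inl i) 1)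
    simp only [ff, pp] at this
    simpa [Pi.single_apply] using this

theorem zmod2 (a : ZMod 2) : a = 0 ∨ a = 1 := by revert a; decide

/-- the sign character. -/
def chi (a : ZMod 2) : ℤ := if a = 0 then 1 else -1

theorem chi_add (a b : ZMod 2) : chi (a + b) = chi a * chi b := by revert a b; decide

theorem chi_one_add (a : ZMod 2) : chi (a + 1) = - chi a := by revert a; decide

theorem sum_ff (m : ℕ) (h : Fin m ⊕ Fin m → ZMod 2) (hh : h ≠ 0) : ∑ u, chi (ff m u h) = 0 := by
  obtain ⟨u0, hu0⟩ : ∃ u, ff m u h ≠ 0 := by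
    by_contra hcon
    push Not at hcon
    exact hh (ff_nondeg m hcon)
  have h1 : ff m u0 h = 1 := (zmod2 _).resolve_left hu0
  have h2 : ∑ u, chi (ff m u h) = ∑ u, chi (ff m (u + u0) h) :=
    (Equiv.sum_comp (Equiv.addRight u0) fun u => chi (ff m u h)).symm
  have h3 : ∑ u, chi (ff m (u + u0) h) = - ∑ u, chi (ff m u h) := by
    rw [← Finset.sum_neg_distrib]
    exact Finset.sum_congr rfl fun u _ => by rw [ff_add_left, h1, chi_one_add]
  omega

variable {m : ℕ} {q : (Fin m ⊕ Fin m → ZMod 2) → ZMod 2}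

theorem q_zero (hq : ∀ u v, q (u + v) = q u + q v + ff m u v) : q 0 = 0 := by
  have := hq 0 0
  rw [ff_self, add_zero, add_zero] at this
  exact left_eq_add.1 this

/-- the Arf sum. -/
theorem arf_sq (hq : ∀ u v, q (u + v) = q u + q v + ff m u v) :
    (∑ v, chi (q v)) * (∑ v, chi (q v)) = 2 ^ (2 * m) := by
  rw [Finset.sum_mul_sum]
  have h1 : ∀ u, ∑ v, chi (q u) * chi (q v) = ∑ h, chi (q h) * chi (ff m u h) := by
    intro u
    rw [← Equiv.sum_comp (Equiv.addLeft u) fun v => chi (q u) * chi (q v)]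
    refine Finset.sum_congr rfl fun h _ => ?_
    change chi (q u) * chi (q (u + h)) = _
    rw [hq, chi_add, chi_add]
    have : chi (q u) * chi (q u) = 1 := by
      rw [← chi_add, CharTwo.add_self_eq_zero]; rfl
    linear_combination (chi (q h) * chi (ff m u h)) * this
  rw [Finset.sum_congr rfl fun u _ => h1 u, Finset.sum_comm]
  rw [Finset.sum_eq_single 0]
  · rw [q_zero hq]
    have : ∀ u, chi 0 * chi (ff m u 0) = 1 := by
      intro u
      have h2 : ff m u 0 = 0 := by
        rw [ff_comm]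
        have := ff_smul_left m 0 0 u
        rwa [zero_smul, zero_mul] at this
      rw [h2]; rfl
    rw [Finset.sum_congr rfl fun u _ => this u]
    simp [Finset.card_univ, two_mul]
  · intro h _ hh
    rw [← Finset.mul_sum, sum_ff m h hh, mul_zero]
  · intro h; exact absurd (Finset.mem_univ _) h

theorem arf_ne (hq : ∀ u v, q (u + v) = q u + q v + ff m u v) : (∑ v, chi (q v)) ≠ 0 := by
  intro h
  have := arf_sq hq
  rw [h, zero_mul] at this
  exact (pow_ne_zero _ two_ne_zero) this.symm

theorem shift (hq : ∀ u v, q (u + v) = q u + q v + ff m u v) (w : Fin m ⊕ Fin m → ZMod 2) :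
    ∀ u v, (q (u + v) + ff m (u + v) w) = (q u + ff m u w) + (q v + ff m v w) + ff m u v := by
  intro u v
  rw [hq, ff_add_left]; ring

theorem equiv_iff (hq : ∀ u v, q (u + v) = q u + q v + ff m u v) (w : Fin m ⊕ Fin m → ZMod 2) :
    (∃ g : (Fin m ⊕ Fin m → ZMod 2) ≃ₗ[ZMod 2] (Fin m ⊕ Fin m → ZMod 2), ∀ v, q v + ff m v w = q (g v)) ↔ q w = 0 := by
  constructor
  · rintro ⟨g, hg⟩
    by_contra hw
    have hw1 : q w = 1 := (zmod2 _).resolve_left hw
    have h1 : ∑ v, chi (q v + ff m v w) = ∑ v, chi (q v) := by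
      rw [Finset.sum_congr rfl fun v _ => by rw [hg v]]
      exact Equiv.sum_comp g.toEquiv fun v => chi (q v)
    have h2 : ∑ v, chi (q v + ff m v w) = - ∑ v, chi (q v) := by
      rw [← Equiv.sum_comp (Equiv.addRight w) fun v => chi (q v), ← Finset.sum_neg_distrib]
      refine Finset.sum_congr rfl fun v _ => ?_
      change chi (q v + ff m v w) = - chi (q (v + w))
      rw [← chi_one_add, hq, hw1]
      congr 1
      have : (1 : ZMod 2) + 1 = 0 := by decide
      linear_combination -this
    apply arf_ne hq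
    omega
  · intro hw
    let g : (Fin m ⊕ Fin m → ZMod 2) →ₗ[ZMod 2] (Fin m ⊕ Fin m → ZMod 2) :=
      { toFun := fun v => v + ff m v w • w
        map_add' := fun u v => by rw [ff_add_left, add_smul]; abel
        map_smul' := fun a v => by rw [ff_smul_left, smul_add, smul_smul, RingHom.id_apply] }
    have hgg : ∀ v, g (g v) = v := by
      intro v
      change (v + ff m v w • w) + ff m (v + ff m v w • w) w • w = v
      rw [ff_add_left, ff_smul_left, ff_self, mul_zero, add_zero, add_assoc, ← add_smul, CharTwo.add_self_eq_zero, zero_smul, add_zero]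
    refine ⟨LinearEquiv.ofInvolutive g hgg, fun v => ?_⟩
    change _ = q (v + ff m v w • w)
    rcases zmod2 (ff m v w) with h | h
    · rw [h, zero_smul, add_zero, add_zero]
    · rw [h, one_smul, hq, hw, h, add_zero]

end CfsgLib.QCl
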