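import Cfsg.Agent.Lib.Symp2
set_option autoImplicit false

/-! embeddings of finite fields. -/

namespace CfsgLib.QEmb

open Module

variable {F K : Type*} [Field F] [Field K] [Fintype F] [Fintype K]

theorem exists_emb {q : ℕ} (hK : Fintype.card K = q ^ 2) (hF : Fintype.card F = q) : Nonempty (F →+* K) := by
  classical
  obtain ⟨p, hp⟩ := CharP.exists F
  obtain ⟨p', hp'⟩ := CharP.exists K
  haveI : CharP F p := hp
  haveI : CharP K p' := hp'
  obtain ⟨n, hpr, hn⟩ := FiniteField.card F p
  obtain ⟨n', hpr', hn'⟩ := FiniteField.card K p'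
  have hpp : p' = p := by
    have h1 : p' ∣ Fintype.card K := by rw [hn']; exact dvd_pow_self _ n'.pos.ne'
    rw [hK, ← hF, hn, ← pow_mul] at h1
    exact (Nat.prime_dvd_prime_iff_eq hpr' hpr).1 (hpr'.dvd_of_dvd_pow h1)
  subst hpp
  haveI : Fact p'.Prime := ⟨hpr⟩
  letI : Algebra (ZMod p') F := ZMod.algebra F p'
  letI : Algebra (ZMod p') K := ZMod.algebra K p'
  have h1 : Fintype.card F = Fintype.card (ZMod p') ^ finrank (ZMod p') F := Module.card_eq_pow_finrank
  have h2 : Fintype.card K = Fintype.card (ZMod p') ^ finrank (ZMod p') K := Module.card_eq_pow_finrank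
  rw [ZMod.card] at h1 h2
  have h3 : finrank (ZMod p') K = finrank (ZMod p') F * 2 := by
    apply Nat.pow_right_injective hpr.two_le
    change p' ^ finrank (ZMod p') K = p' ^ (finrank (ZMod p') F * 2)
    rw [← h2, pow_mul, ← h1, hK, hF]
  obtain ⟨f⟩ := FiniteField.nonempty_algHom_of_finrank_dvd (F := ZMod p') (K := F) (L := K) ⟨2, h3⟩
  exact ⟨f.toRingHom⟩

theorem finrank_two [Algebra F K] {q : ℕ} (hK : Fintype.card K = q ^ 2) (hF : Fintype.card F = q) : finrank F K = 2 := by
  have h1 : Fintype.card K = Fintype.card F ^ finrank F K := Module.card_eq_pow_finrank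
  rw [hK, hF] at h1
  have hq : 2 ≤ q := hF ▸ Fintype.one_lt_card
  exact (Nat.pow_right_injective hq h1).symm

end CfsgLib.QEmb
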