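import Cfsg.Agent.Lib.Quad14
set_option autoImplicit false

/-! spinor norm criterion. -/

namespace CfsgLib.QSp

open Module CfsgLib.IsomDecomp Cfsg CfsgLib.Quad

universe u v

variable {F : Type u} [Field F] [Finite F]

local notation "β[" Q "]" => QuadraticMap.polarBilin Q

theorem isSquare_mul_iff {a b : F} (ha : a ≠ 0) (hb : b ≠ 0) : IsSquare (a * b) ↔ (IsSquare a ↔ IsSquare b) := by
  constructor
  · intro h
    constructor
    · intro h1
      obtain ⟨s, hs⟩ := h1.mul h
      exact ⟨s / a, by field_simp; linear_combination hs⟩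
    · intro h1
      obtain ⟨s, hs⟩ := h1.mul h
      exact ⟨s / b, by field_simp; linear_combination hs⟩
  · intro h
    by_cases h1 : IsSquare a
    · exact h1.mul (h.1 h1)
    · exact isSquare_mul_of_not h1 (fun h2 => h1 (h.2 h2))

open Classical in
noncomputable def eta (a : F) : ℤˣ := if IsSquare a then 1 else -1

theorem eta_mul {a b : F} (ha : a ≠ 0) (hb : b ≠ 0) : eta (a * b) = eta a * eta b := by
  unfold eta
  by_cases h1 : IsSquare a <;> by_cases h2 : IsSquare b
  · rw [if_pos h1, if_pos h2, if_pos (h1.mul h2), one_mul]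
  · rw [if_pos h1, if_neg h2, if_neg (fun h => h2 (((isSquare_mul_iff ha hb).1 h).1 h1)), one_mul]
  · rw [if_neg h1, if_pos h2, if_neg (fun h => h1 (((isSquare_mul_iff ha hb).1 h).2 h2)), mul_one]
  · rw [if_neg h1, if_neg h2, if_pos (isSquare_mul_of_not h1 h2)]; rfl

theorem eta_one : eta (1 : F) = 1 := if_pos ⟨1, (one_mul 1).symm⟩

variable {V : Type v} [AddCommGroup V] [Module F V] [FiniteDimensional F V]

/-- `h` has length parity `k` and spinor norm `a`. -/
def R {Q : QuadraticForm F V} (hQ : (β[Q]).Nondegenerate) (h : O Q) (k : ℕ) (a : F) : Prop :=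
  a ≠ 0 ∧ dick hQ h = (-1) ^ k ∧ sgnO Q 1 h = (-1) ^ k * eta a

variable {Q : QuadraticForm F V} {hQ : (β[Q]).Nondegenerate}

theorem R_one : R hQ 1 0 1 := ⟨one_ne_zero, by rw [_root_.map_one, pow_zero], by rw [_root_.map_one, pow_zero, eta_one, one_mul]⟩

theorem R_mul {g h : O Q} {k l : ℕ} {a b : F} (h1 : R hQ g k a) (h2 : R hQ h l b) : R hQ (g * h) (k + l) (a * b) :=
  ⟨mul_ne_zero h1.1 h2.1, by rw [_root_.map_mul, h1.2.1, h2.2.1, pow_add],
    by rw [_root_.map_mul, h1.2.2, h2.2.2, eta_mul h1.1 h2.1, pow_add, mul_mul_mul_comm]⟩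

theorem R_refl (h2 : (2 : F) ≠ 0) {w : V} (hw : Q w ≠ 0) : R hQ (reflO hw) 1 (Q w) := by
  refine ⟨hw, by rw [dick_reflO, pow_one], ?_⟩
  rw [sgnO_reflO h2 one_ne_zero, one_mul, pow_one]
  unfold eta
  by_cases h : IsSquare (Q w)
  · rw [if_pos h, if_pos h, mul_one]
  · rw [if_neg h, if_neg h]; rfl

theorem R_mem (h2 : (2 : F) ≠ 0) (hV : 2 ≤ finrank F V) {h : O Q} {k : ℕ} {a : F} (h1 : R hQ h k a) :
    h ∈ commutator (O Q) ↔ Even k ∧ IsSquare a := by
  rw [commutator_eq_ker_chiO h2 hQ hV 1 one_ne_zero, MonoidHom.mem_ker]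
  have e : chiO hQ 1 h = ((-1) ^ k, (-1) ^ k * eta a) := Prod.ext h1.2.1 h1.2.2
  rw [e, Prod.mk_eq_one]
  unfold eta
  rcases Nat.even_or_odd k with hk | hk
  · rw [hk.neg_one_pow, one_mul]
    by_cases h : IsSquare a
    · simp [h, hk]
    · simp [h]
  · rw [hk.neg_one_pow]
    constructor
    · rintro ⟨h, -⟩
      exact absurd h (by decide)
    · rintro ⟨h, -⟩
      exact absurd hk (Nat.not_odd_iff_even.2 h)

/-- negation of a hyperbolic plane. -/
theorem neg_plane (h2 : (2 : F) ≠ 0) {e f : V} (he : Q e = 0) (hf : Q f = 0) (hef : β[Q] e f = 1) :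
    ∃ h : O Q, R hQ h 2 (-1) ∧ ∀ v, h.1 v = v - (2 * β[Q] f v) • e - (2 * β[Q] e v) • f := by
  have h1 : Q (e + f) = 1 := by rw [Quad.map_add, he, hf, hef]; ring
  have h3 : Q (e - f) = -1 := by
    rw [Quad.map_sub, he, hf, hef]; ring
  have n1 : Q (e + f) ≠ 0 := by rw [h1]; exact one_ne_zero
  have n3 : Q (e - f) ≠ 0 := by rw [h3]; exact neg_ne_zero.2 one_ne_zero
  have hee : β[Q] e e = 0 := by rw [polar_self, he, mul_zero]
  have hff : β[Q] f f = 0 := by rw [polar_self, hf, mul_zero]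
  have hfe : β[Q] f e = 1 := by rw [polar_comm, hef]
  refine ⟨reflO n1 * reflO n3, ?_, fun v => ?_⟩
  · have := R_mul (R_refl (hQ := hQ) h2 n1) (R_refl (hQ := hQ) h2 n3)
    rwa [h1, h3, one_mul] at this
  · change (reflO n1).1 ((reflO n3).1 v) = _
    rw [reflO_apply, reflO_apply, h1, h3]
    simp only [LinearMap.map_sub, LinearMap.map_add, LinearMap.map_smul, LinearMap.add_apply, LinearMap.sub_apply, hee, hff, hfe, hef, smul_eq_mul]
    have hinv : (-1 : F)⁻¹ = -1 := by rw [inv_neg, inv_one]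
    rw [hinv, inv_one]
    module

/-- negation of the first `i` hyperbolic pairs. -/
theorem neg_ind (h2 : (2 : F) ≠ 0) {ι : Type} [Fintype ι] [DecidableEq ι] {Q : QuadraticForm F (ι → F)} (hQ : (β[Q]).Nondegenerate)
    (m : ℕ) (a b : Fin m → ι) (lab : ι → ℕ) (hab : ∀ j, a j ≠ b j) (hlab : ∀ k (j : Fin m), lab k = j ↔ k = a j ∨ k = b j)
    (hQa : ∀ j, Q (Pi.single (a j) 1) = 0) (hQb : ∀ j, Q (Pi.single (b j) 1) = 0)
    (hpa : ∀ j v, β[Q] (Pi.single (a j) 1) v = v (b j)) (hpb : ∀ j v, β[Q] (Pi.single (b j) 1) v = v (a j)) :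
    ∀ i ≤ m, ∃ h : O Q, R hQ h (2 * i) ((-1) ^ i) ∧ ∀ v k, h.1 v k = if lab k < i then - v k else v k := by
  intro i
  induction i with
  | zero =>
    intro _
    exact ⟨1, by rw [mul_zero, pow_zero]; exact R_one, fun v k => by rw [if_neg (Nat.not_lt_zero _)]; rfl⟩
  | succ i ih =>
    intro hi
    obtain ⟨h, hR, hh⟩ := ih (by omega)
    let j : Fin m := ⟨i, by omega⟩
    have hef : β[Q] (Pi.single (a j) 1) (Pi.single (b j) 1) = 1 := by rw [hpa, Pi.single_eq_same]
    obtain ⟨g, hgR, hg⟩ := neg_plane (hQ := hQ) h2 (hQa j) (hQb j) hef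
    refine ⟨h * g, ?_, fun v k => ?_⟩
    · have := R_mul hR hgR
      rwa [← pow_succ] at this
    · change h.1 (g.1 v) k = _
      have hgk : g.1 v k = if lab k = i then - v k else v k := by
        rw [hg, hpa, hpb]
        simp only [Pi.sub_apply, Pi.smul_apply, smul_eq_mul]
        by_cases hk : lab k = i
        · rw [if_pos hk]
          rcases (hlab k j).1 hk with rfl | rfl
          · rw [Pi.single_eq_same, Pi.single_eq_of_ne (hab j)]; ring
          · rw [Pi.single_eq_same, Pi.single_eq_of_ne (hab j).symm]; ring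
        · rw [if_neg hk]
          have h3 : ¬ (k = a j ∨ k = b j) := fun h => hk ((hlab k j).2 h)
          push Not at h3
          rw [Pi.single_eq_of_ne h3.1, Pi.single_eq_of_ne h3.2]; ring
      rw [hh, hgk]
      by_cases h3 : lab k < i
      · rw [if_pos h3, if_neg h3.ne, if_pos (by omega)]
      · rw [if_neg h3]
        by_cases h4 : lab k = i
        · rw [if_pos h4, if_pos (by omega)]
        · rw [if_neg h4, if_neg (by omega)]

/-- the criterion in matrix form. -/
theorem mat_mem {ι : Type} [Fintype ι] [DecidableEq ι] {Q : QuadraticForm F (ι → F)} (M : Matrix ι ι F) (h : O Q)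
    (hM : ∀ v, M.mulVec v = h.1 v) :
    (∃ g : ↥(isometryGroup F ⇑Q), g ∈ Omega F ⇑Q ∧ ((g : GL ι F) : Matrix ι ι F) = M) ↔ h ∈ commutator (O Q) := by
  have hcomm : ∀ g : ↥(isometryGroup F ⇑Q), g ∈ Omega F ⇑Q ↔ isometryGroupEquiv Q g ∈ commutator (O Q) := by
    intro g
    rw [mem_commutator_iff, mem_commutator_iff]
    constructor
    · intro h
      have := congrArg (Abelianization.map (isometryGroupEquiv Q).toMonoidHom) h
      rw [Abelianization.map_of, _root_.map_one] at this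
      exact this
    · intro h
      have := congrArg (Abelianization.map (isometryGroupEquiv Q).symm.toMonoidHom) h
      rw [Abelianization.map_of, _root_.map_one] at this
      have e : (isometryGroupEquiv Q).symm.toMonoidHom (isometryGroupEquiv Q g) = g := MulEquiv.symm_apply_apply _ _
      rwa [e] at this
  constructor
  · rintro ⟨g, hg, rfl⟩
    have : isometryGroupEquiv Q g = h := by
      apply O_ext
      intro x
      rw [← hM, isometryGroupEquiv_apply]
    rw [← this]
    exact (hcomm g).1 hg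
  · intro hh
    refine ⟨(isometryGroupEquiv Q).symm h, (hcomm _).2 (by rwa [MulEquiv.apply_symm_apply]), ?_⟩
    exact coe_isometryGroupEquiv_symm Q h M hM

theorem neg_one_pow_sq [Fintype F] {q : ℕ} (hF : Fintype.card F = q) (hq : Odd q) (i : ℕ) : IsSquare ((-1 : F) ^ i) ↔ q ^ i % 4 = 1 := by
  rcases Nat.even_or_odd i with hi | hi
  · rw [hi.neg_one_pow]
    obtain ⟨k, rfl⟩ := hi
    constructor
    · intro _
      obtain ⟨r, hr⟩ := hq.pow (n := k)
      rw [pow_add, hr]
      have : (2 * r + 1) * (2 * r + 1) = 4 * (r * r + r) + 1 := by ring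
      rw [this]; omega
    · intro _; exact ⟨1, (one_mul 1).symm⟩
  · rw [hi.neg_one_pow, FiniteField.isSquare_neg_one_iff, hF]
    obtain ⟨k, rfl⟩ := hi
    obtain ⟨r, hr⟩ := hq.pow (n := k)
    have e : q ^ (2 * k + 1) % 4 = q % 4 := by
      have : q ^ (2 * k + 1) = 4 * ((r * r + r) * q) + q := by
        rw [pow_succ, two_mul, pow_add, hr]; ring
      rw [this]; omega
    rw [e]
    obtain ⟨t, ht⟩ := hq
    omega

end CfsgLib.QSp
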