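import Mathlib
import Cfsg.Prelude.Def_RootSubgroups
import Cfsg.Agent.Lib.BaerSuzuki

/-!
Rank one groups in the sense of Timmesfeld.
-/

set_option autoImplicit false

namespace CfsgLib.RankOne

open Cfsg

variable {G : Type*} [Group G]

theorem mem_conjBy {A : Subgroup G} {g y : G} : y ∈ conjBy A g ↔ g⁻¹ * y * g ∈ A :=
  CfsgLib.BaerSuzuki.mem_map_conj

theorem conjBy_conjBy (A : Subgroup G) (g h : G) : conjBy (conjBy A h) g = conjBy A (g * h) :=
  CfsgLib.BaerSuzuki.map_conj_map_conj A g h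

theorem conjBy_one (A : Subgroup G) : conjBy A 1 = A := by
  ext y; rw [mem_conjBy]; simp

theorem conjBy_inv_eq {A B : Subgroup G} {g : G} : conjBy A g = B ↔ A = conjBy B g⁻¹ := by
  constructor
  · rintro rfl; rw [conjBy_conjBy, inv_mul_cancel, conjBy_one]
  · rintro rfl; rw [conjBy_conjBy, mul_inv_cancel, conjBy_one]

theorem conjBy_self {A : Subgroup G} {a : G} (ha : a ∈ A) : conjBy A a = A := by
  ext y
  rw [mem_conjBy]
  constructor
  · intro h
    have : y = a * (a⁻¹ * y * a) * a⁻¹ := by group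
    rw [this]; exact mul_mem (mul_mem ha h) (inv_mem ha)
  · intro h; exact mul_mem (mul_mem (inv_mem ha) h) ha

theorem conjBy_injective (g : G) {A B : Subgroup G} (h : conjBy A g = conjBy B g) : A = B := by
  rw [conjBy_inv_eq, conjBy_conjBy, inv_mul_cancel, conjBy_one] at h
  exact h

theorem conjBy_eq_of_mul {A : Subgroup G} {g h : G} (H : conjBy A g = conjBy A h) : conjBy A (h⁻¹ * g) = A := by
  rw [← conjBy_conjBy, H, conjBy_conjBy, inv_mul_cancel, conjBy_one]

theorem conjBy_eq_self_iff {A : Subgroup G} {g : G} : conjBy A g = A ↔ g ∈ Subgroup.normalizer (A : Set G) := by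
  rw [Subgroup.mem_normalizer_iff]
  constructor
  · intro h x
    nth_rewrite 2 [← h]
    rw [mem_conjBy]
    have : g⁻¹ * (g * x * g⁻¹) * g = x := by group
    rw [this]
  · intro h
    ext y
    rw [mem_conjBy, h]
    have : g * (g⁻¹ * y * g) * g⁻¹ = y := by group
    rw [this]

theorem conjBy_inv_self {A : Subgroup G} {g : G} (h : conjBy A g = A) : conjBy A g⁻¹ = A := by
  rw [conjBy_inv_eq, inv_inv]; exact h.symm

theorem conjBy_sup (A B : Subgroup G) (g : G) : conjBy (A ⊔ B) g = conjBy A g ⊔ conjBy B g :=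
  Subgroup.map_sup _ _ _

theorem mul_mem_conjBy {A : Subgroup G} {g a : G} (ha : a ∈ A) : g * a * g⁻¹ ∈ conjBy A g := by
  rw [mem_conjBy]
  have : g⁻¹ * (g * a * g⁻¹) * g = a := by group
  rw [this]; exact ha

section Pair
variable {A B : Subgroup G} (h : IsRankOnePair A B)
include h

theorem eq_one_of_normalizes {a : G} (ha : a ∈ A) (hB : conjBy B a = B) : a = 1 := by
  by_contra hne
  obtain ⟨b, hb, -, hab⟩ := h.cond_left a ha hne
  rw [conjBy_inv_self hB] at hab
  rw [conjBy_inv_eq, inv_inv, conjBy_self hb] at hab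
  exact h.ne hab

theorem eq_one_of_normalizes' {b : G} (hb : b ∈ B) (hA : conjBy A b = A) : b = 1 :=
  eq_one_of_normalizes (RankOnePair_symm h) hb hA

theorem left_ne_bot : A ≠ ⊥ := by
  intro hA
  have hB : B ≠ ⊥ := fun hB => h.ne (hA.trans hB.symm)
  obtain ⟨b, hb⟩ := Subgroup.ne_bot_iff_exists_ne_one.mp hB
  obtain ⟨a, ha, ha1, -⟩ := h.cond_right b.1 b.2 (fun h' => hb (Subtype.ext h'))
  rw [hA, Subgroup.mem_bot] at ha
  exact ha1 ha

theorem exists_left : ∃ a ∈ A, a ≠ 1 := by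
  obtain ⟨a, ha⟩ := Subgroup.ne_bot_iff_exists_ne_one.mp (left_ne_bot h)
  exact ⟨a.1, a.2, fun h' => ha (Subtype.ext h')⟩

theorem exists_right : ∃ b ∈ B, b ≠ 1 := exists_left (RankOnePair_symm h)

theorem exists_conj_left {b : G} (hb : b ∈ B) : conjBy A b = A ∨ ∃ a ∈ A, conjBy A b = conjBy B a := by
  by_cases hb1 : b = 1
  · left; rw [hb1, conjBy_one]
  · right
    obtain ⟨a, ha, -, hab⟩ := h.cond_right b⁻¹ (inv_mem hb) (inv_ne_one.mpr hb1)
    rw [inv_inv] at hab
    exact ⟨a⁻¹, inv_mem ha, by rw [hab]⟩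

theorem exists_conj_right {a : G} (ha : a ∈ A) : conjBy B a = B ∨ ∃ b ∈ B, conjBy B a = conjBy A b :=
  exists_conj_left (RankOnePair_symm h) ha

/-- the set of unipotent subgroups explicitly -/
theorem closed_aux {C : Subgroup G} (hC : C = A ∨ ∃ a ∈ A, C = conjBy B a) {x : G} (hx : x ∈ A ⊔ B) :
    conjBy C x = A ∨ ∃ a ∈ A, conjBy C x = conjBy B a := by
  have key : ∀ y ∈ (A : Set G) ∪ B, ∀ E : Subgroup G, (E = A ∨ ∃ a ∈ A, E = conjBy B a) →
      (conjBy E y = A ∨ ∃ a ∈ A, conjBy E y = conjBy B a) := by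
    intro y hy E hE
    rcases hy with hy | hy
    · rcases hE with hE | ⟨a, ha, hE⟩
      · left; rw [hE]; exact conjBy_self hy
      · right; exact ⟨y * a, mul_mem hy ha, by rw [hE]; exact conjBy_conjBy _ _ _⟩
    · rcases hE with hE | ⟨a, ha, hE⟩
      · rw [hE]; exact exists_conj_left h hy
      · rw [hE]
        rcases exists_conj_right h ha with h1 | ⟨b, hb, h1⟩
        · right; exact ⟨1, one_mem _, by rw [h1, conjBy_self hy, conjBy_one]⟩
        · rw [h1, conjBy_conjBy]
          exact exists_conj_left h (mul_mem hy hb)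
  rw [Subgroup.sup_eq_closure] at hx
  induction hx using Subgroup.closure_induction'' generalizing C with
  | mem y hy => exact key y hy C hC
  | inv_mem y hy => exact key y⁻¹ (hy.imp inv_mem inv_mem) C hC
  | one => rw [conjBy_one]; exact hC
  | mul y z _ _ hy hz => rw [← conjBy_conjBy]; exact hy (hz hC)

theorem exists_conj : ∃ x ∈ A ⊔ B, conjBy A x = B := by
  obtain ⟨a, ha, ha1⟩ := exists_left h
  obtain ⟨b, hb, -, hab⟩ := h.cond_left a ha ha1
  refine ⟨a * b⁻¹, mul_mem (Subgroup.mem_sup_left ha) (inv_mem (Subgroup.mem_sup_right hb)), ?_⟩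
  rw [← conjBy_conjBy, hab, conjBy_conjBy, mul_inv_cancel, conjBy_one]

theorem mem_unipotent_iff {C : Subgroup G} :
    C ∈ unipotentSubgroups A B ↔ C = A ∨ ∃ a ∈ A, C = conjBy B a := by
  constructor
  · rintro ⟨x, hx, rfl⟩
    exact closed_aux h (Or.inl rfl) hx
  · rintro (rfl | ⟨a, ha, rfl⟩)
    · exact ⟨1, one_mem _, (conjBy_one _).symm⟩
    · obtain ⟨x, hx, hxB⟩ := exists_conj h
      exact ⟨a * x, mul_mem (Subgroup.mem_sup_left ha) hx, by rw [← conjBy_conjBy, hxB]⟩

theorem left_mem : A ∈ unipotentSubgroups A B := (mem_unipotent_iff h).mpr (Or.inl rfl)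

theorem right_mem : B ∈ unipotentSubgroups A B :=
  (mem_unipotent_iff h).mpr (Or.inr ⟨1, one_mem _, (conjBy_one _).symm⟩)

theorem mem_conjBy_unipotent {C : Subgroup G} (hC : C ∈ unipotentSubgroups A B) {x : G} (hx : x ∈ A ⊔ B) :
    conjBy C x ∈ unipotentSubgroups A B := by
  obtain ⟨y, hy, rfl⟩ := hC
  exact ⟨x * y, mul_mem hx hy, conjBy_conjBy _ _ _⟩

theorem unipotent_symm : unipotentSubgroups A B = unipotentSubgroups B A := by
  obtain ⟨x, hx, hxB⟩ := exists_conj h
  ext C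
  constructor
  · rintro ⟨y, hy, rfl⟩
    refine ⟨y * x⁻¹, ?_, ?_⟩
    · rw [sup_comm]; exact mul_mem hy (inv_mem hx)
    · rw [← hxB, conjBy_conjBy]; congr 1; congr 1; group
  · rintro ⟨y, hy, rfl⟩
    refine ⟨y * x, ?_, ?_⟩
    · rw [sup_comm] at hy; exact mul_mem hy hx
    · rw [← hxB, conjBy_conjBy]

/-- regularity of `A` on the other unipotent subgroups -/
theorem exists_regular {C D : Subgroup G} (hC : C ∈ unipotentSubgroups A B) (hD : D ∈ unipotentSubgroups A B)
    (hCA : C ≠ A) (hDA : D ≠ A) : ∃ a ∈ A, conjBy C a = D := by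
  rcases (mem_unipotent_iff h).mp hC with rfl | ⟨c, hc, rfl⟩
  · exact absurd rfl hCA
  rcases (mem_unipotent_iff h).mp hD with rfl | ⟨d, hd, rfl⟩
  · exact absurd rfl hDA
  exact ⟨d * c⁻¹, mul_mem hd (inv_mem hc), by rw [conjBy_conjBy, inv_mul_cancel_right]⟩

theorem eq_one_of_fix {C : Subgroup G} (hC : C ∈ unipotentSubgroups A B) (hCA : C ≠ A) {a : G} (ha : a ∈ A)
    (hfix : conjBy C a = C) : a = 1 := by
  rcases (mem_unipotent_iff h).mp hC with rfl | ⟨c, hc, rfl⟩
  · exact absurd rfl hCA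
  rw [conjBy_conjBy] at hfix
  have h1 := conjBy_eq_of_mul hfix
  have h2 := eq_one_of_normalizes h (mul_mem (inv_mem hc) (mul_mem ha hc)) h1
  have : a = c * (c⁻¹ * (a * c)) * c⁻¹ := by group
  rw [this, h2]; group

theorem exists_two_transitive {C D : Subgroup G} (hC : C ∈ unipotentSubgroups A B) (hD : D ∈ unipotentSubgroups A B)
    (hCD : C ≠ D) : ∃ x ∈ A ⊔ B, conjBy A x = C ∧ conjBy B x = D := by
  obtain ⟨x, hx, rfl⟩ := hC
  have hD' := mem_conjBy_unipotent h hD (inv_mem hx)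
  have hDA : conjBy D x⁻¹ ≠ A := by
    intro h'
    rw [conjBy_inv_eq, inv_inv] at h'
    exact hCD h'.symm
  obtain ⟨a, ha, haD⟩ := exists_regular h (right_mem h) hD' h.ne.symm hDA
  refine ⟨x * a, mul_mem hx (Subgroup.mem_sup_left ha), ?_, ?_⟩
  · rw [← conjBy_conjBy, conjBy_self ha]
  · rw [← conjBy_conjBy, haD, conjBy_conjBy, mul_inv_cancel, conjBy_one]

theorem conj_pair (x : G) : IsRankOnePair (conjBy A x) (conjBy B x) := by
  have key : ∀ {A B : Subgroup G}, RankOneCondition A B → RankOneCondition (conjBy A x) (conjBy B x) := by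
    intro A B hAB a ha ha1
    rw [mem_conjBy] at ha
    obtain ⟨b, hb, hb1, hab⟩ := hAB _ ha (by
      intro h'
      apply ha1
      have : a = x * (x⁻¹ * a * x) * x⁻¹ := by group
      rw [this, h']; group)
    refine ⟨x * b * x⁻¹, mul_mem_conjBy hb, ?_, ?_⟩
    · intro h'
      apply hb1
      have : b = x⁻¹ * (x * b * x⁻¹) * x := by group
      rw [this, h']; group
    · rw [conjBy_conjBy, conjBy_conjBy]
      have e1 : (x * b * x⁻¹)⁻¹ * x = x * b⁻¹ := by group
      have e2 : a⁻¹ * x = x * (x⁻¹ * a * x)⁻¹ := by group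
      rw [e1, e2, ← conjBy_conjBy, ← conjBy_conjBy, hab]
  refine ⟨fun h' => h.ne (conjBy_injective x h'), ?_, ?_, key h.cond_left, key h.cond_right⟩
  · haveI := h.nilpotent_left
    exact Group.nilpotent_of_mulEquiv (A.equivMapOfInjective _ (MulAut.conj x).injective)
  · haveI := h.nilpotent_right
    exact Group.nilpotent_of_mulEquiv (B.equivMapOfInjective _ (MulAut.conj x).injective)

theorem pair_of_mem {C D : Subgroup G} (hC : C ∈ unipotentSubgroups A B) (hD : D ∈ unipotentSubgroups A B)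
    (hCD : C ≠ D) : IsRankOnePair C D ∧ C ⊔ D = A ⊔ B ∧ unipotentSubgroups C D = unipotentSubgroups A B := by
  obtain ⟨x, hx, rfl, rfl⟩ := exists_two_transitive h hC hD hCD
  have h1 : conjBy A x ⊔ conjBy B x = A ⊔ B := by rw [← conjBy_sup, conjBy_self hx]
  refine ⟨conj_pair h x, h1, ?_⟩
  ext E
  constructor
  · rintro ⟨y, hy, rfl⟩
    rw [h1] at hy
    exact ⟨y * x, mul_mem hy hx, conjBy_conjBy _ _ _⟩
  · rintro ⟨y, hy, rfl⟩
    refine ⟨y * x⁻¹, ?_, ?_⟩
    · rw [h1]; exact mul_mem hy (inv_mem hx)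
    · rw [conjBy_conjBy, inv_mul_cancel_right]

/-- third unipotent subgroup -/
theorem exists_third {C D : Subgroup G} (hC : C ∈ unipotentSubgroups A B) (hD : D ∈ unipotentSubgroups A B)
    (hCD : C ≠ D) : ∃ E ∈ unipotentSubgroups A B, E ≠ C ∧ E ≠ D := by
  obtain ⟨h1, -, h2⟩ := pair_of_mem h hC hD hCD
  obtain ⟨c, hc, hc1⟩ := exists_left h1
  refine ⟨conjBy D c, ?_, ?_, ?_⟩
  · rw [← h2]; exact (mem_unipotent_iff h1).mpr (Or.inr ⟨c, hc, rfl⟩)
  · intro h3
    rw [conjBy_inv_eq, conjBy_self (inv_mem hc)] at h3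
    exact hCD h3.symm
  · intro h3; exact hc1 (eq_one_of_normalizes h1 hc h3)

/-- abelian unipotent subgroups: elements of different members do not commute -/
theorem eq_one_of_commute (hA : IsMulCommutative A) {C D : Subgroup G} (hC : C ∈ unipotentSubgroups A B)
    (hD : D ∈ unipotentSubgroups A B) (hCD : C ≠ D) {c d : G} (hc : c ∈ C) (hd : d ∈ D) (hc1 : c ≠ 1)
    (hcd : c * d = d * c) : d = 1 := by
  obtain ⟨h1, -, h2⟩ := pair_of_mem h hC hD hCD
  -- `c` lies in `C` and in `conjBy C d`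
  have hCc : IsMulCommutative C := by
    obtain ⟨x, -, rfl⟩ := hC
    constructor; constructor
    rintro ⟨_, ⟨a, ha, rfl⟩⟩ ⟨_, ⟨b, hb, rfl⟩⟩
    have := congrArg Subtype.val (hA.is_comm.comm ⟨a, ha⟩ ⟨b, hb⟩)
    apply Subtype.ext
    show (MulAut.conj x) a * (MulAut.conj x) b = (MulAut.conj x) b * (MulAut.conj x) a
    rw [← map_mul, ← map_mul]
    exact congrArg _ this
  by_contra hd1
  have hne : conjBy C d ≠ C := fun h3 => hd1 (eq_one_of_normalizes' h1 hd h3)
  have hCd : conjBy C d ∈ unipotentSubgroups C D := ⟨d, Subgroup.mem_sup_right hd, rfl⟩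
  have hcc : c ∈ conjBy C d := by
    rw [mem_conjBy]
    have : d⁻¹ * c * d = c := by rw [mul_assoc, hcd]; group
    rw [this]; exact hc
  exact hc1 (eq_one_of_fix h1 hCd hne hc (conjBy_self hcc))

theorem inf_eq_bot {C D : Subgroup G} (hC : C ∈ unipotentSubgroups A B)
    (hD : D ∈ unipotentSubgroups A B) (hCD : C ≠ D) : C ⊓ D = ⊥ := by
  obtain ⟨h1, -, h2⟩ := pair_of_mem h hC hD hCD
  rw [eq_bot_iff]
  rintro x ⟨hx, hx'⟩
  rw [Subgroup.mem_bot]
  exact eq_one_of_normalizes h1 hx (conjBy_self hx')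

theorem centralizes_of_fix_all {e : G} (he : ∀ F ∈ unipotentSubgroups A B, conjBy F e = F) :
    ∀ x ∈ A ⊔ B, e * x = x * e := by
  have key : ∀ {A B : Subgroup G}, IsRankOnePair A B → (∀ F ∈ unipotentSubgroups A B, conjBy F e = F) →
      ∀ a ∈ A, e * a = a * e := by
    intro A B h he a ha
    have h1 : e * a * e⁻¹ * a⁻¹ ∈ A := by
      have h2 : e * a * e⁻¹ ∈ conjBy A e := mul_mem_conjBy ha
      rw [he A (left_mem h)] at h2
      exact mul_mem h2 (inv_mem ha)
    have h2 : conjBy B (e * a * e⁻¹ * a⁻¹) = B := by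
      have e1 : e * a * e⁻¹ * a⁻¹ = e * (a * (e⁻¹ * a⁻¹)) := by group
      have h3 : conjBy B a⁻¹ ∈ unipotentSubgroups A B :=
        mem_conjBy_unipotent h (right_mem h) (inv_mem (Subgroup.mem_sup_left ha))
      have h4 : conjBy (conjBy B a⁻¹) e⁻¹ = conjBy B a⁻¹ := conjBy_inv_self (he _ h3)
      rw [e1, ← conjBy_conjBy, ← conjBy_conjBy, ← conjBy_conjBy, h4, conjBy_conjBy B a a⁻¹, mul_inv_cancel,
        conjBy_one, he B (right_mem h)]
    have h3 := eq_one_of_normalizes h h1 h2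
    have h4 := mul_inv_eq_one.mp h3
    exact mul_inv_eq_iff_eq_mul.mp h4
  intro x hx
  have h1 : A ⊔ B ≤ Subgroup.centralizer ({e} : Set G) := by
    apply sup_le
    · intro a ha
      rw [Subgroup.mem_centralizer_singleton_iff]
      exact (key h he a ha).symm
    · intro b hb
      rw [Subgroup.mem_centralizer_singleton_iff]
      exact (key (RankOnePair_symm h) (by rw [unipotent_symm (RankOnePair_symm h)]; exact he) b hb).symm
  exact (Subgroup.mem_centralizer_singleton_iff.mp (h1 hx)).symm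

end Pair

/-! ### Root subgroup sets -/

section Root
variable {S : Set (Subgroup G)} (hS : IsRootSubgroupSet S)
include hS

theorem unipotent_subset {C D : Subgroup G} (hC : C ∈ S) {F : Subgroup G} (hF : F ∈ unipotentSubgroups C D) :
    F ∈ S := by
  obtain ⟨x, -, rfl⟩ := hF
  exact hS.conj_mem C hC x

theorem pair_of_moves {E C D F : Subgroup G} (hE : E ∈ S) (hC : C ∈ S) (h : IsRankOnePair C D)
    (hF : F ∈ unipotentSubgroups C D) {e : G} (he : e ∈ E) (hm : conjBy F e ∈ unipotentSubgroups C D)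
    (hne : conjBy F e ≠ F) : IsRankOnePair E F := by
  rcases hS.pair E hE F (unipotent_subset hS hC hF) with h1 | h1 | h1
  · exfalso
    apply hne
    rw [Subgroup.commutator_eq_bot_iff_le_centralizer] at h1
    ext y
    rw [mem_conjBy]
    have h2 := h1 he
    rw [Subgroup.mem_centralizer_iff] at h2
    constructor
    · intro hy
      have h3 := h2 _ hy
      have h4 : y = e⁻¹ * y * e := by
        have : y * e = e * (e⁻¹ * y * e) := by group
        rw [← h3] at this
        exact mul_right_cancel this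
      rw [h4]; exact hy
    · intro hy
      have h3 := h2 y hy
      have : e⁻¹ * y * e = y := by rw [mul_assoc, h3]; group
      rw [this]; exact hy
  · exact h1
  · exfalso
    obtain ⟨-, hcent, -, -⟩ := h1
    have hFne : F ≠ ⊥ := hS.ne_bot F (unipotent_subset hS hC hF)
    obtain ⟨f, hf⟩ := Subgroup.ne_bot_iff_exists_ne_one.mp hFne
    have hf1 : (f : G) ≠ 1 := fun h' => hf (Subtype.ext h')
    have hw : e * f * e⁻¹ * (f : G)⁻¹ ∈ ⁅E, F⁆ := Subgroup.commutator_mem_commutator he f.2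
    have h2 := hcent _ hw f (Subgroup.mem_sup_right f.2)
    have h3 : (f : G) * (e * f * e⁻¹) = (e * f * e⁻¹) * f := by
      have e1 : e * f * e⁻¹ = (e * f * e⁻¹ * (f : G)⁻¹) * f := by group
      rw [e1, ← mul_assoc, ← h2]
    have h4 := eq_one_of_commute h (hS.commutative C hC) hF hm hne.symm f.2 (mul_mem_conjBy f.2) hf1 h3
    apply hf1
    have : (f : G) = e⁻¹ * (e * f * e⁻¹) * e := by group
    rw [this, h4]; group

theorem mem_of_le {E C D : Subgroup G} (hE : E ∈ S) (hC : C ∈ S) (h : IsRankOnePair C D) (hle : E ≤ C ⊔ D) :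
    E ∈ unipotentSubgroups C D ∨ ∀ e ∈ E, ∀ x ∈ C ⊔ D, e * x = x * e := by
  by_cases h1 : ∀ F ∈ unipotentSubgroups C D, ∀ e ∈ E, conjBy F e = F
  · right
    intro e he
    exact centralizes_of_fix_all h (fun F hF => h1 F hF e he)
  · left
    push Not at h1
    obtain ⟨F, hF, e, he, hne⟩ := h1
    have hm := mem_conjBy_unipotent h hF (hle he)
    have h2 := pair_of_moves hS hE hC h hF he hm hne
    obtain ⟨x, hx, hxE⟩ := exists_conj h2
    have hFle : F ≤ C ⊔ D := by
      obtain ⟨y, hy, rfl⟩ := hF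
      have h3 : conjBy C y ≤ conjBy (C ⊔ D) y := Subgroup.map_mono le_sup_left
      rwa [conjBy_self hy] at h3
    have hx' : x ∈ C ⊔ D := (sup_le hle hFle) hx
    rw [conjBy_inv_eq] at hxE
    rw [hxE]
    exact mem_conjBy_unipotent h hF (inv_mem hx')

/-- an element `e` of a member `E` of `S` acting on `B` as an element of `Ω` forces `E ∈ Ω` -/
theorem mem_of_moves {E C D F : Subgroup G} (hE : E ∈ S) (hC : C ∈ S) (h : IsRankOnePair C D)
    (hF : F ∈ unipotentSubgroups C D) {e : G} (he : e ∈ E) (he1 : e ≠ 1) (hm : conjBy F e ∈ unipotentSubgroups C D)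
    (hne : conjBy F e ≠ F) : E ∈ unipotentSubgroups C D := by
  have h2 := pair_of_moves hS hE hC h hF he hm hne
  obtain ⟨b, hb, -, hab⟩ := h2.cond_left e⁻¹ (inv_mem he) (inv_ne_one.mpr he1)
  rw [inv_inv] at hab
  rw [conjBy_inv_eq, inv_inv] at hab
  rw [hab]
  have hFle : F ≤ C ⊔ D := by
    obtain ⟨y, hy, rfl⟩ := hF
    have h3 : conjBy C y ≤ conjBy (C ⊔ D) y := Subgroup.map_mono le_sup_left
    rwa [conjBy_self hy] at h3
  exact mem_conjBy_unipotent h hm (hFle hb)

end Root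

end CfsgLib.RankOne
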