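import Mathlib

set_option autoImplicit false

namespace CfsgLib.RegUnip

open Module Matrix

theorem finrank_ker_comp_le {F V : Type*} [Field F] [AddCommGroup V] [Module F V] [FiniteDimensional F V]
    (f g : V →ₗ[F] V) : finrank F (LinearMap.ker (g ∘ₗ f)) ≤ finrank F (LinearMap.ker g) + finrank F (LinearMap.ker f) := by
  have h1 := LinearMap.finrank_range_add_finrank_ker (f.domRestrict (LinearMap.ker (g ∘ₗ f)))
  have h2 : finrank F (LinearMap.range (f.domRestrict (LinearMap.ker (g ∘ₗ f)))) ≤ finrank F (LinearMap.ker g) := by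
    apply Submodule.finrank_mono
    rintro _ ⟨⟨x, hx⟩, rfl⟩
    rw [LinearMap.mem_ker] at hx ⊢
    exact hx
  have h3 : finrank F (LinearMap.ker (f.domRestrict (LinearMap.ker (g ∘ₗ f)))) ≤ finrank F (LinearMap.ker f) := by
    let j : LinearMap.ker (f.domRestrict (LinearMap.ker (g ∘ₗ f))) →ₗ[F] LinearMap.ker f :=
      { toFun := fun x => ⟨((x : LinearMap.ker (g ∘ₗ f)) : V), x.2⟩
        map_add' := fun x y => rfl
        map_smul' := fun c x => rfl }
    have hj : Function.Injective j := by
      intro x y hxy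
      have : ((x : LinearMap.ker (g ∘ₗ f)) : V) = ((y : LinearMap.ker (g ∘ₗ f)) : V) := congrArg (fun z : LinearMap.ker f => (z : V)) hxy
      exact Subtype.ext (Subtype.ext this)
    exact LinearMap.finrank_le_finrank_of_injective hj
  omega

theorem finrank_ker_pow_le {F V : Type*} [Field F] [AddCommGroup V] [Module F V] [FiniteDimensional F V]
    (N : V →ₗ[F] V) (hker1 : finrank F (LinearMap.ker N) ≤ 1) (k : ℕ) : finrank F (LinearMap.ker (N ^ k)) ≤ k := by
  induction k with
  | zero => simp [Module.End.one_eq_id]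
  | succ k ih =>
    have := finrank_ker_comp_le N (N ^ k)
    rw [pow_succ]
    have h3 : (N ^ k * N) = (N ^ k) ∘ₗ N := rfl
    rw [h3]
    omega

/-- a nilpotent endomorphism satisfies `f ^ finrank = 0` -/
theorem pow_finrank_eq_zero {F V : Type*} [Field F] [AddCommGroup V] [Module F V] [FiniteDimensional F V]
    {N : V →ₗ[F] V} (h : IsNilpotent N) : N ^ finrank F V = 0 := by
  have h2 := h.charpoly_eq_X_pow_finrank
  have h3 := LinearMap.aeval_self_charpoly N
  rw [h2] at h3
  simpa using h3

/-- invariant subspaces of a nilpotent endomorphism with one-dimensional kernel form a chain. -/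
theorem invariant_eq_ker {F V : Type*} [Field F] [AddCommGroup V] [Module F V] [FiniteDimensional F V]
    (N : V →ₗ[F] V) (hker1 : finrank F (LinearMap.ker N) ≤ 1) (hnil : IsNilpotent N) (W : Submodule F V)
    (hNW : ∀ v ∈ W, N v ∈ W) : W = LinearMap.ker (N ^ finrank F W) := by
  have hnilW : (N.restrict hNW) ^ finrank F W = 0 := by
    apply pow_finrank_eq_zero
    obtain ⟨n, hn⟩ := hnil
    refine ⟨n, ?_⟩
    rw [Module.End.pow_restrict]
    ext v : 1
    apply Subtype.ext
    rw [LinearMap.restrict_apply]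
    simp [hn]
  have hle : W ≤ LinearMap.ker (N ^ finrank F W) := by
    intro v hv
    rw [LinearMap.mem_ker]
    have h1 := LinearMap.congr_fun hnilW ⟨v, hv⟩
    rw [Module.End.pow_restrict] at h1
    exact congrArg Subtype.val h1
  exact Submodule.eq_of_le_of_finrank_le hle (finrank_ker_pow_le N hker1 _)

variable {ι : Type*} [Fintype ι] [DecidableEq ι] {F : Type*} [Field F]

theorem mulVecLin_pow (M : Matrix ι ι F) (k : ℕ) : Matrix.mulVecLin (M ^ k) = (Matrix.mulVecLin M) ^ k := by
  induction k with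
  | zero => ext v; simp
  | succ k ih => rw [pow_succ, Matrix.mulVecLin_mul, ih, pow_succ]; rfl

omit [DecidableEq ι] in
theorem finrank_ker_le_one {M : Matrix ι ι F} (hr : Fintype.card ι - 1 ≤ M.rank) :
    finrank F (LinearMap.ker M.mulVecLin) ≤ 1 := by
  have h1 := LinearMap.finrank_range_add_finrank_ker M.mulVecLin
  have h2 : finrank F (LinearMap.range M.mulVecLin) = M.rank := rfl
  rw [h2, Module.finrank_fintype_fun_eq_card] at h1
  omega

/-- a cyclic vector. -/
theorem exists_cyclic {M : Matrix ι ι F} {k : ℕ} (hk : Fintype.card ι = k + 1) (hr : k ≤ M.rank) :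
    ∃ v : ι → F, (M ^ k).mulVec v ≠ 0 := by
  by_contra hcon
  push Not at hcon
  have h1 : LinearMap.ker ((M.mulVecLin) ^ k) = ⊤ := by
    rw [← mulVecLin_pow, LinearMap.ker_eq_top]
    apply LinearMap.ext
    intro v
    simpa using hcon v
  have h2 := finrank_ker_pow_le M.mulVecLin (finrank_ker_le_one (by omega)) k
  rw [h1, finrank_top, Module.finrank_fintype_fun_eq_card] at h2
  omega

/-- the polynomial `∑ aᵢ Mⁱ` -/
def poly (M : Matrix ι ι F) {k : ℕ} (a : Fin (k + 1) → F) : Matrix ι ι F := ∑ i, a i • M ^ (i : ℕ)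

theorem poly_commute (M : Matrix ι ι F) {k : ℕ} (a : Fin (k + 1) → F) : poly M a * M = M * poly M a := by
  unfold poly
  rw [Finset.sum_mul, Finset.mul_sum]
  apply Finset.sum_congr rfl
  intro i _
  rw [smul_mul_assoc, mul_smul_comm, ← pow_succ, ← pow_succ']

theorem poly_sub (M : Matrix ι ι F) {k : ℕ} (a b : Fin (k + 1) → F) : poly M (a - b) = poly M a - poly M b := by
  unfold poly
  rw [← Finset.sum_sub_distrib]
  apply Finset.sum_congr rfl
  intro i _
  rw [Pi.sub_apply, sub_smul]

theorem poly_mulVec_injective {M : Matrix ι ι F} {k : ℕ} (hnil : M ^ (k + 1) = 0) {v : ι → F}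
    (hv : (M ^ k).mulVec v ≠ 0) (a : Fin (k + 1) → F) (ha : (poly M a).mulVec v = 0) : a = 0 := by
  by_contra hne
  have hex : ∃ j : ℕ, ∃ h : j < k + 1, a ⟨j, h⟩ ≠ 0 := by
    by_contra hcon
    push Not at hcon
    exact hne (funext fun i => hcon i i.2)
  classical
  obtain ⟨hj, haj⟩ := Nat.find_spec hex
  set j := Nat.find hex with hjdef
  have hmin : ∀ i : Fin (k + 1), (i : ℕ) < j → a i = 0 := by
    intro i hi
    have := Nat.find_min hex hi
    push Not at this
    exact this i.2
  have h1 : M ^ (k - j) * poly M a = a ⟨j, hj⟩ • M ^ k := by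
    unfold poly
    rw [Finset.mul_sum, Finset.sum_eq_single ⟨j, hj⟩]
    · rw [mul_smul_comm, ← pow_add]
      congr 2
      simp only
      omega
    · intro i _ hi
      have hij : (i : ℕ) ≠ j := fun h => hi (Fin.ext h)
      rcases lt_or_gt_of_ne hij with hlt | hgt
      · rw [hmin i hlt, zero_smul, mul_zero]
      · rw [mul_smul_comm, ← pow_add]
        have : M ^ (k - j + (i : ℕ)) = 0 := pow_eq_zero_of_le (by omega) hnil
        rw [this, smul_zero]
    · intro h; exact absurd (Finset.mem_univ _) h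
  have h2 : (M ^ (k - j) * poly M a).mulVec v = 0 := by
    rw [← Matrix.mulVec_mulVec, ha, Matrix.mulVec_zero]
  rw [h1, Matrix.smul_mulVec, smul_eq_zero] at h2
  rcases h2 with h2 | h2
  · exact haj h2
  · exact hv h2

theorem exists_poly_mulVec {M : Matrix ι ι F} {k : ℕ} (hk : Fintype.card ι = k + 1) (hnil : M ^ (k + 1) = 0) {v : ι → F}
    (hv : (M ^ k).mulVec v ≠ 0) (w : ι → F) : ∃ a : Fin (k + 1) → F, (poly M a).mulVec v = w := by
  let Φ : (Fin (k + 1) → F) →ₗ[F] (ι → F) :=
    { toFun := fun a => (poly M a).mulVec v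
      map_add' := fun a b => by
        have : poly M (a + b) = poly M a + poly M b := by
          unfold poly
          rw [← Finset.sum_add_distrib]
          apply Finset.sum_congr rfl
          intro i _
          rw [Pi.add_apply, add_smul]
        rw [this, Matrix.add_mulVec]
      map_smul' := fun c a => by
        have : poly M (c • a) = c • poly M a := by
          unfold poly
          rw [Finset.smul_sum]
          apply Finset.sum_congr rfl
          intro i _
          rw [Pi.smul_apply, smul_smul, smul_eq_mul]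
        rw [this, Matrix.smul_mulVec]; rfl }
  have hinj : Function.Injective Φ := by
    rw [injective_iff_map_eq_zero]
    intro a ha
    exact poly_mulVec_injective hnil hv a ha
  have hsurj : Function.Surjective Φ := by
    rw [← LinearMap.injective_iff_surjective_of_finrank_eq_finrank]
    · exact hinj
    · simp [hk]
  exact hsurj w

/-- a matrix commuting with a regular nilpotent matrix is a polynomial in it. -/
theorem exists_poly {M : Matrix ι ι F} {k : ℕ} (hk : Fintype.card ι = k + 1) (hnil : M ^ (k + 1) = 0)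
    (hr : k ≤ M.rank) (g : Matrix ι ι F) (hg : g * M = M * g) : ∃! a : Fin (k + 1) → F, poly M a = g := by
  obtain ⟨v, hv⟩ := exists_cyclic hk hr
  obtain ⟨a, ha⟩ := exists_poly_mulVec hk hnil hv (g.mulVec v)
  have hcomm : ∀ b : Fin (k + 1) → F, (g - poly M a) * poly M b = poly M b * (g - poly M a) := by
    intro b
    have h1 : Commute (g - poly M a) M := by
      show (g - poly M a) * M = M * (g - poly M a)
      rw [sub_mul, mul_sub, hg, poly_commute]
    have h2 : Commute (g - poly M a) (poly M b) := by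
      unfold poly
      apply Commute.sum_right
      intro i _
      exact (h1.pow_right _).smul_right _
    exact h2
  refine ⟨a, ?_, ?_⟩
  · show poly M a = g
    symm
    rw [← sub_eq_zero]
    apply Matrix.ext_of_mulVec_single
    intro i
    obtain ⟨b, hb⟩ := exists_poly_mulVec hk hnil hv (Pi.single i 1)
    rw [← hb, Matrix.mulVec_mulVec, hcomm, ← Matrix.mulVec_mulVec, Matrix.sub_mulVec, ha, sub_self, Matrix.mulVec_zero,
      Matrix.zero_mulVec]
  · intro b hb
    have : poly M (b - a) = g - poly M a := by rw [poly_sub, hb]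
    have h3 : (poly M (b - a)).mulVec v = 0 := by
      rw [this, Matrix.sub_mulVec, ha, sub_self]
    exact sub_eq_zero.mp (poly_mulVec_injective hnil hv _ h3)

theorem isUnit_poly_iff {M : Matrix ι ι F} {k : ℕ} [Nonempty ι] (hnil : M ^ (k + 1) = 0) (a : Fin (k + 1) → F) :
    IsUnit (poly M a) ↔ a 0 ≠ 0 := by
  have hsplit : poly M a = a 0 • 1 + M * ∑ i : Fin k, a i.succ • M ^ (i : ℕ) := by
    unfold poly
    rw [Fin.sum_univ_succ, Finset.mul_sum]
    simp only [Fin.val_zero, pow_zero, Fin.val_succ, pow_succ', mul_smul_comm]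
  have hcomm : Commute M (∑ i : Fin k, a i.succ • M ^ (i : ℕ)) := by
    apply Commute.sum_right
    intro i _
    exact ((Commute.refl M).pow_right _).smul_right _
  have hnil' : IsNilpotent (M * ∑ i : Fin k, a i.succ • M ^ (i : ℕ)) := hcomm.isNilpotent_mul_right ⟨k + 1, hnil⟩
  constructor
  · intro h h0
    rw [hsplit, h0, zero_smul, zero_add] at h
    exact (hnil'.not_isUnit) h
  · intro h
    rw [hsplit]
    have h1 : IsUnit (a 0 • (1 : Matrix ι ι F)) := by
      rw [Matrix.isUnit_iff_isUnit_det, Matrix.det_smul, Matrix.det_one, mul_one]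
      exact (isUnit_iff_ne_zero.2 h).pow _
    refine hnil'.isUnit_add_left_of_commute h1 ?_
    show _ * (a 0 • (1 : Matrix ι ι F)) = (a 0 • (1 : Matrix ι ι F)) * _
    simp

theorem det_poly {M : Matrix ι ι F} {k : ℕ} (hnil : M ^ (k + 1) = 0) (a : Fin (k + 1) → F) :
    (poly M a).det = a 0 ^ Fintype.card ι := by
  have hsplit : poly M a = a 0 • 1 + M * ∑ i : Fin k, a i.succ • M ^ (i : ℕ) := by
    unfold poly
    rw [Fin.sum_univ_succ, Finset.mul_sum]
    simp only [Fin.val_zero, pow_zero, Fin.val_succ, pow_succ', mul_smul_comm]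
  have hcomm : Commute M (∑ i : Fin k, a i.succ • M ^ (i : ℕ)) := by
    apply Commute.sum_right
    intro i _
    exact ((Commute.refl M).pow_right _).smul_right _
  have hnil' : IsNilpotent (M * ∑ i : Fin k, a i.succ • M ^ (i : ℕ)) := hcomm.isNilpotent_mul_right ⟨k + 1, hnil⟩
  have h1 := Matrix.isNilpotent_charpoly_sub_pow_of_isNilpotent hnil'.neg
  have h2 := sub_eq_zero.mp (isNilpotent_iff_eq_zero.mp h1)
  have h3 := congrArg (Polynomial.eval (a 0)) h2
  rw [Matrix.eval_charpoly] at h3
  rw [hsplit]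
  simp only [Polynomial.eval_pow, Polynomial.eval_X] at h3
  rw [← h3, sub_neg_eq_add]
  congr 2
  ext i j
  simp [Matrix.one_apply, Matrix.diagonal_apply]

theorem exists_basis {M : Matrix ι ι F} {k : ℕ} (hk : Fintype.card ι = k + 1) (hnil : M ^ (k + 1) = 0)
    (hr : k ≤ M.rank) : ∃ (v : ι → F) (b : Basis (Fin (k + 1)) F (ι → F)), ∀ i, b i = (M ^ (i : ℕ)).mulVec v := by
  obtain ⟨v, hv⟩ := exists_cyclic hk hr
  have hli : LinearIndependent F (fun i : Fin (k + 1) => (M ^ (i : ℕ)).mulVec v) := by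
    rw [Fintype.linearIndependent_iff]
    intro a ha i
    have h1 : (poly M a).mulVec v = 0 := by
      rw [← ha]
      unfold poly
      rw [Matrix.sum_mulVec]
      apply Finset.sum_congr rfl
      intro j _
      rw [Matrix.smul_mulVec]
    rw [poly_mulVec_injective hnil hv a h1]
    rfl
  have hcard : Fintype.card (Fin (k + 1)) = finrank F (ι → F) := by simp [hk]
  exact ⟨v, basisOfLinearIndependentOfCardEqFinrank hli hcard, fun i => by simp⟩

/-- regular nilpotent matrices are conjugate -/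
theorem exists_conj {M M' : Matrix ι ι F} {k : ℕ} (hk : Fintype.card ι = k + 1) (hnil : M ^ (k + 1) = 0)
    (hr : k ≤ M.rank) (hnil' : M' ^ (k + 1) = 0) (hr' : k ≤ M'.rank) :
    ∃ P : (Matrix ι ι F)ˣ, (P : Matrix ι ι F) * M = M' * P := by
  obtain ⟨v, b, hb⟩ := exists_basis hk hnil hr
  obtain ⟨v', b', hb'⟩ := exists_basis hk hnil' hr'
  let e := b.equiv b' (Equiv.refl _)
  have hcomm : (e : (ι → F) →ₗ[F] (ι → F)) ∘ₗ M.mulVecLin = M'.mulVecLin ∘ₗ (e : (ι → F) →ₗ[F] (ι → F)) := by
    apply b.ext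
    intro i
    simp only [LinearMap.comp_apply, LinearEquiv.coe_coe, Matrix.mulVecLin_apply]
    have h1 : e (b i) = b' i := by simp [e]
    rw [h1, hb, hb', Matrix.mulVec_mulVec, Matrix.mulVec_mulVec, ← pow_succ', ← pow_succ']
    by_cases hi : (i : ℕ) + 1 < k + 1
    · have e1 := hb ⟨(i : ℕ) + 1, hi⟩
      have e2 := hb' ⟨(i : ℕ) + 1, hi⟩
      simp only at e1 e2
      rw [← e1, ← e2]
      simp [e]
    · have : (i : ℕ) + 1 = k + 1 := by omega
      rw [this, hnil, hnil', Matrix.zero_mulVec, Matrix.zero_mulVec, map_zero]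
  let P : Matrix ι ι F := LinearMap.toMatrix' (e : (ι → F) →ₗ[F] (ι → F))
  let Q : Matrix ι ι F := LinearMap.toMatrix' (e.symm : (ι → F) →ₗ[F] (ι → F))
  have hPQ : P * Q = 1 := by
    rw [← LinearMap.toMatrix'_comp]; simp
  have hQP : Q * P = 1 := by
    rw [← LinearMap.toMatrix'_comp]; simp
  refine ⟨⟨P, Q, hPQ, hQP⟩, ?_⟩
  show P * M = M' * P
  have h1 : LinearMap.toMatrix' M.mulVecLin = M := LinearMap.toMatrix'_toLin' _
  have h2 : LinearMap.toMatrix' M'.mulVecLin = M' := LinearMap.toMatrix'_toLin' _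
  conv_lhs => rw [← h1]
  conv_rhs => rw [← h2]
  rw [← LinearMap.toMatrix'_comp, ← LinearMap.toMatrix'_comp, hcomm]

/-- the centralizer of a regular unipotent element. -/
noncomputable def centralizerEquiv {u : (Matrix ι ι F)ˣ} {k : ℕ} (hk : Fintype.card ι = k + 1)
    (hnil : ((u : Matrix ι ι F) - 1) ^ (k + 1) = 0) (hr : k ≤ ((u : Matrix ι ι F) - 1).rank) :
    {a : Fin (k + 1) → F // a 0 ≠ 0} ≃ Subgroup.centralizer ({u} : Set (Matrix ι ι F)ˣ) := by
  have hne : Nonempty ι := Fintype.card_pos_iff.1 (by omega)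
  refine Equiv.ofBijective (fun a => ⟨((isUnit_poly_iff hnil a.1).2 a.2).unit, ?_⟩) ⟨?_, ?_⟩
  · rw [Subgroup.mem_centralizer_singleton_iff]
    apply Units.ext
    have := poly_commute ((u : Matrix ι ι F) - 1) a.1
    rw [mul_sub, sub_mul, mul_one, one_mul, sub_left_inj] at this
    exact this
  · rintro ⟨a, ha⟩ ⟨b, hb⟩ hab
    have h1 : poly ((u : Matrix ι ι F) - 1) a = poly ((u : Matrix ι ι F) - 1) b :=
      congrArg (fun g : Subgroup.centralizer ({u} : Set (Matrix ι ι F)ˣ) => ((g : (Matrix ι ι F)ˣ) : Matrix ι ι F)) hab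
    obtain ⟨c, _, hc⟩ := exists_poly hk hnil hr _ (poly_commute ((u : Matrix ι ι F) - 1) a)
    apply Subtype.ext
    exact (hc a rfl).trans (hc b h1.symm).symm
  · rintro ⟨g, hg⟩
    rw [Subgroup.mem_centralizer_singleton_iff] at hg
    have h1 : (g : Matrix ι ι F) * ((u : Matrix ι ι F) - 1) = ((u : Matrix ι ι F) - 1) * g := by
      rw [mul_sub, sub_mul, mul_one, one_mul, ← Units.val_mul, hg, Units.val_mul]
    obtain ⟨a, ha, _⟩ := exists_poly hk hnil hr _ h1
    have ha0 : a 0 ≠ 0 := by
      rw [← isUnit_poly_iff hnil, ha]; exact g.isUnit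
    refine ⟨⟨a, ha0⟩, ?_⟩
    apply Subtype.ext
    apply Units.ext
    exact ha

end CfsgLib.RegUnip
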