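import Mathlib
import Cfsg.Prelude.Def_Characters
import Cfsg.Agent.Lib.CharBasic
import Cfsg.Agent.Lib.CharBasic2
import Cfsg.Agent.Lib.CharInd
import Cfsg.Agent.Lib.CharClifford
import Cfsg.Agent.Lib.CliffordCorr
import Cfsg.Agent.Lib.Gallagher2
import Cfsg.Agent.Lib.BrauerInd5
import Cfsg.Agent.Lib.ChiefRes

/-!
# Relative monomiality
-/

set_option autoImplicit false
set_option linter.style.haveILetI false
set_option linter.unusedSectionVars false

open scoped ComplexConjugate

namespace CfsgLib.RelMono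

open Cfsg CfsgLib.CharBasic CfsgLib.CharInd CfsgLib.CharClifford CfsgLib.CliffordCorr CfsgLib.Gallagher2 CfsgLib.ChiefRes

universe u v

/-- induction from the whole group -/
theorem ind_top {G : Type u} [Group G] [Fintype G] {χ : G → ℂ} (h : IsClassFunction G χ) :
    indFun (⊤ : Subgroup G) (fun x : (⊤ : Subgroup G) => χ x) = χ := by
  funext g
  rw [indFun_apply]
  have h2 : ∀ x ∈ (Finset.univ : Finset G), extendByZero (⊤ : Subgroup G) (fun x : (⊤ : Subgroup G) => χ x) (x⁻¹ * g * x) = χ g := by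
    intro x _
    rw [ext_of_mem (Subgroup.mem_top _)]
    have := h g x⁻¹
    rw [inv_inv] at this
    exact this
  rw [Finset.sum_congr rfl h2, Finset.sum_const, Finset.card_univ, Subgroup.card_top, ← Nat.card_eq_fintype_card, nsmul_eq_mul, ← mul_assoc, inv_mul_cancel₀ card_ne_zero, one_mul]

theorem irr_top {G : Type u} [Group G] {χ : G → ℂ} (h : IsIrrCharacter G χ) : IsIrrCharacter (⊤ : Subgroup G) (fun x : (⊤ : Subgroup G) => χ x) :=
  IsIrrCharacter.comp_equiv h Subgroup.topEquiv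

/-- every chief factor above `N`, of subgroups containing `N`, has nonsquare order -/
def NonSq {G : Type u} [Group G] (N : Subgroup G) : Prop :=
  ∀ (H K L : Subgroup G), N ≤ L → L < K → K ≤ H → (∀ h ∈ H, ∀ k ∈ K, h * k * h⁻¹ ∈ K) → (∀ h ∈ H, ∀ l ∈ L, h * l * h⁻¹ ∈ L) →
    (∀ M : Subgroup G, L ≤ M → M ≤ K → (∀ h ∈ H, ∀ m ∈ M, h * m * h⁻¹ ∈ M) → M = L ∨ M = K) → ¬ IsSquare (L.relIndex K)

theorem NonSq.sub {G : Type u} [Group G] {N : Subgroup G} (h : NonSq N) {T : Subgroup G} (hNT : N ≤ T) : NonSq (N.subgroupOf T) := by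
  intro H K L hNL hLK hKH hK hL hchief
  have hinj := T.subtype_injective
  have key := h (H.map T.subtype) (K.map T.subtype) (L.map T.subtype) ?_ ?_ (Subgroup.map_mono hKH) ?_ ?_ ?_
  · rwa [Subgroup.relIndex_map_map_of_injective _ _ hinj] at key
  · intro x hx
    exact ⟨⟨x, hNT hx⟩, hNL (Subgroup.mem_subgroupOf.mpr hx), rfl⟩
  · exact (Subgroup.map_lt_map_iff_of_injective hinj).mpr hLK
  · rintro _ ⟨a, ha, rfl⟩ _ ⟨b, hb, rfl⟩
    exact ⟨a * b * a⁻¹, hK a ha b hb, rfl⟩
  · rintro _ ⟨a, ha, rfl⟩ _ ⟨b, hb, rfl⟩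
    exact ⟨a * b * a⁻¹, hL a ha b hb, rfl⟩
  · intro M hLM hMK hM
    have hMT : M ≤ T := hMK.trans (Subgroup.map_subtype_le K)
    have e : (M.subgroupOf T).map T.subtype = M := Subgroup.map_subgroupOf_eq_of_le hMT
    have e1 : L ≤ M.subgroupOf T := by
      intro x hx
      exact Subgroup.mem_subgroupOf.mpr (hLM ⟨x, hx, rfl⟩)
    have e2 : M.subgroupOf T ≤ K := by
      intro x hx
      obtain ⟨y, hy, hyx⟩ := hMK (Subgroup.mem_subgroupOf.mp hx)
      have : y = x := Subtype.ext hyx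
      rw [← this]; exact hy
    have e3 : ∀ h ∈ H, ∀ m ∈ M.subgroupOf T, h * m * h⁻¹ ∈ M.subgroupOf T := by
      intro a ha m hm
      rw [Subgroup.mem_subgroupOf] at hm ⊢
      exact hM a ⟨a, ha, rfl⟩ m hm
    rcases hchief (M.subgroupOf T) e1 e2 e3 with h1 | h1
    · left; rw [← h1, e]
    · right; rw [← h1, e]

theorem solv_sub {G : Type u} [Group G] {N : Subgroup G} [N.Normal] (h : Group.IsSolvable (G ⧸ N)) (T : Subgroup G) :
    Group.IsSolvable (T ⧸ N.subgroupOf T) := by
  haveI := h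
  let f : T ⧸ N.subgroupOf T →* G ⧸ N := QuotientGroup.map (N.subgroupOf T) N T.subtype (fun x hx => hx)
  have hf : Function.Injective f := by
    rw [injective_iff_map_eq_one]
    intro x hx
    obtain ⟨y, rfl⟩ := QuotientGroup.mk_surjective x
    have h1 : ((y : G) : G ⧸ N) = 1 := hx
    rw [QuotientGroup.eq_one_iff] at h1
    exact (QuotientGroup.eq_one_iff y).mpr (Subgroup.mem_subgroupOf.mpr h1)
  exact Group.isSolvable_of_isSolvable_injective hf

/-- chief factors of solvable quotients are abelian -/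
theorem chief_abelian {G : Type u} [Group G] {N K L : Subgroup G} [N.Normal] [K.Normal] [L.Normal] (h : Group.IsSolvable (G ⧸ N)) (hNL : N ≤ L) (hLK : L < K)
    (hchief : ∀ M : Subgroup G, M.Normal → L ≤ M → M ≤ K → M = L ∨ M = K) : ⁅K, K⁆ ≤ L := by
  haveI := h
  haveI : Group.IsSolvable (G ⧸ L) := by
    let f : G ⧸ N →* G ⧸ L := QuotientGroup.map N L (MonoidHom.id G) (fun x hx => hNL hx)
    have hf : Function.Surjective f := by
      intro x
      obtain ⟨y, rfl⟩ := QuotientGroup.mk_surjective x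
      exact ⟨(y : G ⧸ N), rfl⟩
    exact Group.isSolvable_of_surjective hf
  rcases hchief (⁅K, K⁆ ⊔ L) inferInstance le_sup_right (sup_le (Subgroup.commutator_le_left K K) hLK.le) with h1 | h1
  · rw [← h1]; exact le_sup_left
  · exfalso
    have h2 : K.map (QuotientGroup.mk' L) ≠ ⊥ := by
      intro hb
      apply hLK.not_ge
      intro x hx
      have : QuotientGroup.mk' L x ∈ K.map (QuotientGroup.mk' L) := ⟨x, hx, rfl⟩
      rw [hb, Subgroup.mem_bot] at this
      exact (QuotientGroup.eq_one_iff x).mp this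
    have h3 := Group.IsSolvable.commutator_lt_of_ne_bot h2
    have h4 : (⁅K, K⁆ ⊔ L).map (QuotientGroup.mk' L) = ⁅K.map (QuotientGroup.mk' L), K.map (QuotientGroup.mk' L)⁆ := by
      rw [Subgroup.map_sup, Subgroup.map_commutator]
      have : L.map (QuotientGroup.mk' L) = ⊥ := by
        rw [eq_bot_iff]
        rintro _ ⟨x, hx, rfl⟩
        exact (QuotientGroup.eq_one_iff x).mpr hx
      rw [this, sup_bot_eq]
    rw [← h4, h1] at h3
    exact lt_irrefl _ h3

theorem rel_mono : ∀ (n : ℕ) (G : Type u) [Group G] [Fintype G], Nat.card G = n → ∀ (N : Subgroup G) [N.Normal], Group.IsSolvable (G ⧸ N) →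
    NonSq N → ∀ χ : G → ℂ, IsIrrCharacter G χ →
    ∃ (H : Subgroup G) (hNH : N ≤ H) (ψ : H → ℂ), IsIrrCharacter H ψ ∧ indFun H ψ = χ ∧ IsIrrCharacter N (fun n : N => ψ ⟨(n : G), hNH n.2⟩) := by
  intro n
  induction n using Nat.strong_induction_on with
  | _ n ih =>
  intro G _ _ hn N _ hs hsq χ hχ
  classical
  have hcl := IsCharacter.isClassFunction (IsIrrCharacter.isCharacter hχ)
  by_cases h1 : IsIrrCharacter N (fun n : N => χ n)
  · exact ⟨⊤, le_top, fun x => χ x, irr_top hχ, ind_top hcl, h1⟩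
  by_cases h2 : ∃ (M : Subgroup G) (_ : M.Normal) (_ : N ≤ M) (_ : Fintype M) (φ : M → ℂ), IsIrrCharacter M φ ∧ classInner (fun m : M => χ m) φ ≠ 0 ∧ inertia (G := G) φ ≠ ⊤
  · obtain ⟨M, hM, hNM, _, φ, hφ, hne, hin⟩ := h2
    obtain ⟨T, hT⟩ : ∃ T, T = inertia (G := G) φ := ⟨_, rfl⟩
    haveI : Fintype T := Fintype.ofFinite T
    have hMT : M ≤ T := by rw [hT]; exact le_inertia (IsCharacter.isClassFunction (IsIrrCharacter.isCharacter hφ))
    obtain ⟨ψ, hψ, -, hψχ, -⟩ := corr_surj hMT hφ (fun g => by rw [hT, mem_inertia]) hχ hne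
    have hNT : N ≤ T := hNM.trans hMT
    have hlt : Nat.card T < n := by
      rw [← hn]
      exact lt_of_le_of_ne (Subgroup.card_le_card_group T) (fun h => hin (hT ▸ (Subgroup.card_eq_iff_eq_top T).mp h))
    obtain ⟨H', hNH', ψ', hψ', hind', hres'⟩ := ih _ hlt T rfl (N.subgroupOf T) (solv_sub hs T) (hsq.sub hNT) ψ hψ
    have hNH : N ≤ H'.map T.subtype := fun x hx => ⟨⟨x, hNT hx⟩, hNH' (Subgroup.mem_subgroupOf.mpr hx), rfl⟩
    refine ⟨H'.map T.subtype, hNH, ψ' ∘ (H'.equivMapOfInjective T.subtype T.subtype_injective).symm, IsIrrCharacter.comp_equiv hψ' _, ?_, ?_⟩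
    · rw [← CfsgLib.BrauerInd5.ind_trans, hind', hψχ]
    · have h3 := IsIrrCharacter.comp_equiv hres' (Subgroup.subgroupOfEquivOfLe hNT).symm
      have h4 : (fun n : N => (ψ' ∘ (H'.equivMapOfInjective T.subtype T.subtype_injective).symm) ⟨(n : G), hNH n.2⟩) = (fun n : N.subgroupOf T => ψ' ⟨(n : T), hNH' n.2⟩) ∘ (Subgroup.subgroupOfEquivOfLe hNT).symm := by
        funext x
        simp only [Function.comp_apply]
        congr 1
        rw [MulEquiv.symm_apply_eq]
        rfl
      rw [h4]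
      exact h3
  · exfalso
    push Not at h2
    -- minimal normal subgroup with irreducible restriction
    let S : Set (Subgroup G) := {M | M.Normal ∧ N ≤ M ∧ IsIrrCharacter M (fun m : M => χ m)}
    have hSne : S.Nonempty := ⟨⊤, inferInstance, le_top, irr_top hχ⟩
    obtain ⟨K, ⟨hKn, hNK, hKirr⟩, hKmin⟩ := S.toFinite.exists_minimal hSne
    have hNK' : N < K := lt_of_le_of_ne hNK (by rintro rfl; exact h1 hKirr)
    let S' : Set (Subgroup G) := {M | M.Normal ∧ N ≤ M ∧ M < K}
    have hS'ne : S'.Nonempty := ⟨N, inferInstance, le_rfl, hNK'⟩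
    obtain ⟨L, ⟨hLn, hNL, hLK⟩, hLmax⟩ := S'.toFinite.exists_maximal hS'ne
    haveI := hKn
    haveI := hLn
    haveI : Fintype K := Fintype.ofFinite K
    haveI : Fintype L := Fintype.ofFinite L
    have hchief : ∀ M : Subgroup G, M.Normal → L ≤ M → M ≤ K → M = L ∨ M = K := by
      intro M hM hLM hMK
      rcases eq_or_lt_of_le hMK with h | h
      · exact Or.inr h
      · exact Or.inl (le_antisymm (hLmax ⟨hM, hNL.trans hLM, h⟩ hLM) hLM)
    have hab := chief_abelian hs hNL hLK hchief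
    have hinv : ∀ g : G, conjFn g (fun m : K => χ m) = fun m : K => χ m := conjFn_res hcl
    have hnsq : ¬ IsSquare (L.relIndex K) := by
      refine hsq ⊤ K L hNL hLK le_top (fun h _ k hk => hKn.conj_mem k hk h) (fun h _ l hl => hLn.conj_mem l hl h) ?_
      intro M hLM hMK hM
      exact hchief M ⟨fun m hm g => hM g (Subgroup.mem_top g) m hm⟩ hLM hMK
    have hres : resTo hLK.le (fun m : K => χ m) = fun l : L => χ l := rfl
    rcases chief_res hLK hchief hab hKirr hinv with h3 | ⟨φ, e, hφ, h3, h4⟩ | ⟨F, hF, hcard, h3⟩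
    · exact hLK.not_ge (hKmin ⟨hLn, hNL, h3⟩ hLK.le)
    · exact hnsq ⟨e, by rw [← h4, sq]⟩
    · rw [hres] at h3
      have hone : ∀ φ ∈ F, classInner (fun l : L => χ l) φ ≠ 0 := by
        intro φ hφ
        rw [h3, classInner_sum_left, Finset.sum_eq_single φ]
        · rw [IsIrrCharacter.inner_self (hF φ hφ)]; exact one_ne_zero
        · intro ψ hψ hne
          exact IsIrrCharacter.inner_eq_zero (hF ψ hψ) (hF φ hφ) hne
        · intro h; exact absurd hφ h
      have hle : F.card ≤ 1 := by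
        rw [Finset.card_le_one]
        intro a ha b hb
        obtain ⟨g, hg⟩ := conj_of_constituents hχ (hF a ha) (hF b hb) (hone a ha) (hone b hb)
        have h5 := h2 L hLn hNL inferInstance a (hF a ha) (hone a ha)
        have h6 : g ∈ inertia (G := G) a := by rw [h5]; exact Subgroup.mem_top g
        rw [mem_inertia] at h6
        rw [← hg, h6]
      rw [hcard] at hle
      have h7 : L.relIndex K ≠ 0 := Subgroup.index_ne_zero_of_finite
      have h8 : L.relIndex K = 1 := by omega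
      exact hnsq (h8 ▸ ⟨1, by norm_num⟩)

end CfsgLib.RelMono
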