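import Mathlib
import Cfsg.Prelude.Def_Characters
import Cfsg.Agent.Lib.CharBasic
import Cfsg.Agent.Lib.CharBasic2
import Cfsg.Agent.Lib.CharInd
import Cfsg.Agent.Lib.CharClifford
import Cfsg.Agent.Lib.CliffordCorr
import Cfsg.Agent.Lib.Gallagher2
import Cfsg.Agent.Lib.BrauerInd5
import Cfsg.Agent.Lib.ChiefRes
import Cfsg.Agent.Lib.RelMono
import Cfsg.Agent.Lib.MonoChar

/-!
# Relative M-groups over a normal subgroup with abelian Sylow subgroups
-/

set_option autoImplicit false
set_option linter.style.haveILetI false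
set_option linter.unusedSectionVars false

open scoped ComplexConjugate

namespace CfsgLib.RelMono2

open Cfsg CfsgLib.CharBasic CfsgLib.CharInd CfsgLib.CharClifford CfsgLib.CliffordCorr CfsgLib.Gallagher2 CfsgLib.ChiefRes CfsgLib.RelMono CfsgLib.MonoChar

universe u v

/-- every subgroup of prime power order in `N` is abelian -/
def AS {H : Type u} [Group H] (N : Subgroup H) : Prop :=
  ∀ (p : ℕ), p.Prime → ∀ P : Subgroup H, P ≤ N → IsPGroup p P → ∀ a ∈ P, ∀ b ∈ P, a * b = b * a

theorem AS.mono {H : Type u} [Group H] {N M : Subgroup H} (h : AS N) (hM : M ≤ N) : AS M :=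
  fun p hp P hP hPp => h p hp P (hP.trans hM) hPp

theorem AS.sub {H : Type u} [Group H] {N : Subgroup H} (h : AS N) (T : Subgroup H) : AS (N.subgroupOf T) := by
  intro p hp P hP hPp a ha b hb
  apply Subtype.ext
  refine h p hp (P.map T.subtype) ?_ (hPp.map T.subtype) a ⟨a, ha, rfl⟩ b ⟨b, hb, rfl⟩
  rintro _ ⟨x, hx, rfl⟩
  exact hP hx

/-- restriction of an inducing character -/
theorem res_inducing {H : Type u} [Group H] [Fintype H] {N : Subgroup H} [N.Normal] [Fintype N] {ψ : H → ℂ} (hψ : IsIrrCharacter H ψ)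
    (hψN : IsIrrCharacter N (fun n : N => ψ n)) {T : Subgroup H} [Fintype T] {η : T → ℂ} (hη : IsIrrCharacter T η) (hind : indFun T η = ψ) :
    IsIrrCharacter (N.subgroupOf T) (fun x : N.subgroupOf T => η x) := by
  classical
  haveI : Fintype (N.subgroupOf T) := Fintype.ofFinite _
  haveI : Fintype (T.subgroupOf N) := Fintype.ofFinite _
  have hψc := IsIrrCharacter.isCharacter hψ
  have hcl := IsCharacter.isClassFunction hψc
  have hηres : IsCharacter (N.subgroupOf T) (fun x : N.subgroupOf T => η x) := IsCharacter.restrict (IsIrrCharacter.isCharacter hη) _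
  obtain ⟨ξ, hξ⟩ := exists_constituent hηres (by
    intro h0
    exact IsIrrCharacter.one_ne_zero hη (congrFun h0 1))
  -- η is a constituent of the restriction of ψ to T
  have h1 : classInner (fun t : T => ψ t) η ≠ 0 := by
    have h2 := CfsgLib.CharInd.frobenius T η hcl
    rw [hind, IsIrrCharacter.inner_self hψ] at h2
    rw [← classInner_conj_symm, ← h2, map_one]
    exact one_ne_zero
  -- hence ξ is a constituent of ψ restricted to N.subgroupOf T
  have h2 : classInner (fun x : N.subgroupOf T => ψ (x : T)) (ξ : N.subgroupOf T → ℂ) ≠ 0 := by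
    intro h0
    have hψT : IsCharacter T (fun t : T => ψ t) := IsCharacter.restrict hψc T
    -- ψ_T = η + rest
    have h3 := inner_eq_sum (G := T) (α := indFun (N.subgroupOf T) (ξ : N.subgroupOf T → ℂ)) (β := fun t : T => ψ t) (isClassFunction_indFun _ _)
    have h4 : classInner (indFun (N.subgroupOf T) (ξ : N.subgroupOf T → ℂ)) (fun t : T => ψ t) = 0 := by
      rw [CfsgLib.CharInd.frobenius _ _ (IsCharacter.isClassFunction hψT), ← classInner_conj_symm, h0, map_zero]
    have hindc := CfsgLib.CharInd.isCharacter_indFun (N.subgroupOf T) (irr_isCharacter ξ)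
    have h5 := (inner_eq_zero_iff hindc hψT).mp h4 ⟨η, hη⟩
    rcases h5 with h5 | h5
    · apply hξ
      rw [CfsgLib.CharInd.frobenius _ _ (IsCharacter.isClassFunction (IsIrrCharacter.isCharacter hη)), ← classInner_conj_symm] at h5
      have := (map_eq_zero (starRingEnd ℂ)).mp h5
      exact this
    · exact h1 h5
  -- transport to N
  let e : T.subgroupOf N ≃* N.subgroupOf T :=
    { toFun := fun x => ⟨⟨(x : N), Subgroup.mem_subgroupOf.mp x.2⟩, Subgroup.mem_subgroupOf.mpr (x : N).2⟩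
      invFun := fun x => ⟨⟨(x : T), Subgroup.mem_subgroupOf.mp x.2⟩, Subgroup.mem_subgroupOf.mpr (x : T).2⟩
      left_inv := fun x => rfl
      right_inv := fun x => rfl
      map_mul' := fun x y => rfl }
  have h6 : classInner (fun x : T.subgroupOf N => ψ (x : N)) ((ξ : N.subgroupOf T → ℂ) ∘ e) ≠ 0 := by
    intro h0
    apply h2
    rw [← inner_equiv e]
    exact h0
  have hξ' : IsIrrCharacter (T.subgroupOf N) ((ξ : N.subgroupOf T → ℂ) ∘ e) := IsIrrCharacter.comp_equiv ξ.2 e
  have h7 : classInner (indFun (T.subgroupOf N) ((ξ : N.subgroupOf T → ℂ) ∘ e)) (fun n : N => ψ n) ≠ 0 := by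
    rw [CfsgLib.CharInd.frobenius _ _ (IsCharacter.isClassFunction (IsIrrCharacter.isCharacter hψN)), ← classInner_conj_symm]
    intro h0
    exact h6 ((map_eq_zero (starRingEnd ℂ)).mp h0)
  have h8 := (constituent_degree_le (CfsgLib.CharInd.isCharacter_indFun _ (IsIrrCharacter.isCharacter hξ')) hψN h7).1
  rw [CfsgLib.CharInd.indFun_one] at h8
  have h9 := (constituent_degree_le hηres ξ.2 hξ)
  obtain ⟨a, ha0, ha⟩ := IsIrrCharacter.exists_pos ξ.2
  obtain ⟨b, hb0, hb⟩ := IsIrrCharacter.exists_pos hη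
  have hψ1 : ψ 1 = (T.index : ℂ) * b := by rw [← hind, CfsgLib.CharInd.indFun_one, hb]
  have h10 : (T.subgroupOf N).index ≤ T.index := by
    have : (T.subgroupOf N).index = T.relIndex N := rfl
    rw [this]
    have h := Subgroup.relIndex_le_of_le_right (H := T) (le_top : N ≤ ⊤) (by rw [Subgroup.relIndex_top_right]; exact Subgroup.index_ne_zero_of_finite)
    rwa [Subgroup.relIndex_top_right] at h
  have h11 : b ≤ a := by
    have e1 : (ψ ((1 : N) : H)).re = ((T.index * b : ℕ) : ℝ) := by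
      rw [Subgroup.coe_one, hψ1, ← Complex.natCast_re]; push_cast; rfl
    have e2 : ((((T.subgroupOf N).index : ℂ)) * ((ξ : N.subgroupOf T → ℂ) ∘ e) 1).re = (((T.subgroupOf N).index * a : ℕ) : ℝ) := by
      rw [Function.comp_apply, map_one, ha, ← Complex.natCast_re]; push_cast; rfl
    rw [e1, e2] at h8
    have h12 : T.index * b ≤ (T.subgroupOf N).index * a := by exact_mod_cast h8
    have h13 : T.index * b ≤ T.index * a := h12.trans (Nat.mul_le_mul_right _ h10)
    exact Nat.le_of_mul_le_mul_left h13 (Nat.pos_of_ne_zero Subgroup.index_ne_zero_of_finite)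
  have h12 := h9.2 (by
    have e1 : (η ((1 : N.subgroupOf T) : T)).re = b := by
      rw [Subgroup.coe_one, hb, Complex.natCast_re]
    have e2 : ((ξ : N.subgroupOf T → ℂ) 1).re = a := by rw [ha, Complex.natCast_re]
    show (η ((1 : N.subgroupOf T) : T)).re ≤ ((ξ : N.subgroupOf T → ℂ) 1).re
    rw [e1, e2]
    exact_mod_cast h11)
  rw [h12]
  exact ξ.2

/-- in a `p`-group quotient, a Sylow subgroup covers everything -/
theorem sylow_cover {M : Type u} [Group M] [Finite M] (L : Subgroup M) [L.Normal] {p : ℕ} [Fact p.Prime] (h : ∀ m : M, m ^ p ∈ L) (P : Sylow p M) (m : M) :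
    ∃ l ∈ L, ∃ x ∈ P, m = l * x := by
  have hpg : IsPGroup p (M ⧸ L) := by
    intro x
    obtain ⟨y, rfl⟩ := QuotientGroup.mk_surjective x
    refine ⟨1, ?_⟩
    rw [pow_one, ← QuotientGroup.mk_pow, QuotientGroup.eq_one_iff]
    exact h y
  let Q := P.mapSurjective (QuotientGroup.mk'_surjective L)
  have hQ : (Q : Subgroup (M ⧸ L)) = ⊤ := by
    have h1 : IsPGroup p (⊤ : Subgroup (M ⧸ L)) := hpg.to_subgroup ⊤
    exact (Q.is_maximal' h1 le_top).symm
  have hm : QuotientGroup.mk' L m ∈ (Q : Subgroup (M ⧸ L)) := by rw [hQ]; exact Subgroup.mem_top _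
  obtain ⟨x, hx, hxm⟩ := hm
  refine ⟨m * x⁻¹, ?_, x, hx, by group⟩
  rw [← QuotientGroup.eq_one_iff]
  have : ((m * x⁻¹ : M) : M ⧸ L) = QuotientGroup.mk' L m * (QuotientGroup.mk' L x)⁻¹ := rfl
  rw [this, ← hxm, mul_inv_cancel]

/-- homogeneous restrictions to all normal subgroups and abelian Sylow subgroups force `N` central modulo the kernel -/
theorem le_center {H : Type u} [Group H] [Fintype H] [hs : Group.IsSolvable H] {N : Subgroup H} [hN : N.Normal] (hAS : AS N) {ψ : H → ℂ} (hψ : IsIrrCharacter H ψ)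
    (hom : ∀ (M : Subgroup H) (_ : M.Normal) (_ : Fintype M) (φ : M → ℂ), IsIrrCharacter M φ → classInner (fun m : M => ψ m) φ ≠ 0 → ∀ g : H, conjFn g φ = φ) :
    ∀ n ∈ N, ‖ψ n‖ = ‖ψ 1‖ := by
  classical
  have hψc := IsIrrCharacter.isCharacter hψ
  have hcl := IsCharacter.isClassFunction hψc
  haveI := charCenter_normal hψc
  haveI := charKer_normal hψc
  obtain ⟨L, hL⟩ : ∃ L, L = N ⊓ charCenter hψc := ⟨_, rfl⟩
  haveI hLn : L.Normal := by rw [hL]; infer_instance
  by_contra hcon
  push Not at hcon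
  obtain ⟨n₀, hn₀, hn₀'⟩ := hcon
  have hLN : L < N := by
    refine lt_of_le_of_ne (by rw [hL]; exact inf_le_left) ?_
    intro h
    rw [← h, hL] at hn₀
    exact hn₀' ((mem_charCenter hψc).mp hn₀.2)
  let S : Set (Subgroup H) := {M | M.Normal ∧ L < M ∧ M ≤ N}
  obtain ⟨M, ⟨hMn, hLM, hMN⟩, hMmin⟩ := S.toFinite.exists_minimal ⟨N, hN, hLN, le_rfl⟩
  haveI := hMn
  haveI : Fintype M := Fintype.ofFinite M
  have hchief : ∀ J : Subgroup H, J.Normal → L ≤ J → J ≤ M → J = L ∨ J = M := by
    intro J hJ hLJ hJM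
    rcases eq_or_lt_of_le hLJ with h | h
    · exact Or.inl h.symm
    · exact Or.inr (le_antisymm hJM (hMmin ⟨hJ, h, hJM.trans hMN⟩ hJM))
  have hsq : Group.IsSolvable (H ⧸ (⊥ : Subgroup H)) := Group.isSolvable_of_surjective (QuotientGroup.mk'_surjective _)
  have hab : ⁅M, M⁆ ≤ L := chief_abelian hsq bot_le hLM hchief
  -- a prime
  have hidx : (L.subgroupOf M).index ≠ 1 := by
    intro h
    rw [Subgroup.index_eq_one] at h
    exact hLM.not_ge (Subgroup.subgroupOf_eq_top.mp h)
  obtain ⟨p, hp, hpd⟩ := Nat.exists_prime_and_dvd hidx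
  haveI : Fact p.Prime := ⟨hp⟩
  have hmem_pow : ∀ m ∈ M, m ^ p ∈ L := by
    let J : Subgroup H :=
      { carrier := {m | m ∈ M ∧ m ^ p ∈ L}
        one_mem' := ⟨M.one_mem, by rw [one_pow]; exact L.one_mem⟩
        mul_mem' := by
          rintro a b ⟨ha, ha'⟩ ⟨hb, hb'⟩
          refine ⟨M.mul_mem ha hb, ?_⟩
          have hcomm : Commute (a : H ⧸ L) (b : H ⧸ L) := by
            have h1 : a⁻¹ * b⁻¹ * a * b ∈ L := by
              have := hab (Subgroup.commutator_mem_commutator (M.inv_mem ha) (M.inv_mem hb))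
              rw [commutatorElement_def, inv_inv, inv_inv] at this
              exact this
            show (a : H ⧸ L) * (b : H ⧸ L) = (b : H ⧸ L) * (a : H ⧸ L)
            rw [← QuotientGroup.mk_mul, ← QuotientGroup.mk_mul]
            symm
            rw [QuotientGroup.eq]
            have : (b * a)⁻¹ * (a * b) = a⁻¹ * b⁻¹ * a * b := by group
            rw [this]; exact h1
          rw [← QuotientGroup.eq_one_iff, QuotientGroup.mk_pow, QuotientGroup.mk_mul, hcomm.mul_pow,
            ← QuotientGroup.mk_pow, ← QuotientGroup.mk_pow, (QuotientGroup.eq_one_iff _).mpr ha', (QuotientGroup.eq_one_iff _).mpr hb', one_mul]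
        inv_mem' := by
          rintro a ⟨ha, ha'⟩
          exact ⟨M.inv_mem ha, by rw [inv_pow]; exact L.inv_mem ha'⟩ }
    have hJn : J.Normal := by
      constructor
      rintro a ⟨ha, ha'⟩ g
      refine ⟨hMn.conj_mem a ha g, ?_⟩
      rw [conj_pow]
      exact hLn.conj_mem _ ha' g
    have hJL : J ≠ L := by
      intro h
      obtain ⟨x, hx⟩ := exists_prime_orderOf_dvd_card' (G := M ⧸ L.subgroupOf M) p hpd
      obtain ⟨y, rfl⟩ := QuotientGroup.mk_surjective x
      have h1 : (y : H) ∈ J := by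
        refine ⟨y.2, ?_⟩
        have h2 : ((y : M ⧸ L.subgroupOf M)) ^ p = 1 := by rw [← hx, pow_orderOf_eq_one]
        rw [← QuotientGroup.mk_pow, QuotientGroup.eq_one_iff, Subgroup.mem_subgroupOf] at h2
        exact h2
      rw [h] at h1
      have h3 : ((y : M ⧸ L.subgroupOf M)) = 1 := (QuotientGroup.eq_one_iff y).mpr (Subgroup.mem_subgroupOf.mpr h1)
      rw [h3, orderOf_one] at hx
      exact hp.one_lt.ne hx
    have hJ := (hchief J hJn (fun x hx => ⟨hLM.le hx, L.pow_mem hx p⟩) (fun x hx => hx.1)).resolve_left hJL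
    intro m hm
    rw [← hJ] at hm
    exact hm.2
  -- commutators of M lie in the kernel
  obtain ⟨P⟩ : Nonempty (Sylow p M) := inferInstance
  have hcov : ∀ m : M, ∃ l ∈ L, ∃ x : M, x ∈ P ∧ (m : H) = l * x := by
    intro m
    obtain ⟨l, hl, x, hx, hm⟩ := sylow_cover (L.subgroupOf M) (fun m => by
      rw [Subgroup.mem_subgroupOf]; exact hmem_pow m m.2) P m
    exact ⟨l, Subgroup.mem_subgroupOf.mp hl, x, hx, congrArg Subtype.val hm⟩
  have hPab : ∀ x y : M, x ∈ P → y ∈ P → (x : H) * y = y * x := by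
    intro x y hx hy
    refine hAS p hp ((P : Subgroup M).map M.subtype) ?_ (P.isPGroup'.map M.subtype) x ⟨x, hx, rfl⟩ y ⟨y, hy, rfl⟩
    rintro _ ⟨z, -, rfl⟩
    exact hMN z.2
  have hcentral : ∀ l ∈ L, ∀ g : H, ((l : H ⧸ charKer hψc)) * (g : H ⧸ charKer hψc) = (g : H ⧸ charKer hψc) * (l : H ⧸ charKer hψc) := by
    intro l hl g
    have h1 : l ∈ charCenter hψc := by rw [hL] at hl; exact hl.2
    have h2 := IsCharacter.commutator_mem_ker hψc ((mem_charCenter hψc).mp h1) g
    have h3 : l * g * l⁻¹ * g⁻¹ ∈ charKer hψc := (mem_charKer hψc).mpr h2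
    rw [← QuotientGroup.mk_mul, ← QuotientGroup.mk_mul]
    symm
    rw [QuotientGroup.eq]
    have h4 := (charKer_normal hψc).conj_mem _ h3 (g * l)⁻¹
    have h5 : (g * l)⁻¹ * (l * g * l⁻¹ * g⁻¹) * (g * l)⁻¹⁻¹ = (g * l)⁻¹ * (l * g) := by group
    rw [← h5]; exact h4
  have hker : ∀ a b : M, ψ ((a : H) * b * (a : H)⁻¹ * (b : H)⁻¹) = ψ 1 := by
    intro a b
    obtain ⟨l, hl, x, hx, hax⟩ := hcov a
    obtain ⟨l', hl', y, hy, hby⟩ := hcov b
    rw [← mem_charKer hψc, ← QuotientGroup.eq_one_iff]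
    have h1 : ((a : H) : H ⧸ charKer hψc) * ((b : H) : H ⧸ charKer hψc) = ((b : H) : H ⧸ charKer hψc) * ((a : H) : H ⧸ charKer hψc) := by
      rw [hax, hby, QuotientGroup.mk_mul, QuotientGroup.mk_mul]
      have hxy : ((x : H) : H ⧸ charKer hψc) * ((y : H) : H ⧸ charKer hψc) = ((y : H) : H ⧸ charKer hψc) * ((x : H) : H ⧸ charKer hψc) := by
        rw [← QuotientGroup.mk_mul, ← QuotientGroup.mk_mul, hPab x y hx hy]
      have c1 := hcentral l hl
      have c2 := hcentral l' hl'
      have e1 : Commute (l : H ⧸ charKer hψc) (l' : H ⧸ charKer hψc) := c1 l'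
      have e2 : Commute (l : H ⧸ charKer hψc) ((y : H) : H ⧸ charKer hψc) := c1 y
      have e3 : Commute ((x : H) : H ⧸ charKer hψc) (l' : H ⧸ charKer hψc) := (c2 x).symm
      have e4 : Commute ((x : H) : H ⧸ charKer hψc) ((y : H) : H ⧸ charKer hψc) := hxy
      exact ((e1.mul_right e2).mul_left (e3.mul_right e4)).eq
    rw [QuotientGroup.mk_mul, QuotientGroup.mk_mul, QuotientGroup.mk_mul, QuotientGroup.mk_inv, QuotientGroup.mk_inv, h1, mul_inv_cancel_right, mul_inv_cancel]
  -- a constituent of the restriction to M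
  have hres : IsCharacter M (fun m : M => ψ m) := IsCharacter.restrict hψc M
  obtain ⟨μ, hμ⟩ := exists_constituent hres (by
    intro h0
    exact IsIrrCharacter.one_ne_zero hψ (congrFun h0 1))
  have h1 := res_of_inv μ.2 (hom M hMn inferInstance μ μ.2 hμ) hψ hμ
  have hval : ∀ m : M, ψ m = classInner (fun m : M => ψ m) μ * (μ : M → ℂ) m := fun m => congrFun h1 m
  have hμ1 : (μ : M → ℂ) 1 = 1 := by
    rw [degree_one_iff]
    have h2 : commutator M ≤ charKer (irr_isCharacter μ) := by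
      rw [commutator_def, Subgroup.commutator_le]
      intro a _ b _
      rw [mem_charKer]
      have h3 := hval (a * b * a⁻¹ * b⁻¹)
      have h4 := hval 1
      have h5 := hker a b
      have h6 : ((a * b * a⁻¹ * b⁻¹ : M) : H) = (a : H) * b * (a : H)⁻¹ * (b : H)⁻¹ := rfl
      rw [h6, h5] at h3
      rw [Subgroup.coe_one, h3] at h4
      exact mul_left_cancel₀ hμ h4
    intro n hn
    exact (mem_charKer _).mp (h2 hn)
  apply hLM.not_ge
  intro m hm
  rw [hL]
  refine ⟨hMN hm, (mem_charCenter hψc).mpr ?_⟩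
  have h2 := hval ⟨m, hm⟩
  have h3 := hval 1
  have h4 := IsIrrCharacter.norm_of_mem_center μ.2 (z := ⟨m, hm⟩)
  obtain ⟨lam, hlam⟩ := IsCharacter.exists_linear (irr_isCharacter μ) hμ1
  have h5 : ‖(μ : M → ℂ) ⟨m, hm⟩‖ = 1 := by rw [hlam]; exact norm_linear lam _
  have h6 : ψ m = classInner (fun m : M => ψ m) μ * (μ : M → ℂ) ⟨m, hm⟩ := h2
  have h7 : ψ 1 = classInner (fun m : M => ψ m) μ * (μ : M → ℂ) 1 := h3
  rw [h6, h7, norm_mul, norm_mul, h5, hμ1, norm_one]

theorem mono_of_res : ∀ (n : ℕ) (H : Type u) [Group H] [Fintype H] [Group.IsSolvable H], Nat.card H = n → ∀ (N : Subgroup H) [N.Normal], AS N →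
    ∀ ψ : H → ℂ, IsIrrCharacter H ψ → IsIrrCharacter N (fun n : N => ψ n) → ∃ (U : Subgroup H) (lam : U →* ℂˣ), ψ = indFun U (fun u => (lam u : ℂ)) := by
  intro n
  induction n using Nat.strong_induction_on with
  | _ n ih =>
  intro H _ _ hs hn N hN hAS ψ hψ hψN
  classical
  haveI : Fintype N := Fintype.ofFinite N
  by_cases h2 : ∃ (M : Subgroup H) (_ : M.Normal) (_ : Fintype M) (φ : M → ℂ), IsIrrCharacter M φ ∧ classInner (fun m : M => ψ m) φ ≠ 0 ∧ inertia (G := H) φ ≠ ⊤
  · obtain ⟨M, hM, _, φ, hφ, hne, hin⟩ := h2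
    obtain ⟨T, hT⟩ : ∃ T, T = inertia (G := H) φ := ⟨_, rfl⟩
    haveI : Fintype T := Fintype.ofFinite T
    have hMT : M ≤ T := by rw [hT]; exact le_inertia (IsCharacter.isClassFunction (IsIrrCharacter.isCharacter hφ))
    obtain ⟨η, hη, -, hind, -⟩ := corr_surj hMT hφ (fun g => by rw [hT, mem_inertia]) hψ hne
    have hlt : Nat.card T < n := by
      rw [← hn]
      exact lt_of_le_of_ne (Subgroup.card_le_card_group T) (fun h => hin (hT ▸ (Subgroup.card_eq_iff_eq_top T).mp h))
    have hres := res_inducing hψ hψN hη hind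
    obtain ⟨U, lam, hU⟩ := ih _ hlt T rfl (N.subgroupOf T) (hAS.sub T) η hη hres
    obtain ⟨V, mu, -, hV⟩ := ind_ind_linear T U lam
    exact ⟨V, mu, by rw [← hV, ← hU, hind]⟩
  · push Not at h2
    have h3 := le_center hAS hψ (fun M hM hf φ hφ hne g => by
      have := h2 M hM hf φ hφ hne
      have h4 : g ∈ inertia (G := H) φ := by rw [this]; exact Subgroup.mem_top g
      exact mem_inertia.mp h4)
    have h4 : ψ 1 = 1 := by
      have := degree_one_of_center_top hψN (fun g => by
        show ‖ψ g‖ = ‖ψ ((1 : N) : H)‖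
        rw [Subgroup.coe_one]
        exact h3 g g.2)
      simpa using this
    obtain ⟨U, lam, -, hU⟩ := ind_top_linear (IsIrrCharacter.isCharacter hψ) h4
    exact ⟨U, lam, hU⟩

end CfsgLib.RelMono2
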