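import Mathlib
import Cfsg.Prelude.Def_Characters
import Cfsg.Agent.Lib.CharBasic
import Cfsg.Agent.Lib.CharBasic2

/-!
# Representations with equal characters are equivalent
-/

set_option autoImplicit false
set_option linter.style.haveILetI false
set_option linter.unusedSectionVars false

open scoped ComplexConjugate

namespace CfsgLib.RepEquiv

open Cfsg CfsgLib.CharBasic Representation

universe u v w

variable {G : Type u} [Group G] [Finite G] {V : Type v} [AddCommGroup V] [Module ℂ V] [FiniteDimensional ℂ V]
  {W : Type w} [AddCommGroup W] [Module ℂ W] [FiniteDimensional ℂ W]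

/-- a complement of the kernel maps isomorphically to the range -/
theorem compl_equiv_range {ρ : Representation ℂ G V} {σ : Representation ℂ G W} (f : IntertwiningMap ρ σ) {C : Subrepresentation ρ} (hC : IsCompl f.ker C) :
    C.toRepresentation.character = f.range.toRepresentation.character := by
  have hc := isCompl_toSubmodule hC
  have hmem : ∀ c : C.toSubmodule, f (c : V) ∈ f.range.toSubmodule := fun c => ⟨c, rfl⟩
  let e : C.toSubmodule →ₗ[ℂ] f.range.toSubmodule := LinearMap.codRestrict f.range.toSubmodule (f.toLinearMap.comp C.toSubmodule.subtype) hmem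
  have he : Function.Bijective e := by
    constructor
    · rw [injective_iff_map_eq_zero]
      intro c hc0
      have h1 : f (c : V) = 0 := congrArg Subtype.val hc0
      have h2 : (c : V) ∈ f.ker.toSubmodule ⊓ C.toSubmodule := ⟨h1, c.2⟩
      rw [hc.inf_eq_bot] at h2
      exact Subtype.ext ((Submodule.mem_bot ℂ).mp h2)
    · rintro ⟨w, v, hv⟩
      have h1 : v ∈ f.ker.toSubmodule ⊔ C.toSubmodule := by rw [hc.sup_eq_top]; trivial
      obtain ⟨k, hk, c, hc', rfl⟩ := Submodule.mem_sup.mp h1
      refine ⟨⟨c, hc'⟩, Subtype.ext ?_⟩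
      show f c = w
      have hk' : f k = 0 := hk
      have h2 : f (k + c) = w := hv
      rw [map_add, hk', zero_add] at h2
      exact h2
  let E : C.toRepresentation.Equiv f.range.toRepresentation := Representation.Equiv.mk (LinearEquiv.ofBijective e he) (by
    intro g
    apply LinearMap.ext
    intro c
    apply Subtype.ext
    show f (ρ g (c : V)) = σ g (f (c : V))
    exact f.isIntertwining ρ σ g c)
  exact char_iso E

theorem exists_smaller_ker {ρ : Representation ℂ G V} {σ : Representation ℂ G W} (h : ρ.character = σ.character) (f : IntertwiningMap ρ σ)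
    (hf : f.ker.toSubmodule ≠ ⊥) : ∃ f' : IntertwiningMap ρ σ, Module.finrank ℂ f'.ker.toSubmodule < Module.finrank ℂ f.ker.toSubmodule := by
  classical
  haveI : Fintype G := Fintype.ofFinite G
  haveI : NeZero (Nat.card G : ℂ) := ⟨by simp [Nat.card_pos.ne']⟩
  obtain ⟨C, hC⟩ := (inferInstance : IsSemisimpleRepresentation ρ).exists_isCompl f.ker
  obtain ⟨D, hD⟩ := (inferInstance : IsSemisimpleRepresentation σ).exists_isCompl f.range
  have h1 := character_of_isCompl hC
  have h2 := character_of_isCompl hD
  rw [compl_equiv_range f hC] at h1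
  have h3 : f.ker.toRepresentation.character = D.toRepresentation.character := by
    rw [h1, h2, add_comm] at h
    exact add_left_cancel h
  -- a nonzero map from the kernel to D
  have h4 : classInner D.toRepresentation.character f.ker.toRepresentation.character ≠ 0 := by
    rw [← h3]
    rw [Ne, classInner_self_eq_zero]
    intro h0
    have h5 := congrFun h0 1
    rw [Representation.char_one, Pi.zero_apply] at h5
    have h6 : Module.finrank ℂ f.ker.toSubmodule = 0 := by exact_mod_cast h5
    exact hf (Submodule.finrank_eq_zero.mp h6)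
  rw [classInner_character] at h4
  have h5 : Module.finrank ℂ (IntertwiningMap f.ker.toRepresentation D.toRepresentation) ≠ 0 := by exact_mod_cast h4
  obtain ⟨g, hg⟩ : ∃ g : IntertwiningMap f.ker.toRepresentation D.toRepresentation, g ≠ 0 := by
    by_contra hcon
    push Not at hcon
    haveI : Subsingleton (IntertwiningMap f.ker.toRepresentation D.toRepresentation) := ⟨fun a b => by rw [hcon a, hcon b]⟩
    exact h5 Module.finrank_zero_of_subsingleton
  have hc := isCompl_toSubmodule hC
  have hd := isCompl_toSubmodule hD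
  -- the projection to the kernel
  let E := prodEquivOfIsCompl hC
  let proj : V →ₗ[ℂ] f.ker.toSubmodule := (LinearMap.fst ℂ _ _).comp (E.toLinearEquiv.symm : V →ₗ[ℂ] f.ker.toSubmodule × C.toSubmodule)
  have hproj : ∀ (k : f.ker.toSubmodule) (c : C.toSubmodule), proj ((k : V) + c) = k := by
    intro k c
    have h6 : E.toLinearEquiv (k, c) = (k : V) + c := by
      show (Submodule.prodEquivOfIsCompl f.ker.toSubmodule C.toSubmodule (isCompl_toSubmodule hC)) (k, c) = _
      rw [Submodule.coe_prodEquivOfIsCompl']
    show (E.toLinearEquiv.symm ((k : V) + c)).1 = k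
    rw [← h6, LinearEquiv.symm_apply_apply]
  have hdecomp : ∀ v : V, ∃ (k : f.ker.toSubmodule) (c : C.toSubmodule), v = (k : V) + c := by
    intro v
    have h1 : v ∈ f.ker.toSubmodule ⊔ C.toSubmodule := by rw [hc.sup_eq_top]; trivial
    obtain ⟨k, hk, c, hc', rfl⟩ := Submodule.mem_sup.mp h1
    exact ⟨⟨k, hk⟩, ⟨c, hc'⟩, rfl⟩
  let q : V →ₗ[ℂ] W := f.toLinearMap + D.toSubmodule.subtype.comp (g.toLinearMap.comp proj)
  have hq : ∀ (k : f.ker.toSubmodule) (c : C.toSubmodule), q ((k : V) + c) = f (c : V) + (g k : W) := by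
    intro k c
    show f ((k : V) + c) + ((g (proj ((k : V) + c)) : D.toSubmodule) : W) = _
    have hk : f (k : V) = 0 := k.2
    rw [hproj, map_add, hk, zero_add]
  let f' : IntertwiningMap ρ σ := LinearMap.intertwiningMap_of_isIntertwiningMap ρ σ q (by
    intro x v
    obtain ⟨k, c, rfl⟩ := hdecomp v
    have h7 : ρ x ((k : V) + c) = ((f.ker.toRepresentation x k : f.ker.toSubmodule) : V) + ((C.toRepresentation x c : C.toSubmodule) : V) := by
      rw [map_add]; rfl
    rw [h7, hq, hq, map_add]
    have h8 : f ((C.toRepresentation x c : C.toSubmodule) : V) = σ x (f (c : V)) := f.isIntertwining ρ σ x c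
    have h9 : ((g (f.ker.toRepresentation x k) : D.toSubmodule) : W) = σ x (g k : W) := by
      rw [g.isIntertwining f.ker.toRepresentation D.toRepresentation x k]
      rfl
    rw [h8, h9])
  refine ⟨f', ?_⟩
  have hker : ∀ (k : f.ker.toSubmodule) (c : C.toSubmodule), (k : V) + c ∈ f'.ker.toSubmodule → c = 0 ∧ g k = 0 := by
    intro k c hkc
    have h7 : f (c : V) + (g k : W) = 0 := by rw [← hq]; exact hkc
    have h8 : f (c : V) ∈ f.range.toSubmodule ⊓ D.toSubmodule := by
      refine ⟨⟨c, rfl⟩, ?_⟩
      have : f (c : V) = -(g k : W) := eq_neg_of_add_eq_zero_left h7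
      rw [this]
      exact D.toSubmodule.neg_mem (g k).2
    rw [hd.inf_eq_bot, Submodule.mem_bot] at h8
    rw [h8, zero_add] at h7
    refine ⟨?_, Subtype.ext h7⟩
    have h9 : (c : V) ∈ f.ker.toSubmodule ⊓ C.toSubmodule := ⟨h8, c.2⟩
    rw [hc.inf_eq_bot] at h9
    exact Subtype.ext ((Submodule.mem_bot ℂ).mp h9)
  apply Submodule.finrank_lt_finrank_of_lt
  refine lt_of_le_of_ne ?_ ?_
  · intro v hv
    obtain ⟨k, c, rfl⟩ := hdecomp v
    obtain ⟨h7, -⟩ := hker k c hv
    rw [h7, Submodule.coe_zero, add_zero]
    exact k.2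
  · intro heq
    apply hg
    apply Representation.IntertwiningMap.ext
    apply LinearMap.ext
    intro k
    have h7 : (k : V) + ((0 : C.toSubmodule) : V) ∈ f'.ker.toSubmodule := by
      rw [heq, Submodule.coe_zero, add_zero]
      exact k.2
    exact (hker k 0 h7).2

theorem equiv_of_char_eq {ρ : Representation ℂ G V} {σ : Representation ℂ G W} (h : ρ.character = σ.character) : Nonempty (ρ.Equiv σ) := by
  classical
  obtain ⟨n, hn⟩ : ∃ n, ∃ f : IntertwiningMap ρ σ, Module.finrank ℂ f.ker.toSubmodule = n := ⟨_, 0, rfl⟩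
  obtain ⟨f, hf⟩ := Nat.find_spec (⟨n, hn⟩ : ∃ n, ∃ f : IntertwiningMap ρ σ, Module.finrank ℂ f.ker.toSubmodule = n)
  have hmin := fun m (hm : m < Nat.find (⟨n, hn⟩ : ∃ n, ∃ f : IntertwiningMap ρ σ, Module.finrank ℂ f.ker.toSubmodule = n)) => Nat.find_min _ hm
  have hbot : f.ker.toSubmodule = ⊥ := by
    by_contra hne
    obtain ⟨f', hf'⟩ := exists_smaller_ker h f hne
    rw [hf] at hf'
    exact hmin _ hf' ⟨f', rfl⟩
  have hinj : Function.Injective f.toLinearMap := LinearMap.ker_eq_bot.mp hbot
  have hdim : Module.finrank ℂ V = Module.finrank ℂ W := by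
    have := congrFun h 1
    rw [Representation.char_one, Representation.char_one] at this
    exact_mod_cast this
  exact ⟨Representation.Equiv.mk (LinearEquiv.ofInjectiveOfFinrankEq f.toLinearMap hinj hdim) (by
    intro g
    apply LinearMap.ext
    intro v
    exact f.isIntertwining ρ σ g v)⟩

end CfsgLib.RepEquiv
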