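import Mathlib
import Cfsg.Prelude.Def_Sporadic_a

/-!
Self-dual binary codes of length 24 and minimum weight 8.
-/

set_option autoImplicit false

namespace CfsgLib.SD24

open Finset

abbrev V := Fin 24 → ZMod 2

/-- the support -/
def sp (v : V) : Finset (Fin 24) := univ.filter fun i => v i ≠ 0

theorem mem_sp {v : V} {i : Fin 24} : i ∈ sp v ↔ v i ≠ 0 := by simp [sp]

theorem norm_eq (v : V) : hammingNorm v = (sp v).card := rfl

theorem z2 (x : ZMod 2) : x = 0 ∨ x = 1 := by revert x; decide

theorem sp_inj {v w : V} (h : sp v = sp w) : v = w := by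
  funext i
  have h1 : v i ≠ 0 ↔ w i ≠ 0 := by rw [← mem_sp, h, mem_sp]
  rcases z2 (v i) with h2 | h2 <;> rcases z2 (w i) with h3 | h3
  · rw [h2, h3]
  · exact absurd h2 (h1.mpr (by rw [h3]; decide))
  · exact absurd h3 (h1.mp (by rw [h2]; decide))
  · rw [h2, h3]

/-- indicator -/
def ind (s : Finset (Fin 24)) : V := fun i => if i ∈ s then 1 else 0

theorem sp_ind (s : Finset (Fin 24)) : sp (ind s) = s := by
  ext i; rw [mem_sp, ind]; split_ifs with h <;> simp [h]

theorem sp_sub (v w : V) : sp (v - w) = symmDiff (sp v) (sp w) := by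
  ext i
  rw [mem_symmDiff, mem_sp, mem_sp, mem_sp, Pi.sub_apply]
  generalize v i = a
  generalize w i = b
  revert a b; decide

theorem sp_add (v w : V) : sp (v + w) = symmDiff (sp v) (sp w) := by
  ext i
  rw [mem_symmDiff, mem_sp, mem_sp, mem_sp, Pi.add_apply]
  generalize v i = a
  generalize w i = b
  revert a b; decide

theorem card_sd {α : Type*} [DecidableEq α] (s t : Finset α) : (symmDiff s t).card + 2 * (s ∩ t).card = s.card + t.card := by
  have h2 : (symmDiff s t).card = (s \ t).card + (t \ s).card := by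
    rw [symmDiff_def, sup_eq_union, card_union_of_disjoint disjoint_sdiff_sdiff]
  have h3 := card_sdiff_add_card_inter s t
  have h4 := card_sdiff_add_card_inter t s
  rw [inter_comm] at h4
  omega

theorem count (k : ℕ) : (univ.filter (fun v : V => hammingNorm v = k)).card = Nat.choose 24 k := by
  have h : (powersetCard k (univ : Finset (Fin 24))).card = Nat.choose 24 k := by
    rw [card_powersetCard]; rfl
  rw [← h]
  apply card_bij (fun v _ => sp v)
  · intro v hv
    rw [mem_filter] at hv
    rw [mem_powersetCard]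
    exact ⟨subset_univ _, hv.2⟩
  · intro v _ w _ h; exact sp_inj h
  · intro s hs
    rw [mem_powersetCard] at hs
    exact ⟨ind s, by rw [mem_filter]; exact ⟨mem_univ _, by rw [norm_eq, sp_ind, hs.2]⟩, sp_ind s⟩

theorem count_le3 : (univ.filter (fun v : V => hammingNorm v ≤ 3)).card = 2325 := by
  have h : (univ.filter (fun v : V => hammingNorm v ≤ 3)) =
      (range 4).biUnion (fun k => univ.filter (fun v : V => hammingNorm v = k)) := by
    ext v
    simp only [mem_filter, mem_univ, true_and, mem_biUnion, mem_range]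
    constructor
    · intro h; exact ⟨_, by omega, rfl⟩
    · rintro ⟨k, hk, h⟩; omega
  rw [h, card_biUnion]
  · simp only [count]
    decide
  · intro i _ j _ hij
    rw [Function.onFun, disjoint_left]
    intro v hv hv'
    rw [mem_filter] at hv hv'
    exact hij (hv.2.symm.trans hv'.2)

variable (C : Submodule (ZMod 2) V)

theorem card_quot (hdim : Module.finrank (ZMod 2) C = 12) : Nat.card (V ⧸ C) = 4096 := by
  have h1 := Submodule.finrank_quotient_add_finrank C
  rw [hdim, Module.finrank_fin_fun] at h1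
  have h2 : Nat.card (V ⧸ C) = Nat.card (ZMod 2) ^ Module.finrank (ZMod 2) (V ⧸ C) := Module.natCard_eq_pow_finrank
  rw [h2, Nat.card_zmod, show Module.finrank (ZMod 2) (V ⧸ C) = 12 by omega]
  norm_num

/-- two light vectors of a coset have weight four and disjoint supports -/
theorem disj (hmin : ∀ w ∈ C, w ≠ 0 → 8 ≤ hammingNorm w) {u v : V} (h : u - v ∈ C) (hne : u ≠ v)
    (hu : hammingNorm u ≤ 4) (hv : hammingNorm v ≤ 4) : hammingNorm u = 4 ∧ hammingNorm v = 4 ∧ Disjoint (sp u) (sp v) := by
  have h1 := hmin _ h (sub_ne_zero.mpr hne)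
  rw [norm_eq] at h1 hu hv ⊢
  rw [norm_eq]
  rw [sp_sub] at h1
  have h2 := card_sd (sp u) (sp v)
  refine ⟨by omega, by omega, ?_⟩
  rw [disjoint_iff_inter_eq_empty, ← card_eq_zero]
  omega

theorem leaders (hdim : Module.finrank (ZMod 2) C = 12) (hmin : ∀ w ∈ C, w ≠ 0 → 8 ≤ hammingNorm w) (w : V) :
    ((∃ u : V, {u : V | u - w ∈ C ∧ hammingNorm u ≤ 4} = {u} ∧ hammingNorm u ≤ 3)) ∨
    ({u : V | u - w ∈ C ∧ hammingNorm u ≤ 4}.ncard = 6 ∧ ∀ u ∈ {u : V | u - w ∈ C ∧ hammingNorm u ≤ 4},
      hammingNorm u = 4) := by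
  classical
  haveI : Finite (V ⧸ C) := Nat.finite_of_card_ne_zero (by rw [card_quot C hdim]; norm_num)
  haveI := Fintype.ofFinite (V ⧸ C)
  have hQ : Fintype.card (V ⧸ C) = 4096 := by rw [← Nat.card_eq_fintype_card, card_quot C hdim]
  set A := (univ.filter (fun v : V => hammingNorm v ≤ 3)) with hA
  set B := (univ.filter (fun v : V => hammingNorm v = 4)) with hB
  let a : V ⧸ C → ℕ := fun q => (A.filter fun v => Submodule.Quotient.mk v = q).card
  let b : V ⧸ C → ℕ := fun q => (B.filter fun v => Submodule.Quotient.mk v = q).card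
  have ha : ∑ q, a q = 2325 := by
    rw [← count_le3, card_eq_sum_card_fiberwise (f := fun v : V => (Submodule.Quotient.mk v : V ⧸ C)) (t := univ)
      (fun x _ => mem_coe.mpr (mem_univ _))]
  have hb : ∑ q, b q = 10626 := by
    have h4 : B.card = 10626 := by rw [hB, count]; decide
    rw [← h4, card_eq_sum_card_fiberwise (f := fun v : V => (Submodule.Quotient.mk v : V ⧸ C)) (t := univ)
      (fun x _ => mem_coe.mpr (mem_univ _))]
  have hmk : ∀ {u v : V}, (Submodule.Quotient.mk u : V ⧸ C) = Submodule.Quotient.mk v ↔ u - v ∈ C :=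
    fun {u v} => Submodule.Quotient.eq C
  have hle : ∀ q, 6 * a q + b q ≤ 6 := by
    intro q
    by_cases h0 : a q = 0
    · rw [h0, mul_zero, zero_add]
      have h1 : ((B.filter fun v => Submodule.Quotient.mk v = q).biUnion sp).card = ∑ v ∈ (B.filter fun v => Submodule.Quotient.mk v = q), (sp v).card := by
        apply card_biUnion
        intro u hu v hv huv
        rw [mem_coe, mem_filter, hB, mem_filter] at hu hv
        exact (disj C hmin (hmk.mp (hu.2.trans hv.2.symm)) huv hu.1.2.le hv.1.2.le).2.2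
      have h2 : ∑ v ∈ (B.filter fun v => Submodule.Quotient.mk v = q), (sp v).card = 4 * b q := by
        rw [sum_congr rfl (g := fun _ => 4) (fun v hv => by
          rw [mem_filter, hB, mem_filter] at hv; exact hv.1.2), sum_const, smul_eq_mul, mul_comm]
      have h3 := card_le_univ ((B.filter fun v => Submodule.Quotient.mk v = q).biUnion sp)
      rw [h1, h2, Fintype.card_fin] at h3
      omega
    · obtain ⟨u, hu⟩ := card_pos.mp (Nat.pos_of_ne_zero h0)
      rw [mem_filter, hA, mem_filter] at hu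
      have h1 : a q ≤ 1 := by
        apply card_le_one.mpr
        intro x hx y hy
        rw [mem_filter, hA, mem_filter] at hx hy
        by_contra hxy
        have := disj C hmin (hmk.mp (hx.2.trans hy.2.symm)) hxy (by omega) (by omega)
        omega
      have h2 : b q = 0 := by
        rw [card_eq_zero, filter_eq_empty_iff]
        intro v hv hvq
        rw [hB, mem_filter] at hv
        have hne : u ≠ v := by rintro rfl; omega
        have := disj C hmin (hmk.mp (hu.2.trans hvq.symm)) hne (by omega) hv.2.le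
        omega
      omega
  have hall : ∀ q, 6 * a q + b q = 6 := by
    have h1 : ∑ q : V ⧸ C, (6 * a q + b q) = ∑ _q : V ⧸ C, 6 := by
      rw [sum_add_distrib, ← mul_sum, ha, hb, sum_const, card_univ, hQ]; norm_num
    intro q
    exact (sum_eq_sum_iff_of_le (fun q _ => hle q)).mp h1 q (mem_univ q)
  set q : V ⧸ C := Submodule.Quotient.mk w with hq
  have hset : {u : V | u - w ∈ C ∧ hammingNorm u ≤ 4} =
      ((A.filter fun v => Submodule.Quotient.mk v = q) ∪ (B.filter fun v => Submodule.Quotient.mk v = q) : Finset V) := by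
    ext u
    rw [Set.mem_setOf_eq, mem_coe, mem_union]
    simp only [mem_filter, hA, hB, hq, hmk, mem_univ, true_and]
    constructor
    · rintro ⟨h1, h2⟩
      by_cases h3 : hammingNorm u ≤ 3
      · exact Or.inl ⟨h3, h1⟩
      · exact Or.inr ⟨by omega, h1⟩
    · rintro (⟨h1, h2⟩ | ⟨h1, h2⟩)
      · exact ⟨h2, by omega⟩
      · exact ⟨h2, by omega⟩
  have h1 := hall q
  by_cases h0 : a q = 0
  · right
    have hb6 : b q = 6 := by omega
    have hae : (A.filter fun v => Submodule.Quotient.mk v = q) = ∅ := card_eq_zero.mp h0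
    rw [hset, hae, empty_union, Set.ncard_coe_finset]
    refine ⟨hb6, ?_⟩
    intro u hu
    rw [mem_coe, mem_filter, hB, mem_filter] at hu
    exact hu.1.2
  · left
    have ha1 : a q = 1 := by omega
    have hb0 : (B.filter fun v => Submodule.Quotient.mk v = q) = ∅ := card_eq_zero.mp (by show b q = 0; omega)
    obtain ⟨u, hu⟩ := card_eq_one.mp ha1
    refine ⟨u, ?_, ?_⟩
    · rw [hset, hb0, union_empty, hu, coe_singleton]
    · have : u ∈ (A.filter fun v => Submodule.Quotient.mk v = q) := by rw [hu]; simp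
      rw [mem_filter, hA, mem_filter] at this
      exact this.1.2

theorem even_weight (horth : ∀ v ∈ C, ∀ w ∈ C, ∑ i, v i * w i = 0) {w : V} (hw : w ∈ C) : Even (hammingNorm w) := by
  have h := horth w hw w hw
  have h1 : ∀ i, w i * w i = if i ∈ sp w then 1 else 0 := by
    intro i
    split_ifs with h2
    · rw [mem_sp] at h2
      rcases z2 (w i) with h3 | h3
      · exact absurd h3 h2
      · rw [h3]; decide
    · rw [mem_sp, not_not] at h2
      rw [h2]; decide
  rw [sum_congr rfl (fun i _ => h1 i), sum_boole] at h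
  have h2 : (univ.filter fun i => i ∈ sp w) = sp w := by ext i; simp
  rw [h2, ZMod.natCast_eq_zero_iff_even] at h
  exact h

theorem even_inter (horth : ∀ v ∈ C, ∀ w ∈ C, ∑ i, v i * w i = 0) {v w : V} (hv : v ∈ C) (hw : w ∈ C) :
    Even (sp v ∩ sp w).card := by
  have h := horth v hv w hw
  have h1 : ∀ i, v i * w i = if i ∈ sp v ∩ sp w then 1 else 0 := by
    intro i
    simp only [mem_inter, mem_sp]
    rcases z2 (v i) with h3 | h3 <;> rcases z2 (w i) with h4 | h4 <;> simp [h3, h4]
  rw [sum_congr rfl (fun i _ => h1 i), sum_boole] at h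
  have h2 : (univ.filter fun i => i ∈ sp v ∩ sp w) = sp v ∩ sp w := by ext i; simp
  rw [h2, ZMod.natCast_eq_zero_iff_even] at h
  exact h

/-- five points lie in an octad -/
theorem exists_octad (hdim : Module.finrank (ZMod 2) C = 12) (horth : ∀ v ∈ C, ∀ w ∈ C, ∑ i, v i * w i = 0)
    (hmin : ∀ w ∈ C, w ≠ 0 → 8 ≤ hammingNorm w) {s : Finset (Fin 24)} (hs : s.card = 5) :
    ∃ w ∈ C, hammingNorm w = 8 ∧ s ⊆ sp w := by
  obtain ⟨u, hu, hu4⟩ : ∃ u : V, u - ind s ∈ C ∧ hammingNorm u ≤ 4 := by
    rcases leaders C hdim hmin (ind s) with ⟨u, hu, -⟩ | ⟨h, -⟩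
    · have : u ∈ ({u} : Set V) := rfl
      rw [← hu] at this
      exact ⟨u, this⟩
    · obtain ⟨u, hu⟩ := Set.nonempty_of_ncard_ne_zero (h.trans_ne (by norm_num))
      exact ⟨u, hu⟩
  have he := even_weight C horth hu
  rw [norm_eq, sp_sub, sp_ind] at he
  have hc := card_sd (sp u) s
  rw [norm_eq] at hu4
  have hne : u - ind s ≠ 0 := by
    intro h
    have : sp (u - ind s) = ∅ := by rw [h]; ext i; simp [mem_sp]
    rw [sp_sub, sp_ind] at this
    rw [symmDiff_eq_bot.mp this] at hu4
    omega
  have h8 := hmin _ hu hne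
  rw [norm_eq, sp_sub, sp_ind] at h8
  obtain ⟨k, hk⟩ := he
  refine ⟨u - ind s, hu, ?_, ?_⟩
  · rw [norm_eq, sp_sub, sp_ind]; omega
  · rw [sp_sub, sp_ind]
    have hi : (sp u ∩ s).card = 0 := by omega
    rw [card_eq_zero, ← disjoint_iff_inter_eq_empty] at hi
    rw [hi.symmDiff_eq_sup]
    exact subset_union_right

theorem unique_octad (hmin : ∀ w ∈ C, w ≠ 0 → 8 ≤ hammingNorm w) {s : Finset (Fin 24)} (hs : s.card = 5)
    {v w : V} (hv : v ∈ C) (hw : w ∈ C) (hv8 : hammingNorm v = 8) (hw8 : hammingNorm w = 8) (hsv : s ⊆ sp v) (hsw : s ⊆ sp w) :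
    v = w := by
  by_contra hne
  have h := hmin _ (sub_mem hv hw) (sub_ne_zero.mpr hne)
  rw [norm_eq, sp_sub] at h
  have h1 := card_sd (sp v) (sp w)
  have h2 := card_le_card (subset_inter hsv hsw)
  rw [norm_eq] at hv8 hw8
  omega

theorem span_octads (hdim : Module.finrank (ZMod 2) C = 12) (horth : ∀ v ∈ C, ∀ w ∈ C, ∑ i, v i * w i = 0)
    (hmin : ∀ w ∈ C, w ≠ 0 → 8 ≤ hammingNorm w) : Submodule.span (ZMod 2) {w : V | w ∈ C ∧ hammingNorm w = 8} = C := by
  apply le_antisymm
  · rw [Submodule.span_le]; rintro w ⟨hw, -⟩; exact hw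
  · have key : ∀ (n : ℕ) (w : V), w ∈ C → hammingNorm w = n → w ∈ Submodule.span (ZMod 2) {w : V | w ∈ C ∧ hammingNorm w = 8} := by
      intro n
      induction n using Nat.strong_induction_on with
      | _ n ih =>
        intro w hw hn
        by_cases h0 : w = 0
        · rw [h0]; exact zero_mem _
        · have h8 := hmin w hw h0
          rw [norm_eq] at h8
          obtain ⟨s, hs, hs5⟩ := exists_subset_card_eq (show 5 ≤ (sp w).card by omega)
          obtain ⟨o, ho, ho8, hso⟩ := exists_octad C hdim horth hmin hs5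
          have h1 := card_sd (sp w) (sp o)
          have h2 := card_le_card (subset_inter hs hso)
          rw [norm_eq] at ho8 hn
          have h3 := ih (hammingNorm (w - o)) (by rw [norm_eq, sp_sub]; omega) (w - o) (sub_mem hw ho) rfl
          have h4 : o ∈ Submodule.span (ZMod 2) {w : V | w ∈ C ∧ hammingNorm w = 8} := Submodule.subset_span ⟨ho, ho8⟩
          have := add_mem h3 h4
          rwa [sub_add_cancel] at this
    intro w hw
    exact key _ w hw rfl

theorem doubly_even (hdim : Module.finrank (ZMod 2) C = 12) (horth : ∀ v ∈ C, ∀ w ∈ C, ∑ i, v i * w i = 0)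
    (hmin : ∀ w ∈ C, w ≠ 0 → 8 ≤ hammingNorm w) : ∀ w ∈ C, 4 ∣ hammingNorm w := by
  have key : ∀ w ∈ Submodule.span (ZMod 2) {w : V | w ∈ C ∧ hammingNorm w = 8}, w ∈ C ∧ 4 ∣ hammingNorm w := by
    intro w hw
    induction hw using Submodule.span_induction with
    | mem x hx => exact ⟨hx.1, by rw [hx.2]; norm_num⟩
    | zero => exact ⟨zero_mem _, by simp⟩
    | add x y _ _ hx hy =>
      refine ⟨add_mem hx.1 hy.1, ?_⟩
      have h1 := hx.2
      have h2 := hy.2
      rw [norm_eq] at h1 h2
      rw [norm_eq, sp_add]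
      have h3 := card_sd (sp x) (sp y)
      obtain ⟨k, hk⟩ := even_inter C horth hx.1 hy.1
      omega
    | smul a x _ hx =>
      rcases z2 a with h | h
      · rw [h, zero_smul]; exact ⟨zero_mem _, by simp⟩
      · rw [h, one_smul]; exact hx
  intro w hw
  rw [← span_octads C hdim horth hmin] at hw
  exact (key w hw).2

end CfsgLib.SD24
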