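import Mathlib
import Cfsg.Prelude.Def_KGroupFacts
import Cfsg.Agent.Lib.Schur3

/-!
Schur multipliers of direct products.
-/

namespace CfsgLib.Schur

open Subgroup
open scoped commutatorElement

set_option linter.style.haveILetI false

universe u v w x

section Heis2

/-- the group attached to a bimultiplicative map, arbitrary base -/
@[reducible] def heisGroup' {Q : Type u} {Z : Type v} [Group Q] [CommGroup Z] (β : Q → Q → Z)
    (h1 : ∀ a b c, β (a * b) c = β a c * β b c) (h2 : ∀ a b c, β a (b * c) = β a b * β a c) : Group (Heis Q Z) :=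
  letI : Mul (Heis Q Z) := ⟨fun x y => ⟨x.a * y.a, x.z * y.z * β x.a y.a⟩⟩
  letI : One (Heis Q Z) := ⟨⟨1, 1⟩⟩
  letI : Inv (Heis Q Z) := ⟨fun x => ⟨x.a⁻¹, x.z⁻¹ * β x.a x.a⟩⟩
  have hb1 : ∀ b, β 1 b = 1 := fun b => by
    have := h1 1 1 b
    rw [mul_one] at this
    exact (mul_eq_left.1 this.symm)
  have hbi : ∀ a b, β a⁻¹ b * β a b = 1 := fun a b => by
    rw [← h1, inv_mul_cancel, hb1]
  Group.ofLeftAxioms
    (fun x y t => Heis.ext' (mul_assoc x.a y.a t.a) (by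
      show x.z * y.z * β x.a y.a * t.z * β (x.a * y.a) t.a = x.z * (y.z * t.z * β y.a t.a) * β x.a (y.a * t.a)
      rw [h1, h2]
      ac_rfl))
    (fun x => Heis.ext' (one_mul x.a) (by
      show 1 * x.z * β 1 x.a = x.z
      rw [hb1, one_mul, mul_one]))
    (fun x => Heis.ext' (inv_mul_cancel x.a) (by
      show x.z⁻¹ * β x.a x.a * x.z * β x.a⁻¹ x.a = 1
      have h3 := hbi x.a x.a
      have h4 : x.z⁻¹ * β x.a x.a * x.z * β x.a⁻¹ x.a = x.z⁻¹ * x.z * (β x.a⁻¹ x.a * β x.a x.a) := by ac_rfl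
      rw [h4, h3, inv_mul_cancel, one_mul]))

/-- a stem extension `σ : Γ → Q` twisted by a bimultiplicative map `β` on `Γ` that is trivial on `ker σ`, with values in `Z`,
such that the values `β a b / β b a` (`a, b` commuting) generate `Z` -/
theorem exists_stem_heis {Γ : Type u} {Q : Type u} {Z : Type u} [Group Γ] [Group Q] [CommGroup Z] [Finite Γ] [Finite Z] {σ : Γ →* Q}
    (hσ : Cfsg.IsStemExtension σ) (β : Γ → Γ → Z)
    (h1 : ∀ a b c, β (a * b) c = β a c * β b c) (h2 : ∀ a b c, β a (b * c) = β a b * β a c)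
    (h3 : ∀ a b, σ a = 1 → β a b = 1) (h4 : ∀ a b, σ b = 1 → β a b = 1)
    (h5 : closure {z : Z | ∃ a b : Γ, a * b = b * a ∧ z = β a b * (β b a)⁻¹} = ⊤) :
    ∃ (Δ : Type u) (_ : Group Δ) (_ : Finite Δ) (τ : Δ →* Q), Cfsg.IsStemExtension τ ∧ Nonempty (τ.ker ≃* σ.ker × Z) := by
  letI := heisGroup' β h1 h2
  haveI : Finite (Heis Γ Z) := Finite.of_injective (fun x : Heis Γ Z => (x.a, x.z)) (fun x y h => by
    exact Heis.ext' (congrArg Prod.fst h) (congrArg Prod.snd h))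
  have hmula : ∀ x y : Heis Γ Z, (x * y).a = x.a * y.a := fun x y => rfl
  have hmulz : ∀ x y : Heis Γ Z, (x * y).z = x.z * y.z * β x.a y.a := fun x y => rfl
  have hb1 : ∀ b, β 1 b = 1 := fun b => h3 1 b (map_one σ)
  have hb1' : ∀ b, β b 1 = 1 := fun b => h4 b 1 (map_one σ)
  let τ₀ : Heis Γ Z →* Γ := { toFun := fun x => x.a, map_one' := rfl, map_mul' := fun x y => rfl }
  let τ : Heis Γ Z →* Q := σ.comp τ₀
  have hτ₀ : Function.Surjective τ₀ := fun a => ⟨⟨a, 1⟩, rfl⟩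
  have hι : ∀ z : Z, (⟨1, z⟩ : Heis Γ Z) ∈ commutator (Heis Γ Z) := by
    let ι : Z →* Heis Γ Z :=
      { toFun := fun z => ⟨1, z⟩
        map_one' := rfl
        map_mul' := fun z t => Heis.ext' (by rw [hmula]; exact (mul_one 1).symm) (by
          rw [hmulz]; show z * t = z * t * β 1 1; rw [hb1, mul_one]) }
    have h6 : (⊤ : Subgroup Z) ≤ (commutator (Heis Γ Z)).comap ι := by
      rw [← h5, closure_le]
      rintro z ⟨a, b, hab, rfl⟩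
      show (⟨1, β a b * (β b a)⁻¹⟩ : Heis Γ Z) ∈ commutator (Heis Γ Z)
      have h7 : (⟨1, β a b * (β b a)⁻¹⟩ : Heis Γ Z) = ⁅(⟨a, 1⟩ : Heis Γ Z), (⟨b, 1⟩ : Heis Γ Z)⁆ := by
        rw [commutatorElement_def, eq_mul_inv_iff_mul_eq, eq_mul_inv_iff_mul_eq]
        refine Heis.ext' ?_ ?_
        · rw [hmula, hmula, hmula]
          show 1 * b * a = a * b
          rw [one_mul, hab]
        · rw [hmulz, hmulz, hmulz]
          show (β a b * (β b a)⁻¹) * 1 * β 1 b * 1 * β (1 * b) a = 1 * 1 * β a b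
          rw [hb1, one_mul b]
          simp
      rw [h7]
      exact commutator_mem_commutator (mem_top _) (mem_top _)
    intro z
    exact h6 (mem_top z)
  have hcomm : (commutator (Heis Γ Z)).map τ₀ = commutator Γ := by
    rw [_root_.commutator_def, map_commutator, ← MonoidHom.range_eq_map, MonoidHom.range_eq_top.2 hτ₀, ← _root_.commutator_def]
  refine ⟨Heis Γ Z, inferInstance, inferInstance, τ, ⟨hσ.1.comp hτ₀, ?_, ?_⟩, ?_⟩
  · intro x hx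
    have hxa : σ x.a = 1 := hx
    rw [mem_center_iff]
    intro y
    refine Heis.ext' ?_ ?_
    · rw [hmula, hmula]; exact mem_center_iff.1 (hσ.2.1 hxa) y.a
    · rw [hmulz, hmulz, h3 _ _ hxa, h4 _ _ hxa, mul_comm y.z]
  · intro x hx
    have hxa : x.a ∈ σ.ker := hx
    have h6 := hσ.2.2 hxa
    rw [← hcomm] at h6
    obtain ⟨y, hy, hyx⟩ := h6
    have hya : y.a = x.a := hyx
    have h7 : x = y * ⟨1, y.z⁻¹ * x.z⟩ := by
      refine Heis.ext' ?_ ?_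
      · rw [hmula]; show x.a = y.a * 1; rw [mul_one, hya]
      · rw [hmulz]
        show x.z = y.z * (y.z⁻¹ * x.z) * β y.a 1
        rw [hb1', mul_one, mul_inv_cancel_left]
    rw [h7]
    exact Subgroup.mul_mem _ hy (hι _)
  · refine ⟨{ toFun := fun x => (⟨x.1.a, x.2⟩, x.1.z), invFun := fun y => ⟨⟨y.1.1, y.2⟩, y.1.2⟩, left_inv := fun x => rfl,
              right_inv := fun y => rfl, map_mul' := ?_ }⟩
    rintro ⟨x, hx⟩ ⟨y, hy⟩
    refine Prod.ext (Subtype.ext rfl) ?_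
    show x.z * y.z * β x.a y.a = x.z * y.z
    rw [h3 _ _ (show σ x.a = 1 from hx), mul_one]

end Heis2

section Prod

theorem hasSchurMultiplier_congr {Q : Type u} [Group Q] {A : Type v} {B : Type w} [CommGroup A] [CommGroup B] (e : A ≃* B)
    (h : Cfsg.HasSchurMultiplier Q A) : Cfsg.HasSchurMultiplier Q B := by
  obtain ⟨⟨Γ, i1, i2, σ, hσ, ⟨f⟩⟩, h2⟩ := h
  refine ⟨⟨Γ, i1, i2, σ, hσ, ⟨f.trans e⟩⟩, fun Γ _ _ σ hσ => ?_⟩
  obtain ⟨π, hπ⟩ := h2 Γ σ hσ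
  exact ⟨π.comp e.symm.toMonoidHom, hπ.comp e.symm.surjective⟩

/-- product of stem extensions -/
theorem isStem_prodMap {Γ₁ : Type u} {Q₁ : Type v} {Γ₂ : Type w} {Q₂ : Type x} [Group Γ₁] [Group Q₁] [Group Γ₂] [Group Q₂]
    {σ₁ : Γ₁ →* Q₁} {σ₂ : Γ₂ →* Q₂} (h1 : Cfsg.IsStemExtension σ₁) (h2 : Cfsg.IsStemExtension σ₂) :
    Cfsg.IsStemExtension (σ₁.prodMap σ₂) := by
  refine ⟨?_, ?_, ?_⟩
  · rintro ⟨a, b⟩
    obtain ⟨x, rfl⟩ := h1.1 a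
    obtain ⟨y, rfl⟩ := h2.1 b
    exact ⟨(x, y), rfl⟩
  · rintro ⟨a, b⟩ hab
    have ha : σ₁ a = 1 := congrArg Prod.fst hab
    have hb : σ₂ b = 1 := congrArg Prod.snd hab
    rw [mem_center_iff]
    rintro ⟨c, d⟩
    exact Prod.ext (mem_center_iff.1 (h1.2.1 ha) c) (mem_center_iff.1 (h2.2.1 hb) d)
  · rintro ⟨a, b⟩ hab
    have ha : σ₁ a = 1 := congrArg Prod.fst hab
    have hb : σ₂ b = 1 := congrArg Prod.snd hab
    have e1 : (commutator Γ₁).map (MonoidHom.inl Γ₁ Γ₂) ≤ commutator (Γ₁ × Γ₂) := by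
      rw [_root_.commutator_def Γ₁, map_commutator, _root_.commutator_def (Γ₁ × Γ₂)]
      exact commutator_mono le_top le_top
    have e2 : (commutator Γ₂).map (MonoidHom.inr Γ₁ Γ₂) ≤ commutator (Γ₁ × Γ₂) := by
      rw [_root_.commutator_def Γ₂, map_commutator, _root_.commutator_def (Γ₁ × Γ₂)]
      exact commutator_mono le_top le_top
    have h3 : ((a, b) : Γ₁ × Γ₂) = MonoidHom.inl Γ₁ Γ₂ a * MonoidHom.inr Γ₁ Γ₂ b := by simp
    rw [h3]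
    exact Subgroup.mul_mem _ (e1 (mem_map_of_mem _ (h1.2.2 ha))) (e2 (mem_map_of_mem _ (h2.2.2 hb)))

/-- the upper bound for products: generation of the kernel of a stem extension of `Q₁ × Q₂` -/
theorem prod_kernel {Q₁ : Type u} {Q₂ : Type v} [Group Q₁] [Group Q₂] [Finite Q₁] [Finite Q₂] {Γ : Type w} [Group Γ]
    {σ : Γ →* Q₁ × Q₂} (hσ : Cfsg.IsStemExtension σ) :
    ∃ (π₁ : M (taut Q₁) →* σ.ker) (π₂ : M (taut Q₂) →* σ.ker),
      ∀ k : σ.ker, ∃ (a : M (taut Q₁)) (b : M (taut Q₂)) (c : σ.ker),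
        (c : Γ) ∈ closure {z : Γ | ∃ x y : Γ, (σ x).2 = 1 ∧ (σ y).1 = 1 ∧ z = ⁅x, y⁆} ∧ k = π₁ a * π₂ b * c := by
  set Γ₁ : Subgroup Γ := ((MonoidHom.snd Q₁ Q₂).comp σ).ker with hΓ₁
  set Γ₂ : Subgroup Γ := ((MonoidHom.fst Q₁ Q₂).comp σ).ker with hΓ₂
  have hm1 : ∀ x : Γ, x ∈ Γ₁ ↔ (σ x).2 = 1 := fun x => Iff.rfl
  have hm2 : ∀ x : Γ, x ∈ Γ₂ ↔ (σ x).1 = 1 := fun x => Iff.rfl
  haveI : Γ₁.Normal := by rw [hΓ₁]; infer_instance
  haveI : Γ₂.Normal := by rw [hΓ₂]; infer_instance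
  -- the induced central extensions
  let ξ₁ : Γ₁ →* Q₁ := ((MonoidHom.fst Q₁ Q₂).comp σ).comp Γ₁.subtype
  let ξ₂ : Γ₂ →* Q₂ := ((MonoidHom.snd Q₁ Q₂).comp σ).comp Γ₂.subtype
  have hξ₁s : Function.Surjective ξ₁ := by
    intro q
    obtain ⟨x, hx⟩ := hσ.1 (q, 1)
    exact ⟨⟨x, (hm1 x).2 (by rw [hx])⟩, by show (σ x).1 = q; rw [hx]⟩
  have hξ₂s : Function.Surjective ξ₂ := by
    intro q
    obtain ⟨x, hx⟩ := hσ.1 (1, q)
    exact ⟨⟨x, (hm2 x).2 (by rw [hx])⟩, by show (σ x).2 = q; rw [hx]⟩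
  have hk1 : ∀ x : Γ₁, x ∈ ξ₁.ker → (x : Γ) ∈ σ.ker := fun x hx => Prod.ext (show (σ x).1 = 1 from hx) ((hm1 x).1 x.2)
  have hk2 : ∀ x : Γ₂, x ∈ ξ₂.ker → (x : Γ) ∈ σ.ker := fun x hx => Prod.ext ((hm2 x).1 x.2) (show (σ x).2 = 1 from hx)
  have hξ₁c : ξ₁.ker ≤ center Γ₁ := by
    intro x hx
    rw [mem_center_iff]
    intro y
    exact Subtype.ext (mem_center_iff.1 (hσ.2.1 (hk1 x hx)) y)
  have hξ₂c : ξ₂.ker ≤ center Γ₂ := by
    intro x hx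
    rw [mem_center_iff]
    intro y
    exact Subtype.ext (mem_center_iff.1 (hσ.2.1 (hk2 x hx)) y)
  obtain ⟨p₁, hp₁⟩ := exists_hom_central (taut_surjective Q₁) ξ₁ hξ₁s hξ₁c
  obtain ⟨p₂, hp₂⟩ := exists_hom_central (taut_surjective Q₂) ξ₂ hξ₂s hξ₂c
  let i₁ : (ξ₁.ker ⊓ commutator Γ₁ : Subgroup Γ₁) →* σ.ker :=
    (Γ₁.subtype.comp (Subgroup.subtype _)).codRestrict _ (fun x => hk1 x.1 x.2.1)
  let i₂ : (ξ₂.ker ⊓ commutator Γ₂ : Subgroup Γ₂) →* σ.ker :=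
    (Γ₂.subtype.comp (Subgroup.subtype _)).codRestrict _ (fun x => hk2 x.1 x.2.1)
  refine ⟨i₁.comp p₁, i₂.comp p₂, ?_⟩
  -- structure of the commutator subgroup
  set C₁ : Subgroup Γ := (commutator Γ₁).map Γ₁.subtype with hC₁
  set C₂ : Subgroup Γ := (commutator Γ₂).map Γ₂.subtype with hC₂
  have hC₁' : C₁ = ⁅Γ₁, Γ₁⁆ := by
    rw [hC₁, _root_.commutator_def, map_commutator, ← MonoidHom.range_eq_map, range_subtype]
  have hC₂' : C₂ = ⁅Γ₂, Γ₂⁆ := by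
    rw [hC₂, _root_.commutator_def, map_commutator, ← MonoidHom.range_eq_map, range_subtype]
  haveI : C₁.Normal := by rw [hC₁']; infer_instance
  haveI : C₂.Normal := by rw [hC₂']; infer_instance
  have h12 : ⁅Γ₁, Γ₂⁆ ≤ σ.ker := by
    rw [commutator_le]
    intro a ha b hb
    rw [MonoidHom.mem_ker, map_commutatorElement]
    refine Prod.ext ?_ ?_
    · show ⁅(σ a).1, (σ b).1⁆ = 1
      rw [(hm2 b).1 hb, commutatorElement_one_right]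
    · show ⁅(σ a).2, (σ b).2⁆ = 1
      rw [(hm1 a).1 ha, commutatorElement_one_left]
  have hgen : commutator Γ ≤ C₁ ⊔ C₂ ⊔ ⁅Γ₁, Γ₂⁆ := by
    apply commutator_le_of_gen _ ((Γ₁ : Set Γ) ∪ Γ₂)
    · rw [eq_top_iff]
      intro g _
      obtain ⟨x, hx⟩ := hσ.1 ((σ g).1, 1)
      have h1 : x ∈ Γ₁ := (hm1 x).2 (by rw [hx])
      have h2 : x⁻¹ * g ∈ Γ₂ := (hm2 _).2 (by rw [map_mul, map_inv, hx, Prod.fst_mul, Prod.fst_inv, inv_mul_cancel])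
      have h3 := (closure ((Γ₁ : Set Γ) ∪ Γ₂)).mul_mem (subset_closure (Or.inl h1)) (subset_closure (Or.inr h2))
      rwa [mul_inv_cancel_left] at h3
    · rintro a (ha | ha) b (hb | hb)
      · exact (le_sup_left.trans le_sup_left : C₁ ≤ C₁ ⊔ C₂ ⊔ ⁅Γ₁, Γ₂⁆) (hC₁' ▸ commutator_mem_commutator ha hb)
      · exact (le_sup_right : ⁅Γ₁, Γ₂⁆ ≤ C₁ ⊔ C₂ ⊔ ⁅Γ₁, Γ₂⁆) (commutator_mem_commutator ha hb)
      · rw [← commutatorElement_inv]
        exact inv_mem ((le_sup_right : ⁅Γ₁, Γ₂⁆ ≤ C₁ ⊔ C₂ ⊔ ⁅Γ₁, Γ₂⁆) (commutator_mem_commutator hb ha))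
      · exact (le_sup_right.trans le_sup_left : C₂ ≤ C₁ ⊔ C₂ ⊔ ⁅Γ₁, Γ₂⁆) (hC₂' ▸ commutator_mem_commutator ha hb)
  rintro ⟨k, hk⟩
  have h1 := hgen (hσ.2.2 hk)
  have h2 : k ∈ ((C₁ ⊔ C₂ ⊔ ⁅Γ₁, Γ₂⁆ : Subgroup Γ) : Set Γ) := h1
  rw [mul_normal] at h2
  obtain ⟨d, hd, c, hc, hdc⟩ := h2
  have h3 : d ∈ ((C₁ ⊔ C₂ : Subgroup Γ) : Set Γ) := hd
  rw [mul_normal] at h3
  obtain ⟨a, ha, b, hb, hab⟩ := h3
  have hab' : a * b = d := hab
  have hdc' : d * c = k := hdc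
  have hcK : c ∈ σ.ker := h12 hc
  obtain ⟨a', ha', rfl⟩ := ha
  obtain ⟨b', hb', rfl⟩ := hb
  have hdK : σ d = 1 := by
    have h4 : σ (d * c) = 1 := by rw [hdc']; exact hk
    rwa [map_mul, MonoidHom.mem_ker.1 hcK, mul_one] at h4
  rw [← hab', map_mul] at hdK
  have ha2 : (σ (a' : Γ)).2 = 1 := (hm1 _).1 a'.2
  have hb1 : (σ (b' : Γ)).1 = 1 := (hm2 _).1 b'.2
  have ha1 : (σ (a' : Γ)).1 = 1 := by
    have := congrArg Prod.fst hdK
    rwa [Prod.fst_mul, show (σ (Γ₂.subtype b')).1 = 1 from hb1, mul_one] at this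
  have hb2 : (σ (b' : Γ)).2 = 1 := by
    have := congrArg Prod.snd hdK
    rwa [Prod.snd_mul, show (σ (Γ₁.subtype a')).2 = 1 from ha2, one_mul] at this
  obtain ⟨α, hα⟩ := hp₁ ⟨a', ha1, ha'⟩
  obtain ⟨β, hβ⟩ := hp₂ ⟨b', hb2, hb'⟩
  refine ⟨α, β, ⟨c, hcK⟩, ?_, ?_⟩
  · have hc' : c ∈ (⁅Γ₁, Γ₂⁆ : Subgroup Γ) := hc
    rw [Subgroup.commutator_def] at hc'
    refine closure_mono ?_ hc'
    rintro _ ⟨x, hx, y, hy, rfl⟩
    exact ⟨x, y, hx, hy, rfl⟩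
  · apply Subtype.ext
    show k = (i₁ (p₁ α) : Γ) * (i₂ (p₂ β) : Γ) * c
    rw [hα, hβ, ← hdc', ← hab']
    rfl

end Prod

end CfsgLib.Schur
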