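import Mathlib
import Cfsg.Prelude.Def_KGroupFacts
import Cfsg.Agent.Lib.Schur4

/-!
Uniqueness of Schur covering groups.
-/

namespace CfsgLib.Schur

open Subgroup
open scoped commutatorElement

set_option linter.style.haveILetI false

universe u v w x

theorem ker_inf_le_of_cover {Q : Type u} [Group Q] [Finite Q] {A : Type v} [CommGroup A] (hA : Cfsg.HasSchurMultiplier Q A)
    {Γ : Type w} [Group Γ] {σ : Γ →* Q} (hσ : Cfsg.IsStemExtension σ) (hk : Nonempty (σ.ker ≃* A))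
    {ψ : FreeGroup Q →* Γ} (hψ : σ.comp ψ = taut Q) : ∀ x ∈ ψ.ker ⊓ commutator (FreeGroup Q), x ∈ N (taut Q) := by
  set φ := taut Q with hφdef
  have hφ : Function.Surjective φ := taut_surjective Q
  haveI := finite_M hφ
  obtain ⟨eA⟩ := equiv_of_hasSchurMultiplier hφ hA
  obtain ⟨ek⟩ := hk
  have hmap := map_ker_inf_of_stem hφ hσ hψ
  let q : FreeGroup Q ⧸ N φ →* Γ := QuotientGroup.lift (N φ) ψ (rel_le_ker φ σ hσ.2.1 ψ hψ)
  have hq : (M φ).map q = σ.ker := by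
    rw [M, Subgroup.map_map, ← hmap]; rfl
  let r : M φ →* σ.ker := (q.comp (M φ).subtype).codRestrict _ (fun x => by rw [← hq]; exact mem_map_of_mem q x.2)
  have hr : Function.Surjective r := by
    rintro ⟨y, hy⟩
    rw [← hq] at hy
    obtain ⟨x, hx, rfl⟩ := hy
    exact ⟨⟨x, hx⟩, rfl⟩
  have hrb : Function.Bijective r := by
    rw [Nat.bijective_iff_surjective_and_card]
    exact ⟨hr, (Nat.card_congr eA.toEquiv).symm.trans (Nat.card_congr ek.toEquiv).symm⟩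
  rintro x ⟨hx1, hx2⟩
  have hx3 : x ∈ φ.ker := by
    rw [MonoidHom.mem_ker, ← hψ, MonoidHom.comp_apply, MonoidHom.mem_ker.1 hx1, map_one]
  have h1 : r ⟨QuotientGroup.mk' (N φ) x, mem_map_of_mem _ ⟨hx3, hx2⟩⟩ = r 1 := by
    rw [map_one]; exact Subtype.ext hx1
  have h2 := hrb.1 h1
  exact (QuotientGroup.eq_one_iff x).1 (congrArg Subtype.val h2)

/-- `of f ∈ of(R)` iff `φ f ∈ Q'` -/
theorem of_mem_iff {F : Type u} {Q : Type v} [Group F] [Group Q] {φ : F →* Q} (hφ : Function.Surjective φ) (f : F) :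
    Abelianization.of f ∈ φ.ker.map (Abelianization.of (G := F)) ↔ φ f ∈ commutator Q := by
  have hc : (commutator F).map φ = commutator Q := by
    rw [_root_.commutator_def, map_commutator, ← MonoidHom.range_eq_map, MonoidHom.range_eq_top.2 hφ, ← _root_.commutator_def]
  constructor
  · rintro ⟨r, hr, hrf⟩
    have h1 : r⁻¹ * f ∈ commutator F := by
      rw [← Abelianization.ker_of, MonoidHom.mem_ker, map_mul, map_inv, hrf, inv_mul_cancel]
    have h2 : φ (r⁻¹ * f) ∈ commutator Q := by rw [← hc]; exact mem_map_of_mem φ h1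
    rwa [map_mul, map_inv, MonoidHom.mem_ker.1 hr, inv_one, one_mul] at h2
  · intro h
    rw [← hc] at h
    obtain ⟨c, hc1, hc2⟩ := h
    refine ⟨f * c⁻¹, ?_, ?_⟩
    · show φ (f * c⁻¹) = 1
      rw [map_mul, map_inv, hc2, mul_inv_cancel]
    · have : Abelianization.of c = 1 := by rw [← MonoidHom.mem_ker, Abelianization.ker_of]; exact hc1
      rw [map_mul, map_inv, this, inv_one, mul_one]

/-- a covering dominates every other stem extension when orders are coprime -/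
theorem exists_hom_of_coprime {Q : Type u} [Group Q] [Finite Q] {A : Type v} [CommGroup A] (hA : Cfsg.HasSchurMultiplier Q A)
    {Γ₁ : Type w} [Group Γ₁] {σ₁ : Γ₁ →* Q} (hσ₁ : Cfsg.IsStemExtension σ₁) (hk₁ : Nonempty (σ₁.ker ≃* A))
    {Γ₂ : Type x} [Group Γ₂] [Finite Γ₂] {σ₂ : Γ₂ →* Q} (hσ₂ : Cfsg.IsStemExtension σ₂)
    (hcop : (Nat.card (Abelianization Q)).Coprime (Nat.card σ₂.ker)) : ∃ e : Γ₁ →* Γ₂, σ₂.comp e = σ₁ := by
  set φ := taut Q with hφdef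
  have hφ : Function.Surjective φ := taut_surjective Q
  obtain ⟨ψ₁, hψ₁⟩ := exists_lift φ σ₁ hσ₁.1
  obtain ⟨ψ₂, hψ₂⟩ := exists_lift φ σ₂ hσ₂.1
  have hψ₁s := surjective_of_stem hφ hσ₁ hψ₁
  have hN := ker_inf_le_of_cover hA hσ₁ hk₁ hψ₁
  have hNψ₂ : N φ ≤ ψ₂.ker := rel_le_ker φ σ₂ hσ₂.2.1 ψ₂ hψ₂
  letI : CommGroup σ₂.ker := { (inferInstance : Group σ₂.ker) with
    mul_comm := fun a b => Subtype.ext (mem_center_iff.1 (hσ₂.2.1 b.2) a) }
  have hker : ψ₁.ker ≤ φ.ker := by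
    intro x hx
    rw [MonoidHom.mem_ker, ← hψ₁, MonoidHom.comp_apply, MonoidHom.mem_ker.1 hx, map_one]
  let S := ψ₁.ker
  let X := S.map (Abelianization.of (G := FreeGroup Q))
  have hX : φ.ker.map (Abelianization.of (G := FreeGroup Q)) ≤ X := by
    rintro _ ⟨r, hr, rfl⟩
    have h1 : ψ₁ r ∈ σ₁.ker := by rw [MonoidHom.mem_ker, ← MonoidHom.comp_apply, hψ₁]; exact hr
    rw [← map_ker_inf_of_stem hφ hσ₁ hψ₁] at h1
    obtain ⟨c, hc, hcr⟩ := h1
    refine ⟨r * c⁻¹, ?_, ?_⟩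
    · show ψ₁ (r * c⁻¹) = 1
      rw [map_mul, map_inv, hcr, mul_inv_cancel]
    · have : Abelianization.of c = 1 := by rw [← MonoidHom.mem_ker, Abelianization.ker_of]; exact hc.2
      rw [map_mul, map_inv, this, inv_one, mul_one]
  let f1 : S →* X := (Abelianization.of.comp S.subtype).codRestrict _ (fun x => mem_map_of_mem _ x.2)
  have hf1 : Function.Surjective f1 := by
    rintro ⟨_, x, hx, rfl⟩
    exact ⟨⟨x, hx⟩, rfl⟩
  let g1 : S →* σ₂.ker := (ψ₂.comp S.subtype).codRestrict _ (fun x => by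
    rw [MonoidHom.mem_ker, MonoidHom.comp_apply, ← MonoidHom.comp_apply σ₂ ψ₂, hψ₂]
    exact hker x.2)
  obtain ⟨l, hl⟩ := exists_factor f1 hf1 g1 (by
    rintro ⟨x, hx⟩ h1
    have h2 : Abelianization.of x = 1 := congrArg Subtype.val h1
    rw [← MonoidHom.mem_ker, Abelianization.ker_of] at h2
    exact Subtype.ext (hNψ₂ (hN x ⟨hx, h2⟩)))
  set q := Nat.card (Abelianization Q) with hq
  have hyq : ∀ y : Abelianization (FreeGroup Q), y ^ q ∈ X := by
    intro y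
    obtain ⟨f, rfl⟩ : ∃ f, Abelianization.of f = y := QuotientGroup.mk_surjective y
    rw [← map_pow]
    apply hX
    rw [of_mem_iff hφ, ← Abelianization.ker_of, MonoidHom.mem_ker, map_pow, map_pow]
    exact pow_card_eq_one'
  obtain ⟨s, t, hst⟩ : ∃ s t : ℤ, s * q + t * (Nat.card σ₂.ker : ℤ) = 1 := by
    have := Nat.isCoprime_iff_coprime.2 hcop
    exact this
  let lam : Abelianization (FreeGroup Q) →* σ₂.ker :=
    { toFun := fun y => l ⟨y ^ q, hyq y⟩ ^ s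
      map_one' := by
        have : (⟨1 ^ q, hyq 1⟩ : X) = 1 := Subtype.ext (one_pow q)
        rw [this, map_one, one_zpow]
      map_mul' := by
        intro y z
        have : (⟨(y * z) ^ q, hyq (y * z)⟩ : X) = ⟨y ^ q, hyq y⟩ * ⟨z ^ q, hyq z⟩ := Subtype.ext (mul_pow y z q)
        rw [this, map_mul, mul_zpow] }
  have hlam : ∀ y (hy : y ∈ X), lam y = l ⟨y, hy⟩ := by
    intro y hy
    show l ⟨y ^ q, hyq y⟩ ^ s = _
    have h1 : (⟨y ^ q, hyq y⟩ : X) = ⟨y, hy⟩ ^ q := Subtype.ext rfl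
    rw [h1, map_pow, ← zpow_natCast, ← zpow_mul]
    have h2 : (q : ℤ) * s = 1 - t * (Nat.card σ₂.ker : ℤ) := by linarith
    rw [h2, zpow_sub, zpow_one, mul_comm t, zpow_mul, zpow_natCast, pow_card_eq_one', one_zpow, inv_one, mul_one]
  let ψ' : FreeGroup Q →* Γ₂ :=
    { toFun := fun f => ψ₂ f * ((lam (Abelianization.of f) : σ₂.ker) : Γ₂)⁻¹
      map_one' := by simp
      map_mul' := by
        intro f g
        have hz := mem_center_iff.1 (hσ₂.2.1 (lam (Abelianization.of f))⁻¹.2)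
        rw [map_mul, map_mul, map_mul, Subgroup.coe_mul, mul_inv_rev]
        have h1 := hz (ψ₂ g)
        have h2 := hz ((lam (Abelianization.of g) : σ₂.ker) : Γ₂)⁻¹
        rw [Subgroup.coe_inv] at h1 h2
        rw [h2, mul_assoc, ← mul_assoc (ψ₂ g), h1]
        group }
  have hψ' : ∀ f, ψ' f = ψ₂ f * ((lam (Abelianization.of f) : σ₂.ker) : Γ₂)⁻¹ := fun f => rfl
  obtain ⟨e, he⟩ := exists_factor ψ₁ hψ₁s ψ' (by
    intro x hx
    have h1 : lam (Abelianization.of x) = g1 ⟨x, hx⟩ := by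
      rw [hlam _ (mem_map_of_mem _ hx), ← hl]; rfl
    rw [MonoidHom.mem_ker, hψ', h1]
    exact mul_inv_cancel (ψ₂ x))
  refine ⟨e, ?_⟩
  ext y
  obtain ⟨f, rfl⟩ := hψ₁s y
  rw [MonoidHom.comp_apply, he, hψ', map_mul, map_inv, MonoidHom.mem_ker.1 (lam (Abelianization.of f)).2, inv_one, mul_one,
    ← MonoidHom.comp_apply, hψ₂, ← hψ₁, MonoidHom.comp_apply]

/-- twisting a complement -/
theorem Compl.twist {F : Type u} [Group F] {Q : Type v} [Group Q] {φ : F →* Q} {S : Subgroup F} (h : Compl φ S)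
    (l : haveI := h.normal; φ.ker →* h.cov.ker) (hl : ∀ x : φ.ker, (x : F) ∈ commutator F → l x = 1) :
    haveI := h.normal
    ∃ S₂ : Subgroup F, Compl φ S₂ ∧ ∀ x : φ.ker, (x : F) ∈ S₂ ↔ QuotientGroup.mk' S (x : F) = l x := by
  haveI := h.normal
  have hmem : ∀ x : φ.ker, QuotientGroup.mk' S (x : F) ∈ h.cov.ker := fun x => x.2
  have hcc : h.cov.ker ≤ center (F ⧸ S) := by
    rw [h.cov_ker]
    rintro _ ⟨r, hr, rfl⟩
    rw [mem_center_iff]
    intro y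
    obtain ⟨f, rfl⟩ := QuotientGroup.mk'_surjective S y
    have h1 : ⁅r, f⁆ ∈ S := h.N_le (commutator_mem_commutator hr.1 (mem_top f))
    have h2 : ⁅QuotientGroup.mk' S r, QuotientGroup.mk' S f⁆ = 1 := by
      rw [← map_commutatorElement, ← MonoidHom.mem_ker, QuotientGroup.ker_mk']; exact h1
    exact (commutatorElement_eq_one_iff_mul_comm.1 h2).symm
  let S₂ : Subgroup F :=
    { carrier := {x | ∃ hx : x ∈ φ.ker, QuotientGroup.mk' S x = l ⟨x, hx⟩}
      mul_mem' := by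
        rintro a b ⟨ha, ha'⟩ ⟨hb, hb'⟩
        refine ⟨Subgroup.mul_mem _ ha hb, ?_⟩
        have : (⟨a * b, Subgroup.mul_mem _ ha hb⟩ : φ.ker) = ⟨a, ha⟩ * ⟨b, hb⟩ := rfl
        rw [this, map_mul, map_mul, ha', hb']; rfl
      one_mem' := ⟨Subgroup.one_mem _, by
        have : (⟨1, Subgroup.one_mem _⟩ : φ.ker) = 1 := rfl
        rw [this, map_one, map_one]; rfl⟩
      inv_mem' := by
        rintro a ⟨ha, ha'⟩
        refine ⟨Subgroup.inv_mem _ ha, ?_⟩
        have : (⟨a⁻¹, Subgroup.inv_mem _ ha⟩ : φ.ker) = ⟨a, ha⟩⁻¹ := rfl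
        rw [this, map_inv, map_inv, ha']; rfl }
  have hN2 : N φ ≤ S₂ := by
    intro x hx
    refine ⟨N_le_ker φ hx, ?_⟩
    rw [hl _ (N_le_commutator φ hx)]
    exact (QuotientGroup.eq_one_iff x).2 (h.N_le hx)
  have hle : S₂ ≤ φ.ker := fun x hx => hx.1
  refine ⟨S₂, ⟨?_, hN2, hle, ?_, ?_⟩, ?_⟩
  · refine ⟨fun x hx g => ?_⟩
    have h1 : ⁅g, x⁆ ∈ N φ := by
      rw [← commutatorElement_inv]
      exact inv_mem (commutator_mem_commutator (hle hx) (mem_top g))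
    have h2 : g * x * g⁻¹ = ⁅g, x⁆ * x := by rw [commutatorElement_def]; group
    rw [h2]
    exact S₂.mul_mem (hN2 h1) hx
  · apply le_antisymm
    · rintro x ⟨⟨hx1, hx2⟩, hx3⟩
      rw [hl ⟨x, hx1⟩ hx3] at hx2
      rw [← h.inf_eq]
      exact ⟨(QuotientGroup.eq_one_iff x).1 hx2, hx3⟩
    · exact le_inf hN2 (N_le_commutator φ)
  · intro r hr
    have h1 : (l ⟨r, hr⟩ : F ⧸ S)⁻¹ * QuotientGroup.mk' S r ∈ h.cov.ker :=
      Subgroup.mul_mem _ (Subgroup.inv_mem _ (l ⟨r, hr⟩).2) (hmem ⟨r, hr⟩)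
    obtain ⟨c, hc, hcr⟩ := h.cov_ker.le h1
    have hc1 : c ∈ φ.ker := hc.1
    have hc2 : c ∈ commutator F := hc.2
    have hrc : r * c⁻¹ ∈ φ.ker := Subgroup.mul_mem _ hr (Subgroup.inv_mem _ hc1)
    refine ⟨r * c⁻¹, ⟨hrc, ?_⟩, c, hc, by group⟩
    have h3 : (⟨r * c⁻¹, hrc⟩ : φ.ker) = ⟨r, hr⟩ * ⟨c, hc1⟩⁻¹ := rfl
    have h4 : l ⟨r * c⁻¹, hrc⟩ = l ⟨r, hr⟩ := by
      rw [h3, map_mul, map_inv, hl ⟨c, hc1⟩ hc2, inv_one, mul_one]
    rw [h4, map_mul, map_inv, hcr, mul_inv_rev, inv_inv, mul_inv_cancel_left]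
  · intro x
    constructor
    · rintro ⟨h1, h2⟩; exact h2
    · intro h2; exact ⟨x.2, h2⟩

end CfsgLib.Schur
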