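import Mathlib
import Cfsg.Prelude.Def_KGroupFacts
import Cfsg.Agent.Lib.Schur5

/-!
Transfer for Schur multipliers.
-/

namespace CfsgLib.Schur

open Subgroup
open scoped commutatorElement

set_option linter.style.haveILetI false

universe u v w x

section Cc

variable {F : Type u} [Group F] (E : Subgroup F)

/-- the transfer cocycle -/
noncomputable def cc (f : F) (q : F ⧸ E) : E := ⟨((f • q).out)⁻¹ * (f * q.out), by
  rw [← QuotientGroup.eq, QuotientGroup.out_eq']
  conv_lhs => rw [← QuotientGroup.out_eq' q]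
  rfl⟩

theorem cc_coe (f : F) (q : F ⧸ E) : ((cc E f q : E) : F) = ((f • q).out)⁻¹ * (f * q.out) := rfl

theorem cc_mul (f g : F) (q : F ⧸ E) : cc E (f * g) q = cc E f (g • q) * cc E g q := by
  apply Subtype.ext
  rw [Subgroup.coe_mul, cc_coe, cc_coe, cc_coe, mul_smul]
  group

theorem cc_one (q : F ⧸ E) : cc E 1 q = 1 := by
  apply Subtype.ext
  rw [cc_coe, one_smul]
  simp

theorem smul_eq_of_mem {R : Subgroup F} [R.Normal] (hR : R ≤ E) {x : F} (hx : x ∈ R) (q : F ⧸ E) : x • q = q := by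
  obtain ⟨a, rfl⟩ := QuotientGroup.mk_surjective q
  show (QuotientGroup.mk (x * a) : F ⧸ E) = QuotientGroup.mk a
  symm
  rw [QuotientGroup.eq]
  apply hR
  have := (inferInstance : R.Normal).conj_mem x hx a⁻¹
  rwa [inv_inv, mul_assoc] at this

theorem cc_coe_of_mem {R : Subgroup F} [R.Normal] (hR : R ≤ E) {x : F} (hx : x ∈ R) (q : F ⧸ E) :
    ((cc E x q : E) : F) = (q.out)⁻¹ * (x * q.out) := by
  rw [cc_coe, smul_eq_of_mem E hR hx]

theorem cc_mem {R : Subgroup F} [R.Normal] (hR : R ≤ E) {x : F} (hx : x ∈ R) (q : F ⧸ E) : ((cc E x q : E) : F) ∈ R := by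
  rw [cc_coe_of_mem E hR hx, ← mul_assoc]
  have := (inferInstance : R.Normal).conj_mem x hx (q.out)⁻¹
  rwa [inv_inv] at this

/-- the transfer into the abelianization -/
noncomputable def W [E.FiniteIndex] : F →* Abelianization E :=
  haveI : Fintype (F ⧸ E) := Fintype.ofFinite _
  { toFun := fun f => ∏ q : F ⧸ E, Abelianization.of (cc E f q)
    map_one' := by
      rw [Finset.prod_congr rfl (fun q _ => by rw [cc_one, map_one])]
      exact Finset.prod_const_one
    map_mul' := by
      intro f g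
      rw [Finset.prod_congr rfl (fun q _ => by rw [cc_mul, map_mul]), Finset.prod_mul_distrib]
      congr 1
      exact Fintype.prod_equiv (MulAction.toPerm g) _ _ (fun q => rfl) }

theorem W_apply [E.FiniteIndex] (i : Fintype (F ⧸ E)) (f : F) : W E f = ∏ q : F ⧸ E, Abelianization.of (cc E f q) := by
  have : i = Fintype.ofFinite _ := Subsingleton.elim _ _
  subst this
  rfl

end Cc

section Trans

variable {F : Type u} {G : Type v} [Group F] [Group G] (φ : F →* G) (hφ : Function.Surjective φ) (U : Subgroup G)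

/-- restriction of the presentation to the preimage of `U` -/
abbrev res : U.comap φ →* U := φ.subgroupComap U

theorem res_surjective (hφ : Function.Surjective φ) : Function.Surjective (res φ U) := by
  rintro ⟨u, hu⟩
  obtain ⟨f, rfl⟩ := hφ u
  exact ⟨⟨f, hu⟩, rfl⟩

theorem mem_res_ker (x : U.comap φ) : x ∈ (res φ U).ker ↔ (x : F) ∈ φ.ker := by
  constructor
  · intro h; exact congrArg Subtype.val h
  · intro h; exact Subtype.ext h

theorem ker_le_comap : φ.ker ≤ U.comap φ := by
  intro x hx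
  show φ x ∈ U
  rw [MonoidHom.mem_ker.1 hx]; exact U.one_mem

@[reducible] def kerComm {F : Type u} {Q : Type v} [Group F] [Group Q] (ψ : F →* Q) : CommGroup (pr ψ).ker :=
  { (inferInstance : Group (pr ψ).ker) with
    mul_comm := fun a b => Subtype.ext (mem_center_iff.1 (pr_ker_le_center ψ b.2) a) }

/-- the elements `mk (cc x q)` -/
noncomputable def tq (x : φ.ker) (q : F ⧸ U.comap φ) : (pr (res φ U)).ker :=
  ⟨QuotientGroup.mk' _ (cc (U.comap φ) x q), by
    rw [pr_ker]
    exact mem_map_of_mem _ ((mem_res_ker φ U _).2 (cc_mem _ (ker_le_comap φ U) x.2 q))⟩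

theorem tq_mul (x y : φ.ker) (q : F ⧸ U.comap φ) : tq φ U (x * y) q = tq φ U x q * tq φ U y q := by
  apply Subtype.ext
  show QuotientGroup.mk' _ (cc (U.comap φ) ((x : F) * y) q) = QuotientGroup.mk' _ (cc (U.comap φ) x q) * QuotientGroup.mk' _ (cc (U.comap φ) y q)
  rw [cc_mul, smul_eq_of_mem _ (ker_le_comap φ U) y.2, map_mul]

theorem tq_conj (f : F) (x : φ.ker) (y : φ.ker) (hy : (y : F) = f⁻¹ * (x * f)) (q : F ⧸ U.comap φ) : tq φ U y q = tq φ U x (f • q) := by
  apply Subtype.ext
  show QuotientGroup.mk' _ (cc (U.comap φ) (y : F) q) = QuotientGroup.mk' _ (cc (U.comap φ) x (f • q))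
  have h1 : (x : F) • (f • q) = f • q := smul_eq_of_mem _ (ker_le_comap φ U) x.2 _
  have h2 : cc (U.comap φ) f⁻¹ (f • q) * cc (U.comap φ) f q = 1 := by
    rw [← cc_mul, inv_mul_cancel, cc_one]
  rw [hy, cc_mul, cc_mul, mul_smul, h1, eq_inv_of_mul_eq_one_left h2]
  set c := cc (U.comap φ) f q
  set z := cc (U.comap φ) x (f • q)
  have hz : QuotientGroup.mk' (N (res φ U)) z ∈ center _ := by
    apply pr_ker_le_center (res φ U)
    rw [pr_ker]
    exact mem_map_of_mem _ ((mem_res_ker φ U _).2 (cc_mem _ (ker_le_comap φ U) x.2 _))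
  rw [map_mul, map_mul, map_inv, ← mem_center_iff.1 hz, inv_mul_cancel_left]

/-- transfer on the kernel -/
noncomputable def t0 [(U.comap φ).FiniteIndex] : φ.ker →* (pr (res φ U)).ker :=
  letI := kerComm (res φ U)
  haveI : Fintype (F ⧸ U.comap φ) := Fintype.ofFinite _
  { toFun := fun x => ∏ q : F ⧸ U.comap φ, tq φ U x q
    map_one' := by
      have h1 : ∀ q, tq φ U 1 q = 1 := fun q => by
        have := tq_mul φ U 1 1 q
        rw [mul_one] at this
        exact (mul_eq_left.1 this.symm)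
      rw [Finset.prod_congr rfl (fun q _ => h1 q)]
      exact Finset.prod_const_one
    map_mul' := by
      intro x y
      rw [Finset.prod_congr rfl (fun q _ => tq_mul φ U x y q)]
      exact Finset.prod_mul_distrib }

theorem t0_apply [(U.comap φ).FiniteIndex] (i : Fintype (F ⧸ U.comap φ)) (x : φ.ker) :
    letI := kerComm (res φ U)
    t0 φ U x = ∏ q : F ⧸ U.comap φ, tq φ U x q := by
  have : i = Fintype.ofFinite _ := Subsingleton.elim _ _
  subst this
  rfl

theorem t0_conj [(U.comap φ).FiniteIndex] (f : F) (x : φ.ker) (y : φ.ker) (hy : (y : F) = f⁻¹ * (x * f)) : t0 φ U y = t0 φ U x := by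
  letI := kerComm (res φ U)
  haveI : Fintype (F ⧸ U.comap φ) := Fintype.ofFinite _
  rw [t0_apply φ U inferInstance, t0_apply φ U inferInstance]
  exact Fintype.prod_equiv (MulAction.toPerm f) _ _ (fun q => tq_conj φ U f x y hy q)

theorem t0_N [(U.comap φ).FiniteIndex] (x : φ.ker) (hx : (x : F) ∈ N φ) : t0 φ U x = 1 := by
  have h1 : N φ ≤ (t0 φ U).ker.map φ.ker.subtype := by
    rw [N, commutator_le]
    intro r hr f _
    have hm : ⁅r, f⁆ ∈ φ.ker := N_le_ker φ (commutator_mem_commutator hr (mem_top f))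
    refine ⟨⟨⁅r, f⁆, hm⟩, ?_, rfl⟩
    have hc : f * r⁻¹ * f⁻¹ ∈ φ.ker := (inferInstance : φ.ker.Normal).conj_mem _ (inv_mem hr) f
    have h2 : (⟨⁅r, f⁆, hm⟩ : φ.ker) = ⟨r, hr⟩ * ⟨f * r⁻¹ * f⁻¹, hc⟩ := Subtype.ext (by
      show ⁅r, f⁆ = r * (f * r⁻¹ * f⁻¹)
      rw [commutatorElement_def]; group)
    show t0 φ U ⟨⁅r, f⁆, hm⟩ = 1
    rw [h2, map_mul, t0_conj φ U f⁻¹ ⟨r, hr⟩⁻¹ ⟨f * r⁻¹ * f⁻¹, hc⟩ (by
      show f * r⁻¹ * f⁻¹ = f⁻¹⁻¹ * (r⁻¹ * f⁻¹)
      group), ← map_mul, mul_inv_cancel, map_one]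
  obtain ⟨y, hy, hyx⟩ := h1 hx
  have : y = x := Subtype.ext hyx
  rw [← this]; exact hy

theorem t0_commutator [(U.comap φ).FiniteIndex] (x : φ.ker) (hx : (x : F) ∈ commutator F) :
    ((t0 φ U x : (pr (res φ U)).ker) : U.comap φ ⧸ N (res φ U)) ∈ commutator (U.comap φ ⧸ N (res φ U)) := by
  letI := kerComm (res φ U)
  haveI : Fintype (F ⧸ U.comap φ) := Fintype.ofFinite _
  set E := U.comap φ with hE
  have hW : W E (x : F) = 1 := by
    have h1 : commutator F ≤ (W E).ker := Abelianization.commutator_subset_ker _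
    exact h1 hx
  rw [W_apply E inferInstance] at hW
  rw [← Abelianization.ker_of, MonoidHom.mem_ker, t0_apply φ U inferInstance]
  let Z := (pr (res φ U)).ker
  let h : Z →* Abelianization (E ⧸ N (res φ U)) := Abelianization.of.comp Z.subtype
  show h (∏ q : F ⧸ E, tq φ U x q) = 1
  rw [map_prod]
  have h2 : ∀ q : F ⧸ E, h (tq φ U x q) = Abelianization.map (QuotientGroup.mk' (N (res φ U))) (Abelianization.of (cc E x q)) := by
    intro q
    rw [Abelianization.map_of]; rfl
  rw [Finset.prod_congr rfl (fun q _ => h2 q), ← map_prod, hW, map_one]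

/-- the natural map `M(U) → M(G)` -/
noncomputable def jj : (U.comap φ) ⧸ N (res φ U) →* F ⧸ N φ :=
  QuotientGroup.map (N (res φ U)) (N φ) (U.comap φ).subtype (by
    rw [← map_le_iff_le_comap, N, map_commutator]
    apply commutator_mono _ le_top
    rintro _ ⟨x, hx, rfl⟩
    exact (mem_res_ker φ U x).1 hx)

theorem jj_mk (x : U.comap φ) : jj φ U (QuotientGroup.mk' _ x) = QuotientGroup.mk' _ (x : F) := rfl

theorem jj_t0 [(U.comap φ).FiniteIndex] (x : φ.ker) :
    jj φ U (t0 φ U x : (pr (res φ U)).ker) = QuotientGroup.mk' (N φ) (x : F) ^ (U.comap φ).index := by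
  letI := kerComm (res φ U)
  haveI : Fintype (F ⧸ U.comap φ) := Fintype.ofFinite _
  rw [t0_apply φ U inferInstance]
  letI := kerComm φ
  let Z := (pr (res φ U)).ker
  have hmem : ∀ z : Z, jj φ U z ∈ (pr φ).ker := by
    rintro ⟨z, hz⟩
    have hz' : z ∈ (pr (res φ U)).ker := hz
    rw [pr_ker] at hz'
    obtain ⟨y, hy, rfl⟩ := hz'
    show jj φ U (QuotientGroup.mk' _ y) ∈ (pr φ).ker
    rw [jj_mk, pr_ker]
    exact mem_map_of_mem _ ((mem_res_ker φ U y).1 hy)
  let h : Z →* (pr φ).ker := ((jj φ U).comp Z.subtype).codRestrict _ hmem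
  have hx : QuotientGroup.mk' (N φ) (x : F) ∈ (pr φ).ker := by rw [pr_ker]; exact mem_map_of_mem _ x.2
  have h2 : ∀ q : F ⧸ U.comap φ, h (tq φ U x q) = ⟨QuotientGroup.mk' (N φ) (x : F), hx⟩ := by
    intro q
    apply Subtype.ext
    show jj φ U (QuotientGroup.mk' _ (cc (U.comap φ) x q)) = _
    rw [jj_mk, cc_coe_of_mem _ (ker_le_comap φ U) x.2, map_mul, map_mul, map_inv, ← mem_center_iff.1 (pr_ker_le_center φ hx),
      inv_mul_cancel_left]
  have h3 : h (∏ q : F ⧸ U.comap φ, tq φ U x q) = ⟨QuotientGroup.mk' (N φ) (x : F), hx⟩ ^ (U.comap φ).index := by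
    rw [map_prod, Finset.prod_congr rfl (fun q _ => h2 q), Finset.prod_const, Finset.card_univ, ← Nat.card_eq_fintype_card]
    rfl
  exact congrArg Subtype.val h3

/-- transfer and natural map between the Hopf groups -/
theorem exists_transfer (hφ : Function.Surjective φ) [(U.comap φ).FiniteIndex] :
    ∃ (t : M φ →* M (res φ U)) (j : M (res φ U) →* M φ), ∀ m : M φ, j (t m) = m ^ U.index := by
  have hidx : (U.comap φ).index = U.index := index_comap_of_surjective U hφ
  -- j
  have hj : ∀ m : M (res φ U), jj φ U m ∈ M φ := by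
    rintro ⟨_, x, ⟨hx1, hx2⟩, rfl⟩
    show jj φ U (QuotientGroup.mk' _ x) ∈ M φ
    rw [jj_mk]
    refine mem_map_of_mem _ ⟨(mem_res_ker φ U x).1 hx1, ?_⟩
    have h1 : (commutator (U.comap φ)).map (U.comap φ).subtype ≤ commutator F := by
      rw [_root_.commutator_def, map_commutator, _root_.commutator_def]
      exact commutator_mono le_top le_top
    exact h1 (mem_map_of_mem _ hx2)
  let j : M (res φ U) →* M φ := ((jj φ U).comp (M (res φ U)).subtype).codRestrict _ hj
  -- t
  let P : Subgroup F := φ.ker ⊓ commutator F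
  let f1 : P →* M φ := ((QuotientGroup.mk' (N φ)).comp P.subtype).codRestrict _ (fun x => mem_map_of_mem _ x.2)
  have hf1 : Function.Surjective f1 := by
    rintro ⟨_, x, hx, rfl⟩
    exact ⟨⟨x, hx⟩, rfl⟩
  have ht0 : ∀ x : P, ((t0 φ U ⟨x, x.2.1⟩ : (pr (res φ U)).ker) : U.comap φ ⧸ N (res φ U)) ∈ M (res φ U) := by
    intro x
    rw [M_eq (res_surjective φ U hφ)]
    exact ⟨(t0 φ U ⟨x, x.2.1⟩).2, t0_commutator φ U _ x.2.2⟩
  let i : P →* φ.ker := P.subtype.codRestrict _ (fun x => x.2.1)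
  let g1 : P →* M (res φ U) := (((pr (res φ U)).ker.subtype.comp (t0 φ U)).comp i).codRestrict _ ht0
  obtain ⟨t, ht⟩ := exists_factor f1 hf1 g1 (by
    intro x hx
    have h1 : (x : F) ∈ N φ := (QuotientGroup.eq_one_iff (x : F)).1 (congrArg Subtype.val hx)
    apply Subtype.ext
    show ((t0 φ U (i x) : (pr (res φ U)).ker) : U.comap φ ⧸ N (res φ U)) = 1
    rw [t0_N φ U (i x) h1]; rfl)
  refine ⟨t, j, fun m => ?_⟩
  obtain ⟨x, rfl⟩ := hf1 m
  rw [ht]
  apply Subtype.ext
  show jj φ U (t0 φ U (i x) : (pr (res φ U)).ker) = _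
  rw [jj_t0, hidx]; rfl

/-- general form of `exists_hom_central` -/
theorem exists_hom_of_lift {F : Type u} {Q : Type v} [Group F] [Group Q] {φ : F →* Q} (hφ : Function.Surjective φ)
    {X : Type w} [Group X] (ξ : X →* Q) (hc : ξ.ker ≤ center X) {ψ : F →* X} (hψ : ξ.comp ψ = φ) :
    ∃ π : M φ →* (ξ.ker ⊓ commutator X : Subgroup X), Function.Surjective π := by
  let q : F ⧸ N φ →* X := QuotientGroup.lift (N φ) ψ (rel_le_ker φ ξ hc ψ hψ)
  have h1 : (M φ).map q = ξ.ker ⊓ commutator X := by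
    rw [M, Subgroup.map_map, ← map_ker_inf hφ ξ hc hψ]; rfl
  refine ⟨(q.comp (M φ).subtype).codRestrict _ (fun x => ?_), ?_⟩
  · rw [← h1]; exact mem_map_of_mem q x.2
  · rintro ⟨y, hy⟩
    rw [← h1] at hy
    obtain ⟨x, hx, rfl⟩ := hy
    exact ⟨⟨x, hx⟩, rfl⟩

/-- the multiplier of a subgroup surjects onto the Hopf group of the preimage -/
theorem exists_surj_res [Finite G] {U : Subgroup G} (hφ : Function.Surjective φ) {B : Type w} [CommGroup B]
    (hB : Cfsg.HasSchurMultiplier U B) : ∃ π : B →* M (res φ U), Function.Surjective π := by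
  obtain ⟨e⟩ := equiv_of_hasSchurMultiplier (taut_surjective U) hB
  obtain ⟨π, hπ⟩ := exists_hom_central (taut_surjective U) (pr (res φ U)) (pr_surjective (res_surjective φ U hφ)) (pr_ker_le_center _)
  have h := M_eq (res_surjective φ U hφ)
  exact ⟨(MulEquiv.subgroupCongr h.symm).toMonoidHom.comp (π.comp e.toMonoidHom),
    (MulEquiv.subgroupCongr h.symm).surjective.comp (hπ.comp e.surjective)⟩

end Trans

section Free

/-- for free groups, the multiplier of a subgroup is the Hopf group of the preimage -/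
theorem equiv_res {α : Type u} [Finite α] {G : Type u} [Group G] [Finite G] {φ : FreeGroup α →* G} (hφ : Function.Surjective φ)
    (U : Subgroup G) {B : Type w} [CommGroup B] (hB : Cfsg.HasSchurMultiplier U B) : Nonempty (B ≃* M (res φ U)) := by
  set E := U.comap φ with hE
  haveI : E.FiniteIndex := by
    refine ⟨?_⟩
    rw [hE, index_comap_of_surjective U hφ]
    exact U.index_ne_zero_of_finite
  haveI : Group.FG E := Subgroup.fg_of_index_ne_zero E
  let e := IsFreeGroup.toFreeGroup E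
  haveI : Group.FG (FreeGroup (IsFreeGroup.Generators E)) := Group.fg_of_surjective (f := e.toMonoidHom) e.surjective
  haveI : Finite (IsFreeGroup.Generators E) := by
    haveI : Group.FG (Abelianization (FreeGroup (IsFreeGroup.Generators E))) :=
      Group.fg_of_surjective (f := Abelianization.of) QuotientGroup.mk_surjective
    haveI : Module.Finite ℤ (FreeAbelianGroup (IsFreeGroup.Generators E)) := by
      rw [Module.Finite.iff_addGroup_fg]
      exact GroupFG.iff_add_fg.1 this
    exact Module.Finite.finite_basis (FreeAbelianGroup.basis (IsFreeGroup.Generators E))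
  let φ' : FreeGroup (IsFreeGroup.Generators E) →* U := (res φ U).comp e.symm.toMonoidHom
  have hφ' : Function.Surjective φ' := (res_surjective φ U hφ).comp e.symm.surjective
  obtain ⟨e1⟩ := equiv_of_hasSchurMultiplier hφ' hB
  obtain ⟨π, hπ⟩ := exists_surj_res φ hφ hB
  have hlift : (pr φ').comp ((QuotientGroup.mk' (N φ')).comp e.toMonoidHom) = res φ U := by
    rw [← MonoidHom.comp_assoc, pr_comp]
    ext x
    show ((res φ U (e.symm (e x)) : U) : G) = _
    rw [e.symm_apply_apply]
  obtain ⟨ρ, hρ⟩ := exists_hom_of_lift (res_surjective φ U hφ) (pr φ') (pr_ker_le_center φ') hlift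
  haveI := finite_M hφ'
  haveI : Finite B := Finite.of_equiv _ e1.symm.toEquiv
  haveI : Finite (M (res φ U)) := Finite.of_surjective π hπ
  have h := M_eq hφ'
  exact equiv_of_surj π hπ (e1.symm.toMonoidHom.comp ((MulEquiv.subgroupCongr h.symm).toMonoidHom.comp ρ))
    (e1.symm.surjective.comp ((MulEquiv.subgroupCongr h.symm).surjective.comp hρ))

end Free

end CfsgLib.Schur
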