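import Cfsg.Agent.Lib.Semis

set_option autoImplicit false

namespace CfsgLib.Semis

open Polynomial Module Matrix

universe u

variable {F : Type u} [Field F]

theorem isSemisimpleModule_prod {R M N : Type*} [Ring R] [AddCommGroup M] [Module R M] [AddCommGroup N] [Module R N]
    [IsSemisimpleModule R M] [IsSemisimpleModule R N] : IsSemisimpleModule R (M × N) := by
  have h1 : IsSemisimpleModule R (LinearMap.range (LinearMap.inl R M N)) := IsSemisimpleModule.range _
  have h2 : IsSemisimpleModule R (LinearMap.range (LinearMap.inr R M N)) := IsSemisimpleModule.range _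
  have h3 := h1.sup h2
  rw [← LinearMap.isCompl_range_inl_inr.sup_eq_top.symm] at h3
  exact IsSemisimpleModule.congr Submodule.topEquiv.symm

theorem isSemisimpleModule_of_subsingleton {R M : Type*} [Ring R] [AddCommGroup M] [Module R M]
    [Subsingleton M] : IsSemisimpleModule R M where
  exists_isCompl := fun m => ⟨⊤, by
    rw [Subsingleton.elim m ⊥]; exact isCompl_bot_top⟩

/-- existence of a semisimple `F[X]`-module with given characteristic polynomial -/
theorem exists_module (n : ℕ) : ∀ f : F[X], f.Monic → f.natDegree = n →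
    ∃ (M : Type u) (_ : AddCommGroup M) (_ : Module F M) (_ : Module F[X] M) (_ : IsScalarTower F F[X] M)
      (_ : FiniteDimensional F M) (_ : IsSemisimpleModule F[X] M), (mulX F M).charpoly = f := by
  classical
  induction n using Nat.strong_induction_on with
  | _ n ih =>
    intro f hf hn
    rcases Nat.eq_zero_or_pos n with h0 | hpos
    · have hf1 : f = 1 := by
        rw [h0] at hn
        exact hf.natDegree_eq_zero.1 hn
      refine ⟨PUnit.{u + 1}, inferInstance, inferInstance, inferInstance, inferInstance, inferInstance,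
        isSemisimpleModule_of_subsingleton, ?_⟩
      rw [hf1]
      apply (LinearMap.charpoly_monic _).natDegree_eq_zero.1
      rw [LinearMap.charpoly_natDegree]
      exact finrank_zero_of_subsingleton
    · have hnu : ¬ IsUnit f := by
        intro hu
        have := natDegree_eq_zero_of_isUnit hu
        omega
      obtain ⟨p0, hp0, hdvd0⟩ := WfDvdMonoid.exists_irreducible_factor hnu hf.ne_zero
      let p := normalize p0
      have hp : Irreducible p := (associated_normalize p0).irreducible hp0
      have hpm : p.Monic := monic_normalize hp0.ne_zero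
      have hdvd : p ∣ f := (normalize_dvd_iff).2 hdvd0
      obtain ⟨g, hg⟩ := hdvd
      have hgm : g.Monic := hpm.of_mul_monic_left (by rw [← hg]; exact hf)
      have hdeg : n = p.natDegree + g.natDegree := by rw [← hn, hg, hpm.natDegree_mul hgm]
      have hp1 := hp.natDegree_pos
      obtain ⟨M, i1, i2, i3, i4, i5, i6, hM⟩ := ih g.natDegree (by omega) g hgm rfl
      have : FiniteDimensional F (F[X] ⧸ Ideal.span {p}) := finite_quot p hpm.ne_zero
      have hmax : (Ideal.span {p}).IsMaximal := PrincipalIdealRing.isMaximal_of_irreducible hp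
      have hsimple : IsSimpleModule F[X] (F[X] ⧸ Ideal.span {p}) :=
        isSimpleModule_iff_quot_maximal.2 ⟨_, hmax, ⟨LinearEquiv.refl _ _⟩⟩
      refine ⟨(F[X] ⧸ Ideal.span {p}) × M, inferInstance, inferInstance, inferInstance, inferInstance, inferInstance,
        isSemisimpleModule_prod, ?_⟩
      rw [charpoly_prod, charpoly_quot p hpm, hM, hg]

theorem aeval_comm {V V' : Type*} [AddCommGroup V] [Module F V] [AddCommGroup V'] [Module F V'] (φ : V →ₗ[F] V)
    (ψ : V' →ₗ[F] V') (g : V →ₗ[F] V') (h : ∀ v, g (φ v) = ψ (g v)) (p : F[X]) (v : V) : g (aeval φ p v) = aeval ψ p (g v) := by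
  induction p using Polynomial.induction_on' generalizing v with
  | add p q hp hq => rw [map_add, map_add, LinearMap.add_apply, map_add, hp, hq, LinearMap.add_apply]
  | monomial k a =>
    rw [aeval_monomial, aeval_monomial, Module.End.mul_apply, Module.End.mul_apply, Module.algebraMap_end_apply,
      Module.algebraMap_end_apply, map_smul]
    congr 1
    induction k generalizing v with
    | zero => simp
    | succ k ih => rw [pow_succ, pow_succ, Module.End.mul_apply, Module.End.mul_apply, ih, h]

/-- existence of a semisimple matrix with given characteristic polynomial -/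
theorem exists_matrix {n : ℕ} (f : F[X]) (hf : f.Monic) (hn : f.natDegree = n) :
    ∃ A : Matrix (Fin n) (Fin n) F, A.charpoly = f ∧ Module.End.IsSemisimple (Matrix.toLin' A) := by
  obtain ⟨M, i1, i2, i3, i4, i5, i6, hM⟩ := exists_module n f hf hn
  have hfr : finrank F M = n := by rw [← LinearMap.charpoly_natDegree (mulX F M), hM, hn]
  let b : Basis (Fin n) F M := finBasisOfFinrankEq F M hfr
  refine ⟨LinearMap.toMatrix b b (mulX F M), by rw [LinearMap.charpoly_toMatrix, hM], ?_⟩
  set A := LinearMap.toMatrix b b (mulX F M) with hA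
  let g : (Fin n → F) ≃ₗ[F] M := b.equivFun.symm
  have hg : ∀ v, g (Matrix.toLin' A v) = mulX F M (g v) := by
    intro v
    have h1 : Matrix.toLin b b A = mulX F M := by rw [hA, Matrix.toLin_toMatrix]
    rw [← h1]
    apply b.equivFun.injective
    simp only [g, LinearEquiv.apply_symm_apply]
    rw [Matrix.toLin'_apply, Module.Basis.equivFun_apply, Matrix.repr_toLin]
    congr 1
    rw [← Module.Basis.equivFun_apply, LinearEquiv.apply_symm_apply]
  let e : Module.AEval' (Matrix.toLin' A) ≃ₗ[F[X]] M :=
    { toFun := fun v => g ((Module.AEval'.of (Matrix.toLin' A)).symm v)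
      invFun := fun m => Module.AEval'.of (Matrix.toLin' A) (g.symm m)
      map_add' := fun a b => by rw [map_add, map_add]
      map_smul' := fun p v => by
        rw [RingHom.id_apply, Module.AEval.of_symm_smul]
        show g (aeval (Matrix.toLin' A) p _) = _
        rw [← LinearEquiv.coe_coe g, aeval_comm _ (mulX F M) g.toLinearMap hg, aeval_mulX]
      left_inv := fun v => by simp
      right_inv := fun m => by simp }
  exact IsSemisimpleModule.congr e

/-- a semisimple unit over a finite field has order prime to the characteristic -/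
theorem coprime_of_isSemisimple [Finite F] {p : ℕ} [Fact p.Prime] [CharP F p] {n : Type*} [Fintype n] [DecidableEq n]
    (g : (Matrix n n F)ˣ) (h : Module.End.IsSemisimple (Matrix.toLin' (g : Matrix n n F))) : (orderOf g).Coprime p := by
  have hp : p.Prime := Fact.out
  rcases isEmpty_or_nonempty n with hem | hne
  · have : g = 1 := Units.ext (Subsingleton.elim _ _)
    rw [this]; simp
  have hN : orderOf g ≠ 0 := (orderOf_pos g).ne'
  set N := orderOf g with hNdef
  obtain ⟨a, m, hpm, hNm⟩ := Nat.exists_eq_pow_mul_and_not_dvd hN p hp.ne_one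
  have h1 : ((g : Matrix n n F) ^ m - 1) ^ p ^ a = 0 := by
    have hch : CharP (Matrix n n F) p := inferInstance
    rw [sub_pow_char_pow_of_commute (p := p) (n := a) (x := (g : Matrix n n F) ^ m) (y := 1) (Commute.one_right _),
      ← pow_mul, one_pow, sub_eq_zero, mul_comm, ← hNm, ← Units.val_pow_eq_pow_val, hNdef, pow_orderOf_eq_one, Units.val_one]
  have h2 : minpoly F (Matrix.toLin' (g : Matrix n n F)) ∣ (X ^ m - 1) ^ p ^ a := by
    apply minpoly.dvd
    rw [map_pow, map_sub, map_pow, aeval_X, map_one]
    have : ((Matrix.toLin' (g : Matrix n n F)) ^ m - 1) ^ p ^ a = Matrix.toLin' (((g : Matrix n n F) ^ m - 1) ^ p ^ a) := by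
      rw [Matrix.toLin'_pow, map_sub, Matrix.toLin'_pow, Matrix.toLin'_one]; rfl
    rw [this, h1, map_zero]
  rw [h.minpoly_squarefree.dvd_pow_iff_dvd (pow_ne_zero a hp.ne_zero)] at h2
  have h3 : aeval (Matrix.toLin' (g : Matrix n n F)) (X ^ m - 1 : F[X]) = 0 := by
    obtain ⟨c, hc⟩ := h2
    rw [hc, map_mul, minpoly.aeval, zero_mul]
  rw [map_sub, map_pow, aeval_X, map_one, ← Matrix.toLin'_pow, sub_eq_zero] at h3
  have h4 : (g : Matrix n n F) ^ m = 1 := by
    apply Matrix.toLin'.injective
    rw [h3, Matrix.toLin'_one]; rfl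
  have h5 : g ^ m = 1 := by
    apply Units.ext
    rw [Units.val_pow_eq_pow_val, h4, Units.val_one]
  have h6 : N ∣ m := orderOf_dvd_of_pow_eq_one h5
  rw [Nat.coprime_comm, hp.coprime_iff_not_dvd]
  intro hd
  exact hpm (hd.trans h6)

end CfsgLib.Semis
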