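import Cfsg.Agent.Lib.SmZ4
set_option autoImplicit false
set_option linter.style.haveILetI false

/-! The simple group of order 168. -/

namespace CfsgLib.SmS
open Subgroup MulAction CfsgLib.NPC
open scoped Pointwise

instance fact7 : Fact (Nat.Prime 7) := ⟨by norm_num⟩

/-- number of elements of prime order when the Sylow subgroups have prime order -/
theorem card_order_prime {G : Type*} [Group G] [Finite G] {r : ℕ} [hr : Fact r.Prime] (hP : ∀ P : Sylow r G, Nat.card P = r) :
    Nat.card {g : G // orderOf g = r} = Nat.card (Sylow r G) * (r - 1) := by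
  classical
  have hord : ∀ (P : Sylow r G) (y : G), y ∈ (P : Subgroup G) → y ≠ 1 → orderOf y = r := by
    intro P y hy hy1
    rw [← Nat.card_zpowers, zpowers_eq_of_mem (hP P) hy hy1]; exact hP P
  have hz : ∀ g : G, orderOf g = r → ∃ P : Sylow r G, (P : Subgroup G) = zpowers g := by
    intro g hg
    obtain ⟨P⟩ : Nonempty (Sylow r G) := inferInstance
    refine ⟨Sylow.ofCard (zpowers g) ?_, rfl⟩
    rw [Nat.card_zpowers, hg, ← P.card_eq_multiplicity, hP]
  choose f hf using hz
  let e : {g : G // orderOf g = r} ≃ Σ P : Sylow r G, {x : ↥(P : Subgroup G) // x ≠ 1} :=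
    { toFun := fun g => ⟨f g.1 g.2, ⟨⟨g.1, by rw [hf]; exact mem_zpowers _⟩, fun h => by
        have : g.1 = 1 := congrArg (fun z : ↥((f g.1 g.2 : Sylow r G) : Subgroup G) => (z : G)) h
        have h2 := g.2
        rw [this, orderOf_one] at h2
        exact hr.out.one_lt.ne h2⟩⟩
      invFun := fun q => ⟨q.2.1.1, hord q.1 _ q.2.1.2 fun h => q.2.2 (Subtype.ext h)⟩
      left_inv := fun g => rfl
      right_inv := by
        rintro ⟨P, ⟨⟨x, hx⟩, hx1⟩⟩
        have hx1' : x ≠ 1 := fun h => hx1 (Subtype.ext h)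
        have h1 : f x (hord P x hx hx1') = P := by
          apply Sylow.ext
          rw [hf, zpowers_eq_of_mem (hP P) hx hx1']
        have h2 : ∀ (Q : Sylow r G) (_ : Q = P) (a : x ∈ (Q : Subgroup G)) (b : (⟨x, a⟩ : ↥(Q : Subgroup G)) ≠ 1),
            (⟨Q, ⟨⟨x, a⟩, b⟩⟩ : Σ P : Sylow r G, {x : ↥(P : Subgroup G) // x ≠ 1}) = ⟨P, ⟨⟨x, hx⟩, hx1⟩⟩ := by
          rintro Q rfl a b; rfl
        exact h2 _ h1 _ _ }
  rw [Nat.card_congr e]
  haveI := Fintype.ofFinite (Sylow r G)
  rw [Nat.card_sigma]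
  have h1 : ∀ P ∈ (Finset.univ : Finset (Sylow r G)), Nat.card {x : ↥(P : Subgroup G) // x ≠ 1} = r - 1 := by
    intro P _
    haveI := Fintype.ofFinite ↥(P : Subgroup G)
    rw [Nat.card_eq_fintype_card, Fintype.card_subtype_compl, Fintype.card_subtype_eq, ← Nat.card_eq_fintype_card]
    congr 1
    exact hP P
  rw [Finset.sum_congr rfl h1, Finset.sum_const, Finset.card_univ, smul_eq_mul, Nat.card_eq_fintype_card]

theorem centralizer_zpowers {G : Type*} [Group G] (z : G) : centralizer ((zpowers z : Subgroup G) : Set G) = centralizer ({z} : Set G) := by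
  ext x
  rw [mem_centralizer_singleton_iff, mem_centralizer_iff]
  constructor
  · intro h; exact (h z (mem_zpowers z)).symm
  · intro h y hy
    obtain ⟨k, rfl⟩ := mem_zpowers_iff.mp hy
    exact ((show Commute x z from h).zpow_right k).symm

theorem exists_sylow_zpowers {G : Type*} [Group G] [Finite G] {r : ℕ} [hr : Fact r.Prime] (hP : ∀ P : Sylow r G, Nat.card P = r)
    {g : G} (hg : orderOf g = r) : ∃ P : Sylow r G, (P : Subgroup G) = zpowers g := by
  obtain ⟨P⟩ : Nonempty (Sylow r G) := inferInstance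
  refine ⟨Sylow.ofCard (zpowers g) ?_, rfl⟩
  rw [Nat.card_zpowers, hg, ← P.card_eq_multiplicity, hP]

theorem orb_stab {G : Type*} [Group G] [Finite G] {X : Type*} [MulAction G X] (C : Subgroup G) (x0 : X) :
    Nat.card (orbit C x0) * Nat.card (stabilizer C x0) = Nat.card C := by
  rw [Nat.card_congr (orbitEquivQuotientStabilizer C x0)]
  exact (card_eq_card_quotient_mul_card_subgroup _).symm

section
variable {G : Type*} [Group G] [Finite G] [IsSimpleGroup G] (h : Nat.card G = 168)
include h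

theorem na168 : ¬ IsMulCommutative G := nonab_of_card (by norm_num) h

theorem z168 (P : Sylow 7 G) : Zas P 3 :=
  zas_of_order (N := 168) (by norm_num) (by norm_num) (by norm_num) h (by norm_num) (by decide +kernel) P

theorem p7 (P : Sylow 7 G) : Nat.card P = 7 := (z168 h P).hP

theorem p3 (P : Sylow 3 G) : Nat.card P = 3 := card_sylow_prime (by rw [h]; norm_num) (by rw [h]; norm_num) P

theorem p2 (P : Sylow 2 G) : Nat.card P = 8 := by
  rw [card_sylow_pow 3 (by rw [h]; norm_num) (by rw [h]; norm_num) P]; norm_num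

theorem c7 {z : G} (hz : orderOf z = 7) : Nat.card (centralizer ({z} : Set G)) = 7 := by
  obtain ⟨P, hP⟩ := exists_sylow_zpowers (p7 h) hz
  rw [← centralizer_zpowers, ← hP]; exact (z168 h P).hc

theorem n7 (P : Sylow 7 G) : Nat.card (normalizer ((P : Subgroup G) : Set G)) = 21 := by
  have h1 := (normalizer ((P : Subgroup G) : Set G)).card_mul_index
  rw [syl_index, (z168 h P).hn, h] at h1
  omega

theorem s3 (Q : Sylow 3 G) : Nat.card (Sylow 3 G) = 28 ∧ Nat.card (centralizer ((Q : Subgroup G) : Set G)) = 3 ∧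
    (centralizer ((Q : Subgroup G) : Set G)).relIndex (normalizer ((Q : Subgroup G) : Set G)) = 2 := by
  have key : ∀ Q : Sylow 3 G, ∃ n c, Nat.card (Sylow 3 G) = n ∧ Nat.card (centralizer ((Q : Subgroup G) : Set G)) = c ∧
      (centralizer ((Q : Subgroup G) : Set G)).relIndex (normalizer ((Q : Subgroup G) : Set G)) = 2 ∧ (n = 7 ∧ c = 12 ∨ n = 28 ∧ c = 3) := by
    intro Q
    obtain ⟨_, n, e, c, b1, b2, b3, a1, a2, a3, a4, a5, a6, a7⟩ := syl_prime (na168 h) (by rw [h]; norm_num) (by rw [h]; norm_num) Q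
    rw [h] at a6 a7
    have he : e = 2 := by
      have := Nat.le_of_dvd (by norm_num) a3
      interval_cases e
      · omega
      · omega
      · rfl
    subst he
    refine ⟨n, c, b1, b3, b2, ?_⟩
    have hk : ∀ n ∈ Nat.divisors 84, n % 3 = 1 → n ≠ 1 → 2 * 168 ∣ n.factorial → 3 ∣ 84 / n → n = 7 ∨ n = 28 := by decide +kernel
    have hnc : n * c = 84 := by
      have : 2 * (n * c) = 168 := by rw [← a6]; ring
      omega
    have hn0 : 0 < n := Nat.pos_of_ne_zero (by rintro rfl; omega)
    have := hk n (by rw [Nat.mem_divisors]; exact ⟨Dvd.intro _ hnc, by norm_num⟩) a1 a2 a7 (by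
      have : 84 / n = c := by rw [← hnc]; exact Nat.mul_div_cancel_left _ hn0
      rw [this]; exact a5)
    rcases this with rfl | rfl
    · left; exact ⟨rfl, by omega⟩
    · right; exact ⟨rfl, by omega⟩
  obtain ⟨n, c, e1, e2, e3, e4⟩ := key Q
  rcases e4 with ⟨e4, e5⟩ | ⟨e4, e5⟩
  · exfalso
    -- use an element of order 3 in the normalizer of a Sylow 7-subgroup
    obtain ⟨P⟩ : Nonempty (Sylow 7 G) := inferInstance
    obtain ⟨⟨y, hyN⟩, hy⟩ := exists_prime_orderOf_dvd_card' (G := ↥(normalizer ((P : Subgroup G) : Set G))) 3 (by rw [n7 h]; norm_num)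
    have hy3 : orderOf y = 3 := by rw [← hy]; exact (Subgroup.orderOf_mk y hyN).symm
    obtain ⟨R, hR⟩ := exists_sylow_zpowers (p3 h) hy3
    obtain ⟨n', c', f1, f2, _, f4⟩ := key R
    have hc12 : Nat.card (centralizer ({y} : Set G)) = 12 := by
      rw [← centralizer_zpowers, ← hR, f2]
      rcases f4 with f | f
      · exact f.2
      · omega
    have hyc : y ∉ centralizer ((P : Subgroup G) : Set G) := by
      intro hc
      have := orderOf_dvd_natCard (⟨y, hc⟩ : centralizer ((P : Subgroup G) : Set G))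
      rw [(z168 h P).hc, Subgroup.orderOf_mk, hy3] at this
      norm_num at this
    have hfix := fix_bound P (p7 h P) hyN hyc
    rw [(z168 h P).hn] at hfix
    set X := G ⧸ normalizer ((P : Subgroup G) : Set G)
    change Nat.card (fixedBy X y) * 7 ≤ 7 + 1 + (7 - 1) at hfix
    set C := centralizer ({y} : Set G) with hC
    set x0 : X := QuotientGroup.mk 1
    have hst := orb_stab C x0
    have ho : Nat.card (orbit C x0) ≤ Nat.card (fixedBy X y) := by
      apply Nat.card_le_card_of_injective (fun a : orbit C x0 => (⟨a.1, ?_⟩ : fixedBy X y))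
      · intro a b hab
        exact Subtype.ext (congrArg (fun z : fixedBy X y => z.1) hab)
      · obtain ⟨c, hc⟩ := a.2
        rw [mem_fixedBy, ← hc]
        change y • (c : G) • x0 = (c : G) • x0
        rw [← mul_smul, ← mem_centralizer_singleton_iff.mp c.2, mul_smul]
        congr 1
        exact (fixes_one_iff _ y).mpr hyN
    have hs : Nat.card (stabilizer C x0) ∣ 3 := by
      have h1 : Nat.card (stabilizer C x0) ∣ 12 := by rw [← hc12]; exact card_subgroup_dvd_card _
      have h2 : Nat.card (stabilizer C x0) ∣ 21 := by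
        rw [← n7 h P]
        have hle : (stabilizer C x0).map C.subtype ≤ normalizer ((P : Subgroup G) : Set G) := by
          rintro _ ⟨g, hg, rfl⟩
          exact (fixes_one_iff _ _).mp hg
        rw [Nat.card_congr ((stabilizer C x0).equivMapOfInjective C.subtype C.subtype_injective).toEquiv]
        exact card_dvd_of_le hle
      have := Nat.dvd_gcd h1 h2
      norm_num at this
      exact this
    have hs' := Nat.le_of_dvd (by norm_num) hs
    rw [hc12] at hst
    have : Nat.card (orbit C x0) ≤ 2 := by omega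
    have h9 : Nat.card (orbit C x0) * Nat.card (stabilizer C x0) ≤ 2 * 3 := Nat.mul_le_mul this hs'
    have h10 : 12 ≤ 2 * 3 := le_trans (le_of_eq hst.symm) h9
    omega
  · exact ⟨e1.trans e4, e2.trans e5, e3⟩

theorem c3 {z : G} (hz : orderOf z = 3) : Nat.card (centralizer ({z} : Set G)) = 3 := by
  obtain ⟨P, hP⟩ := exists_sylow_zpowers (p3 h) hz
  rw [← centralizer_zpowers, ← hP]; exact (s3 h P).2.1

/-- centralizers of `2`-elements are `2`-groups -/
theorem cent_pow_two {z : G} (hz : z ≠ 1) (hz2 : ∃ k, orderOf z = 2 ^ k) : ∃ k, Nat.card (centralizer ({z} : Set G)) = 2 ^ k := by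
  obtain ⟨k, hk⟩ := hz2
  have hk0 : k ≠ 0 := by
    rintro rfl
    rw [pow_zero, orderOf_eq_one_iff] at hk; exact hz hk
  have key : ∀ (r : ℕ) [Fact r.Prime], (∀ x : G, orderOf x = r → Nat.card (centralizer ({x} : Set G)) = r) → r ≠ 2 →
      ¬ r ∣ Nat.card (centralizer ({z} : Set G)) := by
    intro r hr hc hr2 hd
    obtain ⟨x, hx⟩ := exists_prime_orderOf_dvd_card' (G := centralizer ({z} : Set G)) r hd
    have hx' : orderOf (x : G) = r := (orderOf_injective _ (Subgroup.subtype_injective _) x).trans hx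
    have hzx : z ∈ centralizer ({(x : G)} : Set G) := by
      rw [mem_centralizer_singleton_iff]; exact (mem_centralizer_singleton_iff.mp x.2).symm
    have h1 := orderOf_dvd_natCard (⟨z, hzx⟩ : centralizer ({(x : G)} : Set G))
    rw [hc _ hx', Subgroup.orderOf_mk, hk] at h1
    have h2 : 2 ∣ r := dvd_trans (dvd_pow_self 2 hk0) h1
    exact hr2 ((Nat.prime_dvd_prime_iff_eq Nat.prime_two hr.out).mp h2).symm
  have h3 := key 3 (fun x hx => c3 h hx) (by norm_num)
  have h7 := key 7 (fun x hx => c7 h hx) (by norm_num)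
  have hd : Nat.card (centralizer ({z} : Set G)) ∣ 168 := h ▸ card_subgroup_dvd_card _
  have hk : ∀ d ∈ Nat.divisors 168, ¬ 3 ∣ d → ¬ 7 ∣ d → d = 2 ^ 0 ∨ d = 2 ^ 1 ∨ d = 2 ^ 2 ∨ d = 2 ^ 3 := by decide +kernel
  rcases hk _ (by rw [Nat.mem_divisors]; exact ⟨hd, by norm_num⟩) h3 h7 with h | h | h | h
  exacts [⟨0, h⟩, ⟨1, h⟩, ⟨2, h⟩, ⟨3, h⟩]

theorem s2 (T : Sylow 2 G) : Nat.card (Sylow 2 G) = 21 ∧ normalizer ((T : Subgroup G) : Set G) = T := by
  have hG := na168 h
  obtain ⟨a1, a2, a3, a4, _, _⟩ := syl hG (by rw [h]; norm_num) T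
  obtain ⟨b1, b2⟩ := sylow_dvd T (b := 21) (p2 h T) (by rw [h])
  rw [h] at a2 a4
  have hk : ∀ n ∈ Nat.divisors 21, n ≠ 1 → 2 * 168 ∣ n.factorial → n = 7 ∨ n = 21 := by decide +kernel
  rcases hk _ (by rw [Nat.mem_divisors]; exact ⟨b1, by norm_num⟩) a3 a4 with h1 | h1
  · exfalso
    rw [h1] at a2
    have hN : Nat.card (normalizer ((T : Subgroup G) : Set G)) = 24 := by omega
    obtain ⟨⟨y, hyN⟩, hy⟩ := exists_prime_orderOf_dvd_card' (G := ↥(normalizer ((T : Subgroup G) : Set G))) 3 (by rw [hN]; norm_num)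
    have hy3 : orderOf y = 3 := by rw [← hy]; exact (Subgroup.orderOf_mk y hyN).symm
    have h2 := CfsgLib.Transfer.card_modEq_centralizer (r := 3) (R := zpowers y) (T := (T : Subgroup G))
      (IsPGroup.of_card (n := 1) (by rw [Nat.card_zpowers, hy3, pow_one])) (by rwa [zpowers_le])
    have h3 : Nat.card ((T : Subgroup G) ⊓ centralizer ((zpowers y : Subgroup G) : Set G) : Subgroup G) = 1 := by
      have d1 : Nat.card ((T : Subgroup G) ⊓ centralizer ((zpowers y : Subgroup G) : Set G) : Subgroup G) ∣ 8 := by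
        rw [← p2 h T]; exact card_dvd_of_le inf_le_left
      have d2 : Nat.card ((T : Subgroup G) ⊓ centralizer ((zpowers y : Subgroup G) : Set G) : Subgroup G) ∣ 3 := by
        rw [← c3 h hy3, ← centralizer_zpowers]; exact card_dvd_of_le inf_le_right
      have := Nat.dvd_gcd d1 d2
      norm_num at this
      exact this
    rw [h3] at h2
    have h4 : Nat.card ↥(T : Subgroup G) = 8 := p2 h T
    rw [h4] at h2
    exact absurd h2 (by decide)
  · refine ⟨h1, ?_⟩
    rw [h1] at a2
    symm
    apply eq_of_le_of_card_ge le_normalizer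
    have h4 : Nat.card ↥(T : Subgroup G) = 8 := p2 h T
    omega

end

end CfsgLib.SmS
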