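import Cfsg.Agent.Lib.Sm168
import Cfsg.Agent.Lib.DihLift
set_option autoImplicit false
set_option linter.style.haveILetI false

/-! The simple group of order 168: Sylow 2-subgroups and element orders. -/

namespace CfsgLib.SmS
open Subgroup MulAction CfsgLib.NPC
open scoped Pointwise

theorem conj_sq1 {G : Type*} [Group G] (c u : G) : (c⁻¹ * u * c) ^ 2 = c⁻¹ * u ^ 2 * c := by rw [pow_two, pow_two]; group
theorem conj_sq2 {G : Type*} [Group G] (c u : G) : (c * u * c⁻¹) ^ 2 = c * u ^ 2 * c⁻¹ := by rw [pow_two, pow_two]; group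

theorem mem_zpowers_lt {G : Type*} [Group G] [Finite G] (a : G) {x : G} : x ∈ zpowers a ↔ ∃ i < orderOf a, a ^ i = x := by
  classical
  rw [mem_zpowers_iff_mem_range_orderOf, Finset.mem_image]
  constructor
  · rintro ⟨i, hi, hx⟩; exact ⟨i, Finset.mem_range.mp hi, hx⟩
  · rintro ⟨i, hi, hx⟩; exact ⟨i, Finset.mem_range.mpr hi, hx⟩

section
variable {G : Type*} [Group G] [Finite G] [IsSimpleGroup G] (h : Nat.card G = 168)
include h

theorem T_not_comm (T : Sylow 2 G) : ¬ ∀ x ∈ (T : Subgroup G), ∀ y ∈ (T : Subgroup G), x * y = y * x := by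
  intro hc
  apply not_le_centralizer (na168 h) (by rw [h]; norm_num) T
  rw [(s2 h T).2]
  intro x hx
  rw [mem_centralizer_iff]
  intro y hy
  exact hc y hy x hx

theorem orders168 (g : G) : orderOf g = 1 ∨ orderOf g = 2 ∨ orderOf g = 3 ∨ orderOf g = 4 ∨ orderOf g = 7 := by
  have key : ∀ (r : ℕ) [Fact r.Prime], (∀ x : G, orderOf x = r → Nat.card (centralizer ({x} : Set G)) = r) → r ∣ orderOf g → orderOf g ∣ r := by
    intro r hr hc hd
    have h1 : orderOf (g ^ (orderOf g / r)) = r := orderOf_pow_orderOf_div (orderOf_pos g).ne' hd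
    have hg : g ∈ centralizer ({g ^ (orderOf g / r)} : Set G) := by
      rw [mem_centralizer_singleton_iff]
      exact (Commute.self_pow g _)
    have h2 := orderOf_dvd_natCard (⟨g, hg⟩ : centralizer ({g ^ (orderOf g / r)} : Set G))
    rwa [hc _ h1, Subgroup.orderOf_mk] at h2
  have h3 := key 3 (fun x hx => c3 h hx)
  have h7 := key 7 (fun x hx => c7 h hx)
  have hd : orderOf g ∣ 168 := h ▸ orderOf_dvd_natCard g
  have h8 : orderOf g ≠ 8 := by
    intro h8
    have hz : IsPGroup 2 (zpowers g) := IsPGroup.of_card (n := 3) (by rw [Nat.card_zpowers, h8]; norm_num)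
    obtain ⟨T, hT⟩ := hz.exists_le_sylow
    have hTe : zpowers g = (T : Subgroup G) := by
      apply eq_of_le_of_card_ge hT
      have h4 : Nat.card ↥(T : Subgroup G) = 8 := p2 h T
      rw [h4, Nat.card_zpowers, h8]
    apply T_not_comm h T
    intro x hx y hy
    rw [← hTe] at hx hy
    obtain ⟨i, rfl⟩ := mem_zpowers_iff.mp hx
    obtain ⟨j, rfl⟩ := mem_zpowers_iff.mp hy
    exact (Commute.refl g).zpow_zpow i j
  have hk : ∀ d ∈ Nat.divisors 168, (3 ∣ d → d ∣ 3) → (7 ∣ d → d ∣ 7) → d ≠ 8 → d = 1 ∨ d = 2 ∨ d = 3 ∨ d = 4 ∨ d = 7 := by decide +kernel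
  exact hk _ (by rw [Nat.mem_divisors]; exact ⟨hd, by norm_num⟩) h3 h7 h8

theorem two_pow_of_mem (T : Sylow 2 G) {x : G} (hx : x ∈ (T : Subgroup G)) : orderOf x = 1 ∨ orderOf x = 2 ∨ orderOf x = 4 := by
  obtain ⟨k, hk⟩ := (IsPGroup.iff_orderOf.mp T.2) ⟨x, hx⟩
  rw [Subgroup.orderOf_mk] at hk
  rcases orders168 h x with h1 | h1 | h1 | h1 | h1
  · exact Or.inl h1
  · exact Or.inr (Or.inl h1)
  · exfalso
    rw [h1] at hk
    rcases Nat.eq_zero_or_pos k with h0 | h0
    · rw [h0] at hk; norm_num at hk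
    · have : 2 ∣ 3 := by rw [hk]; exact dvd_pow_self 2 h0.ne'
      norm_num at this
  · exact Or.inr (Or.inr h1)
  · exfalso
    rw [h1] at hk
    rcases Nat.eq_zero_or_pos k with h0 | h0
    · rw [h0] at hk; norm_num at hk
    · have : 2 ∣ 7 := by rw [hk]; exact dvd_pow_self 2 h0.ne'
      norm_num at this

/-- structure of a Sylow 2-subgroup, first form -/
theorem T_struct0 (T : Sylow 2 G) : ∃ a ∈ (T : Subgroup G), orderOf a = 4 ∧
    (∀ b ∈ (T : Subgroup G), b ∈ zpowers a ∨ (b * a * b⁻¹ = a⁻¹ ∧ (b ^ 2 = 1 ∨ b ^ 2 = a ^ 2))) := by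
  have hcard : Nat.card ↥(T : Subgroup G) = 8 := p2 h T
  obtain ⟨a, ha, hao⟩ : ∃ a ∈ (T : Subgroup G), orderOf a = 4 := by
    by_contra hcon
    push Not at hcon
    apply T_not_comm h T
    have hsq : ∀ x ∈ (T : Subgroup G), x * x = 1 := by
      intro x hx
      rcases two_pow_of_mem h T hx with h1 | h1 | h1
      · rw [orderOf_eq_one_iff] at h1; rw [h1, one_mul]
      · have := pow_orderOf_eq_one x; rw [h1, pow_two] at this; exact this
      · exact absurd h1 (hcon x hx)
    intro x hx y hy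
    have h1 := hsq _ (mul_mem hx hy)
    have h2 := hsq x hx
    have h3 := hsq y hy
    calc x * y = x * 1 * y := by rw [mul_one]
      _ = x * (x * y * (x * y)) * y := by rw [h1]
      _ = (x * x) * (y * x) * (y * y) := by group
      _ = y * x := by rw [h2, h3, one_mul, mul_one]
  refine ⟨a, ha, hao, ?_⟩
  have ha4 : a ^ 4 = 1 := by rw [← hao]; exact pow_orderOf_eq_one a
  have hle : zpowers a ≤ (T : Subgroup G) := by rwa [zpowers_le]
  have hidx : ((zpowers a).subgroupOf (T : Subgroup G)).index = 2 := by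
    have h1 := ((zpowers a).subgroupOf (T : Subgroup G)).card_mul_index
    have h2 : Nat.card ((zpowers a).subgroupOf (T : Subgroup G)) = 4 := by
      rw [Nat.card_congr (subgroupOfEquivOfLe hle).toEquiv, Nat.card_zpowers, hao]
    rw [h2, hcard] at h1
    omega
  have hno : ((zpowers a).subgroupOf (T : Subgroup G)).Normal := normal_of_index_eq_two hidx
  intro b hb
  by_cases hba : b ∈ zpowers a
  · exact Or.inl hba
  right
  have hconj : b * a * b⁻¹ ∈ zpowers a := by
    have := hno.conj_mem ⟨a, ha⟩ (by rw [mem_subgroupOf]; exact mem_zpowers a) ⟨b, hb⟩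
    rw [mem_subgroupOf] at this
    exact this
  have hb2 : b ^ 2 ∈ zpowers a := by
    have := pow_index_mem ((zpowers a).subgroupOf (T : Subgroup G)) ⟨b, hb⟩
    rw [hidx, mem_subgroupOf] at this
    exact this
  -- elements of zpowers a
  have hz : ∀ x ∈ zpowers a, x = 1 ∨ x = a ∨ x = a ^ 2 ∨ x = a⁻¹ := by
    intro x hx
    rw [mem_zpowers_lt a] at hx
    obtain ⟨i, hi, rfl⟩ := hx
    rw [hao] at hi
    interval_cases i
    · left; simp
    · right; left; simp
    · right; right; left; rfl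
    · right; right; right
      rw [eq_inv_iff_mul_eq_one, ← pow_succ]; exact ha4
  have ha2 : a ^ 2 ≠ 1 := by
    intro h2
    have := orderOf_dvd_of_pow_eq_one h2
    rw [hao] at this; norm_num at this
  have hbo : orderOf (b * a * b⁻¹) = 4 := by
    have : b * a * b⁻¹ = MulAut.conj b a := rfl
    rw [this, MulEquiv.orderOf_eq, hao]
  have hinv : b * a * b⁻¹ = a⁻¹ := by
    rcases hz _ hconj with h1 | h1 | h1 | h1
    · rw [h1, orderOf_one] at hbo; omega
    · exfalso
      -- then T is commutative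
      have hab : Commute b a := by
        have : b * a = a * b := by
          calc b * a = b * a * b⁻¹ * b := by group
            _ = a * b := by rw [h1]
        exact this
      apply T_not_comm h T
      have hcl : ∀ x ∈ (T : Subgroup G), ∃ (i : ℤ) (j : ℤ), x = a ^ i * b ^ j := by
        intro x hx
        by_cases hxa : x ∈ zpowers a
        · obtain ⟨i, rfl⟩ := mem_zpowers_iff.mp hxa
          exact ⟨i, 0, by simp⟩
        · have h5 : x * b⁻¹ ∈ zpowers a := by
            have h6 := (mul_mem_iff_of_index_two hidx (a := (⟨x, hx⟩ : ↥(T : Subgroup G))) (b := ⟨b, hb⟩⁻¹))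
            rw [inv_mem_iff] at h6
            simp only [mem_subgroupOf] at h6
            exact h6.mpr ⟨fun h => absurd h hxa, fun h => absurd h hba⟩
          obtain ⟨i, hi⟩ := mem_zpowers_iff.mp h5
          exact ⟨i, 1, by rw [hi, zpow_one]; group⟩
      intro x hx y hy
      obtain ⟨i, j, rfl⟩ := hcl x hx
      obtain ⟨k, l, rfl⟩ := hcl y hy
      have e1 : Commute (a ^ i * b ^ j) (a ^ k * b ^ l) := by
        apply Commute.mul_left
        · exact ((Commute.refl a).zpow_zpow i k).mul_right (hab.symm.zpow_zpow i l)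
        · exact (hab.zpow_zpow j k).mul_right ((Commute.refl b).zpow_zpow j l)
      exact e1
    · exfalso
      have : (a ^ 2) ^ 2 = 1 := by rw [← pow_mul]; exact ha4
      rw [← h1] at this
      have := orderOf_dvd_of_pow_eq_one this
      rw [hbo] at this; norm_num at this
    · exact h1
  refine ⟨hinv, ?_⟩
  rcases hz _ hb2 with h1 | h1 | h1 | h1
  · exact Or.inl h1
  · exfalso
    -- b ^ 2 = a commutes with b
    have h2 : b * a * b⁻¹ = a := by rw [← h1]; group
    rw [hinv] at h2
    apply ha2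
    rw [pow_two]
    nth_rewrite 1 [← h2]
    exact inv_mul_cancel a
  · exact Or.inr h1
  · exfalso
    have h2 : b * a⁻¹ * b⁻¹ = a⁻¹ := by rw [← h1]; group
    have h3 : b * a⁻¹ * b⁻¹ = (b * a * b⁻¹)⁻¹ := by group
    rw [h3, hinv, inv_inv] at h2
    apply ha2
    rw [pow_two]
    nth_rewrite 2 [h2]
    exact mul_inv_cancel a
/-- elements of order four, involutions -/
theorem T_struct (T : Sylow 2 G) : ∃ a b : G, a ∈ (T : Subgroup G) ∧ b ∈ (T : Subgroup G) ∧ orderOf a = 4 ∧ b ^ 2 = 1 ∧ b ∉ zpowers a ∧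
    b * a * b⁻¹ = a⁻¹ ∧ (∀ x ∈ (T : Subgroup G), ∃ i < 4, x = a ^ i ∨ x = a ^ i * b) ∧ centralizer ({a ^ 2} : Set G) = (T : Subgroup G) ∧
    (∀ u : G, u ^ 2 = a ^ 2 → u = a ∨ u = a⁻¹) ∧ (∀ x : G, orderOf x = 2 → IsConj (a ^ 2) x) ∧
    Nat.card {g : G // orderOf g = 2} = 21 ∧ Nat.card {g : G // orderOf g = 4} = 42 := by
  classical
  have hcard : Nat.card ↥(T : Subgroup G) = 8 := p2 h T
  obtain ⟨a, ha, hao, hst⟩ := T_struct0 h T
  have ha4 : a ^ 4 = 1 := by rw [← hao]; exact pow_orderOf_eq_one a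
  have ha2 : a ^ 2 ≠ 1 := by
    intro h2
    have := orderOf_dvd_of_pow_eq_one h2
    rw [hao] at this; norm_num at this
  have ha2o : orderOf (a ^ 2) = 2 := orderOf_eq_prime (by rw [← pow_mul]; exact ha4) ha2
  have ha2i : (a ^ 2)⁻¹ = a ^ 2 := by rw [inv_eq_iff_mul_eq_one, ← pow_add]; exact ha4
  have hane : a ≠ a⁻¹ := by
    intro h1
    apply ha2
    rw [pow_two]; nth_rewrite 1 [h1]; exact inv_mul_cancel a
  -- centralizer of the central involution
  have hTC : (T : Subgroup G) ≤ centralizer ({a ^ 2} : Set G) := by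
    intro b hb
    rw [mem_centralizer_singleton_iff]
    rcases hst b hb with h1 | ⟨h1, _⟩
    · obtain ⟨i, rfl⟩ := mem_zpowers_iff.mp h1
      exact ((Commute.refl a).zpow_left i).pow_right 2
    · have h2 : b * a ^ 2 * b⁻¹ = a ^ 2 := by
        have : b * a ^ 2 * b⁻¹ = (b * a * b⁻¹) ^ 2 := map_pow (MulAut.conj b) a 2
        rw [this, h1, inv_pow, ha2i]
      calc b * a ^ 2 = b * a ^ 2 * b⁻¹ * b := by group
        _ = a ^ 2 * b := by rw [h2]
  have hC : centralizer ({a ^ 2} : Set G) = (T : Subgroup G) := by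
    obtain ⟨k, hk⟩ := cent_pow_two h ha2 ⟨1, by rw [ha2o, pow_one]⟩
    exact (T.3 (IsPGroup.of_card hk) hTC)
  have hcl : Nat.card {g : G // IsConj (a ^ 2) g} = 21 := by
    have h1 := class_mul (a ^ 2)
    rw [hC, hcard, h] at h1
    omega
  -- squares of elements of order four
  have hsqT : ∀ x ∈ (T : Subgroup G), orderOf x = 4 → x ^ 2 = a ^ 2 := by
    intro x hx hxo
    rcases hst x hx with h1 | ⟨_, h2 | h2⟩
    · rw [mem_zpowers_lt, hao] at h1
      obtain ⟨i, hi, rfl⟩ := h1
      interval_cases i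
      · rw [pow_zero, orderOf_one] at hxo; omega
      · rw [pow_one]
      · rw [ha2o] at hxo; omega
      · rw [← pow_mul]
        calc a ^ (3 * 2) = a ^ 4 * a ^ 2 := by rw [← pow_add]
          _ = a ^ 2 := by rw [ha4, one_mul]
    · exfalso
      have := orderOf_dvd_of_pow_eq_one h2
      rw [hxo] at this; norm_num at this
    · exact h2
  have hsq : ∀ x : G, orderOf x = 4 → IsConj (a ^ 2) (x ^ 2) := by
    intro x hxo
    have hz : IsPGroup 2 (zpowers x) := IsPGroup.of_card (n := 2) (by rw [Nat.card_zpowers, hxo]; norm_num)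
    obtain ⟨R, hR⟩ := hz.exists_le_sylow
    obtain ⟨g, hg⟩ := exists_smul_eq G T R
    have h1 : x ∈ ((g • T : Sylow 2 G) : Subgroup G) := by rw [hg]; exact hR (mem_zpowers x)
    have h2 : g⁻¹ * x * g ∈ (T : Subgroup G) := by
      have h6 := (mem_pointwise_smul_iff_inv_smul_mem).mp (show x ∈ (MulAut.conj g) • (T : Subgroup G) from h1)
      have h7 : ((MulAut.conj g)⁻¹ • x : G) = g⁻¹ * x * g := by rw [← map_inv]; simp
      rwa [h7] at h6
    have h3 : orderOf (g⁻¹ * x * g) = 4 := by
      have : g⁻¹ * x * g = MulAut.conj g⁻¹ x := by simp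
      rw [this, MulEquiv.orderOf_eq, hxo]
    have h4 := hsqT _ h2 h3
    rw [isConj_iff]
    refine ⟨g, ?_⟩
    rw [← h4, pow_two, pow_two]; group
  -- number of elements of order four
  set k := Nat.card {u : G // u ^ 2 = a ^ 2} with hk
  have hN4 : Nat.card {g : G // orderOf g = 4} = 21 * k := by
    let e : {g : G // orderOf g = 4} ≃ Σ y : {g : G // IsConj (a ^ 2) g}, {u : G // u ^ 2 = y.1} :=
      { toFun := fun g => ⟨⟨g.1 ^ 2, hsq g.1 g.2⟩, ⟨g.1, rfl⟩⟩
        invFun := fun q => ⟨q.2.1, by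
          obtain ⟨⟨y, hy⟩, ⟨u, hu⟩⟩ := q
          simp only at hu ⊢
          have hyo : orderOf y = 2 := by
            obtain ⟨c, hc⟩ := isConj_iff.mp hy
            have : c * a ^ 2 * c⁻¹ = MulAut.conj c (a ^ 2) := rfl
            rw [← hc, this, MulEquiv.orderOf_eq, ha2o]
          have h5 : u ^ 2 ≠ 1 := by
            intro h5; rw [hu] at h5; rw [h5, orderOf_one] at hyo; omega
          have h6 : u ^ (2 ^ 2) = 1 := by
            rw [show 2 ^ 2 = 2 * 2 by norm_num, pow_mul, hu, ← hyo]; exact pow_orderOf_eq_one y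
          have := orderOf_eq_prime_pow (p := 2) (n := 1) (x := u) (by rw [pow_one]; exact h5) h6
          rw [this]; norm_num⟩
        left_inv := fun g => rfl
        right_inv := by
          rintro ⟨⟨y, hy⟩, ⟨u, hu⟩⟩
          simp only at hu
          subst hu
          rfl }
    rw [Nat.card_congr e]
    haveI := Fintype.ofFinite {g : G // IsConj (a ^ 2) g}
    rw [Nat.card_sigma]
    have h1 : ∀ y ∈ (Finset.univ : Finset {g : G // IsConj (a ^ 2) g}), Nat.card {u : G // u ^ 2 = y.1} = k := by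
      rintro ⟨y, hy⟩ _
      obtain ⟨c, hc⟩ := isConj_iff.mp hy
      refine Nat.card_congr
        { toFun := fun u => ⟨c⁻¹ * u.1 * c, ?_⟩
          invFun := fun u => ⟨c * u.1 * c⁻¹, ?_⟩
          left_inv := fun u => Subtype.ext (by simp [mul_assoc])
          right_inv := fun u => Subtype.ext (by simp [mul_assoc]) }
      · have h2 := u.2
        simp only at h2
        have h3 : (c⁻¹ * u.1 * c) ^ 2 = c⁻¹ * u.1 ^ 2 * c := conj_sq1 c u.1
        rw [h3, h2, ← hc]; group
      · have h3 : (c * u.1 * c⁻¹) ^ 2 = c * u.1 ^ 2 * c⁻¹ := conj_sq2 c u.1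
        simp only
        rw [h3, u.2, hc]
    rw [Finset.sum_congr rfl h1, Finset.sum_const, Finset.card_univ, smul_eq_mul, ← Nat.card_eq_fintype_card, hcl]
  have hk2 : 2 ≤ k := by
    have : Nat.card (Fin 2) ≤ k := by
      apply Nat.card_le_card_of_injective (fun i : Fin 2 => (if i = 0 then ⟨a, rfl⟩ else ⟨a⁻¹, by rw [inv_pow]; exact ha2i⟩ : {u : G // u ^ 2 = a ^ 2}))
      intro i j hij
      fin_cases i <;> fin_cases j <;> simp at hij ⊢
      · exact hane hij
      · exact hane hij.symm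
    simpa using this
  -- partition by orders
  have hpart : Nat.card G = Nat.card {g : G // orderOf g = 1} + Nat.card {g : G // orderOf g = 2} + Nat.card {g : G // orderOf g = 3} +
      Nat.card {g : G // orderOf g = 4} + Nat.card {g : G // orderOf g = 7} := by
    haveI := Fintype.ofFinite G
    have h1 := Finset.card_eq_sum_card_fiberwise (f := fun g : G => orderOf g) (s := Finset.univ) (t := {1, 2, 3, 4, 7}) (by
      intro g _
      rcases orders168 h g with h1 | h1 | h1 | h1 | h1 <;> simp [h1])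
    rw [Nat.card_eq_fintype_card, ← Finset.card_univ, h1]
    have h2 : ∀ i : ℕ, Nat.card {g : G // orderOf g = i} = (Finset.univ.filter fun g : G => orderOf g = i).card := by
      intro i
      rw [Nat.card_eq_fintype_card, Fintype.card_subtype]
    rw [h2, h2, h2, h2, h2]
    rw [Finset.sum_insert (by decide), Finset.sum_insert (by decide), Finset.sum_insert (by decide), Finset.sum_insert (by decide), Finset.sum_singleton]
    ring
  have hN1 : Nat.card {g : G // orderOf g = 1} = 1 := by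
    rw [Nat.card_eq_one_iff_unique]
    exact ⟨⟨fun x y => Subtype.ext ((orderOf_eq_one_iff.mp x.2).trans (orderOf_eq_one_iff.mp y.2).symm)⟩, ⟨⟨1, orderOf_one⟩⟩⟩
  have hN3 : Nat.card {g : G // orderOf g = 3} = 56 := by
    obtain ⟨Q⟩ : Nonempty (Sylow 3 G) := inferInstance
    rw [card_order_prime (p3 h), (s3 h Q).1]
  have hN7 : Nat.card {g : G // orderOf g = 7} = 48 := by
    obtain ⟨Q⟩ : Nonempty (Sylow 7 G) := inferInstance
    rw [card_order_prime (p7 h), (z168 h Q).hn]
  let ι : {g : G // IsConj (a ^ 2) g} → {g : G // orderOf g = 2} := fun g => ⟨g.1, by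
    obtain ⟨c, hc⟩ := isConj_iff.mp g.2
    have : c * a ^ 2 * c⁻¹ = MulAut.conj c (a ^ 2) := rfl
    rw [← hc, this, MulEquiv.orderOf_eq, ha2o]⟩
  have hι : Function.Injective ι := fun x y hxy => Subtype.ext (congrArg (fun z : {g : G // orderOf g = 2} => z.1) hxy)
  have hN2 : 21 ≤ Nat.card {g : G // orderOf g = 2} := by
    rw [← hcl]; exact Nat.card_le_card_of_injective ι hι
  rw [h, hN1, hN3, hN7, hN4] at hpart
  have hkk : k = 2 := by omega
  have hN2' : Nat.card {g : G // orderOf g = 2} = 21 := by omega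
  have hb : Function.Bijective ι := by
    rw [Nat.bijective_iff_injective_and_card]; exact ⟨hι, by rw [hcl, hN2']⟩
  -- the elements with square a²
  have hroots : ∀ u : G, u ^ 2 = a ^ 2 → u = a ∨ u = a⁻¹ := by
    intro u hu
    by_contra hcon
    push Not at hcon
    have : Nat.card (Fin 3) ≤ k := by
      apply Nat.card_le_card_of_injective (fun i : Fin 3 => (if i = 0 then ⟨a, rfl⟩ else if i = 1 then ⟨a⁻¹, by rw [inv_pow]; exact ha2i⟩ else ⟨u, hu⟩ : {u : G // u ^ 2 = a ^ 2}))
      intro i j hij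
      fin_cases i <;> fin_cases j <;> simp at hij ⊢
      · exact hane hij
      · exact hcon.1 hij.symm
      · exact hane hij.symm
      · exact hcon.2 hij.symm
      · exact hcon.1 hij
      · exact hcon.2 hij
    rw [hkk] at this
    simp at this
  -- an involution outside
  obtain ⟨b, hbT, hba⟩ : ∃ b ∈ (T : Subgroup G), b ∉ zpowers a := by
    by_contra hcon
    push Not at hcon
    have h1 : (T : Subgroup G) ≤ zpowers a := hcon
    have h2 := card_le_of_le h1
    rw [hcard, Nat.card_zpowers, hao] at h2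
    omega
  have hbi : b * a * b⁻¹ = a⁻¹ ∧ b ^ 2 = 1 := by
    rcases hst b hbT with h1 | ⟨h1, h2 | h2⟩
    · exact absurd h1 hba
    · exact ⟨h1, h2⟩
    · exfalso
      rcases hroots b h2 with h3 | h3
      · exact hba (h3 ▸ mem_zpowers a)
      · exact hba (h3 ▸ inv_mem (mem_zpowers a))
  refine ⟨a, b, ha, hbT, hao, hbi.2, hba, hbi.1, ?_, hC, hroots, ?_, hN2', by rw [hN4, hkk]⟩
  · intro x hx
    have hidx : ((zpowers a).subgroupOf (T : Subgroup G)).index = 2 := by
      have h1 := ((zpowers a).subgroupOf (T : Subgroup G)).card_mul_index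
      have h2 : Nat.card ((zpowers a).subgroupOf (T : Subgroup G)) = 4 := by
        rw [Nat.card_congr (subgroupOfEquivOfLe (show zpowers a ≤ (T : Subgroup G) by rwa [zpowers_le])).toEquiv, Nat.card_zpowers, hao]
      rw [h2, hcard] at h1
      omega
    by_cases hxa : x ∈ zpowers a
    · obtain ⟨i, hi, hx2⟩ := (mem_zpowers_lt a).mp hxa
      exact ⟨i, by omega, Or.inl hx2.symm⟩
    · have h5 : x * b⁻¹ ∈ zpowers a := by
        have h6 := (mul_mem_iff_of_index_two hidx (a := (⟨x, hx⟩ : ↥(T : Subgroup G))) (b := ⟨b, hbT⟩⁻¹))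
        rw [inv_mem_iff] at h6
        simp only [mem_subgroupOf] at h6
        exact h6.mpr ⟨fun h => absurd h hxa, fun h => absurd h hba⟩
      obtain ⟨i, hi, hx2⟩ := (mem_zpowers_lt a).mp h5
      exact ⟨i, by omega, Or.inr (by rw [hx2]; group)⟩
  · intro x hx
    obtain ⟨y, hy⟩ := hb.2 ⟨x, hx⟩
    have : y.1 = x := congrArg (fun z : {g : G // orderOf g = 2} => z.1) hy
    rw [← this]; exact y.2

end

end CfsgLib.SmS
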