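import Mathlib
import Cfsg.Agent.Lib.SolvStr2
import Cfsg.Agent.Lib.NPC
import Cfsg.Agent.Lib.FrobAct2

/-!
# Solvable structure III
-/

set_option autoImplicit false
set_option linter.style.haveILetI false
set_option linter.unnecessarySimpa false
set_option linter.unusedSectionVars false

namespace CfsgLib.SolvStr3

open scoped Pointwise commutatorElement
open CfsgLib.Coprime CfsgLib.SolvStr CfsgLib.SolvStr2 CfsgLib.NPC

universe u v

variable {G : Type u} [Group G]

theorem solvable_of_two_primes [Finite G] (h3 : ∀ p q r : ℕ, p ∈ (Nat.card G).primeFactors → q ∈ (Nat.card G).primeFactors →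
    r ∈ (Nat.card G).primeFactors → p ≠ q → p ≠ r → q = r) : Group.IsSolvable G := by
  classical
  have hfac := Nat.prod_factorization_pow_eq_self (n := Nat.card G) Nat.card_pos.ne'
  rcases (Nat.card G).primeFactors.eq_empty_or_nonempty with he | ⟨p, hp⟩
  · have h1 : Nat.card G = 1 := by
      rcases Nat.primeFactors_eq_empty.mp he with h0 | h0
      · exact absurd h0 Nat.card_pos.ne'
      · exact h0
    haveI := (Nat.card_eq_one_iff_unique.mp h1).1
    infer_instance
  · have hp' := Nat.prime_of_mem_primeFactors hp
    by_cases hq : ∃ q ∈ (Nat.card G).primeFactors, q ≠ p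
    · obtain ⟨q, hq, hqp⟩ := hq
      have hq' := Nat.prime_of_mem_primeFactors hq
      have hset : (Nat.card G).primeFactors = {p, q} := by
        ext r
        simp only [Finset.mem_insert, Finset.mem_singleton]
        constructor
        · intro hr
          by_contra hne
          push Not at hne
          exact hne.2 (h3 p q r hp hq hr (Ne.symm hqp) (Ne.symm hne.1)).symm
        · rintro (rfl | rfl)
          · exact hp
          · exact hq
      rw [Finsupp.prod, Nat.support_factorization, hset, Finset.prod_pair (Ne.symm hqp)] at hfac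
      exact CfsgLib.CharBasic.burnside_pq _ G p q _ _ hp' hq' hfac.symm rfl
    · push Not at hq
      have hset : (Nat.card G).primeFactors = {p} := by
        ext r
        simp only [Finset.mem_singleton]
        exact ⟨fun hr => hq r hr, fun hr => hr ▸ hp⟩
      rw [Finsupp.prod, Nat.support_factorization, hset, Finset.prod_singleton] at hfac
      exact CfsgLib.CharBasic.burnside_pq _ G p p ((Nat.card G).factorization p) 0 hp' hp' (by rw [pow_zero, mul_one]; exact hfac.symm) rfl

/-- S0535 -/
theorem solvable_of_prime_power_index [Finite G] (h : ∀ H : Subgroup G, H ≠ ⊥ → ∀ p : ℕ, p.Prime → p ∣ Nat.card H →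
    ∃ K : Subgroup H, K ≠ ⊤ ∧ ∃ k : ℕ, K.index = p ^ k) (n : ℕ) : ∀ H : Subgroup G, Nat.card H ≤ n → Group.IsSolvable H := by
  classical
  induction n with
  | zero => intro H hn; exact absurd hn (not_le_of_gt Nat.card_pos)
  | succ n ih =>
    intro H hn
    by_cases h3 : ∃ p q r, p ∈ (Nat.card H).primeFactors ∧ q ∈ (Nat.card H).primeFactors ∧ r ∈ (Nat.card H).primeFactors ∧ p ≠ q ∧ p ≠ r ∧ q ≠ r
    · obtain ⟨p, q, r, hp, hq, hr, hpq, hpr, hqr⟩ := h3
      have hp' := Nat.prime_of_mem_primeFactors hp
      have hq' := Nat.prime_of_mem_primeFactors hq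
      have hr' := Nat.prime_of_mem_primeFactors hr
      have hH : H ≠ ⊥ := by
        rintro rfl
        rw [Subgroup.card_bot] at hp
        simp at hp
      have key : ∀ s : ℕ, s.Prime → s ∈ (Nat.card H).primeFactors → ∃ K : Subgroup H, Group.IsSolvable K ∧ ∃ k : ℕ, K.index = s ^ k := by
        intro s hs hsH
        obtain ⟨K, hK, hk⟩ := h H hH s hs (Nat.dvd_of_mem_primeFactors hsH)
        refine ⟨K, ?_, hk⟩
        have e : K ≃* K.map H.subtype := Subgroup.equivMapOfInjective _ _ H.subtype_injective
        have hlt : Nat.card K < Nat.card H := by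
          have := K.card_mul_index
          have h1 : K.index ≠ 1 := fun h => hK (Subgroup.index_eq_one.mp h)
          have h2 : K.index ≠ 0 := Subgroup.index_ne_zero_of_finite
          have h3 : 0 < Nat.card K := Nat.card_pos
          have h4 : 2 ≤ K.index := by omega
          nlinarith
        have h1 := ih (K.map H.subtype) (by rw [← Nat.card_congr e.toEquiv]; omega)
        exact Group.isSolvable_of_surjective (f := e.symm.toMonoidHom) e.symm.surjective
      obtain ⟨K₁, k1, a, ha⟩ := key p hp' hp
      obtain ⟨K₂, k2, b, hb⟩ := key q hq' hq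
      obtain ⟨K₃, k3, c, hc⟩ := key r hr' hr
      refine CfsgLib.Solv3.solvable_of_three _ le_rfl K₁ K₂ K₃ k1 k2 k3 ?_ ?_ ?_
      · apply CfsgLib.Solv3.exists_mul_of_coprime_index
        rw [ha, hb]; exact Nat.coprime_pow_primes _ _ hp' hq' hpq
      · apply CfsgLib.Solv3.exists_mul_of_coprime_index
        rw [ha, hc]; exact Nat.coprime_pow_primes _ _ hp' hr' hpr
      · rw [hb, hc]; exact Nat.coprime_pow_primes _ _ hq' hr' hqr
    · apply solvable_of_two_primes
      intro p q r hp hq hr hpq hpr
      by_contra hqr
      exact h3 ⟨p, q, r, hp, hq, hr, hpq, hpr, hqr⟩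

theorem relIndex_normalizer_mod [Finite G] {p : ℕ} [hp : Fact p.Prime] {P K : Subgroup G} (h : IsSyl p P K) :
    (Subgroup.normalizer (P : Set G)).relIndex K ≡ 1 [MOD p] := by
  have h1 := card_sylow_modEq_one p K
  rw [h.toSylow.card_eq_index_normalizer] at h1
  have h2 : (h.toSylow : Subgroup K) = P.subgroupOf K := by
    apply Subgroup.map_injective K.subtype_injective
    rw [h.toSylow_map, Subgroup.map_subgroupOf_eq_of_le h.1]
  have h3 : Subgroup.normalizer ((h.toSylow : Subgroup K) : Set K) = (Subgroup.normalizer (P : Set G)).subgroupOf K := by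
    rw [h2, Subgroup.subgroupOf_normalizer_eq h.1]
  have h1' : (Subgroup.normalizer ((h.toSylow : Subgroup K) : Set K)).index ≡ 1 [MOD p] := h1
  rw [h3] at h1'
  exact h1'

/-- for the largest prime, maximal subgroups of prime index force a normal Sylow subgroup -/
theorem normal_sylow_of_prime_index [Finite G] (h : ∀ M : Subgroup G, IsCoatom M → M.index.Prime) (p : ℕ) [hp : Fact p.Prime]
    (hmax : ∀ q : ℕ, q.Prime → q ∣ Nat.card G → q ≤ p) (P : Sylow p G) : (P : Subgroup G).Normal := by
  rw [← Subgroup.normalizer_eq_top_iff]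
  by_contra hne
  obtain ⟨M, hM, hPM⟩ := (IsCoatomic.eq_top_or_exists_le_coatom (Subgroup.normalizer ((P : Subgroup G) : Set G))).resolve_left hne
  have h1 := relIndex_normalizer_mod (CfsgLib.Transfer.isSyl_top P)
  have h2 := relIndex_normalizer_mod (CfsgLib.Transfer.isSyl_of_sylow_le P (Subgroup.le_normalizer.trans hPM))
  rw [Subgroup.relIndex_top_right, ← Subgroup.relIndex_mul_index hPM] at h1
  have h3 : M.index ≡ 1 [MOD p] := by
    have h4 := (h2.mul_right M.index).symm.trans h1
    rwa [one_mul] at h4
  have h5 := h M hM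
  have h6 : M.index ≤ p := hmax _ h5 M.index_dvd_card
  have h7 : M.index % p = 1 := by
    have : M.index % p = 1 % p := h3
    rwa [Nat.mod_eq_of_lt hp.out.one_lt] at this
  rcases h6.lt_or_eq with h8 | h8
  · rw [Nat.mod_eq_of_lt h8] at h7
    exact h5.one_lt.ne' h7
  · rw [h8, Nat.mod_self] at h7
    omega

theorem isCoatom_comap {H : Type*} [Group H] (f : G →* H) (hf : Function.Surjective f) {M : Subgroup H} (hM : IsCoatom M) :
    IsCoatom (M.comap f) := by
  refine ⟨fun h => hM.1 ?_, fun K hK => ?_⟩
  · rw [← Subgroup.map_comap_eq_self_of_surjective hf M, h, Subgroup.map_top_of_surjective f hf]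
  · have h1 : M ≤ K.map f := by
      rw [← Subgroup.map_comap_eq_self_of_surjective hf M]
      exact Subgroup.map_mono hK.le
    have hker : f.ker ≤ K := le_trans (by intro x hx; rw [Subgroup.mem_comap, MonoidHom.mem_ker.mp hx]; exact one_mem _) hK.le
    have h2 : (K.map f).comap f = K := by
      rw [Subgroup.comap_map_eq, sup_eq_left.mpr hker]
    rcases hM.le_iff.mp h1 with h3 | h3
    · rw [← h2, h3, Subgroup.comap_top]
    · exfalso
      apply hK.ne
      rw [← h3, h2]

/-- S0580 -/
theorem solvable_of_prime_index (n : ℕ) : ∀ {G : Type u} [Group G] [Finite G], Nat.card G ≤ n →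
    (∀ M : Subgroup G, IsCoatom M → M.index.Prime) → Group.IsSolvable G := by
  classical
  induction n with
  | zero => intro G _ _ hn; exact absurd hn (not_le_of_gt Nat.card_pos)
  | succ n ih =>
    intro G _ _ hn h
    rcases (Nat.card G).primeFactors.eq_empty_or_nonempty with he | hne
    · have h1 : Nat.card G = 1 := by
        rcases Nat.primeFactors_eq_empty.mp he with h0 | h0
        · exact absurd h0 Nat.card_pos.ne'
        · exact h0
      haveI := (Nat.card_eq_one_iff_unique.mp h1).1
      infer_instance
    · obtain ⟨p, hp, hmax⟩ := (Nat.card G).primeFactors.exists_max_image id hne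
      have hp' := Nat.prime_of_mem_primeFactors hp
      haveI : Fact p.Prime := ⟨hp'⟩
      obtain ⟨P⟩ : Nonempty (Sylow p G) := inferInstance
      have hPn := normal_sylow_of_prime_index h p (fun q hq hqG => hmax q (Nat.mem_primeFactors.mpr ⟨hq, hqG, Nat.card_pos.ne'⟩)) P
      haveI := hPn
      have hlt : Nat.card (G ⧸ (P : Subgroup G)) < Nat.card G := by
        have h1 := (P : Subgroup G).card_mul_index
        have h2 : Nat.card (G ⧸ (P : Subgroup G)) = (P : Subgroup G).index := rfl
        have h3 : p ∣ Nat.card P := by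
          rw [P.card_eq_multiplicity]
          exact dvd_pow_self p (hp'.factorization_pos_of_dvd Nat.card_pos.ne' (Nat.dvd_of_mem_primeFactors hp)).ne'
        have h4 : 1 < Nat.card P := lt_of_lt_of_le hp'.one_lt (Nat.le_of_dvd Nat.card_pos h3)
        have h5 : 0 < (P : Subgroup G).index := Nat.pos_of_ne_zero Subgroup.index_ne_zero_of_finite
        rw [h2, ← h1]
        change _ < Nat.card P * _
        nlinarith
      have h1 : Group.IsSolvable (G ⧸ (P : Subgroup G)) := by
        apply ih (by omega)
        intro M hM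
        have h2 := h _ (isCoatom_comap (QuotientGroup.mk' (P : Subgroup G)) (QuotientGroup.mk'_surjective _) hM)
        rwa [Subgroup.index_comap_of_surjective _ (QuotientGroup.mk'_surjective _)] at h2
      haveI : Group.IsNilpotent (P : Subgroup G) := P.2.isNilpotent
      exact CfsgLib.Solv3.isSolvable_of_normal (P : Subgroup G) inferInstance h1

end CfsgLib.SolvStr3
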