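import Mathlib
import Cfsg.Prelude.Def_Sporadic_a

/-!
Strongly regular graphs with parameters (100, 22, 0, 6).
-/

set_option autoImplicit false

namespace CfsgLib.SrgHS

open Finset Cfsg

section srg
variable {V : Type*} [Fintype V] [DecidableEq V] {G : SimpleGraph V} [DecidableRel G.Adj] (hG : G.IsSRGWith 100 22 0 6)
include hG

theorem card_nb (x : V) : (G.neighborFinset x).card = 22 := hG.regular x

theorem inter_adj {x y : V} (h : G.Adj x y) : G.neighborFinset x ∩ G.neighborFinset y = ∅ := by
  rw [← Finset.card_eq_zero, ← hG.of_adj x y h]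
  symm
  apply Fintype.card_of_finset'
  intro z
  simp [SimpleGraph.mem_commonNeighbors]

theorem inter_nonadj {x y : V} (hne : x ≠ y) (h : ¬ G.Adj x y) : (G.neighborFinset x ∩ G.neighborFinset y).card = 6 := by
  rw [← hG.of_not_adj hne h]
  symm
  apply Fintype.card_of_finset'
  intro z
  simp [SimpleGraph.mem_commonNeighbors]

theorem no_tri {x y z : V} (h1 : G.Adj x y) (h2 : G.Adj x z) : ¬ G.Adj y z := by
  intro h3
  have h4 : z ∈ G.neighborFinset x ∩ G.neighborFinset y := by simp [h2, h3]
  rw [inter_adj hG h1] at h4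
  exact absurd h4 (Finset.notMem_empty _)

omit hG in
/-- far vertices -/
def far (G : SimpleGraph V) [DecidableRel G.Adj] (v : V) : Finset V := univ.filter (fun m => m ≠ v ∧ ¬ G.Adj v m)

omit hG in
theorem mem_far {v m : V} : m ∈ far G v ↔ m ≠ v ∧ ¬ G.Adj v m := by simp [far]

omit hG in
/-- block of a vertex -/
def bl (G : SimpleGraph V) [DecidableRel G.Adj] (v m : V) : Finset V := G.neighborFinset v ∩ G.neighborFinset m

omit hG in
theorem mem_bl {v m p : V} : p ∈ bl G v m ↔ G.Adj v p ∧ G.Adj m p := by simp [bl]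

theorem card_far (v : V) : (far G v).card = 77 := by
  have h1 : far G v = univ \ (insert v (G.neighborFinset v)) := by
    ext m; simp [mem_far]
  rw [h1, Finset.card_sdiff_of_subset (Finset.subset_univ _), Finset.card_insert_of_notMem (by simp), card_nb hG, Finset.card_univ, hG.card]

theorem card_bl {v m : V} (hm : m ∈ far G v) : (bl G v m).card = 6 := by
  rw [mem_far] at hm
  exact inter_nonadj hG hm.1.symm hm.2

theorem count1 {v p : V} (hp : G.Adj v p) : ((far G v).filter (fun m => p ∈ bl G v m)).card = 21 := by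
  have h : (far G v).filter (fun m => p ∈ bl G v m) = (G.neighborFinset p).erase v := by
    ext m
    simp only [Finset.mem_filter, mem_far, mem_bl, Finset.mem_erase, SimpleGraph.mem_neighborFinset]
    constructor
    · rintro ⟨⟨h1, -⟩, -, h3⟩
      exact ⟨h1, h3.symm⟩
    · rintro ⟨h1, h2⟩
      exact ⟨⟨h1, fun h3 => no_tri hG hp h3 h2⟩, hp, h2.symm⟩
  rw [h, Finset.card_erase_of_mem (by simp [hp.symm]), card_nb hG]

theorem count2 {v p q : V} (hp : G.Adj v p) (hq : G.Adj v q) (hpq : p ≠ q) : ((far G v).filter (fun m => p ∈ bl G v m ∧ q ∈ bl G v m)).card = 5 := by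
  have h : (far G v).filter (fun m => p ∈ bl G v m ∧ q ∈ bl G v m) = (G.neighborFinset p ∩ G.neighborFinset q).erase v := by
    ext m
    simp only [Finset.mem_filter, mem_far, mem_bl, Finset.mem_erase, SimpleGraph.mem_neighborFinset, Finset.mem_inter]
    constructor
    · rintro ⟨⟨h1, -⟩, ⟨-, h3⟩, -, h4⟩
      exact ⟨h1, h3.symm, h4.symm⟩
    · rintro ⟨h1, h2, h3⟩
      exact ⟨⟨h1, fun h4 => no_tri hG hp h4 h2⟩, ⟨hp, h2.symm⟩, hq, h3.symm⟩
  rw [h, Finset.card_erase_of_mem (by simp [hp.symm, hq.symm]), inter_nonadj hG hpq (no_tri hG hp hq)]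

theorem sum1 {v : V} {b : Finset V} (hb : ∀ p ∈ b, G.Adj v p) : ∑ m ∈ far G v, (b ∩ bl G v m).card = b.card * 21 := by
  have h1 : ∀ m, (b ∩ bl G v m).card = ∑ p ∈ b, if p ∈ bl G v m then 1 else 0 := by
    intro m; rw [← card_filter]; congr 1
  rw [Finset.sum_congr rfl (fun m _ => h1 m), sum_comm, ← smul_eq_mul, ← sum_const]
  apply sum_congr rfl
  intro p hp
  rw [← card_filter, count1 hG (hb p hp)]

theorem sum2 {v : V} {b : Finset V} (hb : ∀ p ∈ b, G.Adj v p) : ∑ m ∈ far G v, (b ∩ bl G v m).card * (b ∩ bl G v m).card = b.card * 16 + b.card * b.card * 5 := by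
  have h1 : ∀ m, (b ∩ bl G v m).card * (b ∩ bl G v m).card = ∑ p ∈ b, ∑ q ∈ b, if p ∈ bl G v m ∧ q ∈ bl G v m then 1 else 0 := by
    intro m
    have h2 : (b ∩ bl G v m).card = ∑ p ∈ b, if p ∈ bl G v m then 1 else 0 := by rw [← card_filter]; congr 1
    rw [h2, sum_mul_sum]
    apply sum_congr rfl; intro p _; apply sum_congr rfl; intro q _
    by_cases hp : p ∈ bl G v m <;> by_cases hq : q ∈ bl G v m <;> simp [hp, hq]
  rw [Finset.sum_congr rfl (fun m _ => h1 m), sum_comm]
  have h4 : ∀ p ∈ b, ∑ m ∈ far G v, ∑ q ∈ b, (if p ∈ bl G v m ∧ q ∈ bl G v m then 1 else 0) = 16 + b.card * 5 := by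
    intro p hp
    rw [sum_comm]
    have h5 : ∀ q ∈ b, ∑ m ∈ far G v, (if p ∈ bl G v m ∧ q ∈ bl G v m then 1 else 0) = (if p = q then 16 else 0) + 5 := by
      intro q hq
      rw [← card_filter]
      by_cases hpq : p = q
      · subst hpq
        simp only [and_self, if_true]
        rw [count1 hG (hb p hp)]
      · rw [count2 hG (hb p hp) (hb q hq) hpq, if_neg hpq]
    rw [sum_congr rfl h5, sum_add_distrib, sum_const, smul_eq_mul, sum_ite_eq, if_pos hp]
  rw [sum_congr rfl h4, sum_const, smul_eq_mul]
  ring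

theorem inter_cases {v m m' : V} (hm : m ∈ far G v) (hm' : m' ∈ far G v) (hne : m ≠ m') : (G.Adj m m' → (bl G v m ∩ bl G v m').card = 0) ∧ (¬ G.Adj m m' → (bl G v m ∩ bl G v m').card = 2) := by
  have hb : ∀ p ∈ bl G v m, G.Adj v p := fun p hp => (mem_bl.mp hp).1
  have h1 := sum1 hG hb
  have h2 := sum2 hG hb
  rw [card_bl hG hm] at h1 h2
  have hadj : ∀ m', G.Adj m m' → (bl G v m ∩ bl G v m').card = 0 := by
    intro m' h
    rw [Finset.card_eq_zero]
    have h3 := inter_adj hG h
    ext p
    simp only [Finset.mem_inter, mem_bl, Finset.notMem_empty, iff_false]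
    rintro ⟨⟨-, a1⟩, -, a2⟩
    have : p ∈ G.neighborFinset m ∩ G.neighborFinset m' := by simp [a1, a2]
    rw [h3] at this
    exact absurd this (Finset.notMem_empty _)
  refine ⟨hadj m', fun hna => ?_⟩
  -- partition of far vertices
  let A := (far G v).filter (fun x => G.Adj m x)
  let C := ((far G v).erase m).filter (fun x => ¬ G.Adj m x)
  have hA : A.card = 16 := by
    have e : A = G.neighborFinset m \ bl G v m := by
      ext x
      simp only [A, Finset.mem_filter, mem_far, Finset.mem_sdiff, mem_bl, SimpleGraph.mem_neighborFinset, not_and]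
      constructor
      · rintro ⟨⟨a1, a2⟩, a3⟩
        exact ⟨a3, fun h => absurd h a2⟩
      · rintro ⟨a1, a2⟩
        refine ⟨⟨?_, fun h => a2 h a1⟩, a1⟩
        rintro rfl
        exact (mem_far.mp hm).2 a1.symm
    rw [e, Finset.card_sdiff_of_subset (show bl G v m ⊆ G.neighborFinset m from Finset.inter_subset_right), card_nb hG, card_bl hG hm]
  have hmA : m ∉ A := by simp [A]
  have hsplit : ∀ F : V → ℕ, ∑ x ∈ far G v, F x = F m + (∑ x ∈ A, F x + ∑ x ∈ C, F x) := by
    intro F
    rw [← Finset.add_sum_erase _ _ hm, ← Finset.sum_filter_add_sum_filter_not ((far G v).erase m) (fun x => G.Adj m x)]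
    congr 2
    apply Finset.sum_congr _ (fun _ _ => rfl)
    ext x
    simp only [A, Finset.mem_filter, Finset.mem_erase]
    constructor
    · rintro ⟨⟨-, a⟩, b⟩; exact ⟨a, b⟩
    · rintro ⟨a, b⟩; exact ⟨⟨fun h => by rw [h] at b; exact G.irrefl b, a⟩, b⟩
  have hC : C.card = 60 := by
    have := hsplit (fun _ => 1)
    simp only [Finset.sum_const, smul_eq_mul, mul_one] at this
    rw [card_far hG, hA] at this
    omega
  rw [hsplit, Finset.inter_self, card_bl hG hm, Finset.sum_eq_zero (s := A) (fun x hx => hadj x (Finset.mem_filter.mp hx).2)] at h1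
  rw [hsplit, Finset.inter_self, card_bl hG hm, Finset.sum_eq_zero (s := A) (fun x hx => by rw [hadj x (Finset.mem_filter.mp hx).2, mul_zero])] at h2
  have h3 : ∑ x ∈ C, (((bl G v m ∩ bl G v x).card : ℤ) - 2) ^ 2 = 0 := by
    have e1 : (∑ x ∈ C, ((bl G v m ∩ bl G v x).card : ℤ)) = 120 := by
      have : ∑ x ∈ C, (bl G v m ∩ bl G v x).card = 120 := by omega
      exact_mod_cast this
    have e2 : (∑ x ∈ C, ((bl G v m ∩ bl G v x).card : ℤ) * ((bl G v m ∩ bl G v x).card : ℤ)) = 240 := by
      have : ∑ x ∈ C, (bl G v m ∩ bl G v x).card * (bl G v m ∩ bl G v x).card = 240 := by omega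
      exact_mod_cast this
    have e3 : ∀ x ∈ C, (((bl G v m ∩ bl G v x).card : ℤ) - 2) ^ 2 = ((bl G v m ∩ bl G v x).card : ℤ) * ((bl G v m ∩ bl G v x).card : ℤ) - 4 * ((bl G v m ∩ bl G v x).card : ℤ) + 4 := fun x _ => by ring
    rw [Finset.sum_congr rfl e3, Finset.sum_add_distrib, Finset.sum_sub_distrib, ← Finset.mul_sum, e1, e2, Finset.sum_const, hC]
    norm_num
  have hmC : m' ∈ C := Finset.mem_filter.mpr ⟨Finset.mem_erase.mpr ⟨hne.symm, hm'⟩, hna⟩
  have h4 := (Finset.sum_eq_zero_iff_of_nonneg (fun x _ => sq_nonneg _)).mp h3 m' hmC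
  have h5 := pow_eq_zero_iff (n := 2) (by norm_num) |>.mp h4
  omega

omit hG in
/-- the blocks -/
def blocks (G : SimpleGraph V) [DecidableRel G.Adj] (v : V) : Set (Finset {x // G.Adj v x}) := {b | ∃ m ∈ far G v, b.map (Function.Embedding.subtype _) = bl G v m}

omit hG in
theorem blk_ex {v m : V} (hm : m ∈ far G v) : ∃ b ∈ blocks G v, b.map (Function.Embedding.subtype _) = bl G v m := by
  have h : ((bl G v m).subtype (fun x => G.Adj v x)).map (Function.Embedding.subtype _) = bl G v m := Finset.subtype_map_of_mem (fun x hx => (mem_bl.mp hx).1)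
  exact ⟨_, ⟨m, hm, h⟩, h⟩

theorem inter_le_two {v m m' : V} (hm : m ∈ far G v) (hm' : m' ∈ far G v) (hne : m ≠ m') : (bl G v m ∩ bl G v m').card ≤ 2 := by
  by_cases h : G.Adj m m'
  · rw [(inter_cases hG hm hm' hne).1 h]; norm_num
  · rw [(inter_cases hG hm hm' hne).2 h]

theorem triples (v : V) : (far G v).biUnion (fun m => (bl G v m).powersetCard 3) = (G.neighborFinset v).powersetCard 3 := by
  apply Finset.eq_of_subset_of_card_le
  · intro s hs
    rw [Finset.mem_biUnion] at hs
    obtain ⟨m, -, hs⟩ := hs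
    rw [Finset.mem_powersetCard] at hs ⊢
    exact ⟨hs.1.trans Finset.inter_subset_left, hs.2⟩
  · rw [Finset.card_biUnion]
    · rw [Finset.card_powersetCard, card_nb hG, Finset.sum_congr rfl (g := fun _ => 20), Finset.sum_const, card_far hG]
      · decide
      · intro m hm
        rw [Finset.card_powersetCard, card_bl hG hm]; rfl
    · intro m hm m' hm' hne
      rw [Function.onFun, Finset.disjoint_left]
      intro s hs hs'
      rw [Finset.mem_powersetCard] at hs hs'
      have h1 := Finset.card_le_card (Finset.subset_inter hs.1 hs'.1)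
      have h2 := inter_le_two hG hm hm' hne
      omega

theorem steiner_blocks (v : V) : IsSteinerSystem 3 6 (blocks G v) := by
  constructor
  · rintro b ⟨m, hm, hb⟩
    rw [← Finset.card_map (Function.Embedding.subtype _), hb, card_bl hG hm]
  · intro T hT
    have h1 : T.map (Function.Embedding.subtype _) ∈ (G.neighborFinset v).powersetCard 3 := by
      rw [Finset.mem_powersetCard, Finset.card_map]
      refine ⟨?_, hT⟩
      intro x hx
      rw [Finset.mem_map] at hx
      obtain ⟨a, -, rfl⟩ := hx
      simpa using a.2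
    rw [← triples hG, Finset.mem_biUnion] at h1
    obtain ⟨m, hm, h2⟩ := h1
    rw [Finset.mem_powersetCard] at h2
    obtain ⟨b, hb, hbm⟩ := blk_ex hm
    refine ⟨b, ⟨hb, ?_⟩, ?_⟩
    · rw [← hbm, Finset.map_subset_map] at h2
      exact h2.1
    · rintro c ⟨⟨m', hm', hc⟩, hTc⟩
      apply Finset.map_injective (Function.Embedding.subtype _)
      rw [hc, hbm]
      by_contra hne
      have hmm : m ≠ m' := by rintro rfl; exact hne rfl
      have h3 := inter_le_two hG hm hm' hmm
      have h4 : T.map (Function.Embedding.subtype _) ⊆ bl G v m ∩ bl G v m' := by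
        apply Finset.subset_inter h2.1
        rw [← hc, Finset.map_subset_map]; exact hTc
      have h5 := Finset.card_le_card h4
      rw [Finset.card_map, hT] at h5
      omega

omit hG in
/-- vertices -/
noncomputable def vx (G : SimpleGraph V) [DecidableRel G.Adj] (v : V) : Option ({x // G.Adj v x} ⊕ blocks G v) → V
  | none => v
  | some (Sum.inl a) => a
  | some (Sum.inr b) => b.2.choose

omit hG in
theorem vx_blk {v : V} (b : blocks G v) : vx G v (some (Sum.inr b)) ∈ far G v ∧ (b : Finset {x // G.Adj v x}).map (Function.Embedding.subtype _) = bl G v (vx G v (some (Sum.inr b))) := b.2.choose_spec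

theorem vx_adj (v : V) (s t : Option ({x // G.Adj v x} ⊕ blocks G v)) : (pointBlockGraph (blocks G v)).Adj s t ↔ G.Adj (vx G v s) (vx G v t) := by
  have hfar : ∀ b : blocks G v, ¬ G.Adj v (vx G v (some (Sum.inr b))) := fun b => (mem_far.mp (vx_blk b).1).2
  have hmem : ∀ (a : {x // G.Adj v x}) (b : blocks G v), a ∈ (b : Finset {x // G.Adj v x}) ↔ G.Adj (vx G v (some (Sum.inr b))) a := by
    intro a b
    have h1 := (vx_blk b).2
    have h2 : a ∈ (b : Finset {x // G.Adj v x}) ↔ (a : V) ∈ (b : Finset {x // G.Adj v x}).map (Function.Embedding.subtype _) := by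
      rw [Finset.mem_map]
      constructor
      · intro h; exact ⟨a, h, rfl⟩
      · rintro ⟨c, hc, hca⟩
        have : c = a := Subtype.ext hca
        rw [← this]; exact hc
    rw [h2, h1, mem_bl]
    exact ⟨fun h => h.2, fun h => ⟨a.2, h⟩⟩
  unfold pointBlockGraph
  rw [SimpleGraph.fromRel_adj]
  rcases s with _ | a | b <;> rcases t with _ | a' | b'
  · show _ ↔ G.Adj v v
    simp
  · show _ ↔ G.Adj v a'
    simp [pointBlockRel, a'.2]
  · simp only [pointBlockRel]
    constructor
    · rintro ⟨-, h | h⟩ <;> exact absurd h id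
    · intro h; exact absurd h (hfar b')
  · show _ ↔ G.Adj a v
    simp [pointBlockRel, a.2.symm]
  · show _ ↔ G.Adj a a'
    simp only [pointBlockRel]
    constructor
    · rintro ⟨-, h | h⟩ <;> exact absurd h id
    · intro h; exact absurd h (no_tri hG a.2 a'.2)
  · show _ ↔ G.Adj a _
    simp only [pointBlockRel]
    rw [SimpleGraph.adj_comm, ← hmem a b']
    simp
  · simp only [pointBlockRel]
    constructor
    · rintro ⟨-, h | h⟩ <;> exact absurd h id
    · intro h; exact absurd h.symm (hfar b)
  · show _ ↔ G.Adj _ (a' : V)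
    simp only [pointBlockRel]
    rw [← hmem a' b]
    simp
  · simp only [pointBlockRel]
    obtain ⟨f1, e1⟩ := vx_blk b
    obtain ⟨f2, e2⟩ := vx_blk b'
    have hinter : ((b : Finset {x // G.Adj v x}) ∩ b').card = (bl G v (vx G v (some (Sum.inr b))) ∩ bl G v (vx G v (some (Sum.inr b')))).card := by
      rw [← e1, ← e2, ← Finset.map_inter, Finset.card_map]
    by_cases hbb : b = b'
    · subst hbb
      simp
    · have hne : vx G v (some (Sum.inr b)) ≠ vx G v (some (Sum.inr b')) := by
        intro h
        apply hbb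
        apply Subtype.ext
        apply Finset.map_injective (Function.Embedding.subtype _)
        rw [e1, e2, h]
      have h1 := inter_cases hG f1 f2 hne
      constructor
      · rintro ⟨-, h⟩
        have h2 : ((b : Finset {x // G.Adj v x}) ∩ b').card = 0 := by
          rw [Finset.card_eq_zero, ← Finset.disjoint_iff_inter_eq_empty]
          rcases h with h | h
          · exact h
          · exact h.symm
        by_contra h3
        have := h1.2 h3
        omega
      · intro h
        refine ⟨by simpa using hbb, Or.inl ?_⟩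
        rw [Finset.disjoint_iff_inter_eq_empty, ← Finset.card_eq_zero, hinter, h1.1 h]

theorem vx_bij (v : V) : Function.Bijective (vx G v) := by
  constructor
  · intro s t h
    rcases s with _ | a | b <;> rcases t with _ | a' | b'
    · rfl
    · exfalso
      have h1 : v = (a' : V) := h
      have h2 := a'.2
      rw [← h1] at h2
      exact G.irrefl h2
    · exfalso
      exact (mem_far.mp (vx_blk b').1).1 h.symm
    · exfalso
      have h1 : (a : V) = v := h
      have h2 := a.2
      rw [h1] at h2
      exact G.irrefl h2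
    · have h1 : (a : V) = a' := h
      rw [Subtype.ext h1]
    · exfalso
      have h1 : (a : V) = vx G v (some (Sum.inr b')) := h
      exact (mem_far.mp (vx_blk b').1).2 (h1 ▸ a.2)
    · exfalso
      exact (mem_far.mp (vx_blk b).1).1 h
    · exfalso
      have h1 : vx G v (some (Sum.inr b)) = (a' : V) := h
      exact (mem_far.mp (vx_blk b).1).2 (h1.symm ▸ a'.2)
    · have h1 : b = b' := by
        apply Subtype.ext
        apply Finset.map_injective (Function.Embedding.subtype _)
        rw [(vx_blk b).2, (vx_blk b').2, h]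
      rw [h1]
  · intro x
    by_cases h0 : x = v
    · exact ⟨none, h0.symm⟩
    by_cases h1 : G.Adj v x
    · exact ⟨some (Sum.inl ⟨x, h1⟩), rfl⟩
    · have hx : x ∈ far G v := mem_far.mpr ⟨h0, h1⟩
      obtain ⟨b, hb, hbm⟩ := blk_ex hx
      refine ⟨some (Sum.inr ⟨b, hb⟩), ?_⟩
      have h2 := vx_blk (⟨b, hb⟩ : blocks G v)
      by_contra hne
      have h3 := inter_le_two hG h2.1 hx hne
      rw [← h2.2, ← hbm, Finset.inter_self, Finset.card_map, (steiner_blocks hG v).1 b hb] at h3
      omega

theorem exists_iso (v : V) : Nonempty (pointBlockGraph (blocks G v) ≃g G) :=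
  ⟨{ toEquiv := Equiv.ofBijective _ (vx_bij hG v), map_rel_iff' := fun {s t} => (vx_adj hG v s t).symm }⟩

theorem card_sub (v : V) : Fintype.card {x // G.Adj v x} = 22 := by
  rw [← card_nb hG v, Fintype.card_subtype]
  congr 1
  ext x; simp

end srg

/-- isomorphic systems have isomorphic graphs -/
theorem pb_iso {α β : Type*} [DecidableEq β] {B : Set (Finset α)} {B' : Set (Finset β)} (h : SetSystemIso B B') : Nonempty (pointBlockGraph B ≃g pointBlockGraph B') := by
  classical
  obtain ⟨e, he⟩ := h
  have hB : ∀ s, s.image e ∈ B' ↔ s ∈ B := by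
    intro s
    rw [← he]
    constructor
    · rintro ⟨t, ht, hts⟩
      rw [← Finset.image_injective e.injective hts]; exact ht
    · intro hs; exact ⟨s, hs, rfl⟩
  have hsurj : ∀ b : B', ∃ s ∈ B, s.image e = b := by
    intro b
    exact (Set.ext_iff.mp he _).mpr b.2
  let F : Option (α ⊕ B) → Option (β ⊕ B')
    | none => none
    | some (Sum.inl a) => some (Sum.inl (e a))
    | some (Sum.inr b) => some (Sum.inr ⟨(b : Finset α).image e, (hB _).mpr b.2⟩)
  have hF : Function.Bijective F := by
    constructor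
    · rintro (_ | a | b) (_ | a' | b') h <;> simp only [F, Option.some.injEq, reduceCtorEq, Sum.inl.injEq, Sum.inr.injEq] at h ⊢
      · exact e.injective h
      · apply Subtype.ext
        exact Finset.image_injective e.injective (congrArg Subtype.val h)
    · rintro (_ | a | b)
      · exact ⟨none, rfl⟩
      · exact ⟨some (Sum.inl (e.symm a)), by simp [F]⟩
      · obtain ⟨s, hs, hsb⟩ := hsurj b
        exact ⟨some (Sum.inr ⟨s, hs⟩), by simp only [F]; congr 2; exact Subtype.ext hsb⟩
  have hd : ∀ s t : Finset α, Disjoint (s.image e) (t.image e) ↔ Disjoint s t := fun s t => Finset.disjoint_image e.injective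
  refine ⟨{ toEquiv := Equiv.ofBijective F hF, map_rel_iff' := ?_ }⟩
  intro s t
  have hne : F s ≠ F t ↔ s ≠ t := hF.1.ne_iff
  show (pointBlockGraph B').Adj (F s) (F t) ↔ (pointBlockGraph B).Adj s t
  unfold pointBlockGraph
  rw [SimpleGraph.fromRel_adj, SimpleGraph.fromRel_adj, hne]
  have hr : ∀ s t, pointBlockRel B' (F s) (F t) ↔ pointBlockRel B s t := by
    intro s t
    rcases s with _ | a | b <;> rcases t with _ | a' | b' <;> simp only [F, pointBlockRel, hd]
    rw [Finset.mem_image]
    constructor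
    · rintro ⟨c, hc, h⟩; rw [← e.injective h]; exact hc
    · intro h; exact ⟨a, h, rfl⟩
  rw [hr, hr]

end CfsgLib.SrgHS
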