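import Mathlib
import Cfsg.Agent.Lib.Steiner
import Cfsg.Agent.Lib.GolayDod
import Cfsg.Prelude.Def_SporadicCombinatorics

/-!
Uniqueness of the Steiner systems S(5,6,12) and S(4,5,11).
-/

set_option autoImplicit false

namespace CfsgLib.Steiner12

open CfsgLib.Golay CfsgLib.Steiner Finset Cfsg
open scoped Pointwise

/-! ### synthemes and totals -/

def part : Fin 15 → Fin 6 → Fin 6 := ![![1, 0, 3, 2, 5, 4], ![1, 0, 4, 5, 2, 3], ![1, 0, 5, 4, 3, 2], ![2, 3, 0, 1, 5, 4], ![2, 4, 0, 5, 1, 3], ![2, 5, 0, 4, 3, 1], ![3, 2, 1, 0, 5, 4], ![3, 4, 5, 0, 1, 2], ![3, 5, 4, 0, 2, 1], ![4, 2, 1, 5, 0, 3], ![4, 3, 5, 1, 0, 2], ![4, 5, 3, 2, 0, 1], ![5, 2, 1, 4, 3, 0], ![5, 3, 4, 1, 2, 0], ![5, 4, 3, 2, 1, 0]]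
def com : Fin 6 → Fin 6 → Fin 15 := ![![0, 8, 14, 9, 3, 2], ![8, 0, 10, 0, 12, 4], ![14, 10, 0, 5, 1, 6], ![9, 0, 5, 0, 7, 13], ![3, 12, 1, 7, 0, 11], ![2, 4, 6, 13, 11, 0]]
def totm : Fin 6 → ℕ := ![0x430c, 0x1511, 0x4462, 0x22a1, 0x188a, 0x2854]
def inT (t : Fin 6) (s : Fin 15) : Bool := (totm t).testBit s
def dis (s t : Fin 15) : Bool := decide (∀ m, part s m ≠ part t m)

set_option synthInstance.maxHeartbeats 2000000 in
set_option synthInstance.maxSize 4000 in
set_option maxRecDepth 10000 in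
theorem inv_part' : ∀ a : Fin 6, a ≠ 0 → ∀ b : Fin 6, b ≠ 1 → (b = 0 ↔ a = 1) → ∀ c : Fin 6, c ≠ 2 → (c = 0 ↔ a = 2) → (c = 1 ↔ b = 2) →
    ∀ d : Fin 6, d ≠ 3 → (d = 0 ↔ a = 3) → (d = 1 ↔ b = 3) → (d = 2 ↔ c = 3) →
    ∀ e : Fin 6, e ≠ 4 → (e = 0 ↔ a = 4) → (e = 1 ↔ b = 4) → (e = 2 ↔ c = 4) → (e = 3 ↔ d = 4) →
    ∀ f : Fin 6, f ≠ 5 → (f = 0 ↔ a = 5) → (f = 1 ↔ b = 5) → (f = 2 ↔ c = 5) → (f = 3 ↔ d = 5) → (f = 4 ↔ e = 5) →
    ∃ k : Fin 15, ∀ m, part k m = (![a, b, c, d, e, f] : Fin 6 → Fin 6) m := by decide +kernel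

theorem inv_part (f : Fin 6 → Fin 6) (h1 : ∀ m, f m ≠ m) (h2 : ∀ m, f (f m) = m) : ∃ k, part k = f := by
  have h : ∀ i j, f i = j ↔ f j = i := by
    intro i j
    constructor
    · rintro rfl; exact h2 i
    · rintro rfl; exact h2 j
  obtain ⟨k, hk⟩ := inv_part' (f 0) (h1 0) (f 1) (h1 1) (h 1 0) (f 2) (h1 2) (h 2 0) (h 2 1) (f 3) (h1 3) (h 3 0) (h 3 1) (h 3 2)
    (f 4) (h1 4) (h 4 0) (h 4 1) (h 4 2) (h 4 3) (f 5) (h1 5) (h 5 0) (h 5 1) (h 5 2) (h 5 3) (h 5 4)
  refine ⟨k, ?_⟩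
  funext m
  rw [hk]
  fin_cases m <;> rfl

theorem total_exists : ∀ a b : Fin 15, dis a b = true → ∀ c, dis a c = true → dis b c = true → ∀ d, dis a d = true → dis b d = true → dis c d = true →
    ∀ e, dis a e = true → dis b e = true → dis c e = true → dis d e = true → ∃ t, inT t a = true ∧ inT t b = true ∧ inT t c = true ∧ inT t d = true ∧ inT t e = true := by
  decide +kernel

theorem tot_unique : ∀ t t', ∀ s s', s ≠ s' → inT t s = true → inT t s' = true → inT t' s = true → inT t' s' = true → t = t' := by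
  decide +kernel

theorem com_spec : ∀ t t', t ≠ t' → ∀ s, inT t s = true → inT t' s = true → s = com t t' := by decide +kernel

theorem tot_dis : ∀ t a b, inT t a = true → inT t b = true → a ≠ b → dis a b = true := by decide +kernel

theorem tri_dec : ∀ t a, inT t a = true → ∀ b, inT t b = true → a ≠ b → ∀ c, inT t c = true → a ≠ c → b ≠ c →
    ∃ y, y ≠ 0 ∧ part a 0 ≠ y ∧ part b 0 ≠ y ∧ part c 0 ≠ y ∧
    ∀ n, n ≠ 0 → n ≠ y → (part a 0 = n ∨ part b 0 = n ∨ part c 0 = n ∨ part a y = n ∨ part b y = n ∨ part c y = n) := by decide +kernel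

/-! ### the labeling -/

section
variable {α : Type*} [Fintype α] [DecidableEq α] (hα : Fintype.card α = 12) {B : Set (Finset α)} (hB : IsSteinerSystem 5 6 B)
include hB

theorem five_eq {b c : Finset α} (hb : b ∈ B) (hc : c ∈ B) {F : Finset α} (hF : 5 ≤ F.card) (h1 : F ⊆ b) (h2 : F ⊆ c) : b = c := by
  by_contra hne
  have := card_inter_lt hB hb hc hne
  have h3 := Finset.card_le_card (Finset.subset_inter h1 h2)
  omega

include hα

theorem labels : ∃ (A : Finset α) (u v : Fin 6 → α), A ∈ B ∧ Function.Injective u ∧ Function.Injective v ∧ (∀ i, u i ∈ A) ∧ (∀ m, v m ∉ A) ∧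
    ∀ i j m, i ≠ j → insert (v m) (insert (v (part (com i j) m)) (A \ {u i, u j})) ∈ B := by
  classical
  obtain ⟨T0, -, hT0⟩ := Finset.exists_subset_card_eq (s := (univ : Finset α)) (n := 5) (by rw [card_univ, hα]; norm_num)
  obtain ⟨A, ⟨hA, -⟩, -⟩ := hB.2 T0 hT0
  have hAc := hB.1 A hA
  have hAc' : Aᶜ.card = 6 := by rw [Finset.card_compl, hAc, hα]
  let oe : Fin 6 ≃ A := (Finset.equivFinOfCardEq hAc).symm
  let ve : Fin 6 ≃ (Aᶜ : Finset α) := (Finset.equivFinOfCardEq hAc').symm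
  let o : Fin 6 → α := fun i => (oe i : α)
  let v : Fin 6 → α := fun i => (ve i : α)
  have ho : ∀ i, o i ∈ A := fun i => (oe i).2
  have hoi : Function.Injective o := fun i j hij => oe.injective (Subtype.ext hij)
  have hos : ∀ x ∈ A, ∃ i, o i = x := fun x hx => ⟨oe.symm ⟨x, hx⟩, by simp [o]⟩
  have hv : ∀ i, v i ∉ A := fun i => Finset.mem_compl.mp (ve i).2
  have hvi : Function.Injective v := fun i j hij => ve.injective (Subtype.ext hij)
  have hvs : ∀ x, x ∉ A → ∃ i, v i = x := fun x hx => ⟨ve.symm ⟨x, Finset.mem_compl.mpr hx⟩, by simp [v]⟩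
  have hov : ∀ i m, o i ≠ v m := fun i m h => hv m (h ▸ ho i)
  let Q : Fin 6 → Fin 6 → Finset α := fun i j => A \ {o i, o j}
  have hQc : ∀ i j, i ≠ j → (Q i j).card = 4 := by
    intro i j hij
    have h1 : ({o i, o j} : Finset α) ⊆ A := by
      intro x hx
      simp only [Finset.mem_insert, Finset.mem_singleton] at hx
      rcases hx with rfl | rfl <;> exact ho _
    rw [Finset.card_sdiff_of_subset h1, hAc, Finset.card_pair (fun h => hij (hoi h))]
  have hQsub : ∀ i j, Q i j ⊆ A := fun i j => Finset.sdiff_subset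
  have hQsymm : ∀ i j, Q i j = Q j i := fun i j => by simp only [Q, Finset.pair_comm]
  have hQmem : ∀ i j k, o k ∈ Q i j ↔ k ≠ i ∧ k ≠ j := by
    intro i j k
    simp only [Q, Finset.mem_sdiff, Finset.mem_insert, Finset.mem_singleton, not_or]
    constructor
    · rintro ⟨-, h1, h2⟩; exact ⟨fun h => h1 (by rw [h]), fun h => h2 (by rw [h])⟩
    · rintro ⟨h1, h2⟩; exact ⟨ho k, fun h => h1 (hoi h), fun h => h2 (hoi h)⟩
  -- partner function
  have hP' : ∀ i j m, ∃ n, i ≠ j → n ≠ m ∧ insert (v m) (insert (v n) (Q i j)) ∈ B := by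
    intro i j m
    by_cases hij : i = j
    · exact ⟨m, fun h => absurd hij h⟩
    have hvQ : v m ∉ Q i j := fun h => hv m (hQsub _ _ h)
    obtain ⟨c, ⟨hc, hsub⟩, -⟩ := hB.2 (insert (v m) (Q i j)) (by rw [Finset.card_insert_of_notMem hvQ, hQc i j hij])
    have hcA : c ≠ A := fun h => hv m (h ▸ hsub (Finset.mem_insert_self _ _))
    obtain ⟨z, hz, hzc⟩ : ∃ z, z ∉ insert (v m) (Q i j) ∧ insert z (insert (v m) (Q i j)) = c := by
      have h1 : (c \ insert (v m) (Q i j)).card = 1 := by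
        rw [Finset.card_sdiff_of_subset hsub, hB.1 c hc, Finset.card_insert_of_notMem hvQ, hQc i j hij]
      obtain ⟨z, hz⟩ := Finset.card_eq_one.mp h1
      have hz' : z ∈ c \ insert (v m) (Q i j) := by rw [hz]; simp
      rw [Finset.mem_sdiff] at hz'
      refine ⟨z, hz'.2, ?_⟩
      rw [Finset.insert_eq, ← hz, Finset.sdiff_union_of_subset hsub]
    have hzA : z ∉ A := by
      intro h
      apply hcA
      apply five_eq hB hc hA (F := insert z (Q i j))
      · rw [Finset.card_insert_of_notMem (fun h => hz (Finset.mem_insert_of_mem h)), hQc i j hij]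
      · rw [← hzc]; exact Finset.insert_subset_insert _ (Finset.subset_insert _ _)
      · exact Finset.insert_subset h (hQsub _ _)
    obtain ⟨n, rfl⟩ := hvs z hzA
    refine ⟨n, fun _ => ⟨fun h => hz (by rw [h]; exact Finset.mem_insert_self _ _), ?_⟩⟩
    rw [Finset.insert_comm, hzc]; exact hc
  choose P hP using hP'
  have hPu : ∀ i j, i ≠ j → ∀ m n, m ≠ n → insert (v m) (insert (v n) (Q i j)) ∈ B → n = P i j m := by
    intro i j hij m n hmn hb
    obtain ⟨h1, h2⟩ := hP i j m hij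
    have hvQ : v m ∉ Q i j := fun h => hv m (hQsub _ _ h)
    have h3 := five_eq hB hb h2 (F := insert (v m) (Q i j)) (by rw [Finset.card_insert_of_notMem hvQ, hQc i j hij])
      (Finset.insert_subset_insert _ (Finset.subset_insert _ _)) (Finset.insert_subset_insert _ (Finset.subset_insert _ _))
    have h4 : v n ∈ insert (v m) (insert (v (P i j m)) (Q i j)) := by rw [← h3]; simp
    simp only [Finset.mem_insert] at h4
    rcases h4 with h4 | h4 | h4
    · exact absurd (hvi h4).symm hmn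
    · exact hvi h4
    · exact absurd (hQsub _ _ h4) (hv n)
  have hPinv : ∀ i j, i ≠ j → ∀ m, P i j (P i j m) = m := by
    intro i j hij m
    obtain ⟨h1, h2⟩ := hP i j m hij
    exact (hPu i j hij _ _ h1 (by rw [Finset.insert_comm]; exact h2)).symm
  have hPsymm : ∀ i j, i ≠ j → ∀ m, P i j m = P j i m := by
    intro i j hij m
    obtain ⟨h1, h2⟩ := hP i j m hij
    exact hPu j i hij.symm m _ h1.symm (by rw [hQsymm j i]; exact h2)
  -- blocks meeting `A` in the three points other than `i, j, k`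
  have hfour : ∀ i j k, i ≠ j → i ≠ k → j ≠ k → ∀ m, P i j m ≠ P i k m := by
    intro i j k hij hik hjk m heq
    obtain ⟨h1, h2⟩ := hP i j m hij
    obtain ⟨h3, h4⟩ := hP i k m hik
    rw [← heq] at h4
    have hT : ((Q i j) \ {o k}).card = 3 := by
      rw [Finset.card_sdiff_of_subset (by rw [Finset.singleton_subset_iff, hQmem]; exact ⟨hik.symm, hjk.symm⟩), hQc i j hij, Finset.card_singleton]
    have hn1 : v (P i j m) ∉ (Q i j) \ {o k} := fun h => hv _ (hQsub _ _ (Finset.mem_sdiff.mp h).1)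
    have hn2 : v m ∉ insert (v (P i j m)) ((Q i j) \ {o k}) := by
      rw [Finset.mem_insert, not_or]
      exact ⟨fun h => h1 (hvi h).symm, fun h => hv _ (hQsub _ _ (Finset.mem_sdiff.mp h).1)⟩
    have h5 := five_eq hB h2 h4 (F := insert (v m) (insert (v (P i j m)) ((Q i j) \ {o k})))
      (by rw [Finset.card_insert_of_notMem hn2, Finset.card_insert_of_notMem hn1, hT])
      (Finset.insert_subset_insert _ (Finset.insert_subset_insert _ Finset.sdiff_subset))
      (Finset.insert_subset_insert _ (Finset.insert_subset_insert _ (by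
        intro x hx
        simp only [Q, Finset.mem_sdiff, Finset.mem_insert, Finset.mem_singleton, not_or] at hx ⊢
        exact ⟨hx.1.1, hx.1.2.1, hx.2⟩)))
    have h6 : o k ∈ insert (v m) (insert (v (P i j m)) (Q i k)) := by
      rw [← h5]
      apply Finset.mem_insert_of_mem; apply Finset.mem_insert_of_mem
      rw [hQmem]; exact ⟨hik.symm, hjk.symm⟩
    simp only [Finset.mem_insert] at h6
    rcases h6 with h6 | h6 | h6
    · exact hov _ _ h6
    · exact hov _ _ h6
    · exact ((hQmem i k k).mp h6).2 rfl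
  have hκ' : ∀ i j, ∃ s : Fin 15, i ≠ j → part s = P i j := by
    intro i j
    by_cases hij : i = j
    · exact ⟨0, fun h => absurd hij h⟩
    obtain ⟨k, hk⟩ := inv_part (P i j) (fun m => (hP i j m hij).1) (hPinv i j hij)
    exact ⟨k, fun _ => hk⟩
  choose κ hκ using hκ'
  have hdis : ∀ i j k, i ≠ j → i ≠ k → j ≠ k → dis (κ i j) (κ i k) = true := by
    intro i j k hij hik hjk
    rw [dis, decide_eq_true_iff]
    intro m
    rw [hκ i j hij, hκ i k hik]
    exact hfour i j k hij hik hjk m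
  have hne : ∀ (i : Fin 6) (l l' : Fin 5), l ≠ l' → i.succAbove l ≠ i.succAbove l' := fun i l l' h h' => h (Fin.succAbove_right_injective h')
  have hsa : ∀ (i : Fin 6) (l : Fin 5), i ≠ i.succAbove l := fun i l => (Fin.succAbove_ne i l).symm
  have hτ' : ∀ i, ∃ t, ∀ j, j ≠ i → inT t (κ i j) = true := by
    intro i
    obtain ⟨t, h0, h1, h2, h3, h4⟩ := total_exists (κ i (i.succAbove 0)) (κ i (i.succAbove 1)) (hdis _ _ _ (hsa i _) (hsa i _) (hne i _ _ (by decide)))
      (κ i (i.succAbove 2)) (hdis _ _ _ (hsa i _) (hsa i _) (hne i _ _ (by decide))) (hdis _ _ _ (hsa i _) (hsa i _) (hne i _ _ (by decide)))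
      (κ i (i.succAbove 3)) (hdis _ _ _ (hsa i _) (hsa i _) (hne i _ _ (by decide))) (hdis _ _ _ (hsa i _) (hsa i _) (hne i _ _ (by decide))) (hdis _ _ _ (hsa i _) (hsa i _) (hne i _ _ (by decide)))
      (κ i (i.succAbove 4)) (hdis _ _ _ (hsa i _) (hsa i _) (hne i _ _ (by decide))) (hdis _ _ _ (hsa i _) (hsa i _) (hne i _ _ (by decide))) (hdis _ _ _ (hsa i _) (hsa i _) (hne i _ _ (by decide))) (hdis _ _ _ (hsa i _) (hsa i _) (hne i _ _ (by decide)))
    refine ⟨t, fun j hj => ?_⟩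
    obtain ⟨l, rfl⟩ := Fin.exists_succAbove_eq hj
    fin_cases l
    · exact h0
    · exact h1
    · exact h2
    · exact h3
    · exact h4
  choose τ hτ using hτ'
  have hκsymm : ∀ i j, i ≠ j → κ i j = κ j i := by
    intro i j hij
    by_contra hcon
    have h1 : part (κ i j) = part (κ j i) := by
      rw [hκ i j hij, hκ j i hij.symm]; funext m; exact hPsymm i j hij m
    have hpi : ∀ s s', (∀ m, part s m = part s' m) → s = s' := by decide +kernel
    exact hcon (hpi _ _ (fun m => congrFun h1 m))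
  have hdne : ∀ s s', dis s s' = true → s ≠ s' := by decide +kernel
  have hτinj : Function.Injective τ := by
    intro i j hij
    by_contra hne'
    -- all totals are equal
    have hall : ∀ k, k ≠ i → k ≠ j → τ k = τ i := by
      intro k hki hkj
      have h1 := hτ i k hki
      have h2 := hτ j k hkj
      have h3 := hτ k i (Ne.symm hki)
      have h4 := hτ k j (Ne.symm hkj)
      rw [← hij] at h2
      rw [hκsymm k i hki] at h3
      rw [hκsymm k j hkj] at h4
      apply tot_unique _ _ (κ i k) (κ j k) _ h3 h4 h1 h2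
      rw [hκsymm i k (Ne.symm hki), hκsymm j k (Ne.symm hkj)]
      exact hdne _ _ (hdis k i j hki hkj hne')
    have h6 : ∀ i j : Fin 6, ∃ k : Fin 6, k ≠ i ∧ k ≠ j := by decide
    obtain ⟨k, hki, hkj⟩ := h6 i j
    have hin1 : inT (τ i) (κ i j) = true := hτ i j (Ne.symm hne')
    have hin2 : inT (τ i) (κ i k) = true := hτ i k hki
    have hin3 : inT (τ i) (κ j k) = true := by rw [hij]; exact hτ j k hkj
    have d1 : κ i j ≠ κ i k := hdne _ _ (hdis i j k hne' (Ne.symm hki) (Ne.symm hkj))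
    have d2 : κ i j ≠ κ j k := by rw [hκsymm i j hne']; exact hdne _ _ (hdis j i k (Ne.symm hne') (Ne.symm hkj) (Ne.symm hki))
    have d3 : κ i k ≠ κ j k := by
      rw [hκsymm i k (Ne.symm hki), hκsymm j k (Ne.symm hkj)]; exact hdne _ _ (hdis k i j hki hkj hne')
    obtain ⟨y, hy0, hya, hyb, hyc, hyn⟩ := tri_dec (τ i) (κ i j) hin1 (κ i k) hin2 d1 (κ j k) hin3 d2 d3
    rw [hκ i j hne'] at hya hyn
    rw [hκ i k (Ne.symm hki)] at hyb hyn
    rw [hκ j k (Ne.symm hkj)] at hyc hyn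
    -- the block through the three remaining points and `v 0`, `v y`
    set T : Finset α := A \ {o i, o j, o k} with hTdef
    have hTc : T.card = 3 := by
      have h1 : ({o i, o j, o k} : Finset α) ⊆ A := by
        intro x hx
        simp only [Finset.mem_insert, Finset.mem_singleton] at hx
        rcases hx with rfl | rfl | rfl <;> exact ho _
      have h2 : ({o i, o j, o k} : Finset α).card = 3 :=
        Finset.card_eq_three.mpr ⟨_, _, _, fun h => hne' (hoi h), fun h => hki (hoi h).symm, fun h => hkj (hoi h).symm, rfl⟩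
      rw [Finset.card_sdiff_of_subset h1, hAc, h2]
    have hvT : ∀ m, v m ∉ T := fun m h => hv m (Finset.mem_sdiff.mp h).1
    have hins : ∀ m n, m ≠ n → (insert (v m) (insert (v n) T)).card = 5 := by
      intro m n hmn
      rw [Finset.card_insert_of_notMem, Finset.card_insert_of_notMem (hvT n), hTc]
      rw [Finset.mem_insert, not_or]
      exact ⟨fun h => hmn (hvi h), hvT m⟩
    obtain ⟨c, ⟨hc, hsub⟩, -⟩ := hB.2 _ (hins 0 y (Ne.symm hy0))
    have h0c : v 0 ∈ c := hsub (by simp)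
    have hyc' : v y ∈ c := hsub (by simp)
    have hTc' : T ⊆ c := fun x hx => hsub (by simp [hx])
    -- if `c` contains the pair `v m, v n` with `n = P a b m` for two of the three, contradiction
    have hnoA : ∀ a b x, a ≠ b → x ≠ a → x ≠ b → (∀ z, z ∈ Q a b ↔ z = o x ∨ z ∈ T) → ∀ m n, m ≠ n → v m ∈ c → v n ∈ c → P a b m = n → o x ∈ c := by
      intro a b x hab hxa hxb hz m n hmn hm hn hP1
      obtain ⟨w1, w2⟩ := hP a b m hab
      rw [hP1] at w2
      have h1 : c = insert (v m) (insert (v n) (Q a b)) := by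
        apply five_eq hB hc w2 (F := insert (v m) (insert (v n) T)) (by rw [hins m n hmn])
        · apply Finset.insert_subset hm
          apply Finset.insert_subset hn
          exact hTc'
        · apply Finset.insert_subset_insert
          apply Finset.insert_subset_insert
          intro z hz'
          exact (hz z).mpr (Or.inr hz')
      rw [h1]
      apply Finset.mem_insert_of_mem; apply Finset.mem_insert_of_mem
      exact (hz _).mpr (Or.inl rfl)
    -- conversely if `o x ∈ c` then `y` is the partner of `0`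
    have hnoB : ∀ a b x, a ≠ b → x ≠ a → x ≠ b → (∀ z, z ∈ Q a b ↔ z = o x ∨ z ∈ T) → o x ∈ c → P a b 0 = y := by
      intro a b x hab hxa hxb hz hx
      have hxT : o x ∉ insert (v 0) (insert (v y) T) := by
        simp only [Finset.mem_insert, not_or]
        refine ⟨hov _ _, hov _ _, ?_⟩
        intro hxT
        have h1 : (Q a b) = T := by
          ext z; rw [hz]
          constructor
          · rintro (rfl | h) <;> assumption
          · exact Or.inr
        have := hQc a b hab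
        rw [h1, hTc] at this
        omega
      have h1 : insert (v 0) (insert (v y) (Q a b)) = c := by
        apply Finset.eq_of_subset_of_card_le
        · apply Finset.insert_subset h0c
          apply Finset.insert_subset hyc'
          intro z hz'
          rcases (hz z).mp hz' with rfl | h
          · exact hx
          · exact hTc' h
        · rw [hB.1 c hc, Finset.card_insert_of_notMem, Finset.card_insert_of_notMem, hQc a b hab]
          · exact fun h => hv _ (hQsub _ _ h)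
          · rw [Finset.mem_insert, not_or]
            exact ⟨fun h => hy0 (hvi h).symm, fun h => hv _ (hQsub _ _ h)⟩
      exact (hPu a b hab 0 y (Ne.symm hy0) (by rw [h1]; exact hc)).symm
    have zjk : ∀ z, z ∈ Q j k ↔ z = o i ∨ z ∈ T := by
      intro z
      simp only [Q, T, Finset.mem_sdiff, Finset.mem_insert, Finset.mem_singleton, not_or]
      constructor
      · rintro ⟨h1, h2, h3⟩
        by_cases hz : z = o i
        · exact Or.inl hz
        · exact Or.inr ⟨h1, hz, h2, h3⟩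
      · rintro (rfl | ⟨h1, h2, h3, h4⟩)
        · exact ⟨ho i, fun h => hne' (hoi h), fun h => hki (hoi h).symm⟩
        · exact ⟨h1, h3, h4⟩
    have zik : ∀ z, z ∈ Q i k ↔ z = o j ∨ z ∈ T := by
      intro z
      simp only [Q, T, Finset.mem_sdiff, Finset.mem_insert, Finset.mem_singleton, not_or]
      constructor
      · rintro ⟨h1, h2, h3⟩
        by_cases hz : z = o j
        · exact Or.inl hz
        · exact Or.inr ⟨h1, h2, hz, h3⟩
      · rintro (rfl | ⟨h1, h2, h3, h4⟩)
        · exact ⟨ho j, fun h => hne' (hoi h).symm, fun h => hkj (hoi h).symm⟩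
        · exact ⟨h1, h2, h4⟩
    have zij : ∀ z, z ∈ Q i j ↔ z = o k ∨ z ∈ T := by
      intro z
      simp only [Q, T, Finset.mem_sdiff, Finset.mem_insert, Finset.mem_singleton, not_or]
      constructor
      · rintro ⟨h1, h2, h3⟩
        by_cases hz : z = o k
        · exact Or.inl hz
        · exact Or.inr ⟨h1, h2, h3, hz⟩
      · rintro (rfl | ⟨h1, h2, h3, h4⟩)
        · exact ⟨ho k, fun h => hki (hoi h), fun h => hkj (hoi h)⟩
        · exact ⟨h1, h2, h3⟩
    have nk : o k ∉ c := fun h => hya (hnoB i j k hne' hki hkj zij h)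
    have nj : o j ∉ c := fun h => hyb (hnoB i k j (Ne.symm hki) (Ne.symm hne') (Ne.symm hkj) zik h)
    have ni : o i ∉ c := fun h => hyc (hnoB j k i (Ne.symm hkj) hne' (Ne.symm hki) zjk h)
    -- the sixth point
    have h1 : (c \ insert (v 0) (insert (v y) T)).card = 1 := by
      rw [Finset.card_sdiff_of_subset hsub, hB.1 c hc, hins 0 y (Ne.symm hy0)]
    obtain ⟨z, hz⟩ := Finset.card_eq_one.mp h1
    have hz' : z ∈ c \ insert (v 0) (insert (v y) T) := by rw [hz]; simp
    rw [Finset.mem_sdiff] at hz'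
    simp only [Finset.mem_insert, not_or] at hz'
    have hzA : z ∉ A := by
      intro h
      obtain ⟨x, rfl⟩ := hos z h
      apply hz'.2.2.2
      rw [hTdef]
      simp only [Finset.mem_sdiff, Finset.mem_insert, Finset.mem_singleton, not_or]
      exact ⟨h, fun h => ni (h ▸ hz'.1), fun h => nj (h ▸ hz'.1), fun h => nk (h ▸ hz'.1)⟩
    obtain ⟨n, rfl⟩ := hvs z hzA
    have hn0 : n ≠ 0 := fun h => hz'.2.1 (by rw [h])
    have hny : n ≠ y := fun h => hz'.2.2.1 (by rw [h])
    rcases hyn n hn0 hny with h | h | h | h | h | h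
    · exact nk (hnoA i j k hne' hki hkj zij 0 n (Ne.symm hn0) h0c hz'.1 h)
    · exact nj (hnoA i k j (Ne.symm hki) (Ne.symm hne') (Ne.symm hkj) zik 0 n (Ne.symm hn0) h0c hz'.1 h)
    · exact ni (hnoA j k i (Ne.symm hkj) hne' (Ne.symm hki) zjk 0 n (Ne.symm hn0) h0c hz'.1 h)
    · exact nk (hnoA i j k hne' hki hkj zij y n (Ne.symm hny) hyc' hz'.1 h)
    · exact nj (hnoA i k j (Ne.symm hki) (Ne.symm hne') (Ne.symm hkj) zik y n (Ne.symm hny) hyc' hz'.1 h)
    · exact ni (hnoA j k i (Ne.symm hkj) hne' (Ne.symm hki) zjk y n (Ne.symm hny) hyc' hz'.1 h)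
  have hτbij : Function.Bijective τ := Finite.injective_iff_bijective.mp hτinj
  let τe : Fin 6 ≃ Fin 6 := Equiv.ofBijective τ hτbij
  refine ⟨A, fun t => o (τe.symm t), v, hA, hoi.comp τe.symm.injective, hvi, fun t => ho _, hv, ?_⟩
  intro t t' m htt
  set i := τe.symm t with hi
  set j := τe.symm t' with hj
  have hij : i ≠ j := fun h => htt (τe.symm.injective h)
  have hti : τ i = t := τe.apply_symm_apply t
  have htj : τ j = t' := τe.apply_symm_apply t'
  have h1 := hτ i j (Ne.symm hij)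
  have h2 := hτ j i hij
  rw [hti] at h1
  rw [htj, hκsymm j i (Ne.symm hij)] at h2
  have h3 := com_spec t t' htt _ h1 h2
  rw [← h3, hκ i j hij]
  exact (hP i j m hij).2


end

/-! ### forcing the hexads -/

def K0 : List ℕ := [0x9f, 0x100bc, 0x4209c, 0x2809c, 0x400ba, 0x2209a, 0x1809a, 0x200b6, 0xa096, 0x50096, 0x80ae, 0x1208e, 0x6008e, 0x203e, 0x4801e, 0x3001e, 0x200b9, 0x12099, 0x48099, 0x20b5, 0x18095, 0x60095, 0x400ad, 0xa08d, 0x3008d, 0x803d, 0x2201d, 0x5001d, 0x80b3, 0x42093, 0x30093, 0x20ab, 0x2808b, 0x5008b, 0x1003b, 0xa01b, 0x6001b, 0x100a7, 0x22087, 0x48087, 0x40037, 0x12017, 0x28017, 0x2002f, 0x4200f, 0x1800f]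
def cert : List (ℕ × ℕ) := [(0xa027, 0xa007), (0xa0b8, 0xa098), (0x1202d, 0x1200d), (0x120b2, 0x12092), (0x18036, 0x18016), (0x180a9, 0x18089), (0x1a01c, 0x1801c), (0x1a083, 0x18083), (0x22033, 0x22013), (0x220ac, 0x2208c), (0x2803a, 0x2801a), (0x280a5, 0x28085), (0x2a00e, 0x2800e), (0x2a091, 0x28091), (0x30035, 0x30015), (0x300aa, 0x3008a), (0x3200b, 0x3000b), (0x32094, 0x30094), (0x38019, 0x30019), (0x38086, 0x30086), (0x42039, 0x42019), (0x420a6, 0x42086), (0x4802b, 0x4800b), (0x480b4, 0x48094), (0x4a015, 0x48015), (0x4a08a, 0x4808a), (0x5002e, 0x5000e), (0x500b1, 0x50091), (0x5201a, 0x5001a), (0x52085, 0x50085), (0x58013, 0x50013), (0x5808c, 0x5008c), (0x6003c, 0x6001c), (0x600a3, 0x60083), (0x62016, 0x60016), (0x62089, 0x60089), (0x6800d, 0x6000d), (0x68092, 0x60092), (0x70007, 0x60007), (0x70098, 0x60098), (0x1a02a, 0x1a00a), (0x1a031, 0x1a011), (0x1a0a4, 0x1a084), (0x2a029, 0x2a009), (0x2a034, 0x2a014), (0x2a0a2, 0x2a082), (0x32026, 0x32006), (0x32038,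 0x32018), (0x320a1, 0x32081), (0x38023, 0x38003), (0x3802c, 0x3800c), (0x380b0, 0x38090), (0x3a005, 0x38005), (0x3a012, 0x38012), (0x3a088, 0x38088), (0x4a02c, 0x4a00c), (0x4a032, 0x4a012), (0x4a0a1, 0x4a081), (0x52023, 0x52003), (0x52034, 0x52014), (0x520a8, 0x52088), (0x58025, 0x58005), (0x58038, 0x58018), (0x580a2, 0x58082), (0x5a006, 0x58006), (0x5a009, 0x58009), (0x5a090, 0x58090), (0x62025, 0x62005), (0x6202a, 0x6200a), (0x620b0, 0x62090), (0x68026, 0x68006), (0x68031, 0x68011), (0x680a8, 0x68088), (0x6a003, 0x68003), (0x6a018, 0x68018), (0x6a084, 0x68084), (0x70029, 0x70009), (0x70032, 0x70012), (0x700a4, 0x70084), (0x7200c, 0x7000c), (0x72011, 0x70011), (0x72082, 0x70082), (0x7800a, 0x7000a), (0x78014, 0x70014), (0x78081, 0x70081), (0x7a020, 0x7a000)]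

def low5 (F : ℕ) : Bool := and (Nat.beq (pop F) 5) (Nat.beq (Nat.land F 0x7a0bf) F)

/-- `h` is forced by `F` and the known blocks `K` -/
def step (K : List ℕ) (h F : ℕ) : Bool :=
  and (and (and (low5 F) (Nat.beq (pop h) 6)) (and (Nat.beq (Nat.land F h) F) (Nat.beq (Nat.land h 0x7a0bf) h)))
    (ixs.all fun p => or (or (Nat.beq (Nat.land (Nat.shiftRight h p) 1) 1) (Nat.beq (Nat.land (Nat.shiftRight 0x7a0bf p) 1) 0))
      (K.any fun k => Nat.beq (pop (Nat.land k (Nat.lor F (Nat.shiftLeft 1 p)))) 5))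

def chain : List (ℕ × ℕ) → List ℕ → Bool
  | [], _ => true
  | e :: l, K => and (step K e.1 e.2) (chain l (e.1 :: K))

theorem chain_check : chain cert K0 = true := by decide +kernel

theorem toFS_one_shiftLeft {p : ℕ} (hp : p < 24) : toFS (1 <<< p) = {pt p} := by
  ext q
  rw [mem_toFS, Finset.mem_singleton, testBit_one_shiftLeft, decide_eq_true_iff]
  constructor
  · rintro rfl; rw [pt_idx]
  · rintro rfl; rw [idx_pt hp]

theorem forced {B' : Set (Finset GolayPt)} (h1 : ∀ b ∈ B', b ⊆ D0 ∧ b.card = 6) (h2 : ∀ F ⊆ D0, F.card = 5 → ∃! b, b ∈ B' ∧ F ⊆ b)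
    {K : List ℕ} (hK : ∀ k ∈ K, k < 2 ^ 24 ∧ toFS k ∈ B') {h F : ℕ} (hs : step K h F = true) : h < 2 ^ 24 ∧ toFS h ∈ B' := by
  simp only [step, low5, Bool.and_eq_true] at hs
  obtain ⟨⟨⟨⟨a1, a2⟩, a3⟩, a4, a5⟩, a6⟩ := hs
  have b1 : pop F = 5 := Nat.eq_of_beq_eq_true a1
  have b2 : F &&& 0x7a0bf = F := Nat.eq_of_beq_eq_true a2
  have b3 : pop h = 6 := Nat.eq_of_beq_eq_true a3
  have b4 : F &&& h = F := Nat.eq_of_beq_eq_true a4
  have b5 : h &&& 0x7a0bf = h := Nat.eq_of_beq_eq_true a5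
  have hlt : h < 2 ^ 24 := by rw [← b5]; exact lt_of_le_of_lt Nat.and_le_right (by norm_num)
  have Flt : F < 2 ^ 24 := by rw [← b2]; exact lt_of_le_of_lt Nat.and_le_right (by norm_num)
  refine ⟨hlt, ?_⟩
  have hFD : toFS F ⊆ D0 := by
    rw [← Finset.inter_eq_left]
    change toFS F ∩ D0 = toFS F
    rw [← toFS_mask D0, mask_D0, ← toFS_land, b2]
  have hFh : toFS F ⊆ toFS h := by
    rw [← Finset.inter_eq_left, ← toFS_land, b4]
  have hFc : (toFS F).card = 5 := by rw [card_toFS Flt, b1]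
  obtain ⟨c, ⟨hc, hFc'⟩, -⟩ := h2 _ hFD hFc
  obtain ⟨hcD, hc6⟩ := h1 c hc
  have h3 : (c \ toFS F).card = 1 := by rw [Finset.card_sdiff_of_subset hFc', hc6, hFc]
  obtain ⟨z, hz⟩ := Finset.card_eq_one.mp h3
  have hz' : z ∈ c \ toFS F := by rw [hz]; simp
  rw [Finset.mem_sdiff] at hz'
  have hceq : c = toFS (F ||| 1 <<< idx z) := by
    rw [toFS_lor, toFS_one_shiftLeft (idx_lt z), pt_idx, ← hz, Finset.union_sdiff_of_subset hFc']
  have h4 := List.all_eq_true.mp a6 (idx z) (mem_ixs.mpr (idx_lt z))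
  simp only [Bool.or_eq_true] at h4
  rcases h4 with (h4 | h4) | h4
  · have h5 : (h >>> idx z) &&& 1 = 1 := Nat.eq_of_beq_eq_true h4
    have h6 : z ∈ toFS h := by
      rw [mem_toFS, Nat.testBit, Nat.and_comm, h5]; rfl
    have h7 : c ⊆ toFS h := by
      intro x hx
      by_cases hxF : x ∈ toFS F
      · exact hFh hxF
      · have : x ∈ c \ toFS F := Finset.mem_sdiff.mpr ⟨hx, hxF⟩
        rw [hz, Finset.mem_singleton] at this
        rw [this]; exact h6
    rw [← Finset.eq_of_subset_of_card_le h7 (by rw [card_toFS hlt, b3, hc6])]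
    exact hc
  · exfalso
    have h5 : (0x7a0bf >>> idx z) &&& 1 = 0 := Nat.eq_of_beq_eq_true h4
    have h6 : z ∈ D0 := hcD hz'.1
    rw [← toFS_mask D0, mask_D0, mem_toFS, Nat.testBit, Nat.and_comm, h5] at h6
    exact absurd h6 (by decide)
  · exfalso
    rw [List.any_eq_true] at h4
    obtain ⟨k, hk, h5⟩ := h4
    have h6 : pop (k &&& (F ||| 1 <<< idx z)) = 5 := Nat.eq_of_beq_eq_true h5
    obtain ⟨hklt, hkB⟩ := hK k hk
    have h7 : (toFS k ∩ c).card = 5 := by
      rw [hceq, ← toFS_land, card_toFS (lt_of_le_of_lt Nat.and_le_left hklt), h6]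
    have h8 : toFS k = c := by
      obtain ⟨b, -, hb⟩ := h2 (toFS k ∩ c) (Finset.inter_subset_right.trans hcD) h7
      rw [hb (toFS k) ⟨hkB, Finset.inter_subset_left⟩, hb c ⟨hc, Finset.inter_subset_right⟩]
    rw [h8, Finset.inter_self, hc6] at h7
    omega

theorem chain_spec {B' : Set (Finset GolayPt)} (h1 : ∀ b ∈ B', b ⊆ D0 ∧ b.card = 6) (h2 : ∀ F ⊆ D0, F.card = 5 → ∃! b, b ∈ B' ∧ F ⊆ b) :
    ∀ (l : List (ℕ × ℕ)) (K : List ℕ), (∀ k ∈ K, k < 2 ^ 24 ∧ toFS k ∈ B') → chain l K = true → ∀ e ∈ l, toFS e.1 ∈ B'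
  | [], _, _, _ => by simp
  | e :: l, K, hK, h => by
    rw [chain, Bool.and_eq_true] at h
    have he := forced h1 h2 hK h.1
    intro e' he'
    rcases List.mem_cons.mp he' with rfl | he'
    · exact he.2
    · exact chain_spec h1 h2 l (e.1 :: K) (by
        intro k hk
        rcases List.mem_cons.mp hk with rfl | hk
        · exact he
        · exact hK k hk) h.2 e' he'

def allHex : List ℕ := cert.map Prod.fst ++ K0

theorem allHex_complete : allC (fun m => or (! (Nat.beq (pop m) 8)) (or (! (Nat.beq (pop (Nat.land m 0x7a0bf)) 6))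
    (allHex.any fun h => Nat.beq (Nat.land m 0x7a0bf) h))) rows 0 = true := by decide +kernel

theorem mem_hexads_base {h : Finset GolayPt} (hh : h ∈ hexadsOn D0) : ∃ k ∈ allHex, h = toFS k := by
  obtain ⟨hc, o, ho, rfl⟩ := hh
  obtain ⟨h1, h2⟩ := mem_octads_iff.mp ho
  have h3 := forall_code _ allHex_complete (mem_supports_iff.mpr h1)
  simp only [Bool.or_eq_true, Bool.not_eq_true', List.any_eq_true] at h3
  rcases h3 with h3 | h3 | ⟨k, hk, h3⟩
  · rw [h2] at h3; exact absurd h3 (by decide)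
  · have h4 : pop (Nat.land (mask o) 0x7a0bf) = 6 := by
      rw [card_eq_pop, mask_inter, mask_D0] at hc; exact hc
    rw [h4] at h3; exact absurd h3 (by decide)
  · refine ⟨k, hk, ?_⟩
    rw [← Nat.eq_of_beq_eq_true h3]
    change _ = toFS (mask o &&& 0x7a0bf)
    rw [← mask_D0, ← mask_inter, toFS_mask]

theorem hexad_through {F : Finset GolayPt} (hF : F ⊆ D0) (hc : F.card = 5) : ∃ h ∈ hexadsOn D0, F ⊆ h := by
  obtain ⟨o, ho, hFo⟩ := octad_through_five hc
  have h1 : F ⊆ o ∩ D0 := Finset.subset_inter hFo hF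
  have h2 := Finset.card_le_card h1
  have h3 := octad_inter_dodecad ho D0_mem
  exact ⟨o ∩ D0, ⟨by omega, o, ho, rfl⟩, h1⟩

theorem hexad_sub {h : Finset GolayPt} (hh : h ∈ hexadsOn D0) : h ⊆ D0 := by
  obtain ⟨-, o, -, rfl⟩ := hh; exact Finset.inter_subset_right

theorem eq_hexads {B' : Set (Finset GolayPt)} (h1 : ∀ b ∈ B', b ⊆ D0 ∧ b.card = 6) (h2 : ∀ F ⊆ D0, F.card = 5 → ∃! b, b ∈ B' ∧ F ⊆ b)
    (hK : ∀ k ∈ K0, k < 2 ^ 24 ∧ toFS k ∈ B') : B' = hexadsOn D0 := by
  have hle : hexadsOn D0 ⊆ B' := by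
    intro h hh
    obtain ⟨k, hk, rfl⟩ := mem_hexads_base hh
    rw [allHex, List.mem_append] at hk
    rcases hk with hk | hk
    · rw [List.mem_map] at hk
      obtain ⟨e, he, rfl⟩ := hk
      exact chain_spec h1 h2 cert K0 hK chain_check e he
    · exact (hK k hk).2
  apply Set.Subset.antisymm _ hle
  intro s hs
  obtain ⟨hsD, hs6⟩ := h1 s hs
  obtain ⟨F, hFs, hF⟩ := Finset.exists_subset_card_eq (s := s) (n := 5) (by omega)
  obtain ⟨h, hh, hFh⟩ := hexad_through (hFs.trans hsD) hF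
  obtain ⟨b, -, hb⟩ := h2 F (hFs.trans hsD) hF
  rw [hb s ⟨hs, hFs⟩, ← hb h ⟨hle hh, hFh⟩]
  exact hh

def ca : Fin 6 → ℕ := ![0, 1, 2, 3, 4, 7]
def cb : Fin 6 → ℕ := ![5, 13, 15, 16, 17, 18]
def KM (t t' m : Fin 6) : ℕ :=
  Nat.lor (Nat.shiftLeft 1 (cb m)) (Nat.lor (Nat.shiftLeft 1 (cb (part (com t t') m))) (Nat.xor (Nat.xor 0x9f (Nat.shiftLeft 1 (ca t))) (Nat.shiftLeft 1 (ca t'))))

theorem K0_spec : ∀ k ∈ K0, Nat.blt k 16777216 = true ∧ (k = 0x9f ∨ ∃ t t' m, t ≠ t' ∧ k = KM t t' m) := by decide +kernel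

theorem ca_lt : ∀ t, ca t < 24 := by decide
theorem cb_lt : ∀ t, cb t < 24 := by decide
theorem ca_mem : ∀ t, pt (ca t) ∈ toFS 0x9f := by decide +kernel
theorem cab_mem : (∀ t, pt (ca t) ∈ D0) ∧ ∀ t, pt (cb t) ∈ D0 := by decide +kernel
theorem ca_inj : ∀ t t', pt (ca t) = pt (ca t') → t = t' := by decide +kernel
theorem cb_inj : ∀ t t', pt (cb t) = pt (cb t') → t = t' := by decide +kernel
theorem cab_ne : ∀ t t', pt (ca t) ≠ pt (cb t') := by decide +kernel

theorem toFS_KM {t t' m : Fin 6} (h : t ≠ t') : toFS (KM t t' m) =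
    insert (pt (cb m)) (insert (pt (cb (part (com t t') m))) (toFS 0x9f \ {pt (ca t), pt (ca t')})) := by
  have e1 : KM t t' m = (1 <<< cb m) ||| ((1 <<< cb (part (com t t') m)) ||| ((0x9f ^^^ (1 <<< ca t)) ^^^ (1 <<< ca t'))) := rfl
  rw [e1, toFS_lor, toFS_lor, toFS_xor, toFS_xor, toFS_one_shiftLeft (cb_lt _), toFS_one_shiftLeft (cb_lt _),
    toFS_one_shiftLeft (ca_lt _), toFS_one_shiftLeft (ca_lt _)]
  have h1 := ca_mem t
  have h2 := ca_mem t'
  have h3 : pt (ca t) ≠ pt (ca t') := fun h' => h (ca_inj _ _ h')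
  ext x
  simp only [Finset.mem_union, Finset.mem_singleton, Finset.mem_symmDiff, Finset.mem_insert, Finset.mem_sdiff, not_or]
  by_cases hx : x = pt (ca t)
  · subst hx; simp [h1, h3]
  · by_cases hx' : x = pt (ca t')
    · subst hx'; simp [h2, hx]
    · simp [hx, hx']

/-! ### labelings -/

section lab
variable {α : Type*} [Fintype α] [DecidableEq α]

def out (f : α → GolayPt) : Finset GolayPt := D0 \ univ.image f

def Lab (f : α → GolayPt) (B : Set (Finset α)) : Prop :=
  Function.Injective f ∧ (∀ x, f x ∈ D0) ∧ ∀ s : Finset α, s ∈ B ↔ s.image f ∪ out f ∈ hexadsOn D0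

theorem mem_out {f : α → GolayPt} {x : GolayPt} : x ∈ out f ↔ x ∈ D0 ∧ ∀ a, f a ≠ x := by
  simp [out]

theorem card_D0 : D0.card = 12 := (mem_dodecads_iff.mp D0_mem).2 ▸ card_eq_pop _

theorem card_out {f : α → GolayPt} (hf : Function.Injective f) (hD : ∀ x, f x ∈ D0) : (out f).card + Fintype.card α = 12 := by
  have h1 : (univ.image f).card = Fintype.card α := by rw [Finset.card_image_of_injective _ hf, Finset.card_univ]
  have h2 : univ.image f ⊆ D0 := by
    intro x hx
    obtain ⟨a, -, rfl⟩ := Finset.mem_image.mp hx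
    exact hD a
  have h3 := Finset.card_sdiff_add_card_eq_card h2
  rw [h1, card_D0] at h3
  exact h3

theorem lab12 (hα : Fintype.card α = 12) {B : Set (Finset α)} (hB : IsSteinerSystem 5 6 B) : ∃ f, Lab f B := by
  classical
  obtain ⟨A, u, v, hA, hu, hv, huA, hvA, hbl⟩ := labels hα hB
  let L : Fin 6 ⊕ Fin 6 → α := Sum.elim u v
  have hLi : Function.Injective L := by
    rintro (i | i) (j | j) h
    · exact congrArg _ (hu h)
    · have h' : u i = v j := h
      exact absurd (h' ▸ huA i) (hvA j)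
    · have h' : v i = u j := h
      exact absurd (h'.symm ▸ huA j) (hvA i)
    · exact congrArg _ (hv h)
  have hLb : Function.Bijective L := (Fintype.bijective_iff_injective_and_card _).mpr ⟨hLi, by rw [hα]; rfl⟩
  let Le := Equiv.ofBijective L hLb
  let c : Fin 6 ⊕ Fin 6 → GolayPt := Sum.elim (fun t => pt (ca t)) (fun m => pt (cb m))
  have hci : Function.Injective c := by
    rintro (i | i) (j | j) h
    · exact congrArg _ (ca_inj _ _ h)
    · exact absurd h (cab_ne i j)
    · exact absurd (Eq.symm h) (cab_ne j i)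
    · exact congrArg _ (cb_inj _ _ h)
  let f : α → GolayPt := fun x => c (Le.symm x)
  have hf : Function.Injective f := hci.comp Le.symm.injective
  have hfL : ∀ t, f (L t) = c t := by
    intro t
    have : Le.symm (L t) = t := Le.symm_apply_apply t
    simp only [f, this]
  have hfu : ∀ t, f (u t) = pt (ca t) := fun t => hfL (Sum.inl t)
  have hfv : ∀ t, f (v t) = pt (cb t) := fun t => hfL (Sum.inr t)
  have hLs : ∀ x, ∃ t, L t = x := hLb.2
  have hD : ∀ x, f x ∈ D0 := by
    intro x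
    obtain ⟨t | t, rfl⟩ := hLs x
    · rw [hfL]; exact cab_mem.1 t
    · rw [hfL]; exact cab_mem.2 t
  have hout : out f = ∅ := by
    have := card_out hf hD
    rw [← Finset.card_eq_zero]; omega
  have himg : univ.image f = D0 := by
    have h1 : D0 ⊆ univ.image f := by
      rw [← Finset.sdiff_eq_empty_iff_subset]; exact hout
    apply Finset.Subset.antisymm _ h1
    intro x hx
    obtain ⟨a, -, rfl⟩ := Finset.mem_image.mp hx
    exact hD a
  have hAimg : A.image f = toFS 0x9f := by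
    apply Finset.eq_of_subset_of_card_le
    · intro y hy
      obtain ⟨x, hx, rfl⟩ := Finset.mem_image.mp hy
      obtain ⟨t | t, rfl⟩ := hLs x
      · rw [hfL]; exact ca_mem t
      · exact absurd hx (hvA t)
    · rw [Finset.card_image_of_injective _ hf, hB.1 A hA, card_toFS (by norm_num)]
      decide +kernel
  have key : {b : Finset GolayPt | ∃ s ∈ B, b = s.image f} = hexadsOn D0 := by
    apply eq_hexads
    · rintro _ ⟨s, hs, rfl⟩
      refine ⟨?_, by rw [Finset.card_image_of_injective _ hf, hB.1 s hs]⟩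
      intro x hx
      obtain ⟨a, -, rfl⟩ := Finset.mem_image.mp hx
      exact hD a
    · intro F hFD hF
      have hFi : (univ.filter fun x => f x ∈ F).image f = F := by
        ext y
        simp only [Finset.mem_image, Finset.mem_filter, Finset.mem_univ, true_and]
        constructor
        · rintro ⟨x, hx, rfl⟩; exact hx
        · intro hy
          have : y ∈ univ.image f := by rw [himg]; exact hFD hy
          obtain ⟨x, -, rfl⟩ := Finset.mem_image.mp this
          exact ⟨x, hy, rfl⟩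
      have hFc : (univ.filter fun x => f x ∈ F).card = 5 := by
        rw [← hF, ← hFi, Finset.card_image_of_injective _ hf, hFi]
      obtain ⟨s, ⟨hs, hsub⟩, huniq⟩ := hB.2 _ hFc
      refine ⟨s.image f, ⟨⟨s, hs, rfl⟩, ?_⟩, ?_⟩
      · rw [← hFi]; exact Finset.image_subset_image hsub
      · rintro _ ⟨⟨s', hs', rfl⟩, hFs'⟩
        rw [huniq s' ⟨hs', ?_⟩]
        intro x hx
        simp only [Finset.mem_filter, Finset.mem_univ, true_and] at hx
        obtain ⟨y, hy, hxy⟩ := Finset.mem_image.mp (hFs' hx)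
        rw [← hf hxy]; exact hy
    · intro k hk
      obtain ⟨h1, h2⟩ := K0_spec k hk
      refine ⟨Nat.le_of_ble_eq_true h1, ?_⟩
      rcases h2 with rfl | ⟨t, t', m, htt, rfl⟩
      · exact ⟨A, hA, hAimg.symm⟩
      · refine ⟨_, hbl t t' m htt, ?_⟩
        rw [toFS_KM htt, Finset.image_insert, Finset.image_insert, Finset.image_sdiff _ _ hf, hAimg, Finset.image_insert,
          Finset.image_singleton, hfv, hfv, hfu, hfu]
  refine ⟨f, hf, hD, ?_⟩
  intro s
  rw [hout, Finset.union_empty, ← key]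
  constructor
  · intro hs; exact ⟨s, hs, rfl⟩
  · rintro ⟨s', hs', he⟩
    rw [Finset.image_injective hf he]; exact hs'

end lab

end CfsgLib.Steiner12
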