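import Mathlib
import Cfsg.Agent.Lib.Steiner12
import Cfsg.Agent.Lib.GolayM
import Cfsg.Agent.Lib.GolayQuartet

/-!
S(4,5,11) and automorphism groups of the small Mathieu systems.
-/

set_option autoImplicit false

namespace CfsgLib.Steiner12

open CfsgLib.Golay CfsgLib.Steiner Finset Cfsg
open scoped Pointwise

section ext
variable {α : Type*} [Fintype α] [DecidableEq α]

/-- the extension of S(4,5,11) -/
def extB (B : Set (Finset α)) : Set (Finset (Option α)) :=
  {t | ∃ b ∈ B, t = insert none (b.map Function.Embedding.some) ∨ t = (bᶜ).map Function.Embedding.some}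

theorem none_not_mem (b : Finset α) : (none : Option α) ∉ b.map Function.Embedding.some := by simp

theorem insert_none_inj {b c : Finset α} (h : insert none (b.map Function.Embedding.some) = insert none (c.map Function.Embedding.some)) : b = c := by
  have h1 : b.map Function.Embedding.some = c.map Function.Embedding.some := by
    rw [← Finset.erase_insert (none_not_mem b), h, Finset.erase_insert (none_not_mem c)]
  exact Finset.map_injective _ h1

theorem mem_extB_insert {B : Set (Finset α)} {s : Finset α} : insert none (s.map Function.Embedding.some) ∈ extB B ↔ s ∈ B := by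
  constructor
  · rintro ⟨b, hb, h | h⟩
    · rw [insert_none_inj h]; exact hb
    · have : (none : Option α) ∈ insert none (s.map Function.Embedding.some) := Finset.mem_insert_self _ _
      rw [h] at this
      exact absurd this (none_not_mem _)
  · intro h; exact ⟨s, h, Or.inl rfl⟩

theorem extB_steiner (hα : Fintype.card α = 11) {B : Set (Finset α)} (hB : IsSteinerSystem 4 5 B) : IsSteinerSystem 5 6 (extB B) := by
  classical
  refine ⟨?_, ?_⟩
  · rintro _ ⟨b, hb, rfl | rfl⟩
    · rw [Finset.card_insert_of_notMem (none_not_mem b), Finset.card_map, hB.1 b hb]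
    · rw [Finset.card_map, Finset.card_compl, hB.1 b hb, hα]
  · intro F hF
    by_cases hn : none ∈ F
    · obtain ⟨F', hF'⟩ : ∃ F' : Finset α, F = insert none (F'.map Function.Embedding.some) := by
        refine ⟨Finset.eraseNone F, ?_⟩
        rw [Finset.map_some_eraseNone, Finset.insert_erase hn]
      subst hF'
      rw [Finset.card_insert_of_notMem (none_not_mem _), Finset.card_map] at hF
      obtain ⟨b, ⟨hb, hsub⟩, huniq⟩ := hB.2 F' (by omega)
      refine ⟨insert none (b.map Function.Embedding.some), ⟨⟨b, hb, Or.inl rfl⟩, ?_⟩, ?_⟩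
      · exact Finset.insert_subset_insert _ (Finset.map_subset_map.mpr hsub)
      · rintro _ ⟨⟨c, hc, rfl | rfl⟩, hFc⟩
        · rw [huniq c ⟨hc, ?_⟩]
          intro x hx
          have h1 : (some x : Option α) ∈ insert none (c.map Function.Embedding.some) := hFc (Finset.mem_insert_of_mem (Finset.mem_map_of_mem _ hx))
          simpa using h1
        · exact absurd (hFc (Finset.mem_insert_self _ _)) (none_not_mem _)
    · obtain ⟨F', hF'⟩ : ∃ F' : Finset α, F = F'.map Function.Embedding.some := by
        refine ⟨Finset.eraseNone F, ?_⟩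
        rw [Finset.map_some_eraseNone, Finset.erase_eq_of_notMem hn]
      subst hF'
      rw [Finset.card_map] at hF
      obtain ⟨x, hx, h, hpos⟩ := set_eqs hB (by norm_num) F'
      rw [hα, hF] at h
      have h0 := h 0 (by norm_num)
      have h1 := h 1 (by norm_num)
      have h2 := h 2 (by norm_num)
      have h3 := h 3 (by norm_num)
      have h4 := h 4 (by norm_num)
      simp only [Finset.sum_range_succ, Finset.sum_range_zero, Nat.choose, lam] at h0 h1 h2 h3 h4
      norm_num [Nat.choose] at h0 h1 h2 h3 h4
      have hx5 : x 5 ≤ 1 := by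
        rw [hx, Finset.card_le_one]
        intro a ha b hb
        rw [Finset.mem_filter, mem_bl] at ha hb
        have e1 : F' = a := by
          have : F' ∩ a = F' := Finset.eq_of_subset_of_card_le Finset.inter_subset_left (by rw [ha.2, hF])
          apply Finset.eq_of_subset_of_card_le (Finset.inter_eq_left.mp this)
          rw [hB.1 a ha.1, hF]
        have e2 : F' = b := by
          have : F' ∩ b = F' := Finset.eq_of_subset_of_card_le Finset.inter_subset_left (by rw [hb.2, hF])
          apply Finset.eq_of_subset_of_card_le (Finset.inter_eq_left.mp this)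
          rw [hB.1 b hb.1, hF]
        rw [← e1, ← e2]
      by_cases hFB : F' ∈ B
      · have hx5' : 0 < x 5 := by
          have := hpos F' hFB
          rwa [Finset.inter_self, hF] at this
        have hx0 : x 0 = 0 := by omega
        refine ⟨insert none (F'.map Function.Embedding.some), ⟨⟨F', hFB, Or.inl rfl⟩, Finset.subset_insert _ _⟩, ?_⟩
        rintro _ ⟨⟨c, hc, rfl | rfl⟩, hFc⟩
        · have : F' ⊆ c := by
            intro y hy
            have h1 : (some y : Option α) ∈ insert none (c.map Function.Embedding.some) := hFc (Finset.mem_map_of_mem _ hy)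
            simpa using h1
          rw [Finset.eq_of_subset_of_card_le this (by rw [hB.1 c hc, hF])]
        · exfalso
          have h5 := Finset.map_subset_map.mp hFc
          have h6 : (F' ∩ c).card = 0 := by
            rw [Finset.card_eq_zero]
            rw [← Finset.disjoint_iff_inter_eq_empty]
            exact Finset.disjoint_left.mpr (fun y hy hy' => (Finset.mem_compl.mp (h5 hy)) hy')
          have := hpos c hc
          rw [h6, hx0] at this
          omega
      · have hx5' : x 5 = 0 := by
          rw [hx, Finset.card_eq_zero, Finset.filter_eq_empty_iff]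
          intro a ha hcon
          rw [mem_bl] at ha
          have : F' ∩ a = F' := Finset.eq_of_subset_of_card_le Finset.inter_subset_left (by rw [hcon, hF])
          have e1 : F' = a := by
            apply Finset.eq_of_subset_of_card_le (Finset.inter_eq_left.mp this)
            rw [hB.1 a ha, hF]
          exact hFB (e1 ▸ ha)
        have hx0 : x 0 = 1 := by omega
        rw [hx, Finset.card_eq_one] at hx0
        obtain ⟨b, hb⟩ := hx0
        have hb' : b ∈ (bl B).filter fun c => (F' ∩ c).card = 0 := by rw [hb]; simp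
        rw [Finset.mem_filter, mem_bl] at hb'
        refine ⟨(bᶜ).map Function.Embedding.some, ⟨⟨b, hb'.1, Or.inr rfl⟩, ?_⟩, ?_⟩
        · apply Finset.map_subset_map.mpr
          intro y hy
          rw [Finset.mem_compl]
          intro hyb
          have h5 := hb'.2
          rw [Finset.card_eq_zero] at h5
          have : y ∈ F' ∩ b := Finset.mem_inter.mpr ⟨hy, hyb⟩
          rw [h5] at this
          exact absurd this (Finset.notMem_empty _)
        · rintro _ ⟨⟨c, hc, rfl | rfl⟩, hFc⟩
          · exfalso
            have : F' ⊆ c := by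
              intro y hy
              have h1 : (some y : Option α) ∈ insert none (c.map Function.Embedding.some) := hFc (Finset.mem_map_of_mem _ hy)
              simpa using h1
            exact hFB (Finset.eq_of_subset_of_card_le this (by rw [hB.1 c hc, hF]) ▸ hc)
          · have h5 := Finset.map_subset_map.mp hFc
            have h6 : (F' ∩ c).card = 0 := by
              rw [Finset.card_eq_zero]
              rw [← Finset.disjoint_iff_inter_eq_empty]
              exact Finset.disjoint_left.mpr (fun y hy hy' => (Finset.mem_compl.mp (h5 hy)) hy')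
            have h7 : c ∈ (bl B).filter fun c => (F' ∩ c).card = 0 := by rw [Finset.mem_filter, mem_bl]; exact ⟨hc, h6⟩
            rw [hb, Finset.mem_singleton] at h7
            rw [h7]

theorem lab11 (hα : Fintype.card α = 11) {B : Set (Finset α)} (hB : IsSteinerSystem 4 5 B) : ∃ f, Lab f B := by
  obtain ⟨f, hf, hD, hfB⟩ := lab12 (by rw [Fintype.card_option, hα]) (extB_steiner hα hB)
  have hout : out f = ∅ := by
    have := card_out hf hD
    rw [Fintype.card_option, hα] at this
    rw [← Finset.card_eq_zero]; omega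
  let f' : α → GolayPt := fun x => f (some x)
  have hf' : Function.Injective f' := hf.comp (Option.some_injective _)
  have hD' : ∀ x, f' x ∈ D0 := fun x => hD _
  have hout' : out f' = {f none} := by
    have h1 : f none ∈ out f' := by
      rw [mem_out]
      exact ⟨hD _, fun a h => by have := hf h; exact absurd this (by simp)⟩
    symm
    apply Finset.eq_of_subset_of_card_le (by simpa using h1)
    have := card_out hf' hD'
    rw [Finset.card_singleton]; omega
  refine ⟨f', hf', hD', ?_⟩
  intro s
  rw [← mem_extB_insert, hfB, hout, hout', Finset.union_empty, Finset.image_insert, Finset.insert_eq, Finset.union_comm]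
  have : (s.map Function.Embedding.some).image f = s.image f' := by
    rw [Finset.map_eq_image, Finset.image_image]; rfl
  rw [this]

end ext

/-! ### isomorphisms -/

theorem compl_hexad {h : Finset GolayPt} (hh : h ∈ hexadsOn D0) : D0 \ h ∈ hexadsOn D0 := by
  obtain ⟨hc, o, ho, rfl⟩ := hh
  have h1 : symmDiff o D0 ∈ octads := by
    rw [mem_octads_iff]
    have hD : D0 ∈ supports (golayCode : Set (GolayPt → ZMod 2)) := mem_supports_iff.mpr (mem_dodecads_iff.mp D0_mem).1
    have hO : o ∈ supports (golayCode : Set (GolayPt → ZMod 2)) := mem_supports_iff.mpr (mem_octads_iff.mp ho).1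
    refine ⟨mem_supports_iff.mp (symmDiff_mem hO hD), ?_⟩
    have h2 := card_symmDiff' o D0
    have h3 : o.card = 8 := by rw [card_eq_pop]; exact (mem_octads_iff.mp ho).2
    rw [← card_eq_pop]
    rw [card_D0] at h2
    omega
  refine ⟨?_, symmDiff o D0, h1, ?_⟩
  · rw [Finset.card_sdiff_of_subset Finset.inter_subset_right, card_D0, hc]
  · ext x
    simp only [Finset.mem_inter, Finset.mem_symmDiff, Finset.mem_sdiff]
    tauto

section iso
variable {α β : Type*} [Fintype α] [DecidableEq α] [Fintype β] [DecidableEq β]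

theorem smul_out {f : α → GolayPt} {f' : β → GolayPt} (hD : ∀ x, f x ∈ D0) {g : Equiv.Perm GolayPt} (hgD : g • D0 = D0) (h : g • out f = out f') (x : α) : ∃ y, f' y = g (f x) := by
  by_contra hcon
  push Not at hcon
  have h1 : g (f x) ∈ out f' := mem_out.mpr ⟨by rw [← hgD]; exact mem_smul_iff.mpr (hD x), hcon⟩
  rw [← h] at h1
  have h2 : f x ∈ out f := mem_smul_iff.mp h1
  exact (mem_out.mp h2).2 x rfl

theorem smul_mem_hexads' {g : Equiv.Perm GolayPt} (hg : g ∈ M24) (hgD : g • D0 = D0) {h : Finset GolayPt} : g • h ∈ hexadsOn D0 ↔ h ∈ hexadsOn D0 := by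
  constructor
  · intro hh
    have h1 := smul_mem_hexads (M24.inv_mem hg) hh
    rw [inv_smul_smul] at h1
    have h2 : g⁻¹ • D0 = D0 := by rw [inv_smul_eq_iff, hgD]
    rwa [h2] at h1
  · intro hh
    have h1 := smul_mem_hexads hg hh
    rwa [hgD] at h1

theorem lab_iso {f : α → GolayPt} {f' : β → GolayPt} {B : Set (Finset α)} {B' : Set (Finset β)} (hf : Lab f B) (hf' : Lab f' B')
    {g : Equiv.Perm GolayPt} (hg : g ∈ M24) (hgD : g • D0 = D0) (h : g • out f = out f') :
    ∃ e : α ≃ β, (∀ x, f' (e x) = g (f x)) ∧ ∀ s, s.image e ∈ B' ↔ s ∈ B := by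
  have hcard : Fintype.card α = Fintype.card β := by
    have h1 := card_out hf.1 hf.2.1
    have h2 := card_out hf'.1 hf'.2.1
    have h3 : (out f').card = (out f).card := by rw [← h]; exact card_smul' g _
    omega
  choose e he using smul_out hf.2.1 hgD h
  have hinj : Function.Injective e := by
    intro x y hxy
    have h1 := he x
    rw [hxy, he y] at h1
    exact (hf.1 (g.injective h1)).symm
  have hbij : Function.Bijective e := (Fintype.bijective_iff_injective_and_card _).mpr ⟨hinj, hcard⟩
  refine ⟨Equiv.ofBijective e hbij, he, ?_⟩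
  intro s
  rw [hf'.2.2, hf.2.2]
  have e1 : (s.image (Equiv.ofBijective e hbij)).image f' ∪ out f' = g • (s.image f ∪ out f) := by
    rw [Finset.smul_finset_union, h]
    congr 1
    ext x
    simp only [Finset.mem_image, Finset.mem_smul_finset, Equiv.ofBijective_apply, exists_exists_and_eq_and, he]
    rfl
  rw [e1]
  exact smul_mem_hexads' hg hgD

theorem setSystemIso_of_image {B : Set (Finset α)} {B' : Set (Finset β)} (e : α ≃ β) (h : ∀ s, s.image e ∈ B' ↔ s ∈ B) :
    SetSystemIso B B' := by
  refine ⟨e, ?_⟩
  ext t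
  constructor
  · rintro ⟨s, hs, rfl⟩
    exact (h s).mpr hs
  · intro ht
    refine ⟨t.image e.symm, ?_, ?_⟩
    · rw [← h]
      have : (t.image e.symm).image e = t := by
        rw [Finset.image_image]; simp
      rwa [this]
    · change (t.image e.symm).image e = t
      rw [Finset.image_image]; simp

theorem out_sub (f : α → GolayPt) : out f ⊆ D0 := Finset.sdiff_subset

theorem exists_smul_out {f : α → GolayPt} {f' : β → GolayPt} (h : (out f).card = (out f').card) (h5 : (out f).card ≤ 5) :
    ∃ g ∈ M24, g • D0 = D0 ∧ g • out f = out f' := by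
  obtain ⟨g, hg, hgD, hgl⟩ := dod_trans D0_mem D0_mem (l := (out f).toList) (l' := (out f').toList) (Finset.nodup_toList _) (Finset.nodup_toList _)
    (fun p hp => out_sub f (Finset.mem_toList.mp hp)) (fun p hp => out_sub f' (Finset.mem_toList.mp hp))
    (by rw [Finset.length_toList, Finset.length_toList, h]) (by rw [Finset.length_toList]; exact h5)
  refine ⟨g, hg, hgD, ?_⟩
  ext x
  rw [← Finset.mem_toList (s := out f'), ← hgl, List.mem_map, Finset.mem_smul_finset]
  simp only [Finset.mem_toList]
  rfl

theorem unique_of_lab {f : α → GolayPt} {f' : β → GolayPt} {B : Set (Finset α)} {B' : Set (Finset β)} (hf : Lab f B) (hf' : Lab f' B')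
    (hc : Fintype.card α = Fintype.card β) (h5 : 7 ≤ Fintype.card α) : SetSystemIso B B' := by
  have h1 := card_out hf.1 hf.2.1
  have h2 := card_out hf'.1 hf'.2.1
  obtain ⟨g, hg, hgD, hgo⟩ := exists_smul_out (f := f) (f' := f') (by omega) (by omega)
  obtain ⟨e, -, he⟩ := lab_iso hf hf' hg hgD hgo
  exact setSystemIso_of_image e he

end iso

/-! ### rigidity -/

theorem hexad_unique {F h h' : Finset GolayPt} (hh : h ∈ hexadsOn D0) (hh' : h' ∈ hexadsOn D0) (hF : 5 ≤ F.card) (h1 : F ⊆ h) (h2 : F ⊆ h') : h = h' := by
  obtain ⟨hc, o, ho, rfl⟩ := hh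
  obtain ⟨hc', o', ho', rfl⟩ := hh'
  rw [eq_of_five ho ho' (le_trans hF (Finset.card_le_card (Finset.subset_inter (h1.trans Finset.inter_subset_left) (h2.trans Finset.inter_subset_left))))]

theorem com_surj : ∀ k : Fin 15, ∃ t t', t ≠ t' ∧ com t t' = k := by decide +kernel
theorem KM_hex : ∀ t t' m, t ≠ t' → isHex (KM t t' m) = true ∧ Nat.blt (KM t t' m) 16777216 = true := by decide +kernel
theorem hexA : isHex 0x9f = true := by decide +kernel
theorem part_sep : ∀ m n, m ≠ n → ∃ k k', part k m = part k' m ∧ part k n ≠ part k' n := by decide +kernel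
theorem part_ne : ∀ k m, part k m ≠ m := by decide +kernel
theorem D0_cases : ∀ x : GolayPt, x ∈ D0 → (∃ t, x = pt (ca t)) ∨ ∃ m, x = pt (cb m) := by
  have h : ∀ x : GolayPt, (0x7a0bf : ℕ).testBit (idx x) = true → (∃ t, x = pt (ca t)) ∨ ∃ m, x = pt (cb m) := by decide +kernel
  intro x hx
  rw [← toFS_mask D0, mask_D0, mem_toFS] at hx
  exact h x hx

set_option maxHeartbeats 2000000 in
theorem rigid_base {g : Equiv.Perm GolayPt} (hgD : g • D0 = D0) (hgh : ∀ h ∈ hexadsOn D0, g • h ∈ hexadsOn D0)
    (h0 : g (pt 0) = pt 0) (h1 : g (pt 1) = pt 1) (h2 : g (pt 2) = pt 2) (h3 : g (pt 3) = pt 3) (h4 : g (pt 4) = pt 4) :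
    ∀ x ∈ D0, g x = x := by
  have hAh : toFS 0x9f ∈ hexadsOn D0 := by
    rw [mem_hexads_iff, mask_toFS (by norm_num)]; exact hexA
  have hAg : g • toFS 0x9f = toFS 0x9f := by
    apply hexad_unique (hgh _ hAh) hAh (F := {pt 0, pt 1, pt 2, pt 3, pt 4})
    · rw [five_card]
    · intro x hx
      have h5 : g⁻¹ x = x := by
        rw [Equiv.Perm.inv_eq_iff_eq]
        simp only [Finset.mem_insert, Finset.mem_singleton] at hx
        rcases hx with rfl | rfl | rfl | rfl | rfl
        · exact h0.symm
        · exact h1.symm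
        · exact h2.symm
        · exact h3.symm
        · exact h4.symm
      rw [← Finset.inv_smul_mem_iff]
      change g⁻¹ x ∈ _
      rw [h5]
      have : ∀ x ∈ ({pt 0, pt 1, pt 2, pt 3, pt 4} : Finset GolayPt), x ∈ toFS 0x9f := by decide +kernel
      exact this x hx
    · decide +kernel
  have h7 : g (pt 7) = pt 7 := by
    have h5 : g (pt 7) ∈ toFS 0x9f := by rw [← hAg]; exact mem_smul_iff.mpr (by decide +kernel)
    have h6 : ∀ x ∈ toFS 0x9f, x = pt 0 ∨ x = pt 1 ∨ x = pt 2 ∨ x = pt 3 ∨ x = pt 4 ∨ x = pt 7 := by decide +kernel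
    rcases h6 _ h5 with h | h | h | h | h | h
    · exact absurd (g.injective (h.trans h0.symm)) (by decide +kernel)
    · exact absurd (g.injective (h.trans h1.symm)) (by decide +kernel)
    · exact absurd (g.injective (h.trans h2.symm)) (by decide +kernel)
    · exact absurd (g.injective (h.trans h3.symm)) (by decide +kernel)
    · exact absurd (g.injective (h.trans h4.symm)) (by decide +kernel)
    · exact h
  have hca : ∀ t, g (pt (ca t)) = pt (ca t) := by
    intro t
    fin_cases t
    · exact h0
    · exact h1
    · exact h2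
    · exact h3
    · exact h4
    · exact h7
  have hcb : ∀ m, ∃ n, g (pt (cb m)) = pt (cb n) := by
    intro m
    have h5 : g (pt (cb m)) ∈ D0 := by rw [← hgD]; exact mem_smul_iff.mpr (cab_mem.2 m)
    rcases D0_cases _ h5 with ⟨t, ht⟩ | h
    · exfalso
      exact cab_ne t m (g.injective (ht.trans (hca t).symm)).symm
    · exact h
  choose π hπ using hcb
  have hcomm : ∀ k m, π (part k m) = part k (π m) := by
    intro k m
    obtain ⟨t, t', htt, rfl⟩ := com_surj k
    have e1 := toFS_KM (t := t) (t' := t') (m := m) htt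
    have e2 := toFS_KM (t := t) (t' := t') (m := π m) htt
    obtain ⟨a1, a2⟩ := KM_hex t t' m htt
    obtain ⟨b1, b2⟩ := KM_hex t t' (π m) htt
    have c1 : toFS (KM t t' m) ∈ hexadsOn D0 := by rw [mem_hexads_iff, mask_toFS (Nat.le_of_ble_eq_true a2)]; exact a1
    have c2 : toFS (KM t t' (π m)) ∈ hexadsOn D0 := by rw [mem_hexads_iff, mask_toFS (Nat.le_of_ble_eq_true b2)]; exact b1
    have hQ : g • (toFS 0x9f \ {pt (ca t), pt (ca t')}) = toFS 0x9f \ {pt (ca t), pt (ca t')} := by
      rw [Finset.smul_finset_sdiff, hAg, Finset.smul_finset_insert, Finset.smul_finset_singleton]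
      congr 1
      change {g (pt (ca t)), g (pt (ca t'))} = _
      rw [hca, hca]
    have d1 : g • toFS (KM t t' m) = insert (pt (cb (π m))) (insert (pt (cb (π (part (com t t') m)))) (toFS 0x9f \ {pt (ca t), pt (ca t')})) := by
      rw [e1, Finset.smul_finset_insert, Finset.smul_finset_insert, hQ]
      change insert (g (pt (cb m))) (insert (g (pt (cb (part (com t t') m)))) _) = _
      rw [hπ, hπ]
    have hcbA : ∀ m, pt (cb m) ∉ toFS 0x9f := by decide +kernel
    have hn : pt (cb (π m)) ∉ toFS 0x9f \ {pt (ca t), pt (ca t')} := fun h => hcbA _ (Finset.mem_sdiff.mp h).1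
    have hQc : (toFS 0x9f \ {pt (ca t), pt (ca t')}).card = 4 := by
      have : ({pt (ca t), pt (ca t')} : Finset GolayPt) ⊆ toFS 0x9f := by
        intro x hx
        simp only [Finset.mem_insert, Finset.mem_singleton] at hx
        rcases hx with rfl | rfl <;> exact ca_mem _
      rw [Finset.card_sdiff_of_subset this, Finset.card_pair (fun h => htt (ca_inj _ _ h)), card_toFS (by norm_num)]
      decide +kernel
    have e3 : g • toFS (KM t t' m) = toFS (KM t t' (π m)) := by
      apply hexad_unique (hgh _ c1) c2 (F := insert (pt (cb (π m))) (toFS 0x9f \ {pt (ca t), pt (ca t')}))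
      · rw [Finset.card_insert_of_notMem hn, hQc]
      · rw [d1]; exact Finset.insert_subset_insert _ (Finset.subset_insert _ _)
      · rw [e2]; exact Finset.insert_subset_insert _ (Finset.subset_insert _ _)
    have e4 : pt (cb (π (part (com t t') m))) ∈ toFS (KM t t' (π m)) := by
      rw [← e3, d1]; simp
    rw [e2] at e4
    simp only [Finset.mem_insert, Finset.mem_sdiff] at e4
    rcases e4 with e4 | e4 | e4
    · exfalso
      have h5 := cb_inj _ _ e4
      have h6 : pt (cb (part (com t t') m)) = pt (cb m) := g.injective (by rw [hπ, hπ, h5])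
      exact part_ne _ _ (cb_inj _ _ h6)
    · exact cb_inj _ _ e4
    · exact absurd e4.1 (hcbA _)
  have hid : ∀ m, π m = m := by
    intro m
    by_contra hne
    obtain ⟨k, k', h5, h6⟩ := part_sep m (π m) (Ne.symm hne)
    apply h6
    rw [← hcomm, ← hcomm, h5]
  intro x hx
  rcases D0_cases x hx with ⟨t, rfl⟩ | ⟨m, rfl⟩
  · exact hca t
  · rw [hπ, hid]

theorem rigid {g : Equiv.Perm GolayPt} (hgD : g • D0 = D0) (hgh : ∀ h ∈ hexadsOn D0, g • h ∈ hexadsOn D0)
    {l : List GolayPt} (hl : l.Nodup) (hlD : ∀ p ∈ l, p ∈ D0) (h5 : l.length = 5) (h : ∀ p ∈ l, g p = p) :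
    ∀ x ∈ D0, g x = x := by
  obtain ⟨k, hk, hkD, hkl⟩ := dod_trans D0_mem D0_mem (l := l) (l' := [pt 0, pt 1, pt 2, pt 3, pt 4]) hl (by decide +kernel) hlD
    (by decide +kernel) (by rw [h5]; rfl) (by omega)
  have hkD' : k⁻¹ • D0 = D0 := by rw [inv_smul_eq_iff, hkD]
  have key : ∀ x ∈ D0, (k * g * k⁻¹) x = x := by
    have hfix : ∀ p ∈ [pt 0, pt 1, pt 2, pt 3, pt 4], (k * g * k⁻¹) p = p := by
      intro p hp
      rw [← hkl, List.mem_map] at hp
      obtain ⟨q, hq, rfl⟩ := hp
      simp [h q hq]
    apply rigid_base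
    · rw [mul_smul, mul_smul, hkD', hgD, hkD]
    · intro h hh
      rw [mul_smul, mul_smul]
      exact (smul_mem_hexads' hk hkD).mpr (hgh _ ((smul_mem_hexads' (M24.inv_mem hk) hkD').mpr hh))
    · exact hfix _ (by simp)
    · exact hfix _ (by simp)
    · exact hfix _ (by simp)
    · exact hfix _ (by simp)
    · exact hfix _ (by simp)
  intro x hx
  have h6 := key (k x) (by rw [← hkD]; exact mem_smul_iff.mpr hx)
  have h7 : k⁻¹ (k x) = x := k.symm_apply_apply x
  simp only [Equiv.Perm.mul_apply, h7] at h6
  exact k.injective h6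

end CfsgLib.Steiner12
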