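import Mathlib
import Cfsg.Agent.Lib.Steiner12Aut

/-!
Automorphism groups of the small Mathieu systems.
-/

set_option autoImplicit false

namespace CfsgLib.Steiner12

open CfsgLib.Golay CfsgLib.Steiner Finset Cfsg
open scoped Pointwise

theorem mem_aut {α : Type*} [DecidableEq α] {B : Set (Finset α)} {e : Equiv.Perm α} :
    e ∈ setSystemAut B ↔ ∀ s, e • s ∈ B ↔ s ∈ B := by
  rw [MulAction.mem_stabilizer_set]

section
variable {α : Type*} [Fintype α] [DecidableEq α]

theorem smul_eq_image (e : Equiv.Perm α) (s : Finset α) : e • s = s.image e := rfl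

theorem exists_restrict {f : α → GolayPt} {B : Set (Finset α)} (hf : Lab f B) {g : Equiv.Perm GolayPt} (hg : g ∈ PSd D0 (out f).toList) :
    ∃ e : Equiv.Perm α, (∀ x, f (e x) = g (f x)) ∧ e ∈ setSystemAut B := by
  rw [mem_PSd] at hg
  obtain ⟨e, h1, h2⟩ := lab_iso hf hf hg.1 hg.2.1 (smul_eq_of_fix (fun p hp => hg.2.2 p (Finset.mem_toList.mpr hp)))
  exact ⟨e, h1, mem_aut.mpr h2⟩

noncomputable def psi {f : α → GolayPt} {B : Set (Finset α)} (hf : Lab f B) : PSd D0 (out f).toList →* setSystemAut B :=
  MonoidHom.mk' (fun g => ⟨(exists_restrict hf g.2).choose, (exists_restrict hf g.2).choose_spec.2⟩) (by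
    intro a b
    apply Subtype.ext
    apply Equiv.ext
    intro x
    apply hf.1
    have h1 := (exists_restrict hf (a * b).2).choose_spec.1 x
    have h2 := (exists_restrict hf b.2).choose_spec.1 x
    have h3 := (exists_restrict hf a.2).choose_spec.1 ((exists_restrict hf b.2).choose x)
    change f ((exists_restrict hf (a * b).2).choose x) = f ((exists_restrict hf a.2).choose ((exists_restrict hf b.2).choose x))
    rw [h1, h3, h2]; rfl)

theorem psi_apply {f : α → GolayPt} {B : Set (Finset α)} (hf : Lab f B) (g : PSd D0 (out f).toList) (x : α) :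
    f ((psi hf g : Equiv.Perm α) x) = (g : Equiv.Perm GolayPt) (f x) := (exists_restrict hf g.2).choose_spec.1 x

theorem psi_inj {f : α → GolayPt} {B : Set (Finset α)} (hf : Lab f B) (hc : 10 ≤ Fintype.card α) : Function.Injective (psi hf) := by
  rw [injective_iff_map_eq_one]
  intro g hg
  apply Subtype.ext
  apply eq_one_of_fix_ten (mem_PSd.mp g.2).1 (univ.image f)
  · rw [Finset.card_image_of_injective _ hf.1, Finset.card_univ]; exact hc
  · intro p hp
    obtain ⟨x, -, rfl⟩ := Finset.mem_image.mp hp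
    rw [← psi_apply hf g x, hg]; rfl

/-- extend a permutation of the points by the identity -/
theorem exists_extend_perm {f : α → GolayPt} (hf : Function.Injective f) (e : Equiv.Perm α) :
    ∃ g : Equiv.Perm GolayPt, (∀ x, g (f x) = f (e x)) ∧ ∀ y, (∀ x, f x ≠ y) → g y = y := by
  classical
  refine ⟨e.extendDomain (Equiv.ofInjective f hf), ?_, ?_⟩
  · intro x
    have := Equiv.Perm.extendDomain_apply_image e (Equiv.ofInjective f hf) x
    simpa using this
  · intro y hy
    apply Equiv.Perm.extendDomain_apply_not_subtype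
    rintro ⟨x, hx⟩
    exact hy x hx

/-- automorphisms preserve all the hexads -/
theorem ext_hexads {f : α → GolayPt} {B : Set (Finset α)} (hf : Lab f B) (hout : (out f).card ≤ 1) {e : Equiv.Perm α} (he : e ∈ setSystemAut B)
    {g : Equiv.Perm GolayPt} (h1 : ∀ x, g (f x) = f (e x)) (h2 : ∀ y, (∀ x, f x ≠ y) → g y = y) :
    g • D0 = D0 ∧ ∀ h ∈ hexadsOn D0, g • h ∈ hexadsOn D0 := by
  have hfo : ∀ p ∈ out f, g p = p := fun p hp => h2 p (mem_out.mp hp).2
  have hgD : g • D0 = D0 := by
    apply Finset.eq_of_subset_of_card_le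
    · intro y hy
      obtain ⟨x, hx, rfl⟩ := Finset.mem_smul_finset.mp hy
      change g x ∈ D0
      by_cases hxo : x ∈ out f
      · rw [hfo x hxo]; exact hx
      · rw [mem_out] at hxo
        push Not at hxo
        obtain ⟨a, rfl⟩ := hxo hx
        rw [h1]; exact hf.2.1 _
    · rw [card_smul']
  have key : ∀ o ∈ hexadsOn D0, out f ⊆ o → g • o ∈ hexadsOn D0 := by
    intro o ho hsub
    have hoD := hexad_sub ho
    have h3 : (univ.filter fun a => f a ∈ o).image f ∪ out f = o := by
      ext x
      simp only [Finset.mem_union, Finset.mem_image, Finset.mem_filter, Finset.mem_univ, true_and]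
      constructor
      · rintro (⟨a, h1, rfl⟩ | h1)
        · exact h1
        · exact hsub h1
      · intro hx
        by_cases hxo : x ∈ out f
        · exact Or.inr hxo
        · left
          rw [mem_out] at hxo
          push Not at hxo
          obtain ⟨a, rfl⟩ := hxo (hoD hx)
          exact ⟨a, hx, rfl⟩
    set s := univ.filter fun a => f a ∈ o with hs
    have h4 : g • o = (e • s).image f ∪ out f := by
      rw [← h3, Finset.smul_finset_union, smul_eq_of_fix hfo]
      congr 1
      ext x
      simp only [Finset.mem_image, Finset.mem_smul_finset, smul_eq_image, exists_exists_and_eq_and]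
      constructor
      · rintro ⟨a, ha, rfl⟩; exact ⟨a, ha, (h1 a).symm⟩
      · rintro ⟨a, ha, rfl⟩; exact ⟨a, ha, h1 a⟩
    rw [h4, ← hf.2.2, mem_aut.mp he, hf.2.2, h3]
    exact ho
  refine ⟨hgD, ?_⟩
  intro h hh
  by_cases hsub : out f ⊆ h
  · exact key h hh hsub
  · have h5 : out f ⊆ D0 \ h := by
      intro x hx
      rw [Finset.mem_sdiff]
      refine ⟨out_sub f hx, ?_⟩
      intro hxh
      apply hsub
      intro y hy
      have : y = x := Finset.card_le_one.mp hout y hy x hx
      rw [this]; exact hxh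
    have h6 := compl_hexad (key _ (compl_hexad hh) h5)
    rw [Finset.smul_finset_sdiff, hgD, Finset.sdiff_sdiff_eq_self] at h6
    · exact h6
    · rw [← hgD]; exact Finset.smul_finset_subset_smul_finset (hexad_sub hh)

theorem aut_rigid {f : α → GolayPt} {B : Set (Finset α)} (hf : Lab f B) (hout : (out f).card ≤ 1) {e : Equiv.Perm α} (he : e ∈ setSystemAut B)
    {n : ℕ} (hn : n + (out f).card = 5) (x : Fin n ↪ α) (hx : ∀ i, e (x i) = x i) : e = 1 := by
  obtain ⟨g, h1, h2⟩ := exists_extend_perm hf.1 e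
  obtain ⟨hgD, hgh⟩ := ext_hexads hf hout he h1 h2
  have hfo : ∀ p ∈ out f, g p = p := fun p hp => h2 p (mem_out.mp hp).2
  have h3 : ∀ y ∈ D0, g y = y := by
    apply rigid hgD hgh (l := (List.ofFn fun i => f (x i)) ++ (out f).toList)
    · rw [List.nodup_append]
      refine ⟨?_, Finset.nodup_toList _, ?_⟩
      · rw [List.nodup_ofFn]; exact hf.1.comp x.injective
      · intro a ha b hb hab
        rw [List.mem_ofFn] at ha
        obtain ⟨i, rfl⟩ := ha
        rw [Finset.mem_toList, ← hab] at hb
        exact (mem_out.mp hb).2 _ rfl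
    · intro p hp
      rw [List.mem_append] at hp
      rcases hp with hp | hp
      · rw [List.mem_ofFn] at hp
        obtain ⟨i, rfl⟩ := hp
        exact hf.2.1 _
      · exact out_sub f (Finset.mem_toList.mp hp)
    · rw [List.length_append, List.length_ofFn, Finset.length_toList, hn]
    · intro p hp
      rw [List.mem_append] at hp
      rcases hp with hp | hp
      · rw [List.mem_ofFn] at hp
        obtain ⟨i, rfl⟩ := hp
        rw [h1, hx]
      · exact hfo p (Finset.mem_toList.mp hp)
  apply Equiv.ext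
  intro a
  apply hf.1
  rw [← h1, h3 _ (hf.2.1 a)]
  rfl

/-- multiple transitivity -/
theorem exists_trans {f : α → GolayPt} {B : Set (Finset α)} (hf : Lab f B) {n : ℕ} (hn : n + (out f).card ≤ 5) (x y : Fin n ↪ α) :
    ∃ g : PSd D0 (out f).toList, ∀ i, (psi hf g : Equiv.Perm α) (x i) = y i := by
  have hmem : ∀ (z : Fin n ↪ α), ∀ p ∈ (List.ofFn fun i => f (z i)), p ∉ (out f).toList := by
    intro z p hp hp'
    rw [Finset.mem_toList] at hp'
    rw [List.mem_ofFn] at hp
    obtain ⟨i, rfl⟩ := hp
    exact (mem_out.mp hp').2 _ rfl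
  have hmD : ∀ (z : Fin n ↪ α), ∀ p ∈ (List.ofFn fun i => f (z i)), p ∈ D0 := by
    intro z p hp
    rw [List.mem_ofFn] at hp
    obtain ⟨i, rfl⟩ := hp
    exact hf.2.1 _
  have hnd : ∀ (z : Fin n ↪ α), (List.ofFn fun i => f (z i)).Nodup := by
    intro z
    rw [List.nodup_ofFn]
    exact hf.1.comp z.injective
  obtain ⟨g, hg, hgm⟩ := PSd_trans D0_mem (l := (out f).toList) (Finset.nodup_toList _) (fun p hp => out_sub f (Finset.mem_toList.mp hp))
    (hnd x) (hnd y) (hmD x) (hmD y) (hmem x) (hmem y) (by simp)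
    (by rw [Finset.length_toList, List.length_ofFn]; omega)
  refine ⟨⟨g, hg⟩, ?_⟩
  intro i
  apply hf.1
  rw [psi_apply hf ⟨g, hg⟩ (x i)]
  rw [List.map_ofFn] at hgm
  have h2 := List.ofFn_injective hgm
  exact congrFun h2 i

theorem aut_trans {f : α → GolayPt} {B : Set (Finset α)} (hf : Lab f B) {n : ℕ} (hn : n + (out f).card ≤ 5) :
    MulAction.IsMultiplyPretransitive (setSystemAut B) α n := by
  constructor
  intro x y
  obtain ⟨g, hg⟩ := exists_trans hf hn x y
  refine ⟨psi hf g, ?_⟩
  ext i
  exact hg i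

theorem psi_surj {f : α → GolayPt} {B : Set (Finset α)} (hf : Lab f B) (hout : (out f).card ≤ 1) : Function.Surjective (psi hf) := by
  intro e
  have hc := card_out hf.1 hf.2.1
  obtain ⟨n, hn⟩ : ∃ n, n + (out f).card = 5 := ⟨5 - (out f).card, by omega⟩
  obtain ⟨x⟩ : Nonempty (Fin n ↪ α) := by
    rw [Function.Embedding.nonempty_iff_card_le, Fintype.card_fin]; omega
  obtain ⟨g, hg⟩ := exists_trans hf (by omega) x (x.trans (e : Equiv.Perm α).toEmbedding)
  refine ⟨g, ?_⟩
  have h1 : (psi hf g)⁻¹ * e = 1 := by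
    apply Subtype.ext
    apply aut_rigid hf hout ((psi hf g)⁻¹ * e).2 hn x
    intro i
    have h2 := hg i
    change ((psi hf g : Equiv.Perm α))⁻¹ ((e : Equiv.Perm α) (x i)) = x i
    rw [Equiv.Perm.inv_eq_iff_eq]
    exact h2.symm
  rw [inv_mul_eq_one] at h1
  exact h1

noncomputable def autEquiv {f : α → GolayPt} {B : Set (Finset α)} (hf : Lab f B) (hout : (out f).card ≤ 1) : PSd D0 (out f).toList ≃* setSystemAut B :=
  MulEquiv.ofBijective (psi hf) ⟨psi_inj hf (by have := card_out hf.1 hf.2.1; omega), psi_surj hf hout⟩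

end

end CfsgLib.Steiner12
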