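import Mathlib
import Cfsg.Agent.Lib.SteinerV
import Cfsg.Agent.Lib.GolayM

/-!
Automorphism groups of the Steiner systems S(3,6,22), S(4,7,23) and S(5,8,24).
-/

set_option autoImplicit false

namespace CfsgLib.SteinerV

open CfsgLib.Golay CfsgLib.Steiner Finset Cfsg
open scoped Pointwise

/-- the setwise stabilizer in `M24` -/
def SetStab (T : Finset GolayPt) : Subgroup (Equiv.Perm GolayPt) := M24 ⊓ MulAction.stabilizer (Equiv.Perm GolayPt) T

theorem mem_SetStab {T : Finset GolayPt} {g : Equiv.Perm GolayPt} : g ∈ SetStab T ↔ g ∈ M24 ∧ g • T = T := by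
  exact Subgroup.mem_inf.trans (and_congr Iff.rfl MulAction.mem_stabilizer_iff)

theorem mem_aut {α : Type*} [DecidableEq α] {B : Set (Finset α)} {e : Equiv.Perm α} :
    e ∈ setSystemAut B ↔ ∀ s, e • s ∈ B ↔ s ∈ B := by
  rw [MulAction.mem_stabilizer_set]

section
variable {α : Type*} [Fintype α] [DecidableEq α]

theorem smul_eq_image (e : Equiv.Perm α) (s : Finset α) : e • s = s.image e := rfl

theorem exists_restrict {f : α → GolayPt} {B : Set (Finset α)} (hf : Lab f B) {g : Equiv.Perm GolayPt} (hg : g ∈ SetStab (out f)) :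
    ∃ e : Equiv.Perm α, (∀ x, f (e x) = g (f x)) ∧ e ∈ setSystemAut B := by
  rw [mem_SetStab] at hg
  obtain ⟨e, h1, h2⟩ := lab_iso hf hf hg.1 hg.2
  exact ⟨e, h1, mem_aut.mpr h2⟩

noncomputable def psi {f : α → GolayPt} {B : Set (Finset α)} (hf : Lab f B) : SetStab (out f) →* setSystemAut B :=
  MonoidHom.mk' (fun g => ⟨(exists_restrict hf g.2).choose, (exists_restrict hf g.2).choose_spec.2⟩) (by
    intro a b
    apply Subtype.ext
    apply Equiv.ext
    intro x
    apply hf.1
    have h1 := (exists_restrict hf (a * b).2).choose_spec.1 x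
    have h2 := (exists_restrict hf b.2).choose_spec.1 x
    have h3 := (exists_restrict hf a.2).choose_spec.1 ((exists_restrict hf b.2).choose x)
    change f ((exists_restrict hf (a * b).2).choose x) = f ((exists_restrict hf a.2).choose ((exists_restrict hf b.2).choose x))
    rw [h1, h3, h2]; rfl)

theorem psi_apply {f : α → GolayPt} {B : Set (Finset α)} (hf : Lab f B) (g : SetStab (out f)) (x : α) :
    f ((psi hf g : Equiv.Perm α) x) = (g : Equiv.Perm GolayPt) (f x) := (exists_restrict hf g.2).choose_spec.1 x

theorem psi_inj {f : α → GolayPt} {B : Set (Finset α)} (hf : Lab f B) (hc : 10 ≤ Fintype.card α) : Function.Injective (psi hf) := by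
  rw [injective_iff_map_eq_one]
  intro g hg
  apply Subtype.ext
  apply eq_one_of_fix_ten (mem_SetStab.mp g.2).1 (univ.image f)
  · rw [Finset.card_image_of_injective _ hf.1, Finset.card_univ]; exact hc
  · intro p hp
    obtain ⟨x, -, rfl⟩ := Finset.mem_image.mp hp
    rw [← psi_apply hf g x, hg]; rfl

/-- extend a permutation of the points by the identity -/
theorem exists_extend_perm {f : α → GolayPt} (hf : Function.Injective f) (e : Equiv.Perm α) :
    ∃ g : Equiv.Perm GolayPt, (∀ x, g (f x) = f (e x)) ∧ ∀ y ∈ out f, g y = y := by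
  classical
  refine ⟨e.extendDomain (Equiv.ofInjective f hf), ?_, ?_⟩
  · intro x
    have := Equiv.Perm.extendDomain_apply_image e (Equiv.ofInjective f hf) x
    simpa using this
  · intro y hy
    apply Equiv.Perm.extendDomain_apply_not_subtype
    rintro ⟨x, hx⟩
    exact mem_out.mp hy x hx

theorem smul_eq_self_of_fix {g : Equiv.Perm GolayPt} {s : Finset GolayPt} (h : ∀ p ∈ s, g p = p) : g • s = s := smul_eq_of_fix h

/-- octads containing the outer points are preserved -/
theorem ext_octads {f : α → GolayPt} {B : Set (Finset α)} (hf : Lab f B) {e : Equiv.Perm α} (he : e ∈ setSystemAut B)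
    {g : Equiv.Perm GolayPt} (h1 : ∀ x, g (f x) = f (e x)) (h2 : ∀ y ∈ out f, g y = y) {o : Finset GolayPt} (hsub : out f ⊆ o) :
    g • o ∈ octads ↔ o ∈ octads := by
  have h3 : (univ.filter fun a => f a ∈ o).image f ∪ out f = o := by
    ext x
    simp only [Finset.mem_union, Finset.mem_image, Finset.mem_filter, Finset.mem_univ, true_and]
    constructor
    · rintro (⟨a, h1, rfl⟩ | h1)
      · exact h1
      · exact hsub h1
    · intro hx
      by_cases hxo : x ∈ out f
      · exact Or.inr hxo
      · left
        rw [mem_out] at hxo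
        push Not at hxo
        obtain ⟨a, rfl⟩ := hxo
        exact ⟨a, hx, rfl⟩
  set s := univ.filter fun a => f a ∈ o with hs
  have h4 : g • o = (e • s).image f ∪ out f := by
    rw [← h3, Finset.smul_finset_union, smul_eq_self_of_fix h2]
    congr 1
    ext x
    simp only [Finset.mem_image, Finset.mem_smul_finset, smul_eq_image, exists_exists_and_eq_and]
    constructor
    · rintro ⟨a, ha, rfl⟩; exact ⟨a, ha, (h1 a).symm⟩
    · rintro ⟨a, ha, rfl⟩; exact ⟨a, ha, h1 a⟩
  rw [h4, ← hf.2, mem_aut.mp he, hf.2, h3]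

theorem smul_inter_card (g : Equiv.Perm GolayPt) (s t : Finset GolayPt) : (g • s ∩ t).card = (s ∩ g⁻¹ • t).card := by
  have : g • s ∩ t = g • (s ∩ g⁻¹ • t) := by rw [smul_inter', smul_inv_smul]
  rw [this, card_smul']

theorem smul_symmDiff' (g : Equiv.Perm GolayPt) (s t : Finset GolayPt) : g • symmDiff s t = symmDiff (g • s) (g • t) := by
  rw [symmDiff_def, symmDiff_def, Finset.sup_eq_union, Finset.sup_eq_union, Finset.smul_finset_union,
        Finset.smul_finset_sdiff, Finset.smul_finset_sdiff]

theorem mem_code_of_octad {o : Finset GolayPt} (ho : o ∈ octads) : o ∈ supports (golayCode : Set (GolayPt → ZMod 2)) :=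
  mem_supports_iff.mpr (mem_octads_iff.mp ho).1

theorem psi_surj_one {f : α → GolayPt} {B : Set (Finset α)} (hf : Lab f B) (hc : (out f).card ≤ 1) : Function.Surjective (psi hf) := by
  intro e
  obtain ⟨g, h1, h2⟩ := exists_extend_perm hf.1 e.1
  have hg : g ∈ M24 := by
    obtain ⟨a, ha⟩ : ∃ a, out f ⊆ {a} := by
      rcases Nat.lt_or_ge 0 (out f).card with h | h
      · have : (out f).card = 1 := by omega
        rw [Finset.card_eq_one] at this
        obtain ⟨a, ha⟩ := this
        exact ⟨a, by rw [ha]⟩
      · have : (out f).card = 0 := by omega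
        rw [Finset.card_eq_zero] at this
        exact ⟨pt 0, by rw [this]; exact Finset.empty_subset _⟩
    rw [mem_M24_iff]
    intro s hs
    apply dual_pt (a := a)
    intro o ho hao
    rw [smul_inter_card]
    apply even_inter_code hs
    apply mem_code_of_octad
    have h3 : out f ⊆ g⁻¹ • o := by
      intro y hy
      rw [Finset.mem_inv_smul_finset_iff]
      have := h2 y hy
      change g y ∈ o
      rw [this]
      have := Finset.mem_singleton.mp (ha hy)
      rw [this]; exact hao
    rw [← ext_octads hf e.2 h1 h2 h3, smul_inv_smul]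
    exact ho
  have hgs : g ∈ SetStab (out f) := mem_SetStab.mpr ⟨hg, smul_eq_self_of_fix h2⟩
  refine ⟨⟨g, hgs⟩, ?_⟩
  apply Subtype.ext
  apply Equiv.ext
  intro x
  apply hf.1
  refine (psi_apply hf _ x).trans ?_
  exact h1 x

theorem swap_smul_even {a b : GolayPt} (hab : a ≠ b) {z : Finset GolayPt} (h : Even (z ∩ {a, b}).card) : Equiv.swap a b • z = z := by
  have hz : a ∈ z ↔ b ∈ z := by
    by_cases ha : a ∈ z <;> by_cases hb : b ∈ z
    · simp [ha, hb]
    · exfalso
      have : z ∩ {a, b} = {a} := by
        ext x; simp only [Finset.mem_inter, Finset.mem_insert, Finset.mem_singleton]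
        constructor
        · rintro ⟨h1, rfl | rfl⟩
          · rfl
          · exact absurd h1 hb
        · rintro rfl; exact ⟨ha, Or.inl rfl⟩
      rw [this, Finset.card_singleton] at h
      exact absurd h (by decide)
    · exfalso
      have : z ∩ {a, b} = {b} := by
        ext x; simp only [Finset.mem_inter, Finset.mem_insert, Finset.mem_singleton]
        constructor
        · rintro ⟨h1, rfl | rfl⟩
          · exact absurd h1 ha
          · rfl
        · rintro rfl; exact ⟨hb, Or.inr rfl⟩
      rw [this, Finset.card_singleton] at h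
      exact absurd h (by decide)
    · simp [ha, hb]
  ext x
  have : x ∈ Equiv.swap a b • z ↔ Equiv.swap a b x ∈ z := by
    rw [← Finset.inv_smul_mem_iff, Equiv.swap_inv]; rfl
  rw [this]
  by_cases h1 : x = a
  · subst h1; rw [Equiv.swap_apply_left]; exact hz.symm
  · by_cases h2 : x = b
    · subst h2; rw [Equiv.swap_apply_right]; exact hz
    · rw [Equiv.swap_apply_of_ne_of_ne h1 h2]

theorem swap_smul_odd {a b : GolayPt} (hab : a ≠ b) {z : Finset GolayPt} (h : ¬ Even (z ∩ {a, b}).card) : Equiv.swap a b • z = symmDiff z {a, b} := by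
  have hz : (a ∈ z ∧ b ∉ z) ∨ (a ∉ z ∧ b ∈ z) := by
    by_cases ha : a ∈ z <;> by_cases hb : b ∈ z
    · exfalso
      have : z ∩ {a, b} = {a, b} := by
        rw [Finset.inter_eq_right]
        intro x hx
        simp only [Finset.mem_insert, Finset.mem_singleton] at hx
        rcases hx with rfl | rfl <;> assumption
      rw [this, Finset.card_pair hab] at h
      exact h (by decide)
    · exact Or.inl ⟨ha, hb⟩
    · exact Or.inr ⟨ha, hb⟩
    · exfalso
      have : z ∩ {a, b} = ∅ := by
        ext x; simp only [Finset.mem_inter, Finset.mem_insert, Finset.mem_singleton, Finset.notMem_empty, iff_false]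
        rintro ⟨h1, rfl | rfl⟩
        · exact ha h1
        · exact hb h1
      rw [this, Finset.card_empty] at h
      exact h (by decide)
  ext x
  have : x ∈ Equiv.swap a b • z ↔ Equiv.swap a b x ∈ z := by
    rw [← Finset.inv_smul_mem_iff, Equiv.swap_inv]; rfl
  rw [this, Finset.mem_symmDiff]
  simp only [Finset.mem_insert, Finset.mem_singleton]
  by_cases h1 : x = a
  · subst h1; rw [Equiv.swap_apply_left]; tauto
  · by_cases h2 : x = b
    · subst h2; rw [Equiv.swap_apply_right]; tauto
    · rw [Equiv.swap_apply_of_ne_of_ne h1 h2]; tauto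

theorem exists_octad_sep {a b : GolayPt} (hab : a ≠ b) : ∃ o ∈ octads, a ∈ o ∧ b ∉ o := by
  obtain ⟨g, hg, hmap⟩ := trans_list (l := [a, b]) (l' := [pt 0, pt 5]) (by simp [hab]) (by decide +kernel) rfl (by norm_num)
  simp only [List.map_cons, List.map_nil, List.cons.injEq, and_true] at hmap
  obtain ⟨ha, hb⟩ := hmap
  refine ⟨g⁻¹ • O0, (smul_mem_octads (M24.inv_mem hg)).mpr O0_mem, ?_, ?_⟩
  · rw [Finset.mem_inv_smul_finset_iff]
    change g a ∈ O0
    rw [ha, mem_O0]; simp
  · rw [Finset.mem_inv_smul_finset_iff]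
    change g b ∉ O0
    rw [hb, mem_O0]; decide +kernel

theorem symmDiff_inter' (u v w : Finset GolayPt) : symmDiff u v ∩ w = symmDiff (u ∩ w) (v ∩ w) := by
  ext x; simp only [Finset.mem_inter, Finset.mem_symmDiff]; tauto

theorem psi_surj_two {f : α → GolayPt} {B : Set (Finset α)} (hf : Lab f B) (hc : (out f).card = 2) : Function.Surjective (psi hf) := by
  intro e
  obtain ⟨g, h1, h2⟩ := exists_extend_perm hf.1 e.1
  rw [Finset.card_eq_two] at hc
  obtain ⟨a, b, hab, hout⟩ := hc
  have hga : g a = a := h2 a (by rw [hout]; simp)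
  have hgb : g b = b := h2 b (by rw [hout]; simp)
  have hcls : ∀ s ∈ supports (golayCode : Set (GolayPt → ZMod 2)),
      g • s ∈ supports (golayCode : Set (GolayPt → ZMod 2)) ∨ symmDiff (g • s) {a, b} ∈ supports (golayCode : Set (GolayPt → ZMod 2)) := by
    intro s hs
    apply dual_pair hab
    intro o ho hao hbo
    rw [smul_inter_card]
    apply even_inter_code hs
    apply mem_code_of_octad
    have h3 : out f ⊆ g⁻¹ • o := by
      intro y hy
      rw [Finset.mem_inv_smul_finset_iff]
      have := h2 y hy
      change g y ∈ o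
      rw [this]
      rw [hout] at hy
      simp only [Finset.mem_insert, Finset.mem_singleton] at hy
      rcases hy with rfl | rfl <;> assumption
    rw [← ext_octads hf e.2 h1 h2 h3, smul_inv_smul]
    exact ho
  have hgP : g • ({a, b} : Finset GolayPt) = {a, b} := by rw [← hout]; exact smul_eq_self_of_fix h2
  have hgPc : ∀ s : Finset GolayPt, (g • s ∩ {a, b}).card = (s ∩ {a, b}).card := by
    intro s
    have : g • s ∩ {a, b} = g • (s ∩ {a, b}) := by rw [smul_inter', hgP]
    rw [this, card_smul']
  have hgsd : ∀ x : α, g (f x) = f (e.1 x) := h1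
  by_cases hall : ∀ s ∈ supports (golayCode : Set (GolayPt → ZMod 2)), g • s ∈ supports (golayCode : Set (GolayPt → ZMod 2))
  · have hg : g ∈ M24 := mem_M24_iff.mpr hall
    have hgs : g ∈ SetStab (out f) := mem_SetStab.mpr ⟨hg, smul_eq_self_of_fix h2⟩
    refine ⟨⟨g, hgs⟩, ?_⟩
    apply Subtype.ext
    apply Equiv.ext
    intro x
    apply hf.1
    refine (psi_apply hf _ x).trans ?_
    exact h1 x
  · push Not at hall
    obtain ⟨s1, hs1, hs1'⟩ := hall
    have hs1'' := (hcls s1 hs1).resolve_left hs1'
    -- the parity of every word decides the class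
    have hcard2 : ∀ u v : Finset GolayPt, (symmDiff u v).card % 2 = (u.card + v.card) % 2 := by
      intro u v
      have := card_symmDiff' u v
      omega
    have hsd : ∀ u v w : Finset GolayPt, (symmDiff u v ∩ w).card % 2 = ((u ∩ w).card + (v ∩ w).card) % 2 := by
      intro u v w
      rw [symmDiff_inter', hcard2]
    have hev : ∀ u ∈ supports (golayCode : Set (GolayPt → ZMod 2)), ∀ v ∈ supports (golayCode : Set (GolayPt → ZMod 2)), (u ∩ v).card % 2 = 0 :=
      fun u hu v hv => Nat.even_iff.mp (even_inter_code hu hv)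
    have hgg : ∀ u v : Finset GolayPt, (g • u ∩ g • v).card = (u ∩ v).card := by
      intro u v
      rw [← smul_inter', card_smul']
    have hPP : (({a, b} : Finset GolayPt) ∩ {a, b}).card = 2 := by rw [Finset.inter_self, Finset.card_pair hab]
    -- class 0 implies even, class 1 implies equal parity with s1
    have k0 : ∀ t ∈ supports (golayCode : Set (GolayPt → ZMod 2)), g • t ∈ supports (golayCode : Set (GolayPt → ZMod 2)) → (t ∩ {a, b}).card % 2 = 0 := by
      intro t ht hgt
      have h3 := hev _ hs1'' _ hgt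
      rw [hsd, hgg, Finset.inter_comm {a, b}, hgPc] at h3
      have h4 := hev _ hs1 _ ht
      omega
    have k1 : ∀ t ∈ supports (golayCode : Set (GolayPt → ZMod 2)), symmDiff (g • t) {a, b} ∈ supports (golayCode : Set (GolayPt → ZMod 2)) →
        (t ∩ {a, b}).card % 2 = (s1 ∩ {a, b}).card % 2 := by
      intro t ht hgt
      have h3 := hev _ hs1'' _ hgt
      rw [hsd] at h3
      rw [Finset.inter_comm (g • s1), Finset.inter_comm {a, b}] at h3
      have h4 := hsd (g • t) {a, b} (g • s1)
      have h5 := hsd (g • t) {a, b} {a, b}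
      rw [hgg, Finset.inter_comm {a, b}, hgPc, Finset.inter_comm t] at h4
      rw [hgPc, hPP] at h5
      have h6 := hev _ hs1 _ ht
      omega
    have hs1odd : (s1 ∩ {a, b}).card % 2 = 1 := by
      by_contra hcon
      obtain ⟨o, ho, hao, hbo⟩ := exists_octad_sep hab
      have hoc := mem_code_of_octad ho
      have h3 : (o ∩ {a, b}).card = 1 := by
        rw [Finset.card_eq_one]
        refine ⟨a, ?_⟩
        ext x; simp only [Finset.mem_inter, Finset.mem_insert, Finset.mem_singleton]
        constructor
        · rintro ⟨h1, rfl | rfl⟩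
          · rfl
          · exact absurd h1 hbo
        · rintro rfl; exact ⟨hao, Or.inl rfl⟩
      rcases hcls o hoc with h4 | h4
      · have := k0 o hoc h4
        omega
      · have := k1 o hoc h4
        omega
    have hg2 : Equiv.swap a b * g ∈ M24 := by
      rw [mem_M24_iff]
      intro t ht
      rw [mul_smul]
      rcases hcls t ht with h4 | h4
      · rw [swap_smul_even hab]
        · exact h4
        · rw [hgPc, Nat.even_iff]; exact k0 t ht h4
      · rw [swap_smul_odd hab]
        · exact h4
        · rw [hgPc, Nat.not_even_iff, k1 t ht h4]; exact hs1odd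
    have hgs : Equiv.swap a b * g ∈ SetStab (out f) := by
      rw [mem_SetStab]
      refine ⟨hg2, ?_⟩
      rw [hout, mul_smul, hgP]
      apply swap_smul_even hab
      rw [hPP]; decide
    refine ⟨⟨_, hgs⟩, ?_⟩
    apply Subtype.ext
    apply Equiv.ext
    intro x
    apply hf.1
    refine (psi_apply hf _ x).trans ?_
    change Equiv.swap a b (g (f x)) = f (e.1 x)
    rw [h1]
    apply Equiv.swap_apply_of_ne_of_ne
    · exact mem_out.mp (by rw [hout]; simp) _
    · exact mem_out.mp (by rw [hout]; simp) _

noncomputable def autEquiv {f : α → GolayPt} {B : Set (Finset α)} (hf : Lab f B) (hc : (out f).card ≤ 2) : SetStab (out f) ≃* setSystemAut B :=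
  MulEquiv.ofBijective (psi hf) ⟨psi_inj hf (by have := card_out hf.1; omega), by
    rcases Nat.lt_or_ge (out f).card 2 with h | h
    · exact psi_surj_one hf (by omega)
    · exact psi_surj_two hf (by omega)⟩

theorem autEquiv_apply {f : α → GolayPt} {B : Set (Finset α)} (hf : Lab f B) (hc : (out f).card ≤ 2) (g : SetStab (out f)) (x : α) :
    f ((autEquiv hf hc g : Equiv.Perm α) x) = (g : Equiv.Perm GolayPt) (f x) := psi_apply hf g x

theorem SetStab_empty : SetStab ∅ = M24 := by
  ext g; rw [mem_SetStab]; simp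

theorem SetStab_singleton (a : GolayPt) : SetStab {a} = PS [a] := by
  ext g
  rw [mem_SetStab, mem_PS, Finset.smul_finset_singleton]
  simp

/-- multiple transitivity -/
theorem aut_trans {f : α → GolayPt} {B : Set (Finset α)} (hf : Lab f B) {n : ℕ} (hn : n + (out f).card ≤ 5) :
    MulAction.IsMultiplyPretransitive (setSystemAut B) α n := by
  constructor
  intro x y
  have hmem : ∀ (z : Fin n ↪ α), ∀ p ∈ (List.ofFn fun i => f (z i)), p ∉ (out f).toList := by
    intro z p hp hp'
    rw [Finset.mem_toList] at hp'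
    rw [List.mem_ofFn] at hp
    obtain ⟨i, rfl⟩ := hp
    exact mem_out.mp hp' _ rfl
  have hnd : ∀ (z : Fin n ↪ α), (List.ofFn fun i => f (z i)).Nodup := by
    intro z
    rw [List.nodup_ofFn]
    exact hf.1.comp z.injective
  obtain ⟨g, hg, hgm⟩ := PS_trans (l := (out f).toList) (Finset.nodup_toList _) (hnd x) (hnd y) (hmem x) (hmem y) (by simp)
    (by rw [Finset.length_toList, List.length_ofFn]; omega)
  rw [mem_PS] at hg
  have hgs : g ∈ SetStab (out f) := mem_SetStab.mpr ⟨hg.1, smul_eq_self_of_fix (fun p hp => hg.2 p (by rw [Finset.mem_toList]; exact hp))⟩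
  refine ⟨psi hf ⟨g, hgs⟩, ?_⟩
  ext i
  apply hf.1
  have h1 := psi_apply hf ⟨g, hgs⟩ (x i)
  change f ((psi hf ⟨g, hgs⟩ : Equiv.Perm α) (x i)) = f (y i)
  rw [h1]
  rw [List.map_ofFn] at hgm
  have h2 := List.ofFn_injective hgm
  exact congrFun h2 i

end

end CfsgLib.SteinerV
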