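import Mathlib
import Cfsg.Agent.Lib.Steiner

/-!
The graphs attached to a Steiner system S(3,6,22).
-/

set_option autoImplicit false

namespace CfsgLib.Steiner

open Cfsg Finset

variable {α : Type*} [Fintype α] [DecidableEq α] {B : Set (Finset α)}

section S3_6_22
variable (hα : Fintype.card α = 22) (hB : IsSteinerSystem 3 6 B)
include hα hB

theorem card_bl_3_6_22 : (bl B).card = 77 := by
  have h := card_containing hB ∅ (by simp) (by norm_num)
  rw [hα] at h
  have h2 : (bl B).filter (fun c => ∅ ⊆ c) = bl B := by ext c; simp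
  rw [h2] at h
  rw [h]
  norm_num [lam, Nat.choose]

theorem card_thru_pt (p : α) : ((bl B).filter (fun d => p ∈ d)).card = 21 := by
  have h := card_containing hB {p} (by simp) (by norm_num)
  rw [hα, card_singleton] at h
  have h2 : (bl B).filter (fun c => {p} ⊆ c) = (bl B).filter (fun d => p ∈ d) := by ext c; simp
  rw [h2] at h
  rw [h]
  norm_num [lam, Nat.choose]

theorem card_thru_pts {p q : α} (hpq : p ≠ q) : ((bl B).filter (fun d => p ∈ d ∧ q ∈ d)).card = 5 := by
  have hc : ({p, q} : Finset α).card = 2 := card_pair hpq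
  have h := card_containing hB {p, q} (by rw [hc]; norm_num) (by norm_num)
  rw [hα, hc] at h
  have h2 : (bl B).filter (fun c => {p, q} ⊆ c) = (bl B).filter (fun d => p ∈ d ∧ q ∈ d) := by
    ext c; simp [insert_subset_iff]
  rw [h2] at h
  rw [h]
  norm_num [lam, Nat.choose]

theorem sum_inter {b : Finset α} : ∑ d ∈ bl B, (b ∩ d).card = b.card * 21 := by
  have h1 : ∀ d, (b ∩ d).card = ∑ p ∈ b, if p ∈ d then 1 else 0 := by
    intro d; rw [← card_filter]; congr 1
  rw [Finset.sum_congr rfl (fun d _ => h1 d), sum_comm, ← smul_eq_mul, ← sum_const]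
  apply sum_congr rfl
  intro p _
  rw [← card_filter, card_thru_pt hα hB]

theorem sum_inter_inter {b c : Finset α} :
    ∑ d ∈ bl B, (b ∩ d).card * (c ∩ d).card = (b ∩ c).card * 16 + b.card * c.card * 5 := by
  have h1 : ∀ d, (b ∩ d).card * (c ∩ d).card = ∑ p ∈ b, ∑ q ∈ c, if p ∈ d ∧ q ∈ d then 1 else 0 := by
    intro d
    have h2 : (b ∩ d).card = ∑ p ∈ b, if p ∈ d then 1 else 0 := by rw [← card_filter]; congr 1
    have h3 : (c ∩ d).card = ∑ p ∈ c, if p ∈ d then 1 else 0 := by rw [← card_filter]; congr 1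
    rw [h2, h3, sum_mul_sum]
    apply sum_congr rfl; intro p _; apply sum_congr rfl; intro q _
    by_cases hp : p ∈ d <;> by_cases hq : q ∈ d <;> simp [hp, hq]
  rw [Finset.sum_congr rfl (fun d _ => h1 d), sum_comm]
  have h4 : ∀ p ∈ b, ∑ d ∈ bl B, ∑ q ∈ c, (if p ∈ d ∧ q ∈ d then 1 else 0) =
      (if p ∈ c then 16 else 0) + c.card * 5 := by
    intro p _
    rw [sum_comm]
    have h5 : ∀ q ∈ c, ∑ d ∈ bl B, (if p ∈ d ∧ q ∈ d then 1 else 0) = (if p = q then 16 else 0) + 5 := by
      intro q _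
      rw [← card_filter]
      by_cases hpq : p = q
      · subst hpq
        simp only [and_self, if_true]
        rw [card_thru_pt hα hB]
      · rw [card_thru_pts hα hB hpq, if_neg hpq]
    rw [sum_congr rfl h5, sum_add_distrib, sum_const, smul_eq_mul, sum_ite_eq]
  rw [sum_congr rfl h4, sum_add_distrib, sum_const, smul_eq_mul, mul_assoc]
  congr 1
  rw [← sum_filter, sum_const, smul_eq_mul]
  congr 1

theorem card_disjoint_both {b c : Finset α} (hb : b ∈ B) (hc : c ∈ B) (hbc : b ≠ c) :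
    ((bl B).filter (fun d => Disjoint b d ∧ Disjoint c d)).card = 2 * (b ∩ c).card := by
  have hb6 := hB.1 b hb
  have hc6 := hB.1 c hc
  have h1 := sum_inter hα hB (b := b)
  have h2 := sum_inter hα hB (b := c)
  have h3 := sum_inter_inter hα hB (b := b) (c := c)
  have h0 := card_bl_3_6_22 hα hB
  have hbm : b ∈ bl B := mem_bl.mpr hb
  have hcm : c ∈ (bl B).erase b := mem_erase.mpr ⟨hbc.symm, mem_bl.mpr hc⟩
  rw [hb6] at h1 h3
  rw [hc6] at h2 h3
  rw [← sum_erase_add _ _ hbm, ← sum_erase_add _ _ hcm] at h1 h2 h3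
  rw [inter_self, inter_comm c b] at h2
  rw [inter_self] at h1
  simp only [inter_self] at h2 h3
  rw [inter_comm c b] at h3
  rw [hb6] at h1 h3
  rw [hc6] at h2 h3
  have h4 : (((bl B).erase b).erase c).card = 75 := by
    rw [card_erase_of_mem hcm, card_erase_of_mem hbm, h0]
  set F := ((bl B).erase b).erase c with hF
  have hmem : ∀ d ∈ F, (d ∈ B ∧ d ≠ b ∧ d ≠ c) := by
    intro d hd
    rw [hF, mem_erase, mem_erase, mem_bl] at hd
    exact ⟨hd.2.2, hd.2.1, hd.1⟩
  have h5 : (bl B).filter (fun d => Disjoint b d ∧ Disjoint c d) = F.filter (fun d => Disjoint b d ∧ Disjoint c d) := by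
    ext d
    rw [mem_filter, mem_filter, hF, mem_erase, mem_erase]
    constructor
    · rintro ⟨h, h', h''⟩
      refine ⟨⟨?_, ?_, h⟩, h', h''⟩
      · rintro rfl
        rw [disjoint_self, bot_eq_empty] at h''
        rw [h''] at hc6; simp at hc6
      · rintro rfl
        rw [disjoint_self, bot_eq_empty] at h'
        rw [h'] at hb6; simp at hb6
    · rintro ⟨⟨_, _, h⟩, h'⟩; exact ⟨h, h'⟩
  rw [h5]
  have h6 : (4 : ℤ) * ((F.filter (fun d => Disjoint b d ∧ Disjoint c d)).card : ℤ) =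
      ∑ d ∈ F, (2 - ((b ∩ d).card : ℤ)) * (2 - ((c ∩ d).card : ℤ)) := by
    rw [card_filter, Nat.cast_sum, mul_sum]
    apply sum_congr rfl
    intro d hd
    obtain ⟨hdB, hdb, hdc⟩ := hmem d hd
    have e1 : Disjoint b d ↔ (b ∩ d).card = 0 := by rw [card_eq_zero, disjoint_iff_inter_eq_empty]
    have e2 : Disjoint c d ↔ (c ∩ d).card = 0 := by rw [card_eq_zero, disjoint_iff_inter_eq_empty]
    rcases inter_3_6_22 hα hB hb hdB hdb.symm with k1 | k1 <;>
      rcases inter_3_6_22 hα hB hc hdB hdc.symm with k2 | k2 <;> simp [e1, e2, k1, k2]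
  have h7 : ∑ d ∈ F, (2 - ((b ∩ d).card : ℤ)) * (2 - ((c ∩ d).card : ℤ)) =
      4 * (F.card : ℤ) - 2 * ((∑ d ∈ F, (b ∩ d).card : ℕ) : ℤ) - 2 * ((∑ d ∈ F, (c ∩ d).card : ℕ) : ℤ)
        + ((∑ d ∈ F, (b ∩ d).card * (c ∩ d).card : ℕ) : ℤ) := by
    push_cast
    rw [mul_sum, mul_sum, card_eq_sum_ones, Nat.cast_sum, mul_sum, ← sum_sub_distrib, ← sum_sub_distrib, ← sum_add_distrib]
    apply sum_congr rfl
    intro d _
    push_cast; ring
  rw [h7, h4] at h6
  omega

theorem card_disjoint_thru {b : Finset α} (hb : b ∈ B) {p : α} (hp : p ∉ b) :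
    ((bl B).filter (fun d => p ∈ d ∧ Disjoint b d)).card = 6 := by
  have h1 := sum_inter_inter hα hB (b := b) (c := {p})
  have h2 := card_thru_pt hα hB p
  have hb6 := hB.1 b hb
  rw [hb6, card_singleton, inter_singleton_of_notMem hp, card_empty] at h1
  have h3 : ∑ d ∈ bl B, (b ∩ d).card * ({p} ∩ d).card = ∑ d ∈ (bl B).filter (fun d => p ∈ d), (b ∩ d).card := by
    rw [sum_filter]
    apply sum_congr rfl
    intro d _
    by_cases h : p ∈ d
    · rw [singleton_inter_of_mem h]; simp [h]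
    · rw [singleton_inter_of_notMem h]; simp [h]
  rw [h3] at h1
  rw [← filter_filter]
  set F := (bl B).filter (fun d => p ∈ d) with hF
  have h6 : (2 : ℤ) * ((F.filter (fun d => Disjoint b d)).card : ℤ) =
      ∑ d ∈ F, (2 - ((b ∩ d).card : ℤ)) := by
    rw [card_filter, Nat.cast_sum, mul_sum]
    apply sum_congr rfl
    intro d hd
    rw [hF, mem_filter, mem_bl] at hd
    have e1 : Disjoint b d ↔ (b ∩ d).card = 0 := by rw [card_eq_zero, disjoint_iff_inter_eq_empty]
    have hne : b ≠ d := by rintro rfl; exact hp hd.2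
    rcases inter_3_6_22 hα hB hb hd.1 hne with k1 | k1 <;> simp [e1, k1]
  have h7 : ∑ d ∈ F, (2 - ((b ∩ d).card : ℤ)) =
      2 * (F.card : ℤ) - ((∑ d ∈ F, (b ∩ d).card : ℕ) : ℤ) := by
    push_cast
    rw [card_eq_sum_ones, Nat.cast_sum, mul_sum, ← sum_sub_distrib]
    apply sum_congr rfl
    intro d _
    push_cast; ring
  rw [h7, h2] at h6
  have h8 : (F.filter (fun d => Disjoint b d)).card = 6 := by omega
  exact h8

theorem card_disjoint {b : Finset α} (hb : b ∈ B) :
    ((bl B).filter (fun d => Disjoint b d)).card = 16 := by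
  obtain ⟨x, hx, -, h0, -⟩ := x_3_6_22 hα hB hb
  rw [← h0, hx]
  congr 1
  ext c
  simp only [Finset.mem_filter, Finset.mem_erase, mem_bl, Finset.card_eq_zero, Finset.disjoint_iff_inter_eq_empty]
  constructor
  · rintro ⟨h1, h2⟩
    refine ⟨⟨?_, h1⟩, h2⟩
    rintro rfl
    rw [Finset.inter_self] at h2
    have := hB.1 c hb
    rw [h2] at this; simp at this
  · rintro ⟨⟨h1, h2⟩, h3⟩; exact ⟨h2, h3⟩

end S3_6_22

/-- counting in the subtype of blocks -/
theorem card_filter_block [Fintype B] (P : Finset α → Prop) [DecidablePred P] :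
    ((univ : Finset B).filter (fun c => P c.1)).card = ((bl B).filter P).card := by
  rw [← card_map (Function.Embedding.subtype _)]
  congr 1
  ext c
  simp only [mem_map, mem_filter, mem_univ, true_and, Function.Embedding.subtype_apply, mem_bl]
  constructor
  · rintro ⟨a, ha, rfl⟩; exact ⟨a.2, ha⟩
  · rintro ⟨h1, h2⟩; exact ⟨⟨c, h1⟩, h2, rfl⟩

end CfsgLib.Steiner
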