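import Cfsg.Agent.Lib.Symp2

/-!
# The symmetric group `S_{2n}` inside `Sp_{2n-2}(2)`
-/

namespace CfsgLib.SymInSp

open Module CfsgLib.AltForm CfsgLib.Symp

set_option linter.unusedSimpArgs false
set_option linter.unusedSectionVars false

variable {F : Type*} [Field F] {ι : Type*} [Fintype ι] [DecidableEq ι]

/-- Even vectors vanishing at `o`. -/
def W (F : Type*) [Field F] (ι : Type*) [Fintype ι] (o : ι) : Submodule F (ι → F) where
  carrier := {v | ∑ i, v i = 0 ∧ v o = 0}
  add_mem' := by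
    rintro a b ⟨h1, h2⟩ ⟨h3, h4⟩
    refine ⟨?_, ?_⟩
    · simp only [Pi.add_apply, Finset.sum_add_distrib, h1, h3, add_zero]
    · simp [h2, h4]
  zero_mem' := by simp
  smul_mem' := by
    rintro c a ⟨h1, h2⟩
    refine ⟨?_, ?_⟩
    · simp only [Pi.smul_apply, ← Finset.smul_sum, h1, smul_zero]
    · simp [h2]

lemma mem_W {o : ι} {v : ι → F} : v ∈ W F ι o ↔ ∑ i, v i = 0 ∧ v o = 0 := Iff.rfl

lemma finrank_W (o : ι) {p : ι} (hp : p ≠ o) : finrank F (W F ι o) + 2 = Fintype.card ι := by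
  let φ : (ι → F) →ₗ[F] (F × F) :=
    (∑ i, LinearMap.proj i : (ι → F) →ₗ[F] F).prod (LinearMap.proj o)
  have hφ : ∀ v, φ v = (∑ i, v i, v o) := fun v => by
    simp [φ, LinearMap.prod_apply]
  have hker : LinearMap.ker φ = W F ι o := by
    ext v
    rw [LinearMap.mem_ker, hφ, mem_W, Prod.mk_eq_zero]
  have hsurj : Function.Surjective φ := by
    rintro ⟨a, b⟩
    refine ⟨Pi.single o b + Pi.single p (a - b), ?_⟩
    rw [hφ]
    simp [Finset.sum_add_distrib, hp, hp.symm]
  have h1 := LinearMap.finrank_range_add_finrank_ker φ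
  rw [LinearMap.range_eq_top.mpr hsurj, finrank_top, hker] at h1
  simp at h1
  omega

/-- The standard bilinear form. -/
noncomputable def dotB (F : Type*) [Field F] (ι : Type*) [Fintype ι] [DecidableEq ι] :
    LinearMap.BilinForm F (ι → F) := Matrix.toBilin' (1 : Matrix ι ι F)

lemma dotB_apply (u v : ι → F) : dotB F ι u v = ∑ i, u i * v i := by
  rw [dotB, Matrix.toBilin'_apply', Matrix.one_mulVec]
  rfl

lemma two_eq_zero (h2 : ∀ x : F, x * x = x) : (1 : F) + 1 = 0 := by
  have h := h2 (1 + 1)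
  have h3 : (1 : F) + 1 = 0 := by linear_combination h
  exact h3

lemma dotB_isAlt (h2 : ∀ x : F, x * x = x) (o : ι) : ((dotB F ι).restrict (W F ι o)).IsAlt := by
  intro v
  change dotB F ι v v = 0
  rw [dotB_apply, Finset.sum_congr rfl fun i _ => h2 _]
  exact v.2.1

lemma single_add_single_mem (h2 : ∀ x : F, x * x = x) {o i j : ι} (hi : i ≠ o) (hj : j ≠ o) :
    (Pi.single i 1 + Pi.single j 1 : ι → F) ∈ W F ι o := by
  refine ⟨?_, ?_⟩
  · simp [Finset.sum_add_distrib, two_eq_zero h2]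
  · simp [hi.symm, hj.symm]

lemma dotB_nondegenerate (h2 : ∀ x : F, x * x = x) (o : ι) (hcard : Even (Fintype.card ι)) :
    ((dotB F ι).restrict (W F ι o)).Nondegenerate := by
  have h11 := two_eq_zero h2
  have hneg : ∀ x : F, x + x = 0 := fun x => by
    have : x + x = (1 + 1) * x := by ring
    rw [this, h11, zero_mul]
  refine (dotB_isAlt h2 o).isRefl.nondegenerate_iff_separatingLeft.mpr ?_
  intro w hw
  have key : ∀ i j : ι, i ≠ o → j ≠ o → (w : ι → F) i = (w : ι → F) j := by
    intro i j hi hj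
    have h3 : dotB F ι w (Pi.single i 1 + Pi.single j 1) = 0 :=
      hw ⟨_, single_add_single_mem h2 hi hj⟩
    rw [dotB_apply] at h3
    simp [mul_add, Finset.sum_add_distrib, Pi.single_apply] at h3
    have h4 := hneg ((w : ι → F) j)
    linear_combination h3 - h4
  by_contra hne
  obtain ⟨i, hi⟩ : ∃ i, (w : ι → F) i ≠ 0 := by
    by_contra hcon
    push Not at hcon
    exact hne (Subtype.ext (funext hcon))
  have hio : i ≠ o := by
    rintro rfl
    exact hi w.2.2
  have hsum := w.2.1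
  have h5 : ∑ j, (w : ι → F) j = ∑ j ∈ Finset.univ.erase o, (w : ι → F) i := by
    rw [← Finset.add_sum_erase _ _ (Finset.mem_univ o), w.2.2, zero_add]
    refine Finset.sum_congr rfl fun j hj => ?_
    exact key j i (Finset.ne_of_mem_erase hj) hio
  rw [h5, Finset.sum_const, Finset.card_erase_of_mem (Finset.mem_univ o), Finset.card_univ,
    nsmul_eq_mul] at hsum
  obtain ⟨r, hr⟩ := hcard
  have hpos : 0 < Fintype.card ι := Fintype.card_pos_iff.mpr ⟨o⟩
  have h6 : ((Fintype.card ι - 1 : ℕ) : F) = 1 := by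
    have h7 : Fintype.card ι - 1 = (r - 1) + (r - 1) + 1 := by omega
    rw [h7, Nat.cast_add, Nat.cast_add, hneg, zero_add, Nat.cast_one]
  rw [h6, one_mul] at hsum
  exact hi hsum

/-- The permutation action on `W`, as an endomorphism: `w ↦ w ∘ σ⁻¹ + (w (σ⁻¹ o)) 1`. -/
noncomputable def actEnd (h2 : ∀ x : F, x * x = x) (hcard : Even (Fintype.card ι)) (o : ι)
    (σ : Equiv.Perm ι) : Module.End F (W F ι o) where
  toFun w := ⟨fun i => (w : ι → F) (σ⁻¹ i) + (w : ι → F) (σ⁻¹ o), by
    have h11 := two_eq_zero h2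
    refine ⟨?_, ?_⟩
    · rw [Finset.sum_add_distrib, Finset.sum_const, Finset.card_univ, Equiv.sum_comp, w.2.1,
        zero_add]
      obtain ⟨r, hr⟩ := hcard
      rw [hr, nsmul_eq_mul, Nat.cast_add]
      have : ((r : F) + r) = (1 + 1) * r := by ring
      rw [this, h11, zero_mul, zero_mul]
    · have : (w : ι → F) (σ⁻¹ o) + (w : ι → F) (σ⁻¹ o) = (1 + 1) * (w : ι → F) (σ⁻¹ o) := by ring
      exact this.trans (by rw [h11, zero_mul])⟩
  map_add' a b := by
    apply Subtype.ext
    funext i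
    change (a + b : ι → F) (σ⁻¹ i) + (a + b : ι → F) (σ⁻¹ o) =
      ((a : ι → F) (σ⁻¹ i) + (a : ι → F) (σ⁻¹ o)) + ((b : ι → F) (σ⁻¹ i) + (b : ι → F) (σ⁻¹ o))
    simp only [Pi.add_apply]
    ring
  map_smul' c a := by
    apply Subtype.ext
    funext i
    change (c • a : ι → F) (σ⁻¹ i) + (c • a : ι → F) (σ⁻¹ o) =
      c * ((a : ι → F) (σ⁻¹ i) + (a : ι → F) (σ⁻¹ o))
    simp only [Pi.smul_apply, smul_eq_mul]
    ring

lemma actEnd_apply (h2 : ∀ x : F, x * x = x) (hcard : Even (Fintype.card ι)) (o : ι)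
    (σ : Equiv.Perm ι) (w : W F ι o) (i : ι) : (actEnd h2 hcard o σ w : ι → F) i =
      (w : ι → F) (σ⁻¹ i) + (w : ι → F) (σ⁻¹ o) := rfl

/-- The action as a homomorphism. -/
noncomputable def actHom (h2 : ∀ x : F, x * x = x) (hcard : Even (Fintype.card ι)) (o : ι) :
    Equiv.Perm ι →* Module.End F (W F ι o) where
  toFun := actEnd h2 hcard o
  map_one' := by
    ext w i
    rw [actEnd_apply]
    simp [w.2.2]
  map_mul' σ τ := by
    ext w i
    change (actEnd h2 hcard o (σ * τ) w : ι → F) i =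
      (actEnd h2 hcard o σ (actEnd h2 hcard o τ w) : ι → F) i
    rw [actEnd_apply, actEnd_apply, actEnd_apply, actEnd_apply]
    simp only [mul_inv_rev, Equiv.Perm.mul_apply]
    have h11 := two_eq_zero h2
    linear_combination (-(w : ι → F) (τ⁻¹ o)) * h11

/-- The action as a homomorphism to linear automorphisms. -/
noncomputable def actEquiv (h2 : ∀ x : F, x * x = x) (hcard : Even (Fintype.card ι)) (o : ι) :
    Equiv.Perm ι →* (W F ι o ≃ₗ[F] W F ι o) :=
  (LinearMap.GeneralLinearGroup.generalLinearEquiv F (W F ι o)).toMonoidHom.comp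
    (actHom h2 hcard o).toHomUnits

lemma actEquiv_apply (h2 : ∀ x : F, x * x = x) (hcard : Even (Fintype.card ι)) (o : ι)
    (σ : Equiv.Perm ι) (w : W F ι o) (i : ι) : (actEquiv h2 hcard o σ w : ι → F) i =
      (w : ι → F) (σ⁻¹ i) + (w : ι → F) (σ⁻¹ o) := rfl

lemma actEquiv_mem (h2 : ∀ x : F, x * x = x) (hcard : Even (Fintype.card ι)) (o : ι)
    (σ : Equiv.Perm ι) : actEquiv h2 hcard o σ ∈ isom ((dotB F ι).restrict (W F ι o)) := by
  intro u v
  change dotB F ι (actEquiv h2 hcard o σ u) (actEquiv h2 hcard o σ v) = dotB F ι u v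
  rw [dotB_apply, dotB_apply]
  simp only [actEquiv_apply]
  have h11 := two_eq_zero h2
  have e1 : ∑ i, (u : ι → F) (σ⁻¹ i) = 0 := by rw [Equiv.sum_comp]; exact u.2.1
  have e2 : ∑ i, (v : ι → F) (σ⁻¹ i) = 0 := by rw [Equiv.sum_comp]; exact v.2.1
  have e3 : ∑ i, (u : ι → F) (σ⁻¹ i) * (v : ι → F) (σ⁻¹ i) =
      ∑ i, (u : ι → F) i * (v : ι → F) i :=
    Equiv.sum_comp σ⁻¹ (fun i => (u : ι → F) i * (v : ι → F) i)
  have e4 : ∑ i, ((u : ι → F) (σ⁻¹ i) + (u : ι → F) (σ⁻¹ o)) *
      ((v : ι → F) (σ⁻¹ i) + (v : ι → F) (σ⁻¹ o)) =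
      ∑ i, (u : ι → F) (σ⁻¹ i) * (v : ι → F) (σ⁻¹ i) +
      (∑ i, (u : ι → F) (σ⁻¹ i)) * (v : ι → F) (σ⁻¹ o) +
      (u : ι → F) (σ⁻¹ o) * (∑ i, (v : ι → F) (σ⁻¹ i)) +
      (Fintype.card ι : F) * ((u : ι → F) (σ⁻¹ o) * (v : ι → F) (σ⁻¹ o)) := by
    rw [Finset.sum_mul, Finset.mul_sum, ← Finset.card_univ, ← nsmul_eq_mul, ← Finset.sum_const,
      ← Finset.sum_add_distrib, ← Finset.sum_add_distrib, ← Finset.sum_add_distrib]
    exact Finset.sum_congr rfl fun i _ => by ring
  have e5 : (Fintype.card ι : F) = 0 := by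
    obtain ⟨r, hr⟩ := hcard
    rw [hr, Nat.cast_add]
    have : ((r : F) + r) = (1 + 1) * r := by ring
    rw [this, h11, zero_mul]
  rw [e4, e1, e2, e3, e5]
  ring

lemma actEquiv_injective (h2 : ∀ x : F, x * x = x) (hcard : Even (Fintype.card ι)) (o : ι)
    (h5 : 5 ≤ Fintype.card ι) : Function.Injective (actEquiv h2 hcard o) := by
  rw [injective_iff_map_eq_one]
  intro σ hσ
  have h11 := two_eq_zero h2
  have hact : ∀ w : W F ι o, ∀ i, (w : ι → F) (σ⁻¹ i) + (w : ι → F) (σ⁻¹ o) = (w : ι → F) i := by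
    intro w i
    rw [← actEquiv_apply h2 hcard, hσ]
    rfl
  -- first `σ o = o`
  have hpair : ∀ i j, i ≠ o → j ≠ o → i ≠ j → σ⁻¹ o ≠ i := by
    intro i j hi hj hij hoi
    -- w = e_i + e_j; then w (σ⁻¹ o) = 1, so w ∘ σ⁻¹ = w + 1
    have h3 := hact ⟨_, single_add_single_mem h2 hi hj⟩
    simp only [Pi.add_apply, Pi.single_apply, hoi, if_true, hij, if_false, add_zero] at h3
    -- count: the zeros of `w` are at least three, all map to ones
    have h4 : ∀ k, k ≠ i → k ≠ j → σ⁻¹ k = i ∨ σ⁻¹ k = j := by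
      intro k hki hkj
      have := h3 k
      simp only [hki, hkj, if_false, add_zero] at this
      by_contra hcon
      push Not at hcon
      simp only [hcon.1, hcon.2, if_false, add_zero, zero_add] at this
      exact one_ne_zero this
    have h6 : ((Finset.univ.erase i).erase j).image (fun k => σ⁻¹ k) ⊆ {i, j} := by
      intro k hk
      rw [Finset.mem_image] at hk
      obtain ⟨l, hl, rfl⟩ := hk
      rw [Finset.mem_erase, Finset.mem_erase] at hl
      rw [Finset.mem_insert, Finset.mem_singleton]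
      exact h4 l hl.2.1 hl.1
    have h7 := Finset.card_le_card h6
    rw [Finset.card_image_of_injective _ (Equiv.injective _),
      Finset.card_erase_of_mem (by simp [hij.symm]), Finset.card_erase_of_mem (Finset.mem_univ _),
      Finset.card_univ] at h7
    have h8 := Finset.card_le_two (a := i) (b := j)
    omega
  have hone : ∀ i, i ≠ o → ∃ j, j ≠ o ∧ i ≠ j := by
    intro i _
    by_contra hcon
    push Not at hcon
    have h3 : (Finset.univ : Finset ι) ⊆ {o, i} := by
      intro k _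
      rw [Finset.mem_insert, Finset.mem_singleton]
      by_cases hk : k = o
      · exact Or.inl hk
      · exact Or.inr (hcon k hk).symm
    have h4 := Finset.card_le_card h3
    have h6 := Finset.card_le_two (a := o) (b := i)
    rw [Finset.card_univ] at h4
    omega
  have hσo : σ⁻¹ o = o := by
    by_contra hne
    obtain ⟨j, hj, hij⟩ := hone (σ⁻¹ o) hne
    exact hpair (σ⁻¹ o) j hne hj hij rfl
  have hσ' : ∀ i j, i ≠ o → j ≠ o → i ≠ j → σ⁻¹ i = i ∨ σ⁻¹ i = j := by
    intro i j hi hj hij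
    have h3 := hact ⟨_, single_add_single_mem h2 hi hj⟩ i
    rw [hσo] at h3
    simp only [Pi.add_apply, Pi.single_apply, hi.symm, hj.symm, if_true, hij, if_false,
      add_zero] at h3
    by_contra hcon
    push Not at hcon
    simp only [hcon.1, hcon.2, if_false, add_zero] at h3
    exact zero_ne_one h3
  have hinv : σ⁻¹ = 1 := by
    ext i
    rw [Equiv.Perm.one_apply]
    by_cases hi : i = o
    · rw [hi, hσo]
    · obtain ⟨j, hj, hij⟩ := hone i hi
      obtain ⟨k, hk, hik, hjk⟩ : ∃ k, k ≠ o ∧ i ≠ k ∧ j ≠ k := by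
        by_contra hcon
        push Not at hcon
        have h3 : (Finset.univ : Finset ι) ⊆ {o, i, j} := by
          intro k _
          simp only [Finset.mem_insert, Finset.mem_singleton]
          by_cases hk : k = o
          · exact Or.inl hk
          · by_cases hik : i = k
            · exact Or.inr (Or.inl hik.symm)
            · exact Or.inr (Or.inr (hcon k hk hik).symm)
        have h4 := Finset.card_le_card h3
        have h6 := Finset.card_le_three (a := o) (b := i) (c := j)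
        rw [Finset.card_univ] at h4
        omega
      rcases hσ' i j hi hj hij with h3 | h3
      · exact h3
      · rcases hσ' i k hi hk hik with h4 | h4
        · exact h4
        · exact absurd (h3.symm.trans h4) hjk
  exact inv_eq_one.mp hinv

/-- `S_{2n}` embeds in `Sp_{2n-2}(2)`. -/
theorem exists_embedding (h2 : ∀ x : F, x * x = x) (n : ℕ) (hn : 3 ≤ n) :
    ∃ f : Equiv.Perm (Fin (2 * n)) →* Matrix.symplecticGroup (Fin (n - 1)) F,
      Function.Injective f := by
  have hcard : Even (Fintype.card (Fin (2 * n))) := by simp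
  let o : Fin (2 * n) := ⟨0, by omega⟩
  let p : Fin (2 * n) := ⟨1, by omega⟩
  have hp : p ≠ o := by simp [p, o]
  have hd := finrank_W (F := F) o hp
  rw [Fintype.card_fin] at hd
  obtain ⟨e⟩ := exists_isom_equiv (m := n - 1) (dotB_nondegenerate h2 o hcard) (dotB_isAlt h2 o)
    (by omega)
  let g : Equiv.Perm (Fin (2 * n)) →* isom ((dotB F (Fin (2 * n))).restrict (W F (Fin (2 * n)) o)) :=
    (actEquiv h2 hcard o).codRestrict _ (actEquiv_mem h2 hcard o)
  refine ⟨e.toMonoidHom.comp g, e.injective.comp ?_⟩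
  intro a b hab
  exact actEquiv_injective h2 hcard o (by rw [Fintype.card_fin]; omega)
    (congrArg Subtype.val hab)

end CfsgLib.SymInSp
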