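import Cfsg.Agent.Lib.AltForm5
import Cfsg.Agent.Lib.Symp2

/-!
# Parabolic subgroups of the symplectic group
-/

namespace CfsgLib.Symp

open Module Matrix Cfsg CfsgLib.AltForm CfsgLib.IsomDecomp CfsgLib.CountSub

variable {F : Type*} [Field F] {m : ℕ}

/-- The stabiliser of a subspace in the matrix symplectic group. -/
noncomputable def stabilizingEquiv (W : Submodule F (Fin m ⊕ Fin m → F)) :
    ↥(stabilizing (spToMat m F) (W : Set (Fin m ⊕ Fin m → F))) ≃*
      isomStab (fun u v => sympB m F u v) W :=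
  have hstab : (stabilizing (spToMat m F) (W : Set (Fin m ⊕ Fin m → F))).map
      ((isom (sympB m F)).subtype.comp (toIsom m F).toMonoidHom) =
      isomStab (fun u v => sympB m F u v) W := by
    ext g
    constructor
    · rintro ⟨A, hA, rfl⟩
      exact ⟨(toIsom m F A).2, fun v => hA v⟩
    · rintro ⟨h1, h2⟩
      refine ⟨(toIsom m F).symm ⟨g, h1⟩, fun v => ?_, ?_⟩
      · change v ∈ W ↔ (((toIsom m F).symm ⟨g, h1⟩ : Matrix.symplecticGroup (Fin m) F) :
          Matrix _ _ F).mulVec v ∈ W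
        rw [toIsom_symm_mulVec]
        exact h2 v
      · simp
  (Subgroup.equivMapOfInjective _ _ (Subtype.val_injective.comp
      (toIsom m F).injective)).trans (MulEquiv.subgroupCongr hstab)

lemma parabolic_arith (q m k X : ℕ) (hq : 1 < q) (hk : k ≤ m)
    (h1 : q ^ (m ^ 2) * ∏ i ∈ Finset.range m, (q ^ (2 * (i + 1)) - 1) =
      (∏ i ∈ Finset.range k, (q ^ (2 * m - i) - q ^ i)) * X) :
    X = q ^ (k * (k + 1) / 2 + 2 * k * (m - k)) *
        (q ^ ((m - k) ^ 2) * ∏ i ∈ Finset.range (m - k), (q ^ (2 * (i + 1)) - 1)) := by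
  have h3 : ∏ i ∈ Finset.range k, (q ^ (2 * m - i) - q ^ i) =
      q ^ (k * (k - 1) / 2) *
        ∏ i ∈ Finset.range k, (q ^ (2 * (m - k + i + 1)) - 1) := by
    have h4 : ∀ i ∈ Finset.range k, (q ^ (2 * m - i) - q ^ i) =
        q ^ i * (q ^ (2 * (m - i)) - 1) := by
      intro i hi
      have := Finset.mem_range.mp hi
      rw [Nat.mul_sub, ← pow_add, mul_one]
      congr 2
      omega
    rw [Finset.prod_congr rfl h4, Finset.prod_mul_distrib, Finset.prod_pow_eq_pow_sum,
      Finset.sum_range_id]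
    congr 1
    rw [← Finset.prod_range_reflect]
    refine Finset.prod_congr rfl fun i hi => ?_
    have := Finset.mem_range.mp hi
    congr 3
    omega
  have h5 : ∏ i ∈ Finset.range m, (q ^ (2 * (i + 1)) - 1) =
      (∏ i ∈ Finset.range (m - k), (q ^ (2 * (i + 1)) - 1)) *
        ∏ i ∈ Finset.range k, (q ^ (2 * (m - k + i + 1)) - 1) := by
    rw [← Finset.prod_range_add (fun i => q ^ (2 * (i + 1)) - 1) (m - k) k,
      Nat.sub_add_cancel hk]
  rw [h3, h5] at h1
  have hpos : 0 < q ^ (k * (k - 1) / 2) *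
      ∏ i ∈ Finset.range k, (q ^ (2 * (m - k + i + 1)) - 1) := by
    refine Nat.mul_pos (Nat.pow_pos (by omega)) (Finset.prod_pos fun i _ => ?_)
    have : 1 < q ^ (2 * (m - k + i + 1)) := Nat.one_lt_pow (by omega) hq
    omega
  refine Nat.eq_of_mul_eq_mul_left hpos ?_
  rw [← h1]
  have hexp : m ^ 2 = k * (k - 1) / 2 + (k * (k + 1) / 2 + 2 * k * (m - k)) + (m - k) ^ 2 := by
    obtain ⟨d, rfl⟩ := Nat.exists_eq_add_of_le hk
    rw [Nat.add_sub_cancel_left]
    have e1 : k * (k - 1) / 2 + k * (k + 1) / 2 = k ^ 2 := by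
      have hA : 2 ∣ k * (k - 1) := by
        rcases k with _ | k
        · simp
        · rw [Nat.add_sub_cancel, mul_comm]; exact (Nat.even_mul_succ_self k).two_dvd
      have hB : 2 ∣ k * (k + 1) := (Nat.even_mul_succ_self k).two_dvd
      have hC : k * (k - 1) + k * (k + 1) = 2 * k ^ 2 := by
        rcases k with _ | k
        · simp
        · rw [Nat.add_sub_cancel]; ring
      omega
    calc (k + d) ^ 2 = k ^ 2 + 2 * k * d + d ^ 2 := by ring
      _ = _ := by rw [← e1]; ring
  rw [hexp, pow_add, pow_add]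
  ring

theorem card_parabolic [Finite F] (m k : ℕ) (hk : k ≤ m)
    (W : Submodule F (Fin m ⊕ Fin m → F)) (hWk : finrank F W = k)
    (hW : ∀ u ∈ W, ∀ v ∈ W, sympForm m F u v = 0) :
    Nat.card ↥(stabilizing (spToMat m F) (W : Set (Fin m ⊕ Fin m → F))) =
      Nat.card F ^ (k * (k + 1) / 2 + 2 * k * (m - k)) *
        (Nat.card F ^ ((m - k) ^ 2) *
          ∏ i ∈ Finset.range (m - k), (Nat.card F ^ (2 * (i + 1)) - 1)) *
        ∏ i : Fin k, (Nat.card F ^ k - Nat.card F ^ (i : ℕ)) := by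
  have hW' : ∀ u ∈ W, ∀ v ∈ W, sympB m F u v = 0 := fun u hu v hv => by
    rw [sympB_apply]; exact hW u hu v hv
  have h1 := card_isom_eq_frames_mul sympB_nondegenerate sympB_isAlt W hWk hW'
  have h2 := card_isomStab_isotropic sympB_nondegenerate sympB_isAlt W hWk hW'
  have h3 := Nat.card_congr (stabilizingEquiv W).toEquiv
  have h4 := card_isom m _ _ (sympB_nondegenerate (m := m) (F := F)) sympB_isAlt (finrank_symp m)
  have hq : 1 < Nat.card F := Finite.one_lt_card
  rw [finrank_symp, h4] at h1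
  have h5 := parabolic_arith (Nat.card F) m k _ hq hk h1
  rw [h3, h2, h5]
  exact Nat.mul_comm _ _

end CfsgLib.Symp
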