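import Cfsg.Agent.Lib.TO9
set_option autoImplicit false
set_option linter.style.haveILetI false
set_option linter.unusedSectionVars false
set_option maxRecDepth 1000000

/-! The automorphisms of `³D₄(q)`, III. -/

namespace CfsgLib.Chev

/-- multiplicative and additive bijections normalised at `1` -/
theorem exists_ringAut {K : Type*} [Field K] (g : K → K) (hb : Function.Bijective g) (h1 : g 1 = 1) (hadd : ∀ a b, g (a + b) = g a + g b)
    (hmul : ∀ (a : Kˣ) (b : K), g (a * b) = g a * g b) : ∃ σ : RingAut K, ∀ x, g x = σ x := by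
  have h0 : g 0 = 0 := by
    have := hadd 0 0
    rw [add_zero] at this
    linear_combination -this
  let σ : K →+* K :=
    { toFun := g
      map_one' := h1
      map_mul' := fun a b => by
        by_cases ha : a = 0
        · rw [ha, zero_mul, h0, zero_mul]
        · exact hmul (Units.mk0 a ha) b
      map_zero' := h0
      map_add' := hadd }
  exact ⟨RingEquiv.ofBijective σ hb, fun _ => rfl⟩

end CfsgLib.Chev

namespace CfsgLib.Chev.TwD4
open Cfsg.Lie Matrix CfsgLib.BNP CfsgLib.PWM CfsgLib.Chev.GA CfsgLib.Chev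

variable {K : Type*} [Field K] [Fintype K] (φ : K →+* K) {q : ℕ} (hφ : ∀ x, φ x = x ^ q) (h3 : ∀ x, φ (φ (φ x)) = x)
  (hq2 : 2 ≤ q) (hK : Fintype.card K = q ^ 3)

section
variable {θ : ↥(G1 φ) ≃* ↥(G1 φ)} (hU : TN.Pre1 θ (chevD4.posUnipotent K) (chevD4.posUnipotent K))
  (hV : TN.Pre1 θ (chevD4.negUnipotent K) (chevD4.negUnipotent K))

omit [Fintype K] in
theorem inj13 : ∀ J J' : Fin 2, [1, 3].getD J.val 0 = [1, 3].getD J'.val 0 → J = J' := by decide

include hφ h3 hq2 hK hU in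
theorem par (J : Fin 2) (g : ↥(G1 φ)) : g ∈ (R φ).Par (cgD4 K) J ↔ θ g ∈ (R φ).Par (cgD4 K) J := by
  obtain ⟨J', h⟩ := (R φ).map_Par (cgD4 K) hU J
  have h1 := (R φ).Par_fixed (cgD4 K) hU h
  have e : ∀ J : Fin 2, Nat.card (TN.Um (ta φ) (cgD4 K) ((R φ).n J)) = q ^ ([1, 3].getD J.val 0) := card_Um φ hφ h3 hq2 hK
  have h2 : J = (J' : Fin 2) := by
    have k1 := e J
    have k2 := e J'
    have k3 : q ^ ([1, 3].getD J.val 0) = q ^ ([1, 3].getD (J' : Fin 2).val 0) := k1.symm.trans (h1.trans k2)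
    have k4 := Nat.pow_right_injective hq2 k3
    exact inj13 J J' k4
  have h' : ∀ g : ↥(G1 φ), g ∈ (R φ).Par (cgD4 K) J ↔ θ g ∈ (R φ).Par (cgD4 K) J' := h
  rw [← h2] at h'
  exact h' g

include hφ h3 hq2 hK hU hV in
theorem um (J : Fin 2) (x : ↥(G1 φ)) : (x : GL chevD4.Idx K) ∈ TN.Um (ta φ) (cgD4 K) ((R φ).n J) ↔
    (θ x : GL chevD4.Idx K) ∈ TN.Um (ta φ) (cgD4 K) ((R φ).n J) :=
  (R φ).phi_Um (cgD4 K) tp hU hV (cen φ) (par φ hφ h3 hq2 hK hU J) x

include hφ h3 hq2 hK hU hV in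
theorem th_a (t : K) (ht : φ t = t) : ∃ t' ht', θ (aG φ t ht) = aG φ t' ht' :=
  exists_aG φ ((um φ hφ h3 hq2 hK hU hV 0 _).mp (aG_Um φ t ht))

include hφ h3 hq2 hK hU hV in
theorem th_b (t : K) : ∃ t', θ (bG φ h3 t) = bG φ h3 t' :=
  exists_bG φ h3 ((um φ hφ h3 hq2 hK hU hV 1 _).mp (bG_Um φ h3 t))

include h3 hU hV in
theorem th_h (c : TT φ) : ∃ c', θ (hG φ c) = hG φ c' :=
  exists_hG φ h3 (((R φ).pre_H (cgD4 K) tp hU hV _).mp (hG_H φ c))

include hφ h3 hq2 hK hU hV in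
/-- the action on the short root elements -/
theorem th_field (h1 : θ (bG φ h3 1) = bG φ h3 1) : ∃ σ : RingAut K, ∀ u, θ (bG φ h3 u) = bG φ h3 (σ u) := by
  choose g hg using th_b φ hφ h3 hq2 hK hU hV
  have hadd : ∀ a b, g (a + b) = g a + g b := by
    intro a b
    apply bG_inj φ h3
    rw [← hg, ← bG_add, map_mul, hg, hg, bG_add]
  have g1 : g 1 = 1 := by
    apply bG_inj φ h3
    rw [← hg, h1]
  have hinj : Function.Injective g := by
    intro a b h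
    apply bG_inj φ h3
    apply θ.injective
    rw [hg, hg, h]
  have hmul : ∀ (a : Kˣ) (b : K), g (a * b) = g a * g b := by
    intro a b
    obtain ⟨c, -, hc⟩ := χ_surj φ h3 1 (by rw [Units.val_one, map_one]) a
    obtain ⟨c', hc'⟩ := th_h φ h3 hU hV c
    have key : ∀ b, g (a * b) = (χb c'.1 : K) * g b := by
      intro b
      have h2 := congrArg θ (hG_bG φ h3 c b)
      rw [map_mul, map_mul, map_inv, hc', hg, hG_bG, hc, hg] at h2
      exact (bG_inj φ h3 h2).symm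
    have h4 := key 1
    rw [mul_one, g1, mul_one] at h4
    rw [key, ← h4]
  obtain ⟨σ, hσ⟩ := exists_ringAut g (Finite.injective_iff_bijective.mp hinj) g1 hadd hmul
  exact ⟨σ, fun u => by rw [hg, hσ]⟩

include h3 hφ hq2 hK in
/-- the norm is surjective -/
theorem norm_surj (t : Kˣ) (ht : φ t = t) : ∃ s : Kˣ, (s : K) * φ s * φ (φ s) = t := by
  obtain ⟨g, hg⟩ := IsCyclic.exists_generator (α := Kˣ)
  obtain ⟨k, hk⟩ := Subgroup.mem_zpowers_iff.mp (hg t)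
  have hcard : orderOf g = q ^ 3 - 1 := by
    rw [orderOf_eq_card_of_forall_mem_zpowers hg, Nat.card_units, Nat.card_eq_fintype_card, hK]
  have h1 : t ^ (q - 1) = 1 := by
    rw [hφ] at ht
    have h3 : t ^ q = t := Units.ext (by rw [Units.val_pow_eq_pow_val]; exact ht)
    have h4 : t ^ (q - 1) * t = 1 * t := by
      rw [← pow_succ, Nat.sub_add_cancel (by omega), h3, one_mul]
    exact mul_right_cancel h4
  have h2 : ((q ^ 3 - 1 : ℕ) : ℤ) ∣ k * ((q - 1 : ℕ) : ℤ) := by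
    rw [← hcard, orderOf_dvd_iff_zpow_eq_one, _root_.zpow_mul, hk, zpow_natCast]
    exact h1
  have e1 : ((q ^ 3 - 1 : ℕ) : ℤ) = (1 + q + q ^ 2 : ℤ) * ((q - 1 : ℕ) : ℤ) := by
    have a1 : 1 ≤ q := by omega
    have a2 : 1 ≤ q ^ 3 := Nat.one_le_pow _ _ (by omega)
    rw [Nat.cast_sub a1, Nat.cast_sub a2]
    push_cast
    ring
  rw [e1] at h2
  have h5 : (1 + q + q ^ 2 : ℤ) ∣ k := by
    have : ((q - 1 : ℕ) : ℤ) ≠ 0 := by
      have : 0 < q - 1 := by omega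
      exact_mod_cast this.ne'
    exact Int.dvd_of_mul_dvd_mul_right this h2
  obtain ⟨j, rfl⟩ := h5
  refine ⟨g ^ j, ?_⟩
  have e2 : (g ^ j) * (g ^ j) ^ q * ((g ^ j) ^ q) ^ q = t := by
    rw [← hk, ← pow_mul, ← pow_succ', ← pow_add, ← zpow_natCast, ← _root_.zpow_mul]
    congr 1
    push_cast
    ring
  rw [hφ, hφ, ← e2]
  push_cast
  ring

include hφ h3 hq2 hK hU hV in
/-- rigidity -/
theorem th_id (hb : ∀ u, θ (bG φ h3 u) = bG φ h3 u) (ha : θ (aG φ 1 (map_one φ)) = aG φ 1 (map_one φ)) (x : ↥(G1 φ)) : θ x = x := by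
  -- the elements `n_b(s)`
  have hn1 : ∀ s : Kˣ, ∀ hm : ngt φ (s : K) ∈ G1 φ, θ ⟨ngt φ (s : K), hm⟩ = ⟨ngt φ (s : K), hm⟩ := by
    intro s hm
    have hvG : vt φ (s : K) ∈ G1 φ := by
      have e : vt φ (s : K) = (TT3 φ s)⁻¹ * ngt φ s * (TT3 φ s)⁻¹ := by rw [ngt_eq]; group
      rw [e]
      exact mul_mem (mul_mem (inv_mem (bG φ h3 (s : K)).2) hm) (inv_mem (bG φ h3 (s : K)).2)
    have hvV : vt φ (s : K) ∈ chevD4.negUnipotent K := by
      have hneg : ∀ r ∈ [5, 10, 11], r ∈ NegS chevD4 ∧ r < chevD4.nroots := by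
        decide +kernel
      have : ∀ r ∈ [5, 10, 11], ∀ t : K, xg chevD4 r t ∈ chevD4.negUnipotent K := by
        intro r hr t
        rw [(cgD4 K).V_eq]
        exact xg_mem_XS chevD4 (hneg r hr).1 (hneg r hr).2 t
      exact mul_mem (this 5 (by simp) _) (mul_mem (this 10 (by simp) _) (this 11 (by simp) _))
    have e1 : (⟨ngt φ (s : K), hm⟩ : ↥(G1 φ)) = bG φ h3 s * ⟨vt φ (s : K), hvG⟩ * bG φ h3 s := Subtype.ext (ngt_eq φ s)
    rw [e1]
    refine (R φ).phi_xvx (cgD4 K) tp hU hV (cen φ) (J := (1 : Fin 2)) (par φ hφ h3 hq2 hK hU 1)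
      (GD.U_le_B ((TN.mem_Um (cgD4 K)).mp (bG_Um φ h3 s)).1.1) (hb _) (hb _) hvV ?_
    rw [← e1]
    change ngt φ (s : K) * ((R φ).n (1 : Fin 2))⁻¹ ∈ _
    rw [n1_eq, ← cs_hF, ← (cgD4 K).hF_range]
    exact ⟨_, rfl⟩
  have hm1 : ngt φ (1 : K) ∈ G1 φ := by rw [← n1_eq]; exact (R φ).n_mem_Gs (cgD4 K) (1 : Fin 2)
  have hmem : ∀ s : Kˣ, ngt φ (s : K) ∈ G1 φ := by
    intro s
    have e : ngt φ (s : K) = hF chevD4 K (cs φ s) * ngt φ 1 := by rw [cs_hF]; group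
    rw [e]
    exact mul_mem (hG φ ⟨cs φ s, cs_st φ h3 s⟩).2 hm1
  have hcs : ∀ s : Kˣ, θ (hG φ ⟨cs φ s, cs_st φ h3 s⟩) = hG φ ⟨cs φ s, cs_st φ h3 s⟩ := by
    intro s
    have e : hG φ ⟨cs φ s, cs_st φ h3 s⟩ = ⟨ngt φ (s : K), hmem s⟩ * (⟨ngt φ (1 : K), hm1⟩ : ↥(G1 φ))⁻¹ := Subtype.ext (cs_hF φ s)
    rw [e, map_mul, map_inv, hn1 s (hmem s)]
    have := hn1 1 (by rw [Units.val_one]; exact hm1)
    simp only [Units.val_one] at this
    rw [this]
  -- the long root elements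
  have haa : ∀ t ht, θ (aG φ t ht) = aG φ t ht := by
    intro t ht
    by_cases ht0 : t = 0
    · subst ht0
      have e : aG φ (0 : K) ht = 1 := Subtype.ext ((cgD4 K).xg_zero 14)
      rw [e, map_one]
    · obtain ⟨s, hs⟩ := norm_surj φ hφ h3 hq2 hK (Units.mk0 t ht0)⁻¹ (by
        rw [Units.val_inv_eq_inv_val, Units.val_mk0, map_inv₀, ht])
      have hχ : (χa (cs φ s) : K) = t := by
        have : (χa (cs φ s) : K) = ((s : K) * φ s * φ (φ s))⁻¹ := by
          unfold χa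
          have w1 : cs φ s (I 1) = 1 := rfl
          have w0 : (cs φ s (I 0) : K) = s := rfl
          have w2 : (cs φ s (I 2) : K) = φ s := rfl
          have w3 : (cs φ s (I 3) : K) = φ (φ s) := rfl
          rw [w1, one_pow, one_mul, Units.val_inv_eq_inv_val, Units.val_mul, Units.val_mul, w0, w2, w3]
        rw [this, hs, Units.val_inv_eq_inv_val, Units.val_mk0, inv_inv]
      have h1 := hG_aG φ h3 ⟨cs φ s, cs_st φ h3 s⟩ 1 (map_one φ)
      have h2 : aG φ ((χa (cs φ s) : K) * 1) (by rw [map_mul, χa_fix φ h3 (cs_st φ h3 s), map_one]) = aG φ t ht := by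
        apply Subtype.ext
        change xg chevD4 14 ((χa (cs φ s) : K) * 1) = xg chevD4 14 t
        rw [hχ, mul_one]
      have h4 := h1.trans h2
      have h5 := congrArg θ h4
      rw [map_mul, map_mul, map_inv, hcs, ha, h4] at h5
      exact h5.symm
  -- the Weyl elements
  have hn0 : θ ((R φ).nG (cgD4 K) (0 : Fin 2)) = (R φ).nG (cgD4 K) (0 : Fin 2) := by
    have hV9 : xg chevD4 9 (-1 : K) ∈ chevD4.negUnipotent K := by
      have hneg : 9 ∈ NegS chevD4 ∧ 9 < chevD4.nroots := by decide +kernel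
      rw [(cgD4 K).V_eq]
      exact xg_mem_XS chevD4 hneg.1 hneg.2 _
    have hG9 : xg chevD4 9 (-1 : K) ∈ G1 φ := by
      have e : xg chevD4 9 (-1 : K) = (xg chevD4 14 1)⁻¹ * (R φ).n (0 : Fin 2) * (xg chevD4 14 1)⁻¹ := by rw [n0_eq]; group
      rw [e]
      exact mul_mem (mul_mem (inv_mem (aG φ 1 (map_one φ)).2) ((R φ).n_mem_Gs (cgD4 K) (0 : Fin 2))) (inv_mem (aG φ 1 (map_one φ)).2)
    have e1 : (R φ).nG (cgD4 K) (0 : Fin 2) = aG φ 1 (map_one φ) * ⟨xg chevD4 9 (-1 : K), hG9⟩ * aG φ 1 (map_one φ) := Subtype.ext (n0_eq φ)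
    have h := (R φ).phi_xvx (cgD4 K) tp hU hV (cen φ) (J := (0 : Fin 2)) (par φ hφ h3 hq2 hK hU 0)
      (x := aG φ 1 (map_one φ)) (x' := aG φ 1 (map_one φ)) (v := ⟨xg chevD4 9 (-1 : K), hG9⟩)
      (GD.U_le_B ((TN.mem_Um (cgD4 K)).mp (aG_Um φ 1 (map_one φ))).1.1) ha ha hV9 (by
        rw [← e1, mul_inv_cancel]; exact one_mem _)
    rw [← e1] at h
    exact h
  have hn1' : θ ((R φ).nG (cgD4 K) (1 : Fin 2)) = (R φ).nG (cgD4 K) (1 : Fin 2) := by
    have e : (R φ).nG (cgD4 K) (1 : Fin 2) = ⟨ngt φ (1 : K), hm1⟩ := Subtype.ext (n1_eq φ)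
    rw [e]
    have := hn1 1 (by rw [Units.val_one]; exact hm1)
    simp only [Units.val_one] at this
    exact this
  refine (R φ).rigid2 (cgD4 K) tp hU hV chn (faith φ h3) ?_ ?_ x
  · have : ∀ J : Fin 2, ∀ x : ↥(G1 φ), (x : GL chevD4.Idx K) ∈ TN.Um (ta φ) (cgD4 K) ((R φ).n J) → θ x = x := by
      intro J x hx
      fin_cases J
      · obtain ⟨t, ht, rfl⟩ := exists_aG φ hx
        exact haa t ht
      · obtain ⟨t, rfl⟩ := exists_bG φ h3 hx
        exact hb t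
    exact this
  · have : ∀ J : Fin 2, θ ((R φ).nG (cgD4 K) J) = (R φ).nG (cgD4 K) J := by
      intro J
      fin_cases J
      · exact hn0
      · exact hn1'
    exact this

end

end CfsgLib.Chev.TwD4
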