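import Cfsg.Agent.Lib.TO10
set_option autoImplicit false
set_option linter.style.haveILetI false
set_option linter.unusedSectionVars false
set_option maxRecDepth 1000000

/-! The automorphisms of `³D₄(q)`, IV. -/

namespace CfsgLib.Chev
open Cfsg.Lie Matrix

theorem CG.mg_wg {D : ChevalleyDatum} {K : Type*} [Field K] (M : CG D K) (σ : K ≃+* K) (W : List (ℕ × K)) :
    mapGL D σ (wg D W) = wg D (W.map fun p => (p.1, σ p.2)) := by
  induction W with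
  | nil => exact map_one _
  | cons p W ih => rw [List.map_cons, wg_cons, wg_cons, map_mul, M.mg_xg, ih]

theorem CG.mg_genSub {D : ChevalleyDatum} {K : Type*} [Field K] (M : CG D K) (σ : K ≃+* K) {S : Set (List (ℕ × K))}
    (hS : ∀ W ∈ S, (W.map fun p => (p.1, σ p.2)) ∈ S) {g : GL D.Idx K} (hg : g ∈ D.genSubgroup K S) :
    mapGL D σ g ∈ D.genSubgroup K S := by
  have h : D.genSubgroup K S ≤ (D.genSubgroup K S).comap (mapGL D σ).toMonoidHom := by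
    apply M.genSub_le
    intro w hw
    change mapGL D σ (wg D w) ∈ D.genSubgroup K S
    rw [M.mg_wg]
    exact M.wg_mem_genSub (hS w hw)
  exact h hg

theorem TN.H_pre {D : ChevalleyDatum} {K : Type*} [Field K] (M : CG D K) (G : Subgroup (GL D.Idx K)) (h : ↥G)
    (hh : (h : GL D.Idx K) ∈ D.diagonalSubgroup K) :
    TN.Pre1 (MulAut.conj h) (D.posUnipotent K) (D.posUnipotent K) ∧
    TN.Pre1 (MulAut.conj h) (D.negUnipotent K) (D.negUnipotent K) :=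
  ⟨TN.Pre1.conj (fun u => Subgroup.mem_normalizer_iff.mp (M.H_norm_U hh) u),
    TN.Pre1.conj (fun u => Subgroup.mem_normalizer_iff.mp (M.H_norm_V hh) u)⟩

end CfsgLib.Chev

namespace CfsgLib.Chev.TwD4
open Cfsg.Lie Matrix CfsgLib.BNP CfsgLib.PWM CfsgLib.Chev.GA CfsgLib.Chev

variable {K : Type*} [Field K] [Fintype K] (φ : K →+* K) {q : ℕ} (hφ : ∀ x, φ x = x ^ q) (h3 : ∀ x, φ (φ (φ x)) = x)
  (hq2 : 2 ≤ q) (hK : Fintype.card K = q ^ 3)

include hφ h3 in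
theorem mg_G1 (σ : RingAut K) (g : GL chevD4.Idx K) (hg : g ∈ G1 φ) : mapGL chevD4 σ g ∈ G1 φ := by
  have h0 : G1 φ = twistedD4 K q := (eq_Gs φ hφ h3).symm
  rw [h0] at hg ⊢
  refine (cgD4 K).mg_genSub σ ?_ hg
  intro W hW
  rcases words.mp hW with ⟨t, ht, r, hr, rfl⟩ | ⟨t, rs, hrs, rfl⟩
  · refine words.mpr (Or.inl ⟨σ t, ?_, r, hr, rfl⟩)
    rw [← map_pow, ht]
  · refine words.mpr (Or.inr ⟨σ t, rs, hrs, ?_⟩)
    simp only [List.map_cons, List.map_nil, map_pow]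

/-- the field automorphisms -/
noncomputable def Fa : RingAut K →* MulAut ↥(G1 φ) := faHom (G1 φ) (mg_G1 φ hφ h3)

include hφ in
theorem comm_σ (σ : RingAut K) (x : K) : σ (φ x) = φ (σ x) := by rw [hφ, hφ, map_pow]

theorem Fa_bG (σ : RingAut K) (t : K) : Fa φ hφ h3 σ (bG φ h3 t) = bG φ h3 (σ t) := by
  apply Subtype.ext
  change mapGL chevD4 σ (TT3 φ t) = TT3 φ (σ t)
  unfold TT3
  rw [map_mul, map_mul, (cgD4 K).mg_xg, (cgD4 K).mg_xg, (cgD4 K).mg_xg, comm_σ φ hφ, comm_σ φ hφ]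

theorem Fa_aG (σ : RingAut K) : Fa φ hφ h3 σ (aG φ 1 (map_one φ)) = aG φ 1 (map_one φ) := by
  apply Subtype.ext
  change mapGL chevD4 σ (xg chevD4 14 1) = xg chevD4 14 1
  rw [(cgD4 K).mg_xg, map_one]

include hq2 hK in
theorem aut_form (ψ : MulAut ↥(G1 φ)) : ∃ σ g, ψ = MulAut.conj g * Fa φ hφ h3 σ := by
  obtain ⟨x, θ, h1, h2, h4⟩ := (R φ).frame1 (cgD4 K) tp ψ
  set F := Fa φ hφ h3 with hF
  obtain ⟨a, ha, hab⟩ := th_a φ hφ h3 hq2 hK h2 h4 1 (map_one φ)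
  obtain ⟨b, hb⟩ := th_b φ hφ h3 hq2 hK h2 h4 1
  have ha0 : a ≠ 0 := by
    rintro rfl
    have e : aG φ (0 : K) ha = 1 := Subtype.ext ((cgD4 K).xg_zero 14)
    rw [e] at hab
    have h5 : aG φ (1 : K) (map_one φ) = aG φ 0 (map_zero φ) := by
      have e' : aG φ (0 : K) (map_zero φ) = 1 := Subtype.ext ((cgD4 K).xg_zero 14)
      rw [e']
      exact θ.injective (hab.trans (map_one θ).symm)
    exact one_ne_zero (aG_inj φ h5)
  have hb0 : b ≠ 0 := by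
    rintro rfl
    have e : bG φ h3 (0 : K) = 1 := Subtype.ext (TT3_zero φ)
    rw [e] at hb
    have h5 : bG φ h3 (1 : K) = bG φ h3 0 := by
      rw [e]
      exact θ.injective (hb.trans (map_one θ).symm)
    exact one_ne_zero (bG_inj φ h3 h5)
  obtain ⟨c, hc1, hc2⟩ := χ_surj φ h3 (Units.mk0 a ha0)⁻¹ (by rw [Units.val_inv_eq_inv_val, Units.val_mk0, map_inv₀, ha]) (Units.mk0 b hb0)⁻¹
  obtain ⟨hp1, hp2⟩ := TN.H_pre (cgD4 K) (G1 φ) (hG φ c) (hG_H φ c)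
  set θ1 : ↥(G1 φ) ≃* ↥(G1 φ) := θ.trans (MulAut.conj (hG φ c)) with hθ1
  have hU1 : TN.Pre1 θ1 (chevD4.posUnipotent K) (chevD4.posUnipotent K) := h2.trans hp1
  have hV1 : TN.Pre1 θ1 (chevD4.negUnipotent K) (chevD4.negUnipotent K) := h4.trans hp2
  have ha1 : θ1 (aG φ 1 (map_one φ)) = aG φ 1 (map_one φ) := by
    change hG φ c * θ (aG φ 1 (map_one φ)) * (hG φ c)⁻¹ = _
    rw [hab, hG_aG φ h3]
    apply Subtype.ext
    change xg chevD4 14 ((χa c.1 : K) * a) = xg chevD4 14 1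
    rw [hc1, Units.val_inv_eq_inv_val, Units.val_mk0, inv_mul_cancel₀ ha0]
  have hb1 : θ1 (bG φ h3 1) = bG φ h3 1 := by
    change hG φ c * θ (bG φ h3 1) * (hG φ c)⁻¹ = _
    rw [hb, hG_bG, hc2, Units.val_inv_eq_inv_val, Units.val_mk0, inv_mul_cancel₀ hb0]
  obtain ⟨σ, hσ⟩ := th_field φ hφ h3 hq2 hK hU1 hV1 hb1
  set θ2 : ↥(G1 φ) ≃* ↥(G1 φ) := θ1.trans (F σ⁻¹) with hθ2
  have hU2 : TN.Pre1 θ2 (chevD4.posUnipotent K) (chevD4.posUnipotent K) := hU1.trans (faHom_U (cgD4 K) _ _ σ⁻¹)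
  have hV2 : TN.Pre1 θ2 (chevD4.negUnipotent K) (chevD4.negUnipotent K) := hV1.trans (faHom_V (cgD4 K) _ _ σ⁻¹)
  have hid := th_id φ hφ h3 hq2 hK hU2 hV2 (fun u => by
      change F σ⁻¹ (θ1 (bG φ h3 u)) = _
      rw [hσ, hF, Fa_bG]
      congr 1
      exact σ.symm_apply_apply u) (by
      change F σ⁻¹ (θ1 (aG φ 1 (map_one φ))) = _
      rw [ha1, hF, Fa_aG])
  refine ⟨σ, x * (hG φ c)⁻¹, ?_⟩
  ext y : 1
  rw [MulAut.mul_apply, map_mul, MulAut.mul_apply, h1]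
  have h5 : F σ⁻¹ (hG φ c * θ y * (hG φ c)⁻¹) = y := hid y
  have h6 : hG φ c * θ y * (hG φ c)⁻¹ = F σ y := by
    have := congrArg (F σ) h5
    rw [← MulAut.mul_apply, ← map_mul, mul_inv_cancel, map_one] at this
    exact this
  rw [MulAut.conj_apply, MulAut.conj_apply, ← h6]
  group

theorem Fa_outer (σ : RingAut K) (h : Fa φ hφ h3 σ ∈ Cfsg.Inn ↥(G1 φ)) : σ = 1 := by
  obtain ⟨g, hg⟩ := h
  have h1 : (g : GL chevD4.Idx K) ∈ chevD4.diagonalSubgroup K := by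
    apply (R φ).conj_H (cgD4 K) tp g
    · rw [hg]; exact faHom_U (cgD4 K) _ _ σ
    · rw [hg]; exact faHom_V (cgD4 K) _ _ σ
  obtain ⟨c, rfl⟩ := exists_hG φ h3 h1
  have h2 : ∀ v, (χb c.1 : K) * v = σ v := by
    intro v
    have h4 : MulAut.conj (hG φ c) (bG φ h3 v) = Fa φ hφ h3 σ (bG φ h3 v) := by rw [hg]
    rw [Fa_bG, MulAut.conj_apply, hG_bG] at h4
    exact bG_inj φ h3 h4
  have h4 : (χb c.1 : K) = 1 := by
    have := h2 1
    rwa [mul_one, map_one] at this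
  ext v
  rw [← h2 v, h4, one_mul]
  rfl

include hφ h3 hq2 hK in
theorem card_out {p f : ℕ} [Fact p.Prime] (hq : q = p ^ f) : Nat.card (Cfsg.Out ↥(twistedD4 K q)) = 3 * f := by
  have hK' : Fintype.card K = p ^ (3 * f) := by rw [hK, hq, ← pow_mul, mul_comm]
  rw [← CfsgLib.AutPSL.ringAut_card hK', eq_Gs φ hφ h3]
  exact card_out_of (Fa φ hφ h3) (aut_form φ hφ h3 hq2 hK) (Fa_outer φ hφ h3)

end CfsgLib.Chev.TwD4
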