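import Cfsg.Agent.Lib.TO11
import Cfsg.Agent.Lib.TWF5
set_option autoImplicit false
set_option linter.style.haveILetI false
set_option linter.unusedSectionVars false
set_option maxRecDepth 1000000

/-! The automorphisms of `²F₄(q)`. -/

namespace CfsgLib.Chev.TwF4
open Cfsg.Lie Matrix CfsgLib.BNP CfsgLib.PWM CfsgLib.Chev.GA CfsgLib.Chev CfsgLib.Chev.EV

variable {K : Type*} [Field K] [Fintype K] [CharP K 2] (θ τ : K →+* K) (hτ : ∀ t, τ t = (θ t) ^ 2)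
  (hi : ∀ t, θ (τ t) = t) (hi' : ∀ t, τ (θ t) = t)

/-- the fixed group -/
noncomputable abbrev G1 : Subgroup (GL chevF4.Idx K) := (ta θ τ hτ).Gs (cgF4 K)

/-- pairs -/
noncomputable def pp (t : K) : GL chevF4.Idx K := xg chevF4 24 t * xg chevF4 33 (θ t)

theorem pp_add (t u : K) : pp θ t * pp θ u = pp θ (t + u) := by
  have M := cgF4 K
  unfold pp
  rw [map_add, ← M.xg_add 24, ← M.xg_add 33]
  have k := (M.xg_cm cm1.1 u (θ t)).eq
  generalize xg chevF4 24 t = A at *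
  generalize xg chevF4 24 u = B at *
  generalize xg chevF4 33 (θ t) = C at *
  generalize xg chevF4 33 (θ u) = E at *
  calc A * C * (B * E) = A * (C * B) * E := by group
    _ = A * (B * C) * E := by rw [k]
    _ = _ := by group

theorem pp_inj {t u : K} (h : pp θ t = pp θ u) : t = u := by
  have h3' : wg chevF4 ((Sl 0).map fun x => (x, (fun x => if x = 24 then t else θ t) x)) =
      wg chevF4 ((Sl 0).map fun x => (x, (fun x => if x = 24 then u else θ u) x)) := by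
    change xg chevF4 24 t * (xg chevF4 33 (θ t) * 1) = xg chevF4 24 u * (xg chevF4 33 (θ u) * 1)
    rw [mul_one, mul_one]
    exact h
  exact (cgF4 K).form_unique' _ (of_decide_eq_true (srt 0)) _ _ h3' 24 (by decide)

theorem pp_zero : pp θ (0 : K) = 1 := by
  have h := pp_add θ (0 : K) 0
  rw [add_zero] at h
  exact mul_eq_left.mp h

theorem yy_inj' {t u t' u' : K} (h1 : yy θ τ t u = yy θ τ t' u') : t = t' ∧ u = u' := by
  have h3' : wg chevF4 ((Sl 1).map fun x => (x, (fun x => if x = 25 then t else if x = 27 then θ t else if x = 28 then t * θ t + u else τ u) x)) =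
      wg chevF4 ((Sl 1).map fun x => (x, (fun x => if x = 25 then t' else if x = 27 then θ t' else if x = 28 then t' * θ t' + u' else τ u') x)) := by
    change xg chevF4 25 t * (xg chevF4 27 (θ t) * (xg chevF4 28 (t * θ t + u) * (xg chevF4 30 (τ u) * 1))) =
      xg chevF4 25 t' * (xg chevF4 27 (θ t') * (xg chevF4 28 (t' * θ t' + u') * (xg chevF4 30 (τ u') * 1)))
    rw [mul_one, mul_one]
    exact h1
  have h5 := (cgF4 K).form_unique' _ (of_decide_eq_true (srt 1)) _ _ h3' 25 (by decide)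
  have h6 := (cgF4 K).form_unique' _ (of_decide_eq_true (srt 1)) _ _ h3' 30 (by decide)
  have h7 : t = t' := h5
  have h8 : τ u = τ u' := h6
  exact ⟨h7, τ.injective h8⟩

noncomputable def pG (t : K) : ↥(G1 θ τ hτ) :=
  ⟨pp θ t, (((TN.mem_Um (cgF4 K)).mp ((mem_Um0 θ τ hτ hi hi').mpr ⟨t, rfl⟩)).1.2 : _ ∈ (ta θ τ hτ).Gs (cgF4 K))⟩

noncomputable def yG (t u : K) : ↥(G1 θ τ hτ) :=
  ⟨yy θ τ t u, (((TN.mem_Um (cgF4 K)).mp ((mem_Um1 θ τ hτ hi hi').mpr ⟨t, u, rfl⟩)).1.2 : _ ∈ (ta θ τ hτ).Gs (cgF4 K))⟩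

theorem pG_inj {t u : K} (h : pG θ τ hτ hi hi' t = pG θ τ hτ hi hi' u) : t = u := pp_inj θ (congrArg Subtype.val h)
theorem yG_inj {t u t' u' : K} (h : yG θ τ hτ hi hi' t u = yG θ τ hτ hi hi' t' u') : t = t' ∧ u = u' := yy_inj' θ τ (congrArg Subtype.val h)
theorem yG_mul (t u t' u' : K) : yG θ τ hτ hi hi' t u * yG θ τ hτ hi hi' t' u' = yG θ τ hτ hi hi' (t + t') (u + u' + t * θ t') :=
  Subtype.ext (yy_mul θ τ hτ hi' t u t' u')

theorem pG_Um (t : K) : (pG θ τ hτ hi hi' t : GL chevF4.Idx K) ∈ TN.Um (ta θ τ hτ) (cgF4 K) ((R θ τ hτ).n (0 : Fin 2)) :=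
  (mem_Um0 θ τ hτ hi hi').mpr ⟨t, rfl⟩
theorem yG_Um (t u : K) : (yG θ τ hτ hi hi' t u : GL chevF4.Idx K) ∈ TN.Um (ta θ τ hτ) (cgF4 K) ((R θ τ hτ).n (1 : Fin 2)) :=
  (mem_Um1 θ τ hτ hi hi').mpr ⟨t, u, rfl⟩

theorem exists_pG {x : ↥(G1 θ τ hτ)} (hx : (x : GL chevF4.Idx K) ∈ TN.Um (ta θ τ hτ) (cgF4 K) ((R θ τ hτ).n (0 : Fin 2))) :
    ∃ t, x = pG θ τ hτ hi hi' t := by
  obtain ⟨t, h⟩ := (mem_Um0 θ τ hτ hi hi').mp hx
  exact ⟨t, Subtype.ext h⟩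

theorem exists_yG {x : ↥(G1 θ τ hτ)} (hx : (x : GL chevF4.Idx K) ∈ TN.Um (ta θ τ hτ) (cgF4 K) ((R θ τ hτ).n (1 : Fin 2))) :
    ∃ t u, x = yG θ τ hτ hi hi' t u := by
  obtain ⟨t, u, h⟩ := (mem_Um1 θ τ hτ hi hi').mp hx
  exact ⟨t, u, Subtype.ext h⟩

/-- the torus -/
noncomputable def cc : Kˣ × Kˣ →* (Fin chevF4.rank → Kˣ) where
  toFun p := (![Units.map (θ : K →* K) p.1, Units.map (θ : K →* K) p.2, p.2, p.1] : Fin 4 → Kˣ)
  map_one' := by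
    funext i
    change Fin 4 at i
    fin_cases i
    · exact map_one (Units.map (θ : K →* K))
    · exact map_one (Units.map (θ : K →* K))
    · rfl
    · rfl
  map_mul' a b := by
    funext i
    change Fin 4 at i
    fin_cases i
    · exact map_mul (Units.map (θ : K →* K)) a.1 b.1
    · exact map_mul (Units.map (θ : K →* K)) a.2 b.2
    · rfl
    · rfl

include hi hi' in
theorem cc_st (p : Kˣ × Kˣ) : (ta θ τ hτ).st (cc θ p) = cc θ p := (st_eq_iff θ τ hτ hi hi' _).mpr ⟨rfl, rfl⟩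

noncomputable def hG (p : Kˣ × Kˣ) : ↥(G1 θ τ hτ) := ⟨hF chevF4 K (cc θ p),
  ((ta θ τ hτ).mem_Gs (cgF4 K)).mpr ⟨(cgF4 K).hF_mem_G _, by rw [(ta θ τ hτ).s_hF (cgF4 K), cc_st θ τ hτ hi hi']⟩⟩

theorem hG_H (p : Kˣ × Kˣ) : (hG θ τ hτ hi hi' p : GL chevF4.Idx K) ∈ chevF4.diagonalSubgroup K := by
  change hF chevF4 K (cc θ p) ∈ _
  rw [← (cgF4 K).hF_range]; exact ⟨_, rfl⟩

theorem hG_mul (p p' : Kˣ × Kˣ) : hG θ τ hτ hi hi' (p * p') = hG θ τ hτ hi hi' p * hG θ τ hτ hi hi' p' := by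
  apply Subtype.ext
  change hF chevF4 K (cc θ (p * p')) = hF chevF4 K (cc θ p) * hF chevF4 K (cc θ p')
  rw [map_mul, map_mul]

theorem exists_hG {x : ↥(G1 θ τ hτ)} (hx : (x : GL chevF4.Idx K) ∈ chevF4.diagonalSubgroup K) : ∃ p, x = hG θ τ hτ hi hi' p := by
  obtain ⟨c, hc, he⟩ := torus θ τ hτ (Subgroup.mem_inf.mpr ⟨hx, x.2⟩)
  obtain ⟨a0, a1⟩ := (st_eq_iff θ τ hτ hi hi' c).mp hc
  refine ⟨(c (I 3), c (I 2)), Subtype.ext ?_⟩
  change (x : GL chevF4.Idx K) = hF chevF4 K (cc θ (c (I 3), c (I 2)))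
  rw [← he]
  congr 1
  funext i
  change Fin 4 at i
  fin_cases i
  · exact Units.ext a0
  · exact Units.ext a1
  · rfl
  · rfl

theorem cartF : chevF4.cartan 0 24 = 0 ∧ chevF4.cartan 1 24 = 0 ∧ chevF4.cartan 2 24 = -1 ∧ chevF4.cartan 3 24 = 2 ∧
    chevF4.cartan 0 33 = 2 ∧ chevF4.cartan 1 33 = -1 ∧ chevF4.cartan 2 33 = 0 ∧ chevF4.cartan 3 33 = 0 ∧
    chevF4.cartan 0 25 = 0 ∧ chevF4.cartan 1 25 = -2 ∧ chevF4.cartan 2 25 = 2 ∧ chevF4.cartan 3 25 = -1 ∧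
    chevF4.cartan 0 27 = -1 ∧ chevF4.cartan 1 27 = 2 ∧ chevF4.cartan 2 27 = -1 ∧ chevF4.cartan 3 27 = 0 ∧
    chevF4.cartan 0 28 = -1 ∧ chevF4.cartan 1 28 = 0 ∧ chevF4.cartan 2 28 = 1 ∧ chevF4.cartan 3 28 = -1 ∧
    chevF4.cartan 0 30 = -2 ∧ chevF4.cartan 1 30 = 2 ∧ chevF4.cartan 2 30 = 0 ∧ chevF4.cartan 3 30 = -1 := by decide +kernel

/-- the characters -/
noncomputable def χa (p : Kˣ × Kˣ) : K := (p.1 : K) ^ 2 * (p.2 : K)⁻¹
noncomputable def χb (p : Kˣ × Kˣ) : K := (p.2 : K) ^ 2 * (τ (p.2 : K))⁻¹ * (p.1 : K)⁻¹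

theorem cc_prod (p : Kˣ × Kˣ) (r : ℕ) : ((∏ k : Fin chevF4.rank, cc θ p k ^ chevF4.cartan k r : Kˣ) : K) =
    (θ (p.1 : K)) ^ chevF4.cartan 0 r * (θ (p.2 : K)) ^ chevF4.cartan 1 r * (p.2 : K) ^ chevF4.cartan 2 r * (p.1 : K) ^ chevF4.cartan 3 r := by
  have h1 : ∏ k : Fin chevF4.rank, cc θ p k ^ chevF4.cartan k r = ∏ k : Fin 4, cc θ p (I k) ^ chevF4.cartan (I k) r := rfl
  rw [h1, Fin.prod_univ_four]
  simp only [Units.val_mul, Units.val_zpow_eq_zpow_val]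
  rfl

include hτ hi in
theorem prs (p : Kˣ × Kˣ) :
    ((∏ k : Fin chevF4.rank, cc θ p k ^ chevF4.cartan k 24 : Kˣ) : K) = χa p ∧
    ((∏ k : Fin chevF4.rank, cc θ p k ^ chevF4.cartan k 33 : Kˣ) : K) = θ (χa p) ∧
    ((∏ k : Fin chevF4.rank, cc θ p k ^ chevF4.cartan k 25 : Kˣ) : K) = χb τ p ∧
    ((∏ k : Fin chevF4.rank, cc θ p k ^ chevF4.cartan k 27 : Kˣ) : K) = θ (χb τ p) ∧
    ((∏ k : Fin chevF4.rank, cc θ p k ^ chevF4.cartan k 28 : Kˣ) : K) = χb τ p * θ (χb τ p) ∧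
    ((∏ k : Fin chevF4.rank, cc θ p k ^ chevF4.cartan k 30 : Kˣ) : K) = χb τ p * θ (χb τ p) ^ 2 := by
  obtain ⟨a0, a1, a2, a3, b0, b1, b2, b3, c0, c1, c2, c3, d0, d1, d2, d3, e0, e1, e2, e3, f0, f1, f2, f3⟩ := cartF
  have h1 : (p.1 : K) ≠ 0 := p.1.ne_zero
  have h2 : (p.2 : K) ≠ 0 := p.2.ne_zero
  have h3 : θ (p.1 : K) ≠ 0 := (map_ne_zero θ).mpr h1
  have h4 : θ (p.2 : K) ≠ 0 := (map_ne_zero θ).mpr h2
  have z2 : ∀ x : K, x ^ (2 : ℤ) = x ^ 2 := fun x => by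
    rw [show (2 : ℤ) = ((2 : ℕ) : ℤ) from rfl, zpow_natCast]
  have z2' : ∀ x : K, x ^ (-2 : ℤ) = (x ^ 2)⁻¹ := fun x => by
    rw [_root_.zpow_neg, z2]
  have z1 : ∀ x : K, x ^ (-1 : ℤ) = x⁻¹ := fun x => _root_.zpow_neg_one x
  rw [cc_prod, cc_prod, cc_prod, cc_prod, cc_prod, cc_prod, a0, a1, a2, a3, b0, b1, b2, b3, c0, c1, c2, c3, d0, d1, d2, d3, e0, e1, e2, e3,
    f0, f1, f2, f3]
  unfold χa χb
  have hθθ : ∀ x : K, θ (θ x) ^ 2 = x := fun x => by rw [← map_pow, ← hτ, hi]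
  simp only [z2, z2', z1, _root_.zpow_zero, _root_.zpow_one, map_mul, map_pow, map_inv₀, hτ, hθθ]
  refine ⟨?_, ?_, ?_, ?_, ?_, ?_⟩
  all_goals field_simp

/-- the action on pairs -/
theorem hG_pG (p : Kˣ × Kˣ) (t : K) : hG θ τ hτ hi hi' p * pG θ τ hτ hi hi' t * (hG θ τ hτ hi hi' p)⁻¹ =
    pG θ τ hτ hi hi' (χa p * t) := by
  apply Subtype.ext
  change hF chevF4 K (cc θ p) * pp θ t * (hF chevF4 K (cc θ p))⁻¹ = pp θ (χa p * t)
  have h24 : 24 < chevF4.nroots := by decide +kernel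
  have h33 : 33 < chevF4.nroots := by decide +kernel
  obtain ⟨p1, p2, _⟩ := prs θ τ hτ hi p
  have e1 := (cgF4 K).hF_xg (cc θ p) h24 t
  have e2 := (cgF4 K).hF_xg (cc θ p) h33 (θ t)
  rw [p1] at e1
  rw [p2] at e2
  unfold pp
  have e4 : hF chevF4 K (cc θ p) * (xg chevF4 24 t * xg chevF4 33 (θ t)) * (hF chevF4 K (cc θ p))⁻¹ =
      (hF chevF4 K (cc θ p) * xg chevF4 24 t * (hF chevF4 K (cc θ p))⁻¹) * (hF chevF4 K (cc θ p) * xg chevF4 33 (θ t) * (hF chevF4 K (cc θ p))⁻¹) := by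
    group
  rw [e4, e1, e2, map_mul]

/-- the action on the Suzuki part -/
theorem hG_yG (p : Kˣ × Kˣ) (t u : K) : hG θ τ hτ hi hi' p * yG θ τ hτ hi hi' t u * (hG θ τ hτ hi hi' p)⁻¹ =
    yG θ τ hτ hi hi' (χb τ p * t) (χb τ p * θ (χb τ p) * u) := by
  apply Subtype.ext
  change hF chevF4 K (cc θ p) * yy θ τ t u * (hF chevF4 K (cc θ p))⁻¹ = yy θ τ (χb τ p * t) (χb τ p * θ (χb τ p) * u)
  have h25 : 25 < chevF4.nroots := by decide +kernel
  have h27 : 27 < chevF4.nroots := by decide +kernel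
  have h28 : 28 < chevF4.nroots := by decide +kernel
  have h30 : 30 < chevF4.nroots := by decide +kernel
  obtain ⟨_, _, p1, p2, p3, p4⟩ := prs θ τ hτ hi p
  have e1 := (cgF4 K).hF_xg (cc θ p) h25 t
  have e2 := (cgF4 K).hF_xg (cc θ p) h27 (θ t)
  have e3 := (cgF4 K).hF_xg (cc θ p) h28 (t * θ t + u)
  have e5 := (cgF4 K).hF_xg (cc θ p) h30 (τ u)
  rw [p1] at e1
  rw [p2] at e2
  rw [p3] at e3
  rw [p4] at e5
  unfold yy
  have e4 : hF chevF4 K (cc θ p) * (xg chevF4 25 t * (xg chevF4 27 (θ t) * (xg chevF4 28 (t * θ t + u) * xg chevF4 30 (τ u)))) *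
      (hF chevF4 K (cc θ p))⁻¹ = (hF chevF4 K (cc θ p) * xg chevF4 25 t * (hF chevF4 K (cc θ p))⁻¹) *
      ((hF chevF4 K (cc θ p) * xg chevF4 27 (θ t) * (hF chevF4 K (cc θ p))⁻¹) *
      ((hF chevF4 K (cc θ p) * xg chevF4 28 (t * θ t + u) * (hF chevF4 K (cc θ p))⁻¹) *
      (hF chevF4 K (cc θ p) * xg chevF4 30 (τ u) * (hF chevF4 K (cc θ p))⁻¹))) := by
    group
  rw [e4, e1, e2, e3, e5]
  have f1 : χb τ p * θ (χb τ p) * (t * θ t + u) = χb τ p * t * θ (χb τ p * t) + χb τ p * θ (χb τ p) * u := by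
    rw [map_mul]; ring
  have f2 : χb τ p * θ (χb τ p) ^ 2 * τ u = τ (χb τ p * θ (χb τ p) * u) := by
    rw [map_mul, map_mul, hi', hτ (χb τ p)]; ring
  rw [f1, f2, map_mul]

include hτ hi in
/-- the characters are injective -/
theorem χ_one {p : Kˣ × Kˣ} (h1 : χa p = 1) (h2 : χb τ p = 1) : p = 1 := by
  obtain ⟨p1, p2, p3, p4, _⟩ := prs θ τ hτ hi p
  rw [h1] at p1
  rw [h1, map_one] at p2
  rw [h2] at p3
  rw [h2, map_one] at p4
  obtain ⟨s0, s1, s2, s3, _⟩ := smp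
  have h : hF chevF4 K (cc θ p) = 1 := by
    rw [(cgF4 K).hF_eq_one_iff]
    have e : ∀ j : Fin 4, pw (cmat chevF4) (cc θ p) (I j) = 1 := by
      intro j
      have hpw : pw (cmat chevF4) (cc θ p) (I j) = ∏ i : Fin chevF4.rank, cc θ p i ^ chevF4.cartan i (chevF4.simple (I j)) := rfl
      rw [hpw]
      fin_cases j
      · change ∏ i : Fin chevF4.rank, cc θ p i ^ chevF4.cartan i (chevF4.simple 0) = 1
        rw [s0]; exact Units.ext p2
      · change ∏ i : Fin chevF4.rank, cc θ p i ^ chevF4.cartan i (chevF4.simple 1) = 1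
        rw [s1]; exact Units.ext p4
      · change ∏ i : Fin chevF4.rank, cc θ p i ^ chevF4.cartan i (chevF4.simple 2) = 1
        rw [s2]; exact Units.ext p3
      · change ∏ i : Fin chevF4.rank, cc θ p i ^ chevF4.cartan i (chevF4.simple 3) = 1
        rw [s3]; exact Units.ext p1
    funext j
    exact e j
  have h3 := hF_inj h
  exact Prod.ext (congrFun h3 (I 3)) (congrFun h3 (I 2))

include hτ hi in
/-- the characters are independent -/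
theorem χ_surj (α β : Kˣ) : ∃ p : Kˣ × Kˣ, χa p = (α : K) ∧ χb τ p = (β : K) := by
  let g : Kˣ × Kˣ →* Kˣ × Kˣ :=
    { toFun := fun p => (p.1 ^ 2 * p.2⁻¹, p.2 ^ 2 * (Units.map (τ : K →* K) p.2)⁻¹ * p.1⁻¹)
      map_one' := by simp
      map_mul' := fun p p' => by
        apply Prod.ext
        · change (p.1 * p'.1) ^ 2 * (p.2 * p'.2)⁻¹ = (p.1 ^ 2 * p.2⁻¹) * (p'.1 ^ 2 * p'.2⁻¹)
          rw [_root_.mul_inv, mul_pow, mul_mul_mul_comm]
        · change (p.2 * p'.2) ^ 2 * (Units.map (τ : K →* K) (p.2 * p'.2))⁻¹ * (p.1 * p'.1)⁻¹ =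
            (p.2 ^ 2 * (Units.map (τ : K →* K) p.2)⁻¹ * p.1⁻¹) * (p'.2 ^ 2 * (Units.map (τ : K →* K) p'.2)⁻¹ * p'.1⁻¹)
          rw [map_mul, _root_.mul_inv, _root_.mul_inv, mul_pow]
          simp only [mul_assoc, mul_comm, mul_left_comm] }
  have hg : Function.Injective g := by
    rw [injective_iff_map_eq_one]
    intro p hp
    have h1 : p.1 ^ 2 * p.2⁻¹ = 1 := congrArg Prod.fst hp
    have h2 : p.2 ^ 2 * (Units.map (τ : K →* K) p.2)⁻¹ * p.1⁻¹ = 1 := congrArg Prod.snd hp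
    apply χ_one θ τ hτ hi
    · have := congrArg Units.val h1
      simpa [χa] using this
    · have := congrArg Units.val h2
      simpa [χb] using this
  obtain ⟨p, hp⟩ := Finite.surjective_of_injective hg (α, β)
  refine ⟨p, ?_, ?_⟩
  · have := congrArg Units.val (congrArg Prod.fst hp)
    simpa [χa, g] using this
  · have := congrArg Units.val (congrArg Prod.snd hp)
    simpa [χb, g] using this

end CfsgLib.Chev.TwF4
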