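import Cfsg.Agent.Lib.TO12
set_option autoImplicit false
set_option linter.style.haveILetI false
set_option linter.unusedSectionVars false
set_option maxRecDepth 1000000

/-! The automorphisms of `²F₄(q)`, II. -/

namespace CfsgLib.Chev.TwF4
open Cfsg.Lie Matrix CfsgLib.BNP CfsgLib.PWM CfsgLib.Chev.GA CfsgLib.Chev CfsgLib.Chev.EV

variable {K : Type*} [Field K] [Fintype K] [CharP K 2] (θ τ : K →+* K) (hτ : ∀ t, τ t = (θ t) ^ 2)
  (hi : ∀ t, θ (τ t) = t) (hi' : ∀ t, τ (θ t) = t)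

theorem cen : (R θ τ hτ).Cen (cgF4 K) L0 := by
  refine (R θ τ hτ).cen_of (cgF4 K) ?_
  have h : ∀ J : Fin 2, ∀ s < chevF4.nroots, rl chevF4 (wv (O.fl (L0 ++ [J]))) s = rl chevF4 (wv (O.fl (J :: L0))) s := by
    decide +kernel
  exact h

include hi hi' in
theorem faith (x : ↥(G1 θ τ hτ)) (hx : (x : GL chevF4.Idx K) ∈ chevF4.diagonalSubgroup K)
    (h : ∀ J : Fin 2, ∀ u : ↥(G1 θ τ hτ), (u : GL chevF4.Idx K) ∈ TN.Um (ta θ τ hτ) (cgF4 K) ((R θ τ hτ).n J) → x * u * x⁻¹ = u) : x = 1 := by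
  obtain ⟨p, rfl⟩ := exists_hG θ τ hτ hi hi' hx
  have h0 := h 0 (pG θ τ hτ hi hi' 1) (pG_Um θ τ hτ hi hi' 1)
  have h1 := h 1 (yG θ τ hτ hi hi' 1 0) (yG_Um θ τ hτ hi hi' 1 0)
  rw [hG_pG] at h0
  rw [hG_yG] at h1
  have k0 := pG_inj θ τ hτ hi hi' h0
  have k1 := (yG_inj θ τ hτ hi hi' h1).1
  rw [mul_one] at k0 k1
  have := χ_one θ τ hτ hi k0 k1
  apply Subtype.ext
  change hF chevF4 K (cc θ p) = 1
  rw [this, map_one, map_one]

section
variable {ψ : ↥(G1 θ τ hτ) ≃* ↥(G1 θ τ hτ)} (hU : TN.Pre1 ψ (chevF4.posUnipotent K) (chevF4.posUnipotent K))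
  (hV : TN.Pre1 ψ (chevF4.negUnipotent K) (chevF4.negUnipotent K))

omit [Fintype K] in
theorem inj12 : ∀ J J' : Fin 2, [1, 2].getD J.val 0 = [1, 2].getD J'.val 0 → J = J' := by decide

include hi hi' hU in
theorem par (J : Fin 2) (g : ↥(G1 θ τ hτ)) : g ∈ (R θ τ hτ).Par (cgF4 K) J ↔ ψ g ∈ (R θ τ hτ).Par (cgF4 K) J := by
  obtain ⟨J', h⟩ := (R θ τ hτ).map_Par (cgF4 K) hU J
  have h1 := (R θ τ hτ).Par_fixed (cgF4 K) hU h
  have e : ∀ J : Fin 2, Nat.card (TN.Um (ta θ τ hτ) (cgF4 K) ((R θ τ hτ).n J)) = Fintype.card K ^ ([1, 2].getD J.val 0) :=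
    card_Um θ τ hτ hi hi'
  have h2 : J = (J' : Fin 2) := by
    have k1 := e J
    have k2 := e J'
    have k3 : Fintype.card K ^ ([1, 2].getD J.val 0) = Fintype.card K ^ ([1, 2].getD (J' : Fin 2).val 0) := k1.symm.trans (h1.trans k2)
    have hq2 : 2 ≤ Fintype.card K := Fintype.one_lt_card
    have k4 := Nat.pow_right_injective hq2 k3
    exact inj12 J J' k4
  have h' : ∀ g : ↥(G1 θ τ hτ), g ∈ (R θ τ hτ).Par (cgF4 K) J ↔ ψ g ∈ (R θ τ hτ).Par (cgF4 K) J' := h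
  rw [← h2] at h'
  exact h' g

include hi hi' hU hV in
theorem um (J : Fin 2) (x : ↥(G1 θ τ hτ)) : (x : GL chevF4.Idx K) ∈ TN.Um (ta θ τ hτ) (cgF4 K) ((R θ τ hτ).n J) ↔
    (ψ x : GL chevF4.Idx K) ∈ TN.Um (ta θ τ hτ) (cgF4 K) ((R θ τ hτ).n J) :=
  (R θ τ hτ).phi_Um (cgF4 K) tp hU hV (cen θ τ hτ) (par θ τ hτ hi hi' hU J) x

include hU hV in
theorem th_p (t : K) : ∃ t', ψ (pG θ τ hτ hi hi' t) = pG θ τ hτ hi hi' t' :=
  exists_pG θ τ hτ hi hi' ((um θ τ hτ hi hi' hU hV 0 _).mp (pG_Um θ τ hτ hi hi' t))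

include hU hV in
theorem th_y (t u : K) : ∃ t' u', ψ (yG θ τ hτ hi hi' t u) = yG θ τ hτ hi hi' t' u' :=
  exists_yG θ τ hτ hi hi' ((um θ τ hτ hi hi' hU hV 1 _).mp (yG_Um θ τ hτ hi hi' t u))

include hU hV in
theorem th_h (p : Kˣ × Kˣ) : ∃ p', ψ (hG θ τ hτ hi hi' p) = hG θ τ hτ hi hi' p' :=
  exists_hG θ τ hτ hi hi' (((R θ τ hτ).pre_H (cgF4 K) tp hU hV _).mp (hG_H θ τ hτ hi hi' p))

theorem yG_sq (t u : K) : yG θ τ hτ hi hi' t u * yG θ τ hτ hi hi' t u = yG θ τ hτ hi hi' 0 (t * θ t) := by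
  rw [yG_mul]
  congr 1
  · linear_combination t * two0 K
  · linear_combination u * two0 K

theorem yG_one : yG θ τ hτ hi hi' 0 0 = 1 := Subtype.ext (yy_zero θ τ)

include hU hV in
/-- the centre is preserved -/
theorem th_z (u : K) : ∃ u', ψ (yG θ τ hτ hi hi' 0 u) = yG θ τ hτ hi hi' 0 u' := by
  obtain ⟨t', u', h⟩ := th_y θ τ hτ hi hi' hU hV 0 u
  have h1 := congrArg ψ (yG_sq θ τ hτ hi hi' 0 u)
  rw [map_mul, h, yG_sq, zero_mul, yG_one, map_one, ← yG_one θ τ hτ hi hi'] at h1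
  have h2 := (yG_inj θ τ hτ hi hi' h1).2
  have ht : t' = 0 := by
    rcases mul_eq_zero.mp h2 with h3 | h3
    · exact h3
    · exact (map_eq_zero θ).mp h3
  rw [ht] at h
  exact ⟨u', h⟩

include hU hV in
/-- the first coordinate -/
theorem th_g : ∃ g : K → K, Function.Bijective g ∧ (∀ a b, g (a + b) = g a + g b) ∧ ∀ t u, ∃ u', ψ (yG θ τ hτ hi hi' t u) = yG θ τ hτ hi hi' (g t) u' := by
  have h1 : ∀ t, ∃ t' u', ψ (yG θ τ hτ hi hi' t 0) = yG θ τ hτ hi hi' t' u' := fun t => th_y θ τ hτ hi hi' hU hV t 0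
  choose g γ hg using h1
  choose β hβ using th_z θ τ hτ hi hi' hU hV
  have h2 : ∀ t u, ψ (yG θ τ hτ hi hi' t u) = yG θ τ hτ hi hi' (g t) (γ t + β u) := by
    intro t u
    have e : yG θ τ hτ hi hi' t u = yG θ τ hτ hi hi' t 0 * yG θ τ hτ hi hi' 0 u := by
      rw [yG_mul]; congr 1 <;> simp
    rw [e, map_mul, hg, hβ, yG_mul]
    congr 1 <;> simp
  refine ⟨g, ?_, ?_, fun t u => ⟨_, h2 t u⟩⟩
  · refine Finite.injective_iff_bijective.mp (fun a b hab => ?_)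
    have h3 : ψ (yG θ τ hτ hi hi' a 0 * (yG θ τ hτ hi hi' b 0)⁻¹) = yG θ τ hτ hi hi' (g a) (γ a) * (yG θ τ hτ hi hi' (g b) (γ b))⁻¹ := by
      rw [map_mul, map_inv, hg, hg]
    have h4 : ∃ w, yG θ τ hτ hi hi' (g a) (γ a) * (yG θ τ hτ hi hi' (g b) (γ b))⁻¹ = yG θ τ hτ hi hi' 0 w := by
      refine ⟨γ a + γ b, ?_⟩
      rw [mul_inv_eq_iff_eq_mul, yG_mul, hab]
      congr 1
      · simp
      · rw [zero_mul]; linear_combination (-γ b) * two0 K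
    obtain ⟨w, hw⟩ := h4
    obtain ⟨w', hw'⟩ := th_z θ τ hτ hi hi' (ψ := ψ.symm) hU.symm hV.symm w
    have h5 : yG θ τ hτ hi hi' a 0 * (yG θ τ hτ hi hi' b 0)⁻¹ = yG θ τ hτ hi hi' 0 w' := by
      rw [← hw', ← hw, ← h3, ψ.symm_apply_apply]
    rw [mul_inv_eq_iff_eq_mul, yG_mul, zero_add] at h5
    exact (yG_inj θ τ hτ hi hi' h5).1
  · intro a b
    have h3 := congrArg ψ (yG_mul θ τ hτ hi hi' a 0 b 0)
    rw [map_mul, h2, h2, h2, yG_mul] at h3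
    exact (yG_inj θ τ hτ hi hi' h3).1.symm

include hU hV in
/-- the action on the Suzuki part -/
theorem th_field (h1 : ∃ u', ψ (yG θ τ hτ hi hi' 1 0) = yG θ τ hτ hi hi' 1 u') :
    ∃ σ : RingAut K, ∀ t u, ∃ u', ψ (yG θ τ hτ hi hi' t u) = yG θ τ hτ hi hi' (σ t) u' := by
  obtain ⟨g, hgb, hadd, hg⟩ := th_g θ τ hτ hi hi' hU hV
  have g1 : g 1 = 1 := by
    obtain ⟨u', hu'⟩ := h1
    obtain ⟨u'', hu''⟩ := hg 1 0
    rw [hu''] at hu'
    exact (yG_inj θ τ hτ hi hi' hu').1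
  have hmul : ∀ (a : Kˣ) (b : K), g (a * b) = g a * g b := by
    intro a b
    obtain ⟨p, -, hp⟩ := χ_surj θ τ hτ hi 1 a
    obtain ⟨p', hp'⟩ := th_h θ τ hτ hi hi' hU hV p
    have key : ∀ b, g (a * b) = χb τ p' * g b := by
      intro b
      have h2 := congrArg ψ (hG_yG θ τ hτ hi hi' p b 0)
      obtain ⟨u1, hu1⟩ := hg b 0
      obtain ⟨u2, hu2⟩ := hg (χb τ p * b) (χb τ p * θ (χb τ p) * 0)
      rw [map_mul, map_mul, map_inv, hp', hu1, hG_yG, hu2, hp] at h2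
      exact (yG_inj θ τ hτ hi hi' h2).1.symm
    have h4 := key 1
    rw [mul_one, g1, mul_one] at h4
    rw [key, ← h4]
  obtain ⟨σ, hσ⟩ := exists_ringAut g hgb g1 hadd hmul
  refine ⟨σ, fun t u => ?_⟩
  obtain ⟨u', hu'⟩ := hg t u
  exact ⟨u', by rw [hu', hσ]⟩

include hU hV in
/-- rigidity on the Suzuki part -/
theorem th_yid (hq : ∃ x : K, x ^ 2 ≠ x) (h1 : ∀ t u, ∃ u', ψ (yG θ τ hτ hi hi' t u) = yG θ τ hτ hi hi' t u') (t u : K) :
    ψ (yG θ τ hτ hi hi' t u) = yG θ τ hτ hi hi' t u := by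
  have hθθ : ∀ x : K, θ (θ x) ^ 2 = x := fun x => by rw [← map_pow, ← hτ, hi]
  choose β hβ using th_z θ τ hτ hi hi' hU hV
  have hsurj : ∀ u : K, ∃ t, t * θ t = u := by
    intro u
    by_cases hu : u = 0
    · exact ⟨0, by rw [hu, map_zero, mul_zero]⟩
    · refine ⟨u ^ 2 * (τ u)⁻¹, ?_⟩
      have h2 : τ u ≠ 0 := (map_ne_zero τ).mpr hu
      have h3 : θ u ^ 2 = τ u := (hτ u).symm
      rw [map_mul, map_pow, map_inv₀, hi, h3]
      field_simp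
  have hβ' : ∀ u, β u = u := by
    intro u
    obtain ⟨t, rfl⟩ := hsurj u
    obtain ⟨u', hu'⟩ := h1 t 0
    have h2 := congrArg ψ (yG_sq θ τ hτ hi hi' t 0)
    rw [map_mul, hu', yG_sq, hβ] at h2
    exact (yG_inj θ τ hτ hi hi' h2).2.symm
  have h2 : ∀ t, ∃ d, ψ (yG θ τ hτ hi hi' t 0) = yG θ τ hτ hi hi' t d := fun t => h1 t 0
  choose δ hδ using h2
  have h3 : ∀ t u, ψ (yG θ τ hτ hi hi' t u) = yG θ τ hτ hi hi' t (δ t + u) := by
    intro t u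
    have e : yG θ τ hτ hi hi' t u = yG θ τ hτ hi hi' t 0 * yG θ τ hτ hi hi' 0 u := by
      rw [yG_mul]; congr 1 <;> simp
    rw [e, map_mul, hδ, hβ, hβ', yG_mul]
    congr 1 <;> simp
  have hadd : ∀ a b, δ (a + b) = δ a + δ b := by
    intro a b
    have h4 := congrArg ψ (yG_mul θ τ hτ hi hi' a 0 b 0)
    rw [map_mul, h3, h3, h3, yG_mul] at h4
    have h5 := (yG_inj θ τ hτ hi hi' h4).2
    linear_combination -h5
  have hmul : ∀ (a : Kˣ) (b : K), δ (a * b) = a * θ a * δ b := by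
    intro a b
    obtain ⟨p, -, hp⟩ := χ_surj θ τ hτ hi 1 a
    obtain ⟨p', hp'⟩ := th_h θ τ hτ hi hi' hU hV p
    have h4 := congrArg ψ (hG_yG θ τ hτ hi hi' p b 0)
    rw [map_mul, map_mul, map_inv, hp', h3, hG_yG, h3, hp] at h4
    obtain ⟨h5, h6⟩ := yG_inj θ τ hτ hi hi' h4
    by_cases hb : b = 0
    · have h0 : δ 0 = 0 := by
        have := hadd 0 0
        rw [add_zero] at this
        linear_combination -this
      rw [hb, mul_zero, h0, mul_zero]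
    · have h7 : χb τ p' = a := mul_right_cancel₀ hb h5
      rw [h7] at h6
      linear_combination -h6
  have hδk : ∀ t, δ t = t * θ t * δ 1 := by
    intro t
    by_cases ht : t = 0
    · have h0 : δ 0 = 0 := by
        have := hadd 0 0
        rw [add_zero] at this
        linear_combination -this
      rw [ht, h0]; ring
    · have := hmul (Units.mk0 t ht) 1
      rwa [mul_one] at this
  have hδ1 : δ 1 = 0 := by
    by_contra hne
    obtain ⟨x, hx⟩ := hq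
    have h4 := hadd x 1
    rw [hδk (x + 1), hδk x, map_add, map_one] at h4
    have h5 : (x + θ x) * δ 1 = 0 := by linear_combination h4
    rcases mul_eq_zero.mp h5 with h6 | h6
    · apply hx
      have h7 : θ x = x := by linear_combination h6 - x * two0 K
      have := hθθ x
      rwa [h7, h7] at this
    · exact hne h6
  rw [h3, hδk, hδ1, mul_zero, zero_add]

end

end CfsgLib.Chev.TwF4
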