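import Cfsg.Agent.Lib.TO13
set_option autoImplicit false
set_option linter.style.haveILetI false
set_option linter.unusedSectionVars false
set_option maxRecDepth 1000000

/-! The automorphisms of `²F₄(q)`, III. -/

namespace CfsgLib.Chev.TwF4
open Cfsg.Lie Matrix CfsgLib.BNP CfsgLib.PWM CfsgLib.Chev.GA CfsgLib.Chev CfsgLib.Chev.EV

variable {K : Type*} [Field K] [Fintype K] [CharP K 2] (θ τ : K →+* K) (hτ : ∀ t, τ t = (θ t) ^ 2)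
  (hi : ∀ t, θ (τ t) = t) (hi' : ∀ t, τ (θ t) = t)

theorem n0_eq : (R θ τ hτ).n (0 : Fin 2) = pp θ 1 * (xg chevF4 14 (-1) * xg chevF4 23 (-1)) * pp θ 1 := by
  obtain ⟨e0, e1, e2, e3⟩ := ni_eq K
  obtain ⟨_, _, _, _, n0, _, _, n3⟩ := smp
  change ni chevF4 K 0 * (ni chevF4 K 3 * 1) = _
  rw [mul_one, e0, e3, (cgF4 K).ng_mul2 cm1.2.2.2.2.1, n0, n3, inv_one]
  have e : xg chevF4 33 (1 : K) * xg chevF4 24 1 = pp θ 1 := by
    unfold pp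
    rw [map_one]
    exact ((cgF4 K).xg_cm cm1.1 (1 : K) (1 : K)).eq
  rw [e]

section
variable {ψ : ↥(G1 θ τ hτ) ≃* ↥(G1 θ τ hτ)} (hU : TN.Pre1 ψ (chevF4.posUnipotent K) (chevF4.posUnipotent K))
  (hV : TN.Pre1 ψ (chevF4.negUnipotent K) (chevF4.negUnipotent K))

/-- the second Weyl element in the group -/
theorem nG1_eq : (R θ τ hτ).nG (cgF4 K) (1 : Fin 2) = yG θ τ hτ hi hi' 1 (0 + 1 * θ 1) *
    ((R θ τ hτ).nG (cgF4 K) (1 : Fin 2) * yG θ τ hτ hi hi' 0 1 * ((R θ τ hτ).nG (cgF4 K) (1 : Fin 2))⁻¹) *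
    yG θ τ hτ hi hi' 1 (1 + 1 * θ 1) := by
  apply Subtype.ext
  change nl chevF4 K [1, 2, 1, 2] = yy θ τ 1 (0 + 1 * θ 1) * (nl chevF4 K [1, 2, 1, 2] * yy θ τ 0 1 * (nl chevF4 K [1, 2, 1, 2])⁻¹) *
    yy θ τ 1 (1 + 1 * θ 1)
  rw [← gg_eq θ τ hτ hi', ← gg_eq θ τ hτ hi', ← v_eq, ← n1_eq]

theorem inv1 (s : Kˣ) : (R θ τ hτ).nG (cgF4 K) (1 : Fin 2) * hG θ τ hτ hi hi' (1, s) * ((R θ τ hτ).nG (cgF4 K) (1 : Fin 2))⁻¹ =
    (hG θ τ hτ hi hi' (1, s))⁻¹ := by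
  apply Subtype.ext
  change nl chevF4 K [1, 2, 1, 2] * hF chevF4 K (cc θ (1, s)) * (nl chevF4 K [1, 2, 1, 2])⁻¹ = (hF chevF4 K (cc θ (1, s)))⁻¹
  refine (cgF4 K).nl_hF_inv (w 1) (cc θ (1, s)) (fun i => ?_)
  change Fin 4 at i
  fin_cases i
  · exact Or.inl (map_one (Units.map (θ : K →* K)))
  · exact Or.inr (fun s hs => (cinv s hs).1)
  · exact Or.inr (fun s hs => (cinv s hs).2)
  · exact Or.inl rfl

include hU hV in
/-- rigidity -/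
theorem th_id (hb : ∀ t u, ψ (yG θ τ hτ hi hi' t u) = yG θ τ hτ hi hi' t u) (ha : ψ (pG θ τ hτ hi hi' 1) = pG θ τ hτ hi hi' 1)
    (x : ↥(G1 θ τ hτ)) : ψ x = x := by
  have hθθ : ∀ x : K, θ (θ x) ^ 2 = x := fun x => by rw [← map_pow, ← hτ, hi]
  set n1 := (R θ τ hτ).nG (cgF4 K) (1 : Fin 2) with hn1
  have hvV : ((n1 * yG θ τ hτ hi hi' 0 1 * n1⁻¹ : ↥(G1 θ τ hτ)) : GL chevF4.Idx K) ∈ chevF4.negUnipotent K :=
    (R θ τ hτ).nxn_V (cgF4 K) (yG_Um θ τ hτ hi hi' 0 1)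
  have hyB : ∀ t u, (yG θ τ hτ hi hi' t u : GL chevF4.Idx K) ∈ chevF4.borelSubgroup K := fun t u =>
    GD.U_le_B ((TN.mem_Um (cgF4 K)).mp (yG_Um θ τ hτ hi hi' t u)).1.1
  have k1 := nG1_eq θ τ hτ hi hi'
  rw [← hn1] at k1
  have hn : ∀ p, ψ (hG θ τ hτ hi hi' p * n1 * (hG θ τ hτ hi hi' p)⁻¹) = hG θ τ hτ hi hi' p * n1 * (hG θ τ hτ hi hi' p)⁻¹ := by
    intro p
    set h := hG θ τ hτ hi hi' p with hh
    have hhH : (h : GL chevF4.Idx K) ∈ chevF4.diagonalSubgroup K := hG_H θ τ hτ hi hi' p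
    have e : h * n1 * h⁻¹ = (h * yG θ τ hτ hi hi' 1 (0 + 1 * θ 1) * h⁻¹) * (h * (n1 * yG θ τ hτ hi hi' 0 1 * n1⁻¹) * h⁻¹) *
        (h * yG θ τ hτ hi hi' 1 (1 + 1 * θ 1) * h⁻¹) := by
      calc h * n1 * h⁻¹ = h * (yG θ τ hτ hi hi' 1 (0 + 1 * θ 1) * (n1 * yG θ τ hτ hi hi' 0 1 * n1⁻¹) *
          yG θ τ hτ hi hi' 1 (1 + 1 * θ 1)) * h⁻¹ := by rw [← k1]
        _ = _ := by group
    have c : ((h * n1 * h⁻¹ * n1⁻¹ : ↥(G1 θ τ hτ)) : GL chevF4.Idx K) ∈ chevF4.diagonalSubgroup K := by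
      have e2 : h * n1 * h⁻¹ * n1⁻¹ = h * (n1 * h⁻¹ * n1⁻¹) := by group
      rw [e2]
      exact (chevF4.diagonalSubgroup K).mul_mem hhH ((cgF4 K).H_conj ((R θ τ hτ).n_mem_N (cgF4 K) (1 : Fin 2))
        ((chevF4.diagonalSubgroup K).inv_mem hhH))
    rw [e] at c
    rw [e]
    refine (R θ τ hτ).phi_xvx (cgF4 K) tp hU hV (cen θ τ hτ) (J := (1 : Fin 2)) (par θ τ hτ hi hi' hU 1) ?_ ?_ ?_ ?_ c
    · rw [hh, hG_yG]; exact hyB _ _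
    · rw [hh, hG_yG]; exact hb _ _
    · rw [hh, hG_yG]; exact hb _ _
    · exact (cgF4 K).H_conj_V hhH hvV
  have hn1' : ψ n1 = n1 := by
    have h0 := hn 1
    have e : hG θ τ hτ hi hi' 1 = 1 := by
      apply Subtype.ext
      change hF chevF4 K (cc θ 1) = 1
      rw [map_one, map_one]
    rw [e] at h0
    simpa using h0
  have hsq : ∀ s : Kˣ, ψ (hG θ τ hτ hi hi' (1, s ^ 2)) = hG θ τ hτ hi hi' (1, s ^ 2) := by
    intro s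
    have h0 := hn (1, s)
    have h2 := inv1 θ τ hτ hi hi' s
    rw [← hn1] at h2
    have e1 : hG θ τ hτ hi hi' (1, s ^ 2) = hG θ τ hτ hi hi' (1, s) * n1 * (hG θ τ hτ hi hi' (1, s))⁻¹ * n1⁻¹ := by
      have e2 : n1 * (hG θ τ hτ hi hi' (1, s))⁻¹ * n1⁻¹ = hG θ τ hτ hi hi' (1, s) := by
        have : n1 * (hG θ τ hτ hi hi' (1, s))⁻¹ * n1⁻¹ = (n1 * hG θ τ hτ hi hi' (1, s) * n1⁻¹)⁻¹ := by group
        rw [this, h2, inv_inv]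
      have e3 : ((1 : Kˣ), s ^ 2) = (1, s) * (1, s) := by
        rw [Prod.mk_mul_mk, mul_one, pow_two]
      calc hG θ τ hτ hi hi' (1, s ^ 2) = hG θ τ hτ hi hi' (1, s) * hG θ τ hτ hi hi' (1, s) := by rw [e3, hG_mul]
        _ = hG θ τ hτ hi hi' (1, s) * (n1 * (hG θ τ hτ hi hi' (1, s))⁻¹ * n1⁻¹) := by rw [e2]
        _ = _ := by group
    rw [e1, map_mul, h0, map_inv, hn1']
  -- the pairs
  have haa : ∀ t, ψ (pG θ τ hτ hi hi' t) = pG θ τ hτ hi hi' t := by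
    intro t
    by_cases ht0 : t = 0
    · subst ht0
      have e : pG θ τ hτ hi hi' (0 : K) = 1 := Subtype.ext (pp_zero θ)
      rw [e, map_one]
    · set s : Kˣ := (Units.mk0 (θ (θ t)) ((map_ne_zero θ).mpr ((map_ne_zero θ).mpr ht0)))⁻¹ with hs
      have hχ : χa ((1 : Kˣ), s ^ 2) = t := by
        unfold χa
        rw [hs]
        simp [hθθ]
      have h1 := hG_pG θ τ hτ hi hi' (1, s ^ 2) 1
      rw [hχ, mul_one] at h1
      have h5 := congrArg ψ h1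
      rw [map_mul, map_mul, map_inv, hsq, ha, h1] at h5
      exact h5.symm
  -- the first Weyl element
  have hn0 : ψ ((R θ τ hτ).nG (cgF4 K) (0 : Fin 2)) = (R θ τ hτ).nG (cgF4 K) (0 : Fin 2) := by
    have hneg : (14 ∈ NegS chevF4 ∧ 14 < chevF4.nroots) ∧ (23 ∈ NegS chevF4 ∧ 23 < chevF4.nroots) := by decide +kernel
    have hV9 : xg chevF4 14 (-1 : K) * xg chevF4 23 (-1) ∈ chevF4.negUnipotent K := by
      rw [(cgF4 K).V_eq]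
      exact mul_mem (xg_mem_XS chevF4 hneg.1.1 hneg.1.2 _) (xg_mem_XS chevF4 hneg.2.1 hneg.2.2 _)
    have hG9 : xg chevF4 14 (-1 : K) * xg chevF4 23 (-1) ∈ G1 θ τ hτ := by
      have e : xg chevF4 14 (-1 : K) * xg chevF4 23 (-1) = (pp θ 1)⁻¹ * (R θ τ hτ).n (0 : Fin 2) * (pp θ 1)⁻¹ := by rw [n0_eq]; group
      rw [e]
      exact mul_mem (mul_mem (inv_mem (pG θ τ hτ hi hi' 1).2) ((R θ τ hτ).n_mem_Gs (cgF4 K) (0 : Fin 2))) (inv_mem (pG θ τ hτ hi hi' 1).2)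
    have e1 : (R θ τ hτ).nG (cgF4 K) (0 : Fin 2) = pG θ τ hτ hi hi' 1 * ⟨xg chevF4 14 (-1 : K) * xg chevF4 23 (-1), hG9⟩ * pG θ τ hτ hi hi' 1 :=
      Subtype.ext (n0_eq θ τ hτ)
    have h := (R θ τ hτ).phi_xvx (cgF4 K) tp hU hV (cen θ τ hτ) (J := (0 : Fin 2)) (par θ τ hτ hi hi' hU 0)
      (x := pG θ τ hτ hi hi' 1) (x' := pG θ τ hτ hi hi' 1) (v := ⟨xg chevF4 14 (-1 : K) * xg chevF4 23 (-1), hG9⟩)
      (GD.U_le_B ((TN.mem_Um (cgF4 K)).mp (pG_Um θ τ hτ hi hi' 1)).1.1) ha ha hV9 (by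
        rw [← e1, mul_inv_cancel]; exact one_mem _)
    rw [← e1] at h
    exact h
  refine (R θ τ hτ).rigid2 (cgF4 K) tp hU hV chn (faith θ τ hτ hi hi') ?_ ?_ x
  · have : ∀ J : Fin 2, ∀ x : ↥(G1 θ τ hτ), (x : GL chevF4.Idx K) ∈ TN.Um (ta θ τ hτ) (cgF4 K) ((R θ τ hτ).n J) → ψ x = x := by
      intro J x hx
      fin_cases J
      · obtain ⟨t, rfl⟩ := exists_pG θ τ hτ hi hi' hx
        exact haa t
      · obtain ⟨t, u, rfl⟩ := exists_yG θ τ hτ hi hi' hx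
        exact hb t u
    exact this
  · have : ∀ J : Fin 2, ψ ((R θ τ hτ).nG (cgF4 K) J) = (R θ τ hτ).nG (cgF4 K) J := by
      intro J
      fin_cases J
      · exact hn0
      · exact hn1'
    exact this

end

section fld
variable {m : ℕ} (hθ : ∀ t, θ t = t ^ (2 ^ m)) (hK : Fintype.card K = 2 ^ (2 * m + 1))

include hθ in
theorem comm_θ (σ : RingAut K) (x : K) : σ (θ x) = θ (σ x) := by rw [hθ, hθ, map_pow]

include hθ hτ in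
theorem comm_τ (σ : RingAut K) (x : K) : σ (τ x) = τ (σ x) := by rw [hτ, hτ, hθ, hθ, map_pow, map_pow]

include hi hi' hθ hK in
theorem mg_G1 (σ : RingAut K) (g : GL chevF4.Idx K) (hg : g ∈ G1 θ τ hτ) : mapGL chevF4 σ g ∈ G1 θ τ hτ := by
  have h0 : G1 θ τ hτ = twistedF4 K (2 ^ m) := (eq_Gs θ τ hτ hi hi' hθ hK).symm
  rw [h0] at hg ⊢
  refine (cgF4 K).mg_genSub σ ?_ hg
  intro W hW
  rcases (words θ τ hτ hθ).mp hW with ⟨t, rfl | rfl⟩ | ⟨t, u, rfl | rfl⟩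
  · refine (words θ τ hτ hθ).mpr (Or.inl ⟨σ t, Or.inl ?_⟩)
    simp only [List.map_cons, List.map_nil, comm_θ θ hθ]
  · refine (words θ τ hτ hθ).mpr (Or.inl ⟨σ t, Or.inr ?_⟩)
    simp only [List.map_cons, List.map_nil, comm_θ θ hθ]
  · refine (words θ τ hτ hθ).mpr (Or.inr ⟨σ t, σ u, Or.inl ?_⟩)
    simp only [List.map_cons, List.map_nil, comm_θ θ hθ, comm_τ θ τ hτ hθ, map_add, map_mul]
  · refine (words θ τ hτ hθ).mpr (Or.inr ⟨σ t, σ u, Or.inr ?_⟩)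
    simp only [List.map_cons, List.map_nil, comm_θ θ hθ, comm_τ θ τ hτ hθ, map_add, map_mul]

/-- the field automorphisms -/
noncomputable def Fa : RingAut K →* MulAut ↥(G1 θ τ hτ) := faHom (G1 θ τ hτ) (mg_G1 θ τ hτ hi hi' hθ hK)

theorem Fa_pG (σ : RingAut K) (t : K) : Fa θ τ hτ hi hi' hθ hK σ (pG θ τ hτ hi hi' t) = pG θ τ hτ hi hi' (σ t) := by
  apply Subtype.ext
  change mapGL chevF4 σ (pp θ t) = pp θ (σ t)
  unfold pp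
  rw [map_mul, (cgF4 K).mg_xg, (cgF4 K).mg_xg, comm_θ θ hθ]

theorem Fa_yG (σ : RingAut K) (t u : K) : Fa θ τ hτ hi hi' hθ hK σ (yG θ τ hτ hi hi' t u) = yG θ τ hτ hi hi' (σ t) (σ u) := by
  apply Subtype.ext
  change mapGL chevF4 σ (yy θ τ t u) = yy θ τ (σ t) (σ u)
  unfold yy
  rw [map_mul, map_mul, map_mul, (cgF4 K).mg_xg, (cgF4 K).mg_xg, (cgF4 K).mg_xg, (cgF4 K).mg_xg, map_add, map_mul, comm_θ θ hθ,
    comm_τ θ τ hτ hθ]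

theorem aut_form (hq : ∃ x : K, x ^ 2 ≠ x) (Ψ : MulAut ↥(G1 θ τ hτ)) : ∃ σ g, Ψ = MulAut.conj g * Fa θ τ hτ hi hi' hθ hK σ := by
  obtain ⟨x, ψ, h1, h2, h4⟩ := (R θ τ hτ).frame1 (cgF4 K) tp Ψ
  set F := Fa θ τ hτ hi hi' hθ hK with hF
  obtain ⟨a, ha⟩ := th_p θ τ hτ hi hi' h2 h4 1
  obtain ⟨g, hgb, hadd, hg⟩ := th_g θ τ hτ hi hi' h2 h4
  have g0 : g 0 = 0 := by
    have := hadd 0 0
    rw [add_zero] at this
    linear_combination -this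
  have hb0 : g 1 ≠ 0 := fun h => one_ne_zero (hgb.1 (h.trans g0.symm))
  have ha0 : a ≠ 0 := by
    rintro rfl
    have e : pG θ τ hτ hi hi' (0 : K) = 1 := Subtype.ext (pp_zero θ)
    have h5 : pG θ τ hτ hi hi' (1 : K) = pG θ τ hτ hi hi' 0 := by
      rw [e]
      exact ψ.injective ((ha.trans e).trans (map_one ψ).symm)
    exact one_ne_zero (pG_inj θ τ hτ hi hi' h5)
  obtain ⟨p, hc1, hc2⟩ := χ_surj θ τ hτ hi (Units.mk0 a ha0)⁻¹ (Units.mk0 (g 1) hb0)⁻¹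
  rw [Units.val_inv_eq_inv_val, Units.val_mk0] at hc1 hc2
  obtain ⟨hp1, hp2⟩ := TN.H_pre (cgF4 K) (G1 θ τ hτ) (hG θ τ hτ hi hi' p) (hG_H θ τ hτ hi hi' p)
  set ψ1 : ↥(G1 θ τ hτ) ≃* ↥(G1 θ τ hτ) := ψ.trans (MulAut.conj (hG θ τ hτ hi hi' p)) with hψ1
  have hU1 : TN.Pre1 ψ1 (chevF4.posUnipotent K) (chevF4.posUnipotent K) := h2.trans hp1
  have hV1 : TN.Pre1 ψ1 (chevF4.negUnipotent K) (chevF4.negUnipotent K) := h4.trans hp2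
  have ha1 : ψ1 (pG θ τ hτ hi hi' 1) = pG θ τ hτ hi hi' 1 := by
    change hG θ τ hτ hi hi' p * ψ (pG θ τ hτ hi hi' 1) * (hG θ τ hτ hi hi' p)⁻¹ = _
    rw [ha, hG_pG, hc1, inv_mul_cancel₀ ha0]
  have hb1 : ∃ u', ψ1 (yG θ τ hτ hi hi' 1 0) = yG θ τ hτ hi hi' 1 u' := by
    obtain ⟨u', hu'⟩ := hg 1 0
    refine ⟨χb τ p * θ (χb τ p) * u', ?_⟩
    change hG θ τ hτ hi hi' p * ψ (yG θ τ hτ hi hi' 1 0) * (hG θ τ hτ hi hi' p)⁻¹ = _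
    rw [hu', hG_yG, hc2, inv_mul_cancel₀ hb0]
  obtain ⟨σ, hσ⟩ := th_field θ τ hτ hi hi' hU1 hV1 hb1
  set ψ2 : ↥(G1 θ τ hτ) ≃* ↥(G1 θ τ hτ) := ψ1.trans (F σ⁻¹) with hψ2
  have hU2 : TN.Pre1 ψ2 (chevF4.posUnipotent K) (chevF4.posUnipotent K) := hU1.trans (faHom_U (cgF4 K) _ _ σ⁻¹)
  have hV2 : TN.Pre1 ψ2 (chevF4.negUnipotent K) (chevF4.negUnipotent K) := hV1.trans (faHom_V (cgF4 K) _ _ σ⁻¹)
  have hy2 := th_yid θ τ hτ hi hi' hU2 hV2 hq (fun t u => by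
    obtain ⟨u', hu'⟩ := hσ t u
    refine ⟨σ⁻¹ u', ?_⟩
    change F σ⁻¹ (ψ1 (yG θ τ hτ hi hi' t u)) = _
    rw [hu', hF, Fa_yG]
    congr 1
    exact σ.symm_apply_apply t)
  have hid := th_id θ τ hτ hi hi' hU2 hV2 hy2 (by
      change F σ⁻¹ (ψ1 (pG θ τ hτ hi hi' 1)) = _
      rw [ha1, hF, Fa_pG, map_one])
  refine ⟨σ, x * (hG θ τ hτ hi hi' p)⁻¹, ?_⟩
  ext y : 1
  rw [MulAut.mul_apply, map_mul, MulAut.mul_apply, h1]
  have h5 : F σ⁻¹ (hG θ τ hτ hi hi' p * ψ y * (hG θ τ hτ hi hi' p)⁻¹) = y := hid y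
  have h6 : hG θ τ hτ hi hi' p * ψ y * (hG θ τ hτ hi hi' p)⁻¹ = F σ y := by
    have := congrArg (F σ) h5
    rw [← MulAut.mul_apply, ← map_mul, mul_inv_cancel, map_one] at this
    exact this
  rw [MulAut.conj_apply, MulAut.conj_apply, ← h6]
  group

theorem Fa_outer (σ : RingAut K) (h : Fa θ τ hτ hi hi' hθ hK σ ∈ Cfsg.Inn ↥(G1 θ τ hτ)) : σ = 1 := by
  obtain ⟨g, hg⟩ := h
  have h1 : (g : GL chevF4.Idx K) ∈ chevF4.diagonalSubgroup K := by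
    apply (R θ τ hτ).conj_H (cgF4 K) tp g
    · rw [hg]; exact faHom_U (cgF4 K) _ _ σ
    · rw [hg]; exact faHom_V (cgF4 K) _ _ σ
  obtain ⟨p, rfl⟩ := exists_hG θ τ hτ hi hi' h1
  have h2 : ∀ v, χa p * v = σ v := by
    intro v
    have h4 : MulAut.conj (hG θ τ hτ hi hi' p) (pG θ τ hτ hi hi' v) = Fa θ τ hτ hi hi' hθ hK σ (pG θ τ hτ hi hi' v) := by rw [hg]
    rw [Fa_pG, MulAut.conj_apply, hG_pG] at h4
    exact pG_inj θ τ hτ hi hi' h4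
  have h4 : χa p = 1 := by
    have := h2 1
    rwa [mul_one, map_one] at this
  ext v
  rw [← h2 v, h4, one_mul]
  rfl

include hi hi' hθ hτ hK in
theorem card_out (hm : 1 ≤ m) : Nat.card (Cfsg.Out ↥(twistedF4 K (2 ^ m))) = 2 * m + 1 := by
  haveI : Fact (Nat.Prime 2) := ⟨Nat.prime_two⟩
  rw [← CfsgLib.AutPSL.ringAut_card hK, eq_Gs θ τ hτ hi hi' hθ hK]
  have hq : ∃ x : K, x ^ 2 ≠ x := by
    by_contra hcon
    push Not at hcon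
    have h1 : Fintype.card K ≤ 2 := by
      classical
      have h2 : (Finset.univ : Finset K) ⊆ {0, 1} := by
        intro x _
        have h3 : x * (x - 1) = 0 := by linear_combination hcon x
        rcases mul_eq_zero.mp h3 with h4 | h4
        · simp [h4]
        · simp [sub_eq_zero.mp h4]
      have h3 := Finset.card_le_card h2
      have h4 : ({0, 1} : Finset K).card ≤ 2 := Finset.card_le_two
      rw [Finset.card_univ] at h3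
      omega
    have h2 : 2 ^ 3 ≤ 2 ^ (2 * m + 1) := Nat.pow_le_pow_right (by norm_num) (by omega)
    rw [hK] at h1
    omega
  exact card_out_of (Fa θ τ hτ hi hi' hθ hK) (aut_form θ τ hτ hi hi' hθ hK hq) (Fa_outer θ τ hτ hi hi' hθ hK)

end fld

end CfsgLib.Chev.TwF4
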