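import Cfsg.Agent.Lib.TO7
set_option autoImplicit false
set_option linter.style.haveILetI false
set_option linter.unusedSectionVars false

/-! Automorphisms of twisted groups, VI: permutations of the root subgroups; counting. -/

namespace CfsgLib.Chev
open Cfsg.Lie Matrix CfsgLib.BNP CfsgLib.PWM

namespace TN
variable {D : ChevalleyDatum} {T : TD D} {K : Type*} [Field K] {A : TA T K} {O : TO T} (R : TN A O) (M : CG D K)

section
variable {L0 : List (Fin O.m)} (ht : Top O L0) {φ : ↥(A.Gs M) ≃* ↥(A.Gs M)}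
  (hU : Pre1 φ (D.posUnipotent K) (D.posUnipotent K)) (hV : Pre1 φ (D.negUnipotent K) (D.negUnipotent K))
include ht hU hV

/-- the images of the simple Weyl elements -/
theorem phi_n2 [Finite K] (hc : R.Cen M L0) {J J' : Fin O.m} (hP : ∀ g : ↥(A.Gs M), g ∈ R.Par M J ↔ φ g ∈ R.Par M J') :
    ((φ (R.nG M J) * (R.nG M J')⁻¹ : ↥(A.Gs M)) : GL D.Idx K) ∈ D.diagonalSubgroup K := by
  have hB := R.pre_B M hU
  have hH := R.pre_H M ht hU hV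
  -- `φ n ∈ B n'`
  have h1 : ((φ (R.nG M J) * (R.nG M J')⁻¹ : ↥(A.Gs M)) : GL D.Idx K) ∈ D.borelSubgroup K := by
    rw [R.mem_Bn M ((hP _).mp (R.nG_mem_Par M J))]
    intro y hy hyP
    obtain ⟨z, rfl⟩ := φ.surjective y
    rw [← map_inv, ← map_mul, ← map_mul, ← hB]
    refine (R.mem_Bn M (R.nG_mem_Par M J)).mp ?_ z ((hV z).mpr hy) ((hP z).mpr hyP)
    rw [mul_inv_cancel]
    exact one_mem _
  -- the other side
  have h0 := R.phi_n0 M ht hU hV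
  set n0 := R.n0G M L0 with hn0
  set n := R.nG M J with hn
  set n' := R.nG M J' with hn'
  set h := n0⁻¹ * φ n0 with hh
  set k := n0 * n * n0⁻¹ * n⁻¹ with hk
  set k' := n0 * n' * n0⁻¹ * n'⁻¹ with hk'
  have hkH : (k : GL D.Idx K) ∈ D.diagonalSubgroup K := hc J
  have hkH' : (k' : GL D.Idx K) ∈ D.diagonalSubgroup K := hc J'
  have hφk : (φ k : GL D.Idx K) ∈ D.diagonalSubgroup K := (hH k).mp hkH
  set b := φ n * n'⁻¹ with hb
  have e1 : b = (φ k)⁻¹ * (n0 * (h * b * (n' * h⁻¹ * n'⁻¹)) * n0⁻¹) * k' := by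
    have a1 : φ n = (φ k)⁻¹ * (φ n0 * φ n * (φ n0)⁻¹) := by
      rw [hk, map_mul, map_mul, map_mul, map_inv, map_inv]; group
    have a2 : φ n0 = n0 * h := by rw [hh]; group
    have a3 : φ n = b * n' := by rw [hb]; group
    calc b = φ n * n'⁻¹ := hb
      _ = (φ k)⁻¹ * ((n0 * h) * (b * n') * (n0 * h)⁻¹) * n'⁻¹ := by rw [← a2, ← a3, ← a1]
      _ = (φ k)⁻¹ * (n0 * (h * b * (n' * h⁻¹ * n'⁻¹)) * n0⁻¹) * (n0 * n' * n0⁻¹ * n'⁻¹) := by group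
      _ = _ := by rw [hk']
  have hHc : ((n' * h⁻¹ * n'⁻¹ : ↥(A.Gs M)) : GL D.Idx K) ∈ D.diagonalSubgroup K :=
    M.H_conj (R.n_mem_N M J') ((D.diagonalSubgroup K).inv_mem h0)
  have h2 : ((h * b * (n' * h⁻¹ * n'⁻¹) : ↥(A.Gs M)) : GL D.Idx K) ∈ D.borelSubgroup K :=
    (D.borelSubgroup K).mul_mem ((D.borelSubgroup K).mul_mem (GD.H_le_B h0) h1) (GD.H_le_B hHc)
  set c := h * b * (n' * h⁻¹ * n'⁻¹) with hc'
  -- so `n0⁻¹ b n0 ∈ B`
  have h3 : ((n0⁻¹ * b * n0 : ↥(A.Gs M)) : GL D.Idx K) ∈ D.borelSubgroup K := by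
    have e2 : n0⁻¹ * b * n0 = (n0⁻¹ * (φ k)⁻¹ * n0) * c * (n0⁻¹ * k' * n0) := by
      rw [e1]; group
    rw [e2]
    exact (D.borelSubgroup K).mul_mem ((D.borelSubgroup K).mul_mem
      (GD.H_le_B (M.H_conj' (R.nn_mem_N M L0) ((D.diagonalSubgroup K).inv_mem hφk))) h2)
      (GD.H_le_B (M.H_conj' (R.nn_mem_N M L0) hkH'))
  obtain ⟨u, hu, t, htH, huG, htG, he⟩ := mem_B_of_Gs M h1 b.2
  have h4 : (R.nn L0)⁻¹ * u * R.nn L0 ∈ D.borelSubgroup K := by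
    have e3 : (R.nn L0)⁻¹ * u * R.nn L0 = ((n0⁻¹ * b * n0 : ↥(A.Gs M)) : GL D.Idx K) * ((R.nn L0)⁻¹ * t⁻¹ * R.nn L0) := by
      change _ = (R.nn L0)⁻¹ * (b : GL D.Idx K) * R.nn L0 * ((R.nn L0)⁻¹ * t⁻¹ * R.nn L0)
      rw [he]; group
    rw [e3]
    exact mul_mem h3 (GD.H_le_B (M.H_conj' (R.nn_mem_N M L0) (inv_mem htH)))
  have h5 := R.top_conj' M ht hu
  have h6 := BV M h4 h5
  have h7 : u = 1 := by
    have : u = R.nn L0 * ((R.nn L0)⁻¹ * u * R.nn L0) * (R.nn L0)⁻¹ := by group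
    rw [this, h6]; group
  rw [h7, one_mul] at he
  rw [he]
  exact htH

/-- the positive root subgroups are permuted -/
theorem phi_Um2 [Finite K] (hc : R.Cen M L0) {J J' : Fin O.m} (hP : ∀ g : ↥(A.Gs M), g ∈ R.Par M J ↔ φ g ∈ R.Par M J') (x : ↥(A.Gs M)) :
    (x : GL D.Idx K) ∈ Um A M (R.n J) ↔ (φ x : GL D.Idx K) ∈ Um A M (R.n J') := by
  have h1 := R.phi_n2 M ht hU hV hc hP
  set b := φ (R.nG M J) * (R.nG M J')⁻¹ with hb
  have e1 : φ (R.nG M J * x * (R.nG M J)⁻¹) = b * (R.nG M J' * φ x * (R.nG M J')⁻¹) * b⁻¹ := by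
    rw [map_mul, map_mul, map_inv, hb]; group
  have h2 : ∀ y, y ∈ D.negUnipotent K ↔ (b : GL D.Idx K) * y * (b : GL D.Idx K)⁻¹ ∈ D.negUnipotent K := fun y =>
    Subgroup.mem_normalizer_iff.mp (M.H_norm_V h1) y
  rw [mem_Um, mem_Um]
  have h3 : R.n J * (x : GL D.Idx K) * (R.n J)⁻¹ ∈ D.negUnipotent K ↔ R.n J' * (φ x : GL D.Idx K) * (R.n J')⁻¹ ∈ D.negUnipotent K := by
    have h4 := hV (R.nG M J * x * (R.nG M J)⁻¹)
    rw [e1] at h4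
    exact h4.trans (h2 _).symm
  rw [h3]
  have h5 := hU x
  constructor
  · rintro ⟨⟨h6, h7⟩, h8⟩
    exact ⟨⟨h5.mp h6, (φ x).2⟩, h8⟩
  · rintro ⟨⟨h6, h7⟩, h8⟩
    exact ⟨⟨h5.mpr h6, x.2⟩, h8⟩

end

end TN

/-- conjugations by diagonal elements -/
noncomputable def cjHom {G : Type*} [Group G] {T : Type*} [Group T] (G1 : Subgroup G) (δ : T →* G)
    (h : ∀ (t : T) (g : G), g ∈ G1 → δ t * g * (δ t)⁻¹ ∈ G1) : T →* MulAut ↥G1 where
  toFun t :=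
    { toFun := fun g => ⟨δ t * g * (δ t)⁻¹, h t g g.2⟩
      invFun := fun g => ⟨δ t⁻¹ * g * (δ t⁻¹)⁻¹, h t⁻¹ g g.2⟩
      left_inv := fun g => Subtype.ext (by
        change δ t⁻¹ * (δ t * g * (δ t)⁻¹) * (δ t⁻¹)⁻¹ = g
        rw [map_inv]; group)
      right_inv := fun g => Subtype.ext (by
        change δ t * (δ t⁻¹ * g * (δ t⁻¹)⁻¹) * (δ t)⁻¹ = g
        rw [map_inv]; group)
      map_mul' := fun a b => Subtype.ext (by
        change δ t * (a * b) * (δ t)⁻¹ = (δ t * a * (δ t)⁻¹) * (δ t * b * (δ t)⁻¹)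
        group) }
  map_one' := by
    ext g : 1
    apply Subtype.ext
    change δ 1 * g * (δ 1)⁻¹ = g
    rw [map_one]; group
  map_mul' s t := by
    ext g : 1
    apply Subtype.ext
    change δ (s * t) * g * (δ (s * t))⁻¹ = δ s * (δ t * g * (δ t)⁻¹) * (δ s)⁻¹
    rw [map_mul]; group

theorem cjHom_coe {G : Type*} [Group G] {T : Type*} [Group T] (G1 : Subgroup G) (δ : T →* G)
    (h : ∀ (t : T) (g : G), g ∈ G1 → δ t * g * (δ t)⁻¹ ∈ G1) (t : T) (g : ↥G1) :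
    ((cjHom G1 δ h t g : ↥G1) : G) = δ t * g * (δ t)⁻¹ := rfl

/-- counting with diagonal automorphisms -/
theorem card_out_of2 {G : Type*} [Group G] {A T : Type*} [Group A] [Group T] (Fa : A →* MulAut G) (Dg : T →* MulAut G) (Din : Subgroup T)
    (h1 : ∀ φ : MulAut G, ∃ g d σ, φ = MulAut.conj g * (Dg d * Fa σ))
    (h2 : ∀ d σ, Dg d * Fa σ ∈ Cfsg.Inn G → σ = 1 ∧ d ∈ Din) (h3 : ∀ d ∈ Din, Dg d ∈ Cfsg.Inn G) :
    Nat.card (Cfsg.Out G) = Din.index * Nat.card A := by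
  have hn : (Cfsg.Inn G).Normal := inferInstance
  rw [Subgroup.index, ← Nat.card_prod]
  refine (Nat.card_congr (Equiv.ofBijective (fun p : (T ⧸ Din) × A => (QuotientGroup.mk (Dg p.1.out * Fa p.2) : Cfsg.Out G)) ⟨?_, ?_⟩)).symm
  · rintro ⟨x, σ⟩ ⟨y, τ⟩ h
    have h4 : (Dg x.out * Fa σ)⁻¹ * (Dg y.out * Fa τ) ∈ Cfsg.Inn G := QuotientGroup.eq.mp h
    have h5 := hn.conj_mem _ h4 (Fa σ)
    have e : Fa σ * ((Dg x.out * Fa σ)⁻¹ * (Dg y.out * Fa τ)) * (Fa σ)⁻¹ = Dg (x.out⁻¹ * y.out) * Fa (τ * σ⁻¹) := by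
      rw [map_mul, map_mul, map_inv, map_inv]; group
    rw [e] at h5
    obtain ⟨h6, h7⟩ := h2 _ _ h5
    have h8 : x = y := by
      rw [← QuotientGroup.out_eq' x, ← QuotientGroup.out_eq' y]
      exact QuotientGroup.eq.mpr h7
    have h9 : τ = σ := mul_inv_eq_one.mp h6
    rw [h8, h9]
  · intro z
    obtain ⟨φ, rfl⟩ := QuotientGroup.mk_surjective z
    obtain ⟨g, d, σ, rfl⟩ := h1 φ
    refine ⟨(QuotientGroup.mk d, σ), ?_⟩
    apply QuotientGroup.eq.mpr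
    change (Dg (QuotientGroup.mk d : T ⧸ Din).out * Fa σ)⁻¹ * (MulAut.conj g * (Dg d * Fa σ)) ∈ Cfsg.Inn G
    set d' := (QuotientGroup.mk d : T ⧸ Din).out with hd'
    have h4 : d'⁻¹ * d ∈ Din := by
      apply QuotientGroup.eq.mp
      exact QuotientGroup.out_eq' _
    have h5 := h3 _ h4
    have hg : MulAut.conj g ∈ Cfsg.Inn G := ⟨g, rfl⟩
    have h6 := hn.conj_mem _ h5 (Fa σ)⁻¹
    have h7 := hn.conj_mem _ hg (Dg d' * Fa σ)⁻¹
    have h8 := mul_mem h7 h6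
    have e : (Dg d' * Fa σ)⁻¹ * MulAut.conj g * (Dg d' * Fa σ)⁻¹⁻¹ * ((Fa σ)⁻¹ * Dg (d'⁻¹ * d) * (Fa σ)⁻¹⁻¹) =
        (Dg d' * Fa σ)⁻¹ * (MulAut.conj g * (Dg d * Fa σ)) := by
      rw [map_mul, map_inv]; group
    rwa [e] at h8

end CfsgLib.Chev
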