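import Cfsg.Agent.Lib.TO11
import Cfsg.Agent.Lib.TO15
import Cfsg.Agent.Lib.TWE8
import Cfsg.Agent.Lib.ChevAut9
set_option autoImplicit false
set_option linter.style.haveILetI false
set_option linter.unusedSectionVars false
set_option maxRecDepth 1000000

/-! The automorphisms of `²E₆(q)`. -/

namespace CfsgLib.Chev.TwE6
open Cfsg.Lie Matrix CfsgLib.BNP CfsgLib.PWM CfsgLib.Chev.GA CfsgLib.Chev

variable {K : Type*} [Field K] [Fintype K] (φ : K →+* K) {q : ℕ} (hφ : ∀ x, φ x = x ^ q) (h2 : ∀ x, φ (φ x) = x)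

/-- the fixed group -/
noncomputable abbrev G1 : Subgroup (GL chevE6.Idx K) := (ta φ).Gs (cgE6 K)

/-- the root elements -/
noncomputable def xE (J : Fin 4) (t : K) : GL chevE6.Idx K :=
  if J = 0 then xg chevE6 46 t else if J = 1 then xg chevE6 39 t else if J = 2 then xg chevE6 37 (φ t) * xg chevE6 42 t
  else xg chevE6 36 (φ t) * xg chevE6 56 t

/-- the domains of the parameters -/
def dom (J : Fin 4) (t : K) : Prop := J.val < 2 → φ t = t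

theorem xE0 (t : K) : xE φ 0 t = xg chevE6 46 t := rfl
theorem xE1 (t : K) : xE φ 1 t = xg chevE6 39 t := rfl
theorem xE2 (t : K) : xE φ 2 t = xg chevE6 37 (φ t) * xg chevE6 42 t := rfl
theorem xE3 (t : K) : xE φ 3 t = xg chevE6 36 (φ t) * xg chevE6 56 t := rfl

theorem xE_add (J : Fin 4) (t u : K) : xE φ J t * xE φ J u = xE φ J (t + u) := by
  have M := cgE6 K
  fin_cases J
  · exact M.xg_add 46 t u
  · exact M.xg_add 39 t u
  · change xg chevE6 37 (φ t) * xg chevE6 42 t * (xg chevE6 37 (φ u) * xg chevE6 42 u) = xg chevE6 37 (φ (t + u)) * xg chevE6 42 (t + u)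
    rw [map_add, ← M.xg_add 37, ← M.xg_add 42]
    have k := (M.xg_cm cm1.1 (φ u) t).eq
    generalize xg chevE6 37 (φ t) = A at *
    generalize xg chevE6 42 t = B at *
    generalize xg chevE6 37 (φ u) = C at *
    generalize xg chevE6 42 u = E at *
    calc A * B * (C * E) = A * (B * C) * E := by group
      _ = A * (C * B) * E := by rw [k]
      _ = _ := by group
  · change xg chevE6 36 (φ t) * xg chevE6 56 t * (xg chevE6 36 (φ u) * xg chevE6 56 u) = xg chevE6 36 (φ (t + u)) * xg chevE6 56 (t + u)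
    rw [map_add, ← M.xg_add 36, ← M.xg_add 56]
    have k := (M.xg_cm cm1.2.1 (φ u) t).eq
    generalize xg chevE6 36 (φ t) = A at *
    generalize xg chevE6 56 t = B at *
    generalize xg chevE6 36 (φ u) = C at *
    generalize xg chevE6 56 u = E at *
    calc A * B * (C * E) = A * (B * C) * E := by group
      _ = A * (C * B) * E := by rw [k]
      _ = _ := by group

theorem xE_zero (J : Fin 4) : xE φ J (0 : K) = 1 := by
  have h := xE_add φ J (0 : K) 0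
  rw [add_zero] at h
  exact mul_eq_left.mp h

theorem xE_inj {J : Fin 4} {t u : K} (h : xE φ J t = xE φ J u) : t = u := by
  have M := cgE6 K
  have l46 : 46 < chevE6.nroots := by decide +kernel
  have l39 : 39 < chevE6.nroots := by decide +kernel
  fin_cases J
  · exact (cgE6 K).xg_inj l46 h
  · exact (cgE6 K).xg_inj l39 h
  · have h' : wg chevE6 ((Sl 2).map fun x => (x, (fun x => if x = 37 then φ t else t) x)) =
        wg chevE6 ((Sl 2).map fun x => (x, (fun x => if x = 37 then φ u else u) x)) := by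
      change xg chevE6 37 (φ t) * (xg chevE6 42 t * 1) = xg chevE6 37 (φ u) * (xg chevE6 42 u * 1)
      rw [mul_one, mul_one]
      exact h
    exact (cgE6 K).form_unique' _ (of_decide_eq_true (srt 2)) _ _ h' 42 (by decide)
  · have h' : wg chevE6 ((Sl 3).map fun x => (x, (fun x => if x = 36 then φ t else t) x)) =
        wg chevE6 ((Sl 3).map fun x => (x, (fun x => if x = 36 then φ u else u) x)) := by
      change xg chevE6 36 (φ t) * (xg chevE6 56 t * 1) = xg chevE6 36 (φ u) * (xg chevE6 56 u * 1)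
      rw [mul_one, mul_one]
      exact h
    exact (cgE6 K).form_unique' _ (of_decide_eq_true (srt 3)) _ _ h' 56 (by decide)

include h2 in
theorem mem_UmE (J : Fin 4) {x : GL chevE6.Idx K} : x ∈ TN.Um (ta φ) (cgE6 K) ((R φ).n J) ↔ ∃ t, dom φ J t ∧ x = xE φ J t := by
  fin_cases J
  · refine (mem_Um0 φ).trans ?_
    constructor
    · rintro ⟨t, h, rfl⟩; exact ⟨t, fun _ => h, rfl⟩
    · rintro ⟨t, h, rfl⟩; exact ⟨t, h (by decide), rfl⟩
  · refine (mem_Um1 φ).trans ?_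
    constructor
    · rintro ⟨t, h, rfl⟩; exact ⟨t, fun _ => h, rfl⟩
    · rintro ⟨t, h, rfl⟩; exact ⟨t, h (by decide), rfl⟩
  · refine (mem_Um2 φ h2).trans ?_
    constructor
    · rintro ⟨t, rfl⟩; exact ⟨t, fun h => absurd h (by decide), rfl⟩
    · rintro ⟨t, h, rfl⟩; exact ⟨t, rfl⟩
  · refine (mem_Um3 φ h2).trans ?_
    constructor
    · rintro ⟨t, rfl⟩; exact ⟨t, fun h => absurd h (by decide), rfl⟩
    · rintro ⟨t, h, rfl⟩; exact ⟨t, rfl⟩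

noncomputable def xG (J : Fin 4) (t : K) (ht : dom φ J t) : ↥(G1 φ) :=
  ⟨xE φ J t, (((TN.mem_Um (cgE6 K)).mp ((mem_UmE φ h2 J).mpr ⟨t, ht, rfl⟩)).1.2 : _ ∈ (ta φ).Gs (cgE6 K))⟩

theorem xG_Um (J : Fin 4) (t : K) (ht : dom φ J t) : (xG φ h2 J t ht : GL chevE6.Idx K) ∈ TN.Um (ta φ) (cgE6 K) ((R φ).n J) :=
  (mem_UmE φ h2 J).mpr ⟨t, ht, rfl⟩

theorem xG_inj {J : Fin 4} {t u : K} {ht : dom φ J t} {hu : dom φ J u} (h : xG φ h2 J t ht = xG φ h2 J u hu) : t = u :=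
  xE_inj φ (congrArg Subtype.val h)

theorem exists_xG {J : Fin 4} {x : ↥(G1 φ)} (hx : (x : GL chevE6.Idx K) ∈ TN.Um (ta φ) (cgE6 K) ((R φ).n J)) :
    ∃ t ht, x = xG φ h2 J t ht := by
  obtain ⟨t, ht, h⟩ := (mem_UmE φ h2 J).mp hx
  exact ⟨t, ht, Subtype.ext h⟩

theorem xG_congr {J : Fin 4} {t u : K} {ht : dom φ J t} {hu : dom φ J u} (h : t = u) : xG φ h2 J t ht = xG φ h2 J u hu :=
  Subtype.ext (by change xE φ J t = xE φ J u; rw [h])

/-! ### The torus -/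

noncomputable def hG (c : TT φ) : ↥(G1 φ) := ⟨hF chevE6 K c.1, by
  refine ((ta φ).mem_Gs (cgE6 K)).mpr ⟨(cgE6 K).hF_mem_G c.1, ?_⟩
  rw [(ta φ).s_hF (cgE6 K), show (ta φ).st c.1 = c.1 from c.2]⟩

include h2 in
theorem exists_hG {x : ↥(G1 φ)} (hx : (x : GL chevE6.Idx K) ∈ chevE6.diagonalSubgroup K) : ∃ c : TT φ, x = hG φ c := by
  obtain ⟨c, hc, h⟩ := torus φ h2 (Subgroup.mem_inf.mpr ⟨hx, x.2⟩)
  exact ⟨⟨c, hc⟩, Subtype.ext h.symm⟩

theorem hG_H (c : TT φ) : (hG φ c : GL chevE6.Idx K) ∈ chevE6.diagonalSubgroup K := by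
  change hF chevE6 K c.1 ∈ _
  rw [← (cgE6 K).hF_range]; exact ⟨c.1, rfl⟩

/-- the characters -/
noncomputable def χE (c : Fin chevE6.rank → Kˣ) (J : Fin 4) : Kˣ :=
  if J = 0 then c (I 1) ^ 2 * (c (I 3))⁻¹ else if J = 1 then c (I 3) ^ 2 * (c (I 1) * c (I 2) * c (I 4))⁻¹
  else if J = 2 then c (I 2) ^ 2 * (c (I 0) * c (I 3))⁻¹ else c (I 0) ^ 2 * (c (I 2))⁻¹

theorem prod6 (c : Fin chevE6.rank → Kˣ) (j : Fin 6) : ∏ k : Fin chevE6.rank, c k ^ chevE6.cartan k (chevE6.simple (I j)) =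
    c (I 0) ^ cmat chevE6 (I 0) (I j) * c (I 1) ^ cmat chevE6 (I 1) (I j) * c (I 2) ^ cmat chevE6 (I 2) (I j) *
    c (I 3) ^ cmat chevE6 (I 3) (I j) * c (I 4) ^ cmat chevE6 (I 4) (I j) * c (I 5) ^ cmat chevE6 (I 5) (I j) := by
  have h1 : ∏ k : Fin chevE6.rank, c k ^ chevE6.cartan k (chevE6.simple (I j)) =
      ∏ k : Fin 6, c (I k) ^ cmat chevE6 (I k) (I j) := rfl
  rw [h1, Fin.prod_univ_six]

theorem z2 (x : Kˣ) : x ^ (2 : ℤ) = x ^ 2 := by rw [show (2 : ℤ) = ((2 : ℕ) : ℤ) from rfl, zpow_natCast]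

theorem cr (c : Fin chevE6.rank → Kˣ) :
    ∏ k : Fin chevE6.rank, c k ^ chevE6.cartan k 56 = c (I 0) ^ 2 * (c (I 2))⁻¹ ∧
    ∏ k : Fin chevE6.rank, c k ^ chevE6.cartan k 46 = c (I 1) ^ 2 * (c (I 3))⁻¹ ∧
    ∏ k : Fin chevE6.rank, c k ^ chevE6.cartan k 42 = c (I 2) ^ 2 * (c (I 0) * c (I 3))⁻¹ ∧
    ∏ k : Fin chevE6.rank, c k ^ chevE6.cartan k 39 = c (I 3) ^ 2 * (c (I 1) * c (I 2) * c (I 4))⁻¹ ∧
    ∏ k : Fin chevE6.rank, c k ^ chevE6.cartan k 37 = c (I 4) ^ 2 * (c (I 3) * c (I 5))⁻¹ ∧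
    ∏ k : Fin chevE6.rank, c k ^ chevE6.cartan k 36 = c (I 5) ^ 2 * (c (I 4))⁻¹ := by
  obtain ⟨s0, s1, s2, s3, s4, s5, _⟩ := smp
  have e0 := prod6 c 0
  have e1 := prod6 c 1
  have e2 := prod6 c 2
  have e3 := prod6 c 3
  have e4 := prod6 c 4
  have e5 := prod6 c 5
  simp only [cm6] at e0 e1 e2 e3 e4 e5
  have t0 : chevE6.simple (I 0) = 56 := s0
  have t1 : chevE6.simple (I 1) = 46 := s1
  have t2 : chevE6.simple (I 2) = 42 := s2
  have t3 : chevE6.simple (I 3) = 39 := s3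
  have t4 : chevE6.simple (I 4) = 37 := s4
  have t5 : chevE6.simple (I 5) = 36 := s5
  rw [t0] at e0
  rw [t1] at e1
  rw [t2] at e2
  rw [t3] at e3
  rw [t4] at e4
  rw [t5] at e5
  refine ⟨?_, ?_, ?_, ?_, ?_, ?_⟩
  · rw [e0]
    change c (I 0) ^ (2 : ℤ) * c (I 1) ^ (0 : ℤ) * c (I 2) ^ (-1 : ℤ) * c (I 3) ^ (0 : ℤ) * c (I 4) ^ (0 : ℤ) * c (I 5) ^ (0 : ℤ) = _
    simp only [z2, _root_.zpow_zero, _root_.zpow_neg_one, mul_one]
  · rw [e1]
    change c (I 0) ^ (0 : ℤ) * c (I 1) ^ (2 : ℤ) * c (I 2) ^ (0 : ℤ) * c (I 3) ^ (-1 : ℤ) * c (I 4) ^ (0 : ℤ) * c (I 5) ^ (0 : ℤ) = _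
    simp only [z2, _root_.zpow_zero, _root_.zpow_neg_one, mul_one, one_mul]
  · rw [e2]
    change c (I 0) ^ (-1 : ℤ) * c (I 1) ^ (0 : ℤ) * c (I 2) ^ (2 : ℤ) * c (I 3) ^ (-1 : ℤ) * c (I 4) ^ (0 : ℤ) * c (I 5) ^ (0 : ℤ) = _
    simp only [z2, _root_.zpow_zero, _root_.zpow_neg_one, mul_one, one_mul, _root_.mul_inv]
    simp only [mul_assoc, mul_comm, mul_left_comm]
  · rw [e3]
    change c (I 0) ^ (0 : ℤ) * c (I 1) ^ (-1 : ℤ) * c (I 2) ^ (-1 : ℤ) * c (I 3) ^ (2 : ℤ) * c (I 4) ^ (-1 : ℤ) * c (I 5) ^ (0 : ℤ) = _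
    simp only [z2, _root_.zpow_zero, _root_.zpow_neg_one, mul_one, one_mul, _root_.mul_inv]
    simp only [mul_assoc, mul_comm, mul_left_comm]
  · rw [e4]
    change c (I 0) ^ (0 : ℤ) * c (I 1) ^ (0 : ℤ) * c (I 2) ^ (0 : ℤ) * c (I 3) ^ (-1 : ℤ) * c (I 4) ^ (2 : ℤ) * c (I 5) ^ (-1 : ℤ) = _
    simp only [z2, _root_.zpow_zero, _root_.zpow_neg_one, mul_one, one_mul, _root_.mul_inv]
    simp only [mul_assoc, mul_comm, mul_left_comm]
  · rw [e5]
    change c (I 0) ^ (0 : ℤ) * c (I 1) ^ (0 : ℤ) * c (I 2) ^ (0 : ℤ) * c (I 3) ^ (0 : ℤ) * c (I 4) ^ (-1 : ℤ) * c (I 5) ^ (2 : ℤ) = _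
    simp only [z2, _root_.zpow_zero, _root_.zpow_neg_one, mul_one, one_mul]
    rw [mul_comm]

include h2 in
theorem cr37 {c : Fin chevE6.rank → Kˣ} (hc : (ta φ).st c = c) :
    ((c (I 4) ^ 2 * (c (I 3) * c (I 5))⁻¹ : Kˣ) : K) = φ ((c (I 2) ^ 2 * (c (I 0) * c (I 3))⁻¹ : Kˣ) : K) ∧
    ((c (I 5) ^ 2 * (c (I 4))⁻¹ : Kˣ) : K) = φ ((c (I 0) ^ 2 * (c (I 2))⁻¹ : Kˣ) : K) := by
  obtain ⟨a1, a3, a5, a4⟩ := (st_eq_iff φ h2 c).mp hc
  constructor
  · rw [Units.val_mul, Units.val_mul, Units.val_inv_eq_inv_val, Units.val_inv_eq_inv_val, Units.val_mul, Units.val_mul,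
      Units.val_pow_eq_pow_val, Units.val_pow_eq_pow_val, a4, a5, map_mul, map_pow, map_inv₀, map_mul, a3, mul_comm (c (I 3) : K)]
  · rw [Units.val_mul, Units.val_mul, Units.val_inv_eq_inv_val, Units.val_inv_eq_inv_val,
      Units.val_pow_eq_pow_val, Units.val_pow_eq_pow_val, a4, a5, map_mul, map_pow, map_inv₀]

include h2 in
theorem dom_χ {c : Fin chevE6.rank → Kˣ} (hc : (ta φ).st c = c) (J : Fin 4) : dom φ J (χE c J) := by
  obtain ⟨a1, a3, a5, a4⟩ := (st_eq_iff φ h2 c).mp hc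
  intro hJ
  fin_cases J
  · change φ ((c (I 1) ^ 2 * (c (I 3))⁻¹ : Kˣ) : K) = ((c (I 1) ^ 2 * (c (I 3))⁻¹ : Kˣ) : K)
    rw [Units.val_mul, Units.val_inv_eq_inv_val, Units.val_pow_eq_pow_val, map_mul, map_pow, map_inv₀, a1, a3]
  · change φ ((c (I 3) ^ 2 * (c (I 1) * c (I 2) * c (I 4))⁻¹ : Kˣ) : K) = ((c (I 3) ^ 2 * (c (I 1) * c (I 2) * c (I 4))⁻¹ : Kˣ) : K)
    rw [Units.val_mul, Units.val_inv_eq_inv_val, Units.val_pow_eq_pow_val, Units.val_mul, Units.val_mul, a4, map_mul, map_pow, map_inv₀,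
      map_mul, map_mul, a1, a3, h2]
    congr 2
    ring
  · exact absurd hJ (by decide)
  · exact absurd hJ (by decide)

theorem dom_mul {J : Fin 4} {a b : K} (ha : dom φ J a) (hb : dom φ J b) : dom φ J (a * b) := fun h => by
  rw [map_mul, ha h, hb h]
theorem dom_add {J : Fin 4} {a b : K} (ha : dom φ J a) (hb : dom φ J b) : dom φ J (a + b) := fun h => by
  rw [map_add, ha h, hb h]
theorem dom_one (J : Fin 4) : dom φ J (1 : K) := fun _ => map_one φ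
theorem dom_zero (J : Fin 4) : dom φ J (0 : K) := fun _ => map_zero φ
theorem dom_inv {J : Fin 4} {a : K} (ha : dom φ J a) : dom φ J a⁻¹ := fun h => by rw [map_inv₀, ha h]

/-- conjugation of root elements by diagonal elements -/
theorem cj_xE {h : GL chevE6.Idx K} {χ : ℕ → Kˣ} (hχ : ∀ r < chevE6.nroots, ∀ t : K, h * xg chevE6 r t * h⁻¹ = xg chevE6 r ((χ r : K) * t))
    (h37 : (χ 37 : K) = φ (χ 42)) (h36 : (χ 36 : K) = φ (χ 56)) (J : Fin 4) (t : K) :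
    h * xE φ J t * h⁻¹ = xE φ J ((χ ([46, 39, 42, 56].getD J.val 0) : K) * t) := by
  have l : 46 < chevE6.nroots ∧ 39 < chevE6.nroots ∧ 42 < chevE6.nroots ∧ 56 < chevE6.nroots ∧ 37 < chevE6.nroots ∧ 36 < chevE6.nroots := by
    decide +kernel
  obtain ⟨l1, l2, l3, l4, l5, l6⟩ := l
  fin_cases J
  · exact hχ 46 l1 t
  · exact hχ 39 l2 t
  · change h * (xg chevE6 37 (φ t) * xg chevE6 42 t) * h⁻¹ = xg chevE6 37 (φ ((χ 42 : K) * t)) * xg chevE6 42 ((χ 42 : K) * t)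
    have e : h * (xg chevE6 37 (φ t) * xg chevE6 42 t) * h⁻¹ = (h * xg chevE6 37 (φ t) * h⁻¹) * (h * xg chevE6 42 t * h⁻¹) := by group
    rw [e, hχ 37 l5, hχ 42 l3, h37, map_mul]
  · change h * (xg chevE6 36 (φ t) * xg chevE6 56 t) * h⁻¹ = xg chevE6 36 (φ ((χ 56 : K) * t)) * xg chevE6 56 ((χ 56 : K) * t)
    have e : h * (xg chevE6 36 (φ t) * xg chevE6 56 t) * h⁻¹ = (h * xg chevE6 36 (φ t) * h⁻¹) * (h * xg chevE6 56 t * h⁻¹) := by group
    rw [e, hχ 36 l6, hχ 56 l4, h36, map_mul]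

include h2 in
/-- the action of the torus -/
theorem hG_xG (c : TT φ) (J : Fin 4) (t : K) (ht : dom φ J t) : hG φ c * xG φ h2 J t ht * (hG φ c)⁻¹ =
    xG φ h2 J ((χE c.1 J : K) * t) (dom_mul φ (dom_χ φ h2 c.2 J) ht) := by
  apply Subtype.ext
  change hF chevE6 K c.1 * xE φ J t * (hF chevE6 K c.1)⁻¹ = xE φ J ((χE c.1 J : K) * t)
  obtain ⟨r56, r46, r42, r39, r37, r36⟩ := cr c.1
  obtain ⟨k1, k2⟩ := cr37 φ h2 c.2
  rw [cj_xE φ (χ := fun r => ∏ k : Fin chevE6.rank, c.1 k ^ chevE6.cartan k r) (fun r hr t => (cgE6 K).hF_xg c.1 hr t)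
    (by change ((∏ k : Fin chevE6.rank, c.1 k ^ chevE6.cartan k 37 : Kˣ) : K) = φ ((∏ k : Fin chevE6.rank, c.1 k ^ chevE6.cartan k 42 : Kˣ) : K)
        rw [r37, r42]; exact k1)
    (by change ((∏ k : Fin chevE6.rank, c.1 k ^ chevE6.cartan k 36 : Kˣ) : K) = φ ((∏ k : Fin chevE6.rank, c.1 k ^ chevE6.cartan k 56 : Kˣ) : K)
        rw [r36, r56]; exact k2)]
  congr 2
  fin_cases J
  · exact congrArg Units.val r46
  · exact congrArg Units.val r39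
  · exact congrArg Units.val r42
  · exact congrArg Units.val r56

end CfsgLib.Chev.TwE6
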