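import Cfsg.Agent.Lib.TO16
set_option autoImplicit false
set_option linter.style.haveILetI false
set_option linter.unusedSectionVars false
set_option maxRecDepth 1000000

/-! The automorphisms of `²E₆(q)`, II: diagonal automorphisms. -/

namespace CfsgLib.Chev.TwE6
open Cfsg.Lie Matrix CfsgLib.BNP CfsgLib.PWM CfsgLib.Chev.GA CfsgLib.Chev

variable {K : Type*} [Field K] [Fintype K] (φ : K →+* K) {q : ℕ} (hφ : ∀ x, φ x = x ^ q) (h2 : ∀ x, φ (φ x) = x)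

/-- torus elements from coordinates -/
noncomputable def mkc (c0 c1 c2 c3 : Kˣ) : Fin chevE6.rank → Kˣ :=
  (![c0, c1, c2, c3, Units.map (φ : K →* K) c2, Units.map (φ : K →* K) c0] : Fin 6 → Kˣ)

include h2 in
theorem mkc_st {c0 c1 c2 c3 : Kˣ} (h1 : φ c1 = c1) (h3 : φ c3 = c3) : (ta φ).st (mkc φ c0 c1 c2 c3) = mkc φ c0 c1 c2 c3 :=
  (st_eq_iff φ h2 _).mpr ⟨h1, h3, rfl, rfl⟩

include h2 in
/-- each character is surjective -/
theorem χ_surjE (J : Fin 4) (α : Kˣ) (hα : dom φ J α) : ∃ c : TT φ, χE c.1 J = α := by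
  have h1 : φ ((1 : Kˣ) : K) = ((1 : Kˣ) : K) := by rw [Units.val_one, map_one]
  fin_cases J
  · have h3 : φ ((α⁻¹ : Kˣ) : K) = ((α⁻¹ : Kˣ) : K) := by rw [Units.val_inv_eq_inv_val, map_inv₀, hα (by decide)]
    refine ⟨⟨mkc φ 1 1 1 α⁻¹, mkc_st φ h2 h1 h3⟩, ?_⟩
    change (1 : Kˣ) ^ 2 * (α⁻¹)⁻¹ = α
    rw [one_pow, one_mul, inv_inv]
  · have h3 : φ ((α⁻¹ : Kˣ) : K) = ((α⁻¹ : Kˣ) : K) := by rw [Units.val_inv_eq_inv_val, map_inv₀, hα (by decide)]
    refine ⟨⟨mkc φ 1 α⁻¹ 1 1, mkc_st φ h2 h3 h1⟩, ?_⟩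
    change (1 : Kˣ) ^ 2 * (α⁻¹ * 1 * Units.map (φ : K →* K) 1)⁻¹ = α
    rw [one_pow, one_mul, map_one, mul_one, mul_one, inv_inv]
  · refine ⟨⟨mkc φ α⁻¹ 1 1 1, mkc_st φ h2 h1 h1⟩, ?_⟩
    change (1 : Kˣ) ^ 2 * (α⁻¹ * 1)⁻¹ = α
    rw [one_pow, one_mul, mul_one, inv_inv]
  · refine ⟨⟨mkc φ 1 1 α⁻¹ 1, mkc_st φ h2 h1 h1⟩, ?_⟩
    change (1 : Kˣ) ^ 2 * (α⁻¹)⁻¹ = α
    rw [one_pow, one_mul, inv_inv]

/-! ### Characters -/

/-- the extended torus -/
def F0 : Subgroup Kˣ where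
  carrier := {u | φ u = u}
  mul_mem' := by
    intro a b ha hb
    change φ ((a * b : Kˣ) : K) = ((a * b : Kˣ) : K)
    rw [Units.val_mul, map_mul, ha, hb]
  one_mem' := by
    change φ ((1 : Kˣ) : K) = ((1 : Kˣ) : K)
    rw [Units.val_one, map_one]
  inv_mem' := by
    intro a ha
    change φ ((a⁻¹ : Kˣ) : K) = ((a⁻¹ : Kˣ) : K)
    rw [Units.val_inv_eq_inv_val, map_inv₀, ha]

abbrev Tn : Type _ := (F0 φ × F0 φ) × (Kˣ × Kˣ)

/-- the values on the simple roots -/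
noncomputable def dv : Tn φ →* (ℕ → Kˣ) where
  toFun d i := if i = 0 then d.2.2 else if i = 1 then (d.1.1 : Kˣ) else if i = 2 then d.2.1 else if i = 3 then (d.1.2 : Kˣ)
    else if i = 4 then Units.map (φ : K →* K) d.2.1 else Units.map (φ : K →* K) d.2.2
  map_one' := by
    funext i
    simp only [Prod.snd_one, Prod.fst_one, OneMemClass.coe_one, map_one, ite_self, Pi.one_apply]
  map_mul' a b := by
    funext i
    simp only [Prod.snd_mul, Prod.fst_mul, Subgroup.coe_mul, map_mul, Pi.mul_apply]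
    split_ifs <;> rfl

/-- the values for the orbits -/
noncomputable def dJ (d : Tn φ) (J : Fin 4) : Kˣ :=
  if J = 0 then (d.1.1 : Kˣ) else if J = 1 then (d.1.2 : Kˣ) else if J = 2 then d.2.1 else d.2.2

theorem dom_dJ (d : Tn φ) (J : Fin 4) : dom φ J (dJ φ d J) := by
  intro hJ
  fin_cases J
  · exact d.1.1.2
  · exact d.1.2.2
  · exact absurd hJ (by decide)
  · exact absurd hJ (by decide)

/-- the diagonal elements -/
noncomputable def δ : Tn φ →* GL chevE6.Idx K where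
  toFun d := dgg chevE6 ((cgE6 K).chr (dv φ d))
  map_one' := by
    rw [map_one, ← map_one (dgg chevE6)]
    congr 1
    funext s
    unfold CG.chr
    simp
  map_mul' a b := by
    rw [map_mul, ← map_mul (dgg chevE6)]
    congr 1
    funext s
    unfold CG.chr
    rw [Pi.mul_apply, ← Finset.prod_mul_distrib]
    exact Finset.prod_congr rfl fun i _ => mul_zpow _ _ _

theorem δ_xg (d : Tn φ) (r : ℕ) (hr : r < chevE6.nroots) (t : K) : δ φ d * xg chevE6 r t * (δ φ d)⁻¹ =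
    xg chevE6 r (((cgE6 K).chr (dv φ d) r : K) * t) :=
  (cgE6 K).dgg_xg ((cgE6 K).N.isWt_char ((cgE6 K).chr_isRootCharacter _)) hr t

theorem chr_vals (d : Tn φ) : (cgE6 K).chr (dv φ d) 46 = d.1.1 ∧ (cgE6 K).chr (dv φ d) 39 = d.1.2 ∧ (cgE6 K).chr (dv φ d) 42 = d.2.1 ∧
    (cgE6 K).chr (dv φ d) 37 = Units.map (φ : K →* K) d.2.1 ∧ (cgE6 K).chr (dv φ d) 56 = d.2.2 ∧
    (cgE6 K).chr (dv φ d) 36 = Units.map (φ : K →* K) d.2.2 := by
  obtain ⟨s0, s1, s2, s3, s4, s5, _⟩ := smp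
  have rk : chevE6.rank = 6 := rfl
  have e := fun i (hi : i < chevE6.rank) => (cgE6 K).chr_simple (dv φ d) hi
  have e0 := e 0 (by rw [rk]; norm_num)
  have e1 := e 1 (by rw [rk]; norm_num)
  have e2 := e 2 (by rw [rk]; norm_num)
  have e3 := e 3 (by rw [rk]; norm_num)
  have e4 := e 4 (by rw [rk]; norm_num)
  have e5 := e 5 (by rw [rk]; norm_num)
  rw [s0] at e0
  rw [s1] at e1
  rw [s2] at e2
  rw [s3] at e3
  rw [s4] at e4
  rw [s5] at e5
  exact ⟨e1, e3, e2, e4, e0, e5⟩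

theorem chr_nvals (d : Tn φ) : (cgE6 K).chr (dv φ d) 25 = (d.1.1 : Kˣ)⁻¹ ∧ (cgE6 K).chr (dv φ d) 32 = (d.1.2 : Kˣ)⁻¹ ∧
    (cgE6 K).chr (dv φ d) 29 = d.2.1⁻¹ ∧
    (cgE6 K).chr (dv φ d) 34 = (Units.map (φ : K →* K) d.2.1)⁻¹ ∧ (cgE6 K).chr (dv φ d) 15 = d.2.2⁻¹ ∧
    (cgE6 K).chr (dv φ d) 35 = (Units.map (φ : K →* K) d.2.2)⁻¹ := by
  obtain ⟨_, _, _, _, _, _, n0, n1, n2, n3, n4, n5⟩ := smp
  obtain ⟨v0, v1, v2, v3, v4, v5⟩ := chr_vals φ d
  have l : 46 < chevE6.nroots ∧ 39 < chevE6.nroots ∧ 42 < chevE6.nroots ∧ 56 < chevE6.nroots ∧ 37 < chevE6.nroots ∧ 36 < chevE6.nroots := by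
    decide +kernel
  obtain ⟨l1, l2, l3, l4, l5, l6⟩ := l
  have e := fun r (hr : r < chevE6.nroots) => (cgE6 K).chr_neg (dv φ d) hr
  have f1 := e 46 l1
  have f2 := e 39 l2
  have f3 := e 42 l3
  have f4 := e 56 l4
  have f5 := e 37 l5
  have f6 := e 36 l6
  rw [n1, v0] at f1
  rw [n3, v1] at f2
  rw [n2, v2] at f3
  rw [n0, v4] at f4
  rw [n4, v3] at f5
  rw [n5, v5] at f6
  exact ⟨f1, f2, f3, f5, f4, f6⟩

/-- the action on the root elements -/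
theorem δ_xE (d : Tn φ) (J : Fin 4) (t : K) : δ φ d * xE φ J t * (δ φ d)⁻¹ = xE φ J ((dJ φ d J : K) * t) := by
  obtain ⟨v0, v1, v2, v3, v4, v5⟩ := chr_vals φ d
  rw [cj_xE φ (χ := (cgE6 K).chr (dv φ d)) (fun r hr t => δ_xg φ d r hr t) (by rw [v3, v2]; rfl) (by rw [v5, v4]; rfl)]
  congr 2
  fin_cases J
  · exact congrArg Units.val v0
  · exact congrArg Units.val v1
  · exact congrArg Units.val v2
  · exact congrArg Units.val v4

include hφ h2 in
/-- the diagonal elements normalise the group -/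
theorem δ_norm (d : Tn φ) (g : GL chevE6.Idx K) (hg : g ∈ G1 φ) : δ φ d * g * (δ φ d)⁻¹ ∈ G1 φ := by
  have h0 : G1 φ = twistedE6 K q := (eq_Gs φ hφ h2).symm
  rw [h0] at hg ⊢
  obtain ⟨v0, v1, v2, v3, v4, v5⟩ := chr_vals φ d
  obtain ⟨w0, w1, w2, w3, w4, w5⟩ := chr_nvals φ d
  have l : 46 < chevE6.nroots ∧ 39 < chevE6.nroots ∧ 42 < chevE6.nroots ∧ 56 < chevE6.nroots ∧ 37 < chevE6.nroots ∧ 36 < chevE6.nroots ∧
    25 < chevE6.nroots ∧ 32 < chevE6.nroots ∧ 29 < chevE6.nroots ∧ 34 < chevE6.nroots ∧ 15 < chevE6.nroots ∧ 35 < chevE6.nroots := by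
    decide +kernel
  obtain ⟨l1, l2, l3, l4, l5, l6, l7, l8, l9, l10, l11, l12⟩ := l
  have h : twistedE6 K q ≤ (twistedE6 K q).comap (MulAut.conj (δ φ d)).toMonoidHom := by
    apply (cgE6 K).genSub_le
    intro W hW
    change δ φ d * wg chevE6 W * (δ φ d)⁻¹ ∈ twistedE6 K q
    have d0 : φ ((d.1.1 : Kˣ) : K) = ((d.1.1 : Kˣ) : K) := d.1.1.2
    have d1 : φ ((d.1.2 : Kˣ) : K) = ((d.1.2 : Kˣ) : K) := d.1.2.2
    rcases words.mp hW with ⟨t, ht, r, hr, rfl⟩ | ⟨t, rs, hrs, rfl⟩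
    · rw [wg_cons, wg_nil, mul_one]
      have ht' : φ t = t := by rw [hφ, ht]
      simp only [List.mem_cons, List.not_mem_nil, or_false] at hr
      rcases hr with rfl | rfl | rfl | rfl
      · rw [δ_xg φ d _ l1, v0]
        exact single_mem φ hφ (by simp) (by rw [map_mul, d0, ht'])
      · rw [δ_xg φ d _ l7, w0]
        exact single_mem φ hφ (by simp) (by rw [map_mul, Units.val_inv_eq_inv_val, map_inv₀, d0, ht'])
      · rw [δ_xg φ d _ l2, v1]
        exact single_mem φ hφ (by simp) (by rw [map_mul, d1, ht'])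
      · rw [δ_xg φ d _ l8, w1]
        exact single_mem φ hφ (by simp) (by rw [map_mul, Units.val_inv_eq_inv_val, map_inv₀, d1, ht'])
    · rw [wg_cons, wg_cons, wg_nil, mul_one, ← hφ]
      have key : ∀ r s, r < chevE6.nroots → s < chevE6.nroots → (r, s) ∈ [(56, 36), (15, 35), (42, 37), (29, 34)] →
          ((cgE6 K).chr (dv φ d) s : K) = φ ((cgE6 K).chr (dv φ d) r : K) →
          δ φ d * (xg chevE6 r t * xg chevE6 s (φ t)) * (δ φ d)⁻¹ ∈ twistedE6 K q := by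
        intro r s hr hs hrs h
        have e : δ φ d * (xg chevE6 r t * xg chevE6 s (φ t)) * (δ φ d)⁻¹ = (δ φ d * xg chevE6 r t * (δ φ d)⁻¹) *
          (δ φ d * xg chevE6 s (φ t) * (δ φ d)⁻¹) := by group
        rw [e, δ_xg φ d _ hr, δ_xg φ d _ hs, h, ← map_mul]
        exact pair_mem φ hφ hrs _
      simp only [List.mem_cons, List.not_mem_nil, or_false] at hrs
      rcases hrs with rfl | rfl | rfl | rfl
      · exact key 56 36 l4 l6 (by simp) (by rw [v5, v4]; rfl)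
      · exact key 15 35 l11 l12 (by simp) (by
          rw [w5, w4, Units.val_inv_eq_inv_val, Units.val_inv_eq_inv_val, map_inv₀]; rfl)
      · exact key 42 37 l3 l5 (by simp) (by rw [v3, v2]; rfl)
      · exact key 29 34 l9 l10 (by simp) (by
          rw [w3, w2, Units.val_inv_eq_inv_val, Units.val_inv_eq_inv_val, map_inv₀]; rfl)
  exact h hg

/-- the diagonal automorphisms -/
noncomputable def Dg : Tn φ →* MulAut ↥(G1 φ) := cjHom (G1 φ) (δ φ) (δ_norm φ hφ h2)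

theorem Dg_xG (d : Tn φ) (J : Fin 4) (t : K) (ht : dom φ J t) : Dg φ hφ h2 d (xG φ h2 J t ht) =
    xG φ h2 J ((dJ φ d J : K) * t) (dom_mul φ (dom_dJ φ d J) ht) := Subtype.ext (δ_xE φ d J t)

/-- diagonal elements and the torus -/
theorem δ_eq_hF {d : Tn φ} {c : Fin chevE6.rank → Kˣ} (hc : (ta φ).st c = c) (h : ∀ J, dJ φ d J = χE c J) (h2 : ∀ x, φ (φ x) = x) :
    δ φ d = hF chevE6 K c := by
  change dgg chevE6 ((cgE6 K).chr (dv φ d)) = _
  rw [GD.hF_apply]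
  apply dgg_congr
  intro s hs
  have M := (cgE6 K)
  obtain ⟨r56, r46, r42, r39, r37, r36⟩ := cr c
  obtain ⟨k1, k2⟩ := cr37 φ h2 hc
  have h0 := h 0
  have h1 := h 1
  have h2' := h 2
  have h3 := h 3
  obtain ⟨s0, s1, s2, s3, s4, s5, _⟩ := smp
  have hval : ∀ m ∈ Finset.range chevE6.rank, dv φ d m = ∏ k : Fin chevE6.rank, c k ^ chevE6.cartan k (chevE6.simple m) := by
    intro m hm
    rw [Finset.mem_range] at hm
    have hm6 : m < 6 := hm
    interval_cases m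
    · rw [s0, r56]; exact h3
    · rw [s1, r46]; exact h0
    · rw [s2, r42]; exact h2'
    · rw [s3, r39]; exact h1
    · rw [s4, r37]
      apply Units.ext
      rw [k1]
      have : (φ ((d.2.1 : Kˣ) : K)) = φ ((c (I 2) ^ 2 * (c (I 0) * c (I 3))⁻¹ : Kˣ) : K) := by
        have h2'' : d.2.1 = c (I 2) ^ 2 * (c (I 0) * c (I 3))⁻¹ := h2'
        rw [h2'']
      exact this
    · rw [s5, r36]
      apply Units.ext
      rw [k2]
      have : (φ ((d.2.2 : Kˣ) : K)) = φ ((c (I 0) ^ 2 * (c (I 2))⁻¹ : Kˣ) : K) := by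
        have h3' : d.2.2 = c (I 0) ^ 2 * (c (I 2))⁻¹ := h3
        rw [h3']
      exact this
  unfold CG.chr
  rw [Finset.prod_congr rfl (fun m hm => by rw [hval m hm])]
  have e : ∀ k : Fin chevE6.rank, c k ^ chevE6.cartan k s =
      ∏ m ∈ Finset.range chevE6.rank, (c k ^ chevE6.cartan k (chevE6.simple m)) ^ (cgE6 K).a m s := by
    intro k
    rw [(cgE6 K).hC k k.2 s hs]
    rw [GD.zpow_sum_range]
    refine Finset.prod_congr rfl fun m _ => ?_
    rw [← _root_.zpow_mul, mul_comm]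
  simp only [e]
  rw [Finset.prod_comm]
  refine Finset.prod_congr rfl fun m _ => ?_
  rw [Finset.prod_zpow]

/-- the inner diagonal automorphisms -/
noncomputable def Din : Subgroup (Tn φ) := (G1 φ).comap (δ φ)

theorem Dg_inn {d : Tn φ} (hd : d ∈ Din φ) : Dg φ hφ h2 d ∈ Cfsg.Inn ↥(G1 φ) := by
  refine ⟨⟨δ φ d, hd⟩, ?_⟩
  ext g : 1
  exact Subtype.ext rfl

end CfsgLib.Chev.TwE6
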