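import Cfsg.Agent.Lib.TO17
set_option autoImplicit false
set_option linter.style.haveILetI false
set_option linter.unusedSectionVars false
set_option maxRecDepth 1000000

/-! The automorphisms of `²E₆(q)`, III: the root subgroups. -/

namespace CfsgLib.Chev.TwE6
open Cfsg.Lie Matrix CfsgLib.BNP CfsgLib.PWM CfsgLib.Chev.GA CfsgLib.Chev

def w0tab : List ℕ := [71, 70, 69, 66, 55, 68, 65, 54, 63, 52, 49, 60, 45, 41, 38, 36, 67, 64, 53, 62, 51, 48, 61, 50,
  47, 46, 59, 44, 40, 37, 58, 43, 39, 57, 42, 56, 15, 29, 14, 32, 28, 13, 34, 31, 27, 12, 25, 24,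
  21, 10, 23, 20, 9, 18, 7, 4, 35, 33, 30, 26, 11, 22, 19, 8, 17, 6, 3, 16, 5, 2, 1, 0]
def w0B : Bool := (List.range 72).all fun s => rl chevE6 (L0.flatMap fun K => (w K).map Fin.val) s == w0tab.getD s 0
theorem w0B_eq : w0B = true := by decide +kernel
def cenB : Bool := (List.finRange 4).all fun J => (List.range 72).all fun s =>
  w0tab.getD (rl chevE6 ((w J).map Fin.val) s) 0 == rl chevE6 ((w J).map Fin.val) (w0tab.getD s 0) && decide (rl chevE6 ((w J).map Fin.val) s < 72)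
theorem cenB_eq : cenB = true := by decide +kernel

theorem w0_eq {s : ℕ} (hs : s < 72) : rl chevE6 (wv (O.fl L0)) s = w0tab.getD s 0 := by
  have h := w0B_eq
  unfold w0B at h
  rw [List.all_eq_true] at h
  have h1 := h s (List.mem_range.mpr hs)
  exact eq_of_beq h1

theorem cenW (J : Fin 4) (s : ℕ) (hs : s < chevE6.nroots) : rl chevE6 (wv (O.fl (L0 ++ [J]))) s = rl chevE6 (wv (O.fl (J :: L0))) s := by
  have hs' : s < 72 := hs
  have h := cenB_eq
  unfold cenB at h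
  rw [List.all_eq_true] at h
  have h1 := h J (List.mem_finRange J)
  rw [List.all_eq_true] at h1
  have h2 := h1 s (List.mem_range.mpr hs')
  rw [Bool.and_eq_true, decide_eq_true_eq] at h2
  have e1 : rl chevE6 (wv (O.fl (L0 ++ [J]))) s = rl chevE6 (wv (O.fl L0)) (rl chevE6 (wv (w J)) s) := by
    have e : O.fl (L0 ++ [J]) = O.fl L0 ++ O.w J := O.fl_concat L0 J
    have e' : wv (O.fl L0 ++ O.w J) = wv (O.fl L0) ++ wv (O.w J) := wv_append _ _
    exact (congrArg (fun l => rl chevE6 (wv l) s) e).trans ((congrArg (fun l => rl chevE6 l s) e').trans (rl_append _ _ _ _))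
  have e2 : rl chevE6 (wv (O.fl (J :: L0))) s = rl chevE6 (wv (w J)) (rl chevE6 (wv (O.fl L0)) s) := by
    have e' : wv (O.w J ++ O.fl L0) = wv (O.w J) ++ wv (O.fl L0) := wv_append _ _
    exact (congrArg (fun l => rl chevE6 l s) e').trans (rl_append _ _ _ _)
  exact e1.trans ((w0_eq h2.2).trans ((eq_of_beq h2.1).trans ((congrArg (rl chevE6 (wv (w J))) (w0_eq hs').symm).trans e2.symm)))


variable {K : Type*} [Field K] [Fintype K] (φ : K →+* K) {q : ℕ} (hφ : ∀ x, φ x = x ^ q) (h2 : ∀ x, φ (φ x) = x)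
  (hq2 : 2 ≤ q) (hK : Fintype.card K = q ^ 2)

theorem cen : (R φ).Cen (cgE6 K) L0 := (R φ).cen_of (cgE6 K) cenW

theorem dJ_one (J : Fin 4) : dJ φ (1 : Tn φ) J = 1 := by
  unfold dJ
  simp only [Prod.snd_one, Prod.fst_one, OneMemClass.coe_one, ite_self]

include h2 in
theorem χ_oneE {c : Fin chevE6.rank → Kˣ} (hc : (ta φ).st c = c) (h : ∀ J, χE c J = 1) : hF chevE6 K c = 1 := by
  rw [← δ_eq_hF φ hc (d := 1) (fun J => by rw [h J, dJ_one]) h2, map_one]

include h2 in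
theorem faith (x : ↥(G1 φ)) (hx : (x : GL chevE6.Idx K) ∈ chevE6.diagonalSubgroup K)
    (h : ∀ J : Fin 4, ∀ u : ↥(G1 φ), (u : GL chevE6.Idx K) ∈ TN.Um (ta φ) (cgE6 K) ((R φ).n J) → x * u * x⁻¹ = u) : x = 1 := by
  obtain ⟨c, rfl⟩ := exists_hG φ h2 hx
  apply Subtype.ext
  change hF chevE6 K c.1 = 1
  refine χ_oneE φ h2 c.2 (fun J => ?_)
  have h0 := h J (xG φ h2 J 1 (dom_one φ J)) (xG_Um φ h2 J 1 (dom_one φ J))
  rw [hG_xG φ h2] at h0
  have k0 := xG_inj φ h2 h0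
  rw [mul_one] at k0
  exact Units.ext k0

/-! ### commuting root subgroups -/

theorem cmt2 : cmB chevE6 39 29 = true ∧ cmB chevE6 39 34 = true ∧ cmB chevE6 46 37 = true ∧ cmB chevE6 46 42 = true ∧
    cmB chevE6 46 36 = true ∧ cmB chevE6 46 56 = true ∧ cmB chevE6 39 36 = true ∧ cmB chevE6 39 56 = true := by decide +kernel

theorem cm02 (t u : K) : Commute (xE φ 0 t) (xE φ 2 u) := by
  obtain ⟨_, _, c1, c2, _⟩ := cmt2
  rw [xE0, xE2]
  exact ((cgE6 K).xg_cm c1 t (φ u)).symm.mul_right ((cgE6 K).xg_cm c2 t u).symm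

theorem cm03 (t u : K) : Commute (xE φ 0 t) (xE φ 3 u) := by
  obtain ⟨_, _, _, _, c1, c2, _⟩ := cmt2
  rw [xE0, xE3]
  exact ((cgE6 K).xg_cm c1 t (φ u)).symm.mul_right ((cgE6 K).xg_cm c2 t u).symm

theorem cm13 (t u : K) : Commute (xE φ 1 t) (xE φ 3 u) := by
  obtain ⟨_, _, _, _, _, _, c1, c2⟩ := cmt2
  rw [xE1, xE3]
  exact ((cgE6 K).xg_cm c1 t (φ u)).symm.mul_right ((cgE6 K).xg_cm c2 t u).symm

theorem rl39 : rl chevE6 [2, 4] 39 = 44 ∧
    ((List.range' (chevE6.nroots / 2) (chevE6.nroots - chevE6.nroots / 2)).filter fun r => [39, 44].contains r) = [39, 44] ∧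
    39 < chevE6.nroots := by decide +kernel

theorem nc12 : ¬ Commute (xE φ 1 (1 : K)) (xE φ 2 1) := by
  intro h
  obtain ⟨d1, d2, _⟩ := cmt2
  obtain ⟨c1, _, c3, _, _, _, c7, _⟩ := cm1
  obtain ⟨_, _, _, _, _, _, _, _, n2, _, n4, _⟩ := smp
  obtain ⟨_, _, e2, _, e4, _⟩ := ni_eq K
  obtain ⟨r1, r2, r3⟩ := rl39
  have hw : Wd chevE6 [2, 4] := by
    intro j hj
    simp only [List.mem_cons, List.not_mem_nil, or_false] at hj
    have rk : chevE6.rank = 6 := rfl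
    rw [rk]
    rcases hj with rfl | rfl <;> norm_num
  have hn : nl chevE6 K [2, 4] = (xg chevE6 42 1 * xg chevE6 37 1) * (xg chevE6 29 (-1) * xg chevE6 34 (-1)) * (xg chevE6 42 1 * xg chevE6 37 1) := by
    change ni chevE6 K 2 * (ni chevE6 K 4 * 1) = _
    rw [mul_one, e2, e4, (cgE6 K).ng_mul2 c7, n2, n4, inv_one]
  rw [xE1, xE2, map_one] at h
  have k1 : Commute (xg chevE6 39 (1 : K)) (xg chevE6 42 1 * xg chevE6 37 1) := by
    rw [← ((cgE6 K).xg_cm c1 (1 : K) (1 : K)).eq] at h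
    exact h
  have k2 : Commute (xg chevE6 39 (1 : K)) (xg chevE6 29 (-1) * xg chevE6 34 (-1)) :=
    ((cgE6 K).xg_cm d1 1 (-1)).symm.mul_right ((cgE6 K).xg_cm d2 1 (-1)).symm
  have k3 : Commute (xg chevE6 39 (1 : K)) (nl chevE6 K [2, 4]) := by
    rw [hn]
    exact (k1.mul_right k2).mul_right k1
  have k4 : nl chevE6 K [2, 4] * xg chevE6 39 (1 : K) * (nl chevE6 K [2, 4])⁻¹ = xg chevE6 39 1 := by
    rw [← k3.eq]; group
  have key : ∀ u : K, xg chevE6 39 (1 : K) ≠ xg chevE6 44 u := by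
    intro u hu
    have h' : wg chevE6 ([39, 44].map fun x => (x, (fun x => if x = 39 then (1 : K) else 0) x)) =
        wg chevE6 ([39, 44].map fun x => (x, (fun x => if x = 39 then 0 else u) x)) := by
      change xg chevE6 39 1 * (xg chevE6 44 0 * 1) = xg chevE6 39 0 * (xg chevE6 44 u * 1)
      rw [mul_one, mul_one, (cgE6 K).xg_zero, (cgE6 K).xg_zero, mul_one, one_mul]
      exact hu
    have h1 := (cgE6 K).form_unique' _ r2 _ _ h' 39 (by simp)
    simp at h1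
  rcases (cgE6 K).nl_xg (F := K) [2, 4] hw r3 with h1 | h1
  · have h3 := h1 1
    rw [k4, r1] at h3
    exact key _ h3
  · have h3 := h1 1
    rw [k4, r1] at h3
    exact key _ h3

section
variable {θ : ↥(G1 φ) ≃* ↥(G1 φ)} (hU : TN.Pre1 θ (chevE6.posUnipotent K) (chevE6.posUnipotent K))
  (hV : TN.Pre1 θ (chevE6.negUnipotent K) (chevE6.negUnipotent K))

/-- the root subgroups -/
def inX (J : Fin 4) (x : ↥(G1 φ)) : Prop := (x : GL chevE6.Idx K) ∈ TN.Um (ta φ) (cgE6 K) ((R φ).n J)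

/-- commuting -/
def CC (J J' : Fin 4) : Prop := ∀ x y : ↥(G1 φ), inX φ J x → inX φ J' y → Commute x y

include h2 in
theorem CC_iff (J J' : Fin 4) : CC φ J J' ↔ ∀ t u, dom φ J t → dom φ J' u → Commute (xE φ J t) (xE φ J' u) := by
  constructor
  · intro h t u ht hu
    have := h (xG φ h2 J t ht) (xG φ h2 J' u hu) (xG_Um φ h2 J t ht) (xG_Um φ h2 J' u hu)
    exact congrArg Subtype.val this.eq
  · intro h x y hx hy
    obtain ⟨t, ht, rfl⟩ := exists_xG φ h2 hx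
    obtain ⟨u, hu, rfl⟩ := exists_xG φ h2 hy
    exact Subtype.ext (h t u ht hu)

include h2 in
theorem CC_vals : CC φ 0 2 ∧ CC φ 0 3 ∧ CC φ 1 3 ∧ ¬ CC φ 1 2 := by
  refine ⟨(CC_iff φ h2 0 2).mpr fun t u _ _ => cm02 φ t u, (CC_iff φ h2 0 3).mpr fun t u _ _ => cm03 φ t u,
    (CC_iff φ h2 1 3).mpr fun t u _ _ => cm13 φ t u, fun h => nc12 φ ((CC_iff φ h2 1 2).mp h 1 1 (dom_one φ 1) (dom_one φ 2))⟩

include hφ h2 hq2 hK hU hV in
/-- the images of the root subgroups -/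
theorem perm : ∃ π : Fin 4 → Fin 4, (∀ J g, g ∈ (R φ).Par (cgE6 K) J ↔ θ g ∈ (R φ).Par (cgE6 K) (π J : Fin 4)) ∧
    (∀ J x, inX φ J x ↔ inX φ (π J) (θ x)) ∧ ∀ J, [1, 1, 2, 2].getD J.val 0 = [1, 1, 2, 2].getD (π J).val 0 := by
  have h := fun J : Fin 4 => (R φ).map_Par (cgE6 K) hU J
  choose π hπ using h
  refine ⟨π, hπ, fun J x => (R φ).phi_Um2 (cgE6 K) tp hU hV (cen φ) (hπ J) x, fun J => ?_⟩
  have h1 := (R φ).Par_fixed (cgE6 K) hU (hπ J)
  have k1 : Nat.card (TN.Um (ta φ) (cgE6 K) ((R φ).n J)) = q ^ ([1, 1, 2, 2].getD J.val 0) := card_Um φ hφ h2 hq2 hK J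
  have k2 : Nat.card (TN.Um (ta φ) (cgE6 K) ((R φ).n (π J))) = q ^ ([1, 1, 2, 2].getD (π J : Fin 4).val 0) := card_Um φ hφ h2 hq2 hK (π J)
  exact Nat.pow_right_injective hq2 (k1.symm.trans (h1.trans k2))

theorem inj22 : ∀ J J' : Fin 4, [1, 1, 2, 2].getD J.val 0 = [1, 1, 2, 2].getD J'.val 0 →
    (J.val < 2 → J' = 0 ∨ J' = 1) ∧ (2 ≤ J.val → J' = 2 ∨ J' = 3) := by decide

include hφ h2 hq2 hK hU hV in
theorem fixed : (∀ (J : Fin 4) g, g ∈ (R φ).Par (cgE6 K) J ↔ θ g ∈ (R φ).Par (cgE6 K) J) ∧ ∀ J x, inX φ J x ↔ inX φ J (θ x) := by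
  obtain ⟨π, h1, h3, h4⟩ := perm φ hφ h2 hq2 hK hU hV
  have hCC : ∀ J J', CC φ J J' ↔ CC φ (π J) (π J') := by
    intro J J'
    constructor
    · intro h x y hx hy
      have hx' : inX φ J (θ.symm x) := by rw [h3, θ.apply_symm_apply]; exact hx
      have hy' : inX φ J' (θ.symm y) := by rw [h3, θ.apply_symm_apply]; exact hy
      have h5 := (h _ _ hx' hy').map θ
      rwa [θ.apply_symm_apply, θ.apply_symm_apply] at h5
    · intro h x y hx hy
      have h5 := (h _ _ ((h3 J x).mp hx) ((h3 J' y).mp hy)).map θ.symm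
      rwa [θ.symm_apply_apply, θ.symm_apply_apply] at h5
  obtain ⟨c02, c03, c13, c12⟩ := CC_vals φ h2
  have a0 := (inj22 0 (π 0) (h4 0)).1 (by decide)
  have a1 := (inj22 1 (π 1) (h4 1)).1 (by decide)
  have a2 := (inj22 2 (π 2) (h4 2)).2 (by decide)
  have a3 := (inj22 3 (π 3) (h4 3)).2 (by decide)
  have b12 : ¬ CC φ (π 1) (π 2) := fun h => c12 ((hCC 1 2).mpr h)
  have p1 : π 1 = 1 := by
    rcases a1 with a1 | a1
    · exfalso
      apply b12
      rw [a1]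
      rcases a2 with a2 | a2
      · rw [a2]; exact c02
      · rw [a2]; exact c03
    · exact a1
  have p2 : π 2 = 2 := by
    rcases a2 with a2 | a2
    · exact a2
    · exfalso
      apply b12
      rw [p1, a2]; exact c13
  have p0 : π 0 = 0 := by
    rcases a0 with a0 | a0
    · exact a0
    · exfalso
      have := (hCC 0 2).mp c02
      rw [a0, p2] at this
      exact c12 this
  have p3 : π 3 = 3 := by
    rcases a3 with a3 | a3
    · exfalso
      have := (hCC 1 3).mp c13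
      rw [a3, p1] at this
      exact c12 this
    · exact a3
  have pp : ∀ J, π J = J := by
    intro J
    fin_cases J
    · exact p0
    · exact p1
    · exact p2
    · exact p3
  refine ⟨fun J g => ?_, fun J x => ?_⟩
  · have := h1 J g
    rwa [pp J] at this
  · have := h3 J x
    rwa [pp J] at this

include hφ h2 hq2 hK hU hV in
/-- the action on the parameters -/
theorem th_x (J : Fin 4) (t : K) (ht : dom φ J t) : ∃ t' ht', θ (xG φ h2 J t ht) = xG φ h2 J t' ht' :=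
  exists_xG φ h2 (((fixed φ hφ h2 hq2 hK hU hV).2 J _).mp (xG_Um φ h2 J t ht))

include h2 hU hV in
theorem th_h (c : TT φ) : ∃ c', θ (hG φ c) = hG φ c' :=
  exists_hG φ h2 (((R φ).pre_H (cgE6 K) tp hU hV _).mp (hG_H φ c))

theorem dd2 (t : K) : dom φ 2 t := fun h => absurd h (by decide)
theorem dd3 (t : K) : dom φ 3 t := fun h => absurd h (by decide)

include hφ h2 hq2 hK hU hV in
/-- the action on the short root elements -/
theorem th_field (h1 : θ (xG φ h2 2 1 (dd2 φ 1)) = xG φ h2 2 1 (dd2 φ 1)) : ∃ σ : RingAut K, ∀ u, θ (xG φ h2 2 u (dd2 φ u)) = xG φ h2 2 (σ u) (dd2 φ _) := by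
  have hg0 : ∀ t, ∃ t', θ (xG φ h2 2 t (dd2 φ t)) = xG φ h2 2 t' (dd2 φ t') := fun t => by
    obtain ⟨t', _, h⟩ := th_x φ hφ h2 hq2 hK hU hV 2 t (dd2 φ t)
    exact ⟨t', h⟩
  choose g hg using hg0
  have hadd0 : ∀ a b, xG φ h2 2 a (dd2 φ a) * xG φ h2 2 b (dd2 φ b) = xG φ h2 2 (a + b) (dd2 φ _) := fun a b => Subtype.ext (xE_add φ 2 a b)
  have hadd : ∀ a b, g (a + b) = g a + g b := by
    intro a b
    apply xG_inj φ h2
    rw [← hg, ← hadd0, map_mul, hg, hg, hadd0]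
  have g1 : g 1 = 1 := by
    apply xG_inj φ h2
    rw [← hg, h1]
  have hinj : Function.Injective g := by
    intro a b h
    have h3 : xG φ h2 2 a (dd2 φ a) = xG φ h2 2 b (dd2 φ b) := by
      apply θ.injective
      rw [hg, hg]
      exact xG_congr φ h2 h
    exact xG_inj φ h2 h3
  have hmul : ∀ (a : Kˣ) (b : K), g (a * b) = g a * g b := by
    intro a b
    obtain ⟨c, hc⟩ := χ_surjE φ h2 2 a (dd2 φ _)
    obtain ⟨c', hc'⟩ := th_h φ h2 hU hV c
    have key : ∀ b, g (a * b) = (χE c'.1 2 : K) * g b := by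
      intro b
      have h3 := hG_xG φ h2 c 2 b (dd2 φ b)
      have h4 : xG φ h2 2 ((χE c.1 2 : K) * b) (dom_mul φ (dom_χ φ h2 c.2 2) (dd2 φ b)) = xG φ h2 2 (a * b) (dd2 φ _) := by
        apply xG_congr
        rw [hc]
      have h5 := congrArg θ (h3.trans h4)
      rw [map_mul, map_mul, map_inv, hc', hg, hG_xG φ h2, hg] at h5
      exact (xG_inj φ h2 h5).symm
    have h4 := key 1
    rw [mul_one, g1, mul_one] at h4
    rw [key, ← h4]
  obtain ⟨σ, hσ⟩ := exists_ringAut g (Finite.injective_iff_bijective.mp hinj) g1 hadd hmul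
  exact ⟨σ, fun u => by rw [hg]; exact xG_congr φ h2 (hσ u)⟩

include h2 hφ hq2 hK in
/-- the norm is surjective -/
theorem norm_surj (t : Kˣ) (ht : φ t = t) : ∃ s : Kˣ, (s : K) * φ s = t := by
  obtain ⟨g, hg⟩ := IsCyclic.exists_generator (α := Kˣ)
  obtain ⟨k, hk⟩ := Subgroup.mem_zpowers_iff.mp (hg t)
  have hcard : orderOf g = q ^ 2 - 1 := by
    rw [orderOf_eq_card_of_forall_mem_zpowers hg, Nat.card_units, Nat.card_eq_fintype_card, hK]
  have h1 : t ^ (q - 1) = 1 := by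
    rw [hφ] at ht
    have h3 : t ^ q = t := Units.ext (by rw [Units.val_pow_eq_pow_val]; exact ht)
    have h4 : t ^ (q - 1) * t = 1 * t := by
      rw [← pow_succ, Nat.sub_add_cancel (by omega), h3, one_mul]
    exact mul_right_cancel h4
  have h2 : ((q ^ 2 - 1 : ℕ) : ℤ) ∣ k * ((q - 1 : ℕ) : ℤ) := by
    rw [← hcard, orderOf_dvd_iff_zpow_eq_one, _root_.zpow_mul, hk, zpow_natCast]
    exact h1
  have e1 : ((q ^ 2 - 1 : ℕ) : ℤ) = (1 + q : ℤ) * ((q - 1 : ℕ) : ℤ) := by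
    have a1 : 1 ≤ q := by omega
    have a2 : 1 ≤ q ^ 2 := Nat.one_le_pow _ _ (by omega)
    rw [Nat.cast_sub a1, Nat.cast_sub a2]
    push_cast
    ring
  rw [e1] at h2
  have h5 : (1 + q : ℤ) ∣ k := by
    have : ((q - 1 : ℕ) : ℤ) ≠ 0 := by
      have : 0 < q - 1 := by omega
      exact_mod_cast this.ne'
    exact Int.dvd_of_mul_dvd_mul_right this h2
  obtain ⟨j, rfl⟩ := h5
  refine ⟨g ^ j, ?_⟩
  have e2 : (g ^ j) * (g ^ j) ^ q = t := by
    rw [← hk, ← pow_succ', ← zpow_natCast, ← _root_.zpow_mul]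
    congr 1
    push_cast
    ring
  rw [hφ, ← e2]
  push_cast
  ring

end

end CfsgLib.Chev.TwE6
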