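import Cfsg.Agent.Lib.TO18
set_option autoImplicit false
set_option linter.style.haveILetI false
set_option linter.unusedSectionVars false
set_option maxRecDepth 1000000

/-! The automorphisms of `²E₆(q)`, IV: rigidity. -/

namespace CfsgLib.Chev.TwE6
open Cfsg.Lie Matrix CfsgLib.BNP CfsgLib.PWM CfsgLib.Chev.GA CfsgLib.Chev

variable {K : Type*} [Field K] [Fintype K] (φ : K →+* K) {q : ℕ} (hφ : ∀ x, φ x = x ^ q) (h2 : ∀ x, φ (φ x) = x)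
  (hq2 : 2 ≤ q) (hK : Fintype.card K = q ^ 2)

/-- negative root elements -/
noncomputable def vE (J : Fin 4) (s : K) : GL chevE6.Idx K :=
  if J = 0 then xg chevE6 25 (-s⁻¹) else if J = 1 then xg chevE6 32 (-s⁻¹) else if J = 2 then xg chevE6 29 (-s⁻¹) * xg chevE6 34 (-(φ s)⁻¹)
  else xg chevE6 15 (-s⁻¹) * xg chevE6 35 (-(φ s)⁻¹)

/-- Weyl elements -/
noncomputable def nE (J : Fin 4) (s : K) : GL chevE6.Idx K :=
  if J = 0 then ng chevE6 46 s else if J = 1 then ng chevE6 39 s else if J = 2 then ng chevE6 42 s * ng chevE6 37 (φ s)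
  else ng chevE6 56 s * ng chevE6 36 (φ s)

theorem nE_eq (J : Fin 4) (s : K) : nE φ J s = xE φ J s * vE φ J s * xE φ J s := by
  obtain ⟨_, _, _, _, _, _, n0, n1, n2, n3, n4, n5⟩ := smp
  obtain ⟨c1, c2, _, _, _, _, c7, c8⟩ := cm1
  fin_cases J
  · change ng chevE6 46 s = xg chevE6 46 s * xg chevE6 25 (-s⁻¹) * xg chevE6 46 s
    rw [(cgE6 K).ng_eq, n1]
  · change ng chevE6 39 s = xg chevE6 39 s * xg chevE6 32 (-s⁻¹) * xg chevE6 39 s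
    rw [(cgE6 K).ng_eq, n3]
  · change ng chevE6 42 s * ng chevE6 37 (φ s) = (xg chevE6 37 (φ s) * xg chevE6 42 s) * (xg chevE6 29 (-s⁻¹) * xg chevE6 34 (-(φ s)⁻¹)) *
      (xg chevE6 37 (φ s) * xg chevE6 42 s)
    rw [(cgE6 K).ng_mul2 c7, n2, n4, ((cgE6 K).xg_cm c1 (φ s) s).eq]
  · change ng chevE6 56 s * ng chevE6 36 (φ s) = (xg chevE6 36 (φ s) * xg chevE6 56 s) * (xg chevE6 15 (-s⁻¹) * xg chevE6 35 (-(φ s)⁻¹)) *
      (xg chevE6 36 (φ s) * xg chevE6 56 s)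
    rw [(cgE6 K).ng_mul2 c8, n0, n5, ((cgE6 K).xg_cm c2 (φ s) s).eq]

theorem nE_one (J : Fin 4) : (R φ).n J = nE φ J 1 := by
  obtain ⟨e0, e1, e2, e3, e4, e5⟩ := ni_eq K
  fin_cases J
  · change ni chevE6 K 1 * 1 = ng chevE6 46 1
    rw [mul_one, e1]
  · change ni chevE6 K 3 * 1 = ng chevE6 39 1
    rw [mul_one, e3]
  · change ni chevE6 K 2 * (ni chevE6 K 4 * 1) = ng chevE6 42 1 * ng chevE6 37 (φ 1)
    rw [mul_one, e2, e4, map_one]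
  · change ni chevE6 K 0 * (ni chevE6 K 5 * 1) = ng chevE6 56 1 * ng chevE6 36 (φ 1)
    rw [mul_one, e0, e5, map_one]

/-- the tori -/
noncomputable def cE (J : Fin 4) (s : Kˣ) : Fin chevE6.rank → Kˣ :=
  if J = 0 then mkc φ 1 s 1 1 else if J = 1 then mkc φ 1 1 1 s else if J = 2 then mkc φ 1 1 s 1 else mkc φ s 1 1 1

include h2 in
theorem cE_st (J : Fin 4) (s : Kˣ) (hs : dom φ J s) : (ta φ).st (cE φ J s) = cE φ J s := by
  have h1 : φ ((1 : Kˣ) : K) = ((1 : Kˣ) : K) := by rw [Units.val_one, map_one]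
  fin_cases J
  · exact mkc_st φ h2 (hs (by decide)) h1
  · exact mkc_st φ h2 h1 (hs (by decide))
  · exact mkc_st φ h2 h1 h1
  · exact mkc_st φ h2 h1 h1

theorem mkc_hF (c0 c1 c2 c3 : Kˣ) : hF chevE6 K (mkc φ c0 c1 c2 c3) =
    ng chevE6 46 (c1 : K) * (ng chevE6 46 1)⁻¹ * (ng chevE6 39 (c3 : K) * (ng chevE6 39 1)⁻¹) *
    ((ng chevE6 42 (c2 : K) * (ng chevE6 42 1)⁻¹) * (ng chevE6 37 (φ c2) * (ng chevE6 37 1)⁻¹)) *
    ((ng chevE6 56 (c0 : K) * (ng chevE6 56 1)⁻¹) * (ng chevE6 36 (φ c0) * (ng chevE6 36 1)⁻¹)) := by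
  obtain ⟨e0, e1, e2, e3, e4, e5⟩ := ni_eq K
  obtain ⟨s0, s1, s2, s3, s4, s5, _⟩ := smp
  rw [hF_dec]
  have M := cgE6 K
  have t0 : chevE6.simple (I 0) = 56 := s0
  have t1 : chevE6.simple (I 1) = 46 := s1
  have t2 : chevE6.simple (I 2) = 42 := s2
  have t3 : chevE6.simple (I 3) = 39 := s3
  have t4 : chevE6.simple (I 4) = 37 := s4
  have t5 : chevE6.simple (I 5) = 36 := s5
  have u0 : ni chevE6 K (I 0) = ng chevE6 56 1 := e0
  have u1 : ni chevE6 K (I 1) = ng chevE6 46 1 := e1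
  have u2 : ni chevE6 K (I 2) = ng chevE6 42 1 := e2
  have u3 : ni chevE6 K (I 3) = ng chevE6 39 1 := e3
  have u4 : ni chevE6 K (I 4) = ng chevE6 37 1 := e4
  have u5 : ni chevE6 K (I 5) = ng chevE6 36 1 := e5
  have w0 : (mkc φ c0 c1 c2 c3 (I 0) : K) = c0 := rfl
  have w1 : (mkc φ c0 c1 c2 c3 (I 1) : K) = c1 := rfl
  have w2 : (mkc φ c0 c1 c2 c3 (I 2) : K) = c2 := rfl
  have w3 : (mkc φ c0 c1 c2 c3 (I 3) : K) = c3 := rfl
  have w4 : (mkc φ c0 c1 c2 c3 (I 4) : K) = φ c2 := rfl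
  have w5 : (mkc φ c0 c1 c2 c3 (I 5) : K) = φ c0 := rfl
  rw [M.hF_single, M.hF_single, M.hF_single, M.hF_single, M.hF_single, M.hF_single, t0, t1, t2, t3, t4, t5, u0, u1, u2, u3, u4, u5,
    w0, w1, w2, w3, w4, w5]

theorem cE_hF (J : Fin 4) (s : Kˣ) : hF chevE6 K (cE φ J s) = nE φ J s * (nE φ J 1)⁻¹ := by
  obtain ⟨_, _, _, _, _, _, c7, c8⟩ := cm1
  fin_cases J
  · change hF chevE6 K (mkc φ 1 s 1 1) = ng chevE6 46 (s : K) * (ng chevE6 46 1)⁻¹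
    rw [mkc_hF, Units.val_one, map_one]
    group
  · change hF chevE6 K (mkc φ 1 1 1 s) = ng chevE6 39 (s : K) * (ng chevE6 39 1)⁻¹
    rw [mkc_hF, Units.val_one, map_one]
    group
  · change hF chevE6 K (mkc φ 1 1 s 1) = ng chevE6 42 (s : K) * ng chevE6 37 (φ s) * (ng chevE6 42 1 * ng chevE6 37 (φ 1))⁻¹
    rw [mkc_hF, Units.val_one, map_one]
    have k1 := ((cgE6 K).ng_cm c7 1 (φ (s : K))).inv_right.eq
    have k2 := ((cgE6 K).ng_cm c7 (1 : K) (1 : K)).eq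
    generalize ng chevE6 42 (s : K) = x at *
    generalize ng chevE6 37 (φ (s : K)) = y at *
    generalize ng chevE6 42 (1 : K) = x1 at *
    generalize ng chevE6 37 (1 : K) = y1 at *
    have e1 : (x1 * y1)⁻¹ = x1⁻¹ * y1⁻¹ := by rw [← k2]; group
    rw [e1]
    calc _ = x * (x1⁻¹ * y) * y1⁻¹ := by group
      _ = x * (y * x1⁻¹) * y1⁻¹ := by rw [k1]
      _ = _ := by group
  · change hF chevE6 K (mkc φ s 1 1 1) = ng chevE6 56 (s : K) * ng chevE6 36 (φ s) * (ng chevE6 56 1 * ng chevE6 36 (φ 1))⁻¹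
    rw [mkc_hF, Units.val_one, map_one]
    have k1 := ((cgE6 K).ng_cm c8 1 (φ (s : K))).inv_right.eq
    have k2 := ((cgE6 K).ng_cm c8 (1 : K) (1 : K)).eq
    generalize ng chevE6 56 (s : K) = x at *
    generalize ng chevE6 36 (φ (s : K)) = y at *
    generalize ng chevE6 56 (1 : K) = x1 at *
    generalize ng chevE6 36 (1 : K) = y1 at *
    have e1 : (x1 * y1)⁻¹ = x1⁻¹ * y1⁻¹ := by rw [← k2]; group
    rw [e1]
    calc _ = x * (x1⁻¹ * y) * y1⁻¹ := by group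
      _ = x * (y * x1⁻¹) * y1⁻¹ := by rw [k1]
      _ = _ := by group

theorem vE_V (J : Fin 4) (s : K) : vE φ J s ∈ chevE6.negUnipotent K := by
  have hneg : ∀ r ∈ [25, 32, 29, 34, 15, 35], r ∈ NegS chevE6 ∧ r < chevE6.nroots := by decide +kernel
  have h : ∀ r ∈ [25, 32, 29, 34, 15, 35], ∀ t : K, xg chevE6 r t ∈ chevE6.negUnipotent K := by
    intro r hr t
    rw [(cgE6 K).V_eq]
    exact xg_mem_XS chevE6 (hneg r hr).1 (hneg r hr).2 t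
  fin_cases J
  · exact h 25 (by simp) _
  · exact h 32 (by simp) _
  · exact mul_mem (h 29 (by simp) _) (h 34 (by simp) _)
  · exact mul_mem (h 15 (by simp) _) (h 35 (by simp) _)

include h2 in
theorem nE_mem (J : Fin 4) (s : Kˣ) (hs : dom φ J s) : nE φ J s ∈ G1 φ := by
  have e : nE φ J s = hF chevE6 K (cE φ J s) * nE φ J 1 := by rw [cE_hF]; group
  rw [e, ← nE_one]
  exact mul_mem (hG φ ⟨cE φ J s, cE_st φ h2 J s hs⟩).2 ((R φ).n_mem_Gs (cgE6 K) J)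

include h2 in
theorem vE_mem (J : Fin 4) (s : Kˣ) (hs : dom φ J s) : vE φ J s ∈ G1 φ := by
  have e : vE φ J s = (xE φ J s)⁻¹ * nE φ J s * (xE φ J s)⁻¹ := by rw [nE_eq]; group
  rw [e]
  exact mul_mem (mul_mem (inv_mem (xG φ h2 J s hs).2) (nE_mem φ h2 J s hs)) (inv_mem (xG φ h2 J s hs).2)

section
variable {θ : ↥(G1 φ) ≃* ↥(G1 φ)} (hU : TN.Pre1 θ (chevE6.posUnipotent K) (chevE6.posUnipotent K))
  (hV : TN.Pre1 θ (chevE6.negUnipotent K) (chevE6.negUnipotent K))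

include hφ h2 hq2 hK hU hV in
theorem fix_n (J : Fin 4) (s : Kˣ) (hs : dom φ J s) (hf : θ (xG φ h2 J s hs) = xG φ h2 J s hs) :
    θ ⟨nE φ J s, nE_mem φ h2 J s hs⟩ = ⟨nE φ J s, nE_mem φ h2 J s hs⟩ := by
  have e1 : (⟨nE φ J s, nE_mem φ h2 J s hs⟩ : ↥(G1 φ)) = xG φ h2 J s hs * ⟨vE φ J s, vE_mem φ h2 J s hs⟩ * xG φ h2 J s hs :=
    Subtype.ext (nE_eq φ J s)
  rw [e1]
  refine (R φ).phi_xvx (cgE6 K) tp hU hV (cen φ) (J := J) ((fixed φ hφ h2 hq2 hK hU hV).1 J)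
    (GD.U_le_B ((TN.mem_Um (cgE6 K)).mp (xG_Um φ h2 J s hs)).1.1) hf hf (vE_V φ J s) ?_
  rw [← e1]
  change nE φ J (s : K) * ((R φ).n J)⁻¹ ∈ _
  rw [nE_one, ← cE_hF, ← (cgE6 K).hF_range]
  exact ⟨_, rfl⟩

include hφ h2 hq2 hK hU hV in
theorem fix_n1 (J : Fin 4) (hf : θ (xG φ h2 J 1 (dom_one φ J)) = xG φ h2 J 1 (dom_one φ J)) : θ ((R φ).nG (cgE6 K) J) = (R φ).nG (cgE6 K) J := by
  have hd : dom φ J ((1 : Kˣ) : K) := by rw [Units.val_one]; exact dom_one φ J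
  have e0 : xG φ h2 J ((1 : Kˣ) : K) hd = xG φ h2 J 1 (dom_one φ J) := xG_congr φ h2 Units.val_one
  have h := fix_n φ hφ h2 hq2 hK hU hV J 1 hd (by rw [e0]; exact hf)
  have e : (R φ).nG (cgE6 K) J = ⟨nE φ J ((1 : Kˣ) : K), nE_mem φ h2 J 1 hd⟩ := Subtype.ext (by
    change (R φ).n J = nE φ J ((1 : Kˣ) : K)
    rw [nE_one, Units.val_one])
  rw [e]
  exact h

include hφ h2 hq2 hK hU hV in
theorem fix_h (J : Fin 4) (s : Kˣ) (hs : dom φ J s) (hf : θ (xG φ h2 J s hs) = xG φ h2 J s hs)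
    (h1 : θ (xG φ h2 J 1 (dom_one φ J)) = xG φ h2 J 1 (dom_one φ J)) :
    θ (hG φ ⟨cE φ J s, cE_st φ h2 J s hs⟩) = hG φ ⟨cE φ J s, cE_st φ h2 J s hs⟩ := by
  have e : hG φ ⟨cE φ J s, cE_st φ h2 J s hs⟩ = ⟨nE φ J s, nE_mem φ h2 J s hs⟩ * ((R φ).nG (cgE6 K) J)⁻¹ := Subtype.ext (by
    change hF chevE6 K (cE φ J s) = nE φ J s * ((R φ).n J)⁻¹
    rw [cE_hF, nE_one])
  rw [e, map_mul, map_inv, fix_n φ hφ h2 hq2 hK hU hV J s hs hf, fix_n1 φ hφ h2 hq2 hK hU hV J h1]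

/-- extending to the whole root subgroup -/
theorem fix_x {J : Fin 4} (c : TT φ) (hc : θ (hG φ c) = hG φ c) (h1 : θ (xG φ h2 J 1 (dom_one φ J)) = xG φ h2 J 1 (dom_one φ J))
    (t : K) (ht : dom φ J t) (hχ : (χE c.1 J : K) = t) : θ (xG φ h2 J t ht) = xG φ h2 J t ht := by
  have h3 := hG_xG φ h2 c J 1 (dom_one φ J)
  have h4 : xG φ h2 J ((χE c.1 J : K) * 1) (dom_mul φ (dom_χ φ h2 c.2 J) (dom_one φ J)) = xG φ h2 J t ht :=
    xG_congr φ h2 (by rw [hχ, mul_one])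
  have h5 := h3.trans h4
  have h6 := congrArg θ h5
  rw [map_mul, map_mul, map_inv, hc, h1, h5] at h6
  exact h6.symm

include hφ h2 hq2 hK hU hV in
/-- rigidity -/
theorem th_id (hb : ∀ u, θ (xG φ h2 2 u (dd2 φ u)) = xG φ h2 2 u (dd2 φ u))
    (ha : ∀ J, θ (xG φ h2 J 1 (dom_one φ J)) = xG φ h2 J 1 (dom_one φ J)) (x : ↥(G1 φ)) : θ x = x := by
  have hc2 : ∀ s : Kˣ, θ (hG φ ⟨cE φ 2 s, cE_st φ h2 2 s (dd2 φ _)⟩) = hG φ ⟨cE φ 2 s, cE_st φ h2 2 s (dd2 φ _)⟩ := fun s =>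
    fix_h φ hφ h2 hq2 hK hU hV 2 s (dd2 φ _) (hb s) (ha 2)
  have hz : ∀ J t ht, t = 0 → θ (xG φ h2 J t ht) = xG φ h2 J t ht := by
    intro J t ht h0
    have e : xG φ h2 J t ht = 1 := Subtype.ext (by change xE φ J t = 1; rw [h0, xE_zero])
    rw [e, map_one]
  have f3 : ∀ t ht, θ (xG φ h2 3 t ht) = xG φ h2 3 t ht := by
    intro t ht
    by_cases ht0 : t = 0
    · exact hz 3 t ht ht0
    · refine fix_x φ h2 _ (hc2 (Units.mk0 t ht0)⁻¹) (ha 3) t ht ?_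
      have e : χE (cE φ 2 (Units.mk0 t ht0)⁻¹) 3 = Units.mk0 t ht0 := by
        change (1 : Kˣ) ^ 2 * ((Units.mk0 t ht0)⁻¹)⁻¹ = _
        rw [one_pow, one_mul, inv_inv]
      rw [e, Units.val_mk0]
  have f1 : ∀ t ht, θ (xG φ h2 1 t ht) = xG φ h2 1 t ht := by
    intro t ht
    by_cases ht0 : t = 0
    · exact hz 1 t ht ht0
    · have hφt : φ t = t := ht (by decide)
      obtain ⟨s, hs⟩ := norm_surj φ hφ h2 hq2 hK (Units.mk0 t ht0)⁻¹ (by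
        rw [Units.val_inv_eq_inv_val, Units.val_mk0, map_inv₀, hφt])
      refine fix_x φ h2 _ (hc2 s) (ha 1) t ht ?_
      have e : χE (cE φ 2 s) 1 = (s * Units.map (φ : K →* K) s)⁻¹ := by
        change (1 : Kˣ) ^ 2 * (1 * s * Units.map (φ : K →* K) s)⁻¹ = _
        rw [one_pow, one_mul, one_mul]
      have e2 : ((s * Units.map (φ : K →* K) s : Kˣ) : K) = (s : K) * φ s := rfl
      change (χE (cE φ 2 s) 1 : K) = t
      rw [e, Units.val_inv_eq_inv_val, e2, hs, Units.val_inv_eq_inv_val, Units.val_mk0, inv_inv]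
  have f0 : ∀ t ht, θ (xG φ h2 0 t ht) = xG φ h2 0 t ht := by
    intro t ht
    by_cases ht0 : t = 0
    · exact hz 0 t ht ht0
    · have hφt : φ t = t := ht (by decide)
      have hd : dom φ 1 (((Units.mk0 t ht0)⁻¹ : Kˣ) : K) := fun _ => by
        rw [Units.val_inv_eq_inv_val, Units.val_mk0, map_inv₀, hφt]
      refine fix_x φ h2 _ (fix_h φ hφ h2 hq2 hK hU hV 1 (Units.mk0 t ht0)⁻¹ hd (f1 _ _) (ha 1)) (ha 0) t ht ?_
      have e : χE (cE φ 1 (Units.mk0 t ht0)⁻¹) 0 = Units.mk0 t ht0 := by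
        change (1 : Kˣ) ^ 2 * ((Units.mk0 t ht0)⁻¹)⁻¹ = _
        rw [one_pow, one_mul, inv_inv]
      rw [e, Units.val_mk0]
  refine (R φ).rigid2 (cgE6 K) tp hU hV chn (faith φ h2) ?_ ?_ x
  · have : ∀ J : Fin 4, ∀ x : ↥(G1 φ), (x : GL chevE6.Idx K) ∈ TN.Um (ta φ) (cgE6 K) ((R φ).n J) → θ x = x := by
      intro J x hx
      obtain ⟨t, ht, rfl⟩ := exists_xG φ h2 hx
      fin_cases J
      · exact f0 t ht
      · exact f1 t ht
      · exact hb t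
      · exact f3 t ht
    exact this
  · have : ∀ J : Fin 4, θ ((R φ).nG (cgE6 K) J) = (R φ).nG (cgE6 K) J := fun J => fix_n1 φ hφ h2 hq2 hK hU hV J (ha J)
    exact this

end

end CfsgLib.Chev.TwE6
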