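import Cfsg.Agent.Lib.TO19
set_option autoImplicit false
set_option linter.style.haveILetI false
set_option linter.unusedSectionVars false
set_option maxRecDepth 1000000

/-! The automorphisms of `²E₆(q)`, V: the count. -/

namespace CfsgLib.Chev.TwE6
open Cfsg.Lie Matrix CfsgLib.BNP CfsgLib.PWM CfsgLib.Chev.GA CfsgLib.Chev

variable {K : Type*} [Field K] [Fintype K] (φ : K →+* K) {q : ℕ} (hφ : ∀ x, φ x = x ^ q) (h2 : ∀ x, φ (φ x) = x)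
  (hq2 : 2 ≤ q) (hK : Fintype.card K = q ^ 2)

include hφ in
theorem comm_σ (σ : RingAut K) (x : K) : σ (φ x) = φ (σ x) := by rw [hφ, hφ, map_pow]

include hφ h2 in
theorem mg_G1 (σ : RingAut K) (g : GL chevE6.Idx K) (hg : g ∈ G1 φ) : mapGL chevE6 σ g ∈ G1 φ := by
  have h0 : G1 φ = twistedE6 K q := (eq_Gs φ hφ h2).symm
  rw [h0] at hg ⊢
  refine (cgE6 K).mg_genSub σ ?_ hg
  intro W hW
  rcases words.mp hW with ⟨t, ht, r, hr, rfl⟩ | ⟨t, rs, hrs, rfl⟩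
  · refine words.mpr (Or.inl ⟨σ t, ?_, r, hr, rfl⟩)
    rw [← map_pow, ht]
  · refine words.mpr (Or.inr ⟨σ t, rs, hrs, ?_⟩)
    simp only [List.map_cons, List.map_nil, map_pow]

/-- the field automorphisms -/
noncomputable def Fa : RingAut K →* MulAut ↥(G1 φ) := faHom (G1 φ) (mg_G1 φ hφ h2)

include hφ in
theorem dom_σ (σ : RingAut K) {J : Fin 4} {t : K} (ht : dom φ J t) : dom φ J (σ t) := fun h => by
  rw [← comm_σ φ hφ, ht h]

theorem Fa_xG (σ : RingAut K) (J : Fin 4) (t : K) (ht : dom φ J t) : Fa φ hφ h2 σ (xG φ h2 J t ht) = xG φ h2 J (σ t) (dom_σ φ hφ σ ht) := by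
  apply Subtype.ext
  change mapGL chevE6 σ (xE φ J t) = xE φ J (σ t)
  fin_cases J
  · exact (cgE6 K).mg_xg σ 46 t
  · exact (cgE6 K).mg_xg σ 39 t
  · change mapGL chevE6 σ (xg chevE6 37 (φ t) * xg chevE6 42 t) = xg chevE6 37 (φ (σ t)) * xg chevE6 42 (σ t)
    rw [map_mul, (cgE6 K).mg_xg, (cgE6 K).mg_xg, comm_σ φ hφ]
  · change mapGL chevE6 σ (xg chevE6 36 (φ t) * xg chevE6 56 t) = xg chevE6 36 (φ (σ t)) * xg chevE6 56 (σ t)
    rw [map_mul, (cgE6 K).mg_xg, (cgE6 K).mg_xg, comm_σ φ hφ]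

theorem Dg_U (d : Tn φ) : TN.Pre1 (Dg φ hφ h2 d) (chevE6.posUnipotent K) (chevE6.posUnipotent K) := by
  intro g
  have h := (cgE6 K).dgg_norm ((cgE6 K).N.isWt_char ((cgE6 K).chr_isRootCharacter (dv φ d))) (PosS chevE6)
  rw [← (cgE6 K).U_eq] at h
  exact Subgroup.mem_normalizer_iff.mp h g

theorem Dg_V (d : Tn φ) : TN.Pre1 (Dg φ hφ h2 d) (chevE6.negUnipotent K) (chevE6.negUnipotent K) := by
  intro g
  have h := (cgE6 K).dgg_norm ((cgE6 K).N.isWt_char ((cgE6 K).chr_isRootCharacter (dv φ d))) (NegS chevE6)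
  rw [← (cgE6 K).V_eq] at h
  exact Subgroup.mem_normalizer_iff.mp h g

include hq2 hK in
theorem aut_form (Ψ : MulAut ↥(G1 φ)) : ∃ g d σ, Ψ = MulAut.conj g * (Dg φ hφ h2 d * Fa φ hφ h2 σ) := by
  obtain ⟨x, θ, h1, hU, hV⟩ := (R φ).frame1 (cgE6 K) tp Ψ
  set F := Fa φ hφ h2 with hF
  have hx1 : ∀ J : Fin 4, ∃ a : Kˣ, ∃ ha : dom φ J a, θ (xG φ h2 J 1 (dom_one φ J)) = xG φ h2 J a ha := by
    intro J
    obtain ⟨a, ha, h⟩ := th_x φ hφ h2 hq2 hK hU hV J 1 (dom_one φ J)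
    have ha0 : a ≠ 0 := by
      rintro rfl
      have e : xG φ h2 J 0 ha = 1 := Subtype.ext (xE_zero φ J)
      rw [e] at h
      have e' : xG φ h2 J 0 (dom_zero φ J) = 1 := Subtype.ext (xE_zero φ J)
      have h5 : xG φ h2 J 1 (dom_one φ J) = xG φ h2 J 0 (dom_zero φ J) := by
        rw [e']
        exact θ.injective (h.trans (map_one θ).symm)
      exact one_ne_zero (xG_inj φ h2 h5)
    exact ⟨Units.mk0 a ha0, ha, h⟩
  choose a ha hax using hx1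
  have hfix : ∀ J : Fin 4, J.val < 2 → φ (((a J)⁻¹ : Kˣ) : K) = (((a J)⁻¹ : Kˣ) : K) := fun J hJ => by
    rw [Units.val_inv_eq_inv_val, map_inv₀, ha J hJ]
  set d : Tn φ := ((⟨(a 0)⁻¹, hfix 0 (by decide)⟩, ⟨(a 1)⁻¹, hfix 1 (by decide)⟩), ((a 2)⁻¹, (a 3)⁻¹)) with hd
  have hdJ : ∀ J, dJ φ d J = (a J)⁻¹ := by
    intro J
    fin_cases J <;> rfl
  set θ1 : ↥(G1 φ) ≃* ↥(G1 φ) := θ.trans (Dg φ hφ h2 d) with hθ1
  have hU1 : TN.Pre1 θ1 (chevE6.posUnipotent K) (chevE6.posUnipotent K) := hU.trans (Dg_U φ hφ h2 d)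
  have hV1 : TN.Pre1 θ1 (chevE6.negUnipotent K) (chevE6.negUnipotent K) := hV.trans (Dg_V φ hφ h2 d)
  have ha1 : ∀ J, θ1 (xG φ h2 J 1 (dom_one φ J)) = xG φ h2 J 1 (dom_one φ J) := by
    intro J
    change Dg φ hφ h2 d (θ (xG φ h2 J 1 (dom_one φ J))) = _
    rw [hax, Dg_xG]
    apply xG_congr
    rw [hdJ, ← Units.val_mul, inv_mul_cancel, Units.val_one]
  obtain ⟨σ, hσ⟩ := th_field φ hφ h2 hq2 hK hU1 hV1 (ha1 2)
  set θ2 : ↥(G1 φ) ≃* ↥(G1 φ) := θ1.trans (F σ⁻¹) with hθ2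
  have hU2 : TN.Pre1 θ2 (chevE6.posUnipotent K) (chevE6.posUnipotent K) := hU1.trans (faHom_U (cgE6 K) _ _ σ⁻¹)
  have hV2 : TN.Pre1 θ2 (chevE6.negUnipotent K) (chevE6.negUnipotent K) := hV1.trans (faHom_V (cgE6 K) _ _ σ⁻¹)
  have hid := th_id φ hφ h2 hq2 hK hU2 hV2 (fun u => by
      change F σ⁻¹ (θ1 (xG φ h2 2 u (dd2 φ u))) = _
      rw [hσ, hF, Fa_xG]
      apply xG_congr
      exact σ.symm_apply_apply u) (fun J => by
      change F σ⁻¹ (θ1 (xG φ h2 J 1 (dom_one φ J))) = _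
      rw [ha1, hF, Fa_xG]
      apply xG_congr
      exact map_one _)
  refine ⟨x, d⁻¹, σ, ?_⟩
  ext y : 1
  rw [MulAut.mul_apply, MulAut.mul_apply, h1]
  have h5 : F σ⁻¹ (Dg φ hφ h2 d (θ y)) = y := hid y
  have h6 : Dg φ hφ h2 d (θ y) = F σ y := by
    have := congrArg (F σ) h5
    rw [← MulAut.mul_apply, ← map_mul, mul_inv_cancel, map_one] at this
    exact this
  have h7 : (Dg φ hφ h2 d⁻¹) (Dg φ hφ h2 d (θ y)) = θ y := by
    rw [← MulAut.mul_apply, ← map_mul, inv_mul_cancel, map_one]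
    rfl
  change x * θ y * x⁻¹ = MulAut.conj x (Dg φ hφ h2 d⁻¹ (F σ y))
  rw [← h6, h7, MulAut.conj_apply]

theorem outer (d : Tn φ) (σ : RingAut K) (h : Dg φ hφ h2 d * Fa φ hφ h2 σ ∈ Cfsg.Inn ↥(G1 φ)) : σ = 1 ∧ d ∈ Din φ := by
  obtain ⟨g, hg⟩ := h
  have h1 : (g : GL chevE6.Idx K) ∈ chevE6.diagonalSubgroup K := by
    apply (R φ).conj_H (cgE6 K) tp g
    · rw [hg]
      exact (faHom_U (cgE6 K) _ (mg_G1 φ hφ h2) σ).trans (Dg_U φ hφ h2 d)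
    · rw [hg]
      exact (faHom_V (cgE6 K) _ (mg_G1 φ hφ h2) σ).trans (Dg_V φ hφ h2 d)
  obtain ⟨c, rfl⟩ := exists_hG φ h2 h1
  have h3 : ∀ J v (hv : dom φ J v), (χE c.1 J : K) * v = (dJ φ d J : K) * σ v := by
    intro J v hv
    have h4 : MulAut.conj (hG φ c) (xG φ h2 J v hv) = (Dg φ hφ h2 d * Fa φ hφ h2 σ) (xG φ h2 J v hv) := by rw [hg]
    rw [MulAut.mul_apply, Fa_xG, Dg_xG, MulAut.conj_apply, hG_xG φ h2] at h4
    exact xG_inj φ h2 h4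
  have h4 : ∀ J, dJ φ d J = χE c.1 J := by
    intro J
    have := h3 J 1 (dom_one φ J)
    rw [mul_one, map_one, mul_one] at this
    exact (Units.ext this).symm
  refine ⟨?_, ?_⟩
  · ext v
    have := h3 2 v (dd2 φ v)
    rw [h4 2] at this
    exact (mul_left_cancel₀ (Units.ne_zero _) this).symm
  · change δ φ d ∈ G1 φ
    rw [δ_eq_hF φ c.2 h4 h2]
    exact (hG φ c).2

include h2 in
theorem Din_H {d : Tn φ} (hd : d ∈ Din φ) : δ φ d ∈ chevE6.diagonalSubgroup K ⊓ G1 φ := by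
  have hd' : δ φ d ∈ G1 φ := hd
  have hU := (cgE6 K).dgg_norm ((cgE6 K).N.isWt_char ((cgE6 K).chr_isRootCharacter (dv φ d))) (PosS chevE6)
  have hV := (cgE6 K).dgg_norm ((cgE6 K).N.isWt_char ((cgE6 K).chr_isRootCharacter (dv φ d))) (NegS chevE6)
  rw [← (cgE6 K).U_eq] at hU
  rw [← (cgE6 K).V_eq] at hV
  refine ⟨(R φ).conj_H (cgE6 K) tp ⟨δ φ d, hd'⟩ (fun g => Subgroup.mem_normalizer_iff.mp hU g)
    (fun g => Subgroup.mem_normalizer_iff.mp hV g), hd'⟩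

theorem dJ_inj {d d' : Tn φ} (h : ∀ J, dJ φ d J = dJ φ d' J) : d = d' := by
  obtain ⟨⟨⟨a0, _⟩, ⟨a1, _⟩⟩, a2, a3⟩ := d
  obtain ⟨⟨⟨b0, _⟩, ⟨b1, _⟩⟩, b2, b3⟩ := d'
  have e0 : a0 = b0 := h 0
  have e1 : a1 = b1 := h 1
  have e2 : a2 = b2 := h 2
  have e3 : a3 = b3 := h 3
  subst e0 e1 e2 e3
  rfl

include h2 in
theorem card_Din : Nat.card (Din φ) = Nat.card ↥(chevE6.diagonalSubgroup K ⊓ G1 φ) := by
  refine Nat.card_congr (Equiv.ofBijective (fun d : Din φ => (⟨δ φ d.1, Din_H φ h2 d.2⟩ : ↥(chevE6.diagonalSubgroup K ⊓ G1 φ))) ⟨?_, ?_⟩)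
  · rintro ⟨d, hd⟩ ⟨d', hd'⟩ h
    have h1 : δ φ d = δ φ d' := congrArg Subtype.val h
    apply Subtype.ext
    apply dJ_inj
    intro J
    have h3 := δ_xE φ d J 1
    rw [h1, δ_xE] at h3
    have h4 := xE_inj φ h3
    rw [mul_one, mul_one] at h4
    exact (Units.ext h4).symm
  · rintro ⟨h, hh⟩
    obtain ⟨c, hc, rfl⟩ := torus φ h2 hh
    have hfix : ∀ J : Fin 4, J.val < 2 → φ (χE c J : K) = (χE c J : K) := fun J hJ => dom_χ φ h2 hc J hJ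
    set d : Tn φ := ((⟨χE c 0, hfix 0 (by decide)⟩, ⟨χE c 1, hfix 1 (by decide)⟩), (χE c 2, χE c 3)) with hd
    have hdJ : ∀ J, dJ φ d J = χE c J := by
      intro J
      fin_cases J <;> rfl
    have e := δ_eq_hF φ hc hdJ h2
    refine ⟨⟨d, ?_⟩, Subtype.ext e⟩
    change δ φ d ∈ G1 φ
    rw [e]
    exact hh.2

include hφ h2 in
theorem card_Tn : Nat.card (Tn φ) = Nat.card (TT φ) := by
  let f : TT φ → Tn φ := fun c =>
    ((⟨c.1 (I 1), ((st_eq_iff φ h2 c.1).mp c.2).1⟩, ⟨c.1 (I 3), ((st_eq_iff φ h2 c.1).mp c.2).2.1⟩), (c.1 (I 0), c.1 (I 2)))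
  refine (Nat.card_congr (Equiv.ofBijective f ⟨?_, ?_⟩)).symm
  · rintro ⟨c, hc⟩ ⟨d, hd⟩ h
    have hc' := (st_eq_iff φ h2 c).mp hc
    have hd' := (st_eq_iff φ h2 d).mp hd
    have e1 : c (I 1) = d (I 1) := congrArg (fun z : Tn φ => (z.1.1 : Kˣ)) h
    have e3 : c (I 3) = d (I 3) := congrArg (fun z : Tn φ => (z.1.2 : Kˣ)) h
    have e0 : c (I 0) = d (I 0) := congrArg (fun z : Tn φ => z.2.1) h
    have e2 : c (I 2) = d (I 2) := congrArg (fun z : Tn φ => z.2.2) h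
    apply Subtype.ext
    funext i
    change Fin 6 at i
    fin_cases i
    · exact e0
    · exact e1
    · exact e2
    · exact e3
    · apply Units.ext
      change (c (I 4) : K) = d (I 4)
      rw [hc'.2.2.2, hd'.2.2.2, e2]
    · apply Units.ext
      change (c (I 5) : K) = d (I 5)
      rw [hc'.2.2.1, hd'.2.2.1, e0]
  · rintro ⟨⟨⟨u1, h1⟩, ⟨u3, h3⟩⟩, u0, u2⟩
    exact ⟨⟨mkc φ u0 u1 u2 u3, mkc_st φ h2 h1 h3⟩, rfl⟩

include hφ h2 hq2 hK in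
theorem index_Din : (Din φ).index = Nat.gcd 3 (q + 1) := by
  have h1 := (Din φ).card_mul_index
  rw [card_Din φ h2, card_Tn φ hφ h2, card_TT φ hφ h2 hq2 hK] at h1
  have h3 := card_H φ hφ h2 hq2 hK
  have h4 : q ^ 2 - 1 = (q + 1) * (q - 1) := by
    obtain ⟨m, rfl⟩ : ∃ m, q = m + 1 := ⟨q - 1, by omega⟩
    have : (m + 1) ^ 2 - 1 = (m + 1 + 1) * m := by
      rw [Nat.sub_eq_iff_eq_add (by nlinarith)]; ring
    rw [this]; simp
  rw [h4] at h1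
  have h5 : (q - 1) ^ 2 * ((q + 1) * (q - 1)) ^ 2 = (q - 1) ^ 4 * (q + 1) ^ 2 := by ring
  rw [h5, ← h3, mul_comm] at h1
  haveI : Finite ↥(chevE6.diagonalSubgroup K ⊓ G1 φ) := inferInstance
  exact Nat.eq_of_mul_eq_mul_right Nat.card_pos h1

include hφ h2 hq2 hK in
theorem card_out {p f : ℕ} [Fact p.Prime] (hq : q = p ^ f) : Nat.card (Cfsg.Out ↥(twistedE6 K q)) = 2 * Nat.gcd 3 (q + 1) * f := by
  have hK' : Fintype.card K = p ^ (2 * f) := by rw [hK, hq, ← pow_mul, mul_comm]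
  have h1 := card_out_of2 (Fa φ hφ h2) (Dg φ hφ h2) (Din φ) (aut_form φ hφ h2 hq2 hK) (outer φ hφ h2) (fun d hd => Dg_inn φ hφ h2 hd)
  rw [eq_Gs φ hφ h2, h1, CfsgLib.AutPSL.ringAut_card hK', index_Din φ hφ h2 hq2 hK]
  ring

end CfsgLib.Chev.TwE6
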