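import Cfsg.Agent.Lib.TO2
import Cfsg.Agent.Lib.ChevAut3
set_option autoImplicit false
set_option linter.style.haveILetI false
set_option linter.unusedSectionVars false

/-! Automorphisms of twisted groups, III: minimal parabolic subgroups, rigidity. -/

namespace CfsgLib.Chev
open Cfsg.Lie Matrix CfsgLib.BNP CfsgLib.PWM

namespace TN
variable {D : ChevalleyDatum} {T : TD D} {K : Type*} [Field K] {A : TA T K} {O : TO T} (R : TN A O) (M : CG D K)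

/-- the element `n_J` of the group -/
noncomputable def nG (J : Fin O.m) : ↥(A.Gs M) := ⟨R.n J, R.n_mem_Gs M J⟩

theorem nG_coe (J : Fin O.m) : (R.nG M J : GL D.Idx K) = R.n J := rfl

theorem nG_mem_S (J : Fin O.m) : R.nG M J ∈ (R.bnp1 M).S := ⟨J, rfl⟩

/-- minimal parabolic subgroups -/
noncomputable def Par (J : Fin O.m) : Subgroup ↥(A.Gs M) := (R.bnp1 M).parabolic {R.nG M J}

theorem mem_BG (g : ↥(A.Gs M)) : g ∈ (R.bnp1 M).B ↔ (g : GL D.Idx K) ∈ D.borelSubgroup K :=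
  ⟨fun h => R.of_mem_bnp1_B M h, fun h => R.mem_bnp1_B M h g.2⟩

theorem mem_Par (J : Fin O.m) (g : ↥(A.Gs M)) : g ∈ R.Par M J ↔ (g : GL D.Idx K) ∈ D.borelSubgroup K ∨
    ∃ b b' : ↥(A.Gs M), (b : GL D.Idx K) ∈ D.borelSubgroup K ∧ (b' : GL D.Idx K) ∈ D.borelSubgroup K ∧ g = b * R.nG M J * b' := by
  unfold Par
  rw [CfsgLib.BNP.mem_parabolic_singleton (P := R.bnp1 M) (R.nG_mem_S M J)]
  have e : CfsgLib.BNP.sg (R.bnp1 M) ⟨R.nG M J, R.nG_mem_S M J⟩ =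
      CfsgLib.BNP.cls (R.bnp1 M) ⟨R.nG M J, (R.bnp1 M).subset (R.nG_mem_S M J)⟩ := rfl
  rw [e, CfsgLib.BNP.mem_C_cls]
  constructor
  · rintro (h | ⟨b, hb, b', hb', h⟩)
    · exact Or.inl ((R.mem_BG M g).mp h)
    · exact Or.inr ⟨b, b', (R.mem_BG M b).mp hb, (R.mem_BG M b').mp hb', h⟩
  · rintro (h | ⟨b, b', hb, hb', h⟩)
    · exact Or.inl ((R.mem_BG M g).mpr h)
    · exact Or.inr ⟨b, (R.mem_BG M b).mpr hb, b', (R.mem_BG M b').mpr hb', h⟩

theorem nG_mem_Par (J : Fin O.m) : R.nG M J ∈ R.Par M J :=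
  CfsgLib.BNP.closure_le_parabolic _ (Subgroup.subset_closure rfl)

theorem B_le_Par (J : Fin O.m) {g : ↥(A.Gs M)} (hg : (g : GL D.Idx K) ∈ D.borelSubgroup K) : g ∈ R.Par M J :=
  CfsgLib.BNP.B_le_parabolic _ ((R.mem_BG M g).mpr hg)

theorem nG_notMem_B (J : Fin O.m) : (R.nG M J : GL D.Idx K) ∉ D.borelSubgroup K := by
  intro h
  exact CfsgLib.BNP.s_notMem_B (P := R.bnp1 M) ⟨R.nG M J, R.nG_mem_S M J⟩ ((R.mem_BG M _).mpr h)

/-- minimal parabolics are permuted -/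
theorem map_Par {θ : ↥(A.Gs M) ≃* ↥(A.Gs M)} (hU : Pre1 θ (D.posUnipotent K) (D.posUnipotent K)) (J : Fin O.m) :
    ∃ J' : Fin O.m, ∀ g : ↥(A.Gs M), g ∈ R.Par M J ↔ θ g ∈ R.Par M J' := by
  have hB := R.pre_B M hU
  set P := R.bnp1 M with hP
  have hBmem : ∀ g : ↥(A.Gs M), g ∈ P.B ↔ (g : GL D.Idx K) ∈ D.borelSubgroup K := fun g => R.mem_BG M g
  set Q : Subgroup ↥(A.Gs M) := (P.parabolic {R.nG M J}).map θ.toMonoidHom with hQ
  have hmQ : ∀ g, θ g ∈ Q ↔ g ∈ P.parabolic {R.nG M J} := by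
    intro g
    rw [hQ, Subgroup.mem_map_equiv]
    change θ.symm (θ g) ∈ _ ↔ _
    rw [θ.symm_apply_apply]
  have hBQ : P.B ≤ Q := by
    intro b hb
    obtain ⟨c, rfl⟩ := θ.surjective b
    rw [hmQ]
    apply CfsgLib.BNP.B_le_parabolic
    rw [hBmem, hB, ← hBmem]
    exact hb
  have hin : R.nG M J ∈ P.parabolic {R.nG M J} :=
    CfsgLib.BNP.closure_le_parabolic _ (Subgroup.subset_closure rfl)
  obtain ⟨t, htS, htQ⟩ : ∃ t, t ∈ P.S ∧ t ∈ Q := by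
    by_contra hc
    have h1 := CfsgLib.BNP.eq_parabolic (P := P) hBQ
    have h2 : P.S ∩ Q = ∅ := by
      rw [Set.eq_empty_iff_forall_notMem]
      rintro t ⟨h3, h4⟩
      exact hc ⟨t, h3, h4⟩
    rw [h2, CfsgLib.BNP.parabolic_empty] at h1
    have h3 : θ (R.nG M J) ∈ Q := (hmQ _).mpr hin
    rw [h1, hBmem, ← hB] at h3
    exact R.nG_notMem_B M J h3
  have htle : P.parabolic {t} ≤ Q := by
    rw [Cfsg.BNPair.parabolic]
    refine sup_le hBQ ?_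
    rw [Subgroup.closure_le]
    intro x hx
    rw [Set.mem_singleton_iff] at hx
    rw [hx]; exact htQ
  set R' : Subgroup ↥(A.Gs M) := (P.parabolic {t}).comap θ.toMonoidHom with hR
  have hmR : ∀ g, g ∈ R' ↔ θ g ∈ P.parabolic {t} := fun g => Iff.rfl
  have hBR : P.B ≤ R' := by
    intro b hb
    rw [hmR]
    apply CfsgLib.BNP.B_le_parabolic
    rw [hBmem, ← hB, ← hBmem]
    exact hb
  have hRle : R' ≤ P.parabolic {R.nG M J} := by
    intro g hg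
    rw [← hmQ]
    exact htle hg
  have hRS : P.S ∩ R' = {R.nG M J} := by
    apply Set.Subset.antisymm
    · rintro s ⟨h1, h2⟩
      have h3 : s ∈ (P.parabolic {R.nG M J} : Set _) ∩ P.S := ⟨hRle h2, h1⟩
      rwa [CfsgLib.BNP.parabolic_inter_S (P := P) (by rw [Set.singleton_subset_iff]; exact R.nG_mem_S M J)] at h3
    · by_contra hc
      have h1 := CfsgLib.BNP.eq_parabolic (P := P) hBR
      have h2 : P.S ∩ R' = ∅ := by
        rw [Set.eq_empty_iff_forall_notMem]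
        rintro s ⟨h3, h4⟩
        have h5 : s ∈ (P.parabolic {R.nG M J} : Set _) ∩ P.S := ⟨hRle h4, h3⟩
        rw [CfsgLib.BNP.parabolic_inter_S (P := P) (by rw [Set.singleton_subset_iff]; exact R.nG_mem_S M J)] at h5
        apply hc
        rw [Set.singleton_subset_iff, ← Set.mem_singleton_iff.mp h5]
        exact ⟨h3, h4⟩
      rw [h2, CfsgLib.BNP.parabolic_empty] at h1
      obtain ⟨g, hg⟩ := θ.surjective t
      have h3 : g ∈ R' := by
        rw [hmR, hg]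
        exact CfsgLib.BNP.closure_le_parabolic _ (Subgroup.subset_closure rfl)
      rw [h1, hBmem, hB, hg, ← hBmem] at h3
      exact CfsgLib.BNP.s_notMem_B (P := P) ⟨t, htS⟩ h3
  have hReq : R' = P.parabolic {R.nG M J} := by
    rw [CfsgLib.BNP.eq_parabolic (P := P) hBR, hRS]
  obtain ⟨j, hjt⟩ := htS
  have htj : t = R.nG M j := Subtype.ext hjt
  refine ⟨j, fun g => ?_⟩
  unfold Par
  rw [← hP, ← htj, ← hReq]
  exact hmR g

/-- canonical forms -/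
theorem Par_form {J : Fin O.m} {g : ↥(A.Gs M)} (hg : g ∈ R.Par M J) (hB : (g : GL D.Idx K) ∉ D.borelSubgroup K) :
    ∃ b u : ↥(A.Gs M), (b : GL D.Idx K) ∈ D.borelSubgroup K ∧ (u : GL D.Idx K) ∈ Um A M (R.n J) ∧ g = b * R.nG M J * u := by
  rw [R.mem_Par M] at hg
  rcases hg with hg | ⟨b, b', hb, hb', hg⟩
  · exact absurd hg hB
  · obtain ⟨c, hc, u, hu, hcG, he⟩ := R.canon_n M (R.n_mem_N M J) (R.n_mem_Gs M J) g.2
      ⟨(b : GL D.Idx K), hb, (b' : GL D.Idx K), hb', congrArg Subtype.val hg⟩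
    exact ⟨⟨c, hcG⟩, ⟨u, ((mem_Um M).mp hu).1.2⟩, hc, hu, Subtype.ext he⟩

include M in
theorem BV {g : GL D.Idx K} (h1 : g ∈ D.borelSubgroup K) (h2 : g ∈ D.negUnipotent K) : g = 1 := by
  have : g ∈ D.borelSubgroup K ⊓ D.negUnipotent K := ⟨h1, h2⟩
  rwa [M.B_inf_V, Subgroup.mem_bot] at this

/-- the negative root subgroup -/
theorem nxn_V {J : Fin O.m} {x : ↥(A.Gs M)} (hx : (x : GL D.Idx K) ∈ Um A M (R.n J)) :
    ((R.nG M J * x * (R.nG M J)⁻¹ : ↥(A.Gs M)) : GL D.Idx K) ∈ D.negUnipotent K := ((mem_Um M).mp hx).2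

theorem nxn_Par {J : Fin O.m} {x : ↥(A.Gs M)} (hx : (x : GL D.Idx K) ∈ Um A M (R.n J)) :
    R.nG M J * x * (R.nG M J)⁻¹ ∈ R.Par M J :=
  mul_mem (mul_mem (R.nG_mem_Par M J) (R.B_le_Par M J (GD.U_le_B ((mem_Um M).mp hx).1.1))) (inv_mem (R.nG_mem_Par M J))

theorem nnx_B {J : Fin O.m} {x : ↥(A.Gs M)} (hx : (x : GL D.Idx K) ∈ Um A M (R.n J)) :
    ((R.nG M J * (R.nG M J * x * (R.nG M J)⁻¹) * (R.nG M J)⁻¹ : ↥(A.Gs M)) : GL D.Idx K) ∈ D.borelSubgroup K := by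
  have e : R.nG M J * (R.nG M J * x * (R.nG M J)⁻¹) * (R.nG M J)⁻¹ = (R.nG M J * R.nG M J) * x * (R.nG M J * R.nG M J)⁻¹ := by group
  rw [e]
  exact (D.borelSubgroup K).mul_mem ((D.borelSubgroup K).mul_mem (GD.H_le_B (R.n_sq_mem M J)) (GD.U_le_B ((mem_Um M).mp hx).1.1))
    ((D.borelSubgroup K).inv_mem (GD.H_le_B (R.n_sq_mem M J)))

theorem form_ne {J : Fin O.m} {x b u : ↥(A.Gs M)} (hx : (x : GL D.Idx K) ∈ Um A M (R.n J)) (hx1 : x ≠ 1)
    (hb : (b : GL D.Idx K) ∈ D.borelSubgroup K)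
    (h : R.nG M J * x * (R.nG M J)⁻¹ = b * R.nG M J * u) : u ≠ 1 := by
  rintro rfl
  rw [mul_one] at h
  set v := R.nG M J * x * (R.nG M J)⁻¹ with hv
  have h1 : v = b * (R.nG M J * v * (R.nG M J)⁻¹) * b⁻¹ := by
    calc v = v * v * v⁻¹ := by group
      _ = (b * R.nG M J) * v * (b * R.nG M J)⁻¹ := by rw [← h]
      _ = _ := by group
  have h2 : (v : GL D.Idx K) ∈ D.borelSubgroup K := by
    rw [h1]
    exact (D.borelSubgroup K).mul_mem ((D.borelSubgroup K).mul_mem hb (R.nnx_B M hx)) ((D.borelSubgroup K).inv_mem hb)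
  have h3 : v = 1 := Subtype.ext (BV M h2 (R.nxn_V M hx))
  apply hx1
  have : x = (R.nG M J)⁻¹ * v * R.nG M J := by rw [hv]; group
  rw [this, h3]; group

theorem nxn_notB {J : Fin O.m} {x : ↥(A.Gs M)} (hx : (x : GL D.Idx K) ∈ Um A M (R.n J)) (hx1 : x ≠ 1) :
    ((R.nG M J * x * (R.nG M J)⁻¹ : ↥(A.Gs M)) : GL D.Idx K) ∉ D.borelSubgroup K := by
  intro h
  have h3 : R.nG M J * x * (R.nG M J)⁻¹ = 1 := Subtype.ext (BV M h (R.nxn_V M hx))
  apply hx1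
  have : x = (R.nG M J)⁻¹ * (R.nG M J * x * (R.nG M J)⁻¹) * R.nG M J := by group
  rw [this, h3]; group

/-- every element of the positive root subgroup occurs -/
theorem form_surj [Finite K] {J : Fin O.m} {u : ↥(A.Gs M)} (hu : (u : GL D.Idx K) ∈ Um A M (R.n J)) (hu1 : u ≠ 1) :
    ∃ x b : ↥(A.Gs M), (x : GL D.Idx K) ∈ Um A M (R.n J) ∧ x ≠ 1 ∧ (b : GL D.Idx K) ∈ D.borelSubgroup K ∧
      R.nG M J * x * (R.nG M J)⁻¹ = b * R.nG M J * u := by
  let S := {x : ↥(A.Gs M) // (x : GL D.Idx K) ∈ Um A M (R.n J) ∧ x ≠ 1}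
  have h1 : ∀ x : S, ∃ y : S, ∃ b : ↥(A.Gs M), (b : GL D.Idx K) ∈ D.borelSubgroup K ∧
      R.nG M J * x.1 * (R.nG M J)⁻¹ = b * R.nG M J * y.1 := by
    intro x
    obtain ⟨b, u, hb, hu, he⟩ := R.Par_form M (R.nxn_Par M x.2.1) (R.nxn_notB M x.2.1 x.2.2)
    exact ⟨⟨u, hu, R.form_ne M x.2.1 x.2.2 hb he⟩, b, hb, he⟩
  choose f hf using h1
  have hinj : Function.Injective f := by
    intro x y hxy
    obtain ⟨b, hb, he⟩ := hf x
    obtain ⟨c, hc, he'⟩ := hf y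
    rw [hxy] at he
    have h2 : (R.nG M J * x.1 * (R.nG M J)⁻¹) * (R.nG M J * y.1 * (R.nG M J)⁻¹)⁻¹ = b * c⁻¹ := by
      rw [he, he']; group
    have h3 : (R.nG M J * x.1 * (R.nG M J)⁻¹) * (R.nG M J * y.1 * (R.nG M J)⁻¹)⁻¹ = 1 := by
      apply Subtype.ext
      apply BV M
      · rw [h2]; exact (D.borelSubgroup K).mul_mem hb ((D.borelSubgroup K).inv_mem hc)
      · exact (D.negUnipotent K).mul_mem (R.nxn_V M x.2.1) ((D.negUnipotent K).inv_mem (R.nxn_V M y.2.1))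
    apply Subtype.ext
    have h4 := mul_inv_eq_one.mp h3
    exact mul_left_cancel (mul_right_cancel h4)
  haveI : Finite S := inferInstance
  obtain ⟨x, hx⟩ := Finite.surjective_of_injective hinj ⟨u, hu, hu1⟩
  obtain ⟨b, hb, he⟩ := hf x
  rw [hx] at he
  exact ⟨x.1, b, x.2.1, x.2.2, hb, he⟩

/-- `V ∩ P_J` -/
theorem V_inf_Par [Finite K] {J : Fin O.m} {g : ↥(A.Gs M)} (hV : (g : GL D.Idx K) ∈ D.negUnipotent K) (hP : g ∈ R.Par M J) :
    ∃ x : ↥(A.Gs M), (x : GL D.Idx K) ∈ Um A M (R.n J) ∧ g = R.nG M J * x * (R.nG M J)⁻¹ := by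
  by_cases hB : (g : GL D.Idx K) ∈ D.borelSubgroup K
  · refine ⟨1, one_mem _, ?_⟩
    have : g = 1 := Subtype.ext (BV M hB hV)
    rw [this]; group
  · obtain ⟨b, u, hb, hu, he⟩ := R.Par_form M hP hB
    by_cases hu1 : u = 1
    · exfalso
      rw [hu1, mul_one] at he
      obtain ⟨x, hx, hx1, hxf, hxV⟩ := R.x J
      set x' : ↥(A.Gs M) := ⟨x, (A.mem_Gs M).mpr ⟨M.U_le_G hx, hxf⟩⟩ with hx'
      have hxU : (x' : GL D.Idx K) ∈ Um A M (R.n J) := (mem_Um M).mpr ⟨⟨hx, x'.2⟩, hxV⟩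
      have hx1' : x' ≠ 1 := fun h => hx1 (congrArg Subtype.val h)
      have h1 : g * (R.nG M J * x' * (R.nG M J)⁻¹) * g⁻¹ = b * (R.nG M J * (R.nG M J * x' * (R.nG M J)⁻¹) * (R.nG M J)⁻¹) * b⁻¹ := by
        rw [he]; group
      have h2 : g * (R.nG M J * x' * (R.nG M J)⁻¹) * g⁻¹ = 1 := by
        apply Subtype.ext
        apply BV M
        · rw [h1]
          exact (D.borelSubgroup K).mul_mem ((D.borelSubgroup K).mul_mem hb (R.nnx_B M hxU)) ((D.borelSubgroup K).inv_mem hb)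
        · exact (D.negUnipotent K).mul_mem ((D.negUnipotent K).mul_mem hV (R.nxn_V M hxU)) ((D.negUnipotent K).inv_mem hV)
      apply hx1'
      have : x' = (R.nG M J)⁻¹ * g⁻¹ * (g * (R.nG M J * x' * (R.nG M J)⁻¹) * g⁻¹) * g * R.nG M J := by group
      rw [this, h2]; group
    · obtain ⟨x, c, hx, hx1, hc, he'⟩ := R.form_surj M hu hu1
      refine ⟨x, hx, ?_⟩
      have h2 : g * (R.nG M J * x * (R.nG M J)⁻¹)⁻¹ = b * c⁻¹ := by rw [he, he']; group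
      have h3 : g * (R.nG M J * x * (R.nG M J)⁻¹)⁻¹ = 1 := by
        apply Subtype.ext
        apply BV M
        · rw [h2]; exact (D.borelSubgroup K).mul_mem hb ((D.borelSubgroup K).inv_mem hc)
        · exact (D.negUnipotent K).mul_mem hV ((D.negUnipotent K).inv_mem (R.nxn_V M hx))
      exact mul_inv_eq_one.mp h3

/-- characterisation of `B n_J` -/
theorem mem_Bn [Finite K] {J : Fin O.m} {g : ↥(A.Gs M)} (hP : g ∈ R.Par M J) :
    ((g * (R.nG M J)⁻¹ : ↥(A.Gs M)) : GL D.Idx K) ∈ D.borelSubgroup K ↔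
    ∀ y : ↥(A.Gs M), (y : GL D.Idx K) ∈ D.negUnipotent K → y ∈ R.Par M J → ((g * y * g⁻¹ : ↥(A.Gs M)) : GL D.Idx K) ∈ D.borelSubgroup K := by
  constructor
  · intro h y hy hyP
    obtain ⟨x, hx, rfl⟩ := R.V_inf_Par M hy hyP
    have e : g * (R.nG M J * x * (R.nG M J)⁻¹) * g⁻¹ = (g * (R.nG M J)⁻¹) * (R.nG M J * (R.nG M J * x * (R.nG M J)⁻¹) * (R.nG M J)⁻¹) *
        (g * (R.nG M J)⁻¹)⁻¹ := by group
    rw [e]
    exact (D.borelSubgroup K).mul_mem ((D.borelSubgroup K).mul_mem h (R.nnx_B M hx)) ((D.borelSubgroup K).inv_mem h)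
  · intro h
    by_cases hB : (g : GL D.Idx K) ∈ D.borelSubgroup K
    · exfalso
      obtain ⟨x, hx, hx1, hxf, hxV⟩ := R.x J
      set x' : ↥(A.Gs M) := ⟨x, (A.mem_Gs M).mpr ⟨M.U_le_G hx, hxf⟩⟩ with hx'
      have hxU : (x' : GL D.Idx K) ∈ Um A M (R.n J) := (mem_Um M).mpr ⟨⟨hx, x'.2⟩, hxV⟩
      have hx1' : x' ≠ 1 := fun h => hx1 (congrArg Subtype.val h)
      have h1 := h _ (R.nxn_V M hxU) (R.nxn_Par M hxU)
      apply R.nxn_notB M hxU hx1'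
      have := (D.borelSubgroup K).mul_mem ((D.borelSubgroup K).mul_mem ((D.borelSubgroup K).inv_mem hB) h1) hB
      have e : g⁻¹ * (g * (R.nG M J * x' * (R.nG M J)⁻¹) * g⁻¹) * g = R.nG M J * x' * (R.nG M J)⁻¹ := by group
      rw [← e]
      exact this
    · obtain ⟨b, u, hb, hu, he⟩ := R.Par_form M hP hB
      by_cases hu1 : u = 1
      · rw [he, hu1, mul_one, mul_inv_cancel_right]; exact hb
      · exfalso
        obtain ⟨x, c, hx, hx1, hc, he'⟩ := R.form_surj M hu hu1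
        have h1 := h _ (R.nxn_V M hx) (R.nxn_Par M hx)
        have e : g * (R.nG M J * x * (R.nG M J)⁻¹) * g⁻¹ = (b * c⁻¹) * (R.nG M J * x * (R.nG M J)⁻¹) * (b * c⁻¹)⁻¹ := by
          have : g = (b * c⁻¹) * (R.nG M J * x * (R.nG M J)⁻¹) := by rw [he, he']; group
          rw [this]; group
        rw [e] at h1
        apply R.nxn_notB M hx hx1
        have hbc : ((b * c⁻¹ : ↥(A.Gs M)) : GL D.Idx K) ∈ D.borelSubgroup K := (D.borelSubgroup K).mul_mem hb ((D.borelSubgroup K).inv_mem hc)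
        have := (D.borelSubgroup K).mul_mem ((D.borelSubgroup K).mul_mem ((D.borelSubgroup K).inv_mem hbc) h1) hbc
        have e2 : (b * c⁻¹)⁻¹ * ((b * c⁻¹) * (R.nG M J * x * (R.nG M J)⁻¹) * (b * c⁻¹)⁻¹) * (b * c⁻¹) = R.nG M J * x * (R.nG M J)⁻¹ := by group
        rw [← e2]
        exact this

end TN

end CfsgLib.Chev
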