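import Cfsg.Agent.Lib.TO5
set_option autoImplicit false
set_option linter.style.haveILetI false
set_option linter.unusedSectionVars false

/-! Automorphisms of twisted groups, IV: the Weyl elements, rigidity. -/

namespace CfsgLib.Chev
open Cfsg.Lie Matrix CfsgLib.BNP CfsgLib.PWM

namespace TN
variable {D : ChevalleyDatum} {T : TD D} {K : Type*} [Field K] {A : TA T K} {O : TO T} (R : TN A O) (M : CG D K)

/-- the longest element of the group -/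
noncomputable def n0G (L0 : List (Fin O.m)) : ↥(A.Gs M) := ⟨R.nn L0, R.nn_mem_Gs M L0⟩

/-- the longest element is central in the Weyl group -/
def Cen (L0 : List (Fin O.m)) : Prop := ∀ J : Fin O.m,
  ((R.n0G M L0 * R.nG M J * (R.n0G M L0)⁻¹ * (R.nG M J)⁻¹ : ↥(A.Gs M)) : GL D.Idx K) ∈ D.diagonalSubgroup K

theorem cen_of {L0 : List (Fin O.m)} (h : ∀ J : Fin O.m, ∀ s < D.nroots,
    rl D (wv (O.fl (L0 ++ [J]))) s = rl D (wv (O.fl (J :: L0))) s) : R.Cen M L0 := by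
  intro J
  obtain ⟨h1, hh1, e1⟩ := R.nn_eq M (L0 ++ [J])
  obtain ⟨h2, hh2, e2⟩ := R.nn_eq M (J :: L0)
  obtain ⟨h3, hh3, e3⟩ := M.nl_eq_of_rl (K := K) (h J)
  rw [R.nn_append, R.nn_singleton] at e1
  rw [R.nn_cons] at e2
  change R.nn L0 * R.n J * (R.nn L0)⁻¹ * (R.n J)⁻¹ ∈ _
  have e : R.nn L0 * R.n J * (R.nn L0)⁻¹ * (R.n J)⁻¹ = (R.nn L0 * R.n J) * (R.n J * R.nn L0)⁻¹ := by group
  rw [e, e1, e2, e3]
  have : h1 * (h3 * nl D K (wv (O.fl (J :: L0)))) * (h2 * nl D K (wv (O.fl (J :: L0))))⁻¹ = h1 * h3 * h2⁻¹ := by group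
  rw [this]
  exact mul_mem (mul_mem hh1 hh3) (inv_mem hh2)

section
variable {L0 : List (Fin O.m)} (ht : Top O L0) {φ : ↥(A.Gs M) ≃* ↥(A.Gs M)}
  (hU : Pre1 φ (D.posUnipotent K) (D.posUnipotent K)) (hV : Pre1 φ (D.negUnipotent K) (D.negUnipotent K))
include ht hU hV

/-- the image of the longest element -/
theorem phi_n0 : (((R.n0G M L0)⁻¹ * φ (R.n0G M L0) : ↥(A.Gs M)) : GL D.Idx K) ∈ D.diagonalSubgroup K := by
  set n := R.n0G M L0 with hn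
  have hsw : ∀ x : ↥(A.Gs M), ((x : GL D.Idx K) ∈ D.posUnipotent K ↔ ((n * x * n⁻¹ : ↥(A.Gs M)) : GL D.Idx K) ∈ D.negUnipotent K) ∧
      ((x : GL D.Idx K) ∈ D.negUnipotent K ↔ ((n * x * n⁻¹ : ↥(A.Gs M)) : GL D.Idx K) ∈ D.posUnipotent K) :=
    fun x => R.top_iff M ht x
  have hsw' : ∀ x : ↥(A.Gs M), ((x : GL D.Idx K) ∈ D.posUnipotent K ↔ ((φ n * x * (φ n)⁻¹ : ↥(A.Gs M)) : GL D.Idx K) ∈ D.negUnipotent K) ∧
      ((x : GL D.Idx K) ∈ D.negUnipotent K ↔ ((φ n * x * (φ n)⁻¹ : ↥(A.Gs M)) : GL D.Idx K) ∈ D.posUnipotent K) := by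
    intro x
    have e : φ n * x * (φ n)⁻¹ = φ (n * φ.symm x * n⁻¹) := by rw [map_mul, map_mul, map_inv, φ.apply_symm_apply]
    have h := hsw (φ.symm x)
    have h1 := hU (φ.symm x)
    have h2 := hV (φ.symm x)
    rw [φ.apply_symm_apply] at h1 h2
    rw [e, ← hV, ← hU, ← h1, ← h2]
    exact h
  have key : ∀ x : ↥(A.Gs M), ((x : GL D.Idx K) ∈ D.posUnipotent K ↔
      (((n⁻¹ * φ n) * x * (n⁻¹ * φ n)⁻¹ : ↥(A.Gs M)) : GL D.Idx K) ∈ D.posUnipotent K) ∧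
      ((x : GL D.Idx K) ∈ D.negUnipotent K ↔
      (((n⁻¹ * φ n) * x * (n⁻¹ * φ n)⁻¹ : ↥(A.Gs M)) : GL D.Idx K) ∈ D.negUnipotent K) := by
    intro x
    have e : n * ((n⁻¹ * φ n) * x * (n⁻¹ * φ n)⁻¹) * n⁻¹ = φ n * x * (φ n)⁻¹ := by group
    have h1 := hsw ((n⁻¹ * φ n) * x * (n⁻¹ * φ n)⁻¹)
    rw [e] at h1
    exact ⟨(hsw' x).1.trans h1.1.symm, (hsw' x).2.trans h1.2.symm⟩
  refine (R.mem_H_iff M ht (n⁻¹ * φ n)).mpr ⟨?_, ?_⟩
  · exact R.norm_U1 M (n⁻¹ * φ n).2 (fun u hu => (key ⟨u, hu⟩).1)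
  · exact fun u hu => (key ⟨u, hu⟩).2

/-- the images of the simple Weyl elements -/
theorem phi_n [Finite K] (hc : R.Cen M L0) {J : Fin O.m} (hP : ∀ g : ↥(A.Gs M), g ∈ R.Par M J ↔ φ g ∈ R.Par M J) :
    ((φ (R.nG M J) * (R.nG M J)⁻¹ : ↥(A.Gs M)) : GL D.Idx K) ∈ D.diagonalSubgroup K := by
  have hB := R.pre_B M hU
  have hH := R.pre_H M ht hU hV
  -- `φ n ∈ B n`
  have h1 : ((φ (R.nG M J) * (R.nG M J)⁻¹ : ↥(A.Gs M)) : GL D.Idx K) ∈ D.borelSubgroup K := by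
    rw [R.mem_Bn M ((hP _).mp (R.nG_mem_Par M J))]
    intro y hy hyP
    obtain ⟨z, rfl⟩ := φ.surjective y
    rw [← map_inv, ← map_mul, ← map_mul, ← hB]
    refine (R.mem_Bn M (R.nG_mem_Par M J)).mp ?_ z ((hV z).mpr hy) ((hP z).mpr hyP)
    rw [mul_inv_cancel]
    exact one_mem _
  -- the other side
  have h0 := R.phi_n0 M ht hU hV
  set n0 := R.n0G M L0 with hn0
  set n := R.nG M J with hn
  set h := n0⁻¹ * φ n0 with hh
  set k := n0 * n * n0⁻¹ * n⁻¹ with hk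
  have hkH : (k : GL D.Idx K) ∈ D.diagonalSubgroup K := hc J
  have hφk : (φ k : GL D.Idx K) ∈ D.diagonalSubgroup K := (hH k).mp hkH
  set b := φ n * n⁻¹ with hb
  -- `φ n = (φ k)⁻¹ n0 (h b h⁻¹ ) n0⁻¹ ...`
  have e1 : b = (φ k)⁻¹ * (n0 * (h * b * (n * h⁻¹ * n⁻¹)) * n0⁻¹) * k := by
    have a1 : φ n = (φ k)⁻¹ * (φ n0 * φ n * (φ n0)⁻¹) := by
      rw [hk, map_mul, map_mul, map_mul, map_inv, map_inv]; group
    have a2 : φ n0 = n0 * h := by rw [hh]; group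
    have a3 : φ n = b * n := by rw [hb]; group
    calc b = φ n * n⁻¹ := hb
      _ = (φ k)⁻¹ * ((n0 * h) * (b * n) * (n0 * h)⁻¹) * n⁻¹ := by rw [← a2, ← a3, ← a1]
      _ = (φ k)⁻¹ * (n0 * (h * b * (n * h⁻¹ * n⁻¹)) * n0⁻¹) * (n0 * n * n0⁻¹ * n⁻¹) := by group
      _ = _ := by rw [hk]
  have hHc : ((n * h⁻¹ * n⁻¹ : ↥(A.Gs M)) : GL D.Idx K) ∈ D.diagonalSubgroup K :=
    M.H_conj (R.n_mem_N M J) ((D.diagonalSubgroup K).inv_mem h0)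
  have h2 : ((h * b * (n * h⁻¹ * n⁻¹) : ↥(A.Gs M)) : GL D.Idx K) ∈ D.borelSubgroup K :=
    (D.borelSubgroup K).mul_mem ((D.borelSubgroup K).mul_mem (GD.H_le_B h0) h1) (GD.H_le_B hHc)
  set c := h * b * (n * h⁻¹ * n⁻¹) with hc'
  -- so `n0⁻¹ b n0 ∈ B`
  have h3 : ((n0⁻¹ * b * n0 : ↥(A.Gs M)) : GL D.Idx K) ∈ D.borelSubgroup K := by
    have e2 : n0⁻¹ * b * n0 = (n0⁻¹ * (φ k)⁻¹ * n0) * c * (n0⁻¹ * k * n0) := by
      rw [e1]; group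
    rw [e2]
    exact (D.borelSubgroup K).mul_mem ((D.borelSubgroup K).mul_mem
      (GD.H_le_B (M.H_conj' (R.nn_mem_N M L0) ((D.diagonalSubgroup K).inv_mem hφk))) h2)
      (GD.H_le_B (M.H_conj' (R.nn_mem_N M L0) hkH))
  obtain ⟨u, hu, t, htH, huG, htG, he⟩ := mem_B_of_Gs M h1 b.2
  have h4 : (R.nn L0)⁻¹ * u * R.nn L0 ∈ D.borelSubgroup K := by
    have e3 : (R.nn L0)⁻¹ * u * R.nn L0 = ((n0⁻¹ * b * n0 : ↥(A.Gs M)) : GL D.Idx K) * ((R.nn L0)⁻¹ * t⁻¹ * R.nn L0) := by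
      change _ = (R.nn L0)⁻¹ * (b : GL D.Idx K) * R.nn L0 * ((R.nn L0)⁻¹ * t⁻¹ * R.nn L0)
      rw [he]; group
    rw [e3]
    exact mul_mem h3 (GD.H_le_B (M.H_conj' (R.nn_mem_N M L0) (inv_mem htH)))
  have h5 := R.top_conj' M ht hu
  have h6 := BV M h4 h5
  have h7 : u = 1 := by
    have : u = R.nn L0 * ((R.nn L0)⁻¹ * u * R.nn L0) * (R.nn L0)⁻¹ := by group
    rw [this, h6]; group
  rw [h7, one_mul] at he
  rw [he]
  exact htH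

/-- the positive root subgroups are preserved -/
theorem phi_Um [Finite K] (hc : R.Cen M L0) {J : Fin O.m} (hP : ∀ g : ↥(A.Gs M), g ∈ R.Par M J ↔ φ g ∈ R.Par M J) (x : ↥(A.Gs M)) :
    (x : GL D.Idx K) ∈ Um A M (R.n J) ↔ (φ x : GL D.Idx K) ∈ Um A M (R.n J) := by
  have h1 := R.phi_n M ht hU hV hc hP
  set b := φ (R.nG M J) * (R.nG M J)⁻¹ with hb
  have e1 : φ (R.nG M J * x * (R.nG M J)⁻¹) = b * (R.nG M J * φ x * (R.nG M J)⁻¹) * b⁻¹ := by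
    rw [map_mul, map_mul, map_inv, hb]; group
  have h2 : ∀ y, y ∈ D.negUnipotent K ↔ (b : GL D.Idx K) * y * (b : GL D.Idx K)⁻¹ ∈ D.negUnipotent K := fun y =>
    Subgroup.mem_normalizer_iff.mp (M.H_norm_V h1) y
  rw [mem_Um, mem_Um]
  have h3 : R.n J * (x : GL D.Idx K) * (R.n J)⁻¹ ∈ D.negUnipotent K ↔ R.n J * (φ x : GL D.Idx K) * (R.n J)⁻¹ ∈ D.negUnipotent K := by
    have h4 := hV (R.nG M J * x * (R.nG M J)⁻¹)
    rw [e1] at h4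
    exact h4.trans (h2 _).symm
  rw [h3]
  have h5 := hU x
  constructor
  · rintro ⟨⟨h6, h7⟩, h8⟩
    exact ⟨⟨h5.mp h6, (φ x).2⟩, h8⟩
  · rintro ⟨⟨h6, h7⟩, h8⟩
    exact ⟨⟨h5.mpr h6, x.2⟩, h8⟩

/-- an automorphism fixing `U` pointwise fixes `n_J` -/
theorem phi_n_eq [Finite K] (hc : R.Cen M L0) {J : Fin O.m} (hP : ∀ g : ↥(A.Gs M), g ∈ R.Par M J ↔ φ g ∈ R.Par M J)
    (hid : ∀ x : ↥(A.Gs M), (x : GL D.Idx K) ∈ Um A M (R.n J) → φ x = x)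
    (hH : ∀ x : ↥(A.Gs M), (x : GL D.Idx K) ∈ D.diagonalSubgroup K → φ x = x)
    (hidU : ∀ x : ↥(A.Gs M), (x : GL D.Idx K) ∈ D.posUnipotent K → φ x = x) :
    φ (R.nG M J) = R.nG M J := by
  have h1 := R.phi_n M ht hU hV hc hP
  set h := φ (R.nG M J) * (R.nG M J)⁻¹ with hh
  have e0 : φ (R.nG M J) = h * R.nG M J := by rw [hh]; group
  obtain ⟨x, hx, hx1, hxf, hxV⟩ := R.x J
  set x' : ↥(A.Gs M) := ⟨x, (A.mem_Gs M).mpr ⟨M.U_le_G hx, hxf⟩⟩ with hx'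
  have hxU : (x' : GL D.Idx K) ∈ Um A M (R.n J) := (mem_Um M).mpr ⟨⟨hx, x'.2⟩, hxV⟩
  have hx1' : x' ≠ 1 := fun h => hx1 (congrArg Subtype.val h)
  obtain ⟨b, u, hb, hu, he⟩ := R.Par_form M (R.nxn_Par M hxU) (R.nxn_notB M hxU hx1')
  obtain ⟨w, hw, t, ht', hwG, htG, hbe⟩ := mem_B_of_Gs M hb b.2
  have hb' : b = ⟨w, hwG⟩ * ⟨t, htG⟩ := Subtype.ext hbe
  have hφb : φ b = b := by
    rw [hb', map_mul, hH ⟨t, htG⟩ ht', hidU ⟨w, hwG⟩ hw]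
  set v := R.nG M J * x' * (R.nG M J)⁻¹ with hv
  have h2 : φ v = b * (h * R.nG M J) * u := by
    rw [he, map_mul, map_mul, hφb, hid u hu, e0]
  have h3 : v⁻¹ * φ v = u⁻¹ * ((R.nG M J)⁻¹ * h * R.nG M J) * u := by
    rw [h2, he]; group
  have h4 : ((v⁻¹ * φ v : ↥(A.Gs M)) : GL D.Idx K) ∈ D.borelSubgroup K := by
    rw [h3]
    have huB : (u : GL D.Idx K) ∈ D.borelSubgroup K := GD.U_le_B ((mem_Um M).mp hu).1.1
    exact (D.borelSubgroup K).mul_mem ((D.borelSubgroup K).mul_mem ((D.borelSubgroup K).inv_mem huB)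
      (GD.H_le_B (M.H_conj' (R.n_mem_N M J) h1))) huB
  have hvV := R.nxn_V M hxU
  have h5 : v⁻¹ * φ v = 1 := Subtype.ext (BV M h4 ((D.negUnipotent K).mul_mem ((D.negUnipotent K).inv_mem hvV) ((hV v).mp hvV)))
  rw [h3] at h5
  have h6 : h = 1 := by
    have : h = R.nG M J * u * (u⁻¹ * ((R.nG M J)⁻¹ * h * R.nG M J) * u) * u⁻¹ * (R.nG M J)⁻¹ := by group
    rw [this, h5]; group
  rw [e0, h6, one_mul]

/-- rigidity -/
theorem rigid1 [Finite K] (hch : Chain O L0) (hc : R.Cen M L0)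
    (hC : ∀ x : ↥(A.Gs M), (x : GL D.Idx K) ∈ D.diagonalSubgroup K →
      (∀ u : ↥(A.Gs M), (u : GL D.Idx K) ∈ D.posUnipotent K → x * u * x⁻¹ = u) → x = 1)
    (hid : ∀ J, ∀ x : ↥(A.Gs M), (x : GL D.Idx K) ∈ Um A M (R.n J) → φ x = x)
    (hidU : ∀ x : ↥(A.Gs M), (x : GL D.Idx K) ∈ D.posUnipotent K → φ x = x)
    (hP : ∀ (J : Fin O.m) (g : ↥(A.Gs M)), g ∈ R.Par M J ↔ φ g ∈ R.Par M J) (g : ↥(A.Gs M)) : φ g = g := by
  have hH : ∀ x : ↥(A.Gs M), (x : GL D.Idx K) ∈ D.diagonalSubgroup K → φ x = x := by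
    intro x hx
    have hx' := (R.pre_H M ht hU hV x).mp hx
    have h1 : x⁻¹ * φ x = 1 := by
      apply hC
      · exact (D.diagonalSubgroup K).mul_mem ((D.diagonalSubgroup K).inv_mem hx) hx'
      · intro u hu
        have h2 : ((x * u * x⁻¹ : ↥(A.Gs M)) : GL D.Idx K) ∈ D.posUnipotent K := M.H_conj_U hx hu
        have h3 := hidU _ h2
        rw [map_mul, map_mul, map_inv, hidU u hu] at h3
        have e : x⁻¹ * φ x * u * (x⁻¹ * φ x)⁻¹ = x⁻¹ * (φ x * u * (φ x)⁻¹) * x := by group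
        rw [e, h3]; group
    exact (inv_mul_eq_one.mp h1).symm
  have hn : ∀ J, φ (R.nG M J) = R.nG M J := fun J => R.phi_n_eq M ht hU hV hc (hP J) (hid J) hH hidU
  have h1 : A.Gs M ≤ (φ.toMonoidHom.eqLocus (MonoidHom.id _)).map (A.Gs M).subtype := by
    refine R.Gs_le_of M ?_ ?_ ?_ hch ht
    · intro J x hx
      exact ⟨⟨x, ((mem_Um M).mp hx).1.2⟩, hid J ⟨x, ((mem_Um M).mp hx).1.2⟩ hx, rfl⟩
    · intro J
      exact ⟨R.nG M J, hn J, rfl⟩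
    · rintro x ⟨hx, hxG⟩
      exact ⟨⟨x, hxG⟩, hH ⟨x, hxG⟩ hx, rfl⟩
  obtain ⟨g', hg', he⟩ := h1 g.2
  have : g' = g := Subtype.ext he
  subst this
  exact hg'

end

/-- the order of the minimal parabolics -/
theorem card_Par [Finite K] (J : Fin O.m) : Nat.card (R.Par M J) = Nat.card (R.bnp1 M).B * (1 + Nat.card (Um A M (R.n J))) := by
  classical
  have h1 : ((R.Par M J : Subgroup ↥(A.Gs M)) : Set ↥(A.Gs M)) = ((R.bnp1 M).B : Set ↥(A.Gs M)) ∪ C (R.bnp1 M) (R.sW1 M J) := by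
    ext g
    rw [SetLike.mem_coe]
    unfold Par
    rw [CfsgLib.BNP.mem_parabolic_singleton (P := R.bnp1 M) (R.nG_mem_S M J)]
    rfl
  have hd : Disjoint ((R.bnp1 M).B : Set ↥(A.Gs M)) (C (R.bnp1 M) (R.sW1 M J)) := by
    rw [← C_one]
    rw [Set.disjoint_left]
    intro g h1 h2
    exact (R.invW1 M).ne J (C_injective (C_eq_of_mem h1 h2)).symm
  have h2 : Nat.card (R.Par M J) = ((R.Par M J : Subgroup ↥(A.Gs M)) : Set ↥(A.Gs M)).ncard := rfl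
  rw [h2, h1, Set.ncard_union_eq hd (Set.toFinite _) (Set.toFinite _)]
  have h3 : (C (R.bnp1 M) (R.sW1 M J)).ncard = Nat.card (R.bnp1 M).B * Nat.card (Um A M (R.n J)) := R.card_C1_gen M J
  rw [h3]
  change Nat.card (R.bnp1 M).B + _ = _
  ring

/-- parabolics are preserved if the orders of the root subgroups are distinct -/
theorem Par_fixed [Finite K] {φ : ↥(A.Gs M) ≃* ↥(A.Gs M)} (hU : Pre1 φ (D.posUnipotent K) (D.posUnipotent K)) {J J' : Fin O.m}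
    (h : ∀ g : ↥(A.Gs M), g ∈ R.Par M J ↔ φ g ∈ R.Par M J') :
    Nat.card (Um A M (R.n J)) = Nat.card (Um A M (R.n J')) := by
  have h1 : Nat.card (R.Par M J) = Nat.card (R.Par M J') := by
    refine Nat.card_congr ⟨fun g => ⟨φ g, (h g).mp g.2⟩, fun g => ⟨φ.symm g, by rw [h, φ.apply_symm_apply]; exact g.2⟩, ?_, ?_⟩
    · intro g; exact Subtype.ext (φ.symm_apply_apply _)
    · intro g; exact Subtype.ext (φ.apply_symm_apply _)
  rw [R.card_Par M, R.card_Par M] at h1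
  haveI : Finite (R.bnp1 M).B := inferInstance
  have h2 : 0 < Nat.card (R.bnp1 M).B := Nat.card_pos
  have h3 := Nat.eq_of_mul_eq_mul_left h2 h1
  omega

end TN

end CfsgLib.Chev
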