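import Cfsg.Agent.Lib.TO6
set_option autoImplicit false
set_option linter.style.haveILetI false
set_option linter.unusedSectionVars false

/-! Automorphisms of twisted groups, V: the Weyl elements, rigidity (second form). -/

namespace CfsgLib.Chev
open Cfsg.Lie Matrix CfsgLib.BNP CfsgLib.PWM

namespace TN
variable {D : ChevalleyDatum} {T : TD D} {K : Type*} [Field K] {A : TA T K} {O : TO T} (R : TN A O) (M : CG D K)

section
variable {L0 : List (Fin O.m)} (ht : Top O L0) {φ : ↥(A.Gs M) ≃* ↥(A.Gs M)}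
  (hU : Pre1 φ (D.posUnipotent K) (D.posUnipotent K)) (hV : Pre1 φ (D.negUnipotent K) (D.negUnipotent K))
include ht hU hV

/-- Weyl elements in the group generated by opposite root subgroups -/
theorem phi_xvx [Finite K] (hc : R.Cen M L0) {J : Fin O.m} (hP : ∀ g : ↥(A.Gs M), g ∈ R.Par M J ↔ φ g ∈ R.Par M J)
    {x x' v : ↥(A.Gs M)} (hx : (x : GL D.Idx K) ∈ D.borelSubgroup K) (hφx : φ x = x) (hφx' : φ x' = x')
    (hv : (v : GL D.Idx K) ∈ D.negUnipotent K)
    (hn : ((x * v * x' * (R.nG M J)⁻¹ : ↥(A.Gs M)) : GL D.Idx K) ∈ D.diagonalSubgroup K) : φ (x * v * x') = x * v * x' := by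
  have h1 := R.phi_n M ht hU hV hc hP
  have hH := R.pre_H M ht hU hV
  set h := x * v * x' * (R.nG M J)⁻¹ with hh
  set b := φ (R.nG M J) * (R.nG M J)⁻¹ with hb
  have e1 : x * v * x' = h * R.nG M J := by rw [hh]; group
  set k := φ h * b * h⁻¹ with hk
  have hkH : (k : GL D.Idx K) ∈ D.diagonalSubgroup K :=
    (D.diagonalSubgroup K).mul_mem ((D.diagonalSubgroup K).mul_mem ((hH h).mp hn) h1) ((D.diagonalSubgroup K).inv_mem hn)
  have e2 : φ (x * v * x') = k * (x * v * x') := by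
    rw [e1, map_mul, hk, hb]; group
  have e3 : φ v * v⁻¹ = x⁻¹ * k * x := by
    have : φ (x * v * x') = x * φ v * x' := by rw [map_mul, map_mul, hφx, hφx']
    rw [this] at e2
    calc φ v * v⁻¹ = x⁻¹ * (x * φ v * x') * x'⁻¹ * v⁻¹ := by group
      _ = x⁻¹ * (k * (x * v * x')) * x'⁻¹ * v⁻¹ := by rw [e2]
      _ = _ := by group
  have h3 : φ v * v⁻¹ = 1 := by
    apply Subtype.ext
    apply BV M
    · rw [e3]
      exact (D.borelSubgroup K).mul_mem ((D.borelSubgroup K).mul_mem ((D.borelSubgroup K).inv_mem hx) (GD.H_le_B hkH)) hx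
    · exact (D.negUnipotent K).mul_mem ((hV v).mp hv) ((D.negUnipotent K).inv_mem hv)
  rw [map_mul, map_mul, hφx, hφx', mul_inv_eq_one.mp h3]

/-- rigidity, second form -/
theorem rigid2 [Finite K] (hch : Chain O L0)
    (hC : ∀ x : ↥(A.Gs M), (x : GL D.Idx K) ∈ D.diagonalSubgroup K →
      (∀ J, ∀ u : ↥(A.Gs M), (u : GL D.Idx K) ∈ Um A M (R.n J) → x * u * x⁻¹ = u) → x = 1)
    (hid : ∀ J, ∀ x : ↥(A.Gs M), (x : GL D.Idx K) ∈ Um A M (R.n J) → φ x = x)
    (hn : ∀ J, φ (R.nG M J) = R.nG M J) (g : ↥(A.Gs M)) : φ g = g := by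
  have hH : ∀ x : ↥(A.Gs M), (x : GL D.Idx K) ∈ D.diagonalSubgroup K → φ x = x := by
    intro x hx
    have hx' := (R.pre_H M ht hU hV x).mp hx
    have h1 : x⁻¹ * φ x = 1 := by
      apply hC
      · exact (D.diagonalSubgroup K).mul_mem ((D.diagonalSubgroup K).inv_mem hx) hx'
      · intro J u hu
        have h2 : ((x * u * x⁻¹ : ↥(A.Gs M)) : GL D.Idx K) ∈ Um A M (R.n J) :=
          H_conj_Um M (R.n_mem_N M J) hx x.2 hu
        have h3 := hid J _ h2
        rw [map_mul, map_mul, map_inv, hid J u hu] at h3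
        have e : x⁻¹ * φ x * u * (x⁻¹ * φ x)⁻¹ = x⁻¹ * (φ x * u * (φ x)⁻¹) * x := by group
        rw [e, h3]; group
    exact (inv_mul_eq_one.mp h1).symm
  have h1 : A.Gs M ≤ (φ.toMonoidHom.eqLocus (MonoidHom.id _)).map (A.Gs M).subtype := by
    refine R.Gs_le_of M ?_ ?_ ?_ hch ht
    · intro J x hx
      exact ⟨⟨x, ((mem_Um M).mp hx).1.2⟩, hid J ⟨x, ((mem_Um M).mp hx).1.2⟩ hx, rfl⟩
    · intro J
      exact ⟨R.nG M J, hn J, rfl⟩
    · rintro x ⟨hx, hxG⟩
      exact ⟨⟨x, hxG⟩, hH ⟨x, hxG⟩ hx, rfl⟩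
  obtain ⟨g', hg', he⟩ := h1 g.2
  have : g' = g := Subtype.ext he
  subst this
  exact hg'

end

end TN

/-- a map between finite types -/
theorem surj_of_inj_of_bij {α β : Type*} [Finite β] {f g : α → β} (hf : Function.Bijective f) (hg : Function.Injective g) :
    Function.Surjective g := by
  let e := Equiv.ofBijective f hf
  have h1 : Function.Injective (g ∘ e.symm) := hg.comp e.symm.injective
  have h2 := Finite.surjective_of_injective h1
  intro b
  obtain ⟨c, hc⟩ := h2 b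
  exact ⟨e.symm c, hc⟩

end CfsgLib.Chev
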