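import Cfsg.Agent.Lib.TO7
import Cfsg.Agent.Lib.TWD3
import Cfsg.Agent.Lib.AutPSL8
set_option autoImplicit false
set_option linter.style.haveILetI false
set_option linter.unusedSectionVars false
set_option maxRecDepth 1000000

/-! The automorphisms of `³D₄(q)`. -/

namespace CfsgLib.Chev.TwD4
open Cfsg.Lie Matrix CfsgLib.BNP CfsgLib.PWM CfsgLib.Chev.GA CfsgLib.Chev

variable {K : Type*} [Field K] [Fintype K] (φ : K →+* K) {q : ℕ} (hφ : ∀ x, φ x = x ^ q) (h3 : ∀ x, φ (φ (φ x)) = x)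

/-- the fixed group -/
noncomputable abbrev G1 : Subgroup (GL chevD4.Idx K) := (ta φ).Gs (cgD4 K)

/-- the short root elements -/
noncomputable def TT3 (t : K) : GL chevD4.Idx K := xg chevD4 12 (φ (φ t)) * (xg chevD4 13 (φ t) * xg chevD4 18 t)

theorem TT3_add (t u : K) : TT3 φ t * TT3 φ u = TT3 φ (t + u) := by
  obtain ⟨c1, c2, c3, _⟩ := cm1
  have M := cgD4 K
  unfold TT3
  rw [map_add, map_add, ← M.xg_add 12, ← M.xg_add 13, ← M.xg_add 18]
  have a1 := M.xg_cm' c1 (φ (φ u)) (φ t)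
  have a2 := M.xg_cm' c2 (φ (φ u)) t
  have a3 := M.xg_cm' c3 (φ u) t
  generalize xg chevD4 12 (φ (φ t)) = x at *
  generalize xg chevD4 12 (φ (φ u)) = x' at *
  generalize xg chevD4 13 (φ t) = y at *
  generalize xg chevD4 13 (φ u) = y' at *
  generalize xg chevD4 18 t = z at *
  generalize xg chevD4 18 u = z' at *
  calc x * (y * z) * (x' * (y' * z')) = x * y * (z * x') * y' * z' := by group
    _ = x * (y * x') * (z * y') * z' := by rw [a2]; group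
    _ = _ := by rw [a1, a3]; group

theorem TT3_inj {t u : K} (h : TT3 φ t = TT3 φ u) : t = u := by
  have h3' : wg chevD4 ((Sl 1).map fun x => (x, (fun x => if x = 12 then φ (φ t) else if x = 13 then φ t else t) x)) =
      wg chevD4 ((Sl 1).map fun x => (x, (fun x => if x = 12 then φ (φ u) else if x = 13 then φ u else u) x)) := by
    change xg chevD4 12 (φ (φ t)) * (xg chevD4 13 (φ t) * (xg chevD4 18 t * 1)) =
      xg chevD4 12 (φ (φ u)) * (xg chevD4 13 (φ u) * (xg chevD4 18 u * 1))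
    rw [mul_one, mul_one]
    exact h
  exact (cgD4 K).form_unique' _ (of_decide_eq_true (srt 1)) _ _ h3' 18 (by decide)

theorem TT3_zero : TT3 φ (0 : K) = 1 := by
  have h := TT3_add φ (0 : K) 0
  rw [add_zero] at h
  exact mul_eq_left.mp h

include h3 in
theorem TT3_mem (t : K) : TT3 φ t ∈ TN.Um (ta φ) (cgD4 K) ((R φ).n (1 : Fin 2)) := (mem_Um1 φ h3).mpr ⟨t, rfl⟩

/-- short root elements in the group -/
noncomputable def bG (t : K) : ↥(G1 φ) := ⟨TT3 φ t, (((TN.mem_Um (cgD4 K)).mp (TT3_mem φ h3 t)).1.2 : _ ∈ (ta φ).Gs (cgD4 K))⟩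

/-- long root elements in the group -/
noncomputable def aG (t : K) (ht : φ t = t) : ↥(G1 φ) :=
  ⟨xg chevD4 14 t, (((TN.mem_Um (cgD4 K)).mp ((mem_Um0 φ).mpr ⟨t, ht, rfl⟩)).1.2 : _ ∈ (ta φ).Gs (cgD4 K))⟩

theorem aG_inj {t u : K} {ht : φ t = t} {hu : φ u = u} (h : aG φ t ht = aG φ u hu) : t = u := by
  have hr : 14 < chevD4.nroots := by decide +kernel
  exact (cgD4 K).xg_inj hr (congrArg Subtype.val h)

theorem bG_inj {t u : K} (h : bG φ h3 t = bG φ h3 u) : t = u := TT3_inj φ (congrArg Subtype.val h)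

theorem bG_add (t u : K) : bG φ h3 t * bG φ h3 u = bG φ h3 (t + u) := Subtype.ext (TT3_add φ t u)

theorem bG_Um (t : K) : (bG φ h3 t : GL chevD4.Idx K) ∈ TN.Um (ta φ) (cgD4 K) ((R φ).n (1 : Fin 2)) := TT3_mem φ h3 t

theorem aG_Um (t : K) (ht : φ t = t) : (aG φ t ht : GL chevD4.Idx K) ∈ TN.Um (ta φ) (cgD4 K) ((R φ).n (0 : Fin 2)) :=
  (mem_Um0 φ).mpr ⟨t, ht, rfl⟩

theorem exists_aG {x : ↥(G1 φ)} (hx : (x : GL chevD4.Idx K) ∈ TN.Um (ta φ) (cgD4 K) ((R φ).n (0 : Fin 2))) :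
    ∃ t ht, x = aG φ t ht := by
  obtain ⟨t, ht, h⟩ := (mem_Um0 φ).mp hx
  exact ⟨t, ht, Subtype.ext h⟩

theorem exists_bG {x : ↥(G1 φ)} (hx : (x : GL chevD4.Idx K) ∈ TN.Um (ta φ) (cgD4 K) ((R φ).n (1 : Fin 2))) :
    ∃ t, x = bG φ h3 t := by
  obtain ⟨t, h⟩ := (mem_Um1 φ h3).mp hx
  exact ⟨t, Subtype.ext h⟩

/-- torus elements -/
noncomputable def hG (c : TT φ) : ↥(G1 φ) := ⟨hF chevD4 K c.1, by
  refine ((ta φ).mem_Gs (cgD4 K)).mpr ⟨(cgD4 K).hF_mem_G c.1, ?_⟩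
  rw [(ta φ).s_hF (cgD4 K), show (ta φ).st c.1 = c.1 from c.2]⟩

include h3 in
theorem exists_hG {x : ↥(G1 φ)} (hx : (x : GL chevD4.Idx K) ∈ chevD4.diagonalSubgroup K) : ∃ c : TT φ, x = hG φ c := by
  obtain ⟨c, hc, h⟩ := torus φ h3 (Subgroup.mem_inf.mpr ⟨hx, x.2⟩)
  exact ⟨⟨c, hc⟩, Subtype.ext h.symm⟩

theorem hG_H (c : TT φ) : (hG φ c : GL chevD4.Idx K) ∈ chevD4.diagonalSubgroup K := by
  change hF chevD4 K c.1 ∈ _
  rw [← (cgD4 K).hF_range]; exact ⟨c.1, rfl⟩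

/-- the characters -/
noncomputable def χa (c : Fin chevD4.rank → Kˣ) : Kˣ := c (I 1) ^ 2 * (c (I 0) * c (I 2) * c (I 3))⁻¹
noncomputable def χb (c : Fin chevD4.rank → Kˣ) : Kˣ := c (I 0) ^ 2 * (c (I 1))⁻¹

theorem cartb : chevD4.cartan 0 14 = -1 ∧ chevD4.cartan 1 14 = 2 ∧ chevD4.cartan 2 14 = -1 ∧ chevD4.cartan 3 14 = -1 ∧
    chevD4.cartan 0 18 = 2 ∧ chevD4.cartan 1 18 = -1 ∧ chevD4.cartan 2 18 = 0 ∧ chevD4.cartan 3 18 = 0 ∧
    chevD4.cartan 0 13 = 0 ∧ chevD4.cartan 1 13 = -1 ∧ chevD4.cartan 2 13 = 2 ∧ chevD4.cartan 3 13 = 0 ∧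
    chevD4.cartan 0 12 = 0 ∧ chevD4.cartan 1 12 = -1 ∧ chevD4.cartan 2 12 = 0 ∧ chevD4.cartan 3 12 = 2 ∧
    12 < chevD4.nroots ∧ 13 < chevD4.nroots ∧ 14 < chevD4.nroots ∧ 18 < chevD4.nroots := by decide +kernel

theorem prod4 (c : Fin chevD4.rank → Kˣ) (r : ℕ) : ∏ k : Fin chevD4.rank, c k ^ chevD4.cartan k r =
    c (I 0) ^ chevD4.cartan 0 r * c (I 1) ^ chevD4.cartan 1 r * c (I 2) ^ chevD4.cartan 2 r * c (I 3) ^ chevD4.cartan 3 r := by
  have h1 : ∏ k : Fin chevD4.rank, c k ^ chevD4.cartan k r = ∏ k : Fin 4, c (I k) ^ chevD4.cartan (I k) r := rfl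
  rw [h1, Fin.prod_univ_four]
  rfl

theorem pr14 (c : Fin chevD4.rank → Kˣ) : ∏ k : Fin chevD4.rank, c k ^ chevD4.cartan k 14 = χa c := by
  rw [prod4, cartb.1, cartb.2.1, cartb.2.2.1, cartb.2.2.2.1]
  unfold χa
  rw [_root_.zpow_neg_one, _root_.zpow_neg_one, _root_.zpow_neg_one, show (2 : ℤ) = ((2 : ℕ) : ℤ) from rfl, zpow_natCast,
    _root_.mul_inv, _root_.mul_inv]
  simp only [mul_assoc, mul_comm, mul_left_comm]

theorem pr18 (c : Fin chevD4.rank → Kˣ) : ∏ k : Fin chevD4.rank, c k ^ chevD4.cartan k 18 = χb c := by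
  obtain ⟨_, _, _, _, e0, e1, e2, e3, _⟩ := cartb
  rw [prod4, e0, e1, e2, e3]
  unfold χb
  rw [_root_.zpow_neg_one, show (2 : ℤ) = ((2 : ℕ) : ℤ) from rfl, zpow_natCast, _root_.zpow_zero, _root_.zpow_zero, mul_one, mul_one]

include h3 in
theorem pr13 {c : Fin chevD4.rank → Kˣ} (hc : (ta φ).st c = c) :
    ((∏ k : Fin chevD4.rank, c k ^ chevD4.cartan k 13 : Kˣ) : K) = φ (χb c) := by
  obtain ⟨b1, b2, b3⟩ := (st_eq_iff φ h3 c).mp hc
  obtain ⟨_, _, _, _, _, _, _, _, e0, e1, e2, e3, _⟩ := cartb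
  rw [prod4, e0, e1, e2, e3]
  unfold χb
  rw [_root_.zpow_neg_one, show (2 : ℤ) = ((2 : ℕ) : ℤ) from rfl, zpow_natCast, _root_.zpow_zero, _root_.zpow_zero, mul_one, one_mul]
  rw [Units.val_mul, Units.val_mul, Units.val_pow_eq_pow_val, Units.val_pow_eq_pow_val, b2, Units.val_inv_eq_inv_val, map_mul, map_pow,
    map_inv₀, b1, mul_comm]

include h3 in
theorem pr12 {c : Fin chevD4.rank → Kˣ} (hc : (ta φ).st c = c) :
    ((∏ k : Fin chevD4.rank, c k ^ chevD4.cartan k 12 : Kˣ) : K) = φ (φ (χb c)) := by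
  obtain ⟨b1, b2, b3⟩ := (st_eq_iff φ h3 c).mp hc
  obtain ⟨_, _, _, _, _, _, _, _, _, _, _, _, e0, e1, e2, e3, _⟩ := cartb
  rw [prod4, e0, e1, e2, e3]
  unfold χb
  rw [_root_.zpow_neg_one, show (2 : ℤ) = ((2 : ℕ) : ℤ) from rfl, zpow_natCast, _root_.zpow_zero, _root_.zpow_zero, mul_one, one_mul]
  rw [Units.val_mul, Units.val_mul, Units.val_pow_eq_pow_val, Units.val_pow_eq_pow_val, b3, Units.val_inv_eq_inv_val, map_mul, map_mul,
    map_pow, map_pow, map_inv₀, map_inv₀, b1, b1, mul_comm]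

include h3 in
theorem χa_fix {c : Fin chevD4.rank → Kˣ} (hc : (ta φ).st c = c) : φ (χa c) = χa c := by
  obtain ⟨b1, b2, b3⟩ := (st_eq_iff φ h3 c).mp hc
  unfold χa
  rw [Units.val_mul, Units.val_pow_eq_pow_val, Units.val_inv_eq_inv_val, Units.val_mul, Units.val_mul, b2, b3, map_mul, map_pow, b1,
    map_inv₀, map_mul, map_mul, h3]
  congr 2
  ring

/-- the action on the long root elements -/
theorem hG_aG (c : TT φ) (t : K) (ht : φ t = t) : hG φ c * aG φ t ht * (hG φ c)⁻¹ =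
    aG φ ((χa c.1 : K) * t) (by rw [map_mul, χa_fix φ h3 c.2, ht]) := by
  apply Subtype.ext
  change hF chevD4 K c.1 * xg chevD4 14 t * (hF chevD4 K c.1)⁻¹ = xg chevD4 14 ((χa c.1 : K) * t)
  have h14 : 14 < chevD4.nroots := by decide +kernel
  rw [(cgD4 K).hF_xg c.1 h14, pr14]

/-- the action on the short root elements -/
theorem hG_bG (c : TT φ) (t : K) : hG φ c * bG φ h3 t * (hG φ c)⁻¹ = bG φ h3 ((χb c.1 : K) * t) := by
  apply Subtype.ext
  change hF chevD4 K c.1 * TT3 φ t * (hF chevD4 K c.1)⁻¹ = TT3 φ ((χb c.1 : K) * t)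
  have h12 : 12 < chevD4.nroots := by decide +kernel
  have h13 : 13 < chevD4.nroots := by decide +kernel
  have h18 : 18 < chevD4.nroots := by decide +kernel
  have e1 := (cgD4 K).hF_xg c.1 h12 (φ (φ t))
  have e2 := (cgD4 K).hF_xg c.1 h13 (φ t)
  have e3 := (cgD4 K).hF_xg c.1 h18 t
  rw [pr12 φ h3 c.2] at e1
  rw [pr13 φ h3 c.2] at e2
  rw [pr18] at e3
  unfold TT3
  have e4 : hF chevD4 K c.1 * (xg chevD4 12 (φ (φ t)) * (xg chevD4 13 (φ t) * xg chevD4 18 t)) * (hF chevD4 K c.1)⁻¹ =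
      (hF chevD4 K c.1 * xg chevD4 12 (φ (φ t)) * (hF chevD4 K c.1)⁻¹) * ((hF chevD4 K c.1 * xg chevD4 13 (φ t) * (hF chevD4 K c.1)⁻¹) *
      (hF chevD4 K c.1 * xg chevD4 18 t * (hF chevD4 K c.1)⁻¹)) := by group
  rw [e4, e1, e2, e3, map_mul, map_mul]

include h3 in
/-- the torus acts faithfully -/
theorem χ_inj {c : Fin chevD4.rank → Kˣ} (hc : (ta φ).st c = c) (h1 : χa c = 1) (h2 : χb c = 1) : c = 1 := by
  apply ker_triv φ h3 hc
  rw [(cgD4 K).hF_eq_one_iff]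
  have hpw : ∀ j : Fin 4, pw (cmat chevD4) c (I j) = ∏ i : Fin 4, c (I i) ^ cmat chevD4 (I i) (I j) := fun j => rfl
  obtain ⟨b1, b2, b3⟩ := (st_eq_iff φ h3 c).mp hc
  have k1 : c (I 1) = c (I 0) ^ 2 := by
    unfold χb at h2
    exact (mul_inv_eq_one.mp h2).symm
  have k2 : c (I 1) ^ 2 = c (I 0) * c (I 2) * c (I 3) := by
    unfold χa at h1
    exact mul_inv_eq_one.mp h1
  have k1' : (c (I 1) : K) = c (I 0) ^ 2 := by
    have := congrArg Units.val k1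
    rwa [Units.val_pow_eq_pow_val] at this
  have k3 : c (I 1) = c (I 2) ^ 2 := by
    apply Units.ext
    rw [Units.val_pow_eq_pow_val, b2, ← map_pow, ← k1', b1]
  have k4 : c (I 1) = c (I 3) ^ 2 := by
    apply Units.ext
    rw [Units.val_pow_eq_pow_val, b3, ← map_pow, ← map_pow, ← k1', b1, b1]
  have e : ∀ j : Fin 4, pw (cmat chevD4) c (I j) = 1 := by
    intro j
    rw [hpw, Fin.prod_univ_four]
    simp only [cm4]
    fin_cases j
    · simp
      rw [k1]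
      exact mul_inv_cancel _
    · simp
      rw [k2]
      have : (c (I 0))⁻¹ * (c (I 0) * c (I 2) * c (I 3)) * (c (I 2))⁻¹ * (c (I 3))⁻¹ = 1 := by
        rw [← mul_assoc, ← mul_assoc, inv_mul_cancel, one_mul, mul_assoc (c (I 2)), mul_comm (c (I 3)), ← mul_assoc, mul_inv_cancel, one_mul,
          mul_inv_cancel]
      exact this
    · simp
      rw [k3]
      exact inv_mul_cancel _
    · simp
      rw [k4]
      exact inv_mul_cancel _
  funext j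
  exact e j

end CfsgLib.Chev.TwD4
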