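import Cfsg.Agent.Lib.TO8
set_option autoImplicit false
set_option linter.style.haveILetI false
set_option linter.unusedSectionVars false
set_option maxRecDepth 1000000

/-! The automorphisms of `³D₄(q)`, II. -/

namespace CfsgLib.Chev.TwD4
open Cfsg.Lie Matrix CfsgLib.BNP CfsgLib.PWM CfsgLib.Chev.GA CfsgLib.Chev

variable {K : Type*} [Field K] [Fintype K] (φ : K →+* K) {q : ℕ} (hφ : ∀ x, φ x = x ^ q) (h3 : ∀ x, φ (φ (φ x)) = x)

theorem χa_mul (c d : Fin chevD4.rank → Kˣ) : χa (c * d) = χa c * χa d := by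
  rw [← pr14, ← pr14, ← pr14, ← Finset.prod_mul_distrib]
  exact Finset.prod_congr rfl fun i _ => mul_zpow _ _ _

theorem χb_mul (c d : Fin chevD4.rank → Kˣ) : χb (c * d) = χb c * χb d := by
  rw [← pr18, ← pr18, ← pr18, ← Finset.prod_mul_distrib]
  exact Finset.prod_congr rfl fun i _ => mul_zpow _ _ _

theorem χa_one : χa (1 : Fin chevD4.rank → Kˣ) = 1 := by
  have := χa_mul (K := K) 1 1
  rw [mul_one] at this
  exact mul_eq_left.mp this.symm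

theorem χb_one : χb (1 : Fin chevD4.rank → Kˣ) = 1 := by
  have := χb_mul (K := K) 1 1
  rw [mul_one] at this
  exact mul_eq_left.mp this.symm

include h3 in
/-- the characters are independent -/
theorem χ_surj (α : Kˣ) (hα : φ α = α) (β : Kˣ) : ∃ c : TT φ, χa c.1 = α ∧ χb c.1 = β := by
  let f : TT φ → {u : Kˣ // φ u = u} × Kˣ := fun c =>
    (⟨c.1 (I 1), ((st_eq_iff φ h3 c.1).mp c.2).1⟩, c.1 (I 0))
  have hf : Function.Bijective f := by
    constructor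
    · rintro ⟨c, hc⟩ ⟨d, hd⟩ h
      have hc' := (st_eq_iff φ h3 c).mp hc
      have hd' := (st_eq_iff φ h3 d).mp hd
      simp only [f, Prod.mk.injEq, Subtype.mk.injEq] at h
      obtain ⟨e1, e0⟩ := h
      apply Subtype.ext
      funext i
      change Fin 4 at i
      fin_cases i
      · exact e0
      · exact e1
      · apply Units.ext
        change (c (I 2) : K) = d (I 2)
        rw [hc'.2.1, hd'.2.1, e0]
      · apply Units.ext
        change (c (I 3) : K) = d (I 3)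
        rw [hc'.2.2, hd'.2.2, e0]
    · rintro ⟨⟨u1, h1⟩, u0⟩
      let c : Fin chevD4.rank → Kˣ := (![u0, u1, Units.map (φ : K →* K) u0, Units.map (φ : K →* K) (Units.map (φ : K →* K) u0)] : Fin 4 → Kˣ)
      exact ⟨⟨c, (st_eq_iff φ h3 c).mpr ⟨h1, rfl, rfl⟩⟩, rfl⟩
  let g : TT φ → {u : Kˣ // φ u = u} × Kˣ := fun c => (⟨χa c.1, χa_fix φ h3 c.2⟩, χb c.1)
  have hg : Function.Injective g := by
    rintro ⟨c, hc⟩ ⟨d, hd⟩ h
    simp only [g, Prod.mk.injEq, Subtype.mk.injEq] at h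
    obtain ⟨e1, e0⟩ := h
    have hcd : (ta φ).st (c * d⁻¹) = c * d⁻¹ := (TT φ).mul_mem hc ((TT φ).inv_mem hd)
    have hd1 : χa d * χa d⁻¹ = 1 := by rw [← χa_mul, mul_inv_cancel, χa_one]
    have hd2 : χb d * χb d⁻¹ = 1 := by rw [← χb_mul, mul_inv_cancel, χb_one]
    have h1 := χ_inj φ h3 hcd (by rw [χa_mul, e1, hd1]) (by rw [χb_mul, e0, hd2])
    exact Subtype.ext (mul_inv_eq_one.mp h1)
  obtain ⟨c, hc⟩ := surj_of_inj_of_bij hf hg (⟨α, hα⟩, β)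
  simp only [g, Prod.mk.injEq, Subtype.mk.injEq] at hc
  exact ⟨c, hc.1, hc.2⟩

/-- Weyl elements -/
noncomputable def ngt (s : K) : GL chevD4.Idx K := ng chevD4 18 s * (ng chevD4 13 (φ s) * ng chevD4 12 (φ (φ s)))
noncomputable def vt (s : K) : GL chevD4.Idx K := xg chevD4 5 (-s⁻¹) * (xg chevD4 10 (-(φ s)⁻¹) * xg chevD4 11 (-(φ (φ s))⁻¹))

theorem ngt_eq (s : K) : ngt φ s = TT3 φ s * vt φ s * TT3 φ s := by
  obtain ⟨_, _, _, _, n0, n1, n2, n3⟩ := smp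
  obtain ⟨d1, d2, d3, _, _, _, c1, c2, c3, c4, c5, c6⟩ := cm1
  unfold ngt
  rw [(cgD4 K).ng_mul3 c4 c5 c6, n0, n2, n3]
  have e : xg chevD4 18 s * (xg chevD4 13 (φ s) * xg chevD4 12 (φ (φ s))) = TT3 φ s := by
    unfold TT3
    rw [(cgD4 K).xg_cm' d1, ← mul_assoc, (cgD4 K).xg_cm' d2, mul_assoc, (cgD4 K).xg_cm' d3]
  rw [e]
  rfl

theorem n1_eq : (R φ).n (1 : Fin 2) = ngt φ 1 := by
  obtain ⟨e0, e1, e2, e3⟩ := ni_eq K
  change ni chevD4 K 0 * (ni chevD4 K 2 * (ni chevD4 K 3 * 1)) = _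
  rw [mul_one, e0, e2, e3]
  unfold ngt
  rw [map_one, map_one]

theorem n0_eq : (R φ).n (0 : Fin 2) = xg chevD4 14 1 * xg chevD4 9 (-1) * xg chevD4 14 1 := by
  obtain ⟨e0, e1, e2, e3⟩ := ni_eq K
  obtain ⟨_, _, _, _, _, n1, _⟩ := smp
  change ni chevD4 K 1 * 1 = _
  rw [mul_one, e1, (cgD4 K).ng_eq, n1, inv_one]

/-- the torus of the short root subgroup -/
noncomputable def cs (s : Kˣ) : Fin chevD4.rank → Kˣ :=
  (![s, 1, Units.map (φ : K →* K) s, Units.map (φ : K →* K) (Units.map (φ : K →* K) s)] : Fin 4 → Kˣ)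

include h3 in
theorem cs_st (s : Kˣ) : (ta φ).st (cs φ s) = cs φ s := by
  refine (st_eq_iff φ h3 _).mpr ⟨?_, rfl, rfl⟩
  change φ ((1 : Kˣ) : K) = ((1 : Kˣ) : K)
  rw [Units.val_one, map_one]

theorem cs_hF (s : Kˣ) : hF chevD4 K (cs φ s) = ngt φ s * (ngt φ 1)⁻¹ := by
  obtain ⟨e0, e1, e2, e3⟩ := ni_eq K
  obtain ⟨_, _, _, _, _, _, _, _, _, c1, c2, c3⟩ := cm1
  obtain ⟨s0, s1, s2, s3, _⟩ := smp
  rw [hF_dec]
  have M := cgD4 K
  have t0 : chevD4.simple (I 0) = 18 := s0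
  have t2 : chevD4.simple (I 2) = 13 := s2
  have t3 : chevD4.simple (I 3) = 12 := s3
  have u0 : ni chevD4 K (I 0) = ng chevD4 18 1 := e0
  have u2 : ni chevD4 K (I 2) = ng chevD4 13 1 := e2
  have u3 : ni chevD4 K (I 3) = ng chevD4 12 1 := e3
  have w1 : cs φ s (I 1) = 1 := rfl
  have w0 : (cs φ s (I 0) : K) = s := rfl
  have w2 : (cs φ s (I 2) : K) = φ s := rfl
  have w3 : (cs φ s (I 3) : K) = φ (φ s) := rfl
  rw [w1, Pi.mulSingle_one, map_one, one_mul, M.hF_single, M.hF_single, M.hF_single, t0, t2, t3, u0, u2, u3, w0, w2, w3]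
  have k1 := (M.ng_cm c1 1 (φ (s : K))).inv_right.eq
  have k2 := (M.ng_cm c2 1 (φ (φ (s : K)))).inv_right.eq
  have k3 := (M.ng_cm c3 1 (φ (φ (s : K)))).inv_right.eq
  have l1 := (M.ng_cm c1 (1 : K) (1 : K)).eq
  have l2 := (M.ng_cm c2 (1 : K) (1 : K)).eq
  have l3 := (M.ng_cm c3 (1 : K) (1 : K)).eq
  unfold ngt
  rw [map_one, map_one]
  generalize ng chevD4 18 (s : K) = x at *
  generalize ng chevD4 13 (φ (s : K)) = y at *
  generalize ng chevD4 12 (φ (φ (s : K))) = z at *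
  generalize ng chevD4 18 (1 : K) = x1 at *
  generalize ng chevD4 13 (1 : K) = y1 at *
  generalize ng chevD4 12 (1 : K) = z1 at *
  have e4 : (x1 * (y1 * z1))⁻¹ = x1⁻¹ * (y1⁻¹ * z1⁻¹) := by
    have : x1 * (y1 * z1) = z1 * (y1 * x1) := by
      rw [← l3, ← mul_assoc, ← l2, mul_assoc, ← l1]
    rw [this]; group
  rw [e4]
  calc x * x1⁻¹ * (y * y1⁻¹ * (z * z1⁻¹)) = x * (x1⁻¹ * y) * ((y1⁻¹ * z) * z1⁻¹) := by group
    _ = x * (y * x1⁻¹) * ((z * y1⁻¹) * z1⁻¹) := by rw [k1, k3]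
    _ = x * y * (x1⁻¹ * z) * y1⁻¹ * z1⁻¹ := by group
    _ = x * y * (z * x1⁻¹) * y1⁻¹ * z1⁻¹ := by rw [k2]
    _ = _ := by group

theorem cen : (R φ).Cen (cgD4 K) L0 := by
  refine (R φ).cen_of (cgD4 K) ?_
  have h : ∀ J : Fin 2, ∀ s < chevD4.nroots, rl chevD4 (wv (O.fl (L0 ++ [J]))) s = rl chevD4 (wv (O.fl (J :: L0))) s := by
    decide +kernel
  exact h

include h3 in
theorem faith (x : ↥(G1 φ)) (hx : (x : GL chevD4.Idx K) ∈ chevD4.diagonalSubgroup K)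
    (h : ∀ J : Fin 2, ∀ u : ↥(G1 φ), (u : GL chevD4.Idx K) ∈ TN.Um (ta φ) (cgD4 K) ((R φ).n J) → x * u * x⁻¹ = u) : x = 1 := by
  obtain ⟨c, rfl⟩ := exists_hG φ h3 hx
  have h0 := h 0 (aG φ 1 (map_one φ)) (aG_Um φ 1 (map_one φ))
  have h1 := h 1 (bG φ h3 1) (bG_Um φ h3 1)
  rw [hG_aG φ h3] at h0
  rw [hG_bG] at h1
  have k0 := aG_inj φ h0
  have k1 := bG_inj φ h3 h1
  rw [mul_one] at k0 k1
  have := χ_inj φ h3 c.2 (Units.ext k0) (Units.ext k1)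
  apply Subtype.ext
  change hF chevD4 K c.1 = 1
  rw [this, map_one]

end CfsgLib.Chev.TwD4
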