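import Cfsg.Agent.Lib.TT3

/-!
# The symmetric group of degree 4 from a string of 3-transpositions
-/

set_option autoImplicit false
set_option maxRecDepth 100000

namespace CfsgLib.TT.S4

universe u

abbrev I := Fin 2 × Fin 3 × Fin 4

section
variable {G : Type u} [Group G]

/-- normal forms -/
def nf (a b c : G) (x : I) : G := (![1, a] x.1) * ((![1, b, b * a] x.2.1) * (![1, c, c * b, c * b * a] x.2.2))

end

/-- right multiplication tables -/
def va : Fin 2 × Fin 3 → Fin 2 × Fin 3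
  | (i, 0) => (1 - i, 0)
  | (i, 1) => (i, 2)
  | (i, 2) => (i, 1)

def vb : Fin 2 × Fin 3 → Fin 2 × Fin 3
  | (i, 0) => (i, 1)
  | (i, 1) => (i, 0)
  | (i, 2) => (1 - i, 2)

def Ra : I → I
  | (i, j, 0) => ((va (i, j)).1, (va (i, j)).2, 0)
  | (i, j, 1) => ((va (i, j)).1, (va (i, j)).2, 1)
  | (i, j, 2) => (i, j, 3)
  | (i, j, 3) => (i, j, 2)

def Rb : I → I
  | (i, j, 0) => ((vb (i, j)).1, (vb (i, j)).2, 0)
  | (i, j, 1) => (i, j, 2)
  | (i, j, 2) => (i, j, 1)
  | (i, j, 3) => ((va (i, j)).1, (va (i, j)).2, 3)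

def Rc : I → I
  | (i, j, 0) => (i, j, 1)
  | (i, j, 1) => (i, j, 0)
  | (i, j, 2) => ((vb (i, j)).1, (vb (i, j)).2, 2)
  | (i, j, 3) => ((vb (i, j)).1, (vb (i, j)).2, 3)

section
variable {G : Type u} [Group G]

/-- relations -/
structure Rel (a b c : G) : Prop where
  aa : a * a = 1
  bb : b * b = 1
  cc : c * c = 1
  ca : c * a = a * c
  bab : b * (a * b) = a * (b * a)
  cbc : c * (b * c) = b * (c * b)

variable {a b c : G}

theorem Rel.cbac (h : Rel a b c) : c * (b * (a * c)) = b * (c * (b * a)) := by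
  rw [← h.ca]
  calc c * (b * (c * a)) = (c * (b * c)) * a := by group
    _ = _ := by rw [h.cbc]; group

theorem step (h : Rel a b c) (x : I) : nf a b c x * a = nf a b c (Ra x) ∧ nf a b c x * b = nf a b c (Rb x) ∧
    nf a b c x * c = nf a b c (Rc x) := by
  have aa' : ∀ x : G, a * (a * x) = x := fun x => by rw [← mul_assoc, h.aa, one_mul]
  have bb' : ∀ x : G, b * (b * x) = x := fun x => by rw [← mul_assoc, h.bb, one_mul]
  have cc' : ∀ x : G, c * (c * x) = x := fun x => by rw [← mul_assoc, h.cc, one_mul]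
  have ca' : ∀ x : G, c * (a * x) = a * (c * x) := fun x => by rw [← mul_assoc, h.ca, mul_assoc]
  have bab' : ∀ x : G, b * (a * (b * x)) = a * (b * (a * x)) := fun x => by
    have := congrArg (· * x) h.bab
    simpa only [mul_assoc] using this
  have cbc' : ∀ x : G, c * (b * (c * x)) = b * (c * (b * x)) := fun x => by
    have := congrArg (· * x) h.cbc
    simpa only [mul_assoc] using this
  have cbac' : ∀ x : G, c * (b * (a * (c * x))) = b * (c * (b * (a * x))) := fun x => by
    have := congrArg (· * x) h.cbac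
    simpa only [mul_assoc] using this
  obtain ⟨i, j, k⟩ := x
  fin_cases i <;> fin_cases j <;> fin_cases k <;>
    simp [nf, Ra, Rb, Rc, va, vb, mul_assoc, h.aa, h.bb, h.cc, h.ca, h.bab, h.cbc, h.cbac, aa', bb', cc', ca', bab', cbc', cbac']

end

abbrev s0 : Equiv.Perm (Fin 4) := Equiv.swap 0 1
abbrev s1 : Equiv.Perm (Fin 4) := Equiv.swap 1 2
abbrev s2 : Equiv.Perm (Fin 4) := Equiv.swap 2 3

theorem rel_s : Rel s0 s1 s2 := by
  constructor <;> decide

theorem nf_inj : Function.Injective (nf s0 s1 s2) := by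
  decide +kernel

theorem nf_bij : Function.Bijective (nf s0 s1 s2) := by
  rw [Fintype.bijective_iff_injective_and_card]
  refine ⟨nf_inj, ?_⟩
  rw [Fintype.card_perm]
  rfl

noncomputable def e : I ≃ Equiv.Perm (Fin 4) := Equiv.ofBijective _ nf_bij

theorem e_apply (x : I) : e x = nf s0 s1 s2 x := rfl

theorem symm_mul0 (σ : Equiv.Perm (Fin 4)) : e.symm (σ * s0) = Ra (e.symm σ) := by
  rw [Equiv.symm_apply_eq, e_apply, ← (step rel_s _).1, ← e_apply, Equiv.apply_symm_apply]

theorem symm_mul1 (σ : Equiv.Perm (Fin 4)) : e.symm (σ * s1) = Rb (e.symm σ) := by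
  rw [Equiv.symm_apply_eq, e_apply, ← (step rel_s _).2.1, ← e_apply, Equiv.apply_symm_apply]

theorem symm_mul2 (σ : Equiv.Perm (Fin 4)) : e.symm (σ * s2) = Rc (e.symm σ) := by
  rw [Equiv.symm_apply_eq, e_apply, ← (step rel_s _).2.2, ← e_apply, Equiv.apply_symm_apply]

section
variable {G : Type u} [Group G] {a b c : G}

noncomputable def f (a b c : G) (σ : Equiv.Perm (Fin 4)) : G := nf a b c (e.symm σ)

theorem f0 (h : Rel a b c) (σ : Equiv.Perm (Fin 4)) : f a b c (σ * s0) = f a b c σ * a := by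
  rw [f, symm_mul0, ← (step h _).1]; rfl

theorem f1 (h : Rel a b c) (σ : Equiv.Perm (Fin 4)) : f a b c (σ * s1) = f a b c σ * b := by
  rw [f, symm_mul1, ← (step h _).2.1]; rfl

theorem f2 (h : Rel a b c) (σ : Equiv.Perm (Fin 4)) : f a b c (σ * s2) = f a b c σ * c := by
  rw [f, symm_mul2, ← (step h _).2.2]; rfl

theorem f_one : f a b c 1 = 1 := by
  have h1 : e.symm 1 = ((0, 0, 0) : I) := by
    rw [Equiv.symm_apply_eq, e_apply]
    simp [nf]
  rw [f, h1]
  simp [nf]

theorem f_mul_nf (h : Rel a b c) (σ : Equiv.Perm (Fin 4)) (x : I) : f a b c (σ * nf s0 s1 s2 x) = f a b c σ * nf a b c x := by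
  obtain ⟨i, j, k⟩ := x
  fin_cases i <;> fin_cases j <;> fin_cases k <;>
    simp only [nf, Fin.zero_eta, Fin.mk_one, Fin.reduceFinMk, Matrix.cons_val_zero, Matrix.cons_val_one, Matrix.cons_val,
      mul_one, one_mul, ← mul_assoc, f0 h, f1 h, f2 h]

theorem f_mul (h : Rel a b c) (σ τ : Equiv.Perm (Fin 4)) : f a b c (σ * τ) = f a b c σ * f a b c τ := by
  have h1 := f_mul_nf h σ (e.symm τ)
  rw [← e_apply, Equiv.apply_symm_apply] at h1
  exact h1

noncomputable def hom (h : Rel a b c) : Equiv.Perm (Fin 4) →* G where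
  toFun := f a b c
  map_one' := f_one
  map_mul' := f_mul h

theorem hom_s0 (h : Rel a b c) : hom h s0 = a := by
  have := f0 h 1
  rw [one_mul, f_one, one_mul] at this
  exact this

theorem hom_s1 (h : Rel a b c) : hom h s1 = b := by
  have := f1 h 1
  rw [one_mul, f_one, one_mul] at this
  exact this

theorem hom_s2 (h : Rel a b c) : hom h s2 = c := by
  have := f2 h 1
  rw [one_mul, f_one, one_mul] at this
  exact this

theorem exists_comm_conj : ∀ σ : Equiv.Perm (Fin 4), σ ≠ 1 → ∃ g k : Equiv.Perm (Fin 4), s0 * s2 = k * (σ * g * σ⁻¹ * g⁻¹) * k⁻¹ := by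
  decide +kernel

theorem hom_inj (h : Rel a b c) (hac : a ≠ c) : Function.Injective (hom h) := by
  rw [injective_iff_map_eq_one]
  intro σ hσ
  by_contra hne
  obtain ⟨g, k, hgk⟩ := exists_comm_conj σ hne
  have h1 := congrArg (hom h) hgk
  simp only [map_mul, map_inv, hσ, hom_s0, hom_s2] at h1
  apply hac
  have h2 : a * c = 1 := by rw [h1]; group
  rw [eq_inv_of_mul_eq_one_left h2]
  exact inv_eq_of_mul_eq_one_left h.cc

/-- a 3-string gives the relations -/
theorem rel_of {D : Set G} (h : TT D) (ha : a ∈ D) (hb : b ∈ D) (hc : c ∈ D) (hac : Commute a c)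
    (hab : ¬ Commute a b) (hbc : ¬ Commute b c) : Rel a b c := by
  have e1 := (h.br a ha b hb).resolve_left hab
  have e2 := (h.br b hb c hc).resolve_left hbc
  refine ⟨h.sq a ha, h.sq b hb, h.sq c hc, hac.symm.eq, ?_, ?_⟩
  · rw [← mul_assoc, ← mul_assoc]; exact e1.symm
  · rw [← mul_assoc, ← mul_assoc]; exact e2.symm

end

end CfsgLib.TT.S4
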