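import Cfsg.Agent.Lib.TT9
import Cfsg.Agent.Lib.TTS4

/-!
# The degree 4 case: every member of D commutes with exactly one other
-/

set_option autoImplicit false

open Subgroup

namespace CfsgLib.TT.Deg4

universe u

variable {G : Type u} [Group G] {D : Set G}

/-- partner -/
def Q (D : Set G) (x y : G) : Prop := y ∈ D ∧ y ≠ x ∧ Commute x y ∧ (∀ e ∈ D, Commute x e → e = x ∨ e = y) ∧ ∀ e ∈ D, Commute y e ↔ Commute x e

theorem Q_conj (h : TT D) {x y : G} (g : G) (hq : Q D x y) : Q D (g * x * g⁻¹) (g * y * g⁻¹) := by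
  obtain ⟨h1, h2, h3, h4, h5⟩ := hq
  have key : ∀ z e : G, Commute (g * z * g⁻¹) e ↔ Commute z (g⁻¹ * e * g) := by
    intro z e
    constructor
    · intro hc
      have := commute_conj (g := g⁻¹) hc
      have e1 : g⁻¹ * (g * z * g⁻¹) * g⁻¹⁻¹ = z := by group
      rw [e1, inv_inv] at this
      exact this
    · intro hc
      have := commute_conj (g := g) hc
      have e1 : g * (g⁻¹ * e * g) * g⁻¹ = e := by group
      rw [e1] at this
      exact this
  have hm : ∀ e ∈ D, g⁻¹ * e * g ∈ D := fun e he => by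
    have := h.cj g⁻¹ e he
    rwa [inv_inv] at this
  refine ⟨h.cj g y h1, fun he => h2 (conj_inj g he), commute_conj h3, ?_, ?_⟩
  · intro e he hc
    rw [key] at hc
    rcases h4 _ (hm e he) hc with h6 | h6
    · left; rw [← h6]; group
    · right; rw [← h6]; group
  · intro e he
    rw [key, key]
    exact h5 _ (hm e he)

theorem Q_unique {x y e : G} (hq : Q D x y) (he : e ∈ D) (hne : e ≠ x) (hc : Commute x e) : e = y :=
  (hq.2.2.2.1 e he hc).resolve_left hne

/-- conjugation by `x x*` swaps y and y* -/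
theorem swap (h : TT D) {x x' y y' : G} (hx : x ∈ D) (hy : y ∈ D) (hqx : Q D x x') (hqy : Q D y y') (hn : ¬ Commute x y) :
    x * x' * y * (x' * x) = y' := by
  have hx' := hqx.1
  have hn' : ¬ Commute x' y := fun hc => hn ((hqx.2.2.2.2 y hy).1 hc)
  have h1 := h.mem hx' hy
  have h2 := h.mem hx h1
  have he : x * (x' * y * x') * x = x * x' * y * (x' * x) := by group
  rw [he] at h2
  have b1 := (h.br x hx y hy).resolve_left hn
  have b2 := (h.br x' hx' y hy).resolve_left hn'
  have hxx := h.sq x hx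
  have hx'x' := h.sq x' hx'
  have hyy := h.sq y hy
  have hcx : x * x' = x' * x := hqx.2.2.1
  refine Q_unique hqy h2 ?_ ?_
  · intro he
    -- x x' y x' x = y  => x' y x' = x y x 
    have e1 : x' * y * x' = x * y * x := by
      calc x' * y * x' = (x * x) * (x' * y * x') * (x * x) := by rw [hxx]; group
        _ = x * (x * x' * y * (x' * x)) * x := by group
        _ = _ := by rw [he]
    -- then y x' y = y x y
    have e2 : y * x' * y = y * x * y := by
      rw [b2.symm, b1.symm]
      exact e1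
    have e3 : x' = x := by
      calc x' = (y * y) * x' * (y * y) := by rw [hyy]; group
        _ = y * (y * x' * y) * y := by group
        _ = y * (y * x * y) * y := by rw [e2]
        _ = (y * y) * x * (y * y) := by group
        _ = x := by rw [hyy]; group
    exact hqx.2.1 e3
  · have := s4 (a := x) (p := y) (b := x') hxx hx'x' hyy hcx b1 b2
    show y * (x * x' * y * (x' * x)) = (x * x' * y * (x' * x)) * y
    simpa only [mul_assoc] using this

theorem Q_of {d : G} (hd : d ∈ D) (hV : {y : G | y ∈ D ∧ Commute d y} = {v : G | v ∈ D ∧ ∀ e ∈ D, Commute v e ↔ Commute d e}) (hm : {y : G | y ∈ D ∧ Commute d y}.ncard = 2) : ∃ v, Q D d v := by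
  rw [Set.ncard_eq_two] at hm
  obtain ⟨a, b, hab, he⟩ := hm
  have hdm : d ∈ ({a, b} : Set G) := he ▸ ⟨hd, Commute.refl d⟩
  have key : ∀ v, v ≠ d → ({a, b} : Set G) = {d, v} → Q D d v := by
    intro v hvd hs
    rw [hs] at he
    have hv : v ∈ {y : G | y ∈ D ∧ Commute d y} := by rw [he]; right; rfl
    have hv' := hv
    rw [hV] at hv'
    refine ⟨hv.1, hvd, hv.2, ?_, hv'.2⟩
    intro e heD hc
    have : e ∈ {y : G | y ∈ D ∧ Commute d y} := ⟨heD, hc⟩
    rw [he] at this
    exact this
  rcases hdm with h1 | h1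
  · subst h1
    exact ⟨b, key b (fun h => hab h.symm) rfl⟩
  · have h1' : d = b := h1
    subst h1'
    exact ⟨a, key a hab (Set.pair_comm _ _)⟩

theorem main [Finite G] (hD : Cfsg.IsThreeTranspositionClass D) (hD2 : ∃ a ∈ D, ∃ b ∈ D, a ≠ b) {d : G} (hd : d ∈ D) (hV : {y : G | y ∈ D ∧ Commute d y} = {v : G | v ∈ D ∧ ∀ e ∈ D, Commute v e ↔ Commute d e}) (hm : {y : G | y ∈ D ∧ Commute d y}.ncard = 2) : Nonempty (G ≃* Equiv.Perm (Fin 4)) := by
  have r := r1_of hD hD2
  have h := r.tt
  obtain ⟨v, hv⟩ := Q_of hd hV hm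
  obtain ⟨a, ha, hda⟩ := r.an hd
  have hQ : ∀ x ∈ D, ∃ y, Q D x y := by
    intro x hx
    obtain ⟨g, rfl⟩ := r.cl d hd x hx
    exact ⟨_, Q_conj h g hv⟩
  obtain ⟨a', ha'⟩ := hQ a ha
  have hdd := h.sq d hd
  have hvv := h.sq v hv.1
  have haa := h.sq a ha
  have ha'a' := h.sq a' ha'.1
  have hdi := h.inv hd
  -- c = d a d
  have hc' : Q D (d * a * d) (d * a' * d) := by
    have := Q_conj h d ha'
    rwa [hdi] at this
  have hcD := h.mem hd ha
  have hdv : Commute d v := hv.2.2.1
  have haa' : Commute a a' := ha'.2.2.1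
  have hva : ¬ Commute v a := fun hc => hda ((hv.2.2.2.2 a ha).1 hc)
  -- z_a d z_a = v
  have s1 : a * a' * d * (a' * a) = v := swap h ha hd ha' hv (fun hc => hda hc.symm)
  have hrel : S4.Rel d a v := S4.rel_of h hd ha hv.1 hdv hda (fun hc => hva hc.symm)
  have hinj := S4.hom_inj hrel (fun he => hv.2.1 he.symm)
  have m0 : d ∈ (S4.hom hrel).range := ⟨_, S4.hom_s0 hrel⟩
  have m1 : a ∈ (S4.hom hrel).range := ⟨_, S4.hom_s1 hrel⟩
  have m2 : v ∈ (S4.hom hrel).range := ⟨_, S4.hom_s2 hrel⟩
  have m3 : a' ∈ (S4.hom hrel).range := by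
    have s2 : d * v * a * (v * d) = a' := swap h hd ha hv ha' hda
    rw [← s2]
    exact mul_mem (mul_mem (mul_mem m0 m2) m1) (mul_mem m2 m0)
  have m4 : d * a * d ∈ (S4.hom hrel).range := mul_mem (mul_mem m0 m1) m0
  have m5 : d * a' * d ∈ (S4.hom hrel).range := mul_mem (mul_mem m0 m3) m0
  have hall : ∀ e ∈ D, e ∈ (S4.hom hrel).range := by
    intro e he
    by_cases h1 : Commute d e
    · rcases hv.2.2.2.1 e he h1 with rfl | rfl
      · exact m0
      · exact m2
    by_cases h2 : Commute a e
    · rcases ha'.2.2.2.1 e he h2 with rfl | rfl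
      · exact m1
      · exact m3
    by_cases h3 : Commute (d * a * d) e
    · rcases hc'.2.2.2.1 e he h3 with h4 | h4
      · rw [h4]; exact m4
      · rw [h4]; exact m5
    exfalso
    obtain ⟨e', he'⟩ := hQ e he
    have t1 : d * v * e * (v * d) = e' := swap h hd he hv he' h1
    have t2 : a * a' * e * (a' * a) = e' := swap h ha he ha' he' h2
    have t3 : (d * a * d) * (d * a' * d) * e * ((d * a' * d) * (d * a * d)) = e' := swap h hcD he hc' he' h3
    apply he'.2.1
    -- z_c = z z_a
    have hz : (d * a * d) * (d * a' * d) = d * v * (a * a') := by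
      rw [← s1]
      calc (d * a * d) * (d * a' * d) = d * a * (d * d) * a' * d := by group
        _ = d * (a * a') * d := by rw [hdd]; group
        _ = d * (a * a') * d * (a' * (a * a) * a') := by rw [haa, mul_one, ha'a', mul_one]
        _ = _ := by group
    have hz' : (d * a' * d) * (d * a * d) = (a' * a) * (v * d) := by
      have e1 := congrArg (fun x => x⁻¹) hz
      simp only [mul_inv_rev, hdi, h.inv ha, h.inv ha'.1, h.inv hv.1] at e1
      simpa only [mul_assoc] using e1
    rw [hz, hz'] at t3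
    have t4 : d * v * (a * a' * e * (a' * a)) * (v * d) = e' := by
      rw [← t3]; group
    rw [t2, ← t1] at t4
    have hdv' : d * v * (d * v) = 1 := by
      calc d * v * (d * v) = d * (v * d) * v := by group
        _ = d * (d * v) * v := by rw [← hdv.eq]
        _ = (d * d) * (v * v) := by group
        _ = 1 := by rw [hdd, hvv, one_mul]
    have hvd' : v * d * (v * d) = 1 := by
      rw [← hdv.eq]; exact hdv'
    have t5 : e = d * v * e * (v * d) := by
      calc e = (d * v * (d * v)) * e * (v * d * (v * d)) := by rw [hdv', hvd']; group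
        _ = d * v * (d * v * e * (v * d)) * (v * d) := by group
        _ = _ := t4
    rw [t5]; exact t1.symm
  have hsurj : Function.Surjective (S4.hom hrel) := by
    rw [← MonoidHom.range_eq_top, eq_top_iff, ← r.gen, closure_le]
    exact hall
  exact ⟨(MulEquiv.ofBijective _ ⟨hinj, hsurj⟩).symm⟩

end CfsgLib.TT.Deg4
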