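import Cfsg.Agent.Lib.TT5

/-!
# 3-transposition groups: width and small facts
-/

set_option autoImplicit false

namespace CfsgLib.TT

universe u
variable {G : Type u} [Group G] {D : Set G}

open Subgroup

theorem tt_group (hD : Cfsg.IsThreeTranspositionGroup D) : TT D := tt_of hD.1 hD.2.1

variable [Finite G]

theorem width_le {n : ℕ} (h : ∀ E : Set G, E ⊆ D → (∀ a ∈ E, ∀ b ∈ E, Commute a b) → E.ncard ≤ n) :
    Cfsg.commutingWidth D ≤ n := by
  unfold Cfsg.commutingWidth
  apply csSup_le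
  · exact ⟨0, ∅, Set.empty_subset _, Set.finite_empty, by simp, by simp⟩
  · rintro m ⟨E, h1, _, h2, rfl⟩
    exact h E h1 h2

theorem le_width {E : Set G} (h1 : E ⊆ D) (h2 : ∀ a ∈ E, ∀ b ∈ E, Commute a b) : E.ncard ≤ Cfsg.commutingWidth D := by
  unfold Cfsg.commutingWidth
  apply le_csSup
  · refine ⟨D.ncard, ?_⟩
    rintro m ⟨E, h1, _, _, rfl⟩
    exact Set.ncard_le_ncard h1 (Set.toFinite _)
  · exact ⟨E, h1, Set.toFinite _, h2, rfl⟩

theorem s5345 (hD : Cfsg.IsThreeTranspositionGroup D) (T : Sylow 2 G) :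
    IsMulCommutative (Subgroup.closure {d : G | d ∈ D ∧ d ∈ T}) ∧ {d : G | d ∈ D ∧ d ∈ T}.ncard = Cfsg.commutingWidth D := by
  haveI : Fact (Nat.Prime 2) := ⟨Nat.prime_two⟩
  have h := tt_group hD
  have hc : ∀ a ∈ {d : G | d ∈ D ∧ d ∈ T}, ∀ b ∈ {d : G | d ∈ D ∧ d ∈ T}, Commute a b :=
    fun a ha b hb => comm_of_two h T.2 ha.1 hb.1 ha.2 hb.2
  constructor
  · constructor
    constructor
    rintro ⟨x, hx⟩ ⟨y, hy⟩
    apply Subtype.ext
    show x * y = y * x
    have : Commute x y := by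
      induction hx, hy using Subgroup.closure_induction₂ with
      | mem u v hu hv => exact hc u hu v hv
      | one_left v _ => exact Commute.one_left v
      | one_right u _ => exact Commute.one_right u
      | mul_left a b c _ _ _ h1 h2 => exact h1.mul_left h2
      | mul_right a b c _ _ _ h1 h2 => exact h1.mul_right h2
      | inv_left a b _ _ h1 => exact h1.inv_left
      | inv_right a b _ _ h1 => exact h1.inv_right
    exact this
  · apply le_antisymm
    · exact le_width (fun x hx => hx.1) hc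
    · apply width_le
      intro E hE hEc
      obtain ⟨S, hS⟩ := (two_of_comm h hE hEc).exists_le_sylow
      obtain ⟨g, hg⟩ := MulAction.exists_smul_eq G S T
      have hinj := conj_inj g
      rw [← Set.ncard_image_of_injective E hinj]
      apply Set.ncard_le_ncard _ (Set.toFinite _)
      rintro _ ⟨x, hx, rfl⟩
      refine ⟨h.cj g x (hE hx), ?_⟩
      rw [← hg]
      exact Subgroup.smul_mem_pointwise_smul x (MulAut.conj g) _ (hS (subset_closure hx))

omit [Finite G] in
theorem s5347 (hD : Cfsg.IsThreeTranspositionGroup D) {p : ℕ} (hp : p.Prime) (hp3 : 3 < p) (P : Subgroup G) (hP : IsPGroup p P)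
    {d : G} (hd : d ∈ D) (hnorm : d ∈ Subgroup.normalizer (P : Set G)) : ∀ x ∈ P, Commute d x := by
  intro x hx
  have h := tt_group hD
  have id' := h.inv hd
  have hm := h.cj x d hd
  have hmem : d * (x * d * x⁻¹) ∈ P := by
    have e : d * (x * d * x⁻¹) = (d * x * d⁻¹) * x⁻¹ := by rw [id']; group
    rw [e]
    exact mul_mem ((mem_normalizer_iff.1 hnorm x).1 hx) (inv_mem hx)
  obtain ⟨k, hk⟩ := hP ⟨_, hmem⟩
  have hk' : (d * (x * d * x⁻¹)) ^ p ^ k = 1 := congrArg Subtype.val hk
  have key : ∀ m : ℕ, m = 2 ∨ m = 3 → (d * (x * d * x⁻¹)) ^ m = 1 → d * (x * d * x⁻¹) = 1 := by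
    intro m hm2 hm
    have h1 : orderOf (d * (x * d * x⁻¹)) ∣ m := orderOf_dvd_of_pow_eq_one hm
    have h2 : orderOf (d * (x * d * x⁻¹)) ∣ p ^ k := orderOf_dvd_of_pow_eq_one hk'
    have hc : Nat.Coprime m (p ^ k) := by
      apply Nat.Coprime.pow_right
      rw [Nat.coprime_comm, Nat.Prime.coprime_iff_not_dvd hp]
      intro hdvd
      have := Nat.le_of_dvd (by rcases hm2 with rfl | rfl <;> norm_num) hdvd
      rcases hm2 with rfl | rfl <;> omega
    have : orderOf (d * (x * d * x⁻¹)) ∣ 1 := by rw [← hc]; exact Nat.dvd_gcd h1 h2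
    exact orderOf_eq_one_iff.1 (Nat.dvd_one.1 this)
  have h1 : d * (x * d * x⁻¹) = 1 := by
    rcases hD.1.2 d hd _ hm with h2 | h2
    · exact key 2 (Or.inl rfl) h2
    · exact key 3 (Or.inr rfl) h2
  have h2 : x * d * x⁻¹ = d := by
    have := eq_inv_of_mul_eq_one_right h1
    rw [this, id']
  show d * x = x * d
  calc d * x = (x * d * x⁻¹) * x := by rw [h2]
    _ = x * d := by group

omit [Finite G] in
theorem s5348 (hD : Cfsg.IsThreeTranspositionGroup D) {d : G} (hd : d ∈ D) : {v : G | v ∈ D ∧ ∀ e ∈ D, Commute v e ↔ Commute d e} = {d} ∨ {w : G | w ∈ D ∧ {y : G | y ∈ D ∧ y ≠ d ∧ Commute d y} = {y : G | y ∈ D ∧ y ≠ w ∧ Commute w y}} = {d} := by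
  by_contra hcon
  rw [not_or] at hcon
  obtain ⟨h1, h2⟩ := hcon
  have h1' : ∃ v, v ≠ d ∧ v ∈ D ∧ ∀ e ∈ D, Commute v e ↔ Commute d e := by
    by_contra hh
    push Not at hh
    apply h1
    ext v
    constructor
    · rintro ⟨hv, hv2⟩
      by_contra hne
      obtain ⟨e, he, he2⟩ := hh v hne hv
      rcases he2 with ⟨a, b⟩ | ⟨a, b⟩
      · exact b ((hv2 e he).1 a)
      · exact a ((hv2 e he).2 b)
    · rintro rfl
      exact ⟨hd, fun e _ => Iff.rfl⟩
  have h2' : ∃ w, w ≠ d ∧ w ∈ D ∧ {y : G | y ∈ D ∧ y ≠ d ∧ Commute d y} = {y : G | y ∈ D ∧ y ≠ w ∧ Commute w y} := by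
    by_contra hh
    push Not at hh
    apply h2
    ext w
    constructor
    · rintro ⟨hv, hv2⟩
      by_contra hne
      exact hh w hne hv hv2
    · rintro rfl
      exact ⟨hd, rfl⟩
  obtain ⟨v, hv1, hv2, hv3⟩ := h1'
  obtain ⟨w, hw1, hw2, hw3⟩ := h2'
  have hdv : Commute d v := (hv3 v hv2).1 (Commute.refl v)
  have h3 : v ∈ {y : G | y ∈ D ∧ y ≠ w ∧ Commute w y} := by rw [← hw3]; exact ⟨hv2, hv1, hdv⟩
  have h4 : Commute d w := (hv3 w hw2).1 h3.2.2.symm
  have h5 : w ∈ {y : G | y ∈ D ∧ y ≠ w ∧ Commute w y} := by rw [← hw3]; exact ⟨hw2, hw1, h4⟩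
  exact h5.2.1 rfl

theorem s5346 (hD : Cfsg.IsThreeTranspositionGroup D) {d : G} (hd : d ∈ D) :
    Cfsg.commutingWidth D = 1 ↔ Subgroup.zpowers d ⊔ Cfsg.pCore 3 G = ⊤ := by
  haveI : Fact (Nat.Prime 3) := ⟨Nat.prime_three⟩
  have h := tt_group hD
  have h3n := CfsgLib.Core.pCore_normal 3 G
  constructor
  · intro hw
    have hnc : ∀ a ∈ D, ∀ b ∈ D, Commute a b → a = b := by
      intro a ha b hb hab
      by_contra hne
      have := le_width (D := D) (E := {a, b}) (by rintro x (rfl | hx); exacts [ha, by rw [Set.mem_singleton_iff.1 hx]; exact hb]) (by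
        rintro x (rfl | hx) y (rfl | hy)
        · exact Commute.refl _
        · rw [Set.mem_singleton_iff.1 hy]; exact hab
        · rw [Set.mem_singleton_iff.1 hx]; exact hab.symm
        · rw [Set.mem_singleton_iff.1 hx, Set.mem_singleton_iff.1 hy])
      rw [Set.ncard_pair hne, hw] at this
      omega
    have hcube : ∀ a ∈ D, ∀ b ∈ D, (a * b) ^ 3 = 1 := by
      intro a ha b hb
      by_cases hab : Commute a b
      · rw [← hnc a ha b hb hab, h.sq a ha, one_pow]
      · exact h.cube ha hb hab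
    rw [eq_top_iff, ← hD.2.2, closure_le]
    intro e he
    have ho : orderOf d = 2 := hD.1.1 d hd
    have hconj : IsConj d e := by
      by_cases hde : Commute d e
      · rw [hnc d hd e he hde]
      · have br := (h.br d hd e he).resolve_left hde
        refine isConj_iff.2 ⟨d * e, ?_⟩
        have id' := h.inv hd
        have ie := h.inv he
        calc d * e * d * (d * e)⁻¹ = (d * e * d) * (e⁻¹ * d⁻¹) := by group
          _ = e * (d * (e * e⁻¹) * d⁻¹) := by rw [br]; group
          _ = e := by group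
    have hm : d * e ∈ Cfsg.pCore 3 G := by
      refine CfsgLib.Zstar.conj_prod_mem (p := 3) (by norm_num) ho ?_ (IsConj.refl d) hconj
      intro g
      obtain ⟨k, _, hk⟩ := (Nat.dvd_prime_pow Nat.prime_three).1 (by
        rw [pow_one]; exact orderOf_dvd_of_pow_eq_one (hcube d hd _ (h.cj g d hd)) : orderOf (d * (g * d * g⁻¹)) ∣ 3 ^ 1)
      exact ⟨k, hk⟩
    have : e = d⁻¹ * (d * e) := by group
    show e ∈ Subgroup.zpowers d ⊔ Cfsg.pCore 3 G
    rw [this]
    exact mul_mem (inv_mem ((le_sup_left : zpowers d ≤ _) (mem_zpowers d))) ((le_sup_right : Cfsg.pCore 3 G ≤ _) hm)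
  · intro ht
    have hP := CfsgLib.Core.pCore_isPGroup 3 G
    -- every element is in `O₃` or in `d O₃`
    have key : ∀ g : G, g ∈ Cfsg.pCore 3 G ∨ d * g ∈ Cfsg.pCore 3 G := by
      intro g
      have hg : g ∈ Subgroup.zpowers d ⊔ Cfsg.pCore 3 G := by rw [ht]; exact mem_top g
      rw [← SetLike.mem_coe, Subgroup.mul_normal] at hg
      obtain ⟨x, hx, y, hy, rfl⟩ := hg
      obtain ⟨k, rfl⟩ := mem_zpowers_iff.1 hx
      have hdd := h.sq d hd
      have hev : ∀ j : ℤ, d ^ (2 * j) = 1 := by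
        intro j
        rw [zpow_mul, zpow_two, hdd, one_zpow]
      rcases Int.even_or_odd k with ⟨j, hj⟩ | ⟨j, hj⟩
      · left
        have h1 : d ^ k = 1 := by rw [hj, ← two_mul]; exact hev j
        show d ^ k * y ∈ _
        rw [h1, one_mul]; exact hy
      · right
        have h1 : d ^ k = d := by rw [hj, zpow_add, hev, one_mul, zpow_one]
        show d * (d ^ k * y) ∈ _
        rw [h1, ← mul_assoc, hdd, one_mul]; exact hy
    have h2 : ∀ x : G, x * x = 1 → x ∈ Cfsg.pCore 3 G → x = 1 := by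
      intro x hx hx3
      obtain ⟨k, hk⟩ := hP ⟨x, hx3⟩
      have hk' : x ^ 3 ^ k = 1 := congrArg Subtype.val hk
      have h1 : orderOf x ∣ 2 := orderOf_dvd_of_pow_eq_one (by rw [pow_two]; exact hx)
      have h4 : orderOf x ∣ 3 ^ k := orderOf_dvd_of_pow_eq_one hk'
      have hc : Nat.gcd 2 (3 ^ k) = 1 := Nat.Coprime.pow_right k (by norm_num)
      have : orderOf x ∣ 1 := by rw [← hc]; exact Nat.dvd_gcd h1 h4
      exact orderOf_eq_one_iff.1 (Nat.dvd_one.1 this)
    have hDn : ∀ a ∈ D, a ∉ Cfsg.pCore 3 G := by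
      intro a ha hh
      have := h2 a (h.sq a ha) hh
      have ho := hD.1.1 a ha
      rw [this, orderOf_one] at ho
      omega
    have hone : ∀ a ∈ D, ∀ b ∈ D, Commute a b → a = b := by
      intro a ha b hb hab
      have ha' := (key a).resolve_left (hDn a ha)
      have hb' := (key b).resolve_left (hDn b hb)
      have hm : a * b ∈ Cfsg.pCore 3 G := by
        have e : a * b = (d * a)⁻¹ * (d * b) := by
          rw [mul_inv_rev, h.inv ha]; group
        rw [e]; exact mul_mem (inv_mem ha') hb'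
      have hsq : a * b * (a * b) = 1 := by
        calc a * b * (a * b) = a * (b * a) * b := by group
          _ = (a * a) * (b * b) := by rw [← hab.eq]; group
          _ = 1 := by rw [h.sq a ha, h.sq b hb, one_mul]
      rw [eq_inv_of_mul_eq_one_left (h2 _ hsq hm), h.inv hb]
    apply le_antisymm
    · apply width_le
      intro E hE hEc
      rw [Set.ncard_le_one (Set.toFinite _)]
      intro a ha b hb
      exact hone a (hE ha) b (hE hb) (hEc a ha b hb)
    · have := le_width (D := D) (E := {d}) (by rintro x hx; rw [Set.mem_singleton_iff.1 hx]; exact hd) (by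
        intro x hx y hy
        rw [Set.mem_singleton_iff.1 hx, Set.mem_singleton_iff.1 hy])
      rwa [Set.ncard_singleton] at this

end CfsgLib.TT
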