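import Cfsg.Agent.Lib.TT6
import Cfsg.Agent.Lib.PSolv

/-!
# 3-transposition groups: the classes `V` and `W` and the cores
-/

set_option autoImplicit false

namespace CfsgLib.TT

universe u
variable {G : Type u} [Group G] {D : Set G}

open Subgroup

/-- equivariance of fusion -/
def Eqv (D : Set G) (F : G → Set (Set G)) : Prop :=
  ∀ (g d e : G), d ∈ D → e ∈ D → F d = F e → F (g * d * g⁻¹) = F (g * e * g⁻¹)

/-- the kernel of the action on the classes -/
def KF (h : TT D) (F : G → Set (Set G)) : Subgroup G where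
  carrier := {g | ∀ z ∈ D, F (g * z * g⁻¹) = F z}
  mul_mem' := by
    intro a b ha hb z hz
    have e1 : a * b * z * (a * b)⁻¹ = a * (b * z * b⁻¹) * a⁻¹ := by group
    rw [e1, ha _ (h.cj b z hz), hb z hz]
  one_mem' := by intro z _; simp
  inv_mem' := by
    intro a ha z hz
    have h1 := ha (a⁻¹ * z * a⁻¹⁻¹) (h.cj a⁻¹ z hz)
    have e1 : a * (a⁻¹ * z * a⁻¹⁻¹) * a⁻¹ = z := by group
    rw [e1] at h1
    exact h1.symm

theorem mem_KF (h : TT D) {F : G → Set (Set G)} {g : G} : g ∈ KF h F ↔ ∀ z ∈ D, F (g * z * g⁻¹) = F z := Iff.rfl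

theorem KF_normal (h : TT D) {F : G → Set (Set G)} (hF : Eqv D F) : (KF h F).Normal := by
  refine ⟨?_⟩
  intro n hn g z hz
  have h1 := hn (g⁻¹ * z * g⁻¹⁻¹) (h.cj g⁻¹ z hz)
  have h2 := hF g _ _ (h.cj n _ (h.cj g⁻¹ z hz)) (h.cj g⁻¹ z hz) h1
  have e1 : g * (n * (g⁻¹ * z * g⁻¹⁻¹) * n⁻¹) * g⁻¹ = g * n * g⁻¹ * z * (g * n * g⁻¹)⁻¹ := by group
  have e2 : g * (g⁻¹ * z * g⁻¹⁻¹) * g⁻¹ = z := by group
  rwa [e1, e2] at h2

theorem mul_mem_KF (h : TT D) {F : G → Set (Set G)} (hF : Eqv D F) {x y : G} (hx : x ∈ D) (hy : y ∈ D) (hxy : F x = F y) :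
    x * y ∈ KF h F := fun z hz => N_trivial h hF hx hy hxy hz

/-- a `p`-subgroup normalized by a normal subgroup -/
theorem mem_pCore_of [Finite G] {p : ℕ} [Fact p.Prime] {A K : Subgroup G} [K.Normal] (hA : IsPGroup p A) (hK : ∀ k ∈ K, ∀ a ∈ A, k * a * k⁻¹ ∈ A)
    {x : G} (hx : x ∈ A) (hxK : x ∈ K) : x ∈ Cfsg.pCore p G := by
  have hN : (A.subgroupOf K).Normal := by
    refine ⟨?_⟩
    intro a ha k
    exact hK k k.2 a ha
  have h1 : A.subgroupOf K ≤ Cfsg.pCore p K :=
    CfsgLib.Core.le_pCore hN (hA.comap_of_injective K.subtype K.subtype_injective)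
  have h2 := CfsgLib.PSolv.pCore_map_le (p := p) K
  exact h2 ⟨⟨x, hxK⟩, h1 hx, rfl⟩

/-- the `V` and `W` functions -/
def VF (D : Set G) (d : G) : Set (Set G) := {S | S = {x | x ∈ D ∧ Commute d x}}

def WF (D : Set G) (d : G) : Set (Set G) := {S | S = P D d}

theorem VF_eq {d e : G} : VF D d = VF D e ↔ ∀ x ∈ D, Commute d x ↔ Commute e x := by
  constructor
  · intro hh
    have h1 : ({x | x ∈ D ∧ Commute d x} : Set G) = {x | x ∈ D ∧ Commute e x} := by
      have : ({x | x ∈ D ∧ Commute d x} : Set G) ∈ VF D e := by rw [← hh]; rfl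
      exact this
    intro x hx
    constructor
    · intro hc
      have : x ∈ ({x | x ∈ D ∧ Commute d x} : Set G) := ⟨hx, hc⟩
      rw [h1] at this; exact this.2
    · intro hc
      have : x ∈ ({x | x ∈ D ∧ Commute e x} : Set G) := ⟨hx, hc⟩
      rw [← h1] at this; exact this.2
  · intro hh
    have h1 : ({x | x ∈ D ∧ Commute d x} : Set G) = {x | x ∈ D ∧ Commute e x} := by
      ext x
      exact ⟨fun hx => ⟨hx.1, (hh x hx.1).1 hx.2⟩, fun hx => ⟨hx.1, (hh x hx.1).2 hx.2⟩⟩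
    simp only [VF, h1]

theorem WF_eq {d e : G} : WF D d = WF D e ↔ P D d = P D e := by
  constructor
  · intro hh
    have : (P D d : Set G) ∈ WF D e := by rw [← hh]; rfl
    exact this
  · intro hh
    simp only [WF, hh]

theorem VF_eqv (h : TT D) : Eqv D (VF D) := by
  intro g d e _ _ hde
  rw [VF_eq] at hde ⊢
  have aux : ∀ d x : G, Commute (g * d * g⁻¹) x ↔ Commute d (g⁻¹ * x * g⁻¹⁻¹) := by
    intro d x
    constructor
    · intro hc
      have := commute_conj (g := g⁻¹) hc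
      have e1 : g⁻¹ * (g * d * g⁻¹) * g⁻¹⁻¹ = d := by group
      rwa [e1] at this
    · intro hc
      have := commute_conj (g := g) hc
      have e1 : g * (g⁻¹ * x * g⁻¹⁻¹) * g⁻¹ = x := by group
      rwa [e1] at this
  intro x hx
  rw [aux d, aux e]
  exact hde _ (h.cj g⁻¹ x hx)

theorem WF_eqv (h : TT D) : Eqv D (WF D) := by
  intro g d e _ _ hde
  rw [WF_eq] at hde ⊢
  rw [h.P_conj_eq, h.P_conj_eq, hde]

/-- non-commuting members are conjugate by their product -/
theorem conj_of_not_comm (h : TT D) {d e : G} (hd : d ∈ D) (he : e ∈ D) (hde : ¬ Commute d e) : (d * e) * d * (d * e)⁻¹ = e := by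
  have br := (h.br d hd e he).resolve_left hde
  calc d * e * d * (d * e)⁻¹ = (d * e * d) * (e⁻¹ * d⁻¹) := by group
    _ = e * (d * (e * e⁻¹) * d⁻¹) := by rw [br]; group
    _ = e := by group

theorem class_norm (h : TT D) (F : G → Set (Set G)) (x : G) :
    ∀ k ∈ KF h F, ∀ a ∈ closure {z : G | z ∈ D ∧ F z = F x}, k * a * k⁻¹ ∈ closure {z : G | z ∈ D ∧ F z = F x} := by
  intro k hk a ha
  induction ha using Subgroup.closure_induction with
  | mem z hz => exact subset_closure ⟨h.cj k z hz.1, (hk z hz.1).trans hz.2⟩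
  | one => simpa using Subgroup.one_mem _
  | mul a b _ _ ha hb =>
    have e1 : k * (a * b) * k⁻¹ = (k * a * k⁻¹) * (k * b * k⁻¹) := by group
    rw [e1]; exact mul_mem ha hb
  | inv a _ ha =>
    have e1 : k * a⁻¹ * k⁻¹ = (k * a * k⁻¹)⁻¹ := by group
    rw [e1]; exact inv_mem ha

/-- members with the same commuting members differ by an element of `O₂` -/
theorem V_core [Finite G] (h : TT D) {x y : G} (hx : x ∈ D) (hy : y ∈ D) (hxy : VF D x = VF D y) : x * y ∈ Cfsg.pCore 2 G := by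
  haveI : Fact (Nat.Prime 2) := ⟨Nat.prime_two⟩
  haveI := KF_normal h (VF_eqv h)
  have h2 : IsPGroup 2 (closure {z : G | z ∈ D ∧ VF D z = VF D x}) := by
    apply two_of_comm h (fun z hz => hz.1)
    intro a ha b hb
    have : VF D a = VF D b := ha.2.trans hb.2.symm
    exact (VF_eq.1 this b hb.1).2 (Commute.refl b)
  exact mem_pCore_of (K := KF h (VF D)) h2 (class_norm h (VF D) x)
    (mul_mem (subset_closure ⟨hx, rfl⟩) (subset_closure ⟨hy, hxy.symm⟩)) (mul_mem_KF h (VF_eqv h) hx hy hxy)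

/-- members with the same other commuting members differ by an element of `O₃` -/
theorem W_core [Finite G] (h : TT D) {x y : G} (hx : x ∈ D) (hy : y ∈ D) (hxy : WF D x = WF D y) : x * y ∈ Cfsg.pCore 3 G := by
  haveI : Fact (Nat.Prime 3) := ⟨Nat.prime_three⟩
  haveI := KF_normal h (WF_eqv h)
  -- distinct members of a class do not commute
  have hnc : ∀ z w : G, z ∈ D → w ∈ D → WF D z = WF D w → Commute z w → z = w := by
    intro z w hz hw hzw hc
    by_contra hne
    have h1 : w ∈ P D z := ⟨hw, Ne.symm hne, hc⟩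
    rw [WF_eq.1 hzw] at h1
    exact h1.2.1 rfl
  set U := closure {z : G | z ∈ D ∧ WF D z = WF D x} with hU
  have hxU : x ∈ U := subset_closure ⟨hx, rfl⟩
  -- `U` preserves the class
  have hUc : ∀ g ∈ U, ∀ w ∈ D, WF D w = WF D x → WF D (g * w * g⁻¹) = WF D x := by
    intro g hg
    rw [hU] at hg
    induction hg using Subgroup.closure_induction with
    | mem z hz =>
      intro w hw hwx
      have h1 := WF_eqv h z w z hw hz.1 (hwx.trans hz.2.symm)
      have e1 : z * z * z⁻¹ = z := by group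
      rw [e1] at h1
      exact h1.trans hz.2
    | one => intro w _ hwx; simpa using hwx
    | mul a b _ _ ha hb =>
      intro w hw hwx
      have e1 : a * b * w * (a * b)⁻¹ = a * (b * w * b⁻¹) * a⁻¹ := by group
      rw [e1]
      exact ha _ (h.cj b w hw) (hb w hw hwx)
    | inv a _ ha =>
      intro w hw hwx
      have hpow : ∀ n : ℕ, ∀ w ∈ D, WF D w = WF D x → WF D (a ^ n * w * (a ^ n)⁻¹) = WF D x := by
        intro n
        induction n with
        | zero => intro w _ hwx; simpa using hwx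
        | succ n ih =>
          intro w hw hwx
          have e1 : a ^ (n + 1) * w * (a ^ (n + 1))⁻¹ = a * (a ^ n * w * (a ^ n)⁻¹) * a⁻¹ := by rw [pow_succ']; group
          rw [e1]
          exact ha _ (h.cj (a ^ n) w hw) (ih w hw hwx)
      have h1 := hpow (orderOf a - 1) w hw hwx
      have h2 : a ^ (orderOf a - 1) = a⁻¹ := by
        have h3 : a ^ (orderOf a - 1) * a = 1 := by
          rw [← pow_succ, Nat.sub_add_cancel (orderOf_pos a), pow_orderOf_eq_one]
        exact eq_inv_of_mul_eq_one_left h3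
      rwa [h2] at h1
  -- products are in `O₃(U)`
  have hprod : ∀ z w : G, z ∈ D → w ∈ D → WF D z = WF D x → WF D w = WF D x → z * w ∈ (Cfsg.pCore 3 U).map U.subtype := by
    intro z w hz hw hzx hwx
    by_cases hx1 : x = 1
    · -- then all members are trivial
      have : z = x := hnc z x hz hx hzx (by rw [hx1]; exact Commute.one_right z)
      have h2 : w = x := hnc w x hw hx hwx (by rw [hx1]; exact Commute.one_right w)
      rw [this, h2, hx1, one_mul]
      exact one_mem _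
    · have ho : orderOf (⟨x, hxU⟩ : U) = 2 := by
        rw [← Subgroup.orderOf_coe]
        exact orderOf_eq_prime (by rw [pow_two]; exact h.sq x hx) hx1
      have hcj : ∀ z : G, ∀ hz : z ∈ D, ∀ hzx : WF D z = WF D x, IsConj (⟨x, hxU⟩ : U) ⟨z, subset_closure ⟨hz, hzx⟩⟩ := by
        intro z hz hzx
        by_cases hc : Commute x z
        · have := hnc z x hz hx hzx hc.symm
          subst this
          exact IsConj.refl _
        · refine isConj_iff.2 ⟨⟨x * z, mul_mem hxU (subset_closure ⟨hz, hzx⟩)⟩, Subtype.ext ?_⟩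
          exact conj_of_not_comm h hx hz hc
      have h1 := CfsgLib.Zstar.conj_prod_mem (p := 3) (by norm_num) ho (by
        intro g
        have hg := hUc g g.2 x hx rfl
        have h3 : (x * ((g : G) * x * (g : G)⁻¹)) ^ 3 = 1 := by
          by_cases hc : Commute x ((g : G) * x * (g : G)⁻¹)
          · have := hnc _ _ hx (h.cj g x hx) hg.symm hc
            rw [← this, h.sq x hx, one_pow]
          · exact h.cube hx (h.cj g x hx) hc
        have h4 : ((⟨x, hxU⟩ : U) * (g * ⟨x, hxU⟩ * g⁻¹)) ^ 3 = 1 := Subtype.ext h3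
        obtain ⟨k, _, hk⟩ := (Nat.dvd_prime_pow Nat.prime_three).1 (by
          rw [pow_one]; exact orderOf_dvd_of_pow_eq_one h4 : orderOf ((⟨x, hxU⟩ : U) * (g * ⟨x, hxU⟩ * g⁻¹)) ∣ 3 ^ 1)
        exact ⟨k, hk⟩) (hcj z hz hzx) (hcj w hw hwx)
      exact ⟨_, h1, rfl⟩
  -- the subgroup generated by the products
  set A := closure {g : G | ∃ z w : G, z ∈ D ∧ w ∈ D ∧ WF D z = WF D x ∧ WF D w = WF D x ∧ g = z * w} with hA
  have hAle : A ≤ (Cfsg.pCore 3 U).map U.subtype := by
    rw [hA, closure_le]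
    rintro g ⟨z, w, hz, hw, hzx, hwx, rfl⟩
    exact hprod z w hz hw hzx hwx
  have hAp : IsPGroup 3 A := ((CfsgLib.Core.pCore_isPGroup 3 U).map _).to_le hAle
  refine mem_pCore_of (K := KF h (WF D)) hAp ?_ (subset_closure ⟨x, y, hx, hy, rfl, hxy.symm, rfl⟩) (mul_mem_KF h (WF_eqv h) hx hy hxy)
  intro k hk a ha
  rw [hA] at ha
  induction ha using Subgroup.closure_induction with
  | mem g hg =>
    obtain ⟨z, w, hz, hw, hzx, hwx, rfl⟩ := hg
    exact subset_closure ⟨k * z * k⁻¹, k * w * k⁻¹, h.cj k z hz, h.cj k w hw, (hk z hz).trans hzx, (hk w hw).trans hwx, by group⟩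
  | one => simpa using Subgroup.one_mem _
  | mul a b _ _ ha hb =>
    have e1 : k * (a * b) * k⁻¹ = (k * a * k⁻¹) * (k * b * k⁻¹) := by group
    rw [e1]; exact mul_mem ha hb
  | inv a _ ha =>
    have e1 : k * a⁻¹ * k⁻¹ = (k * a * k⁻¹)⁻¹ := by group
    rw [e1]; exact inv_mem ha


theorem eq_one_of_coprime [Finite G] {p m : ℕ} [Fact p.Prime] (hm : Nat.Coprime m p) {x : G} (hx : x ^ m = 1)
    (hxp : x ∈ Cfsg.pCore p G) : x = 1 := by
  obtain ⟨k, hk⟩ := CfsgLib.Core.pCore_isPGroup p G ⟨x, hxp⟩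
  have hk' : x ^ p ^ k = 1 := congrArg Subtype.val hk
  have h1 : orderOf x ∣ m := orderOf_dvd_of_pow_eq_one hx
  have h4 : orderOf x ∣ p ^ k := orderOf_dvd_of_pow_eq_one hk'
  have : orderOf x ∣ 1 := by rw [← (Nat.Coprime.pow_right k hm : Nat.gcd m (p ^ k) = 1)]; exact Nat.dvd_gcd h1 h4
  exact orderOf_eq_one_iff.1 (Nat.dvd_one.1 this)

/-- `(e v)² ∈ N` when `e` commutes with `d` and `d v ∈ N` -/
theorem sq_mem (h : TT D) {N : Subgroup G} [hN : N.Normal] {d v e : G} (hd : d ∈ D) (he : e ∈ D) (hq : d * v ∈ N)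
    (hc : Commute d e) : (e * v) ^ 2 ∈ N := by
  have hed : (e * d) * (e * d) = 1 := by
    calc (e * d) * (e * d) = e * (d * e) * d := by group
      _ = (e * e) * (d * d) := by rw [hc.eq]; group
      _ = 1 := by rw [h.sq e he, h.sq d hd, one_mul]
  have e1 : (e * v) ^ 2 = (e * d) * (d * v) * (e * d)⁻¹ * (d * v) := by
    have i1 : (e * d)⁻¹ = e * d := inv_eq_of_mul_eq_one_left hed
    have hv : v = d * (d * v) := by rw [← mul_assoc, h.sq d hd, one_mul]
    calc (e * v) ^ 2 = (e * (d * (d * v))) * (e * (d * (d * v))) := by rw [← hv, pow_two]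
      _ = (e * d) * (d * v) * (e * d) * (d * v) := by group
      _ = _ := by rw [i1]
  rw [e1]
  exact mul_mem (hN.conj_mem _ hq _) hq

theorem mem_of_sq_cube {N : Subgroup G} {x : G} (h2 : x ^ 2 ∈ N) (h3 : x ^ 3 = 1) : x ∈ N := by
  have : x = x ^ 3 * (x ^ 2)⁻¹ := by group
  rw [this, h3, one_mul]
  exact inv_mem h2

theorem V_of_core [Finite G] (h : TT D) {d v : G} (hd : d ∈ D) (hv : v ∈ D) (hq : d * v ∈ Cfsg.pCore 2 G) : VF D d = VF D v := by
  haveI : Fact (Nat.Prime 2) := ⟨Nat.prime_two⟩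
  haveI := CfsgLib.Core.pCore_normal 2 G
  have key : ∀ d v : G, d ∈ D → v ∈ D → d * v ∈ Cfsg.pCore 2 G → ∀ e ∈ D, Commute d e → Commute v e := by
    intro d v hd hv hq e he hc
    by_contra hn
    have h3 := h.cube he hv (fun hh => hn hh.symm)
    have h1 := mem_of_sq_cube (sq_mem h hd he hq hc) h3
    have h4 := eq_one_of_coprime (by norm_num) h3 h1
    apply hn
    have : e = v := by rw [eq_inv_of_mul_eq_one_left h4, h.inv hv]
    rw [this]
  have hq' : v * d ∈ Cfsg.pCore 2 G := by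
    have : v * d = (d * v)⁻¹ := by rw [mul_inv_rev, h.inv hd, h.inv hv]
    rw [this]; exact inv_mem hq
  rw [VF_eq]
  intro x hx
  exact ⟨key d v hd hv hq x hx, key v d hv hd hq' x hx⟩

theorem W_of_core [Finite G] (h : TT D) {d v : G} (hd : d ∈ D) (hv : v ∈ D) (hq : d * v ∈ Cfsg.pCore 3 G) : WF D d = WF D v := by
  haveI : Fact (Nat.Prime 3) := ⟨Nat.prime_three⟩
  haveI := CfsgLib.Core.pCore_normal 3 G
  have key : ∀ d v : G, d ∈ D → v ∈ D → d * v ∈ Cfsg.pCore 3 G → P D d ⊆ P D v := by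
    intro d v hd hv hq y hy
    have hsq : ∀ a b : G, a ∈ D → b ∈ D → Commute a b → a * b ∈ Cfsg.pCore 3 G → a = b := by
      intro a b ha hb hab hm
      have h2 : (a * b) ^ 2 = 1 := by rw [hab.mul_pow, pow_two, pow_two, h.sq a ha, h.sq b hb, one_mul]
      rw [eq_inv_of_mul_eq_one_left (eq_one_of_coprime (by norm_num) h2 hm), h.inv hb]
    have hyv : Commute v y := by
      by_contra hn
      have h3 := h.cube hy.1 hv (fun hh => hn hh.symm)
      have h1 := mem_of_sq_cube (sq_mem h hd hy.1 hq hy.2.2) h3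
      have h4 : y * d ∈ Cfsg.pCore 3 G := by
        have : y * d = (y * v) * (d * v)⁻¹ := by
          rw [mul_inv_rev, h.inv hd, h.inv hv]
          calc y * d = y * 1 * d := by rw [mul_one]
            _ = (y * v) * (v * d) := by rw [← h.sq v hv]; group
        rw [this]; exact mul_mem h1 (inv_mem hq)
      exact hy.2.1 (hsq y d hy.1 hd hy.2.2.symm h4)
    refine ⟨hy.1, ?_, hyv⟩
    rintro rfl
    exact hy.2.1 (hsq d y hd hv hy.2.2 hq).symm
  have hq' : v * d ∈ Cfsg.pCore 3 G := by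
    have : v * d = (d * v)⁻¹ := by rw [mul_inv_rev, h.inv hd, h.inv hv]
    rw [this]; exact inv_mem hq
  rw [WF_eq]
  exact Set.Subset.antisymm (key d v hd hv hq) (key v d hv hd hq')

/-- two members with the same image in the string are swapped -/
theorem swap_identity (h : TT D) {d v a : G} (hd : d ∈ D) (hv : v ∈ D) (ha : a ∈ D) (hdv : Commute d v) (hda : ¬ Commute d a)
    (hva : ¬ Commute v a) : (a * (d * v) * a⁻¹) * d * (a * (d * v) * a⁻¹)⁻¹ = v := by
  have b1 := (h.br d hd a ha).resolve_left hda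
  have b2 := (h.br v hv a ha).resolve_left hva
  have ia := h.inv ha
  have id' := h.inv hd
  have iv := h.inv hv
  have hda' := hdv.eq
  have haa := h.sq a ha
  have hdd := h.sq d hd
  have hvv := h.sq v hv
  calc (a * (d * v) * a⁻¹) * d * (a * (d * v) * a⁻¹)⁻¹ = a * (v * d) * a * d * (a * (v * d) * a) := by
        simp only [mul_inv_rev, inv_inv, ia, id', iv, hda']; group
    _ = a * v * (d * a * d) * a * v * d * a := by group
    _ = a * v * a * d * (a * a) * v * d * a := by rw [b1]; group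
    _ = a * v * a * (d * v) * d * a := by rw [haa]; group
    _ = a * v * a * v * (d * d) * a := by rw [hda']; group
    _ = (a * v * a) * v * a := by rw [hdd]; group
    _ = v * a * (v * v) * a := by rw [← b2]; group
    _ = v * (a * a) := by rw [hvv]; group
    _ = v := by rw [haa, mul_one]

/-- one class, non-abelian -/
structure R1 (D : Set G) : Prop where
  tt : TT D
  gen : closure D = ⊤
  cl : ∀ d ∈ D, ∀ e ∈ D, ∃ g : G, g * d * g⁻¹ = e
  ne : D.Nonempty
  nc : ∃ a ∈ D, ∃ b ∈ D, ¬ Commute a b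
  n1 : ∀ d ∈ D, d ≠ 1

theorem r1_of (hD : Cfsg.IsThreeTranspositionClass D) (hD2 : ∃ a ∈ D, ∃ b ∈ D, a ≠ b) : R1 D := by
  have h := tt_class hD
  have hcl := class_trans hD
  have hne : D.Nonempty := by obtain ⟨d, hd, _⟩ := hD.2.1; exact ⟨d, hd⟩
  refine ⟨h, hD.2.2, hcl, hne, exists_notComm h hD.2.2 ?_, ?_⟩
  · obtain ⟨a, ha, b, hb, hab⟩ := hD2
    obtain ⟨g, hg⟩ := hcl a ha b hb
    refine ⟨g, a, fun hc => hab ?_⟩
    rw [← hg, hc]; group
  · rintro d hd rfl
    have := hD.1.1 1 hd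
    simp at this

theorem R1.an (r : R1 D) {d : G} (hd : d ∈ D) : (A D d).Nonempty := by
  obtain ⟨a, ha, b, hb, hab⟩ := r.nc
  obtain ⟨g, rfl⟩ := r.cl a ha d hd
  refine ⟨g * b * g⁻¹, r.tt.cj g b hb, fun hc => hab ?_⟩
  have := commute_conj (g := g⁻¹) hc
  have e1 : g⁻¹ * (g * a * g⁻¹) * g⁻¹⁻¹ = a := by group
  have e2 : g⁻¹ * (g * b * g⁻¹) * g⁻¹⁻¹ = b := by group
  rwa [e1, e2] at this

/-- the `V`-class is an orbit of `O₂` -/
theorem R1.V_orbit [Finite G] (r : R1 D) {d v : G} (hd : d ∈ D) (hv : v ∈ D) (hq : d * v ∈ Cfsg.pCore 2 G) :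
    ∃ g ∈ Cfsg.pCore 2 G, v = g * d * g⁻¹ := by
  haveI : Fact (Nat.Prime 2) := ⟨Nat.prime_two⟩
  have h := r.tt
  obtain ⟨a, ha, hda⟩ := r.an hd
  have h1 := VF_eq.1 (V_of_core h hd hv hq)
  have hdv : Commute d v := (h1 v hv).2 (Commute.refl v)
  have hva : ¬ Commute v a := fun hc => hda ((h1 a ha).2 hc)
  exact ⟨a * (d * v) * a⁻¹, (CfsgLib.Core.pCore_normal 2 G).conj_mem _ hq a, (swap_identity h hd hv ha hdv hda hva).symm⟩

theorem W_orbit [Finite G] (h : TT D) {d v : G} (hd : d ∈ D) (hv : v ∈ D) (hq : d * v ∈ Cfsg.pCore 3 G) :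
    ∃ g ∈ Cfsg.pCore 3 G, v = g * d * g⁻¹ := by
  haveI : Fact (Nat.Prime 3) := ⟨Nat.prime_three⟩
  by_cases hc : Commute d v
  · have h2 : (d * v) ^ 2 = 1 := by rw [hc.mul_pow, pow_two, pow_two, h.sq d hd, h.sq v hv, one_mul]
    have : d = v := by rw [eq_inv_of_mul_eq_one_left (eq_one_of_coprime (by norm_num) h2 hq), h.inv hv]
    exact ⟨1, one_mem _, by rw [this]; group⟩
  · exact ⟨d * v, hq, (conj_of_not_comm h hd hv hc).symm⟩

end CfsgLib.TT
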