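import Cfsg.Agent.Lib.TT7

/-!
# 3-transposition groups: components
-/

set_option autoImplicit false

namespace CfsgLib.TT

universe u
variable {G : Type u} [Group G] {D : Set G} [Finite G]

open Subgroup
open scoped commutatorElement

/-- the members do not centralize the components -/
theorem R1.no_cent (r : R1 D) {K : Subgroup G} (hK : Cfsg.IsComponent K) {d : G} (hd : d ∈ D) : ¬ ∀ k ∈ K, Commute d k := by
  intro hall
  haveI := comp_normal r.tt r.gen hK r.cl
  apply CfsgLib.Comp.qs_center_ne_top hK.2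
  have hDc : centralizer (K : Set G) = ⊤ := by
    apply le_of_D r.gen
    intro y hy
    obtain ⟨g, rfl⟩ := r.cl d hd y hy
    rw [mem_centralizer_iff]
    intro k hk
    have h1 := hall (g⁻¹ * k * g⁻¹⁻¹) ((inferInstance : K.Normal).conj_mem k hk g⁻¹)
    have h2 := commute_conj (g := g) h1
    have e1 : g * (g⁻¹ * k * g⁻¹⁻¹) * g⁻¹ = k := by group
    rw [e1] at h2
    exact h2.symm.eq
  rw [eq_top_iff]
  intro a _
  rw [mem_center_iff]
  intro b
  have := mem_centralizer_iff.1 (hDc ▸ mem_top (a : G) : (a : G) ∈ centralizer (K : Set G)) b b.2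
  exact Subtype.ext this

/-- `[d, K] = K` -/
theorem R1.comm_eq (r : R1 D) {K : Subgroup G} (hK : Cfsg.IsComponent K) {d : G} (hd : d ∈ D) :
    closure {g : G | ∃ k ∈ K, g = d * (k * d * k⁻¹)} = K := by
  haveI hKn := comp_normal r.tt r.gen hK r.cl
  have id' := r.tt.inv hd
  set N := closure {g : G | ∃ k ∈ K, g = d * (k * d * k⁻¹)} with hN
  have hNK : N ≤ K := by
    rw [hN, closure_le]
    rintro g ⟨k, hk, rfl⟩
    have e1 : d * (k * d * k⁻¹) = (d * k * d⁻¹) * k⁻¹ := by rw [id']; group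
    rw [e1]
    exact mul_mem (hKn.conj_mem k hk d) (inv_mem hk)
  have hNn : ∀ j ∈ K, ∀ n ∈ N, j * n * j⁻¹ ∈ N := by
    intro j hj n hn
    rw [hN] at hn
    induction hn using Subgroup.closure_induction with
    | mem g hg =>
      obtain ⟨k, hk, rfl⟩ := hg
      have e1 : j * (d * (k * d * k⁻¹)) * j⁻¹ = (d * (j * d * j⁻¹))⁻¹ * (d * ((j * k) * d * (j * k)⁻¹)) := by
        have hxx := r.tt.sq d hd
        calc j * (d * (k * d * k⁻¹)) * j⁻¹ = j * d * j⁻¹ * 1 * (j * k * d * k⁻¹ * j⁻¹) := by group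
          _ = j * d * j⁻¹ * (d * d) * (j * k * d * k⁻¹ * j⁻¹) := by rw [hxx]
          _ = _ := by simp only [mul_inv_rev, inv_inv, id']; group
      rw [e1]
      exact mul_mem (inv_mem (subset_closure ⟨j, hj, rfl⟩)) (subset_closure ⟨j * k, mul_mem hj hk, rfl⟩)
    | one => simpa using Subgroup.one_mem _
    | mul a b _ _ ha hb =>
      have e1 : j * (a * b) * j⁻¹ = (j * a * j⁻¹) * (j * b * j⁻¹) := by group
      rw [e1]; exact mul_mem ha hb
    | inv a _ ha =>
      have e1 : j * a⁻¹ * j⁻¹ = (j * a * j⁻¹)⁻¹ := by group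
      rw [e1]; exact inv_mem ha
  have hNn' : (N.subgroupOf K).Normal := by
    refine ⟨?_⟩
    intro n hn j
    exact hNn j j.2 n hn
  rcases CfsgLib.Comp.qs_normal hK.2 _ hNn' with h1 | h1
  · rw [subgroupOf_eq_top] at h1
    exact le_antisymm hNK h1
  · exfalso
    apply r.no_cent hK hd
    -- the commutators are central in `K`
    have hz : ∀ k ∈ K, ∀ l ∈ K, Commute (d * (k * d * k⁻¹)) l := by
      intro k hk l hl
      have hm : d * (k * d * k⁻¹) ∈ N := subset_closure ⟨k, hk, rfl⟩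
      have h2 := h1 (show (⟨_, hNK hm⟩ : K) ∈ N.subgroupOf K from hm)
      exact (congrArg Subtype.val (mem_center_iff.1 h2 ⟨l, hl⟩)).symm
    haveI hperf := hK.2.1
    have h2 : ⁅⁅K, zpowers d⁆, K⁆ = ⊥ := by
      have h3 : ⁅K, zpowers d⁆ ≤ centralizer (K : Set G) := by
        rw [commutator_le]
        intro k hk x hx
        obtain ⟨i, rfl⟩ := mem_zpowers_iff.1 hx
        rw [mem_centralizer_iff]
        intro l hl
        have hdd := r.tt.sq d hd
        rcases Int.even_or_odd i with ⟨j, hj⟩ | ⟨j, hj⟩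
        · have : d ^ i = 1 := by rw [hj, ← two_mul, zpow_mul, zpow_two, hdd, one_zpow]
          rw [this]; simp
        · have : d ^ i = d := by rw [hj, zpow_add, zpow_mul, zpow_two, hdd, one_zpow, one_mul, zpow_one]
          rw [this]
          have e1 : ⁅k, d⁆ = (d * (k * d * k⁻¹))⁻¹ := by
            rw [commutatorElement_def]; simp only [mul_inv_rev, inv_inv, id']; group
          rw [e1]
          exact (hz k hk l hl).inv_left.symm.eq
      rw [commutator_eq_bot_iff_le_centralizer]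
      exact h3
    have h4 := CfsgLib.Comp.commutator_eq_bot_of_perfect hperf h2
    intro k hk
    exact (CfsgLib.Comp.comm_iff.1 h4 k hk d (mem_zpowers d)).symm

/-- a conjugate under `K` not commuting with `d` -/
theorem R1.exists_nc (r : R1 D) {K : Subgroup G} (hK : Cfsg.IsComponent K) {d : G} (hd : d ∈ D) :
    ∃ k ∈ K, ¬ Commute d (k * d * k⁻¹) := by
  by_contra hcon
  push Not at hcon
  have hc := r.comm_eq hK hd
  -- then `K` is abelian
  have hcc : ∀ k ∈ K, ∀ l ∈ K, Commute (k * d * k⁻¹) (l * d * l⁻¹) := by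
    intro k hk l hl
    have h1 := commute_conj (g := k) (hcon (k⁻¹ * l) (mul_mem (inv_mem hk) hl))
    have e1 : k * ((k⁻¹ * l) * d * (k⁻¹ * l)⁻¹) * k⁻¹ = l * d * l⁻¹ := by group
    rwa [e1] at h1
  have hd1 : ∀ k ∈ K, Commute d (k * d * k⁻¹) := hcon
  have hgen : ∀ x ∈ closure {g : G | ∃ k ∈ K, g = d * (k * d * k⁻¹)}, ∀ y ∈ closure {g : G | ∃ k ∈ K, g = d * (k * d * k⁻¹)}, Commute x y := by
    intro x hx y hy
    induction hx, hy using Subgroup.closure_induction₂ with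
    | mem u v hu hv =>
      obtain ⟨k, hk, rfl⟩ := hu
      obtain ⟨l, hl, rfl⟩ := hv
      exact ((Commute.refl d).mul_right (hd1 l hl)).mul_left ((hd1 k hk).symm.mul_right (hcc k hk l hl))
    | one_left v _ => exact Commute.one_left v
    | one_right u _ => exact Commute.one_right u
    | mul_left a b c _ _ _ h1 h2 => exact h1.mul_left h2
    | mul_right a b c _ _ _ h1 h2 => exact h1.mul_right h2
    | inv_left a b _ _ h1 => exact h1.inv_left
    | inv_right a b _ _ h1 => exact h1.inv_right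
  rw [hc] at hgen
  apply CfsgLib.Comp.qs_center_ne_top hK.2
  rw [eq_top_iff]
  intro a _
  rw [mem_center_iff]
  intro b
  exact Subtype.ext (hgen b b.2 a a.2).eq

/-- a conjugate under `K` different from `d` and commuting with `d` -/
theorem R1.exists_c (r : R1 D) {K : Subgroup G} (hK : Cfsg.IsComponent K) {d : G} (hd : d ∈ D) :
    ∃ k ∈ K, k * d * k⁻¹ ≠ d ∧ Commute d (k * d * k⁻¹) := by
  haveI : Fact (Nat.Prime 3) := ⟨Nat.prime_three⟩
  haveI hKn := comp_normal r.tt r.gen hK r.cl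
  by_contra hcon
  push Not at hcon
  have hc := r.comm_eq hK hd
  have h := r.tt
  have hcube : ∀ k ∈ K, (d * (k * d * k⁻¹)) ^ 3 = 1 := by
    intro k hk
    by_cases he : k * d * k⁻¹ = d
    · rw [he, h.sq d hd, one_pow]
    · exact h.cube hd (h.cj k d hd) (hcon k hk he)
  -- the group `X = K⟨d⟩`
  set X := K ⊔ zpowers d with hX
  have hdX : d ∈ X := (le_sup_right : zpowers d ≤ X) (mem_zpowers d)
  have hKX : K ≤ X := le_sup_left
  have ho : orderOf (⟨d, hdX⟩ : X) = 2 := by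
    rw [← Subgroup.orderOf_coe]
    exact orderOf_eq_prime (by rw [pow_two]; exact h.sq d hd) (r.n1 d hd)
  have hXc : ∀ g : X, ∃ k ∈ K, (g : G) * d * (g : G)⁻¹ = k * d * k⁻¹ := by
    rintro ⟨g, hg⟩
    have hg' : g ∈ ((K ⊔ zpowers d : Subgroup G) : Set G) := hg
    rw [Subgroup.normal_mul] at hg'
    obtain ⟨k, hk, x, hx, he⟩ := hg'
    obtain ⟨i, rfl⟩ := mem_zpowers_iff.1 hx
    refine ⟨k, hk, ?_⟩
    subst he
    show k * d ^ i * d * (k * d ^ i)⁻¹ = k * d * k⁻¹
    have : d ^ i * d * (d ^ i)⁻¹ = d := by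
      rw [← zpow_add_one, ← zpow_neg, ← zpow_add]
      have : i + 1 + -i = 1 := by ring
      rw [this, zpow_one]
    calc k * d ^ i * d * (k * d ^ i)⁻¹ = k * (d ^ i * d * (d ^ i)⁻¹) * k⁻¹ := by group
      _ = _ := by rw [this]
  have hprod : ∀ k ∈ K, d * (k * d * k⁻¹) ∈ (Cfsg.pCore 3 X).map X.subtype := by
    intro k hk
    have h1 := CfsgLib.Zstar.conj_prod_mem (p := 3) (by norm_num) ho (by
      intro g
      obtain ⟨l, hl, he⟩ := hXc g
      have h4 : ((⟨d, hdX⟩ : X) * (g * ⟨d, hdX⟩ * g⁻¹)) ^ 3 = 1 := by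
        apply Subtype.ext
        show (d * ((g : G) * d * (g : G)⁻¹)) ^ 3 = 1
        rw [he]; exact hcube l hl
      obtain ⟨k, _, hk⟩ := (Nat.dvd_prime_pow Nat.prime_three).1 (by
        rw [pow_one]; exact orderOf_dvd_of_pow_eq_one h4 : orderOf ((⟨d, hdX⟩ : X) * (g * ⟨d, hdX⟩ * g⁻¹)) ∣ 3 ^ 1)
      exact ⟨k, hk⟩) (IsConj.refl (⟨d, hdX⟩ : X)) (isConj_iff.2 ⟨⟨k, hKX hk⟩, rfl⟩)
    exact ⟨_, h1, rfl⟩
  have hle : K ≤ (Cfsg.pCore 3 X).map X.subtype := by
    rw [← hc, closure_le]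
    rintro g ⟨k, hk, rfl⟩
    exact hprod k hk
  have hKp : IsPGroup 3 K := ((CfsgLib.Core.pCore_isPGroup 3 X).map _).to_le hle
  exact CfsgLib.Comp.qs_not_nilpotent hK.2 hKp.isNilpotent

/-- products of `d` and its `K`-conjugates -/
theorem R1.prod_mem (r : R1 D) {K : Subgroup G} (hK : Cfsg.IsComponent K) {d : G} (hd : d ∈ D) {k : G} (hk : k ∈ K) :
    d * (k * d * k⁻¹) ∈ K := by
  have := r.comm_eq hK hd
  rw [← this]
  exact subset_closure ⟨k, hk, rfl⟩

/-- uniqueness of the component -/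
theorem R1.comp_unique (r : R1 D) {K L : Subgroup G} (hK : Cfsg.IsComponent K) (hL : Cfsg.IsComponent L) : K = L := by
  rcases CfsgLib.Comp.eq_or_comm hK hL with h1 | h1
  · exact h1
  exfalso
  rw [CfsgLib.Comp.comm_iff] at h1
  obtain ⟨d, hd⟩ := r.ne
  have h := r.tt
  obtain ⟨k, hk, hk1⟩ := r.exists_nc hK hd
  obtain ⟨m, hm, hm1, hm2⟩ := r.exists_c hL hd
  have he := h.cj k d hd
  have hf := h.cj m d hd
  set e := k * d * k⁻¹ with hedef
  set f := m * d * m⁻¹ with hfdef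
  have hc : Commute (d * e) (d * f) := h1 _ (r.prod_mem hK hd hk) _ (r.prod_mem hL hd hm)
  have hdd := h.sq d hd
  have hee := h.sq e he
  have hff := h.sq f hf
  have hde3 := h.cube hd he hk1
  have hdf2 : (d * f) ^ 2 = 1 := by rw [hm2.mul_pow, pow_two, pow_two, hdd, hff, one_mul]
  have hef : e * f = (d * e)⁻¹ * (d * f) := by rw [mul_inv_rev, h.inv he]; group
  by_cases hcf : Commute e f
  · have h2 : (e * f) ^ 2 = 1 := by rw [hcf.mul_pow, pow_two, pow_two, hee, hff, one_mul]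
    rw [hef, hc.inv_left.mul_pow, hdf2, mul_one, inv_pow, inv_eq_one] at h2
    have h3 : d * e = 1 := by
      have : d * e = (d * e) ^ 3 * ((d * e) ^ 2)⁻¹ := by group
      rw [this, hde3, h2]; simp
    apply hk1
    have : d = e := by rw [eq_inv_of_mul_eq_one_left h3, h.inv he]
    rw [← this]
  · have h2 := h.cube he hf hcf
    rw [hef, hc.inv_left.mul_pow, inv_pow, hde3, inv_one, one_mul] at h2
    have h3 : d * f = 1 := by
      have : d * f = (d * f) ^ 3 * ((d * f) ^ 2)⁻¹ := by group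
      rw [this, hdf2, h2]; simp
    apply hm1
    rw [eq_inv_of_mul_eq_one_right h3, h.inv hd]

/-- commuting members are conjugate under the component -/
theorem R1.conj_of_comm (r : R1 D) {K : Subgroup G} (hK : Cfsg.IsComponent K) {x z : G} (hx : x ∈ D) (hz : z ∈ D) (hxz : Commute x z) :
    ∃ k ∈ K, k * x * k⁻¹ = z := by
  haveI hKn := comp_normal r.tt r.gen hK r.cl
  have h := r.tt
  by_contra hcon
  push Not at hcon
  have h1 : ∀ k ∈ K, Commute z (k * x * k⁻¹) := by
    intro k hk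
    by_contra hn
    have hkx := h.cj k x hx
    have br := (h.br z hz _ hkx).resolve_left hn
    have hzi := h.inv hz
    have hzx : z * x * z = x := by rw [hxz.symm.eq, mul_assoc, h.sq z hz, mul_one]
    have hzk : z * k * z⁻¹ ∈ K := hKn.conj_mem k hk z
    have e1 : z * (k * x * k⁻¹) * z = (z * k * z⁻¹) * x * (z * k * z⁻¹)⁻¹ := by
      have : z * x * z⁻¹ = x := by rw [hzi]; exact hzx
      calc z * (k * x * k⁻¹) * z = (z * k * z⁻¹) * (z * x * z⁻¹) * (z * k * z⁻¹)⁻¹ * (z * z) := by group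
        _ = _ := by rw [this, h.sq z hz, mul_one]
    set w := k * x * k⁻¹ with hw
    have e2 : z = w * (z * w * z) * w⁻¹ := by
      rw [br]
      calc z = (w * w) * z * (w * w⁻¹) := by rw [h.sq w hkx]; group
        _ = w * (w * z * w) * w⁻¹ := by group
    set j := z * k * z⁻¹ with hj
    have e3 : z = (w * j) * x * (w * j)⁻¹ := by
      rw [e1] at e2
      calc z = w * (j * x * j⁻¹) * w⁻¹ := e2
        _ = _ := by group
    have e4 : (w * j) * x * (w * j)⁻¹ = ((w * j * x⁻¹) ) * x * (w * j * x⁻¹)⁻¹ := by group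
    have hK1 : w * j * x⁻¹ ∈ K := by
      have e5 : w * j * x⁻¹ = k * (x * k⁻¹ * x⁻¹) * (x * j * x⁻¹) := by rw [hw]; group
      rw [e5]
      exact mul_mem (mul_mem hk (hKn.conj_mem _ (inv_mem hk) x)) (hKn.conj_mem j hzk x)
    exact hcon _ hK1 (e3.trans e4).symm
  apply r.no_cent hK hz
  intro k hk
  rw [← r.comm_eq hK hx] at hk
  have hle : closure {g : G | ∃ k ∈ K, g = x * (k * x * k⁻¹)} ≤ centralizer ({z} : Set G) := by
    rw [closure_le]
    rintro g ⟨k, hk, rfl⟩
    exact mem_centralizer_singleton_iff.2 (hxz.symm.mul_right (h1 k hk)).symm.eq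
  exact (mem_centralizer_singleton_iff.1 (hle hk)).symm

/-- a member centralizing a normal subgroup: then the subgroup is central -/
theorem R1.le_center (r : R1 D) {N : Subgroup G} (hN : N.Normal) {d : G} (hd : d ∈ D) (hc : ∀ q ∈ N, q * d * q⁻¹ = d) :
    N ≤ center G := by
  intro q hq
  rw [mem_center_iff]
  intro g
  have : centralizer ({q} : Set G) = ⊤ := by
    apply le_of_D r.gen
    intro y hy
    obtain ⟨x, rfl⟩ := r.cl d hd y hy
    rw [mem_centralizer_singleton_iff]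
    have h1 := hc (x⁻¹ * q * x⁻¹⁻¹) (hN.conj_mem q hq x⁻¹)
    have h2 : x * ((x⁻¹ * q * x⁻¹⁻¹) * d * (x⁻¹ * q * x⁻¹⁻¹)⁻¹) * x⁻¹ = x * d * x⁻¹ := by rw [h1]
    have e1 : x * ((x⁻¹ * q * x⁻¹⁻¹) * d * (x⁻¹ * q * x⁻¹⁻¹)⁻¹) * x⁻¹ = q * (x * d * x⁻¹) * q⁻¹ := by group
    rw [e1] at h2
    exact (mul_inv_eq_iff_eq_mul.1 h2).symm
  exact mem_centralizer_singleton_iff.1 (this ▸ mem_top g : g ∈ centralizer ({q} : Set G))

/-- `O₂` not central: no component -/
theorem R1.no_comp_two (r : R1 D) (h2 : ¬ Cfsg.pCore 2 G ≤ center G) : ∀ K : Subgroup G, ¬ Cfsg.IsComponent K := by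
  intro K hK
  haveI : Fact (Nat.Prime 2) := ⟨Nat.prime_two⟩
  have h := r.tt
  obtain ⟨d, hd⟩ := r.ne
  have hn := CfsgLib.Core.pCore_normal 2 G
  have hq : ∃ q ∈ Cfsg.pCore 2 G, q * d * q⁻¹ ≠ d := by
    by_contra hcon
    push Not at hcon
    exact h2 (r.le_center hn hd hcon)
  obtain ⟨q, hq, hqd⟩ := hq
  set v := q * d * q⁻¹ with hv
  have hvD : v ∈ D := h.cj q d hd
  have hs : d * v ∈ Cfsg.pCore 2 G := by
    have e : d * v = (d * q * d⁻¹) * q⁻¹ := by rw [h.inv hd, hv]; group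
    rw [e]; exact mul_mem (hn.conj_mem q hq d) (inv_mem hq)
  have hV := VF_eq.1 (V_of_core h hd hvD hs)
  have hdv : Commute d v := (hV v hvD).2 (Commute.refl v)
  obtain ⟨k, hk, hke⟩ := r.exists_nc hK hd
  set e := k * d * k⁻¹ with he
  have heD : e ∈ D := h.cj k d hd
  have hve : ¬ Commute v e := fun hc => hke ((hV e heD).2 hc)
  have hsol : Group.IsSolvable (Cfsg.pCore 2 G) := by
    haveI := (CfsgLib.Core.pCore_isPGroup 2 G).isNilpotent
    infer_instance
  have hcomm := CfsgLib.Comp.layer_comm_solvable hn hsol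
  rw [CfsgLib.Comp.comm_iff] at hcomm
  have h1 : Commute (d * e) (d * v) := hcomm _ (CfsgLib.Comp.component_le_layer hK (r.prod_mem hK hd hk)) _ hs
  have h3 : Commute d (d * v) := (Commute.refl d).mul_right hdv
  have h4 : Commute e (d * v) := by
    have : e = d⁻¹ * (d * e) := by group
    rw [this]; exact h3.inv_left.mul_left h1
  -- now `e (dv) e = dv`, so `v e v = d e d`
  have b1 := (h.br d hd e heD).resolve_left hke
  have b2 := (h.br v hvD e heD).resolve_left hve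
  have e1 : v * e * v = d * e * d := by
    have h5 : e * (d * v) = (d * v) * e := h4.eq
    calc v * e * v = v * (e * (d * v)) * (v⁻¹ * d⁻¹) * v := by group
      _ = v * (d * v) * e * (v⁻¹ * d⁻¹) * v := by rw [h5]; group
      _ = (v * d * v) * e * (v⁻¹ * d⁻¹ * v) := by group
      _ = d * e * d := by
        have h6 : v * d * v = d := by rw [← hdv.eq, mul_assoc, h.sq v hvD, mul_one]
        rw [h6, h.inv hvD, h.inv hd, h6]
  rw [b1, b2] at e1
  apply hqd
  have : e * v * e = e * d * e := e1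
  exact mul_left_cancel (mul_right_cancel this)

/-- `O₃` not central: no component -/
theorem R1.no_comp_three (r : R1 D) (h2 : ¬ Cfsg.pCore 3 G ≤ center G) : ∀ K : Subgroup G, ¬ Cfsg.IsComponent K := by
  intro K hK
  haveI : Fact (Nat.Prime 3) := ⟨Nat.prime_three⟩
  have h := r.tt
  obtain ⟨d, hd⟩ := r.ne
  have hn := CfsgLib.Core.pCore_normal 3 G
  have hq : ∃ q ∈ Cfsg.pCore 3 G, q * d * q⁻¹ ≠ d := by
    by_contra hcon
    push Not at hcon
    exact h2 (r.le_center hn hd hcon)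
  obtain ⟨q, hq, hqd⟩ := hq
  set v := q * d * q⁻¹ with hv
  have hvD : v ∈ D := h.cj q d hd
  have hs : d * v ∈ Cfsg.pCore 3 G := by
    have e : d * v = (d * q * d⁻¹) * q⁻¹ := by rw [h.inv hd, hv]; group
    rw [e]; exact mul_mem (hn.conj_mem q hq d) (inv_mem hq)
  have hW := WF_eq.1 (W_of_core h hd hvD hs)
  obtain ⟨k, hk, hk1, hk2⟩ := r.exists_c hK hd
  set e := k * d * k⁻¹ with he
  have heD : e ∈ D := h.cj k d hd
  have hev : e ∈ P D v := by rw [← hW]; exact ⟨heD, hk1, hk2⟩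
  have hsol : Group.IsSolvable (Cfsg.pCore 3 G) := by
    haveI := (CfsgLib.Core.pCore_isPGroup 3 G).isNilpotent
    infer_instance
  have hcomm := CfsgLib.Comp.layer_comm_solvable hn hsol
  rw [CfsgLib.Comp.comm_iff] at hcomm
  have h1 : Commute (d * e) (d * v) := hcomm _ (CfsgLib.Comp.component_le_layer hK (r.prod_mem hK hd hk)) _ hs
  have h3 : Commute e (d * v) := hk2.symm.mul_right hev.2.2.symm
  have h4 : Commute d (d * v) := by
    have h5 := h1.mul_left h3.inv_left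
    have e5 : d * e * e⁻¹ = d := by group
    rw [e5] at h5
    exact h5
  have h5 : Commute d v := by
    have : v = d⁻¹ * (d * v) := by group
    rw [this]; exact (Commute.refl d).inv_right.mul_right h4
  have h6 : (d * v) ^ 2 = 1 := by rw [h5.mul_pow, pow_two, pow_two, h.sq d hd, h.sq v hvD, one_mul]
  have h7 := eq_one_of_coprime (by norm_num) h6 hs
  apply hqd
  rw [eq_inv_of_mul_eq_one_right h7, h.inv hd]

/-- not both -/
theorem R1.two_or_three (r : R1 D) : Cfsg.pCore 2 G ≤ center G ∨ Cfsg.pCore 3 G ≤ center G := by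
  haveI : Fact (Nat.Prime 2) := ⟨Nat.prime_two⟩
  haveI : Fact (Nat.Prime 3) := ⟨Nat.prime_three⟩
  by_contra hcon
  rw [not_or] at hcon
  have h := r.tt
  obtain ⟨d, hd⟩ := r.ne
  have hex : ∀ N : Subgroup G, N.Normal → ¬ N ≤ center G → ∃ v ∈ D, v ≠ d ∧ d * v ∈ N := by
    intro N hn hN
    by_contra hcon
    push Not at hcon
    apply hN
    apply r.le_center hn hd
    intro q hq
    by_contra hne
    apply hcon _ (h.cj q d hd) hne
    have e : d * (q * d * q⁻¹) = (d * q * d⁻¹) * q⁻¹ := by rw [h.inv hd]; group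
    rw [e]; exact mul_mem (hn.conj_mem q hq d) (inv_mem hq)
  obtain ⟨v, hv, hvd, hv2⟩ := hex _ (CfsgLib.Core.pCore_normal 2 G) hcon.1
  obtain ⟨w, hw, hwd, hw3⟩ := hex _ (CfsgLib.Core.pCore_normal 3 G) hcon.2
  have hV := VF_eq.1 (V_of_core h hd hv hv2)
  have hW := WF_eq.1 (W_of_core h hd hw hw3)
  have hdv : Commute d v := (hV v hv).2 (Commute.refl v)
  have h3 : v ∈ P D w := by rw [← hW]; exact ⟨hv, hvd, hdv⟩
  have h4 : Commute d w := (hV w hw).2 h3.2.2.symm
  have h5 : w ∈ P D w := by rw [← hW]; exact ⟨hw, hwd, h4⟩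
  exact h5.2.1 rfl

/-- the Fitting subgroup is central when `O₂` and `O₃` are -/
theorem R1.fitting_le (r : R1 D) (h2 : Cfsg.pCore 2 G ≤ center G) (h3 : Cfsg.pCore 3 G ≤ center G) :
    Cfsg.fittingSubgroup G ≤ center G := by
  rw [CfsgLib.Core.fitting_eq_iSup]
  apply iSup_le
  intro p
  have hp : (p : ℕ).Prime := Nat.prime_of_mem_primeFactors p.2
  by_cases hp3 : 3 < (p : ℕ)
  · haveI : Fact (p : ℕ).Prime := ⟨hp⟩
    obtain ⟨d, hd⟩ := r.ne
    have hn := CfsgLib.Core.pCore_normal (p : ℕ) G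
    apply r.le_center hn hd
    intro q hq
    have hG : Cfsg.IsThreeTranspositionGroup D := by
      refine ⟨⟨fun d hd => orderOf_eq_prime (by rw [pow_two]; exact r.tt.sq d hd) (r.n1 d hd), ?_⟩, r.tt.cj, r.gen⟩
      intro a ha b hb
      by_cases hab : Commute a b
      · left; rw [hab.mul_pow, pow_two, pow_two, r.tt.sq a ha, r.tt.sq b hb, one_mul]
      · right; exact r.tt.cube ha hb hab
    have := s5347 hG hp hp3 _ (CfsgLib.Core.pCore_isPGroup (p : ℕ) G) hd (by rw [normalizer_eq_top_iff.2 hn]; exact mem_top d) q hq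
    rw [← this.eq]; group
  · have : (p : ℕ) = 2 ∨ (p : ℕ) = 3 := by
      have := hp.two_le
      omega
    rcases this with h | h
    · rw [h]; exact h2
    · rw [h]; exact h3

theorem R1.exists_comp (r : R1 D) (h2 : Cfsg.pCore 2 G ≤ center G) (h3 : Cfsg.pCore 3 G ≤ center G) :
    ∃ K : Subgroup G, Cfsg.IsComponent K := by
  by_contra hcon
  push Not at hcon
  have h1 := CfsgLib.Comp.layer_eq_bot_of_forall hcon
  have h4 := CfsgLib.Comp.centralizer_gfs_le (G := G)
  have h5 : Cfsg.generalizedFittingSubgroup G ≤ center G := by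
    unfold Cfsg.generalizedFittingSubgroup
    rw [h1, bot_sup_eq]
    exact r.fitting_le h2 h3
  obtain ⟨a, ha, b, hb, hab⟩ := r.nc
  apply hab
  have h6 : ∀ x : G, x ∈ center G := by
    intro x
    apply h5 (h4 _)
    rw [mem_centralizer_iff]
    intro y hy
    exact (mem_center_iff.1 (h5 hy) x).symm
  exact (mem_center_iff.1 (h6 b) a)

theorem R1.layer_eq (r : R1 D) {K : Subgroup G} (hK : Cfsg.IsComponent K) : Cfsg.layer G = K := by
  apply le_antisymm
  · apply sSup_le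
    intro L hL
    rw [r.comp_unique hK hL]
  · exact CfsgLib.Comp.component_le_layer hK

theorem R1.gfs_eq (r : R1 D) (h2 : Cfsg.pCore 2 G ≤ center G) (h3 : Cfsg.pCore 3 G ≤ center G) {K : Subgroup G} (hK : Cfsg.IsComponent K) :
    Cfsg.generalizedFittingSubgroup G = K ⊔ center G := by
  have h1 : Cfsg.fittingSubgroup G = center G := by
    apply le_antisymm (r.fitting_le h2 h3)
    apply CfsgLib.Core.le_fitting inferInstance
    exact CfsgLib.Core2.nilpotent_of_comm (fun a b => Subtype.ext (mem_center_iff.1 b.2 a))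
  unfold Cfsg.generalizedFittingSubgroup
  rw [r.layer_eq hK, h1]

theorem s5351 (hD : Cfsg.IsThreeTranspositionClass D) (hD2 : ∃ a ∈ D, ∃ b ∈ D, a ≠ b) : (∀ p : ℕ, p.Prime → 3 < p → Cfsg.pCore p G ≤ Subgroup.center G) ∧ ((¬ Cfsg.pCore 2 G ≤ Subgroup.center G ∧ Cfsg.pCore 3 G ≤ Subgroup.center G ∧ Cfsg.layer G = ⊥) ∨ (Cfsg.pCore 2 G ≤ Subgroup.center G ∧ ¬ Cfsg.pCore 3 G ≤ Subgroup.center G ∧ Cfsg.layer G = ⊥) ∨ (Cfsg.pCore 2 G ≤ Subgroup.center G ∧ Cfsg.pCore 3 G ≤ Subgroup.center G ∧ Cfsg.layer G ≠ ⊥)) := by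
  have r := r1_of hD hD2
  constructor
  · intro p hp hp3
    haveI : Fact p.Prime := ⟨hp⟩
    obtain ⟨d, hd⟩ := r.ne
    have hn := CfsgLib.Core.pCore_normal p G
    apply r.le_center hn hd
    intro q hq
    have hG : Cfsg.IsThreeTranspositionGroup D := ⟨hD.1, r.tt.cj, r.gen⟩
    have := s5347 hG hp hp3 _ (CfsgLib.Core.pCore_isPGroup p G) hd (by rw [normalizer_eq_top_iff.2 hn]; exact mem_top d) q hq
    rw [← this.eq]; group
  · by_cases h2 : Cfsg.pCore 2 G ≤ Subgroup.center G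
    · by_cases h3 : Cfsg.pCore 3 G ≤ Subgroup.center G
      · right; right
        obtain ⟨K, hK⟩ := r.exists_comp h2 h3
        refine ⟨h2, h3, fun hh => ?_⟩
        exact CfsgLib.Comp.component_ne_bot hK (eq_bot_iff.2 (hh ▸ CfsgLib.Comp.component_le_layer hK))
      · right; left
        exact ⟨h2, h3, CfsgLib.Comp.layer_eq_bot_of_forall (r.no_comp_three h3)⟩
    · left
      exact ⟨h2, (r.two_or_three).resolve_left h2, CfsgLib.Comp.layer_eq_bot_of_forall (r.no_comp_two h2)⟩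

theorem s5352 (hD : Cfsg.IsThreeTranspositionClass D) (hD2 : ∃ a ∈ D, ∃ b ∈ D, a ≠ b) (h2 : Cfsg.pCore 2 G ≤ Subgroup.center G) (h3 : Cfsg.pCore 3 G ≤ Subgroup.center G) : ∃ L : Subgroup G, L.Normal ∧ Cfsg.IsQuasisimple L ∧ Cfsg.generalizedFittingSubgroup G = L ⊔ Subgroup.center G ∧ (L = ⊤ ∨ ∀ a ∈ D, ∀ b ∈ D, a * b * a⁻¹ * b⁻¹ ∈ L → a⁻¹ * b ∈ L) := by
  have r := r1_of hD hD2
  have h := r.tt
  obtain ⟨K, hK⟩ := r.exists_comp h2 h3
  refine ⟨K, comp_normal r.tt r.gen hK r.cl, hK.2, r.gfs_eq h2 h3 hK, Or.inr ?_⟩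
  intro a ha b hb hab
  rw [h.inv ha]
  by_cases hc : Commute a b
  · obtain ⟨k, hk, rfl⟩ := r.conj_of_comm hK ha hb hc
    exact r.prod_mem hK ha hk
  · apply mem_of_sq_cube _ (h.cube ha hb hc)
    rw [h.inv ha, h.inv hb] at hab
    have : (a * b) ^ 2 = a * b * a * b := by rw [pow_two]; group
    rw [this]; exact hab

end CfsgLib.TT
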