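import Cfsg.Agent.Lib.TT8

/-!
# 3-transposition groups: primitivity
-/

set_option autoImplicit false

namespace CfsgLib.TT

universe u
variable {G : Type u} [Group G] {D : Set G} [Finite G]

open Subgroup
open scoped commutatorElement

theorem prim_of_isPrim (h : TT D) (hP : Cfsg.IsPrimitiveUnderConj D) : Prim D := by
  intro F hF ⟨d, hd, e, he, hne, hde⟩
  set B : Set G := {z | z ∈ D ∧ F z = F d} with hB
  have hBD : B ⊆ D := fun z hz => hz.1
  rcases hP.2.2 B hBD (by
    intro g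
    by_cases hdis : Disjoint ((fun x => g * x * g⁻¹) '' B) B
    · exact Or.inr hdis
    · left
      rw [Set.not_disjoint_iff] at hdis
      obtain ⟨w, ⟨z, hz, rfl⟩, hw⟩ := hdis
      refine Set.eq_of_subset_of_ncard_le ?_ ?_ (Set.toFinite _)
      · rintro _ ⟨u, hu, rfl⟩
        refine ⟨h.cj g u hu.1, ?_⟩
        have h1 := hF g u z hu.1 hz.1 (hu.2.trans hz.2.symm)
        exact h1.trans hw.2
      · rw [Set.ncard_image_of_injective _ (conj_inj g)]) with h1 | h1
  · exact absurd (h1 (show d ∈ B from ⟨hd, rfl⟩) (show e ∈ B from ⟨he, hde.symm⟩)) hne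
  · intro a ha b hb
    rw [← h1] at ha hb
    exact ha.2.trans hb.2.symm

omit [Finite G] in
theorem isPrim_of_prim (h : TT D) (hcl : ∀ d ∈ D, ∀ e ∈ D, ∃ g : G, g * d * g⁻¹ = e) (h2 : ∃ a ∈ D, ∃ b ∈ D, a ≠ b) (hp : Prim D) :
    Cfsg.IsPrimitiveUnderConj D := by
  refine ⟨hcl, h2, ?_⟩
  intro B hBD hblock
  by_cases hsub : B.Subsingleton
  · exact Or.inl hsub
  right
  rw [Set.not_subsingleton_iff] at hsub
  obtain ⟨x, hx, y, hy, hxy⟩ := hsub
  have key : ∀ x ∈ B, ∀ y ∈ B, ∀ S : Set G, (∃ g : G, S = (fun x => g * x * g⁻¹) '' B ∧ x ∈ S) → (∃ g : G, S = (fun x => g * x * g⁻¹) '' B ∧ y ∈ S) := by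
    rintro x hx y hy S ⟨g, rfl, hxS⟩
    refine ⟨g, rfl, ?_⟩
    rcases hblock g with h1 | h1
    · rw [h1]; exact hy
    · exact absurd hx (Set.disjoint_left.1 h1 hxS)
  have hall := hp (fun z => {S | ∃ g : G, S = (fun x => g * x * g⁻¹) '' B ∧ z ∈ S}) (by
    have aux : ∀ g z w : G, {S : Set G | ∃ g : G, S = (fun x => g * x * g⁻¹) '' B ∧ z ∈ S} = {S : Set G | ∃ g : G, S = (fun x => g * x * g⁻¹) '' B ∧ w ∈ S} →
        ∀ S : Set G, (∃ k : G, S = (fun x => k * x * k⁻¹) '' B ∧ g * z * g⁻¹ ∈ S) → (∃ k : G, S = (fun x => k * x * k⁻¹) '' B ∧ g * w * g⁻¹ ∈ S) := by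
      rintro g z w hzw S ⟨k, rfl, u, hu, he⟩
      have h1 : ((fun x => (g⁻¹ * k) * x * (g⁻¹ * k)⁻¹) '' B) ∈ {S : Set G | ∃ g : G, S = (fun x => g * x * g⁻¹) '' B ∧ z ∈ S} := by
        refine ⟨g⁻¹ * k, rfl, u, hu, ?_⟩
        have he' : k * u * k⁻¹ = g * z * g⁻¹ := he
        calc (g⁻¹ * k) * u * (g⁻¹ * k)⁻¹ = g⁻¹ * (k * u * k⁻¹) * g := by group
          _ = z := by rw [he']; group
      rw [hzw] at h1
      obtain ⟨_, _, v, hv, hev⟩ := h1
      refine ⟨k, rfl, v, hv, ?_⟩
      have hev' : (g⁻¹ * k) * v * (g⁻¹ * k)⁻¹ = w := hev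
      show k * v * k⁻¹ = g * w * g⁻¹
      rw [← hev']; group
    intro g d e _ _ hde
    ext S
    exact ⟨aux g d e hde S, aux g e d hde.symm S⟩) ⟨x, hBD hx, y, hBD hy, hxy, by
      ext S
      exact ⟨key x hx y hy S, key y hy x hx S⟩⟩
  apply Set.Subset.antisymm hBD
  intro z hz
  have h1 := hall x (hBD hx) z hz
  have h3 : B ∈ {S : Set G | ∃ g : G, S = (fun x => g * x * g⁻¹) '' B ∧ x ∈ S} := ⟨1, by simp, hx⟩
  have h4 := (Set.ext_iff.1 h1 B).1 h3
  obtain ⟨_, _, h5⟩ := h4
  exact h5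

/-- conjugates are conjugate under a normal subgroup of index at most 2 -/
theorem R1.conj_index (r : R1 D) {K : Subgroup G} [K.Normal] (hidx : K.index ≤ 2) {z : G} (hz : z ∈ D) (g : G) :
    ∃ k ∈ K, g * z * g⁻¹ = k * z * k⁻¹ := by
  by_cases hg : g ∈ K
  · exact ⟨g, hg, rfl⟩
  have h0 : K.index ≠ 0 := Subgroup.index_ne_zero_of_finite
  have h1 : K.index ≠ 1 := by
    intro h1
    rw [Subgroup.index_eq_one] at h1
    exact hg (h1 ▸ mem_top g)
  have h2 : K.index = 2 := by omega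
  have hzK : z ∉ K := by
    intro hzK
    apply hg
    have : K = ⊤ := by
      apply le_of_D r.gen
      intro y hy
      obtain ⟨x, rfl⟩ := r.cl z hz y hy
      exact (inferInstance : K.Normal).conj_mem z hzK x
    rw [this]; exact mem_top g
  refine ⟨g * z⁻¹, ?_, by group⟩
  rw [Subgroup.mul_mem_iff_of_index_two h2, inv_mem_iff]
  exact ⟨fun hh => absurd hh hg, fun hh => absurd hh hzK⟩

theorem R1.prim_of_index (r : R1 D) (h2 : Cfsg.pCore 2 G ≤ center G) (h3 : Cfsg.pCore 3 G ≤ center G) {K : Subgroup G}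
    (hK : Cfsg.IsComponent K) (hidx : K.index ≤ 2) : Prim D := by
  haveI hKn := comp_normal r.tt r.gen hK r.cl
  have h := r.tt
  intro F hF ⟨d, hd, e, he, hne, hde⟩
  set N := closure {g : G | ∃ x ∈ D, ∃ y ∈ D, F x = F y ∧ g = x * y} with hN
  haveI hNn : N.Normal := closure_normal h hF
  have hs : d * e ∈ N := subset_closure ⟨d, hd, e, he, hde, rfl⟩
  rcases CfsgLib.Comp.qs_normal hK.2 (N.subgroupOf K) inferInstance with h1 | h1
  · rw [subgroupOf_eq_top] at h1
    intro z hz w hw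
    obtain ⟨g, rfl⟩ := r.cl z hz w hw
    obtain ⟨k, hk, he⟩ := r.conj_index hidx hz g
    rw [he]
    exact (closure_trivial h hF (h1 hk) z hz).symm
  · exfalso
    haveI hperf := hK.2.1
    have h4 : ⁅⁅K, N⁆, K⁆ = ⊥ := by
      rw [CfsgLib.Comp.comm_iff]
      intro x hx k hk
      have hxN : x ∈ N := commutator_le_right K N hx
      have hxK : x ∈ K := commutator_le_left K N hx
      have := h1 (show (⟨x, hxK⟩ : K) ∈ N.subgroupOf K from hxN)
      exact (congrArg Subtype.val (mem_center_iff.1 this ⟨k, hk⟩)).symm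
    have h5 := CfsgLib.Comp.comm_iff.1 (CfsgLib.Comp.commutator_eq_bot_of_perfect hperf h4)
    have hsK : d * e ∈ K := by
      obtain ⟨g, rfl⟩ := r.cl d hd e he
      obtain ⟨k, hk, hek⟩ := r.conj_index hidx hd g
      rw [hek]; exact r.prod_mem hK hd hk
    have hsZ : d * e ∈ center G := by
      apply r.fitting_le h2 h3
      have hZn : ((center K).map K.subtype).Normal := inferInstance
      have hZnil : Group.IsNilpotent ((center K).map K.subtype) := by
        apply CfsgLib.Core2.nilpotent_of_comm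
        rintro ⟨_, a, ha, rfl⟩ ⟨_, b, hb, rfl⟩
        exact Subtype.ext (show (a : G) * (b : G) = (b : G) * (a : G) from congrArg Subtype.val (mem_center_iff.1 hb a))
      apply CfsgLib.Core.le_fitting hZn hZnil
      refine ⟨⟨d * e, hsK⟩, ?_, rfl⟩
      show (⟨d * e, hsK⟩ : K) ∈ center K
      rw [mem_center_iff]
      rintro ⟨k, hk⟩
      exact Subtype.ext (h5 k hk _ hs)
    have hsc := mem_center_iff.1 hsZ
    obtain ⟨x, hx, hdx⟩ := r.an hd
    have hdd := h.sq d hd
    have hee := h.sq e he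
    have hes : e = (d * e) * d := by
      have := hsc d
      calc e = (d * d) * e := by rw [hdd, one_mul]
        _ = d * (d * e) := by group
        _ = _ := this
    have hde' : Commute d e := by
      show d * e = e * d
      have h7 : d * (d * e) = d * e * d := hsc d
      calc d * e = d * (d * (d * e)) := by rw [← mul_assoc d d, hdd, one_mul]
        _ = d * ((d * e) * d) := by rw [h7]
        _ = (d * d) * e * d := by group
        _ = e * d := by rw [hdd, one_mul]
    have hex : ¬ Commute e x := by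
      intro hc
      apply hdx
      have e1 : d = (d * e) * e⁻¹ := by group
      have hc2 : Commute (d * e) x := (hsc x).symm
      have := hc2.mul_left hc.inv_left
      rwa [← e1] at this
    have h6 := h.cube he hx hex
    have h8 := h.cube hd hx hdx
    have e2 : e * x = (d * e) * (d * x) := by
      calc e * x = ((d * e) * d) * x := by rw [← hes]
        _ = _ := by group
    have hc3 : Commute (d * e) (d * x) := (hsc (d * x)).symm
    rw [e2, hc3.mul_pow, h8, mul_one] at h6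
    have h9 : (d * e) ^ 2 = 1 := by rw [hde'.mul_pow, pow_two, pow_two, hdd, hee, one_mul]
    have h10 : d * e = 1 := by
      have : d * e = (d * e) ^ 3 * ((d * e) ^ 2)⁻¹ := by group
      rw [this, h6, h9]; simp
    apply hne
    rw [eq_inv_of_mul_eq_one_left h10, h.inv he]

omit [Finite G] in
theorem adj_iff {a b : D} : (Cfsg.commutingGraph D).Adj a b ↔ a ≠ b ∧ Commute (a : G) (b : G) := by
  unfold Cfsg.commutingGraph
  rw [SimpleGraph.fromRel_adj]
  constructor
  · rintro ⟨h1, h2 | h2⟩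
    · exact ⟨h1, h2⟩
    · exact ⟨h1, h2.symm⟩
  · rintro ⟨h1, h2⟩
    exact ⟨h1, Or.inl h2⟩

/-- connected commuting graph: index at most 2 -/
theorem R1.index_le (r : R1 D) {K : Subgroup G} (hK : Cfsg.IsComponent K) (hconn : (Cfsg.commutingGraph D).Connected) : K.index ≤ 2 := by
  haveI hKn := comp_normal r.tt r.gen hK r.cl
  have h := r.tt
  obtain ⟨d, hd⟩ := r.ne
  have key : ∀ a b : D, (Cfsg.commutingGraph D).Walk a b → ∃ k ∈ K, k * (a : G) * k⁻¹ = b := by
    intro a b w
    induction w with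
    | nil => exact ⟨1, one_mem _, by simp⟩
    | cons hadj _ ih =>
      obtain ⟨k, hk, he⟩ := ih
      obtain ⟨_, hc⟩ := adj_iff.1 hadj
      rename_i u v w _
      obtain ⟨j, hj, hj'⟩ := r.conj_of_comm hK (Subtype.prop _) (Subtype.prop _) hc
      refine ⟨k * j, mul_mem hk hj, ?_⟩
      rw [← he, ← hj']; group
  have hall : ∀ x ∈ D, ∃ k ∈ K, k * d * k⁻¹ = x := by
    intro x hx
    obtain ⟨w⟩ := hconn.preconnected ⟨d, hd⟩ ⟨x, hx⟩
    exact key _ _ w
  have hgen : ∀ g : G, (QuotientGroup.mk g : G ⧸ K) ∈ zpowers (QuotientGroup.mk d : G ⧸ K) := by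
    intro g
    have hg : g ∈ closure D := by rw [r.gen]; exact mem_top g
    induction hg using Subgroup.closure_induction with
    | mem x hx =>
      obtain ⟨k, hk, rfl⟩ := hall x hx
      have : (QuotientGroup.mk (k * d * k⁻¹) : G ⧸ K) = QuotientGroup.mk d := by
        have hk1 : (QuotientGroup.mk k : G ⧸ K) = 1 := (QuotientGroup.eq_one_iff k).2 hk
        rw [QuotientGroup.mk_mul, QuotientGroup.mk_mul, QuotientGroup.mk_inv, hk1]; simp
      rw [this]; exact mem_zpowers _
    | one => exact one_mem _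
    | mul a b _ _ ha hb => exact mul_mem ha hb
    | inv a _ ha => exact inv_mem ha
  have hcard : Nat.card (G ⧸ K) ≤ Nat.card (zpowers (QuotientGroup.mk d : G ⧸ K)) := by
    refine Nat.card_le_card_of_surjective (fun z : zpowers (QuotientGroup.mk d : G ⧸ K) => (z : G ⧸ K)) ?_
    intro q
    induction q using QuotientGroup.induction_on with
    | H g => exact ⟨⟨_, hgen g⟩, rfl⟩
  have h2 : Nat.card (zpowers (QuotientGroup.mk d : G ⧸ K)) ≤ 2 := by
    rw [Nat.card_zpowers]
    apply Nat.le_of_dvd (by norm_num)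
    apply orderOf_dvd_of_pow_eq_one
    rw [← QuotientGroup.mk_pow, pow_two, h.sq d hd]; rfl
  rw [Subgroup.index_eq_card]
  exact hcard.trans h2

/-- primitivity gives connectivity -/
theorem connected_of_prim (h : TT D) (hp : Prim D) (hne : D.Nonempty) (hc : ∃ a ∈ D, ∃ b, b ∈ P D a) : (Cfsg.commutingGraph D).Connected := by
  have key : ∀ d : D, ∀ e : D, (Cfsg.commutingGraph D).Reachable d e := by
    intro d e
    have := connected h hp hc (S := {x | ∃ hx : x ∈ D, (Cfsg.commutingGraph D).Reachable d ⟨x, hx⟩}) (by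
      rintro x ⟨hx, hr⟩ y hy
      refine ⟨hy.1, hr.trans ?_⟩
      apply SimpleGraph.Adj.reachable
      rw [adj_iff]
      exact ⟨fun he => hy.2.1 (congrArg Subtype.val he).symm, hy.2.2⟩) d.2 ⟨d.2, SimpleGraph.Reachable.refl _⟩
    obtain ⟨_, h1⟩ := this e.2
    exact h1
  haveI : Nonempty D := hne.to_subtype
  exact ⟨key⟩

theorem s5353 (hD : Cfsg.IsThreeTranspositionClass D) (hD2 : ∃ a ∈ D, ∃ b ∈ D, a ≠ b) (h2 : Cfsg.pCore 2 G ≤ Subgroup.center G) (h3 : Cfsg.pCore 3 G ≤ Subgroup.center G) (L : Subgroup G) [L.Normal] (hL : Cfsg.IsQuasisimple L) : (L.index ≤ 2 → Cfsg.IsPrimitiveUnderConj D) ∧ ((Cfsg.commutingGraph D).Connected → L.index ≤ 2) := by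
  have r := r1_of hD hD2
  have hK : Cfsg.IsComponent L := ⟨(inferInstance : L.Normal).isSubnormal, hL⟩
  exact ⟨fun hidx => isPrim_of_prim r.tt r.cl hD2 (r.prim_of_index h2 h3 hK hidx), fun hc => r.index_le hK hc⟩

/-- cores are central in the primitive case -/
theorem R1.core_central (r : R1 D) (hp : Prim D) (hc : ∃ a ∈ D, ∃ b, b ∈ P D a) : Cfsg.pCore 2 G ≤ center G ∧ Cfsg.pCore 3 G ≤ center G := by
  haveI : Fact (Nat.Prime 2) := ⟨Nat.prime_two⟩
  haveI : Fact (Nat.Prime 3) := ⟨Nat.prime_three⟩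
  have h := r.tt
  obtain ⟨d, hd⟩ := r.ne
  constructor
  · have hn := CfsgLib.Core.pCore_normal 2 G
    apply r.le_center hn hd
    intro q hq
    have hm : d * (q * d * q⁻¹) ∈ Cfsg.pCore 2 G := by
      have e : d * (q * d * q⁻¹) = (d * q * d⁻¹) * q⁻¹ := by rw [h.inv hd]; group
      rw [e]; exact mul_mem (hn.conj_mem q hq d) (inv_mem hq)
    exact (h.V_trivial hp r.nc hd (h.cj q d hd) (VF_eq.1 (V_of_core h hd (h.cj q d hd) hm))).symm
  · have hn := CfsgLib.Core.pCore_normal 3 G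
    apply r.le_center hn hd
    intro q hq
    have hm : d * (q * d * q⁻¹) ∈ Cfsg.pCore 3 G := by
      have e : d * (q * d * q⁻¹) = (d * q * d⁻¹) * q⁻¹ := by rw [h.inv hd]; group
      rw [e]; exact mul_mem (hn.conj_mem q hq d) (inv_mem hq)
    exact (h.W_trivial hp hc hd (h.cj q d hd) (WF_eq.1 (W_of_core h hd (h.cj q d hd) hm))).symm

theorem class_of_group (hD : Cfsg.IsThreeTranspositionGroup D) (hprim : Cfsg.IsPrimitiveUnderConj D) : Cfsg.IsThreeTranspositionClass D := by
  refine ⟨hD.1, ?_, hD.2.2⟩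
  obtain ⟨d, hd, _⟩ := hprim.2.1
  refine ⟨d, hd, ?_⟩
  ext x
  constructor
  · intro hx
    exact isConj_iff.2 (hprim.1 d hd x hx)
  · intro hx
    obtain ⟨g, rfl⟩ := isConj_iff.1 (show IsConj d x from hx)
    exact hD.2.1 g d hd

theorem s5354 (hD : Cfsg.IsThreeTranspositionGroup D) (hprim : Cfsg.IsPrimitiveUnderConj D) (hw : ∃ a ∈ D, ∃ b ∈ D, a ≠ b ∧ Commute a b) : (∃ L : Subgroup G, L.Normal ∧ Cfsg.IsQuasisimple L ∧ L.index ≤ 2 ∧ Cfsg.generalizedFittingSubgroup G = L ⊔ Subgroup.center G) ∧ (Cfsg.commutingGraph D).Connected ∧ ∀ d ∈ D, Subgroup.closure {y : G | y ∈ D ∧ Commute d y} ≠ ⊤ ∧ ∀ H : Subgroup G, Cfsg.IsDSubgroup D H → Subgroup.closure {y : G | y ∈ D ∧ Commute d y} ≤ H → H = Subgroup.closure {y : G | y ∈ D ∧ Commute d y} ∨ H = ⊤ := by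
  have hcl := class_of_group hD hprim
  have r := r1_of hcl hprim.2.1
  have h := r.tt
  have hp := prim_of_isPrim h hprim
  have hc : ∃ a ∈ D, ∃ b, b ∈ P D a := by
    obtain ⟨a, ha, b, hb, hab, hc⟩ := hw
    exact ⟨a, ha, b, hb, hab.symm, hc⟩
  obtain ⟨h2, h3⟩ := r.core_central hp hc
  obtain ⟨K, hK⟩ := r.exists_comp h2 h3
  have hconn := connected_of_prim h hp r.ne hc
  refine ⟨⟨K, comp_normal r.tt r.gen hK r.cl, hK.2, r.index_le hK hconn, r.gfs_eq h2 h3 hK⟩, hconn, ?_⟩
  intro d hd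
  obtain ⟨x, hx, hdx⟩ := r.an hd
  constructor
  · intro htop
    apply hdx
    exact K_comm (D := D) (show x ∈ CfsgLib.TT.K D d from (by have h9 : x ∈ (⊤ : Subgroup G) := mem_top x; rw [← htop] at h9; exact h9))
  · intro H hH hle
    by_cases hall : ∀ a ∈ D, a ∈ H → Commute d a
    · left
      apply le_antisymm _ hle
      rw [← hH]
      exact closure_mono (fun a ha => ⟨ha.1, hall a ha.1 ha.2⟩)
    · right
      push Not at hall
      obtain ⟨a, ha, haH, hda⟩ := hall
      apply le_of_D r.gen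
      intro b hb
      by_cases hdb : Commute d b
      · exact hle (subset_closure ⟨hb, hdb⟩)
      · obtain ⟨g, hg, rfl⟩ := transA h hp r.cl hc hd (show a ∈ A D d from ⟨ha, hda⟩) (show b ∈ A D d from ⟨hb, hdb⟩)
        have hgH : g ∈ H := hle hg
        exact mul_mem (mul_mem hgH haH) (inv_mem hgH)

theorem commutator_le_of_index {K : Subgroup G} [K.Normal] (hidx : K.index ≤ 2) : commutator G ≤ K := by
  have h0 : K.index ≠ 0 := Subgroup.index_ne_zero_of_finite
  rcases (show K.index = 1 ∨ K.index = 2 by omega) with h1 | h2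
  · rw [Subgroup.index_eq_one] at h1
    rw [h1]; exact le_top
  · rw [_root_.commutator_def, commutator_le]
    intro a _ b _
    rw [commutatorElement_def]
    simp only [Subgroup.mul_mem_iff_of_index_two h2, inv_mem_iff]
    tauto

theorem s5361 (hD : Cfsg.IsThreeTranspositionClass D) (hZ : Subgroup.center G = ⊥) (hw : ∃ a ∈ D, ∃ b ∈ D, a ≠ b ∧ Commute a b) : (IsSimpleGroup (commutator G) ↔ Cfsg.IsPrimitiveUnderConj D) ∧ (Cfsg.IsPrimitiveUnderConj D ↔ (Cfsg.pCore 2 G = ⊥ ∧ Cfsg.pCore 3 G = ⊥ ∧ (Cfsg.commutingGraph D).Connected)) := by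
  have hD2 : ∃ a ∈ D, ∃ b ∈ D, a ≠ b := by
    obtain ⟨a, ha, b, hb, hab, _⟩ := hw
    exact ⟨a, ha, b, hb, hab⟩
  have r := r1_of hD hD2
  have h := r.tt
  have hc : ∃ a ∈ D, ∃ b, b ∈ P D a := by
    obtain ⟨a, ha, b, hb, hab, hc⟩ := hw
    exact ⟨a, ha, b, hb, hab.symm, hc⟩
  have key : Cfsg.IsPrimitiveUnderConj D → Cfsg.pCore 2 G = ⊥ ∧ Cfsg.pCore 3 G = ⊥ ∧ (Cfsg.commutingGraph D).Connected := by
    intro hprim
    have hp := prim_of_isPrim h hprim
    obtain ⟨h2, h3⟩ := r.core_central hp hc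
    rw [hZ, le_bot_iff] at h2 h3
    exact ⟨h2, h3, connected_of_prim h hp r.ne hc⟩
  constructor
  · constructor
    · intro hs
      exact isPrim_of_prim h r.cl hD2 (prim_of_simple h r.gen r.cl)
    · intro hprim
      obtain ⟨h2, h3, hconn⟩ := key hprim
      have h2' : Cfsg.pCore 2 G ≤ center G := by rw [h2]; exact bot_le
      have h3' : Cfsg.pCore 3 G ≤ center G := by rw [h3]; exact bot_le
      obtain ⟨K, hK⟩ := r.exists_comp h2' h3'
      haveI hKn := comp_normal r.tt r.gen hK r.cl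
      have hidx := r.index_le hK hconn
      have hKc : center K = ⊥ := by
        have h1 : (center K).map K.subtype ≤ ⊥ := by
          rw [← hZ]
          refine le_trans ?_ (r.fitting_le h2' h3')
          have hZnil : Group.IsNilpotent ((center K).map K.subtype) := by
            apply CfsgLib.Core2.nilpotent_of_comm
            rintro ⟨_, a, ha, rfl⟩ ⟨_, b, hb, rfl⟩
            exact Subtype.ext (show (a : G) * (b : G) = (b : G) * (a : G) from congrArg Subtype.val (mem_center_iff.1 hb a))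
          exact CfsgLib.Core.le_fitting inferInstance hZnil
        exact (Subgroup.map_eq_bot_iff_of_injective _ K.subtype_injective).1 (le_bot_iff.1 h1)
      haveI hKs : IsSimpleGroup K := CfsgLib.Comp.qs_simple_of_center hK.2 hKc
      have heq : commutator G = K := by
        apply le_antisymm (commutator_le_of_index hidx)
        have h1 := CfsgLib.Comp.component_perfect hK
        rw [← h1, _root_.commutator_def]
        exact Subgroup.commutator_mono le_top le_top
      rw [heq]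
      exact hKs
  · refine ⟨key, ?_⟩
    rintro ⟨h2, h3, hconn⟩
    have h2' : Cfsg.pCore 2 G ≤ center G := by rw [h2]; exact bot_le
    have h3' : Cfsg.pCore 3 G ≤ center G := by rw [h3]; exact bot_le
    obtain ⟨K, hK⟩ := r.exists_comp h2' h3'
    exact isPrim_of_prim h r.cl hD2 (r.prim_of_index h2' h3' hK (r.index_le hK hconn))

end CfsgLib.TT
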