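import Cfsg.Agent.Lib.TW12
import Cfsg.Prelude.Def_LieTwisted
set_option autoImplicit false
set_option linter.style.haveILetI false
set_option maxRecDepth 1000000

/-! The twisted group `³D₄(q)`. -/

namespace CfsgLib.Chev
open Cfsg.Lie Matrix

namespace CG
variable {D : ChevalleyDatum} {K : Type*} [Field K] (M : CG D K)
include M

theorem xg_cm' {r s : ℕ} (h : cmB D r s = true) (t u : K) : xg D s u * xg D r t = xg D r t * xg D s u := (M.xg_cm h t u).eq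

/-- product of three commuting monomial elements -/
theorem ng_mul3 {r s v : ℕ} (h : cmB4 D r s = true) (h' : cmB4 D r v = true) (h'' : cmB4 D s v = true) (t u w : K) :
    ng D r t * (ng D s u * ng D v w) =
    (xg D r t * (xg D s u * xg D v w)) * (xg D (D.neg r) (-t⁻¹) * (xg D (D.neg s) (-u⁻¹) * xg D (D.neg v) (-w⁻¹))) *
      (xg D r t * (xg D s u * xg D v w)) := by
  rw [M.ng_mul2 h'']
  unfold cmB4 at h h'
  simp only [Bool.and_eq_true] at h h'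
  obtain ⟨⟨⟨h1, h2⟩, h3⟩, h4⟩ := h
  obtain ⟨⟨⟨k1, k2⟩, k3⟩, k4⟩ := h'
  have a1 : Commute (xg D s u * xg D v w) (xg D r t) := (M.xg_cm h1 t u).mul_left (M.xg_cm k1 t w)
  have a2 : Commute (xg D (D.neg s) (-u⁻¹) * xg D (D.neg v) (-w⁻¹)) (xg D r t) := (M.xg_cm h2 t _).mul_left (M.xg_cm k2 t _)
  have a3 : Commute (xg D s u * xg D v w) (xg D (D.neg r) (-t⁻¹)) := (M.xg_cm h3 _ u).mul_left (M.xg_cm k3 _ w)
  rw [M.ng_eq]
  generalize xg D s u * xg D v w = y at *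
  generalize xg D (D.neg s) (-u⁻¹) * xg D (D.neg v) (-w⁻¹) = y' at *
  generalize xg D r t = x at *
  generalize xg D (D.neg r) (-t⁻¹) = x' at *
  calc x * x' * x * (y * y' * y)
      = x * x' * (x * y) * y' * y := by group
    _ = x * x' * (y * x) * y' * y := by rw [a1.eq]
    _ = x * (x' * y) * (x * y') * y := by group
    _ = x * (y * x') * (y' * x) * y := by rw [a3.eq, a2.eq]
    _ = _ := by group

end CG

namespace TwD4
open Cfsg.Lie Matrix CfsgLib.BNP CfsgLib.PWM CfsgLib.Chev.GA CfsgLib.Chev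

/-- indices -/
abbrev I (k : Fin 4) : Fin chevD4.rank := k

def ρf (r : ℕ) : ℕ := rhoD4.getD r 0
def πf : Equiv.Perm (Fin chevD4.rank) := (Equiv.swap (0 : Fin 4) 2 * Equiv.swap (2 : Fin 4) 3 : Equiv.Perm (Fin 4))
theorem chk1 : chkTD chevD4 ρf πf = true := by decide +kernel
noncomputable def T : TD chevD4 := TD.of _ ρf πf chk1
def orb (i : Fin chevD4.rank) : Fin 2 := ([1, 0, 1, 1] : List (Fin 2)).getD i.val 0
def w (J : Fin 2) : List (Fin chevD4.rank) := ([[1], [0, 2, 3]] : List (List (Fin 4))).getD J.val []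
def rep (J : Fin 2) : Fin chevD4.rank := ([1, 0] : List (Fin 4)).getD J.val 0
theorem chk2 : chkTO chevD4 ρf πf 2 orb w rep = true := by decide +kernel
noncomputable def O : TO T := TO.of T 2 orb w rep chk2
def L0 : List (Fin 2) := [0, 1, 0, 1, 0, 1]
theorem chn : TN.Chain O L0 := chain_of O (by decide +kernel)
theorem tp : TN.Top O L0 := top_of O (by decide +kernel)
def Sl (J : Fin 2) : List ℕ := [[14], [12, 13, 18]].getD J.val []
theorem phi (J : Fin 2) : phiB chevD4 (w J) (Sl J) = true := by revert J; decide +kernel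
theorem pee (J : Fin 2) : peelB chevD4 (Sl J) = true := by revert J; decide +kernel
theorem srt (J : Fin 2) : srtB chevD4 (Sl J) = true := by revert J; decide +kernel

noncomputable def A0 (K : Type*) [Field K] : GE chevD4 K LD4 := (geD4 K).some

theorem A0_inj (K : Type*) [Field K] : ∀ g ∈ chevD4.group K, ∀ h ∈ chevD4.group K, (A0 K).α g = (A0 K).α h → g = h := by
  have h1 : ∀ i : Fin chevD4.rank, (chevD4.simple i, chevD4.simple (πf i), 1, (1 : ℤ)) ∈ LD4 ∧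
    (chevD4.simple (πf i), chevD4.simple i, 1, (1 : ℤ)) ∈ LD4b := by decide +kernel
  have h2 : ∀ i : Fin chevD4.rank, (chevD4.neg (chevD4.simple i), chevD4.neg (chevD4.simple (πf i)), 1, (1 : ℤ)) ∈ LD4 ∧
    (chevD4.neg (chevD4.simple (πf i)), chevD4.neg (chevD4.simple i), 1, (1 : ℤ)) ∈ LD4b := by decide +kernel
  exact (A0 K).injective (cgD4 K) (geD4b K).some (RingHom.id K)
    (fun i => ⟨_, (h1 i).1, _, (h1 i).2, rfl, rfl, rfl, fun t => by simp⟩)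
    (fun i => ⟨_, (h2 i).1, _, (h2 i).2, rfl, rfl, rfl, fun t => by simp⟩)

variable {K : Type*} [Field K] (φ : K →+* K)

noncomputable def ta : TA T K := (A0 K).ta (cgD4 K) T φ (fun _ => φ) (fun _ => 1) (A0_inj K)
  (by
    have h : ∀ i : Fin chevD4.rank, (chevD4.simple i, chevD4.simple (πf i), 1, (1 : ℤ)) ∈ LD4 := by decide +kernel
    exact h)
  (by
    have h : ∀ i : Fin chevD4.rank, (chevD4.neg (chevD4.simple i), chevD4.neg (chevD4.simple (πf i)), 1, (1 : ℤ)) ∈ LD4 := by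
      decide +kernel
    exact h)
  (fun _ _ => (pow_one _).symm)

theorem s_x {r r' : ℕ} (h : (r, r', 1, (1 : ℤ)) ∈ LD4) (t : K) : (ta φ).s (xg chevD4 r t) = xg chevD4 r' (φ t) := by
  change (A0 K).α (mapJ _ φ (xg chevD4 r t)) = _
  rw [(cgD4 K).mapJ_xg, (A0 K).act _ h]
  simp

theorem cm1 : cmB chevD4 12 13 = true ∧ cmB chevD4 12 18 = true ∧ cmB chevD4 13 18 = true ∧
    cmB chevD4 11 10 = true ∧ cmB chevD4 11 5 = true ∧ cmB chevD4 10 5 = true ∧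
    cmB4 chevD4 12 13 = true ∧ cmB4 chevD4 12 18 = true ∧ cmB4 chevD4 13 18 = true ∧
    cmB4 chevD4 18 13 = true ∧ cmB4 chevD4 18 12 = true ∧ cmB4 chevD4 13 12 = true := by decide +kernel

theorem smp : chevD4.simple 0 = 18 ∧ chevD4.simple 1 = 14 ∧ chevD4.simple 2 = 13 ∧ chevD4.simple 3 = 12 ∧
    chevD4.neg 18 = 5 ∧ chevD4.neg 14 = 9 ∧ chevD4.neg 13 = 10 ∧ chevD4.neg 12 = 11 := by decide +kernel

theorem ni_eq (K : Type*) [Field K] : ni chevD4 K 0 = ng chevD4 18 1 ∧ ni chevD4 K 1 = ng chevD4 14 1 ∧ ni chevD4 K 2 = ng chevD4 13 1 ∧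
    ni chevD4 K 3 = ng chevD4 12 1 := by
  obtain ⟨h0, h1, h2, h3, _⟩ := smp
  unfold ni
  rw [h0, h1, h2, h3]
  exact ⟨rfl, rfl, rfl, rfl⟩

theorem mem1 : (14, 14, 1, (1 : ℤ)) ∈ LD4 ∧ (9, 9, 1, (1 : ℤ)) ∈ LD4 ∧ (18, 13, 1, (1 : ℤ)) ∈ LD4 ∧ (13, 12, 1, (1 : ℤ)) ∈ LD4 ∧
    (12, 18, 1, (1 : ℤ)) ∈ LD4 ∧ (5, 10, 1, (1 : ℤ)) ∈ LD4 ∧ (10, 11, 1, (1 : ℤ)) ∈ LD4 ∧ (11, 5, 1, (1 : ℤ)) ∈ LD4 := by
  refine ⟨?_, ?_, ?_, ?_, ?_, ?_, ?_, ?_⟩ <;> decide

/-- fixed triples -/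
theorem triple_iff (a b c : K) : (ta φ).s (xg chevD4 12 a * (xg chevD4 13 b * xg chevD4 18 c)) =
    xg chevD4 12 a * (xg chevD4 13 b * xg chevD4 18 c) ↔ φ b = a ∧ φ c = b ∧ φ a = c := by
  obtain ⟨c1, c2, c3, _⟩ := cm1
  obtain ⟨_, _, m1, m2, m3, _⟩ := mem1
  have M := cgD4 K
  rw [(ta φ).mul _ (M.xg_mem_G _ _) _ (mul_mem (M.xg_mem_G _ _) (M.xg_mem_G _ _)), (ta φ).mul _ (M.xg_mem_G _ _) _ (M.xg_mem_G _ _),
    s_x φ m1, s_x φ m2, s_x φ m3]
  have e1 : xg chevD4 18 (φ a) * (xg chevD4 12 (φ b) * xg chevD4 13 (φ c)) =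
      xg chevD4 12 (φ b) * (xg chevD4 13 (φ c) * xg chevD4 18 (φ a)) := by
    rw [← mul_assoc, M.xg_cm' c2, mul_assoc, M.xg_cm' c3]
  rw [e1]
  constructor
  · intro h
    have h3 : wg chevD4 ((Sl 1).map fun x => (x, (fun x => if x = 12 then φ b else if x = 13 then φ c else φ a) x)) =
        wg chevD4 ((Sl 1).map fun x => (x, (fun x => if x = 12 then a else if x = 13 then b else c) x)) := by
      change xg chevD4 12 (φ b) * (xg chevD4 13 (φ c) * (xg chevD4 18 (φ a) * 1)) = xg chevD4 12 a * (xg chevD4 13 b * (xg chevD4 18 c * 1))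
      rw [mul_one, mul_one]
      exact h
    have h4 := M.form_unique' _ (of_decide_eq_true (srt 1)) _ _ h3
    exact ⟨h4 12 (by decide), h4 13 (by decide), h4 18 (by decide)⟩
  · rintro ⟨h1, h2, h3⟩
    rw [h1, h2, h3]

theorem nl_cyc (K : Type*) [Field K] : ni chevD4 K 2 * (ni chevD4 K 3 * ni chevD4 K 0) = ni chevD4 K 0 * (ni chevD4 K 2 * ni chevD4 K 3) := by
  obtain ⟨e0, e1, e2, e3⟩ := ni_eq K
  obtain ⟨_, _, _, _, _, _, c1, c2, c3, c4, c5, c6⟩ := cm1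
  rw [e0, e2, e3]
  have a1 := ((cgD4 K).ng_cm c4 1 1).eq
  have a2 := ((cgD4 K).ng_cm c5 1 1).eq
  rw [a2, ← mul_assoc, a1, mul_assoc]

noncomputable def R : TN (ta φ) O where
  n J := nl chevD4 K (wv (w J))
  eq J := ⟨1, one_mem _, (one_mul _).symm⟩
  fix J := by
    rw [(ta φ).s_nl (cgD4 K)]
    fin_cases J
    · rfl
    · change ni chevD4 K 2 * (ni chevD4 K 3 * (ni chevD4 K 0 * 1)) = ni chevD4 K 0 * (ni chevD4 K 2 * (ni chevD4 K 3 * 1))
      rw [mul_one, mul_one]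
      exact nl_cyc K
  x J := by
    have hr : ∀ J : Fin 2, ∃ r, r ∈ Sl J := by
      intro J
      fin_cases J
      · exact ⟨14, by decide⟩
      · exact ⟨12, by decide⟩
    obtain ⟨r, hr⟩ := hr J
    refine (ta φ).exists_x (cgD4 K) (phi J) (pee J) (srt J) (fun _ => 1) ?_ hr one_ne_zero
    fin_cases J
    · change (ta φ).s (xg chevD4 14 1 * 1) = xg chevD4 14 1 * 1
      rw [mul_one, s_x φ mem1.1, map_one]
    · change (ta φ).s (xg chevD4 12 1 * (xg chevD4 13 1 * (xg chevD4 18 1 * 1))) = xg chevD4 12 1 * (xg chevD4 13 1 * (xg chevD4 18 1 * 1))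
      rw [mul_one, triple_iff]
      exact ⟨map_one φ, map_one φ, map_one φ⟩

section
variable {q : ℕ} (hφ : ∀ x, φ x = x ^ q) (h3 : ∀ x, φ (φ (φ x)) = x)

theorem words {w : List (ℕ × K)} : w ∈ d4Words K q ↔
    (∃ t : K, t ^ q = t ∧ ∃ r ∈ [14, 9], w = [(r, t)]) ∨
    (∃ t : K, ∃ rs ∈ [(18, 13, 12), (5, 10, 11)], w = [(rs.1, t), (rs.2.1, t ^ q), (rs.2.2, t ^ (q ^ 2))]) := Iff.rfl

include h3 in
theorem s_triple {a b c : ℕ} (h1 : (a, b, 1, (1 : ℤ)) ∈ LD4) (h2 : (b, c, 1, (1 : ℤ)) ∈ LD4) (h4 : (c, a, 1, (1 : ℤ)) ∈ LD4)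
    (c1 : cmB chevD4 b a = true) (c2 : cmB chevD4 c a = true) (t : K) :
    xg chevD4 a t * (xg chevD4 b (φ t) * xg chevD4 c (φ (φ t))) ∈ (ta φ).Gs (cgD4 K) := by
  have M := cgD4 K
  rw [TA.mem_Gs]
  refine ⟨mul_mem (M.xg_mem_G _ _) (mul_mem (M.xg_mem_G _ _) (M.xg_mem_G _ _)), ?_⟩
  rw [(ta φ).mul _ (M.xg_mem_G _ _) _ (mul_mem (M.xg_mem_G _ _) (M.xg_mem_G _ _)), (ta φ).mul _ (M.xg_mem_G _ _) _ (M.xg_mem_G _ _),
    s_x φ h1, s_x φ h2, s_x φ h4, h3, ← M.xg_cm' c2, ← mul_assoc, ← M.xg_cm' c1, mul_assoc]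

include hφ h3 in
theorem le_Gs : twistedD4 K q ≤ (ta φ).Gs (cgD4 K) := by
  apply (cgD4 K).genSub_le
  obtain ⟨a1, a2, b1, b2, b3, b4, b5, b6⟩ := mem1
  obtain ⟨c1, c2, c3, c4, c5, c6, _⟩ := cm1
  intro w hw
  rcases words.mp hw with ⟨t, ht, r, hr, rfl⟩ | ⟨t, rs, hrs, rfl⟩
  · have ht' : φ t = t := by rw [hφ, ht]
    rw [wg_cons, wg_nil, mul_one, TA.mem_Gs]
    refine ⟨(cgD4 K).xg_mem_G _ _, ?_⟩
    simp only [List.mem_cons, List.not_mem_nil, or_false] at hr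
    rcases hr with rfl | rfl
    · rw [s_x φ a1, ht']
    · rw [s_x φ a2, ht']
  · rw [wg_cons, wg_cons, wg_cons, wg_nil, mul_one, pow_two, pow_mul, ← hφ, ← hφ]
    simp only [List.mem_cons, List.not_mem_nil, or_false] at hrs
    rcases hrs with rfl | rfl
    · exact s_triple φ h3 b1 b2 b3 c3 c2 t
    · exact s_triple φ h3 b4 b5 b6 c6 c5 t

include hφ in
theorem single_mem {r : ℕ} (hr : r ∈ [14, 9]) {t : K} (ht : φ t = t) : xg chevD4 r t ∈ twistedD4 K q := by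
  have := (cgD4 K).wg_mem_genSub (S := d4Words K q) (w := [(r, t)]) (words.mpr (Or.inl ⟨t, by rw [← hφ, ht], r, hr, rfl⟩))
  rw [wg_cons, wg_nil, mul_one] at this
  exact this

include hφ in
theorem triple_mem {a b c : ℕ} (hr : (a, b, c) ∈ [(18, 13, 12), (5, 10, 11)]) (t : K) :
    xg chevD4 a t * (xg chevD4 b (φ t) * xg chevD4 c (φ (φ t))) ∈ twistedD4 K q := by
  have := (cgD4 K).wg_mem_genSub (S := d4Words K q) (w := [(a, t), (b, t ^ q), (c, t ^ (q ^ 2))]) (words.mpr (Or.inr ⟨t, (a, b, c), hr, rfl⟩))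
  rw [wg_cons, wg_cons, wg_cons, wg_nil, mul_one, pow_two, pow_mul, ← hφ, ← hφ] at this
  exact this

include hφ in
theorem ngs_mem {t : K} (ht : φ t = t) : ng chevD4 14 t ∈ twistedD4 K q := by
  obtain ⟨_, _, _, _, _, n1, _⟩ := smp
  rw [(cgD4 K).ng_eq, n1]
  exact mul_mem (mul_mem (single_mem φ hφ (by simp) ht) (single_mem φ hφ (by simp) (by rw [map_neg, map_inv₀, ht]))) (single_mem φ hφ (by simp) ht)

include hφ in
theorem ngt_mem (t : K) : ng chevD4 18 t * (ng chevD4 13 (φ t) * ng chevD4 12 (φ (φ t))) ∈ twistedD4 K q := by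
  obtain ⟨_, _, _, _, n0, n1, n2, n3⟩ := smp
  obtain ⟨_, _, _, _, _, _, c1, c2, c3, c4, c5, c6⟩ := cm1
  rw [(cgD4 K).ng_mul3 c4 c5 c6, n0, n2, n3]
  have h := triple_mem φ hφ (a := 5) (b := 10) (c := 11) (by simp) (-t⁻¹)
  rw [map_neg, map_inv₀, map_neg, map_inv₀] at h
  exact mul_mem (mul_mem (triple_mem φ hφ (by simp) t) h) (triple_mem φ hφ (by simp) t)

include hφ in
theorem n_mem (J : Fin 2) : (R φ).n J ∈ twistedD4 K q := by
  change nl chevD4 K (wv (w J)) ∈ _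
  obtain ⟨e0, e1, e2, e3⟩ := ni_eq K
  fin_cases J
  · change ni chevD4 K 1 * 1 ∈ _
    rw [mul_one, e1]
    exact ngs_mem φ hφ (map_one φ)
  · change ni chevD4 K 0 * (ni chevD4 K 2 * (ni chevD4 K 3 * 1)) ∈ _
    rw [mul_one, e0, e2, e3]
    have := ngt_mem φ hφ 1
    rwa [map_one, map_one] at this

theorem mem_Um0 {x : GL chevD4.Idx K} : x ∈ TN.Um (ta φ) (cgD4 K) ((R φ).n (0 : Fin 2)) ↔ ∃ t, φ t = t ∧ x = xg chevD4 14 t := by
  obtain ⟨a1, _⟩ := mem1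
  rw [show (R φ).n (0 : Fin 2) = nl chevD4 K (wv (w 0)) from rfl, (ta φ).mem_Um_iff (cgD4 K) (phi 0) (pee 0)]
  constructor
  · rintro ⟨⟨t, rfl⟩, h⟩
    have e : wg chevD4 ((Sl 0).map fun r => (r, t r)) = xg chevD4 14 (t 14) := by
      change xg chevD4 14 (t 14) * 1 = _
      rw [mul_one]
    rw [e] at h ⊢
    exact ⟨t 14, ((ta φ).single_iff (cgD4 K) (by decide +kernel) (s_x φ a1) _).mp h, rfl⟩
  · rintro ⟨t, ht, rfl⟩
    refine ⟨⟨fun _ => t, ?_⟩, ?_⟩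
    · change _ = xg chevD4 14 t * 1
      rw [mul_one]
    · exact ((ta φ).single_iff (cgD4 K) (by decide +kernel) (s_x φ a1) _).mpr ht

include h3 in
theorem mem_Um1 {x : GL chevD4.Idx K} : x ∈ TN.Um (ta φ) (cgD4 K) ((R φ).n (1 : Fin 2)) ↔
    ∃ t, x = xg chevD4 12 (φ (φ t)) * (xg chevD4 13 (φ t) * xg chevD4 18 t) := by
  rw [show (R φ).n (1 : Fin 2) = nl chevD4 K (wv (w 1)) from rfl, (ta φ).mem_Um_iff (cgD4 K) (phi 1) (pee 1)]
  constructor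
  · rintro ⟨⟨t, rfl⟩, h⟩
    have e : wg chevD4 ((Sl 1).map fun r => (r, t r)) = xg chevD4 12 (t 12) * (xg chevD4 13 (t 13) * xg chevD4 18 (t 18)) := by
      change xg chevD4 12 (t 12) * (xg chevD4 13 (t 13) * (xg chevD4 18 (t 18) * 1)) = _
      rw [mul_one]
    rw [e] at h ⊢
    obtain ⟨h4, h5, h6⟩ := (triple_iff φ _ _ _).mp h
    exact ⟨t 18, by rw [h5, h4]⟩
  · rintro ⟨t, rfl⟩
    refine ⟨⟨fun r => if r = 12 then φ (φ t) else if r = 13 then φ t else t, ?_⟩, ?_⟩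
    · change _ = xg chevD4 12 (φ (φ t)) * (xg chevD4 13 (φ t) * (xg chevD4 18 t * 1))
      rw [mul_one]
    · exact (triple_iff φ _ _ _).mpr ⟨rfl, rfl, h3 t⟩

include hφ h3 in
theorem Um_le (J : Fin 2) : TN.Um (ta φ) (cgD4 K) ((R φ).n J) ≤ twistedD4 K q := by
  intro x hx
  fin_cases J
  · obtain ⟨t, ht, rfl⟩ := (mem_Um0 φ).mp hx
    exact single_mem φ hφ (by simp) ht
  · obtain ⟨t, rfl⟩ := (mem_Um1 φ h3).mp hx
    obtain ⟨c1, c2, c3, _⟩ := cm1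
    have h := triple_mem φ hφ (a := 18) (b := 13) (c := 12) (by simp) t
    have e : xg chevD4 18 t * (xg chevD4 13 (φ t) * xg chevD4 12 (φ (φ t))) =
        xg chevD4 12 (φ (φ t)) * (xg chevD4 13 (φ t) * xg chevD4 18 t) := by
      rw [(cgD4 K).xg_cm' c1, ← mul_assoc, (cgD4 K).xg_cm' c2, mul_assoc, (cgD4 K).xg_cm' c3]
    rwa [e] at h

end

end TwD4

end CfsgLib.Chev
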