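import Cfsg.Agent.Lib.TWD1
import Cfsg.Agent.Lib.TW13
import Cfsg.Agent.Lib.CHO7
set_option autoImplicit false
set_option linter.style.haveILetI false
set_option maxRecDepth 1000000

/-! The torus, the Weyl group and the order of `³D₄(q)`. -/

namespace CfsgLib.Chev.TwD4
open Cfsg.Lie Matrix CfsgLib.BNP CfsgLib.PWM CfsgLib.Chev.GA CfsgLib.Chev
open scoped commutatorElement

/-- twice the inverse of the Cartan matrix -/
def B4 : Matrix (Fin chevD4.rank) (Fin chevD4.rank) ℤ :=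
  Matrix.of (fun i j : Fin 4 => (([[2, 2, 1, 1], [2, 4, 2, 2], [1, 2, 2, 1], [1, 2, 1, 2]] : List (List ℤ)).getD i.val []).getD j.val 0)

theorem B4_eq : cmat chevD4 * B4 = Matrix.diagonal (fun _ => ((2 : ℕ) : ℤ)) := by
  have h : ∀ i j : Fin chevD4.rank, ∑ k : Fin chevD4.rank, cmat chevD4 i k * B4 k j = if i = j then 2 else 0 := by
    decide +kernel
  ext i j
  rw [Matrix.mul_apply, h, Matrix.diagonal_apply]
  rfl

theorem sy : πf.symm (I 0) = I 3 ∧ πf.symm (I 1) = I 1 ∧ πf.symm (I 2) = I 0 ∧ πf.symm (I 3) = I 2 := by decide +kernel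

variable {K : Type*} [Field K] (φ : K →+* K) {q : ℕ} (hφ : ∀ x, φ x = x ^ q) (h3 : ∀ x, φ (φ (φ x)) = x)

theorem st_apply (c : Fin chevD4.rank → Kˣ) (i : Fin chevD4.rank) : (ta φ).st c i = Units.map (φ : K →* K) (c (T.π.symm i)) := rfl

theorem T_symm : ∀ i : Fin chevD4.rank, T.π.symm (T.π.symm (T.π.symm i)) = i := by
  have h : ∀ i : Fin chevD4.rank, πf.symm (πf.symm (πf.symm i)) = i := by decide +kernel
  exact h

include h3

theorem st_st_st (c : Fin chevD4.rank → Kˣ) : (ta φ).st ((ta φ).st ((ta φ).st c)) = c := by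
  funext i
  rw [st_apply, st_apply, st_apply, T_symm]
  apply Units.ext
  exact h3 _

/-- the torus of the fixed subgroup -/
theorem torus {h : GL chevD4.Idx K} (hh : h ∈ chevD4.diagonalSubgroup K ⊓ (ta φ).Gs (cgD4 K)) :
    ∃ c : Fin chevD4.rank → Kˣ, (ta φ).st c = c ∧ hF chevD4 K c = h := by
  obtain ⟨h1, h4⟩ := Subgroup.mem_inf.mp hh
  rw [← (cgD4 K).hF_range] at h1
  obtain ⟨c, rfl⟩ := h1
  have h5 := (((ta φ).mem_Gs (cgD4 K)).mp h4).2
  rw [(ta φ).s_hF (cgD4 K)] at h5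
  let z := (ta φ).st c * c⁻¹
  have hz : hF chevD4 K z = 1 := by
    rw [map_mul, map_inv, h5, mul_inv_cancel]
  have hz2 : z * z = 1 := by
    funext i
    have := (cgD4 K).pow_of_hF B4_eq hz i
    rw [pow_two] at this
    exact this
  have hcz : (ta φ).st c = c * z := by
    change _ = c * ((ta φ).st c * c⁻¹)
    rw [mul_comm ((ta φ).st c), mul_inv_cancel_left]
  have hsz2 : (ta φ).st z * (ta φ).st z = 1 := by rw [← (ta φ).st_mul, hz2, (ta φ).st_one]
  have hzzz : z * ((ta φ).st z * (ta φ).st ((ta φ).st z)) = 1 := by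
    have h6 := st_st_st φ h3 c
    rw [hcz, (ta φ).st_mul, hcz, (ta φ).st_mul, (ta φ).st_mul, hcz, mul_assoc, mul_assoc] at h6
    exact mul_eq_left.mp h6
  have hsz : hF chevD4 K ((ta φ).st z) = 1 := by
    rw [← (ta φ).s_hF (cgD4 K), hz, (ta φ).s_one (cgD4 K)]
  refine ⟨c * (ta φ).st z, ?_, ?_⟩
  · rw [(ta φ).st_mul, hcz, mul_assoc]
    congr 1
    -- z * st (st z) = st z
    have : z * (ta φ).st ((ta φ).st z) = (z * ((ta φ).st z * (ta φ).st ((ta φ).st z))) * (ta φ).st z := by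
      calc z * (ta φ).st ((ta φ).st z) = z * (ta φ).st ((ta φ).st z) * ((ta φ).st z * (ta φ).st z) := by rw [hsz2, mul_one]
        _ = _ := by
          simp only [mul_assoc, mul_comm, mul_left_comm]
    rw [this, hzzz, one_mul]
  · rw [map_mul, hsz, mul_one]

/-- the elements fixed by the action on the torus -/
theorem st_eq_iff (c : Fin chevD4.rank → Kˣ) : (ta φ).st c = c ↔
    φ (c (I 1)) = c (I 1) ∧ (c (I 2) : K) = φ (c (I 0)) ∧ (c (I 3) : K) = φ (φ (c (I 0))) := by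
  constructor
  · intro h
    have e : ∀ i : Fin chevD4.rank, φ (c (T.π.symm i)) = (c i : K) := fun i => congrArg Units.val (congrFun h i)
    have p1 : T.π.symm (I 1) = (I 1) := sy.2.1
    have p2 : T.π.symm (I 2) = (I 0) := sy.2.2.1
    have p3 : T.π.symm (I 3) = (I 2) := sy.2.2.2
    have e1 := e (I 1)
    have e2 := e (I 2)
    have e3 := e (I 3)
    rw [p1] at e1
    rw [p2] at e2
    rw [p3] at e3
    exact ⟨e1, e2.symm, by rw [e2, e3]⟩
  · rintro ⟨a1, a2, a3⟩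
    funext i
    apply Units.ext
    change φ (c (T.π.symm i)) = c i
    have p0 : T.π.symm (I 0) = (I 3) := sy.1
    have p1 : T.π.symm (I 1) = (I 1) := sy.2.1
    have p2 : T.π.symm (I 2) = (I 0) := sy.2.2.1
    have p3 : T.π.symm (I 3) = (I 2) := sy.2.2.2
    change Fin 4 at i
    fin_cases i
    · change φ (c (T.π.symm (I 0))) = c (I 0)
      rw [p0, a3, h3]
    · change φ (c (T.π.symm (I 1))) = c (I 1)
      rw [p1, a1]
    · change φ (c (T.π.symm (I 2))) = c (I 2)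
      rw [p2, a2]
    · change φ (c (T.π.symm (I 3))) = c (I 3)
      rw [p3, a2, a3]

omit h3 in
theorem hF_dec (c : Fin chevD4.rank → Kˣ) : hF chevD4 K c =
    hF chevD4 K (Pi.mulSingle (I 1) (c (I 1))) *
    (hF chevD4 K (Pi.mulSingle (I 0) (c (I 0))) * (hF chevD4 K (Pi.mulSingle (I 2) (c (I 2))) * hF chevD4 K (Pi.mulSingle (I 3) (c (I 3))))) := by
  have h : c = ∏ i : Fin 4, (Pi.mulSingle (I i) (c (I i)) : Fin chevD4.rank → Kˣ) := (Finset.univ_prod_mulSingle c).symm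
  rw [Fin.prod_univ_four] at h
  simp only [← map_mul]
  congr 1
  refine h.trans ?_
  simp only [mul_comm, mul_left_comm]

include hφ

theorem H_le : chevD4.diagonalSubgroup K ⊓ (ta φ).Gs (cgD4 K) ≤ twistedD4 K q := by
  intro h hh
  obtain ⟨c, hc, rfl⟩ := torus φ h3 hh
  obtain ⟨a1, a2, a3⟩ := (st_eq_iff φ h3 c).mp hc
  obtain ⟨e0, e1, e2, e3⟩ := ni_eq K
  obtain ⟨_, _, _, _, _, _, _, _, _, c1, c2, c3⟩ := cm1
  obtain ⟨s0, s1, s2, s3, _⟩ := smp
  rw [hF_dec]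
  have M := cgD4 K
  have t1 : chevD4.simple (I 1) = 14 := s1
  have t0 : chevD4.simple (I 0) = 18 := s0
  have t2 : chevD4.simple (I 2) = 13 := s2
  have t3 : chevD4.simple (I 3) = 12 := s3
  have u0 : ni chevD4 K (I 0) = ng chevD4 18 1 := e0
  have u1 : ni chevD4 K (I 1) = ng chevD4 14 1 := e1
  have u2 : ni chevD4 K (I 2) = ng chevD4 13 1 := e2
  have u3 : ni chevD4 K (I 3) = ng chevD4 12 1 := e3
  rw [M.hF_single, M.hF_single, M.hF_single, M.hF_single, t0, t1, t2, t3, u0, u1, u2, u3, a2, a3]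
  refine mul_mem (mul_mem (ngs_mem φ hφ a1) (inv_mem (ngs_mem φ hφ (map_one φ)))) ?_
  have k1 := (M.ng_cm c1 1 (φ (c (I 0) : K))).inv_right.eq
  have k2 := (M.ng_cm c2 1 (φ (φ (c (I 0) : K)))).inv_right.eq
  have k3 := (M.ng_cm c3 1 (φ (φ (c (I 0) : K)))).inv_right.eq
  have l1 := (M.ng_cm c1 (1 : K) (1 : K)).eq
  have l2 := (M.ng_cm c2 (1 : K) (1 : K)).eq
  have l3 := (M.ng_cm c3 (1 : K) (1 : K)).eq
  have hcm : ng chevD4 18 (c (I 0) : K) * (ng chevD4 18 1)⁻¹ * (ng chevD4 13 (φ (c (I 0))) * (ng chevD4 13 1)⁻¹ *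
      (ng chevD4 12 (φ (φ (c (I 0)))) * (ng chevD4 12 1)⁻¹)) =
      (ng chevD4 18 (c (I 0) : K) * (ng chevD4 13 (φ (c (I 0))) * ng chevD4 12 (φ (φ (c (I 0)))))) *
      (ng chevD4 18 1 * (ng chevD4 13 1 * ng chevD4 12 1))⁻¹ := by
    generalize ng chevD4 18 (c (I 0) : K) = x at *
    generalize ng chevD4 13 (φ (c (I 0))) = y at *
    generalize ng chevD4 12 (φ (φ (c (I 0)))) = z at *
    generalize ng chevD4 18 (1 : K) = x1 at *
    generalize ng chevD4 13 (1 : K) = y1 at *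
    generalize ng chevD4 12 (1 : K) = z1 at *
    have e4 : (x1 * (y1 * z1))⁻¹ = x1⁻¹ * (y1⁻¹ * z1⁻¹) := by
      have : x1 * (y1 * z1) = z1 * (y1 * x1) := by
        rw [← l3, ← mul_assoc, ← l2, mul_assoc, ← l1]
      rw [this]; group
    rw [e4]
    calc x * x1⁻¹ * (y * y1⁻¹ * (z * z1⁻¹)) = x * (x1⁻¹ * y) * ((y1⁻¹ * z) * z1⁻¹) := by group
      _ = x * (y * x1⁻¹) * ((z * y1⁻¹) * z1⁻¹) := by rw [k1, k3]
      _ = x * y * (x1⁻¹ * z) * y1⁻¹ * z1⁻¹ := by group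
      _ = x * y * (z * x1⁻¹) * y1⁻¹ * z1⁻¹ := by rw [k2]
      _ = _ := by group
  rw [hcm]
  refine mul_mem (ngt_mem φ hφ _) (inv_mem ?_)
  have := ngt_mem φ hφ 1
  rwa [map_one, map_one] at this

theorem eq_Gs : twistedD4 K q = (ta φ).Gs (cgD4 K) :=
  le_antisymm (le_Gs φ hφ h3) ((R φ).Gs_le_of (cgD4 K) (Um_le φ hφ h3) (n_mem φ hφ) (H_le φ hφ h3) chn tp)

omit h3 in
theorem setup [Fintype K] (hK : Fintype.card K = q ^ 3) : ∀ x, φ (φ (φ x)) = x := by
  intro x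
  rw [hφ, hφ, hφ, ← pow_mul, ← pow_mul]
  exact pow_card_eq x (by rw [hK]; ring)

omit hφ h3

theorem simple_in (i : Fin chevD4.rank) : ∃ J : Fin 2, chevD4.simple i ∈ Sl J := by
  revert i; decide +kernel

theorem core : ((chevD4.borelSubgroup K ⊓ (ta φ).Gs (cgD4 K)).subgroupOf ((ta φ).Gs (cgD4 K))).normalCore = ⊥ := by
  refine (R φ).core1' (cgD4 K) tp (fun i => ?_)
  obtain ⟨J, hJ⟩ := simple_in i
  refine ⟨Sl J, fun _ => 1, srt J, hJ, one_ne_zero, ?_⟩
  have hfix : (ta φ).s (wg chevD4 ((Sl J).map fun r => (r, (1 : K)))) = wg chevD4 ((Sl J).map fun r => (r, (1 : K))) := by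
    fin_cases J
    · change (ta φ).s (xg chevD4 14 1 * 1) = xg chevD4 14 1 * 1
      rw [mul_one, s_x φ mem1.1, map_one]
    · change (ta φ).s (xg chevD4 12 1 * (xg chevD4 13 1 * (xg chevD4 18 1 * 1))) = xg chevD4 12 1 * (xg chevD4 13 1 * (xg chevD4 18 1 * 1))
      rw [mul_one, triple_iff]
      exact ⟨map_one φ, map_one φ, map_one φ⟩
  have h := ((ta φ).mem_Um_iff (cgD4 K) (phi J) (pee J)).mpr ⟨⟨fun _ => 1, rfl⟩, hfix⟩
  exact ((TN.mem_Um (cgD4 K)).mp h).1.2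

section fin
variable [Fintype K]

include hφ in
theorem card_Um0 (hq2 : 2 ≤ q) (hK : Fintype.card K = q ^ 3) : Nat.card (TN.Um (ta φ) (cgD4 K) ((R φ).n (0 : Fin 2))) = q := by
  have hr : 14 < chevD4.nroots := by decide +kernel
  rw [← card_pow_fix hq2 hK]
  refine (Nat.card_congr (Equiv.ofBijective (fun t : {x : K // x ^ q = x} =>
    (⟨xg chevD4 14 t.1, (mem_Um0 φ).mpr ⟨t.1, by rw [hφ, t.2], rfl⟩⟩ : TN.Um (ta φ) (cgD4 K) ((R φ).n (0 : Fin 2)))) ⟨?_, ?_⟩)).symm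
  · rintro t u h
    exact Subtype.ext ((cgD4 K).xg_inj hr (congrArg Subtype.val h))
  · rintro ⟨x, hx⟩
    obtain ⟨t, ht, rfl⟩ := (mem_Um0 φ).mp hx
    exact ⟨⟨t, by rw [← hφ, ht]⟩, rfl⟩

include h3 in
theorem card_Um1 (hK : Fintype.card K = q ^ 3) : Nat.card (TN.Um (ta φ) (cgD4 K) ((R φ).n (1 : Fin 2))) = q ^ 3 := by
  rw [← hK, ← Nat.card_eq_fintype_card]
  refine (Nat.card_congr (Equiv.ofBijective (fun t : K =>
    (⟨_, (mem_Um1 φ h3).mpr ⟨t, rfl⟩⟩ : TN.Um (ta φ) (cgD4 K) ((R φ).n (1 : Fin 2)))) ⟨?_, ?_⟩)).symm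
  · intro t u h
    have h1 : xg chevD4 12 (φ (φ t)) * (xg chevD4 13 (φ t) * xg chevD4 18 t) =
      xg chevD4 12 (φ (φ u)) * (xg chevD4 13 (φ u) * xg chevD4 18 u) := congrArg Subtype.val h
    have h3' : wg chevD4 ((Sl 1).map fun x => (x, (fun x => if x = 12 then φ (φ t) else if x = 13 then φ t else t) x)) =
        wg chevD4 ((Sl 1).map fun x => (x, (fun x => if x = 12 then φ (φ u) else if x = 13 then φ u else u) x)) := by
      change xg chevD4 12 (φ (φ t)) * (xg chevD4 13 (φ t) * (xg chevD4 18 t * 1)) =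
        xg chevD4 12 (φ (φ u)) * (xg chevD4 13 (φ u) * (xg chevD4 18 u * 1))
      rw [mul_one, mul_one]
      exact h1
    exact (cgD4 K).form_unique' _ (of_decide_eq_true (srt 1)) _ _ h3' 18 (by decide)
  · rintro ⟨x, hx⟩
    obtain ⟨t, rfl⟩ := (mem_Um1 φ h3).mp hx
    exact ⟨t, rfl⟩

include hφ h3 in
theorem card_Um (hq2 : 2 ≤ q) (hK : Fintype.card K = q ^ 3) (J : Fin 2) :
    Nat.card (TN.Um (ta φ) (cgD4 K) ((R φ).n J)) = q ^ ([1, 3].getD J.val 0) := by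
  fin_cases J
  · exact (card_Um0 φ hφ hq2 hK).trans (pow_one q).symm
  · exact card_Um1 φ h3 hK

include hφ h3 in
theorem card_U (hq2 : 2 ≤ q) (hK : Fintype.card K = q ^ 3) :
    Nat.card ↥(chevD4.posUnipotent K ⊓ (ta φ).Gs (cgD4 K)) = q ^ 12 := by
  rw [(R φ).card_U (cgD4 K) chn tp]
  have h' : (L0.map fun J => Nat.card (TN.Um (ta φ) (cgD4 K) ((R φ).n J))).prod = q ^ 12 := by
    have h : (L0.map fun J => Nat.card (TN.Um (ta φ) (cgD4 K) ((R φ).n J))) = L0.map fun J : Fin 2 => q ^ ([1, 3].getD J.val 0) :=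
      List.map_congr_left (fun J _ => card_Um φ hφ h3 hq2 hK J)
    rw [h]
    change q ^ 1 * (q ^ 3 * (q ^ 1 * (q ^ 3 * (q ^ 1 * (q ^ 3 * 1))))) = _
    ring
  exact h'

theorem cm4 : ∀ i j : Fin 4, cmat chevD4 (I i) (I j) = (([[2, -1, 0, 0], [-1, 2, -1, -1], [0, -1, 2, 0],
    [0, -1, 0, 2]] : List (List ℤ)).getD i.val []).getD j.val 0 := by
  decide +kernel

include h3 in
theorem ker_triv {c : Fin chevD4.rank → Kˣ} (hs : (ta φ).st c = c) (h : hF chevD4 K c = 1) : c = 1 := by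
  have hpw : ∀ j : Fin 4, pw (cmat chevD4) c (I j) = ∏ i : Fin 4, c (I i) ^ cmat chevD4 (I i) (I j) := fun j => rfl
  have h1 := ((cgD4 K).hF_eq_one_iff c).mp h
  have h2 : ∀ i : Fin 4, c (I i) ^ 2 = 1 := fun i => (cgD4 K).pow_of_hF B4_eq h (I i)
  have e : ∀ j : Fin 4, ∏ i : Fin 4, c (I i) ^ cmat chevD4 (I i) (I j) = 1 := fun j => by
    rw [← hpw, h1]; rfl
  simp only [cm4, Fin.prod_univ_four] at e
  have e0 := e 0
  have e1 := e 1
  simp at e0 e1
  obtain ⟨b1, b2, b3⟩ := (st_eq_iff φ h3 c).mp hs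
  have f1 : c (I 1) = 1 := by
    have h20 : c (I 0) ^ 2 = 1 := h2 0
    have e0' : c (I 0) ^ 2 * (c (I 1))⁻¹ = 1 := e0
    rw [h20, one_mul, inv_eq_one] at e0'
    exact e0'
  have hfix : φ (c (I 0) : K) = c (I 0) := by
    have h4 : (c (I 0) : K) ^ 2 = 1 := by
      have := congrArg Units.val (h2 0)
      rwa [Units.val_pow_eq_pow_val] at this
    have h5 : ((c (I 0) : K) - 1) * ((c (I 0) : K) + 1) = 0 := by linear_combination h4
    rcases mul_eq_zero.mp h5 with h6 | h6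
    · rw [sub_eq_zero.mp h6, map_one]
    · rw [eq_neg_of_add_eq_zero_left h6, map_neg, map_one]
  have f2 : c (I 2) = c (I 0) := Units.ext (by rw [b2, hfix])
  have f3 : c (I 3) = c (I 0) := Units.ext (by rw [b3, hfix, hfix])
  have f0 : c (I 0) = 1 := by
    have e1' : (c (I 0))⁻¹ * c (I 1) ^ 2 * (c (I 2))⁻¹ * (c (I 3))⁻¹ = 1 := e1
    rw [f1, f2, f3] at e1'
    have h20 : c (I 0) ^ 2 = 1 := h2 0
    have h7 : (c (I 0))⁻¹ = c (I 0) := inv_eq_of_mul_eq_one_left (by rw [← pow_two]; exact h20)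
    rw [h7] at e1'
    simp only [one_pow, mul_one] at e1'
    rw [← pow_two, h20, one_mul] at e1'
    exact e1'
  funext i
  change Fin 4 at i
  fin_cases i
  · exact f0
  · exact f1
  · exact f2.trans f0
  · exact f3.trans f0

/-- the fixed points on the torus -/
def TT : Subgroup (Fin chevD4.rank → Kˣ) where
  carrier := {c | (ta φ).st c = c}
  mul_mem' := by
    intro a b ha hb
    change (ta φ).st (a * b) = a * b
    rw [(ta φ).st_mul, ha, hb]
  one_mem' := (ta φ).st_one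
  inv_mem' := by
    intro a ha
    change (ta φ).st a⁻¹ = a⁻¹
    have h : (ta φ).st a⁻¹ * (ta φ).st a = 1 := by
      rw [← (ta φ).st_mul, inv_mul_cancel, (ta φ).st_one]
    rw [show (ta φ).st a = a from ha] at h
    exact eq_inv_of_mul_eq_one_left h

include hφ h3 in
theorem card_TT (hq2 : 2 ≤ q) (hK : Fintype.card K = q ^ 3) : Nat.card (TT φ) = (q - 1) * (q ^ 3 - 1) := by
  have h1 : Nat.card {u : Kˣ // φ u = u} = q - 1 := by
    have e : {u : Kˣ // φ u = u} ≃ {u : Kˣ // u ^ (q - 1) = 1} := by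
      refine Equiv.subtypeEquivRight (fun u => ?_)
      rw [hφ]
      constructor
      · intro h
        have h3 : u ^ q = u := Units.ext (by rw [Units.val_pow_eq_pow_val]; exact h)
        have h4 : u ^ (q - 1) * u = 1 * u := by
          rw [← pow_succ, Nat.sub_add_cancel (by omega), h3, one_mul]
        exact mul_right_cancel h4
      · intro h
        have h3 : u ^ q = u := by
          calc u ^ q = u ^ (q - 1 + 1) := by rw [Nat.sub_add_cancel (by omega)]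
            _ = u := by rw [pow_succ, h, one_mul]
        have := congrArg Units.val h3
        rwa [Units.val_pow_eq_pow_val] at this
    rw [Nat.card_congr e, card_units_pow, hK]
    apply Nat.gcd_eq_right
    have := Nat.sub_dvd_pow_sub_pow q 1 3
    rwa [one_pow] at this
  have h2 : Nat.card Kˣ = q ^ 3 - 1 := by
    rw [Nat.card_units, Nat.card_eq_fintype_card, hK]
  let f : TT φ → {u : Kˣ // φ u = u} × Kˣ := fun c =>
    (⟨c.1 (I 1), ((st_eq_iff φ h3 c.1).mp c.2).1⟩, c.1 (I 0))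
  have hf : Function.Bijective f := by
    constructor
    · rintro ⟨c, hc⟩ ⟨d, hd⟩ h
      have hc' := (st_eq_iff φ h3 c).mp hc
      have hd' := (st_eq_iff φ h3 d).mp hd
      simp only [f, Prod.mk.injEq, Subtype.mk.injEq] at h
      obtain ⟨e1, e0⟩ := h
      apply Subtype.ext
      funext i
      change Fin 4 at i
      fin_cases i
      · exact e0
      · exact e1
      · apply Units.ext
        change (c (I 2) : K) = d (I 2)
        rw [hc'.2.1, hd'.2.1, e0]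
      · apply Units.ext
        change (c (I 3) : K) = d (I 3)
        rw [hc'.2.2, hd'.2.2, e0]
    · rintro ⟨⟨u1, h1⟩, u0⟩
      let c : Fin chevD4.rank → Kˣ := (![u0, u1, Units.map (φ : K →* K) u0, Units.map (φ : K →* K) (Units.map (φ : K →* K) u0)] : Fin 4 → Kˣ)
      exact ⟨⟨c, (st_eq_iff φ h3 c).mpr ⟨h1, rfl, rfl⟩⟩, rfl⟩
  rw [Nat.card_congr (Equiv.ofBijective f hf), Nat.card_prod, h1, h2]

include hφ h3 in
theorem card_H (hq2 : 2 ≤ q) (hK : Fintype.card K = q ^ 3) :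
    Nat.card ↥(chevD4.diagonalSubgroup K ⊓ (ta φ).Gs (cgD4 K)) = (q - 1) * (q ^ 3 - 1) := by
  rw [← card_TT φ hφ h3 hq2 hK]
  refine (Nat.card_congr (Equiv.ofBijective (fun c : TT φ => (⟨hF chevD4 K c.1, ?_⟩ : ↥(chevD4.diagonalSubgroup K ⊓ (ta φ).Gs (cgD4 K)))) ⟨?_, ?_⟩)).symm
  · refine Subgroup.mem_inf.mpr ⟨?_, ?_⟩
    · rw [← (cgD4 K).hF_range]; exact ⟨c.1, rfl⟩
    · rw [TA.mem_Gs]
      refine ⟨(cgD4 K).hF_mem_G c.1, ?_⟩
      rw [(ta φ).s_hF (cgD4 K), show (ta φ).st c.1 = c.1 from c.2]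
  · intro c d h
    have h1 : hF chevD4 K c.1 = hF chevD4 K d.1 := congrArg Subtype.val h
    have h2 : hF chevD4 K (c.1 * d.1⁻¹) = 1 := by rw [map_mul, map_inv, h1, mul_inv_cancel]
    have h4 := ker_triv φ h3 (mul_mem c.2 (inv_mem d.2)) h2
    exact Subtype.ext (mul_inv_eq_one.mp h4)
  · rintro ⟨h, hh⟩
    obtain ⟨c, hc, he⟩ := torus φ h3 hh
    exact ⟨⟨c, hc⟩, Subtype.ext he⟩

end fin

end CfsgLib.Chev.TwD4
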