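import Mathlib
import Cfsg.Prelude

/-!
The ternary code of length 12.
-/

set_option autoImplicit false

namespace CfsgLib.Ternary

open Cfsg

def tab : ℕ → List ℕ
  | 0 => [1, 0, 0, 0, 0, 1, 0, 0, 1, 1, 1, 2]
  | 1 => [0, 1, 0, 0, 0, 1, 0, 2, 2, 2, 0, 2]
  | 2 => [0, 0, 1, 0, 0, 1, 0, 1, 0, 2, 1, 1]
  | 3 => [0, 0, 0, 1, 0, 2, 0, 2, 1, 2, 1, 0]
  | 4 => [0, 0, 0, 0, 1, 2, 0, 1, 2, 0, 1, 2]
  | _ => [0, 0, 0, 0, 0, 0, 1, 1, 1, 2, 2, 2]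

/-- index of a position -/
def ix (p : ArrayPt) : ℕ := 3 * p.1.val + p.2.val

/-- basis words -/
def bw (j : ℕ) : ArrayPt → ZMod 3 := fun p => (((tab j).getD (ix p) 0 : ℕ) : ZMod 3)

/-- general word -/
def W (a b c d e f : ZMod 3) : ArrayPt → ZMod 3 := fun p =>
  a * bw 0 p + b * bw 1 p + c * bw 2 p + d * bw 3 p + e * bw 4 p + f * bw 5 p

theorem W_eq (a b c d e f : ZMod 3) : W a b c d e f = a • bw 0 + b • bw 1 + c • bw 2 + d • bw 3 + e • bw 4 + f • bw 5 := rfl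

theorem mem_tetracode_iff {t : Fin 4 → ZMod 3} : t ∈ tetracode ↔ ∃ a b : ZMod 3, a • ![0, 1, 1, 1] + b • ![1, 0, 1, 2] = t := by
  rw [tetracode, Submodule.mem_span_pair]

theorem bw_mem : ∀ j < 6, bw j ∈ ternaryGolayCode := by
  intro j hj
  have key : ∀ j < 6, ∃ s : ZMod 3, (∀ i : Fin 4, ∑ r : ZMod 3, bw j (i, r) = -s) ∧
    ∀ a b : ZMod 3, ∑ i : Fin 4, bw j (i, (a • ![0, 1, 1, 1] + b • ![1, 0, 1, 2] : Fin 4 → ZMod 3) i) = s := by decide +kernel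
  obtain ⟨s, h1, h2⟩ := key j hj
  refine ⟨s, h1, ?_⟩
  intro t ht
  obtain ⟨a, b, rfl⟩ := mem_tetracode_iff.mp ht
  exact h2 a b

theorem W_mem (a b c d e f : ZMod 3) : W a b c d e f ∈ ternaryGolayCode := by
  rw [W_eq]
  exact add_mem (add_mem (add_mem (add_mem (add_mem (Submodule.smul_mem _ _ (bw_mem 0 (by norm_num))) (Submodule.smul_mem _ _ (bw_mem 1 (by norm_num))))
    (Submodule.smul_mem _ _ (bw_mem 2 (by norm_num)))) (Submodule.smul_mem _ _ (bw_mem 3 (by norm_num)))) (Submodule.smul_mem _ _ (bw_mem 4 (by norm_num))))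
    (Submodule.smul_mem _ _ (bw_mem 5 (by norm_num)))

theorem eqs {x : ArrayPt → ZMod 3} (hx : x ∈ ternaryGolayCode) : ∃ s : ZMod 3, (∀ i : Fin 4, ∑ r : ZMod 3, x (i, r) = -s) ∧
    ∀ a b : ZMod 3, ∑ i : Fin 4, x (i, (a • ![0, 1, 1, 1] + b • ![1, 0, 1, 2] : Fin 4 → ZMod 3) i) = s := by
  obtain ⟨s, h1, h2⟩ := hx
  exact ⟨s, h1, fun a b => h2 _ (mem_tetracode_iff.mpr ⟨a, b, rfl⟩)⟩

theorem sum3 (f : ZMod 3 → ZMod 3) : ∑ r : ZMod 3, f r = f 0 + f 1 + f 2 := Fin.sum_univ_three f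

/-- a codeword vanishing on the information positions is zero -/
theorem eq_zero {x : ArrayPt → ZMod 3} (hx : x ∈ ternaryGolayCode) (h0 : x (0, 0) = 0) (h1 : x (0, 1) = 0) (h2 : x (0, 2) = 0)
    (h3 : x (1, 0) = 0) (h4 : x (1, 1) = 0) (h6 : x (2, 0) = 0) : x = 0 := by
  obtain ⟨s, e1, e2⟩ := eqs hx
  have c0 := e1 0
  have c1 := e1 1
  have c2 := e1 2
  have c3 := e1 3
  have t00 := e2 0 0
  have t10 := e2 1 0
  have t20 := e2 2 0
  have t01 := e2 0 1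
  rw [sum3] at c0 c1 c2 c3
  have k00 : (0 • ![0, 1, 1, 1] + 0 • ![1, 0, 1, 2] : Fin 4 → ZMod 3) = ![0, 0, 0, 0] := by decide
  have k10 : ((1 : ZMod 3) • ![0, 1, 1, 1] + (0 : ZMod 3) • ![1, 0, 1, 2] : Fin 4 → ZMod 3) = ![0, 1, 1, 1] := by decide
  have k20 : ((2 : ZMod 3) • ![0, 1, 1, 1] + (0 : ZMod 3) • ![1, 0, 1, 2] : Fin 4 → ZMod 3) = ![0, 2, 2, 2] := by decide
  have k01 : ((0 : ZMod 3) • ![0, 1, 1, 1] + (1 : ZMod 3) • ![1, 0, 1, 2] : Fin 4 → ZMod 3) = ![1, 0, 1, 2] := by decide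
  have k00' : ((0 : ZMod 3) • ![0, 1, 1, 1] + (0 : ZMod 3) • ![1, 0, 1, 2] : Fin 4 → ZMod 3) = ![0, 0, 0, 0] := by decide
  rw [k00', Fin.sum_univ_four] at t00
  rw [k10, Fin.sum_univ_four] at t10
  rw [k20, Fin.sum_univ_four] at t20
  rw [k01, Fin.sum_univ_four] at t01
  simp only [Matrix.cons_val] at t00 t10 t20 t01
  rw [h0, h1, h2] at c0
  have hs : s = 0 := by linear_combination c0
  have three : (3 : ZMod 3) = 0 := by decide
  rw [h3, h4, hs] at c1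
  rw [h6, hs] at c2
  rw [hs] at c3 t00 t10 t20 t01
  rw [h0, h3, h6] at t00
  rw [h0, h4] at t10
  rw [h0] at t20
  rw [h1, h3] at t01
  have x5 : x (1, 2) = 0 := by linear_combination c1
  have x9 : x (3, 0) = 0 := by linear_combination t00
  have x7 : x (2, 1) = 0 := by
    linear_combination 2 * c2 + 2 * t01 - 2 * t20 + 2 * x5 - x (2, 1) * three
  have x8 : x (2, 2) = 0 := by linear_combination c2 - x7
  have x10 : x (3, 1) = 0 := by linear_combination t10 - x7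
  have x11 : x (3, 2) = 0 := by linear_combination t01 - x7
  funext p
  obtain ⟨i, r⟩ := p
  fin_cases i <;> fin_cases r <;> assumption

theorem W_info (a b c d e f : ZMod 3) : W a b c d e f (0, 0) = a ∧ W a b c d e f (0, 1) = b ∧ W a b c d e f (0, 2) = c ∧
    W a b c d e f (1, 0) = d ∧ W a b c d e f (1, 1) = e ∧ W a b c d e f (2, 0) = f := by
  have key : ∀ j < 6, bw j (0, 0) = (if j = 0 then 1 else 0) ∧ bw j (0, 1) = (if j = 1 then 1 else 0) ∧ bw j (0, 2) = (if j = 2 then 1 else 0) ∧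
    bw j (1, 0) = (if j = 3 then 1 else 0) ∧ bw j (1, 1) = (if j = 4 then 1 else 0) ∧ bw j (2, 0) = (if j = 5 then 1 else 0) := by decide +kernel
  obtain ⟨a0, a1, a2, a3, a4, a5⟩ := key 0 (by norm_num)
  obtain ⟨b0, b1, b2, b3, b4, b5⟩ := key 1 (by norm_num)
  obtain ⟨c0, c1, c2, c3, c4, c5⟩ := key 2 (by norm_num)
  obtain ⟨d0, d1, d2, d3, d4, d5⟩ := key 3 (by norm_num)
  obtain ⟨e0, e1, e2, e3, e4, e5⟩ := key 4 (by norm_num)
  obtain ⟨f0, f1, f2, f3, f4, f5⟩ := key 5 (by norm_num)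
  refine ⟨?_, ?_, ?_, ?_, ?_, ?_⟩
  · simp only [W, a0, b0, c0, d0, e0, f0]; simp
  · simp only [W, a1, b1, c1, d1, e1, f1]; simp
  · simp only [W, a2, b2, c2, d2, e2, f2]; simp
  · simp only [W, a3, b3, c3, d3, e3, f3]; simp
  · simp only [W, a4, b4, c4, d4, e4, f4]; simp
  · simp only [W, a5, b5, c5, d5, e5, f5]; simp

theorem eq_W {x : ArrayPt → ZMod 3} (hx : x ∈ ternaryGolayCode) :
    x = W (x (0, 0)) (x (0, 1)) (x (0, 2)) (x (1, 0)) (x (1, 1)) (x (2, 0)) := by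
  obtain ⟨i0, i1, i2, i3, i4, i5⟩ := W_info (x (0, 0)) (x (0, 1)) (x (0, 2)) (x (1, 0)) (x (1, 1)) (x (2, 0))
  have h := eq_zero (sub_mem hx (W_mem (x (0, 0)) (x (0, 1)) (x (0, 2)) (x (1, 0)) (x (1, 1)) (x (2, 0))))
    (by rw [Pi.sub_apply, i0, sub_self]) (by rw [Pi.sub_apply, i1, sub_self]) (by rw [Pi.sub_apply, i2, sub_self])
    (by rw [Pi.sub_apply, i3, sub_self]) (by rw [Pi.sub_apply, i4, sub_self]) (by rw [Pi.sub_apply, i5, sub_self])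
  exact sub_eq_zero.mp h

/-- six-tuples -/
abbrev V6 := ZMod 3 × ZMod 3 × ZMod 3 × ZMod 3 × ZMod 3 × ZMod 3

def W' (v : V6) : ArrayPt → ZMod 3 := W v.1 v.2.1 v.2.2.1 v.2.2.2.1 v.2.2.2.2.1 v.2.2.2.2.2

theorem W'_inj : Function.Injective W' := by
  rintro ⟨a, b, c, d, e, f⟩ ⟨a', b', c', d', e', f'⟩ h
  have h' : W a b c d e f = W a' b' c' d' e' f' := h
  obtain ⟨i0, i1, i2, i3, i4, i5⟩ := W_info a b c d e f
  obtain ⟨j0, j1, j2, j3, j4, j5⟩ := W_info a' b' c' d' e' f'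
  rw [← h'] at j0 j1 j2 j3 j4 j5
  have e0 : a = a' := i0.symm.trans j0
  have e1 : b = b' := i1.symm.trans j1
  have e2 : c = c' := i2.symm.trans j2
  have e3 : d = d' := i3.symm.trans j3
  have e4 : e = e' := i4.symm.trans j4
  have e5 : f = f' := i5.symm.trans j5
  rw [e0, e1, e2, e3, e4, e5]

theorem mem_iff {x : ArrayPt → ZMod 3} : x ∈ ternaryGolayCode ↔ ∃ v : V6, W' v = x :=
  ⟨fun h => ⟨(x (0, 0), x (0, 1), x (0, 2), x (1, 0), x (1, 1), x (2, 0)), (eq_W h).symm⟩, by rintro ⟨v, rfl⟩; exact W_mem _ _ _ _ _ _⟩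

/-- weight -/
def wt (x : ArrayPt → ZMod 3) : ℕ := (ternarySupport x).card

theorem wt_all : ∀ v : V6, wt (W' v) = 0 ∨ wt (W' v) = 6 ∨ wt (W' v) = 9 ∨ wt (W' v) = 12 := by decide +kernel

end CfsgLib.Ternary
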