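import Mathlib
import Cfsg.Agent.Lib.Ternary

/-!
The ternary code of length 12: weights, duality, hexads.
-/

set_option autoImplicit false
set_option linter.all false
set_option linter.constructorNameAsVariable false

namespace CfsgLib.Ternary

open Cfsg Finset

theorem mem_supp {x : ArrayPt → ZMod 3} {p : ArrayPt} : p ∈ ternarySupport x ↔ x p ≠ 0 := by simp [ternarySupport]

theorem wt_word {x : ArrayPt → ZMod 3} (hx : x ∈ ternaryGolayCode) : wt x = 0 ∨ wt x = 6 ∨ wt x = 9 ∨ wt x = 12 := by
  obtain ⟨v, rfl⟩ := mem_iff.mp hx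
  exact wt_all v

theorem wt_zero_iff {x : ArrayPt → ZMod 3} : wt x = 0 ↔ x = 0 := by
  rw [wt, Finset.card_eq_zero, Finset.eq_empty_iff_forall_notMem]
  constructor
  · intro h
    funext p
    by_contra hp
    exact h p (mem_supp.mpr hp)
  · rintro rfl p hp
    exact mem_supp.mp hp rfl

theorem small {x : ArrayPt → ZMod 3} (hx : x ∈ ternaryGolayCode) (h : wt x < 6) : x = 0 := by
  rw [← wt_zero_iff]
  rcases wt_word hx with h1 | h1 | h1 | h1 <;> omega

theorem card_code : Nat.card ternaryGolayCode = 729 := by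
  have e : V6 ≃ ternaryGolayCode := Equiv.ofBijective (fun v => ⟨W' v, mem_iff.mpr ⟨v, rfl⟩⟩)
    ⟨fun a b h => W'_inj (congrArg Subtype.val h), fun x => by obtain ⟨v, hv⟩ := mem_iff.mp x.2; exact ⟨v, Subtype.ext hv⟩⟩
  rw [← Nat.card_congr e]
  simp [V6, Nat.card_prod, Nat.card_zmod]

theorem ncard_wt (n m : ℕ) (h : (univ.filter fun v : V6 => wt (W' v) = n).card = m) :
    {x : ArrayPt → ZMod 3 | x ∈ ternaryGolayCode ∧ (ternarySupport x).card = n}.ncard = m := by
  rw [← h, ← Set.ncard_coe_finset]
  have : {x : ArrayPt → ZMod 3 | x ∈ ternaryGolayCode ∧ (ternarySupport x).card = n} = W' '' ((univ.filter fun v : V6 => wt (W' v) = n : Finset V6) : Set V6) := by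
    ext x
    simp only [Set.mem_setOf_eq, Set.mem_image, Finset.coe_filter, Finset.mem_univ, true_and]
    constructor
    · rintro ⟨h1, h2⟩
      obtain ⟨v, rfl⟩ := mem_iff.mp h1
      exact ⟨v, h2, rfl⟩
    · rintro ⟨v, h1, rfl⟩
      exact ⟨mem_iff.mpr ⟨v, rfl⟩, h1⟩
  rw [this, Set.ncard_image_of_injective _ W'_inj]

theorem count6 : (univ.filter fun v : V6 => wt (W' v) = 6).card = 264 := by decide +kernel
theorem count9 : (univ.filter fun v : V6 => wt (W' v) = 9).card = 440 := by decide +kernel
theorem count12 : (univ.filter fun v : V6 => wt (W' v) = 12).card = 24 := by decide +kernel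

theorem sq_sum {x : ArrayPt → ZMod 3} (hx : x ∈ ternaryGolayCode) : ∑ p, x p * x p = 0 := by
  have h1 : ∀ a : ZMod 3, a * a = if a ≠ 0 then 1 else 0 := by decide
  simp only [h1]
  rw [Finset.sum_boole]
  change ((wt x : ℕ) : ZMod 3) = 0
  rcases wt_word hx with h | h | h | h <;> rw [h] <;> decide

theorem orth {x y : ArrayPt → ZMod 3} (hx : x ∈ ternaryGolayCode) (hy : y ∈ ternaryGolayCode) : ∑ p, x p * y p = 0 := by
  have h1 := sq_sum (add_mem hx hy)
  have h2 := sq_sum hx
  have h3 := sq_sum hy
  have h4 : ∑ p, (x + y) p * (x + y) p = ∑ p, x p * x p + ∑ p, y p * y p + 2 * ∑ p, x p * y p := by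
    rw [Finset.mul_sum, ← Finset.sum_add_distrib, ← Finset.sum_add_distrib]
    apply Finset.sum_congr rfl
    intro p _
    rw [Pi.add_apply]; ring
  rw [h4, h2, h3] at h1
  have h5 : (2 : ZMod 3) * ∑ p, x p * y p = 0 := by linear_combination h1
  have h6 : ∀ a : ZMod 3, 2 * a = 0 → a = 0 := by decide
  exact h6 _ h5

/-- two words of weight 6 with close supports are proportional -/
theorem prop_of_five {x y : ArrayPt → ZMod 3} (hx : x ∈ ternaryGolayCode) (hy : y ∈ ternaryGolayCode) (h6 : wt x = 6) (h6' : wt y = 6)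
    (h5 : 5 ≤ (ternarySupport x ∩ ternarySupport y).card) : x = y ∨ x = -y := by
  set P := (ternarySupport x ∩ ternarySupport y).filter (fun p => x p = y p) with hP
  set N := (ternarySupport x ∩ ternarySupport y).filter (fun p => x p ≠ y p) with hN
  have hPN : P.card + N.card = (ternarySupport x ∩ ternarySupport y).card := Finset.card_filter_add_card_filter_not _
  have hun : (ternarySupport x ∪ ternarySupport y).card + (ternarySupport x ∩ ternarySupport y).card = 12 := by
    rw [Finset.card_union_add_card_inter]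
    change wt x + wt y = 12
    rw [h6, h6']
  have hval : ∀ a b : ZMod 3, a ≠ 0 → b ≠ 0 → a ≠ b → a + b = 0 := by decide
  by_cases h3 : 3 ≤ P.card
  · left
    have h7 : ternarySupport (x - y) ⊆ (ternarySupport x ∪ ternarySupport y) \ P := by
      intro p hp
      rw [mem_supp, Pi.sub_apply] at hp
      rw [Finset.mem_sdiff, Finset.mem_union, mem_supp, mem_supp]
      refine ⟨?_, ?_⟩
      · by_contra hcon
        push Not at hcon
        rw [hcon.1, hcon.2] at hp; exact hp (sub_self _)
      · intro h
        rw [hP, Finset.mem_filter] at h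
        exact hp (sub_eq_zero.mpr h.2)
    have h8 := Finset.card_le_card h7
    have h9 : P ⊆ ternarySupport x ∪ ternarySupport y := (Finset.filter_subset _ _).trans (Finset.inter_subset_left.trans Finset.subset_union_left)
    rw [Finset.card_sdiff_of_subset h9] at h8
    have h10 := small (sub_mem hx hy) (by change (ternarySupport (x - y)).card < 6; omega)
    exact sub_eq_zero.mp h10
  · right
    have h7 : ternarySupport (x + y) ⊆ (ternarySupport x ∪ ternarySupport y) \ N := by
      intro p hp
      rw [mem_supp, Pi.add_apply] at hp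
      rw [Finset.mem_sdiff, Finset.mem_union, mem_supp, mem_supp]
      refine ⟨?_, ?_⟩
      · by_contra hcon
        push Not at hcon
        rw [hcon.1, hcon.2] at hp; exact hp (add_zero _)
      · intro h
        rw [hN, Finset.mem_filter, Finset.mem_inter, mem_supp, mem_supp] at h
        exact hp (hval _ _ h.1.1 h.1.2 h.2)
    have h8 := Finset.card_le_card h7
    have h9 : N ⊆ ternarySupport x ∪ ternarySupport y := (Finset.filter_subset _ _).trans (Finset.inter_subset_left.trans Finset.subset_union_left)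
    rw [Finset.card_sdiff_of_subset h9] at h8
    have h10 := small (add_mem hx hy) (by change (ternarySupport (x + y)).card < 6; omega)
    exact eq_neg_of_add_eq_zero_left h10

/-- the hexads -/
def hex : Set (Finset ArrayPt) := {h : Finset ArrayPt | ∃ x ∈ ternaryGolayCode, ternarySupport x = h ∧ h.card = 6}

theorem supp_neg (x : ArrayPt → ZMod 3) : ternarySupport (-x) = ternarySupport x := by
  ext p; rw [mem_supp, mem_supp, Pi.neg_apply, neg_ne_zero]

theorem hex_unique {h h' F : Finset ArrayPt} (hh : h ∈ hex) (hh' : h' ∈ hex) (hF : 5 ≤ F.card) (h1 : F ⊆ h) (h2 : F ⊆ h') : h = h' := by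
  obtain ⟨x, hx, rfl, h6⟩ := hh
  obtain ⟨y, hy, rfl, h6'⟩ := hh'
  rcases prop_of_five hx hy h6 h6' (le_trans hF (Finset.card_le_card (Finset.subset_inter h1 h2))) with h | h
  · rw [h]
  · rw [h, supp_neg]

/-- the hexads as a finset -/
def hexF : Finset (Finset ArrayPt) := (univ.filter fun v : V6 => wt (W' v) = 6).image (fun v => ternarySupport (W' v))

theorem mem_hexF {h : Finset ArrayPt} : h ∈ hexF ↔ h ∈ hex := by
  rw [hexF, Finset.mem_image]
  constructor
  · rintro ⟨v, hv, rfl⟩
    rw [Finset.mem_filter] at hv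
    exact ⟨W' v, mem_iff.mpr ⟨v, rfl⟩, rfl, hv.2⟩
  · rintro ⟨x, hx, rfl, h6⟩
    obtain ⟨v, rfl⟩ := mem_iff.mp hx
    exact ⟨v, by rw [Finset.mem_filter]; exact ⟨Finset.mem_univ _, h6⟩, rfl⟩

theorem W'_neg (v : V6) : W' (-v) = - W' v := by
  obtain ⟨a, b, c, d, e, f⟩ := v
  funext p
  change W (-a) (-b) (-c) (-d) (-e) (-f) p = - W a b c d e f p
  simp only [W]; ring

theorem card_hexF : hexF.card = 132 := by
  have h1 : (univ.filter fun v : V6 => wt (W' v) = 6).card = ∑ h ∈ hexF, ((univ.filter fun v : V6 => wt (W' v) = 6).filter fun v => ternarySupport (W' v) = h).card :=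
    Finset.card_eq_sum_card_image _ _
  have h2 : ∀ h ∈ hexF, ((univ.filter fun v : V6 => wt (W' v) = 6).filter fun v => ternarySupport (W' v) = h).card = 2 := by
    intro h hh
    rw [hexF, Finset.mem_image] at hh
    obtain ⟨v, hv, rfl⟩ := hh
    rw [Finset.mem_filter] at hv
    rw [Finset.card_eq_two]
    refine ⟨v, -v, ?_, ?_⟩
    · intro hcon
      have h3 : W' v = - W' v := by rw [← W'_neg, ← hcon]
      have h4 : W' v = 0 := by
        funext p
        have h5 := congrFun h3 p
        rw [Pi.neg_apply] at h5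
        have h6 : ∀ a : ZMod 3, a = -a → a = 0 := by decide
        exact h6 _ h5
      have h7 := hv.2
      rw [h4, wt_zero_iff.mpr rfl] at h7
      omega
    · ext w
      simp only [Finset.mem_filter, Finset.mem_univ, true_and, Finset.mem_insert, Finset.mem_singleton]
      constructor
      · rintro ⟨h3, h4⟩
        have h5 := prop_of_five (mem_iff.mpr ⟨w, rfl⟩) (mem_iff.mpr ⟨v, rfl⟩) h3 hv.2 (by
          rw [h4, Finset.inter_self]
          have := hv.2
          change (ternarySupport (W' v)).card = 6 at this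
          omega)
        rcases h5 with h5 | h5
        · exact Or.inl (W'_inj h5)
        · right; apply W'_inj; rw [W'_neg]; exact h5
      · rintro (rfl | rfl)
        · exact ⟨hv.2, rfl⟩
        · rw [W'_neg]
          refine ⟨?_, supp_neg _⟩
          rw [wt, supp_neg]; exact hv.2
  rw [Finset.sum_congr rfl h2, Finset.sum_const, count6, smul_eq_mul] at h1
  omega

theorem steiner : IsSteinerSystem 5 6 hex := by
  refine ⟨fun b hb => by obtain ⟨x, -, -, h⟩ := hb; exact h, ?_⟩
  intro F hF
  have hcov : F ∈ hexF.biUnion (fun h => powersetCard 5 h) := by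
    have h1 : (hexF.biUnion (fun h => powersetCard 5 h)).card = 792 := by
      rw [Finset.card_biUnion]
      · rw [Finset.sum_congr rfl (g := fun _ => 6), Finset.sum_const, card_hexF]; · rfl
        intro h hh
        obtain ⟨x, -, -, h6⟩ := mem_hexF.mp hh
        rw [Finset.card_powersetCard, h6]; rfl
      · intro h hh h' hh' hne
        rw [Function.onFun, Finset.disjoint_left]
        intro T hT hT'
        rw [Finset.mem_powersetCard] at hT hT'
        exact hne (hex_unique (mem_hexF.mp hh) (mem_hexF.mp hh') (by omega) hT.1 hT'.1)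
    have h2 : hexF.biUnion (fun h => powersetCard 5 h) = powersetCard 5 univ := by
      apply Finset.eq_of_subset_of_card_le
      · intro T hT
        rw [Finset.mem_biUnion] at hT
        obtain ⟨h, -, hT⟩ := hT
        rw [Finset.mem_powersetCard] at hT ⊢
        exact ⟨Finset.subset_univ _, hT.2⟩
      · rw [h1, Finset.card_powersetCard, Finset.card_univ]
        decide
    rw [h2, Finset.mem_powersetCard]
    exact ⟨Finset.subset_univ _, hF⟩
  rw [Finset.mem_biUnion] at hcov
  obtain ⟨h, hh, hFh⟩ := hcov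
  rw [Finset.mem_powersetCard] at hFh
  refine ⟨h, ⟨mem_hexF.mp hh, hFh.1⟩, ?_⟩
  rintro h' ⟨hh', hFh'⟩
  exact hex_unique hh' (mem_hexF.mp hh) (by omega) hFh' hFh.1

/-- sign changes preserving the code are constant -/
theorem signs_const (c : ArrayPt → (ZMod 3)ˣ) (h : ∀ x ∈ ternaryGolayCode, monomialMap 1 c x ∈ ternaryGolayCode) :
    (∀ p, c p = 1) ∨ (∀ p, c p = -1) := by
  have hu : ∀ u : (ZMod 3)ˣ, u = 1 ∨ u = -1 := by decide
  have key : ∀ p q, c p = c q := by
    intro p q
    -- a hexad through both
    obtain ⟨F, hF1, hF⟩ := Finset.exists_superset_card_eq (s := ({p, q} : Finset ArrayPt)) (n := 5)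
      (by have := Finset.card_le_two (a := p) (b := q); omega) (by decide)
    obtain ⟨b, ⟨⟨x, hx, rfl, h6⟩, hFb⟩, -⟩ := steiner.2 F hF
    have hp : x p ≠ 0 := mem_supp.mp (hFb (hF1 (by simp)))
    have hq : x q ≠ 0 := mem_supp.mp (hFb (hF1 (by simp)))
    have hm := h x hx
    have hsup : ternarySupport (monomialMap 1 c x) = ternarySupport x := by
      ext r
      rw [mem_supp, mem_supp]
      change (c r : ZMod 3) * x r ≠ 0 ↔ x r ≠ 0
      rw [mul_ne_zero_iff]
      exact ⟨And.right, fun h => ⟨Units.ne_zero _, h⟩⟩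
    have h7 : monomialMap 1 c x = x ∨ monomialMap 1 c x = -x := by
      apply prop_of_five hm hx (by rw [wt, hsup]; exact h6) h6
      rw [hsup, Finset.inter_self, h6]; norm_num
    have hv : ∀ r, monomialMap 1 c x r = (c r : ZMod 3) * x r := fun r => rfl
    rcases h7 with h7 | h7
    · have e1 := congrFun h7 p
      have e2 := congrFun h7 q
      rw [hv] at e1 e2
      have f1 : (c p : ZMod 3) = 1 := mul_right_cancel₀ hp (by rw [e1, one_mul])
      have f2 : (c q : ZMod 3) = 1 := mul_right_cancel₀ hq (by rw [e2, one_mul])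
      exact Units.ext (f1.trans f2.symm)
    · have e1 := congrFun h7 p
      have e2 := congrFun h7 q
      rw [hv] at e1 e2
      have f1 : (c p : ZMod 3) = -1 := mul_right_cancel₀ hp (by rw [e1, Pi.neg_apply, neg_mul, one_mul])
      have f2 : (c q : ZMod 3) = -1 := mul_right_cancel₀ hq (by rw [e2, Pi.neg_apply, neg_mul, one_mul])
      exact Units.ext (f1.trans f2.symm)
  rcases hu (c (0, 0)) with h0 | h0
  · left; intro p; rw [key p (0, 0), h0]
  · right; intro p; rw [key p (0, 0), h0]

end CfsgLib.Ternary
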