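import Mathlib
import Cfsg.Agent.Lib.Ternary2

/-!
The monomial group of the ternary code of length 12.
-/

set_option autoImplicit false
set_option linter.all false

namespace CfsgLib.Ternary

open Cfsg Finset
open scoped Pointwise

def tl0 : List (ℕ × List ℕ × List ℕ × List ℕ) := [(0, [0, 1, 2, 3, 4, 5, 6, 7, 8, 9, 10, 11], [0, 1, 2, 3, 4, 5, 6, 7, 8, 9, 10, 11], [1, 1, 1, 1, 1, 1, 1, 1, 1, 1, 1, 1]), (1, [1, 0, 2, 3, 4, 5, 11, 9, 10, 7, 8, 6], [1, 0, 2, 3, 4, 5, 11, 9, 10, 7, 8, 6], [1, 1, 1, 1, 1, 1, 1, 1, 1, 1, 1, 1]), (2, [1, 2, 0, 3, 4, 5, 7, 8, 6, 11, 9, 10], [2, 0, 1, 3, 4, 5, 8, 6, 7, 10, 11, 9], [1, 1, 1, 1, 1, 1, 1, 1, 1, 1, 1, 1]), (3, [1, 2, 3, 0, 4, 5, 8, 7, 9, 10, 6, 11], [3, 0, 1, 2, 4, 5, 10, 7, 6, 8, 9, 11], [1, 2, 2, 1, 2, 2, 2, 1, 1, 2, 1, 1]), (4, [1, 2, 3, 4, 0, 5, 6, 10, 11, 7, 8, 9], [4, 0, 1, 2, 3, 5,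 6, 9, 10, 11, 7, 8], [1, 2, 2, 1, 2, 2, 2, 1, 1, 2, 1, 1]), (5, [1, 2, 3, 4, 5, 0, 7, 9, 8, 6, 11, 10], [5, 0, 1, 2, 3, 4, 9, 6, 8, 7, 11, 10], [1, 2, 2, 1, 2, 2, 2, 1, 1, 2, 1, 1]), (6, [1, 2, 3, 4, 7, 6, 0, 8, 10, 5, 9, 11], [6, 0, 1, 2, 3, 9, 5, 4, 7, 10, 8, 11], [1, 2, 1, 2, 2, 2, 2, 1, 1, 2, 1, 1]), (7, [1, 2, 3, 4, 9, 10, 11, 0, 7, 8, 6, 5], [7, 0, 1, 2, 3, 11, 10, 8, 9, 4, 5, 6], [1, 1, 2, 2, 2, 2, 2, 1, 1, 2, 1, 1]), (8, [1, 2, 3, 4, 8, 11, 9, 6, 0, 10, 5, 7], [8, 0, 1, 2, 3, 10, 7, 11, 4, 6, 9, 5], [1, 1, 1, 1, 2, 2, 2, 1, 1, 2, 1, 1]), (9, [1, 2, 3, 4, 6, 7, 5, 11, 9, 0, 10, 8], [9, 0, 1, 2, 3, 6, 4, 5, 11, 8, 10, 7], [1, 2, 1, 2, 2, 2, 2, 1, 1, 2, 1, 1]), (10, [1, 2, 3, 4, 11, 8, 10, 7, 5, 9, 0, 6], [10, 0, 1, 2, 3, 8, 11, 7, 5, 9, 6, 4], [1, 1, 1, 1, 2, 2, 2, 1, 1, 2, 1, 1]), (11, [1, 2, 3, 4, 10, 9, 8, 5, 6, 11,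 7, 0], [11, 0, 1, 2, 3, 7, 8, 10, 6, 5, 4, 9], [1, 1, 2, 2, 2, 2, 2, 1, 1, 2, 1, 1])]
def tl1 : List (ℕ × List ℕ × List ℕ × List ℕ) := [(1, [0, 1, 2, 3, 4, 5, 6, 7, 8, 9, 10, 11], [0, 1, 2, 3, 4, 5, 6, 7, 8, 9, 10, 11], [1, 1, 1, 1, 1, 1, 1, 1, 1, 1, 1, 1]), (2, [0, 2, 1, 3, 4, 5, 9, 10, 11, 6, 7, 8], [0, 2, 1, 3, 4, 5, 9, 10, 11, 6, 7, 8], [1, 1, 1, 1, 1, 1, 1, 1, 1, 1, 1, 1]), (3, [0, 2, 3, 1, 4, 5, 10, 9, 7, 8, 11, 6], [0, 3, 1, 2, 4, 5, 11, 8, 9, 7, 6, 10], [1, 2, 1, 2, 1, 1, 2, 1, 2, 2, 2, 1]), (4, [0, 2, 3, 4, 1, 5, 11, 8, 6, 9, 10, 7], [0, 4, 1, 2, 3, 5, 8, 11, 7, 9, 10, 6], [1, 2, 1, 2, 1, 1, 2, 1, 2, 2, 2, 1]), (5, [0, 2, 3, 4, 5, 1, 9, 7, 10, 11, 6, 8], [0, 5, 1, 2, 3, 4, 10, 7, 11, 6, 8, 9], [1, 2, 1, 2, 1, 1, 2, 1, 2, 2, 2, 1]), (6, [0, 2, 3, 4, 9, 11, 1, 10, 8, 5, 7, 6], [0, 6, 1, 2, 3, 9, 11, 10, 8, 4, 7, 5], [1,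 2, 2, 1, 1, 1, 2, 1, 2, 2, 2, 1]), (7, [0, 2, 3, 4, 7, 8, 6, 1, 9, 10, 11, 5], [0, 7, 1, 2, 3, 11, 6, 4, 5, 8, 9, 10], [1, 1, 2, 2, 2, 2, 1, 2, 1, 1, 1, 2]), (8, [0, 2, 3, 4, 10, 6, 7, 11, 1, 8, 5, 9], [0, 8, 1, 2, 3, 10, 5, 6, 9, 11, 4, 7], [1, 1, 1, 1, 2, 2, 1, 2, 1, 1, 1, 2]), (9, [0, 2, 3, 4, 11, 9, 5, 6, 7, 1, 8, 10], [0, 9, 1, 2, 3, 6, 7, 8, 10, 5, 11, 4], [1, 2, 2, 1, 1, 1, 2, 1, 2, 2, 2, 1]), (10, [0, 2, 3, 4, 6, 10, 8, 9, 5, 7, 1, 11], [0, 10, 1, 2, 3, 8, 4, 9, 6, 7, 5, 11], [1, 1, 1, 1, 2, 2, 1, 2, 1, 1, 1, 2]), (11, [0, 2, 3, 4, 8, 7, 10, 5, 11, 6, 9, 1], [0, 11, 1, 2, 3, 7, 9, 5, 4, 10, 6, 8], [1, 1, 2, 2, 2, 2, 1, 2, 1, 1, 1, 2])]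
def tl2 : List (ℕ × List ℕ × List ℕ × List ℕ) := [(2, [0, 1, 2, 3, 4, 5, 6, 7, 8, 9, 10, 11], [0, 1, 2, 3, 4, 5, 6, 7, 8, 9, 10, 11], [1, 1, 1, 1, 1, 1, 1, 1, 1, 1, 1, 1]), (3, [0, 1, 3, 2, 4, 5, 7, 6, 10, 11, 8, 9], [0, 1, 3, 2, 4, 5, 7, 6, 10, 11, 8, 9], [1, 1, 2, 2, 1, 1, 2, 2, 1, 2, 1, 2]), (4, [0, 1, 3, 4, 2, 5, 8, 11, 9, 6, 7, 10], [0, 1, 4, 2, 3, 5, 9, 10, 6, 8, 11, 7], [1, 1, 2, 2, 1, 1, 2, 2, 1, 2, 1, 2]), (5, [0, 1, 3, 4, 5, 2, 6, 10, 7, 8, 9, 11], [0, 1, 5, 2, 3, 4, 6, 8, 9, 10, 7, 11], [1, 1, 2, 2, 1, 1, 2, 2, 1, 2, 1, 2]), (6, [0, 1, 3, 4, 6, 8, 2, 7, 11, 5, 10, 9], [0, 1, 6, 2, 3, 9, 4, 7, 5, 11, 10, 8], [1, 2, 2, 1, 1, 1, 2, 2, 1, 2, 1, 2]), (7, [0, 1, 3, 4, 10, 11, 9, 2, 6, 7, 8, 5], [0, 1, 7, 2, 3, 11, 8, 9, 10, 6, 4, 5], [1, 2, 1, 2, 2, 2, 1, 1, 2, 1, 2, 1]), (8, [0, 1, 3, 4, 7, 9, 10, 8, 2, 11, 5, 6], [0,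 1, 8, 2, 3, 10, 11, 4, 7, 5, 6, 9], [1, 1, 1, 1, 2, 2, 1, 1, 2, 1, 2, 1]), (9, [0, 1, 3, 4, 8, 6, 5, 9, 10, 2, 11, 7], [0, 1, 9, 2, 3, 6, 5, 11, 4, 7, 8, 10], [1, 2, 2, 1, 1, 1, 2, 2, 1, 2, 1, 2]), (10, [0, 1, 3, 4, 9, 7, 11, 6, 5, 10, 2, 8], [0, 1, 10, 2, 3, 8, 7, 5, 11, 4, 9, 6], [1, 1, 1, 1, 2, 2, 1, 1, 2, 1, 2, 1]), (11, [0, 1, 3, 4, 11, 10, 7, 5, 8, 9, 6, 2], [0, 1, 11, 2, 3, 7, 10, 6, 8, 9, 5, 4], [1, 2, 1, 2, 2, 2, 1, 1, 2, 1, 2, 1])]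
def tl3 : List (ℕ × List ℕ × List ℕ × List ℕ) := [(3, [0, 1, 2, 3, 4, 5, 6, 7, 8, 9, 10, 11], [0, 1, 2, 3, 4, 5, 6, 7, 8, 9, 10, 11], [1, 1, 1, 1, 1, 1, 1, 1, 1, 1, 1, 1]), (4, [0, 1, 2, 4, 3, 5, 10, 9, 11, 7, 6, 8], [0, 1, 2, 4, 3, 5, 10, 9, 11, 7, 6, 8], [1, 1, 1, 1, 1, 1, 1, 1, 1, 1, 1, 1]), (5, [0, 1, 2, 4, 5, 3, 7, 8, 6, 10, 11, 9], [0, 1, 2, 5, 3, 4, 8, 6, 7, 11, 9, 10], [1, 1, 1, 1, 1, 1, 1, 1, 1, 1, 1, 1]), (6, [0, 1, 2, 4, 7, 10, 3, 6, 9, 5, 8, 11], [0, 1, 2, 6, 3, 9, 7, 4, 10, 8, 5, 11], [1, 2, 2, 1, 1, 1, 1, 1, 1, 1, 1, 1]), (7, [0, 1, 2, 4, 8, 9, 11, 3, 7, 6, 10, 5], [0, 1, 2, 7, 3, 11, 9, 8, 4, 5, 10, 6], [1, 2, 1, 2, 2, 2, 2, 2, 2, 2, 2, 2]), (8, [0, 1, 2, 4, 6, 11, 8, 10, 3, 9, 5, 7], [0, 1, 2, 8, 3, 10, 4, 11, 6, 9, 7, 5], [1, 1, 2, 2, 2, 2, 2, 2, 2, 2, 2, 2]), (9, [0, 1, 2, 4, 10, 7, 5, 11, 8, 3, 9, 6], [0,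 1, 2, 9, 3, 6, 11, 5, 8, 10, 4, 7], [1, 2, 2, 1, 1, 1, 1, 1, 1, 1, 1, 1]), (10, [0, 1, 2, 4, 11, 6, 9, 7, 5, 8, 3, 10], [0, 1, 2, 10, 3, 8, 5, 7, 9, 6, 11, 4], [1, 1, 2, 2, 2, 2, 2, 2, 2, 2, 2, 2]), (11, [0, 1, 2, 4, 9, 8, 6, 5, 10, 11, 7, 3], [0, 1, 2, 11, 3, 7, 6, 10, 5, 4, 8, 9], [1, 2, 1, 2, 2, 2, 2, 2, 2, 2, 2, 2])]
def tl4 : List (ℕ × List ℕ × List ℕ × List ℕ) := [(4, [0, 1, 2, 3, 4, 5, 6, 7, 8, 9, 10, 11], [0, 1, 2, 3, 4, 5, 6, 7, 8, 9, 10, 11], [1, 1, 1, 1, 1, 1, 1, 1, 1, 1, 1, 1]), (5, [0, 1, 2, 3, 5, 4, 9, 11, 10, 6, 8, 7], [0, 1, 2, 3, 5, 4, 9, 11, 10, 6, 8, 7], [1, 1, 1, 1, 1, 1, 1, 1, 1, 1, 1, 1]), (6, [0, 1, 2, 3, 9, 6, 4, 10, 7, 5, 11, 8], [0, 1, 2, 3, 6, 9, 5, 8, 11, 4, 7, 10], [1, 2, 2, 1, 1, 1, 1, 1, 1, 1, 1, 1]), (7, [0, 1, 2, 3, 11, 7, 8, 4, 9, 10, 6, 5], [0, 1, 2, 3, 7, 11, 10, 5, 6, 8, 9, 4], [1, 2, 1,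 2, 2, 2, 2, 2, 2, 2, 2, 2]), (8, [0, 1, 2, 3, 10, 8, 11, 6, 4, 7, 5, 9], [0, 1, 2, 3, 8, 10, 7, 9, 5, 11, 4, 6], [1, 1, 2, 2, 2, 2, 2, 2, 2, 2, 2, 2]), (9, [0, 1, 2, 3, 6, 9, 5, 8, 11, 4, 7, 10], [0, 1, 2, 3, 9, 6, 4, 10, 7, 5, 11, 8], [1, 2, 2, 1, 1, 1, 1, 1, 1, 1, 1, 1]), (10, [0, 1, 2, 3, 8, 10, 7, 9, 5, 11, 4, 6], [0, 1, 2, 3, 10, 8, 11, 6, 4, 7, 5, 9], [1, 1, 2, 2, 2, 2, 2, 2, 2, 2, 2, 2]), (11, [0, 1, 2, 3, 7, 11, 10, 5, 6, 8, 9, 4], [0, 1, 2, 3, 11, 7, 8, 4, 9, 10, 6, 5], [1, 2, 1, 2, 2, 2, 2, 2, 2, 2, 2, 2])]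

def pa (i : ℕ) : ArrayPt := (Fin.ofNat 4 (i / 3), ((i % 3 : ℕ) : ZMod 3))

theorem pa_ix : ∀ p, pa (ix p) = p := by decide +kernel
theorem ix_lt : ∀ p, ix p < 12 := by decide +kernel
theorem ix_pa : ∀ i < 12, ix (pa i) = i := by decide +kernel

/-- basis word moved by a table entry -/
def mv (inv c : List ℕ) (j : ℕ) : ArrayPt → ZMod 3 := fun q => ((c.getD (ix q) 0 : ℕ) : ZMod 3) * bw j (pa (inv.getD (ix q) 0))

def okP (perm inv : List ℕ) : Bool :=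
  decide (∀ q : ArrayPt, pa (perm.getD (ix (pa (inv.getD (ix q) 0))) 0) = q ∧ pa (inv.getD (ix (pa (perm.getD (ix q) 0))) 0) = q)

def okS (c : List ℕ) : Bool := decide (∀ q : ArrayPt, ((c.getD (ix q) 0 : ℕ) : ZMod 3) ≠ 0)

def okW (x : ArrayPt → ZMod 3) : Bool := decide (∀ q, x q = W (x (0, 0)) (x (0, 1)) (x (0, 2)) (x (1, 0)) (x (1, 1)) (x (2, 0)) q)

def okE (e : ℕ × List ℕ × List ℕ × List ℕ) : Bool :=
  and (okP e.2.1 e.2.2.1) (and (okS e.2.2.2) ((List.range 6).all fun j => okW (mv e.2.2.1 e.2.2.2 j)))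

/-- preserving the code -/
def Pres (σ : Equiv.Perm ArrayPt) (c : ArrayPt → (ZMod 3)ˣ) : Prop := ∀ x ∈ ternaryGolayCode, monomialMap σ c x ∈ ternaryGolayCode

theorem mono_add (σ : Equiv.Perm ArrayPt) (c : ArrayPt → (ZMod 3)ˣ) (x y : ArrayPt → ZMod 3) : monomialMap σ c (x + y) = monomialMap σ c x + monomialMap σ c y := by
  funext i; simp only [monomialMap, Pi.add_apply]; ring

theorem mono_smul (σ : Equiv.Perm ArrayPt) (c : ArrayPt → (ZMod 3)ˣ) (a : ZMod 3) (x : ArrayPt → ZMod 3) : monomialMap σ c (a • x) = a • monomialMap σ c x := by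
  funext i; simp only [monomialMap, Pi.smul_apply, smul_eq_mul]; ring

theorem pres_of_basis {σ : Equiv.Perm ArrayPt} {c : ArrayPt → (ZMod 3)ˣ} (h : ∀ j < 6, monomialMap σ c (bw j) ∈ ternaryGolayCode) : Pres σ c := by
  intro x hx
  obtain ⟨⟨a, b, c', d, e, f⟩, rfl⟩ := mem_iff.mp hx
  change monomialMap σ c (W a b c' d e f) ∈ _
  rw [W_eq]
  simp only [mono_add, mono_smul]
  exact add_mem (add_mem (add_mem (add_mem (add_mem (Submodule.smul_mem _ _ (h 0 (by norm_num))) (Submodule.smul_mem _ _ (h 1 (by norm_num))))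
    (Submodule.smul_mem _ _ (h 2 (by norm_num)))) (Submodule.smul_mem _ _ (h 3 (by norm_num)))) (Submodule.smul_mem _ _ (h 4 (by norm_num))))
    (Submodule.smul_mem _ _ (h 5 (by norm_num)))

theorem exists_of_ok {e : ℕ × List ℕ × List ℕ × List ℕ} (h : okE e = true) :
    ∃ (σ : Equiv.Perm ArrayPt) (c : ArrayPt → (ZMod 3)ˣ), Pres σ c ∧ ∀ q, σ q = pa (e.2.1.getD (ix q) 0) := by
  rw [okE, Bool.and_eq_true, Bool.and_eq_true, okP, okS, decide_eq_true_iff, decide_eq_true_iff, List.all_eq_true] at h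
  obtain ⟨h1, h2, h3'⟩ := h
  have h3 : ∀ j < 6, ∀ q, mv e.2.2.1 e.2.2.2 j q = W (mv e.2.2.1 e.2.2.2 j (0, 0)) (mv e.2.2.1 e.2.2.2 j (0, 1)) (mv e.2.2.1 e.2.2.2 j (0, 2))
      (mv e.2.2.1 e.2.2.2 j (1, 0)) (mv e.2.2.1 e.2.2.2 j (1, 1)) (mv e.2.2.1 e.2.2.2 j (2, 0)) q := by
    intro j hj
    have := h3' j (List.mem_range.mpr hj)
    rwa [okW, decide_eq_true_iff] at this
  let σ : Equiv.Perm ArrayPt := ⟨fun q => pa (e.2.1.getD (ix q) 0), fun q => pa (e.2.2.1.getD (ix q) 0), fun q => (h1 q).2, fun q => (h1 q).1⟩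
  let c : ArrayPt → (ZMod 3)ˣ := fun q => Units.mk0 _ (h2 q)
  refine ⟨σ, c, ?_, fun q => rfl⟩
  apply pres_of_basis
  intro j hj
  have e1 : monomialMap σ c (bw j) = mv e.2.2.1 e.2.2.2 j := rfl
  rw [e1]
  rw [show mv e.2.2.1 e.2.2.2 j = _ from funext (h3 j hj)]
  exact W_mem _ _ _ _ _ _

theorem pres_mul {σ τ : Equiv.Perm ArrayPt} {c d : ArrayPt → (ZMod 3)ˣ} (h1 : Pres σ c) (h2 : Pres τ d) : Pres (σ * τ) (fun i => c i * d (σ.symm i)) := by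
  intro x hx
  have := h1 _ (h2 x hx)
  have e : monomialMap (σ * τ) (fun i => c i * d (σ.symm i)) x = monomialMap σ c (monomialMap τ d x) := by
    funext i
    simp only [monomialMap, Units.val_mul]
    rw [mul_assoc]; rfl
  rw [e]; exact this

theorem mono_inv (σ : Equiv.Perm ArrayPt) (c : ArrayPt → (ZMod 3)ˣ) (x : ArrayPt → ZMod 3) :
    monomialMap σ c (monomialMap σ⁻¹ (fun i => (c (σ i))⁻¹) x) = x := by
  funext i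
  simp only [monomialMap]
  have e1 : σ (σ.symm i) = i := σ.apply_symm_apply i
  have e2 : (σ⁻¹).symm (σ.symm i) = i := σ.apply_symm_apply i
  rw [e1, e2, ← mul_assoc, Units.mul_inv, one_mul]

theorem mono_inj (σ : Equiv.Perm ArrayPt) (c : ArrayPt → (ZMod 3)ˣ) : Function.Injective (monomialMap σ c) := by
  intro x y h
  funext i
  have h1 := congrFun h (σ i)
  simp only [monomialMap] at h1
  rw [σ.symm_apply_apply] at h1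
  exact (Units.mul_right_inj _).mp h1

theorem pres_inv {σ : Equiv.Perm ArrayPt} {c : ArrayPt → (ZMod 3)ˣ} (h : Pres σ c) : Pres σ⁻¹ (fun i => (c (σ i))⁻¹) := by
  intro x hx
  let f : ternaryGolayCode → ternaryGolayCode := fun y => ⟨monomialMap σ c y, h _ y.2⟩
  have hf : Function.Injective f := fun y z hyz => Subtype.ext (mono_inj σ c (congrArg Subtype.val hyz))
  obtain ⟨y, hy⟩ := Finite.surjective_of_injective hf ⟨x, hx⟩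
  have h1 : monomialMap σ c y = x := congrArg Subtype.val hy
  have h2 : monomialMap σ⁻¹ (fun i => (c (σ i))⁻¹) x = y := mono_inj σ c (by rw [mono_inv, h1])
  rw [h2]; exact y.2

/-- the group of permutations -/
def HH : Subgroup (Equiv.Perm ArrayPt) where
  carrier := {σ | ∃ c, Pres σ c}
  one_mem' := ⟨fun _ => 1, fun x hx => by
    have : monomialMap 1 (fun _ => (1 : (ZMod 3)ˣ)) x = x := by
      funext i
      change ((1 : (ZMod 3)ˣ) : ZMod 3) * x i = x i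
      rw [Units.val_one, one_mul]
    rw [this]; exact hx⟩
  mul_mem' := by rintro σ τ ⟨c, hc⟩ ⟨d, hd⟩; exact ⟨_, pres_mul hc hd⟩
  inv_mem' := by rintro σ ⟨c, hc⟩; exact ⟨_, pres_inv hc⟩

theorem mem_HH {σ : Equiv.Perm ArrayPt} : σ ∈ HH ↔ ∃ c, Pres σ c := Iff.rfl

def okL (l : ℕ) (T : List (ℕ × List ℕ × List ℕ × List ℕ)) : Bool :=
  and (T.all fun e => and (okE e) (and (decide (pa (e.2.1.getD (ix (pa e.1)) 0) = pa l)) (decide (∀ i < l, pa (e.2.1.getD (ix (pa i)) 0) = pa i))))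
    (decide (∀ q : ArrayPt, (∃ i < l, q = pa i) ∨ ∃ e ∈ T, q = pa e.1))

theorem ok0 : okL 0 tl0 = true := by decide +kernel
theorem ok1 : okL 1 tl1 = true := by decide +kernel
theorem ok2 : okL 2 tl2 = true := by decide +kernel
theorem ok3 : okL 3 tl3 = true := by decide +kernel
theorem ok4 : okL 4 tl4 = true := by decide +kernel

theorem okL_spec {l : ℕ} {T : List (ℕ × List ℕ × List ℕ × List ℕ)} (h : okL l T = true) {q : ArrayPt} (hq : ∀ i < l, q ≠ pa i) :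
    ∃ σ ∈ HH, σ q = pa l ∧ ∀ i < l, σ (pa i) = pa i := by
  rw [okL, Bool.and_eq_true, List.all_eq_true, decide_eq_true_iff] at h
  obtain ⟨h1, h2⟩ := h
  rcases h2 q with ⟨i, hi, h3⟩ | ⟨e, he, rfl⟩
  · exact absurd h3 (hq i hi)
  · have h4 := h1 e he
    simp only [Bool.and_eq_true, decide_eq_true_iff] at h4
    obtain ⟨h5, h6, h7⟩ := h4
    obtain ⟨σ, c, hσ, hs⟩ := exists_of_ok h5
    exact ⟨σ, ⟨c, hσ⟩, by rw [hs]; exact h6, fun i hi => by rw [hs]; exact h7 i hi⟩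

theorem HH_trans (x : Fin 5 ↪ ArrayPt) : ∃ σ ∈ HH, ∀ i : Fin 5, σ (x i) = pa i := by
  have hx : ∀ i j : Fin 5, i ≠ j → x i ≠ x j := fun i j h h' => h (x.injective h')
  obtain ⟨s0, m0, a0, -⟩ := okL_spec ok0 (q := x 0) (fun i hi => absurd hi (by omega))
  obtain ⟨s1, m1, a1, b1⟩ := okL_spec ok1 (q := s0 (x 1)) (by
    intro i hi
    interval_cases i
    rw [← a0]; exact fun h => hx 1 0 (by decide) (s0.injective h))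
  obtain ⟨s2, m2, a2, b2⟩ := okL_spec ok2 (q := s1 (s0 (x 2))) (by
    intro i hi
    interval_cases i
    · rw [← b1 0 (by norm_num), ← a0]; exact fun h => hx 2 0 (by decide) (s0.injective (s1.injective h))
    · rw [← a1]; exact fun h => hx 2 1 (by decide) (s0.injective (s1.injective h)))
  obtain ⟨s3, m3, a3, b3⟩ := okL_spec ok3 (q := s2 (s1 (s0 (x 3)))) (by
    intro i hi
    interval_cases i
    · rw [← b2 0 (by norm_num), ← b1 0 (by norm_num), ← a0]; exact fun h => hx 3 0 (by decide) (s0.injective (s1.injective (s2.injective h)))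
    · rw [← b2 1 (by norm_num), ← a1]; exact fun h => hx 3 1 (by decide) (s0.injective (s1.injective (s2.injective h)))
    · rw [← a2]; exact fun h => hx 3 2 (by decide) (s0.injective (s1.injective (s2.injective h))))
  obtain ⟨s4, m4, a4, b4⟩ := okL_spec ok4 (q := s3 (s2 (s1 (s0 (x 4))))) (by
    intro i hi
    interval_cases i
    · rw [← b3 0 (by norm_num), ← b2 0 (by norm_num), ← b1 0 (by norm_num), ← a0]
      exact fun h => hx 4 0 (by decide) (s0.injective (s1.injective (s2.injective (s3.injective h))))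
    · rw [← b3 1 (by norm_num), ← b2 1 (by norm_num), ← a1]
      exact fun h => hx 4 1 (by decide) (s0.injective (s1.injective (s2.injective (s3.injective h))))
    · rw [← b3 2 (by norm_num), ← a2]
      exact fun h => hx 4 2 (by decide) (s0.injective (s1.injective (s2.injective (s3.injective h))))
    · rw [← a3]
      exact fun h => hx 4 3 (by decide) (s0.injective (s1.injective (s2.injective (s3.injective h)))))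
  refine ⟨s4 * s3 * s2 * s1 * s0, HH.mul_mem (HH.mul_mem (HH.mul_mem (HH.mul_mem m4 m3) m2) m1) m0, ?_⟩
  intro i
  simp only [Equiv.Perm.mul_apply]
  fin_cases i
  · change s4 (s3 (s2 (s1 (s0 (x 0))))) = pa 0
    rw [a0, b1 0 (by norm_num), b2 0 (by norm_num), b3 0 (by norm_num), b4 0 (by norm_num)]
  · change s4 (s3 (s2 (s1 (s0 (x 1))))) = pa 1
    rw [a1, b2 1 (by norm_num), b3 1 (by norm_num), b4 1 (by norm_num)]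
  · change s4 (s3 (s2 (s1 (s0 (x 2))))) = pa 2
    rw [a2, b3 2 (by norm_num), b4 2 (by norm_num)]
  · change s4 (s3 (s2 (s1 (s0 (x 3))))) = pa 3
    rw [a3, b4 3 (by norm_num)]
  · exact a4

theorem card_HH_ge : 95040 ≤ Nat.card HH := by
  have hinj : Function.Injective (fun i : Fin 5 => pa i) := by
    intro i j h
    have h1 : ∀ i j : Fin 5, pa i = pa j → i = j := by decide +kernel
    exact h1 i j h
  let b : Fin 5 ↪ ArrayPt := ⟨fun i => pa i, hinj⟩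
  let Φ : HH → (Fin 5 ↪ ArrayPt) := fun σ => b.trans (σ : Equiv.Perm ArrayPt).toEmbedding
  have hΦ : Function.Surjective Φ := by
    intro x
    obtain ⟨σ, hσ, h⟩ := HH_trans x
    refine ⟨⟨σ⁻¹, HH.inv_mem hσ⟩, ?_⟩
    ext1 i
    change σ⁻¹ (pa i) = x i
    rw [Equiv.Perm.inv_eq_iff_eq, h]
  have h1 := Nat.card_le_card_of_surjective Φ hΦ
  rw [Nat.card_eq_fintype_card (α := Fin 5 ↪ ArrayPt), Fintype.card_embedding_eq] at h1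
  have h2 : (Fintype.card ArrayPt).descFactorial (Fintype.card (Fin 5)) = 95040 := by
    simp only [Fintype.card_fin, Fintype.card_prod, ZMod.card]
    decide
  rw [h2] at h1
  exact h1

theorem supp_mono (σ : Equiv.Perm ArrayPt) (c : ArrayPt → (ZMod 3)ˣ) (x : ArrayPt → ZMod 3) :
    ternarySupport (monomialMap σ c x) = σ • ternarySupport x := by
  ext p
  rw [mem_supp, ← Finset.inv_smul_mem_iff, mem_supp]
  change (c p : ZMod 3) * x (σ.symm p) ≠ 0 ↔ x (σ.symm p) ≠ 0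
  rw [mul_ne_zero_iff]
  exact ⟨And.right, fun h => ⟨Units.ne_zero _, h⟩⟩

theorem smul_hex {σ : Equiv.Perm ArrayPt} (hσ : σ ∈ HH) {s : Finset ArrayPt} (hs : s ∈ hex) : σ • s ∈ hex := by
  obtain ⟨c, hc⟩ := hσ
  obtain ⟨x, hx, rfl, h6⟩ := hs
  exact ⟨monomialMap σ c x, hc x hx, supp_mono σ c x, by rw [Finset.card_smul_finset]; exact h6⟩

theorem HH_le : HH ≤ setSystemAut hex := by
  intro σ hσ
  rw [MulAction.mem_stabilizer_set]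
  intro s
  refine ⟨fun h => ?_, smul_hex hσ⟩
  have := smul_hex (HH.inv_mem hσ) h
  rwa [inv_smul_smul] at this

theorem card_mono : Nat.card {f : Equiv.Perm ArrayPt × (ArrayPt → (ZMod 3)ˣ) // Pres f.1 f.2} = 2 * Nat.card HH := by
  have hch : ∀ σ : HH, ∃ c, Pres (σ : Equiv.Perm ArrayPt) c := fun σ => σ.2
  choose c hc using hch
  let F : HH × (ZMod 3)ˣ → {f : Equiv.Perm ArrayPt × (ArrayPt → (ZMod 3)ˣ) // Pres f.1 f.2} := fun p =>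
    ⟨((p.1 : Equiv.Perm ArrayPt), fun i => p.2 * c p.1 i), by
      intro x hx
      have e : monomialMap (p.1 : Equiv.Perm ArrayPt) (fun i => p.2 * c p.1 i) x = (p.2 : ZMod 3) • monomialMap (p.1 : Equiv.Perm ArrayPt) (c p.1) x := by
        funext i
        simp only [monomialMap, Units.val_mul, Pi.smul_apply, smul_eq_mul]
        rw [mul_assoc]
      rw [e]
      exact Submodule.smul_mem _ _ (hc p.1 x hx)⟩
  have hF : Function.Bijective F := by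
    constructor
    · rintro ⟨σ, u⟩ ⟨τ, v⟩ h
      have h1 := congrArg (fun z => z.1.1) h
      have h2 : σ = τ := Subtype.ext h1
      subst h2
      have h3 := congrFun (congrArg (fun z => z.1.2) h) (0, 0)
      have h4 : u = v := mul_right_cancel h3
      rw [h4]
    · rintro ⟨⟨σ, d⟩, hd⟩
      let s : HH := ⟨σ, d, hd⟩
      have hcs := hc s
      have h1 := pres_mul hd (pres_inv hcs)
      have h2 : Pres 1 (fun i => d i * (c s i)⁻¹) := by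
        have e1 : σ * (s : Equiv.Perm ArrayPt)⁻¹ = 1 := mul_inv_cancel σ
        rw [e1] at h1
        have e2 : (fun i => d i * (c s ((s : Equiv.Perm ArrayPt) (σ.symm i)))⁻¹) = fun i => d i * (c s i)⁻¹ := by
          funext i
          have : (s : Equiv.Perm ArrayPt) (σ.symm i) = i := σ.apply_symm_apply i
          rw [this]
        rw [← e2]; exact h1
      rcases signs_const _ h2 with h3 | h3
      · refine ⟨(s, 1), ?_⟩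
        apply Subtype.ext
        change (σ, fun i => (1 : (ZMod 3)ˣ) * c s i) = (σ, d)
        congr 1
        funext i
        rw [one_mul]; exact (mul_inv_eq_one.mp (h3 i)).symm
      · refine ⟨(s, -1), ?_⟩
        apply Subtype.ext
        change (σ, fun i => (-1 : (ZMod 3)ˣ) * c s i) = (σ, d)
        congr 1
        funext i
        exact (mul_inv_eq_iff_eq_mul.mp (h3 i)).symm
  rw [← Nat.card_congr (Equiv.ofBijective F hF), Nat.card_prod, mul_comm]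
  congr 1
  rw [Nat.card_eq_fintype_card]
  decide

end CfsgLib.Ternary
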