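import Mathlib

namespace CfsgLib.TwoCyc
open Subgroup

theorem num (m : ℕ) (k : ℤ) (h : (2 ^ (m + 2) : ℤ) ∣ k * k - 1) (h1 : ¬ (2 ^ (m + 2) : ℤ) ∣ k - 1) :
    ((2 ^ (m + 2) : ℤ) ∣ k + 1) ∨ (1 ≤ m ∧ (2 ^ (m + 2) : ℤ) ∣ k - (1 + 2 ^ (m + 1))) ∨ (1 ≤ m ∧ (2 ^ (m + 2) : ℤ) ∣ k - (2 ^ (m + 1) - 1)) := by
  have hodd : Odd k := by
    by_contra hk
    rw [Int.not_odd_iff_even] at hk
    have h2 : (2 : ℤ) ∣ k * k - 1 := (dvd_pow_self 2 (by omega)).trans h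
    obtain ⟨c, hc⟩ := hk
    obtain ⟨d, hd⟩ := h2
    have : 2 * (c * k) - 1 = 2 * d := by rw [← hd]; rw [hc]; ring
    omega
  obtain ⟨l, hl⟩ := hodd
  have h3 : (2 ^ m : ℤ) ∣ l * (l + 1) := by
    have e : k * k - 1 = 4 * (l * (l + 1)) := by rw [hl]; ring
    rw [e, show (2 ^ (m + 2) : ℤ) = 4 * 2 ^ m by ring] at h
    exact (mul_dvd_mul_iff_left (by norm_num)).1 h
  have h4 : (2 ^ m : ℤ) ∣ l ∨ (2 ^ m : ℤ) ∣ l + 1 := by
    rcases Int.even_or_odd l with hl2 | hl2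
    · left
      have : IsCoprime (2 ^ m : ℤ) (l + 1) := by
        apply IsCoprime.pow_left
        rw [Int.isCoprime_iff_gcd_eq_one]
        have : Odd (l + 1) := hl2.add_one
        exact Int.isCoprime_iff_gcd_eq_one.1 (Int.isCoprime_two_left.2 this)
      exact this.dvd_of_dvd_mul_right h3
    · right
      have : IsCoprime (2 ^ m : ℤ) l := IsCoprime.pow_left (Int.isCoprime_two_left.2 hl2)
      exact this.dvd_of_dvd_mul_left h3
  rcases h4 with ⟨c, hc⟩ | ⟨c, hc⟩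
  · rcases Int.even_or_odd' c with ⟨d, hd | hd⟩
    · exact absurd ⟨d, by rw [hl, hc, hd]; ring⟩ h1
    · rcases Nat.eq_zero_or_pos m with rfl | hm
      · left; exact ⟨d + 1, by rw [hl, hc, hd]; ring⟩
      · right; left; exact ⟨hm, d, by rw [hl, hc, hd]; ring⟩
  · have hl' : l = 2 ^ m * c - 1 := by rw [← hc]; ring
    rcases Int.even_or_odd' c with ⟨d, hd | hd⟩
    · left; exact ⟨d, by rw [hl, hl', hd]; ring⟩
    · rcases Nat.eq_zero_or_pos m with rfl | hm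
      · exact absurd ⟨d, by rw [hl, hl', hd]; ring⟩ h1
      · right; right; exact ⟨hm, d, by rw [hl, hl', hd]; ring⟩

theorem s0646 {G : Type*} [Group G] [Finite G] (n : ℕ) (hn : 3 ≤ n) (hG : Nat.card G = 2 ^ n) (C : Subgroup G) (hC : IsCyclic C) (hCi : C.index = 2) (hna : ∃ x y : G, x * y ≠ y * x) : ∃ a b : G, orderOf a = 2 ^ (n - 1) ∧ b ∉ Subgroup.zpowers a ∧ ((b ^ 2 = 1 ∧ b * a * b⁻¹ = a⁻¹) ∨ (b ^ 2 = a ^ (2 ^ (n - 2)) ∧ b * a * b⁻¹ = a⁻¹) ∨ (4 ≤ n ∧ b ^ 2 = 1 ∧ b * a * b⁻¹ = a ^ (1 + 2 ^ (n - 2))) ∨ (4 ≤ n ∧ b ^ 2 = 1 ∧ b * a * b⁻¹ = a ^ (2 ^ (n - 2) - 1))) := by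
  obtain ⟨m, rfl⟩ : ∃ m, n = m + 3 := ⟨n - 3, by omega⟩
  obtain ⟨⟨a, haC⟩, hgen⟩ := hC.exists_generator
  have hCz : C = zpowers a := by
    apply le_antisymm
    · intro x hx
      obtain ⟨i, hi⟩ := hgen ⟨x, hx⟩
      exact ⟨i, congrArg Subtype.val hi⟩
    · rw [zpowers_le]; exact haC
  have hoa : orderOf a = 2 ^ (m + 2) := by
    have h1 := C.card_mul_index
    rw [hCi, hG, hCz, Nat.card_zpowers] at h1
    have : orderOf a * 2 = 2 ^ (m + 2) * 2 := by rw [h1]; ring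
    exact Nat.eq_of_mul_eq_mul_right (by norm_num) this
  have hCn : C.Normal := normal_of_index_eq_two hCi
  obtain ⟨b, hb⟩ : ∃ b, b ∉ C := by
    by_contra h
    push_neg at h
    have : C = ⊤ := eq_top_iff.2 (fun x _ => h x)
    rw [this, index_top] at hCi
    exact absurd hCi (by norm_num)
  have heq : ∀ x y : ℤ, a ^ x = a ^ y ↔ (2 ^ (m + 2) : ℤ) ∣ x - y := by
    intro x y
    rw [← orderOf_dvd_sub_iff_zpow_eq_zpow, hoa]
    push_cast
    rfl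
  obtain ⟨k, hk⟩ : ∃ k : ℤ, a ^ k = b * a * b⁻¹ := by
    have := hCn.conj_mem a haC b
    rw [hCz] at this
    exact this
  obtain ⟨j, hj⟩ : ∃ j : ℤ, a ^ j = b ^ 2 := by
    have : b ^ 2 ∈ C := sq_mem_of_index_two hCi b
    rw [hCz] at this
    exact this
  have hconj : ∀ k : ℤ, a ^ k = b * a * b⁻¹ → ∀ i : ℤ, b * a ^ i * b⁻¹ = a ^ (k * i) := by
    intro k hk i
    rw [zpow_mul, hk, conj_zpow]
  have hkk : (2 ^ (m + 2) : ℤ) ∣ k * k - 1 := by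
    rw [← heq, zpow_one, ← hconj k hk k, hk]
    have h2 : b ^ 2 * a = a * b ^ 2 := by
      rw [← hj]; exact ((Commute.refl a).zpow_left j).eq
    calc b * (b * a * b⁻¹) * b⁻¹ = (b ^ 2 * a) * (b ^ 2)⁻¹ := by rw [pow_two]; group
      _ = a := by rw [h2]; group
  have hk1 : ¬ (2 ^ (m + 2) : ℤ) ∣ k - 1 := by
    rw [← heq, zpow_one, hk]
    intro h
    have hab : b * a = a * b := by
      calc b * a = (b * a * b⁻¹) * b := by group
        _ = a * b := by rw [h]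
    have hcomm : ∀ x : G, ∃ (e : ℕ) (i : ℤ), x = b ^ e * a ^ i := by
      intro x
      by_cases hx : x ∈ C
      · rw [hCz] at hx
        obtain ⟨i, hi⟩ := hx
        exact ⟨0, i, by simp [← hi]⟩
      · have : b⁻¹ * x ∈ C := by
          rw [mul_mem_iff_of_index_two hCi, inv_mem_iff]
          exact iff_of_false hb hx
        rw [hCz] at this
        obtain ⟨i, hi⟩ := this
        exact ⟨1, i, by rw [show a ^ i = b⁻¹ * x from hi]; group⟩
    obtain ⟨x, y, hxy⟩ := hna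
    apply hxy
    obtain ⟨e, i, rfl⟩ := hcomm x
    obtain ⟨e', i', rfl⟩ := hcomm y
    have hba : Commute b a := hab
    have c1 : Commute (b ^ e * a ^ i) (b ^ e' * a ^ i') := by
      refine Commute.mul_left ?_ ?_
      · exact Commute.mul_right ((Commute.refl b).pow_pow _ _) ((hba.pow_left _).zpow_right _)
      · exact Commute.mul_right ((hba.symm.zpow_left _).pow_right _) (((Commute.refl a).zpow_left _).zpow_right _)
    exact c1.eq
  have hjj : ∀ k : ℤ, a ^ k = b * a * b⁻¹ → (2 ^ (m + 2) : ℤ) ∣ k * j - j := by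
    intro k hk
    rw [← heq, ← hconj k hk j, hj]; group
  have hsq : ∀ k : ℤ, a ^ k = b * a * b⁻¹ → ∀ t : ℤ, (b * a ^ t) ^ 2 = a ^ (k * t + j + t) := by
    intro k hk t
    rw [zpow_add, zpow_add, ← hconj k hk t, hj, pow_two, pow_two]
    group
  have hbt : ∀ t : ℤ, b * a ^ t ∉ zpowers a := by
    intro t h
    rw [← hCz] at h
    apply hb
    have h2 : a ^ t ∈ C := C.zpow_mem haC t
    exact (mul_mem_cancel_right h2).1 h
  have hbtc : ∀ t : ℤ, (b * a ^ t) * a * (b * a ^ t)⁻¹ = b * a * b⁻¹ := by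
    intro t; group
  have hb' : b ∉ zpowers a := by rwa [← hCz]
  rcases num m k hkk hk1 with h | ⟨hm, h⟩ | ⟨hm, h⟩
  · -- inverse
    have hk' : a ^ (-1 : ℤ) = b * a * b⁻¹ := by
      rw [← hk, eq_comm, heq]; simpa using h
    have h2 := hjj _ hk'
    have h3 : (2 ^ (m + 1) : ℤ) ∣ j := by
      have e : (-1 : ℤ) * j - j = 2 * (-j) := by ring
      rw [e, show (2 ^ (m + 2) : ℤ) = 2 * 2 ^ (m + 1) by ring] at h2
      exact (dvd_neg).1 ((mul_dvd_mul_iff_left (by norm_num)).1 h2)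
    obtain ⟨c, hc⟩ := h3
    rcases Int.even_or_odd' c with ⟨d, hd | hd⟩
    · refine ⟨a, b, hoa, hb', Or.inl ⟨?_, by rw [← hk']; simp⟩⟩
      rw [← hj, ← zpow_zero a, heq]
      exact ⟨d, by rw [hc, hd]; ring⟩
    · refine ⟨a, b, hoa, hb', Or.inr (Or.inl ⟨?_, by rw [← hk']; simp⟩)⟩
      show b ^ 2 = a ^ (2 ^ (m + 1))
      rw [← hj, ← zpow_natCast, heq]
      exact ⟨d, by rw [hc, hd]; push_cast; ring⟩
  · have hk' : a ^ (1 + 2 ^ (m + 1) : ℤ) = b * a * b⁻¹ := by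
      rw [← hk, eq_comm, heq]; exact h
    have h2 := hjj _ hk'
    have h3 : (2 : ℤ) ∣ j := by
      have e : (1 + 2 ^ (m + 1) : ℤ) * j - j = 2 ^ (m + 1) * j := by ring
      rw [e, show (2 ^ (m + 2) : ℤ) = 2 ^ (m + 1) * 2 by ring] at h2
      exact (mul_dvd_mul_iff_left (by positivity)).1 h2
    obtain ⟨i, hi⟩ := h3
    refine ⟨a, b * a ^ (-i * (1 - 2 ^ m)), hoa, hbt _, Or.inr (Or.inr (Or.inl ⟨by omega, ?_, ?_⟩))⟩
    · rw [hsq _ hk', ← zpow_zero a, heq]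
      obtain ⟨m', rfl⟩ : ∃ m', m = m' + 1 := ⟨m - 1, by omega⟩
      exact ⟨i * 2 ^ m', by rw [hi]; ring⟩
    · rw [hbtc]
      show _ = a ^ (1 + 2 ^ (m + 1))
      rw [← hk', ← zpow_natCast]
      push_cast; rfl
  · have hk' : a ^ (2 ^ (m + 1) - 1 : ℤ) = b * a * b⁻¹ := by
      rw [← hk, eq_comm, heq]; exact h
    have h2 := hjj _ hk'
    have h3 : (2 ^ (m + 1) : ℤ) ∣ j := by
      have e : (2 ^ (m + 1) - 1 : ℤ) * j - j = 2 * ((2 ^ m - 1) * j) := by ring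
      rw [e, show (2 ^ (m + 2) : ℤ) = 2 * 2 ^ (m + 1) by ring] at h2
      have h4 := (mul_dvd_mul_iff_left (by norm_num)).1 h2
      obtain ⟨c, hc⟩ := h4
      obtain ⟨m', rfl⟩ : ∃ m', m = m' + 1 := ⟨m - 1, by omega⟩
      refine ⟨2 ^ m' * j - (2 ^ (m' + 1) + 1) * c, ?_⟩
      have : j = 2 ^ (m' + 1) * 2 ^ (m' + 1) * j - (2 ^ (m' + 1) + 1) * ((2 ^ (m' + 1) - 1) * j) := by ring
      rw [hc] at this
      calc j = _ := this
        _ = _ := by ring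
    have hlast : b * a * b⁻¹ = a ^ (2 ^ (m + 1) - 1) := by
      rw [← hk', ← zpow_natCast, Nat.cast_sub (Nat.one_le_two_pow)]
      push_cast; rfl
    obtain ⟨c, hc⟩ := h3
    rcases Int.even_or_odd' c with ⟨d, hd | hd⟩
    · refine ⟨a, b, hoa, hb', Or.inr (Or.inr (Or.inr ⟨by omega, ?_, hlast⟩))⟩
      rw [← hj, ← zpow_zero a, heq]
      exact ⟨d, by rw [hc, hd]; ring⟩
    · refine ⟨a, b * a ^ (1 : ℤ), hoa, hbt _, Or.inr (Or.inr (Or.inr ⟨by omega, ?_, by rw [hbtc]; exact hlast⟩))⟩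
      rw [hsq _ hk', ← zpow_zero a, heq]
      exact ⟨d + 1, by rw [hc, hd]; ring⟩

end CfsgLib.TwoCyc
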