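import Mathlib
import Cfsg.Prelude.Def_OddOrderLocal
import Cfsg.Agent.Lib.H7CN3

namespace CfsgLib.TypePH
open Subgroup
universe u

theorem cop {G : Type u} [Group G] [Finite G] (M W₁ U W₂ : Subgroup G) (hP : Cfsg.IsTypePWith M W₁ U W₂) :
    (Nat.card (Cfsg.fittingHallOf M)).Coprime (Nat.card U) := by
  have hUM : U ≤ M := hP.U_compl.2.1.trans (commutator_le.2 fun a ha b hb => M.mul_mem (M.mul_mem (M.mul_mem ha hb) (M.inv_mem ha)) (M.inv_mem hb))
  have hc : Nat.card (Cfsg.fittingHallOf M) = Nat.card (Cfsg.fittingHall M) :=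
    Nat.card_congr ((Cfsg.fittingHall M).equivMapOfInjective _ M.subtype_injective).symm.toEquiv
  rw [hc]
  have h1 := CfsgLib.H7CN1.fhall_hall M
  refine Nat.Coprime.coprime_dvd_right ?_ h1
  let f : U →* M ⧸ Cfsg.fittingHall M := (QuotientGroup.mk' _).comp (inclusion hUM)
  have hf : Function.Injective f := by
    rw [← MonoidHom.ker_eq_bot_iff, eq_bot_iff]
    intro x hx
    have h2 : inclusion hUM x ∈ Cfsg.fittingHall M := (QuotientGroup.eq_one_iff _).1 hx
    have h3 : (x : G) ∈ Cfsg.fittingHallOf M ⊓ U := ⟨⟨_, h2, rfl⟩, x.2⟩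
    rw [hP.U_compl.2.2.1, mem_bot] at h3
    exact mem_bot.2 (Subtype.ext h3)
  exact card_dvd_of_injective f hf

theorem key {G : Type u} [Group G] [Finite G] {H U : Subgroup G} (hc : (Nat.card H).Coprime (Nat.card U)) {h x : G} (hh : h ∈ H) (hu : h * x ∈ centralizer (H : Set G))
    (hx : x ∈ U) : x ∈ centralizer (H : Set G) := by
  have hcm : Commute h⁻¹ (h * x) := (show h * (h * x) = (h * x) * h from mem_centralizer_iff.1 hu h hh |> fun e => e) |> fun e => (Commute.inv_left (show Commute h (h * x) from e))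
  have h1 : x ^ Nat.card H = (h * x) ^ Nat.card H := by
    have e : x = h⁻¹ * (h * x) := by group
    have e2 : (h⁻¹ : G) ^ Nat.card H = 1 := by
      have := pow_card_eq_one' (x := (⟨h⁻¹, H.inv_mem hh⟩ : H))
      exact congrArg Subtype.val this
    calc x ^ Nat.card H = (h⁻¹ * (h * x)) ^ Nat.card H := by rw [← e]
      _ = (h⁻¹) ^ Nat.card H * (h * x) ^ Nat.card H := hcm.mul_pow _
      _ = _ := by rw [e2, one_mul]
  have h2 : (Nat.card H).Coprime (orderOf x) := by
    refine Nat.Coprime.coprime_dvd_right ?_ hc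
    have := orderOf_dvd_natCard (⟨x, hx⟩ : U)
    rwa [← Subgroup.orderOf_coe] at this
  obtain ⟨m, hm⟩ := exists_pow_eq_self_of_coprime h2
  rw [← hm, h1]
  exact pow_mem (pow_mem hu _) _

theorem s1387 {G : Type u} [Group G] [Finite G] (M W₁ U W₂ : Subgroup G) (hP : Cfsg.IsTypePWith M W₁ U W₂) :
    Cfsg.fittingOf M = Cfsg.fittingHallOf M ⊔ (U ⊓ Subgroup.centralizer (Cfsg.fittingHallOf M : Set G)) := by
  have hUM : U ≤ M := hP.U_compl.2.1.trans (commutator_le.2 fun a ha b hb => M.mul_mem (M.mul_mem (M.mul_mem ha hb) (M.inv_mem ha)) (M.inv_mem hb))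
  apply le_antisymm
  · rw [← hP.fitting_eq]
    refine sup_le le_sup_left ?_
    intro x hx
    have hx1 : x ∈ ⁅M, M⁆ := hP.fitting_le (by rw [← hP.fitting_eq]; exact mem_sup_right hx)
    obtain ⟨h, hh, u, hu, rfl⟩ := hP.U_compl.2.2.2 x hx1
    exact mul_mem_sup hh ⟨hu, key (cop M W₁ U W₂ hP) hh hx.2 hu⟩
  · rw [← hP.fitting_eq]
    exact sup_le_sup le_rfl (inf_le_inf_right _ hUM)

end CfsgLib.TypePH
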