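import Mathlib
import Cfsg.Agent.Lib.TypePH
import Cfsg.Agent.Lib.Coprime

namespace CfsgLib.TypePH
open Subgroup
universe u

theorem card_compl {G : Type u} [Group G] [Finite G] {A B M : Subgroup G} (h : Cfsg.IsComplIn A B M) : Nat.card A * Nat.card B = Nat.card M := by
  obtain ⟨hA, hB, hAB, hm⟩ := h
  rw [← Nat.card_prod]
  refine Nat.card_congr (Equiv.ofBijective (fun x : A × B => (⟨x.1 * x.2, M.mul_mem (hA x.1.2) (hB x.2.2)⟩ : M)) ⟨?_, ?_⟩)
  · rintro ⟨a, b⟩ ⟨a', b'⟩ e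
    have e' : (a : G) * b = a' * b' := congrArg Subtype.val e
    have e2 : (a' : G)⁻¹ * a = b' * (b : G)⁻¹ := by
      rw [eq_mul_inv_iff_mul_eq, mul_assoc, e']; group
    have e3 : (a' : G)⁻¹ * a ∈ A ⊓ B := ⟨A.mul_mem (A.inv_mem a'.2) a.2, by rw [e2]; exact B.mul_mem b'.2 (B.inv_mem b.2)⟩
    rw [hAB, mem_bot] at e3
    have e4 : a = a' := Subtype.ext (inv_mul_eq_one.mp e3).symm
    rw [e3] at e2
    have e5 : b' = b := Subtype.ext (mul_inv_eq_one.mp e2.symm)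
    rw [e4, e5]
  · rintro ⟨m, hmM⟩
    obtain ⟨a, ha, b, hb, rfl⟩ := hm m hmM
    exact ⟨(⟨a, ha⟩, ⟨b, hb⟩), rfl⟩

theorem s1388 {G : Type u} [Group G] [Finite G] (M W₁ U W₂ : Subgroup G) (hP : Cfsg.IsTypePWith M W₁ U W₂) :
    ⁅U, U⁆ ≤ Subgroup.centralizer (Cfsg.fittingHallOf M : Set G) ∧ (U ≠ ⊥ → ¬ U ≤ Subgroup.centralizer (Cfsg.fittingHallOf M : Set G)) := by
  have hMM : ⁅M, M⁆ ≤ M := commutator_le.2 fun a ha b hb => M.mul_mem (M.mul_mem (M.mul_mem ha hb) (M.inv_mem ha)) (M.inv_mem hb)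
  have hUU : ⁅U, U⁆ ≤ U := commutator_le.2 fun a ha b hb => U.mul_mem (U.mul_mem (U.mul_mem ha hb) (U.inv_mem ha)) (U.inv_mem hb)
  have hUM' := hP.U_compl.2.1
  have hUM : U ≤ M := hUM'.trans hMM
  constructor
  · intro x hx
    have h1 : x ∈ Cfsg.fittingHallOf M ⊔ (M ⊓ Subgroup.centralizer (Cfsg.fittingHallOf M : Set G)) :=
      hP.derived_two_le (commutator_mono hUM' hUM' hx)
    rw [CfsgLib.Coprime.mem_sup_iff (inf_le_right.trans (centralizer_le_normalizer _))] at h1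
    obtain ⟨h, hh, c, hc, rfl⟩ := h1
    refine key (cop M W₁ U W₂ hP) (h := h⁻¹) (inv_mem hh) ?_ (hUU hx)
    rw [inv_mul_cancel_left]; exact hc.2
  · intro hne hle
    apply hne
    have h1 : ⁅M, M⁆ ≤ Cfsg.fittingOf M := by
      intro x hx
      obtain ⟨h, hh, u, hu, rfl⟩ := hP.U_compl.2.2.2 x hx
      rw [← hP.fitting_eq]
      exact mul_mem_sup hh ⟨hUM hu, hle hu⟩
    have h2 : ⁅M, M⁆ = Cfsg.fittingOf M := le_antisymm h1 hP.fitting_le
    have hcF : Nat.card (Cfsg.fittingSubgroup M) = Nat.card (⁅M, M⁆ : Subgroup G) := by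
      rw [h2]
      exact Nat.card_congr ((Cfsg.fittingSubgroup M).equivMapOfInjective _ M.subtype_injective).toEquiv
    have hc1 := card_compl hP.W₁_compl
    have hc2 := (Cfsg.fittingSubgroup M).card_mul_index
    have hc3 : Nat.card W₁ * W₁.relIndex M = Nat.card M := by
      have := (W₁.subgroupOf M).card_mul_index
      rwa [CfsgLib.SZ.card_subgroupOf hP.W₁_compl.2.1] at this
    have hidx : (Cfsg.fittingSubgroup M).index = Nat.card W₁ := by
      rw [hcF, ← hc1] at hc2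
      exact Nat.eq_of_mul_eq_mul_left Nat.card_pos hc2
    have hrel : W₁.relIndex M = Nat.card (⁅M, M⁆ : Subgroup G) := by
      rw [← hc1, mul_comm] at hc3
      exact Nat.eq_of_mul_eq_mul_right Nat.card_pos hc3
    have h3 : Cfsg.fittingSubgroup M ≤ Cfsg.fittingHall M := by
      refine CfsgLib.H7CN1.le_fhall ?_ ?_ ?_
      · exact Subgroup.sSup_normal _ (fun _ h => h.1)
      · exact CfsgLib.Core.fitting_nilpotent M
      · rw [hidx, hcF, ← hrel]; exact hP.W₁_hall.symm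
    have h4 : U ≤ Cfsg.fittingHallOf M := by
      refine hUM'.trans ?_
      rw [h2]
      exact map_mono h3
    rw [eq_bot_iff, ← hP.U_compl.2.2.1]
    exact le_inf h4 le_rfl

end CfsgLib.TypePH
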