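import Cfsg.Agent.S0780
import Cfsg.Prelude.Def_SporadicB

/-!
# Unitary transvections over the field with four elements
-/

set_option autoImplicit false

open CfsgLib.Herm Cfsg Module

namespace CfsgLib.Unit2

section
variable {F V : Type*} [Field F] [Fintype F] [AddCommGroup V] [Module F V] {σ : F →+* F} {B : V →ₛₗ[σ] V →ₗ[F] F}

/-- being the transvection with centre `u` -/
def IsT (B : V →ₛₗ[σ] V →ₗ[F] F) (g : SUL B) (u : V) : Prop := u ≠ 0 ∧ B u u = 0 ∧ ∀ x, (g : V ≃ₗ[F] V) x = x + B u x • u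

theorem two_zero (hF : Fintype.card F = 4) : (1 : F) + 1 = 0 := by
  have h := FiniteField.cast_card_eq_zero F
  rw [hF] at h
  have h2 : ((1 : F) + 1) * (1 + 1) = 0 := by
    have : ((4 : ℕ) : F) = (1 + 1) * (1 + 1) := by norm_num
    rw [← this]; exact h
  rcases mul_eq_zero.1 h2 with h | h <;> exact h

theorem sig (hF : Fintype.card F = 4) (hq : QConj σ 2) {a : F} (ha : a ≠ 0) : a * σ a = 1 := by
  rw [hq.pow]
  have := FiniteField.pow_card_sub_one_eq_one a ha
  rw [hF] at this
  rw [← this]; ring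

theorem add_self_v (hF : Fintype.card F = 4) (x : V) : x + x = 0 := by
  have : x + x = ((1 : F) + 1) • x := by rw [add_smul, one_smul]
  rw [this, two_zero hF, zero_smul]

theorem IsT.sq (hF : Fintype.card F = 4) {g : SUL B} {u : V} (h : IsT B g u) : g * g = 1 := by
  apply Subtype.ext
  apply LinearEquiv.ext
  intro x
  show (g : V ≃ₗ[F] V) ((g : V ≃ₗ[F] V) x) = x
  rw [h.2.2, h.2.2, map_add, map_smul, h.2.1, smul_zero, add_zero, add_assoc, add_self_v hF, add_zero]

theorem SUL_B (g : SUL B) (x y : V) : B ((g : V ≃ₗ[F] V) x) ((g : V ≃ₗ[F] V) y) = B x y := mem_U.1 (mem_SUL.1 g.2).1 x y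

theorem IsT.conj {g : SUL B} {u : V} (h : IsT B g u) (k : SUL B) : IsT B (k * g * k⁻¹) ((k : V ≃ₗ[F] V) u) := by
  refine ⟨fun h0 => h.1 ((LinearEquiv.map_eq_zero_iff _).1 h0), by rw [SUL_B]; exact h.2.1, ?_⟩
  intro x
  obtain ⟨y, rfl⟩ := (k : V ≃ₗ[F] V).surjective x
  have e1 : ((k * g * k⁻¹ : SUL B) : V ≃ₗ[F] V) ((k : V ≃ₗ[F] V) y) = (k : V ≃ₗ[F] V) ((g : V ≃ₗ[F] V) (((k⁻¹ * k : SUL B) : V ≃ₗ[F] V) y)) := rfl
  rw [e1, inv_mul_cancel]
  show (k : V ≃ₗ[F] V) ((g : V ≃ₗ[F] V) y) = _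
  rw [h.2.2, LinearEquiv.map_add, LinearEquiv.map_smul, SUL_B]

theorem IsT.unique {g g' : SUL B} {u u' : V} (h : IsT B g u) (h' : IsT B g' u') {l : F} (hl : l * σ l = 1) (hu : u' = l • u) : g = g' := by
  apply Subtype.ext
  apply LinearEquiv.ext
  intro x
  rw [h.2.2, h'.2.2, hu, map_smul_left, smul_smul, mul_right_comm, mul_comm (σ l) l, hl, one_mul]

theorem IsT.prod (hF : Fintype.card F = 4) (hq : QConj σ 2) (hB : HForm B) {g k : SUL B} {u v : V} (hg : IsT B g u) (hk : IsT B k v) :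
    g * k * g = k ∨ g * k * g = k * g * k := by
  have i1 : g⁻¹ = g := inv_eq_of_mul_eq_one_left (hg.sq hF)
  have i2 : k⁻¹ = k := inv_eq_of_mul_eq_one_left (hk.sq hF)
  have c1 := hk.conj g
  have c2 := hg.conj k
  rw [i1] at c1
  rw [i2] at c2
  by_cases hb : B u v = 0
  · left
    apply c1.unique hk (l := 1) (by rw [map_one, one_mul])
    rw [hg.2.2, hb, zero_smul, add_zero, one_smul]
  · right
    have hb' : B v u = σ (B u v) := (hB.symm u v).symm
    have hs := sig hF hq hb
    apply c1.unique c2 (l := σ (B u v)) (by rw [hq.invol, mul_comm]; exact hs)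
    rw [hg.2.2, hk.2.2, hb', smul_add, smul_smul, mul_comm (σ _) (B u v), hs, one_smul, add_comm]

theorem IsT.conj_of (hF : Fintype.card F = 4) (hq : QConj σ 2) (hB : HForm B) {g k : SUL B} {u v : V} (hg : IsT B g u) (hk : IsT B k v)
    (hb : B u v ≠ 0) : ∃ z : SUL B, z * g * z⁻¹ = k := by
  have i1 : g⁻¹ = g := inv_eq_of_mul_eq_one_left (hg.sq hF)
  have i2 : k⁻¹ = k := inv_eq_of_mul_eq_one_left (hk.sq hF)
  have hne : g * k * g = k * g * k := by
    have c1 := hk.conj g
    have c2 := hg.conj k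
    rw [i1] at c1
    rw [i2] at c2
    have hb' : B v u = σ (B u v) := (hB.symm u v).symm
    have hs := sig hF hq hb
    apply c1.unique c2 (l := σ (B u v)) (by rw [hq.invol, mul_comm]; exact hs)
    rw [hg.2.2, hk.2.2, hb', smul_add, smul_smul, mul_comm (σ _) (B u v), hs, one_smul, add_comm]
  refine ⟨g * k, ?_⟩
  rw [mul_inv_rev, i1, i2]
  calc g * k * g * (k * g) = (g * k * g) * k * g := by group
    _ = k * g * (k * k) * g := by rw [hne]; group
    _ = k * (g * g) := by rw [hk.sq hF]; group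
    _ = k := by rw [hg.sq hF, mul_one]

/-- an isotropic vector nonorthogonal to two given ones -/
theorem exists_w (hF : Fintype.card F = 4) (hq : QConj σ 2) (hB : HForm B) {u v : V} (hu : u ≠ 0) (hv : v ≠ 0) (huu : B u u = 0) (huv : B u v = 0) :
    ∃ w, w ≠ 0 ∧ B w w = 0 ∧ B u w ≠ 0 ∧ B w v ≠ 0 := by
  have hvu : B v u = 0 := hB.eq_zero_comm huv
  obtain ⟨z, hz1, hz2⟩ : ∃ z, B u z ≠ 0 ∧ B v z ≠ 0 := by
    obtain ⟨z1, h1⟩ : ∃ z, B u z ≠ 0 := by
      by_contra hcon
      push Not at hcon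
      exact hu (hB.nd u hcon)
    obtain ⟨z2, h2⟩ : ∃ z, B v z ≠ 0 := by
      by_contra hcon
      push Not at hcon
      exact hv (hB.nd v hcon)
    by_cases h3 : B v z1 = 0
    · by_cases h4 : B u z2 = 0
      · refine ⟨z1 + z2, ?_, ?_⟩
        · rw [map_add, h4, add_zero]; exact h1
        · rw [map_add, h3, zero_add]; exact h2
      · exact ⟨z2, h4, h2⟩
    · exact ⟨z1, h1, h3⟩
  obtain ⟨t, ht⟩ := hq.exists_trace (c := B z z) (hB.symm z z)
  refine ⟨z + σ (t * (B u z)⁻¹) • u, ?_, ?_, ?_, ?_⟩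
  · intro h0
    apply hz1
    have h1 : B u (z + σ (t * (B u z)⁻¹) • u) = B u z := by rw [map_add, map_smul, huu, smul_zero, add_zero]
    rw [← h1, h0, map_zero]
  · have hzu : B z u = σ (B u z) := (hB.symm u z).symm
    simp only [map_add_left, map_add_right, map_smul_left, map_smul_right, huu, hzu, hq.invol]
    have e1 : t * (B u z)⁻¹ * B u z = t := by rw [mul_assoc, inv_mul_cancel₀ hz1, mul_one]
    have e2 : σ (t * (B u z)⁻¹) * σ (B u z) = σ t := by rw [← map_mul, e1]
    rw [e1]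
    have := two_zero hF
    linear_combination e2 + ht + (B z z) * this
  · rw [map_add, map_smul, huu, smul_zero, add_zero]; exact hz1
  · rw [map_add_left, map_smul_left, huv, mul_zero, add_zero]
    exact fun h0 => hz2 (hB.eq_zero_comm h0)

end

section
variable {F : Type} [Field F] [Fintype F] {σ : F →+* F}

theorem rank_iff (hF : Fintype.card F = 4) (hq : QConj σ 2) {n : ℕ} (g : SU n F 2) :
    (((g : Matrix.SpecialLinearGroup (Fin n) F) : Matrix (Fin n) (Fin n) F) - 1).rank = 1 ↔ ∃ u, IsT (stdH σ n) (SUEquiv hq n g) u := by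
  have hB := stdH_hform hq n
  have hact : ∀ x, (((g : Matrix.SpecialLinearGroup (Fin n) F) : Matrix (Fin n) (Fin n) F) - 1).mulVec x = (SUEquiv hq n g : (Fin n → F) ≃ₗ[F] (Fin n → F)) x - x := by
    intro x
    rw [Matrix.sub_mulVec, Matrix.one_mulVec, ← SUEquiv_apply hq]
  have h2 := two_zero hF
  rw [Matrix.rank, finrank_eq_one_iff']
  constructor
  · rintro ⟨⟨u, x0, hx0⟩, hu0, hall⟩
    have hu0' : u ≠ 0 := fun h => hu0 (Subtype.ext h)
    have hx0' : (SUEquiv hq n g : (Fin n → F) ≃ₗ[F] (Fin n → F)) x0 = x0 + u := by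
      have h1 : (((g : Matrix.SpecialLinearGroup (Fin n) F) : Matrix (Fin n) (Fin n) F) - 1).mulVec x0 = u := hx0
      rw [hact] at h1
      rw [← h1]; abel
    set K := stdH σ n u x0 + stdH σ n u u with hK
    have key : ∀ x, ∃ c, (SUEquiv hq n g : (Fin n → F) ≃ₗ[F] (Fin n → F)) x = x + c • u ∧ stdH σ n u x = c * σ K := by
      intro x
      obtain ⟨c, hc⟩ := hall ⟨_, x, rfl⟩
      have h1 : c • u = (((g : Matrix.SpecialLinearGroup (Fin n) F) : Matrix (Fin n) (Fin n) F) - 1).mulVec x := congrArg Subtype.val hc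
      rw [hact] at h1
      have hgx : (SUEquiv hq n g : (Fin n → F) ≃ₗ[F] (Fin n → F)) x = x + c • u := by rw [h1]; abel
      refine ⟨c, hgx, ?_⟩
      have h3 := SUL_B (SUEquiv hq n g) x x0
      rw [hgx, hx0'] at h3
      simp only [map_add_left, map_add_right, map_smul_left] at h3
      have h4 : stdH σ n x u = σ c * K := by
        rw [hK]
        linear_combination h3 - (σ c * (stdH σ n u x0 + stdH σ n u u)) * h2
      rw [← hB.symm x u, h4, map_mul, hq.invol]
    have hK0 : K ≠ 0 := by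
      intro h0
      apply hu0'
      apply hB.nd
      intro y
      obtain ⟨c, _, h⟩ := key y
      rw [h, h0, map_zero, mul_zero]
    have hsK : σ K ≠ 0 := fun h => hK0 ((map_eq_zero σ).1 h)
    have hg : ∀ x, (SUEquiv hq n g : (Fin n → F) ≃ₗ[F] (Fin n → F)) x = trT (stdH σ n) u (σ K)⁻¹ x := by
      intro x
      obtain ⟨c, hc, h⟩ := key x
      rw [trT_apply, hc, h]
      congr 2
      field_simp
    have hdet : stdH σ n u u = 0 := by
      have h1 := (mem_SUL.1 (SUEquiv hq n g).2).2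
      have h3 : (((SUEquiv hq n g : SUL (stdH σ n)) : (Fin n → F) ≃ₗ[F] (Fin n → F)) : (Fin n → F) →ₗ[F] (Fin n → F)) = trT (stdH σ n) u (σ K)⁻¹ := LinearMap.ext hg
      rw [h3, det_trT] at h1
      have h4 : (σ K)⁻¹ * stdH σ n u u = 0 := by linear_combination h1
      exact (mul_eq_zero.1 h4).resolve_left (inv_ne_zero hsK)
    have htr := (trT_isom_iff hq hB hu0' hdet (c := (σ K)⁻¹)).1 (by
      intro x y
      rw [← hg, ← hg]
      exact SUL_B _ x y)
    have h1 : (σ K)⁻¹ = 1 := by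
      rw [hq.pow (σ K)⁻¹] at htr
      have h5 : (σ K)⁻¹ * (1 + (σ K)⁻¹) = 0 := by linear_combination htr
      have h6 := (mul_eq_zero.1 h5).resolve_left (inv_ne_zero hsK)
      linear_combination h6 - h2
    refine ⟨u, hu0', hdet, fun x => ?_⟩
    rw [hg, trT_apply, h1, one_mul]
  · rintro ⟨u, hu0, huu, hg⟩
    have hval : ∀ x, (((g : Matrix.SpecialLinearGroup (Fin n) F) : Matrix (Fin n) (Fin n) F) - 1).mulVec x = (stdH σ n u x) • u := by
      intro x
      rw [hact, hg]; abel
    obtain ⟨x0, hx0⟩ : ∃ x0, stdH σ n u x0 ≠ 0 := by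
      by_contra hcon
      push Not at hcon
      exact hu0 (hB.nd u hcon)
    refine ⟨⟨u, (stdH σ n u x0)⁻¹ • x0, ?_⟩, fun h => hu0 (congrArg Subtype.val h), ?_⟩
    · rw [Matrix.mulVecLin_apply, hval, map_smul, smul_eq_mul, inv_mul_cancel₀ hx0, one_smul]
    · rintro ⟨_, x, rfl⟩
      refine ⟨stdH σ n u x, Subtype.ext ?_⟩
      show stdH σ n u x • u = (((g : Matrix.SpecialLinearGroup (Fin n) F) : Matrix (Fin n) (Fin n) F) - 1).mulVecLin x
      rw [Matrix.mulVecLin_apply, hval]

theorem s1631 (hF : Fintype.card F = 4) (n : ℕ) (hn : 4 ≤ n) : Cfsg.IsThreeTranspositionClass {g : ↥(Cfsg.SU n F 2) | (((g : Matrix.SpecialLinearGroup (Fin n) F) : Matrix (Fin n) (Fin n) F) - 1).rank = 1} := by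
  obtain ⟨σ, hq⟩ := exists_sigma (F := F) (q := 2) (by rw [Nat.card_eq_fintype_card, hF]; norm_num)
  have hB := stdH_hform hq n
  set e := SUEquiv hq n with he
  have hd : Module.finrank F (Fin n → F) = n := by simp
  have hsq : ∀ g : SU n F 2, (((g : Matrix.SpecialLinearGroup (Fin n) F) : Matrix (Fin n) (Fin n) F) - 1).rank = 1 → g * g = 1 := by
    intro g hg
    obtain ⟨u, hu⟩ := (rank_iff hF hq g).1 hg
    apply e.injective
    rw [map_mul, map_one]; exact hu.sq hF
  refine ⟨⟨?_, ?_⟩, ?_, ?_⟩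
  · intro g hg
    apply orderOf_eq_prime
    · rw [pow_two]; exact hsq g hg
    · rintro rfl
      have hg' : (((1 : SU n F 2) : Matrix.SpecialLinearGroup (Fin n) F) : Matrix (Fin n) (Fin n) F) - 1 = 0 := sub_self _
      have hg2 : ((((1 : SU n F 2) : Matrix.SpecialLinearGroup (Fin n) F) : Matrix (Fin n) (Fin n) F) - 1).rank = 1 := hg
      rw [hg', Matrix.rank_zero] at hg2
      exact absurd hg2 (by norm_num)
  · intro g hg h hh
    have hgg := hsq g hg
    have hhh := hsq h hh
    obtain ⟨u, hu⟩ := (rank_iff hF hq g).1 hg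
    obtain ⟨v, hv⟩ := (rank_iff hF hq h).1 hh
    rcases hu.prod hF hq hB hv with h3 | h3
    · left
      have h4 : g * h * g = h := by
        apply e.injective
        rw [map_mul, map_mul]; exact h3
      calc (g * h) ^ 2 = g * h * g * h := by rw [pow_two]; group
        _ = 1 := by rw [h4, hhh]
    · right
      have h4 : g * h * g = h * g * h := by
        apply e.injective
        simp only [map_mul]; exact h3
      calc (g * h) ^ 3 = (g * h * g) * (h * g * h) := by rw [pow_succ, pow_two]; group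
        _ = h * g * (h * h) * (g * h) := by rw [h4]; group
        _ = h * (g * g) * h := by rw [hhh]; group
        _ = 1 := by rw [hgg, mul_one, hhh]
  · obtain ⟨u, hu0, huu⟩ := hB.exists_isotropic hq (by rw [hd]; omega)
    have h2 := two_zero hF
    have hmk : ∀ u, u ≠ 0 → stdH σ n u u = 0 → ∃ k : SUL (stdH σ n), IsT (stdH σ n) k u := by
      intro u hu0 huu
      have h1 : (1 : F) + σ 1 = 0 := by rw [map_one]; exact h2
      refine ⟨⟨tvH hB huu h1, tvH_mem hB huu h1⟩, hu0, huu, fun x => ?_⟩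
      show tvH hB huu h1 x = _
      rw [tvH_apply, one_mul]
    obtain ⟨k0, hk0⟩ := hmk u hu0 huu
    refine ⟨e.symm k0, (rank_iff hF hq _).2 ⟨u, by rw [← he, MulEquiv.apply_symm_apply]; exact hk0⟩, ?_⟩
    have hconj : ∀ (k : SUL (stdH σ n)) (v : Fin n → F), IsT (stdH σ n) k v → ∃ z : SUL (stdH σ n), z * k0 * z⁻¹ = k := by
      intro k v hk
      by_cases hb : stdH σ n u v = 0
      · obtain ⟨w, hw0, hww, huw, hwv⟩ := exists_w hF hq hB hu0 hk.1 huu hb
        obtain ⟨k1, hk1⟩ := hmk w hw0 hww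
        obtain ⟨z1, hz1⟩ := hk0.conj_of hF hq hB hk1 huw
        obtain ⟨z2, hz2⟩ := hk1.conj_of hF hq hB hk hwv
        refine ⟨z2 * z1, ?_⟩
        rw [← hz2, ← hz1]; group
      · exact hk0.conj_of hF hq hB hk hb
    ext g
    constructor
    · intro hg
      obtain ⟨v, hv⟩ := (rank_iff hF hq g).1 hg
      obtain ⟨z, hz⟩ := hconj _ v hv
      show IsConj _ _
      rw [isConj_iff]
      refine ⟨e.symm z, ?_⟩
      apply e.injective
      rw [map_mul, map_mul, map_inv, MulEquiv.apply_symm_apply, MulEquiv.apply_symm_apply, hz]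
    · intro hg
      obtain ⟨k, rfl⟩ := isConj_iff.1 (show IsConj _ g from hg)
      apply (rank_iff hF hq _).2
      refine ⟨(e k : (Fin n → F) ≃ₗ[F] (Fin n → F)) u, ?_⟩
      rw [← he, map_mul, map_mul, map_inv, MulEquiv.apply_symm_apply]
      exact hk0.conj (e k)
  · rw [eq_top_iff, ← Cfsg.Agent.S0780.result (F := F) (q := 2) (by rw [hF]; norm_num) n (by omega) (by omega), Subgroup.closure_le]
    rintro A ⟨v, c, hv, hA⟩
    rw [hermForm_eq hq] at hv
    have hact : ∀ x, (e A : (Fin n → F) ≃ₗ[F] (Fin n → F)) x = trT (stdH σ n) v c x := by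
      intro x
      rw [he, SUEquiv_apply hq, hA, unitaryTransvection_mulVec hq]
    by_cases hv0 : v = 0
    · have : A = 1 := by
        apply e.injective
        rw [map_one]
        apply Subtype.ext
        apply LinearEquiv.ext
        intro x
        rw [hact, trT_apply, hv0, smul_zero, add_zero]; rfl
      rw [this]; exact one_mem _
    have htr := (trT_isom_iff hq hB hv0 hv (c := c)).1 (by
      intro x y
      rw [← hact, ← hact]
      exact SUL_B _ x y)
    rw [hq.pow] at htr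
    have h5 : c * (1 + c) = 0 := by linear_combination htr
    rcases mul_eq_zero.1 h5 with h6 | h6
    · have : A = 1 := by
        apply e.injective
        rw [map_one]
        apply Subtype.ext
        apply LinearEquiv.ext
        intro x
        rw [hact, trT_apply, h6, zero_mul, zero_smul, add_zero]; rfl
      rw [this]; exact one_mem _
    · have hc1 : c = 1 := by linear_combination h6 - two_zero hF
      apply Subgroup.subset_closure
      apply (rank_iff hF hq A).2
      refine ⟨v, hv0, hv, fun x => ?_⟩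
      rw [← he, hact, trT_apply, hc1, one_mul]

end

end CfsgLib.Unit2
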