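import Cfsg.Agent.Lib.WS1

/-! The stable normal closure `W(S)`. -/
set_option autoImplicit false
set_option linter.style.haveILetI false
set_option linter.unusedVariables false

namespace CfsgLib.WS

universe u v

open CfsgLib CfsgLib.JSub CfsgLib.Coprime CfsgLib.PL1 CfsgLib.PL2 CfsgLib.PL3 CfsgLib.ZJ3 CfsgLib.ZJ4 CfsgLib.PSt
open scoped commutatorElement Pointwise

variable {S : Type u} [Group S] {p : ℕ} [hp : Fact p.Prime]

omit hp in
theorem oct_eq : Cfsg.omegaCenterThompson p S = OZ p (J p (⊤ : Subgroup S)) := by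
  unfold Cfsg.omegaCenterThompson
  rw [thompson_eq]
  rfl

omit hp in
theorem center_eq : Subgroup.center S = (⊤ : Subgroup S) ⊓ Subgroup.centralizer ((⊤ : Subgroup S) : Set S) := by
  rw [top_inf_eq]
  ext x
  rw [Subgroup.mem_center_iff, Subgroup.mem_centralizer_iff]
  exact ⟨fun h y _ => h y, fun h y => h y trivial⟩

omit hp in
theorem mem_OZtop {x : S} : x ∈ Cfsg.omegaOne p (Subgroup.center S) ↔ (∀ y, y * x = x * y) ∧ x ^ p = 1 := by
  rw [mem_omegaOne_iff]
  · rw [Subgroup.mem_center_iff]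
  · intro x hx y hy
    exact (Subgroup.mem_center_iff.mp hx y).symm

theorem OZ_le_oct [Finite S] : Cfsg.omegaOne p (Subgroup.center S) ≤ Cfsg.omegaCenterThompson p S := by
  intro x hx
  obtain ⟨h1, h2⟩ := mem_OZtop.mp hx
  rw [oct_eq, mem_OZ]
  refine ⟨?_, fun y _ => h1 y, h2⟩
  obtain ⟨A, hA⟩ := maxEA_nonempty p (⊤ : Subgroup S)
  refine le_J hA (mem_maxEA_of_centralizes hA trivial h2 ?_)
  rw [Subgroup.mem_centralizer_iff]
  exact fun y _ => h1 y

omit hp in
/-- stable embeddings normalize `Ω₁(Z(J))` -/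
theorem oct_normal {H : Type u} [Group H] {τ : S →* H} (hτ : Cfsg.IsStableEmbedding p τ) : ((Cfsg.omegaCenterThompson p S).map τ).Normal := by
  obtain ⟨hinj, -, -, -, hJ, -⟩ := hτ
  rw [thompson_eq] at hJ
  rw [oct_eq]
  refine ⟨?_⟩
  rintro _ ⟨x, hx, rfl⟩ h
  obtain ⟨h1, h2, h3⟩ := mem_OZ.mp hx
  obtain ⟨y, hy, hyx⟩ := hJ.conj_mem _ (Subgroup.mem_map_of_mem τ h1) h
  refine ⟨y, ?_, hyx⟩
  refine mem_OZ.mpr ⟨hy, ?_, ?_⟩
  · intro z hz
    apply hinj
    rw [map_mul, map_mul, hyx]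
    obtain ⟨w, hw, hwz⟩ := hJ.conj_mem _ (Subgroup.mem_map_of_mem τ hz) h⁻¹
    rw [inv_inv] at hwz
    have h4 : τ z = h * τ w * h⁻¹ := by rw [hwz]; group
    rw [h4]
    have h5 := congrArg τ (h2 w hw)
    rw [map_mul, map_mul] at h5
    calc h * τ w * h⁻¹ * (h * τ x * h⁻¹) = h * (τ w * τ x) * h⁻¹ := by group
      _ = h * (τ x * τ w) * h⁻¹ := by rw [h5]
      _ = h * τ x * h⁻¹ * (h * τ w * h⁻¹) := by group
  · apply hinj
    rw [map_pow, hyx, conj_pow, ← map_pow, h3, map_one]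
    group

/-- the defining family -/
def Fam (p : ℕ) (S : Type u) [Group S] : Set (Subgroup S) :=
  {W : Subgroup S | Cfsg.omegaOne p (Subgroup.center S) ≤ W ∧
    ∀ (H : Type u) [Group H] (τ : S →* H), Cfsg.IsStableEmbedding p τ → (W.map τ).Normal}

omit hp in
theorem snc_eq : Cfsg.stableNormalClosure p S = sInf (Fam p S) := rfl

theorem oct_mem_Fam [Finite S] : Cfsg.omegaCenterThompson p S ∈ Fam p S := ⟨OZ_le_oct, fun H _ τ hτ => oct_normal hτ⟩

theorem snc_le [Finite S] : Cfsg.stableNormalClosure p S ≤ Cfsg.omegaCenterThompson p S := sInf_le oct_mem_Fam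

omit hp in
theorem le_snc : Cfsg.omegaOne p (Subgroup.center S) ≤ Cfsg.stableNormalClosure p S := le_sInf fun W hW => hW.1

theorem snc_normal [Finite S] {H : Type u} [Group H] {τ : S →* H} (hτ : Cfsg.IsStableEmbedding p τ) :
    ((Cfsg.stableNormalClosure p S).map τ).Normal := by
  refine ⟨?_⟩
  rintro _ ⟨x, hx, rfl⟩ h
  obtain ⟨y, hy, hyx⟩ := (oct_normal hτ).conj_mem _ (Subgroup.mem_map_of_mem τ (snc_le hx)) h
  refine ⟨y, ?_, hyx⟩
  rw [snc_eq]
  show y ∈ sInf (Fam p S)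
  rw [Subgroup.mem_sInf]
  intro W hW
  have hxW : x ∈ W := by
    have h1 : x ∈ sInf (Fam p S) := hx
    exact (Subgroup.mem_sInf.mp h1) W hW
  obtain ⟨z, hz, hzx⟩ := (hW.2 H τ hτ).conj_mem _ (Subgroup.mem_map_of_mem τ hxW) h
  have : z = y := hτ.1 (hzx.trans hyx.symm)
  rwa [← this]

theorem snc_mem_Fam [Finite S] : Cfsg.stableNormalClosure p S ∈ Fam p S := ⟨le_snc, fun H _ τ hτ => snc_normal hτ⟩

omit hp in
theorem snc_min {W : Subgroup S} (h1 : Cfsg.omegaOne p (Subgroup.center S) ≤ W)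
    (h2 : ∀ (H : Type u) [Group H] (τ : S →* H), Cfsg.IsStableEmbedding p τ → (W.map τ).Normal) :
    Cfsg.stableNormalClosure p S ≤ W := sInf_le ⟨h1, h2⟩

omit hp in
theorem stable_comp {S' : Type u} [Group S'] (η : S ≃* S') {H : Type u} [Group H] {τ : S' →* H} (hτ : Cfsg.IsStableEmbedding p τ) :
    Cfsg.IsStableEmbedding p (τ.comp η.toMonoidHom) := by
  obtain ⟨h1, h2, ⟨P, h3⟩, h4, h5, h6⟩ := hτ
  have hJ : (Cfsg.thompsonSubgroup p S).map η.toMonoidHom = Cfsg.thompsonSubgroup p S' := by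
    rw [thompson_eq, thompson_eq, ← J_map η.toMonoidHom (η.injective.injOn), Subgroup.map_top_of_surjective _ η.surjective]
  have hO : (Cfsg.omegaCenterThompson p S).map η.toMonoidHom = Cfsg.omegaCenterThompson p S' := by
    rw [oct_eq, oct_eq, OZ_map η.toMonoidHom (η.injective.injOn), ← J_map η.toMonoidHom (η.injective.injOn), Subgroup.map_top_of_surjective _ η.surjective]
  refine ⟨h1.comp η.injective, h2, ⟨P, ?_⟩, h4, ?_, ?_⟩
  · rw [h3, MonoidHom.range_comp, MonoidHom.range_eq_top_of_surjective η.toMonoidHom η.surjective, ← MonoidHom.range_eq_map]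
  · rw [← Subgroup.map_map, hJ]; exact h5
  · intro V hV hle
    rw [← Subgroup.map_map, hO] at hle
    exact h6 V hle

omit hp in
theorem snc_map_le {S' : Type u} [Group S'] (η : S ≃* S') : (Cfsg.stableNormalClosure p S).map η.toMonoidHom ≤ Cfsg.stableNormalClosure p S' := by
  rw [Subgroup.map_le_iff_le_comap]
  refine le_trans ?_ (Subgroup.comap_mono (le_refl _))
  rw [snc_eq, snc_eq]
  intro x hx
  rw [Subgroup.mem_comap, Subgroup.mem_sInf]
  intro W hW
  have h1 : W.comap η.toMonoidHom ∈ Fam p S := by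
    refine ⟨?_, ?_⟩
    · intro y hy
      obtain ⟨h1, h2⟩ := mem_OZtop.mp hy
      refine hW.1 (mem_OZtop.mpr ⟨?_, ?_⟩)
      · intro z
        obtain ⟨w, rfl⟩ := η.surjective z
        show η w * η y = η y * η w
        rw [← map_mul, ← map_mul, h1 w]
      · show (η y) ^ p = 1
        rw [← map_pow, h2, map_one]
    · intro H _ τ hτ
      have h2 : Cfsg.IsStableEmbedding p (τ.comp η.symm.toMonoidHom) := stable_comp η.symm hτ
      have h3 := hW.2 H _ h2
      have h4 : (W.comap η.toMonoidHom).map τ = W.map (τ.comp η.symm.toMonoidHom) := by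
        rw [← Subgroup.map_map]
        congr 1
        ext y
        constructor
        · intro hy
          exact ⟨η y, hy, η.symm_apply_apply y⟩
        · rintro ⟨z, hz, rfl⟩
          show η (η.symm z) ∈ W
          rw [η.apply_symm_apply]; exact hz
      rw [h4]; exact h3
  exact (Subgroup.mem_sInf.mp hx) _ h1

omit hp in
theorem snc_map {S' : Type u} [Group S'] (η : S ≃* S') : (Cfsg.stableNormalClosure p S).map η.toMonoidHom = Cfsg.stableNormalClosure p S' := by
  apply le_antisymm (snc_map_le η)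
  intro x hx
  have h1 := snc_map_le (p := p) η.symm (Subgroup.mem_map_of_mem η.symm.toMonoidHom hx)
  exact ⟨η.symm x, h1, η.apply_symm_apply x⟩

omit hp in
theorem snc_char : (Cfsg.stableNormalClosure p S).Characteristic := by
  rw [Subgroup.characteristic_iff_map_eq]
  exact fun φ => snc_map φ

theorem snc_ne_bot [Finite S] (hS : IsPGroup p S) [hnt : Nontrivial S] : Cfsg.stableNormalClosure p S ≠ ⊥ := by
  intro h
  have h1 : Cfsg.omegaOne p (Subgroup.center S) = ⊥ := by rw [eq_bot_iff, ← h]; exact le_snc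
  haveI := hS.center_nontrivial
  obtain ⟨z, hz⟩ := exists_ne (1 : Subgroup.center S)
  have hzp : IsPGroup p (Subgroup.center S) := hS.to_subgroup _
  obtain ⟨n, hn⟩ := (IsPGroup.iff_orderOf.mp hzp) z
  have hn0 : n ≠ 0 := by
    rintro rfl
    rw [pow_zero, orderOf_eq_one_iff] at hn
    exact hz hn
  have h2 : (z ^ p ^ (n - 1)) ∈ (⊤ : Subgroup (Subgroup.center S)) := trivial
  have h3 : ((z ^ p ^ (n - 1) : Subgroup.center S) : S) ∈ Cfsg.omegaOne p (Subgroup.center S) := by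
    refine mem_omegaOne_of (z ^ p ^ (n - 1)).2 ?_
    rw [← Subgroup.coe_pow, ← pow_mul, ← pow_succ, Nat.sub_add_cancel (Nat.one_le_iff_ne_zero.mpr hn0), ← hn, pow_orderOf_eq_one]
    rfl
  rw [h1, Subgroup.mem_bot] at h3
  have h4 : z ^ p ^ (n - 1) = 1 := Subtype.ext h3
  have h5 := orderOf_dvd_of_pow_eq_one h4
  rw [hn] at h5
  have h6 := (Nat.pow_dvd_pow_iff_le_right hp.out.one_lt).mp h5
  omega

end CfsgLib.WS
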