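import Cfsg.Agent.Lib.WS2

/-! No element acts quadratically and nontrivially on `W(S)`; `W(S)` is normal. -/
set_option autoImplicit false
set_option linter.style.haveILetI false
set_option linter.unusedVariables false

namespace CfsgLib.WS

universe u v

open CfsgLib CfsgLib.JSub CfsgLib.Coprime CfsgLib.PL1 CfsgLib.PL2 CfsgLib.PL3 CfsgLib.ZJ3 CfsgLib.ZJ4 CfsgLib.PSt
open scoped commutatorElement Pointwise

variable {S : Type u} [Group S] {p : ℕ} [hp : Fact p.Prime]

/-- no quadratic nontrivial action -/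
def NQ (U : Subgroup S) : Prop := ∀ x : S, ⁅⁅U, Subgroup.zpowers x⁆, Subgroup.zpowers x⁆ = ⊥ → ∀ u ∈ U, u * x = x * u

theorem conj_quad' {H : Type u} [Group H] {V : Subgroup H} [hV : V.Normal] {a g : H} (ha : ⁅⁅V, Subgroup.zpowers a⁆, Subgroup.zpowers a⁆ = ⊥) :
    ⁅⁅V, Subgroup.zpowers (g * a * g⁻¹)⁆, Subgroup.zpowers (g * a * g⁻¹)⁆ = ⊥ := by
  have h1 : V.map (MulAut.conj g).toMonoidHom = V := by
    apply le_antisymm
    · rintro _ ⟨v, hv, rfl⟩
      exact hV.conj_mem v hv g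
    · intro v hv
      exact ⟨g⁻¹ * v * g, by simpa using hV.conj_mem v hv g⁻¹, by simp [mul_assoc]⟩
  have h2 : (Subgroup.zpowers a).map (MulAut.conj g).toMonoidHom = Subgroup.zpowers (g * a * g⁻¹) := by
    rw [MonoidHom.map_zpowers]; rfl
  have h3 := congrArg (Subgroup.map (MulAut.conj g).toMonoidHom) ha
  rw [Subgroup.map_commutator, Subgroup.map_commutator, h1, h2, Subgroup.map_bot] at h3
  exact h3

/-- general step: if `H` is `p`-stable on `V` -/
theorem spread {H : Type u} [Group H] [Finite H] (P : Sylow p H) {V : Subgroup H} [hV : V.Normal] (hst : Cfsg.IsPStableOn p V)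
    {x : H} (hxP : x ∈ (P : Subgroup H)) (hx : ⁅⁅V, Subgroup.zpowers x⁆, Subgroup.zpowers x⁆ = ⊥) {u : H} (hu : u ∈ V)
    (hU : ∀ y ∈ (P : Subgroup H), ⁅⁅V, Subgroup.zpowers y⁆, Subgroup.zpowers y⁆ = ⊥ → u * y = y * u) (g : H) :
    (g * u * g⁻¹) * x = x * (g * u * g⁻¹) := by
  have hx1 : x ∈ LP p (Subgroup.centralizer (V : Set H)) := hst x hx
  obtain ⟨n, hn, c, hc, rfl⟩ := exists_mul (Subgroup.centralizer (V : Set H)) P g
  set T := (P : Subgroup H) ⊓ LP p (Subgroup.centralizer (V : Set H)) with hT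
  have h1 : n⁻¹ * x * n⁻¹⁻¹ ∈ T := conj_mem (inv_mem hn) (Subgroup.mem_inf.mpr ⟨hxP, hx1⟩)
  have h2 := hU _ (Subgroup.mem_inf.mp h1).1 (conj_quad' hx)
  have h3 : c * u * c⁻¹ = u := mem_centralizer_iff'.mp hc u hu
  have h4 : n * c * u * (n * c)⁻¹ = n * (c * u * c⁻¹) * n⁻¹ := by group
  rw [h4, h3]
  calc n * u * n⁻¹ * x = n * (u * (n⁻¹ * x * n⁻¹⁻¹)) * n⁻¹ := by group
    _ = n * ((n⁻¹ * x * n⁻¹⁻¹) * u) * n⁻¹ := by rw [h2]
    _ = x * (n * u * n⁻¹) := by group

theorem nq_snc [Finite S] (hS : IsPGroup p S) : NQ (Cfsg.stableNormalClosure p S) := by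
  classical
  set W := Cfsg.stableNormalClosure p S with hW
  obtain ⟨U, ⟨hU1, hU2, hU3⟩, hmax⟩ := Set.exists_max_image {U : Subgroup S | Cfsg.omegaOne p (Subgroup.center S) ≤ U ∧ U ≤ W ∧ NQ U}
    (fun U => Nat.card U) (Set.toFinite _) ⟨Cfsg.omegaOne p (Subgroup.center S), le_rfl, le_snc, by
      intro x hx u hu
      exact ((mem_OZtop.mp hu).1 x).symm⟩
  have hWU : W ≤ U := by
    apply snc_min hU1
    intro H _ τ hτ
    by_contra hnn
    obtain ⟨hinj, hfin, ⟨P, hP⟩, hcc, hJ, hst⟩ := hτ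
    haveI := hfin
    have hWn : (W.map τ).Normal := snc_normal ⟨hinj, hfin, ⟨P, hP⟩, hcc, hJ, hst⟩
    set V := Subgroup.normalClosure ((U.map τ : Subgroup H) : Set H) with hV
    have hUV : U.map τ ≤ V := Subgroup.le_normalClosure
    have hVW : V ≤ W.map τ := Subgroup.normalClosure_le_normal (Subgroup.map_mono hU2)
    have hVτ : (V.comap τ).map τ = V := by
      rw [Subgroup.map_comap_eq]
      exact inf_eq_right.mpr (hVW.trans (Subgroup.map_le_range τ W))
    have hstV : Cfsg.IsPStableOn p V := hst V (hVW.trans (Subgroup.map_mono snc_le))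
    have hU' : U ≤ V.comap τ := Subgroup.map_le_iff_le_comap.mp hUV
    have hne : U ≠ V.comap τ := by
      intro h
      apply hnn
      rw [h, hVτ]
      infer_instance
    have h1 := hmax (V.comap τ) ⟨hU1.trans hU', by
      intro x hx
      obtain ⟨w, hw, hwx⟩ := hVW hx
      rwa [← hinj hwx], by
      intro x hx u hu
      have hq : ⁅⁅V, Subgroup.zpowers (τ x)⁆, Subgroup.zpowers (τ x)⁆ = ⊥ := by
        have h2 := congrArg (Subgroup.map τ) hx
        rw [Subgroup.map_commutator, Subgroup.map_commutator, hVτ, MonoidHom.map_zpowers, Subgroup.map_bot] at h2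
        exact h2
      have hcomm : V ≤ Subgroup.centralizer {τ x} := by
        rw [hV]
        unfold Subgroup.normalClosure
        rw [Subgroup.closure_le]
        intro y hy
        obtain ⟨z, hz, hzx⟩ := Group.mem_conjugatesOfSet_iff.mp hy
        obtain ⟨g, rfl⟩ := isConj_iff.mp hzx
        obtain ⟨u', hu', rfl⟩ := hz
        show g * τ u' * g⁻¹ ∈ Subgroup.centralizer {τ x}
        rw [Subgroup.mem_centralizer_iff]
        rintro _ rfl
        refine (spread P hstV (x := τ x) (by rw [hP]; exact ⟨x, rfl⟩) hq (u := τ u') (hUV (Subgroup.mem_map_of_mem τ hu')) ?_ g).symm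
        intro y hy hyq
        rw [hP] at hy
        obtain ⟨y, rfl⟩ := hy
        rw [← map_mul, ← map_mul]
        congr 1
        refine hU3 y ?_ u' hu'
        have h3 : (⁅⁅V.comap τ, Subgroup.zpowers y⁆, Subgroup.zpowers y⁆).map τ = ⊥ := by
          rw [Subgroup.map_commutator, Subgroup.map_commutator, hVτ, MonoidHom.map_zpowers]
          exact hyq
        have h4 := (Subgroup.map_eq_bot_iff_of_injective _ hinj).mp h3
        exact quad_mono hU' le_rfl h4
      have h5 := (Subgroup.mem_centralizer_iff.mp (hcomm (show τ u ∈ V from hu))) (τ x) rfl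
      apply hinj
      rw [map_mul, map_mul]
      exact h5.symm⟩
    exact absurd (CfsgLib.H7Basic.card_lt_card_of_lt (lt_of_le_of_ne hU' hne)) (not_lt.mpr h1)
  intro x hx u hu
  exact hU3 x (quad_mono hU2 le_rfl hx) u (hWU hu)

theorem s0623 [Finite S] (hS : IsPGroup p S) (x : S)
    (hq : ⁅⁅Cfsg.stableNormalClosure p S, Subgroup.zpowers x⁆, Subgroup.zpowers x⁆ = ⊥) :
    ⁅Cfsg.stableNormalClosure p S, Subgroup.zpowers x⁆ = ⊥ := by
  rw [Subgroup.commutator_comm, Subgroup.commutator_eq_bot_iff_le_centralizer, Subgroup.zpowers_le, Subgroup.mem_centralizer_iff]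
  exact nq_snc hS x hq

end CfsgLib.WS
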