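import Cfsg.Agent.Lib.WS3
import Cfsg.Agent.Lib.Coprime2

/-! `W(S)` is normal in action-`p`-stable constrained groups. -/
set_option autoImplicit false
set_option linter.style.haveILetI false
set_option linter.unusedVariables false

namespace CfsgLib.WS

universe u v

open CfsgLib CfsgLib.JSub CfsgLib.Coprime CfsgLib.PL1 CfsgLib.PL2 CfsgLib.PL3 CfsgLib.ZJ3 CfsgLib.ZJ4 CfsgLib.PSt
open scoped commutatorElement Pointwise

variable {G : Type u} [Group G] {p : ℕ} [hp : Fact p.Prime]

theorem section_core [Finite G] (hc : Subgroup.centralizer (Cfsg.pCore p G : Set G) ≤ Cfsg.pCore p G)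
    [hN : ((frattini ↥(Cfsg.pCore p G)).map (Cfsg.pCore p G).subtype).Normal]
    {D : Subgroup G} [hD : D.Normal] (h1 : Cfsg.sectionKernel (Cfsg.pCore p G) ((frattini ↥(Cfsg.pCore p G)).map (Cfsg.pCore p G).subtype) ≤ D)
    (h2 : ∃ k : ℕ, (Cfsg.sectionKernel (Cfsg.pCore p G) ((frattini ↥(Cfsg.pCore p G)).map (Cfsg.pCore p G).subtype)).relIndex D = p ^ k) :
    D ≤ Cfsg.pCore p G := by
  set K := Cfsg.pCore p G with hK
  set N := (frattini ↥K).map K.subtype with hNdef
  set C := Cfsg.sectionKernel K N with hC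
  obtain ⟨k, hk⟩ := h2
  have hKp : IsPGroup p K := CfsgLib.Core.pCore_isPGroup p G
  haveI hKn : K.Normal := CfsgLib.Core.pCore_normal p G
  haveI : (K.map (QuotientGroup.mk' N)).Normal := hKn.map _ (QuotientGroup.mk'_surjective _)
  haveI hCn : C.Normal := by
    rw [hC]
    unfold Cfsg.sectionKernel
    infer_instance
  have hDp : IsPGroup p D := by
    apply CfsgLib.PSolvL.isPGroup_of_forall_coprime
    rintro ⟨x, hx⟩ hcop
    have hcop' : (orderOf x).Coprime p := by rwa [Subgroup.orderOf_mk] at hcop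
    -- x ^ (p^k) ∈ C
    haveI : (C.subgroupOf D).Normal := inferInstance
    have h3 : x ^ p ^ k ∈ C := by
      have h4 : ((⟨x, hx⟩ : D) : D ⧸ C.subgroupOf D) ^ p ^ k = 1 := by
        have h5 : Nat.card (D ⧸ C.subgroupOf D) = p ^ k := hk
        rw [← h5]; exact pow_card_eq_one'
      rw [← QuotientGroup.mk_pow, QuotientGroup.eq_one_iff] at h4
      exact h4
    have h4 : x ∈ C := by
      have h5 : x ∈ Subgroup.zpowers (x ^ p ^ k) := by
        rw [mem_zpowers_pow_iff]
        exact (hcop'.pow_right k).symm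
      exact (Subgroup.zpowers_le.mpr h3) h5
    have h5 : Subgroup.zpowers x ≤ Subgroup.centralizer (K : Set G) := by
      apply le_centralizer_of_frattini (K := K)
      · obtain ⟨m, hm⟩ := IsPGroup.iff_card.mp (hKp.to_subgroup (frattini K))
        rw [Nat.card_zpowers, hm]
        exact hcop'.pow_right m
      · intro a ha k hk
        have haC : a ∈ C := (Subgroup.zpowers_le.mpr h4) ha
        have h6 : QuotientGroup.mk' N a ∈ Subgroup.centralizer ((K.map (QuotientGroup.mk' N) : Subgroup (G ⧸ N)) : Set (G ⧸ N)) := haC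
        have h7 := Subgroup.mem_centralizer_iff.mp h6 _ (Subgroup.mem_map_of_mem _ hk)
        rw [← QuotientGroup.eq_one_iff]
        show QuotientGroup.mk' N (a * k * a⁻¹ * k⁻¹) = 1
        rw [map_mul, map_mul, map_mul, map_inv, map_inv, ← h7]
        group
    have h6 : x ∈ K := hc (h5 (Subgroup.mem_zpowers x))
    obtain ⟨m, hm⟩ := hKp ⟨x, h6⟩
    have h7 : x ^ p ^ m = 1 := congrArg Subtype.val hm
    have h8 : orderOf x = 1 := Nat.eq_one_of_dvd_coprimes (hcop'.pow_right m) dvd_rfl (orderOf_dvd_of_pow_eq_one h7)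
    rw [orderOf_eq_one_iff] at h8
    exact Subtype.ext h8
  exact CfsgLib.Core.le_pCore hD hDp

/-- `W(S)` inside `G` -/
def WG (p : ℕ) (S : Subgroup G) : Subgroup G := (Cfsg.stableNormalClosure p ↥S).map S.subtype

theorem WG_EA [Finite G] (S : Subgroup G) : (∀ x ∈ WG p S, ∀ y ∈ WG p S, x * y = y * x) ∧ ∀ x ∈ WG p S, x ^ p = 1 := by
  have h1 : EA p (Cfsg.omegaCenterThompson p ↥S) := by rw [oct_eq]; exact OZ_EA p _
  have h2 := h1.mono (snc_le (S := S) (p := p))
  constructor
  · rintro _ ⟨x, hx, rfl⟩ _ ⟨y, hy, rfl⟩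
    rw [← map_mul, ← map_mul, h2.1 _ hx _ hy]
  · rintro _ ⟨x, hx, rfl⟩
    rw [← map_pow, h2.2 x hx, map_one]

omit hp in
theorem WG_le (S : Subgroup G) : WG p S ≤ S := Subgroup.map_subtype_le _

omit hp in
theorem WG_norm (S : Subgroup G) : S ≤ Subgroup.normalizer (WG p S : Set G) := by
  haveI : (Cfsg.stableNormalClosure p ↥S).Normal := by
    haveI := snc_char (S := S) (p := p)
    infer_instance
  exact CfsgLib.PSolvL.le_normalizer_map_char

theorem WG_nq [Finite G] {S : Subgroup G} (hS : IsPGroup p S) {x : G} (hx : x ∈ S)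
    (hq : ⁅⁅WG p S, Subgroup.zpowers x⁆, Subgroup.zpowers x⁆ = ⊥) : ∀ w ∈ WG p S, w * x = x * w := by
  rintro _ ⟨w, hw, rfl⟩
  have h1 : ⁅⁅Cfsg.stableNormalClosure p ↥S, Subgroup.zpowers (⟨x, hx⟩ : S)⁆, Subgroup.zpowers (⟨x, hx⟩ : S)⁆ = ⊥ := by
    have h2 : (⁅⁅Cfsg.stableNormalClosure p ↥S, Subgroup.zpowers (⟨x, hx⟩ : S)⁆, Subgroup.zpowers (⟨x, hx⟩ : S)⁆).map S.subtype = ⊥ := by
      rw [Subgroup.map_commutator, Subgroup.map_commutator, MonoidHom.map_zpowers]
      exact hq
    exact (Subgroup.map_eq_bot_iff_of_injective _ S.subtype_injective).mp h2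
  exact congrArg Subtype.val (nq_snc hS _ h1 w hw)

/-- `N_G(J(S))` normalizes `W(S)` -/
theorem WG_normJ' [Finite G] (hc : Subgroup.centralizer (Cfsg.pCore p G : Set G) ≤ Cfsg.pCore p G)
    (S : Sylow p G) (hst3 : ∀ (V : Subgroup ↥(Subgroup.normalizer (Cfsg.thompsonSubgroupOf p (S : Subgroup G) : Set G)))
      [V.Normal], V.map (Subgroup.normalizer (Cfsg.thompsonSubgroupOf p (S : Subgroup G) : Set G)).subtype ≤
        (Cfsg.omegaCenterThompson p ↥(S : Subgroup G)).map (S : Subgroup G).subtype → Cfsg.IsPStableOn p V) {n : G} (hn : n ∈ Subgroup.normalizer (Cfsg.thompsonSubgroupOf p (S : Subgroup G) : Set G)) :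
    ∀ w ∈ WG p (S : Subgroup G), n * w * n⁻¹ ∈ WG p (S : Subgroup G) := by
  classical
  set J₀ := Cfsg.thompsonSubgroupOf p (S : Subgroup G) with hJ₀
  set N := Subgroup.normalizer (J₀ : Set G) with hN
  have hSN : (S : Subgroup G) ≤ N := by
    rw [hN, hJ₀, J_eq]
    exact Subgroup.le_normalizer.trans (normalizer_le_normalizer_J p _)
  have hτval : ∀ s : (S : Subgroup G), N.subtype ((Subgroup.inclusion hSN) s) = s := fun s => rfl
  have hmap : ∀ U : Subgroup ↥(S : Subgroup G), (U.map (Subgroup.inclusion hSN)).map N.subtype = U.map (S : Subgroup G).subtype := by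
    intro U
    rw [Subgroup.map_map]
    rfl
  haveI hJn : (J₀.subgroupOf N).Normal := by
    rw [Subgroup.normal_subgroupOf_iff_le_normalizer]
    rw [hJ₀, J_eq]
    exact (J_le p _).trans hSN
  have hQS : Cfsg.pCore p G ≤ S := CfsgLib.Core.pCore_le_sylow S
  haveI := CfsgLib.Core.pCore_normal p G
  have hQN : (Cfsg.pCore p G).subgroupOf N ≤ Cfsg.pCore p N := by
    apply CfsgLib.Core.le_pCore inferInstance
    exact (CfsgLib.Core.pCore_isPGroup p G).comap_of_injective _ N.subtype_injective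
  have hse : Cfsg.IsStableEmbedding p (Subgroup.inclusion hSN) := by
    refine ⟨Subgroup.inclusion_injective hSN, inferInstance, ⟨S.subtype hSN, ?_⟩, ?_, ?_, ?_⟩
    · rw [Sylow.coe_subtype]
      ext x
      constructor
      · intro hx
        exact ⟨⟨x, hx⟩, rfl⟩
      · rintro ⟨s, rfl⟩
        exact s.2
    · intro x hx
      apply hQN
      show (x : G) ∈ Cfsg.pCore p G
      apply hc
      rw [Subgroup.mem_centralizer_iff]
      intro y hy
      have hyN : y ∈ N := hSN (hQS hy)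
      exact congrArg Subtype.val (Subgroup.mem_centralizer_iff.mp hx ⟨y, hyN⟩ (hQN (show (⟨y, hyN⟩ : N) ∈ (Cfsg.pCore p G).subgroupOf N from hy)))
    · have h1 : (Cfsg.thompsonSubgroup p ↥(S : Subgroup G)).map (Subgroup.inclusion hSN) = J₀.subgroupOf N := by
        apply Subgroup.map_injective N.subtype_injective
        rw [hmap]
        have h2 : J₀ ≤ N := by
          rw [hJ₀, J_eq]
          exact (J_le p _).trans hSN
        rw [Subgroup.map_subgroupOf_eq_of_le h2]
        rfl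
      rw [h1]; exact hJn
    · intro V hV hle
      apply hst3 V
      have h1 := Subgroup.map_mono (f := N.subtype) hle
      rwa [hmap] at h1
  intro w hw
  have h1 := snc_normal hse
  rw [WG, ← hmap] at hw ⊢
  obtain ⟨w, hw, rfl⟩ := hw
  exact ⟨_, h1.conj_mem w hw ⟨n, hn⟩, rfl⟩

theorem WG_normJ [Finite G] (hst : Cfsg.IsActionPStable p G) (hc : Subgroup.centralizer (Cfsg.pCore p G : Set G) ≤ Cfsg.pCore p G)
    (S : Sylow p G) {n : G} (hn : n ∈ Subgroup.normalizer (Cfsg.thompsonSubgroupOf p (S : Subgroup G) : Set G)) :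
    ∀ w ∈ WG p (S : Subgroup G), n * w * n⁻¹ ∈ WG p (S : Subgroup G) := WG_normJ' hc S (fun V hV h => hst.2.2 S V h) hn

end CfsgLib.WS
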