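import Cfsg.Agent.Lib.WS4

/-! `W(S)` is normal in action-`p`-stable constrained groups. -/
set_option autoImplicit false
set_option linter.style.haveILetI false
set_option linter.unusedVariables false

namespace CfsgLib.WS

universe u v

open CfsgLib CfsgLib.JSub CfsgLib.Coprime CfsgLib.PL1 CfsgLib.PL2 CfsgLib.PL3 CfsgLib.ZJ3 CfsgLib.ZJ4 CfsgLib.PSt
open scoped commutatorElement Pointwise

variable {G : Type u} [Group G] {p : ℕ} [hp : Fact p.Prime]

/-- Frattini: if `J(S)` centralizes a normal subgroup `B` then `G = N(J(S)) C(B)`. -/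
theorem frat_J [Finite G] (S : Sylow p G) {B : Subgroup G} [hBn : B.Normal] (hJ : J p (S : Subgroup G) ≤ Subgroup.centralizer (B : Set G)) (g : G) :
    ∃ n ∈ Subgroup.normalizer (Cfsg.thompsonSubgroupOf p (S : Subgroup G) : Set G), ∃ c ∈ Subgroup.centralizer (B : Set G), g = n * c := by
  set C := Subgroup.centralizer (B : Set G) with hC
  have h1 : IsSyl p ((S : Subgroup G) ⊓ C) C := CfsgLib.Transfer3.isSyl_inf_normal (CfsgLib.Transfer.isSyl_top S) le_top
    (by rw [Subgroup.normalizer_eq_top C])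
  have h2 := CfsgLib.Solv3.frattini_isSyl h1
  set T := (S : Subgroup G) ⊓ C with hT
  have h3 : J p T = J p (S : Subgroup G) := J_eq_of_le (le_inf (J_le p _) hJ) inf_le_left
  have h6 : g ∈ (Subgroup.normalizer (T : Set G) : Set G) * (C : Set G) := by
    rw [← Subgroup.mul_normal, sup_comm, h2]; exact Subgroup.mem_top g
  obtain ⟨n, hn, c, hc, rfl⟩ := h6
  refine ⟨n, ?_, c, hc, rfl⟩
  rw [J_eq, ← h3]
  exact normalizer_le_normalizer_J p T hn

theorem quad_of_le {W x : Subgroup G} (hW : ∀ a ∈ W, ∀ b ∈ W, a * b = b * a) {K : Subgroup G} {a : G} (haW : a ∈ W)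
    (hKW : K ≤ Subgroup.normalizer (W : Set G)) : ⁅⁅K, Subgroup.zpowers a⁆, Subgroup.zpowers a⁆ = ⊥ := by
  have haA : Subgroup.zpowers a ≤ W := by rwa [Subgroup.zpowers_le]
  have h2 : ⁅K, Subgroup.zpowers a⁆ ≤ W := by
    refine (Subgroup.commutator_mono le_rfl haA).trans ?_
    rw [Subgroup.commutator_comm]
    exact commutator_le_left hKW
  rw [Subgroup.commutator_eq_bot_iff_le_centralizer]
  intro x hx
  rw [Subgroup.mem_centralizer_iff]
  exact fun y hy => hW y (haA hy) x (h2 hx)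

theorem wg_normal [Finite G] (hst1 : ∀ (V : Subgroup G) [V.Normal], Cfsg.IsElementaryAbelian p V → Cfsg.IsPStableOn p V)
    (hst2 : ∀ a : G, ⁅⁅Cfsg.pCore p G, Subgroup.zpowers a⁆, Subgroup.zpowers a⁆ = ⊥ → a ∈ Cfsg.pCore p G)
    (S : Sylow p G)
    (hst3 : ∀ n ∈ Subgroup.normalizer (Cfsg.thompsonSubgroupOf p (S : Subgroup G) : Set G), ∀ w ∈ WG p (S : Subgroup G), n * w * n⁻¹ ∈ WG p (S : Subgroup G)) :
    (WG p (S : Subgroup G)).Normal := by
  classical
  set W := WG p (S : Subgroup G) with hW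
  obtain ⟨hWc, hWp⟩ := WG_EA (p := p) (S : Subgroup G)
  have hWS : W ≤ S := WG_le _
  have hSW : (S : Subgroup G) ≤ Subgroup.normalizer (W : Set G) := WG_norm _
  haveI hQn := CfsgLib.Core.pCore_normal p G
  set Q := Cfsg.pCore p G with hQ
  have hQS : Q ≤ S := CfsgLib.Core.pCore_le_sylow S
  -- W ≤ Q
  have hWQ : W ≤ Q := by
    intro w hw
    exact hst2 w (quad_of_le (x := W) hWc hw (hQS.trans hSW))
  -- the normal closure
  set B := Subgroup.normalClosure (W : Set G) with hB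
  have hWB : W ≤ B := Subgroup.le_normalClosure
  have hBQ : B ≤ Q := Subgroup.normalClosure_le_normal hWQ
  -- conjugates commute
  have hconjW : ∀ g : G, ∀ w ∈ W, ∀ v ∈ W, v * (g * w * g⁻¹) = (g * w * g⁻¹) * v := by
    intro g w hw v hv
    set x := g * w * g⁻¹ with hx
    have hxQ : x ∈ Q := hQn.conj_mem w (hWQ hw) g
    refine WG_nq S.2 (hQS hxQ) ?_ v hv
    -- quadratic: W normalizes W^g
    set Wg := W.map (MulAut.conj g).toMonoidHom with hWg
    have hWgc : ∀ a ∈ Wg, ∀ b ∈ Wg, a * b = b * a := by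
      rintro _ ⟨a, ha, rfl⟩ _ ⟨b, hb, rfl⟩
      rw [← map_mul, ← map_mul, hWc a ha b hb]
    have hxW : x ∈ Wg := ⟨w, hw, rfl⟩
    refine quad_of_le (x := Wg) hWgc hxW ?_
    intro y hy
    have h1 : g⁻¹ * y * g⁻¹⁻¹ ∈ Subgroup.normalizer (W : Set G) := hSW (hQS (hQn.conj_mem y (hWQ hy) g⁻¹))
    apply CfsgLib.H7Basic.mem_normalizer_of_conj_mem
    rintro _ ⟨a, ha, rfl⟩
    refine ⟨g⁻¹ * y * g⁻¹⁻¹ * a * (g⁻¹ * y * g⁻¹⁻¹)⁻¹, conj_mem h1 ha, ?_⟩
    show g * (g⁻¹ * y * g⁻¹⁻¹ * a * (g⁻¹ * y * g⁻¹⁻¹)⁻¹) * g⁻¹ = y * (g * a * g⁻¹) * y⁻¹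
    group
  have hBc1 : ∀ v ∈ W, ∀ b ∈ B, v * b = b * v := by
    intro v hv
    have h1 : B ≤ Subgroup.centralizer {v} := by
      rw [hB]
      unfold Subgroup.normalClosure
      rw [Subgroup.closure_le]
      intro y hy
      obtain ⟨z, hz, hzx⟩ := Group.mem_conjugatesOfSet_iff.mp hy
      obtain ⟨g, rfl⟩ := isConj_iff.mp hzx
      show g * z * g⁻¹ ∈ Subgroup.centralizer {v}
      rw [Subgroup.mem_centralizer_iff]
      rintro _ rfl
      exact hconjW g z hz _ hv
    intro b hb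
    exact Subgroup.mem_centralizer_iff.mp (h1 hb) v rfl
  have hBc : ∀ a ∈ B, ∀ b ∈ B, a * b = b * a := by
    have h1 : B ≤ Subgroup.centralizer (B : Set G) := by
      have : Subgroup.normalClosure (W : Set G) ≤ Subgroup.centralizer (B : Set G) := by
        apply Subgroup.normalClosure_le_normal
        intro w hw
        show w ∈ Subgroup.centralizer (B : Set G)
        rw [Subgroup.mem_centralizer_iff]
        intro b hb
        exact (hBc1 w hw b hb).symm
      exact this
    intro a ha b hb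
    exact Subgroup.mem_centralizer_iff.mp (h1 hb) a ha
  have hBp : ∀ b ∈ B, b ^ p = 1 := by
    intro b hb
    rw [hB] at hb
    unfold Subgroup.normalClosure at hb
    refine Subgroup.closure_induction (p := fun x _ => x ^ p = 1) ?_ (one_pow p) ?_ ?_ hb
    · intro y hy
      obtain ⟨z, hz, hzx⟩ := Group.mem_conjugatesOfSet_iff.mp hy
      obtain ⟨g, rfl⟩ := isConj_iff.mp hzx
      rw [conj_pow, hWp z hz]; group
    · intro x y hx hy h1 h2
      have h3 : Commute x y := hBc x hx y hy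
      rw [h3.mul_pow, h1, h2, one_mul]
    · intro x hx h1
      rw [inv_pow, h1, inv_one]
  have hBel : Cfsg.IsElementaryAbelian p B := EA_iff.mp ⟨hBc, hBp⟩
  -- quadratic elements centralize B
  have hJ : J p (⊤ : Subgroup G) ≤ Subgroup.centralizer (B : Set G) := by
    apply J_le_centralizer B hBel
    rintro a ⟨m, ham⟩ haq
    -- conjugate a into S
    have hap : IsPGroup p (Subgroup.zpowers a) := by
      rintro ⟨y, hy⟩
      obtain ⟨k, rfl⟩ := Subgroup.mem_zpowers_iff.mp hy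
      refine ⟨m, Subtype.ext ?_⟩
      show (a ^ k) ^ p ^ m = 1
      rw [← zpow_natCast, ← zpow_mul, mul_comm, zpow_mul, zpow_natCast, ham, one_zpow]
    obtain ⟨T, hT⟩ := hap.exists_le_sylow
    obtain ⟨g, hg⟩ := MulAction.exists_smul_eq G T S
    have haT : a ∈ (T : Subgroup G) := hT (Subgroup.mem_zpowers a)
    have h1 : g * a * g⁻¹ ∈ (S : Subgroup G) := by
      rw [← hg]
      exact ⟨a, haT, rfl⟩
    have h2 : g * a * g⁻¹ ∈ Subgroup.centralizer (B : Set G) := by
      have hcl : B ≤ Subgroup.centralizer {g * a * g⁻¹} := by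
        rw [hB]
        unfold Subgroup.normalClosure
        rw [Subgroup.closure_le]
        intro y hy
        obtain ⟨z, hz, hzx⟩ := Group.mem_conjugatesOfSet_iff.mp hy
        obtain ⟨h, rfl⟩ := isConj_iff.mp hzx
        show h * z * h⁻¹ ∈ Subgroup.centralizer {g * a * g⁻¹}
        rw [Subgroup.mem_centralizer_iff]
        rintro _ rfl
        refine (spread S (hst1 B hBel) h1 (conj_quad' haq) (hWB hz) ?_ h).symm
        intro y hy hyq
        exact WG_nq S.2 hy (quad_mono hWB le_rfl hyq) z hz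
      rw [Subgroup.mem_centralizer_iff]
      intro b hb
      exact ((Subgroup.mem_centralizer_iff.mp (hcl hb)) _ rfl).symm
    haveI : (Subgroup.centralizer (B : Set G)).Normal := inferInstance
    have h3 := this.conj_mem _ h2 g⁻¹
    have h4 : g⁻¹ * (g * a * g⁻¹) * g⁻¹⁻¹ = a := by group
    rwa [h4] at h3
  have hJS : J p (S : Subgroup G) ≤ Subgroup.centralizer (B : Set G) := by
    refine le_trans ?_ hJ
    rw [J_top_eq_iSup]
    exact le_iSup (fun S : Sylow p G => J p (S : Subgroup G)) S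
  refine ⟨fun w hw g => ?_⟩
  obtain ⟨n, hn, c, hc', rfl⟩ := frat_J S hJS g
  have h1 : c * w * c⁻¹ = w := mem_centralizer_iff'.mp hc' w (hWB hw)
  have h2 : n * c * w * (n * c)⁻¹ = n * (c * w * c⁻¹) * n⁻¹ := by group
  rw [h2, h1]
  exact hst3 n hn w hw

theorem s0624 [Finite G] (hst : Cfsg.IsActionPStable p G) (hc : Subgroup.centralizer (Cfsg.pCore p G : Set G) ≤ Cfsg.pCore p G) (S : Sylow p G) :
    (WG p (S : Subgroup G)).Normal := by
  refine wg_normal (fun V _ hV => hst.1 V hV) ?_ S (fun n hn => WG_normJ hst hc S hn)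
  haveI hQn := CfsgLib.Core.pCore_normal p G
  set Q := Cfsg.pCore p G with hQ
  haveI hN : ((frattini ↥Q).map Q.subtype).Normal := by
    haveI : (frattini ↥Q).Characteristic := inferInstance
    infer_instance
  intro w hw
  obtain ⟨D, hD, h1, h2, h3⟩ := hst.2.1 w (by rw [hw]; exact bot_le)
  haveI := hD
  exact section_core hc h1 h2 h3

theorem core_of_stab [Finite G] (hc : Subgroup.centralizer (Cfsg.pCore p G : Set G) ≤ Cfsg.pCore p G) (hst : Stab p G) {z : G}
    (h1 : ⁅⁅Cfsg.pCore p G, Subgroup.zpowers z⁆, Subgroup.zpowers z⁆ = ⊥) : z ∈ Cfsg.pCore p G := by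
  haveI hQn := CfsgLib.Core.pCore_normal p G
  set Q := Cfsg.pCore p G with hQ
  have hQp : IsPGroup p Q := CfsgLib.Core.pCore_isPGroup p G
  have h2 := hst Q hQp z h1
  haveI := LP_normal p (Subgroup.centralizer (Q : Set G))
  have h3 : LP p (Subgroup.centralizer (Q : Set G)) ≤ Q := by
    apply CfsgLib.Core.le_pCore inferInstance
    obtain ⟨k, hk⟩ := relIndex_LP (p := p) (Subgroup.centralizer (Q : Set G))
    obtain ⟨j, hj⟩ := IsPGroup.iff_card.mp (hQp.to_le hc)
    apply IsPGroup.of_card (n := k + j)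
    rw [← relIndex_mul_card (le_LP p (Subgroup.centralizer (Q : Set G))), hk, hj, pow_add]
  exact h3 h2

end CfsgLib.WS
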