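import Cfsg.Agent.Lib.WS5
import Cfsg.Agent.Lib.NPCFun2
import Cfsg.Agent.Lib.ClsStab2
import Cfsg.Agent.Lib.ThmA10

/-! `W(S)`: normal `p`-complements and factorization. -/
set_option autoImplicit false
set_option linter.style.haveILetI false
set_option linter.unusedVariables false

namespace CfsgLib.WS

universe u v

open CfsgLib CfsgLib.JSub CfsgLib.Coprime CfsgLib.PL1 CfsgLib.PL2 CfsgLib.PL3 CfsgLib.ZJ3 CfsgLib.ZJ4 CfsgLib.PSt
open CfsgLib.CF CfsgLib.NPCFun
open scoped commutatorElement Pointwise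

variable {p : ℕ} [hp : Fact p.Prime]

omit hp in
theorem WG_range {P G : Type u} [Group P] [Group G] (f : P →* G) (hf : Function.Injective f) :
    WG p f.range = (Cfsg.stableNormalClosure p P).map f := by
  rw [WG, ← snc_map (MonoidHom.ofInjective hf), Subgroup.map_map]
  rfl

theorem WG_map_mk {G : Type u} [Group G] [Finite G] {N : Subgroup G} [hNn : N.Normal] (P : Subgroup G)
    (hPN : P ⊓ N = ⊥) : (WG p P).map (QuotientGroup.mk' N) = WG p (P.map (QuotientGroup.mk' N)) := by
  have hinj : Function.Injective ((QuotientGroup.mk' N).comp P.subtype) := by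
    intro x y hxy
    exact Subtype.ext (injOn_mk hPN x.2 y.2 hxy)
  have h1 : P.map (QuotientGroup.mk' N) = ((QuotientGroup.mk' N).comp P.subtype).range := by
    rw [MonoidHom.range_comp, Subgroup.range_subtype]
  rw [h1, WG_range _ hinj, WG, Subgroup.map_map]

theorem wg_normal_of_nstable {X : Type u} [Group X] [Finite X] (hc : Subgroup.centralizer (Cfsg.pCore p X : Set X) ≤ Cfsg.pCore p X)
    (hst : Cfsg.IsNormalizerPStable p X) (S : Sylow p X) : (WG p (S : Subgroup X)).Normal := by
  have hs := stab_of_normalizer hst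
  refine wg_normal (fun V _ hV => CfsgLib.ThmA.isPStableOn_of_nstable hst V (EA.isPGroup (EA_iff.mpr hV))) (fun a ha => core_of_stab hc hs ha) S ?_
  intro n hn
  refine WG_normJ' hc S ?_ hn
  intro V hV hle
  apply CfsgLib.ThmA.isPStableOn_of_nstable (CfsgLib.DFus.nstable_subgroup hst _) V
  -- V is a p-group
  have h1 : IsPGroup p (V.map (Subgroup.normalizer (Cfsg.thompsonSubgroupOf p (S : Subgroup X) : Set X)).subtype) :=
    S.2.to_le (hle.trans (Subgroup.map_subtype_le _))
  exact h1.of_equiv (Subgroup.equivMapOfInjective _ _ (Subgroup.subtype_injective _)).symm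

/-- the functor -/
def WSF (p : ℕ) : ∀ (Q : Type u) [Group Q], Subgroup Q := fun Q _ => Cfsg.stableNormalClosure p Q

omit hp in
theorem WSF_induced {G : Type u} [Group G] (P : Subgroup G) : Cfsg.inducedFunctor (G := G) (WSF p) P = WG p P := rfl

theorem WSF_char : Cfsg.IsCharPFunctor.{u} p (WSF p) := by
  refine ⟨?_, ?_⟩
  · intro Q _ _ hQ hnt
    exact snc_ne_bot hQ
  · intro Q R _ _ _ hQ φ
    exact snc_map φ

theorem s0628 {G : Type u} [Group G] [Finite G] (hp2 : p ≠ 2) (P : Sylow p G)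
    (hN : CfsgLib.NPC.NPC p (Subgroup.normalizer (WG p (P : Subgroup G) : Set G))) : CfsgLib.NPC.NPC p G := by
  rw [← WSF_induced] at hN
  refine npc_quot WSF_char ?_ P hN
  intro K R hR hyp hcls hcons _ _
  obtain ⟨T⟩ : Nonempty (Sylow p (↥K ⧸ R.subgroupOf K)) := inferInstance
  have h2 := hyp T
  have h1 := wg_normal_of_nstable hcons (ClsStab.cls_stable hp2 hcls) T
  rw [WSF_induced, Subgroup.normalizer_eq_top_iff.2 h1] at h2
  exact CfsgLib.ThompsonNPC.npc_top_iff.1 h2

theorem s0627 {G : Type u} [Group G] [Finite G] (hp5 : 5 ≤ p) (hsep : Cfsg.IsPSolvable p G) (S : Sylow p G) :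
    Cfsg.pPrimeCore p G ⊔ Subgroup.normalizer (WG p (S : Subgroup G) : Set G) = ⊤ := by
  have hNc : (Nat.card (Cfsg.pPrimeCore p G)).Coprime p := CfsgLib.Core.card_pPrimeCore_coprime p G
  have hPN : (S : Subgroup G) ⊓ Cfsg.pPrimeCore p G = ⊥ := inf_eq_bot_of_coprime (card_coprime_of_isPGroup S.2 hNc)
  apply frattini_coprime hNc (S.2.to_le (WG_le _))
  rw [WG_map_mk (p := p) _ hPN]
  have hsep' := CfsgLib.PSolvL.isPSolvable_quotient (Cfsg.pPrimeCore p G) hsep
  have hfree := CfsgLib.ThmA.free_of_psolvable hp5 hsep'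
  have hc := CfsgLib.PSolvL.isPConstrained_of_isPSolvable hsep
  rw [CfsgLib.PSolvL.isPConstrained_iff] at hc
  exact wg_normal_of_nstable hc (CfsgLib.ThmA.nstable_of_sl2_free (by omega) hfree) (S.mapSurjective (QuotientGroup.mk'_surjective (Cfsg.pPrimeCore p G)))

end CfsgLib.WS
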