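import Cfsg.Agent.Lib.ZJE

/-! The centre of the (elementary abelian version) Thompson subgroup is normal in `p`-stable, constrained groups. -/
set_option autoImplicit false
set_option linter.style.haveILetI false
set_option linter.unusedVariables false

namespace CfsgLib.ZJE

universe u v
variable {G : Type u} [Group G]

open CfsgLib CfsgLib.Coprime CfsgLib.PL1 CfsgLib.PL2 CfsgLib.PL3 CfsgLib.ZJ CfsgLib.ZJ2 CfsgLib.ZJ3 CfsgLib.ZJ4
open scoped commutatorElement Pointwise

/-- Frattini for the centralizer of `Zi` -/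
theorem frat [Finite G] {p : ℕ} [hp : Fact p.Prime] (S : Sylow p G) (i : ℕ) [hi : (Zi p (S : Subgroup G) i).Normal] (g : G) :
    ∃ n c : G, g = n * c ∧ c ∈ Subgroup.centralizer ((Zi p (S : Subgroup G) i : Subgroup G) : Set G) ∧
      (∀ x ∈ Cfsg.centerThompsonOf p (S : Subgroup G), n * x * n⁻¹ ∈ Cfsg.centerThompsonOf p (S : Subgroup G)) := by
  set C := Subgroup.centralizer ((Zi p (S : Subgroup G) i : Subgroup G) : Set G) with hC
  have h1 : IsSyl p ((S : Subgroup G) ⊓ C) C := CfsgLib.Transfer3.isSyl_inf_normal (CfsgLib.Transfer.isSyl_top S) le_top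
    (by rw [Subgroup.normalizer_eq_top C])
  have h2 := CfsgLib.Solv3.frattini_isSyl h1
  set T := (S : Subgroup G) ⊓ C with hT
  have hMA : ∀ A ∈ MA p (S : Subgroup G), A ≤ T := by
    intro A hA
    refine le_inf hA.1 ?_
    intro a ha
    rw [hC, Subgroup.mem_centralizer_iff]
    intro x hx
    exact (mem_center_iff.mp hx.1).2 A hA a ha
  have hMAeq : ∀ A, A ∈ MA p T ↔ A ∈ MA p (S : Subgroup G) := by
    intro A
    constructor
    · intro hA
      obtain ⟨A₀, hA₀⟩ := MA_nonempty p (S : Subgroup G)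
      exact MA_subset inf_le_left hA₀ (hMA A₀ hA₀) hA
    · intro hA
      exact ⟨hMA A hA, hA.2.1, fun D hD hD' => hA.2.2 D (hD.trans inf_le_left) hD'⟩
  have h6 : g ∈ (Subgroup.normalizer (T : Set G) : Set G) * (C : Set G) := by
    rw [← Subgroup.mul_normal, sup_comm, h2]; exact Subgroup.mem_top g
  obtain ⟨n, hn, c, hc, rfl⟩ := h6
  refine ⟨n, c, rfl, hc, ?_⟩
  intro x hx
  refine conj_mem_cT ?_ ?_ hx
  · intro A hA
    exact (hMAeq _).mp (normalizer_perm hn A ((hMAeq A).mpr hA))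
  · intro A hA
    exact (hMAeq _).mp (normalizer_perm (inv_mem hn) A ((hMAeq A).mpr hA))

theorem mem_of_pow {p : ℕ} [hp : Fact p.Prime] [Finite G] {P A : Subgroup G} (hA : A ∈ MA p P) {v : G} (hv : v ∈ P) (hvp : v ^ p = 1)
    (hc : ∀ a ∈ A, a * v = v * a) : v ∈ A := by
  have hAc : ∀ a ∈ A, ∀ b ∈ A, a * b = b * a := fun a ha b hb => comm_of hA.2.1.1 ha hb
  have hck : ∀ a ∈ A, ∀ k : ℤ, v ^ k * a = a * v ^ k := fun a ha k => ((show Commute a v from hc a ha).zpow_right k).eq.symm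
  let D : Subgroup G :=
    { carrier := {y | ∃ a ∈ A, ∃ k : ℤ, y = a * v ^ k}
      one_mem' := ⟨1, A.one_mem, 0, by simp⟩
      mul_mem' := by
        rintro _ _ ⟨a, ha, k, rfl⟩ ⟨b, hb, l, rfl⟩
        refine ⟨a * b, A.mul_mem ha hb, k + l, ?_⟩
        rw [zpow_add]
        calc a * v ^ k * (b * v ^ l) = a * (v ^ k * b) * v ^ l := by group
          _ = a * (b * v ^ k) * v ^ l := by rw [hck b hb k]
          _ = a * b * (v ^ k * v ^ l) := by group
      inv_mem' := by
        rintro _ ⟨a, ha, k, rfl⟩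
        refine ⟨a⁻¹, A.inv_mem ha, -k, ?_⟩
        rw [mul_inv_rev, ← zpow_neg, hck _ (A.inv_mem ha)] }
  have hAD : A ≤ D := fun a ha => ⟨a, ha, 0, by simp⟩
  have hvD : v ∈ D := ⟨1, A.one_mem, 1, by simp⟩
  have hDP : D ≤ P := by
    rintro _ ⟨a, ha, k, rfl⟩
    exact P.mul_mem (hA.1 ha) (P.zpow_mem hv k)
  have h1 : Nat.card D ≤ Nat.card A := by
    apply hA.2.2 D hDP
    refine ⟨mul_comm_mk ?_, ?_⟩
    · rintro _ ⟨a, ha, k, rfl⟩ _ ⟨b, hb, l, rfl⟩
      calc a * v ^ k * (b * v ^ l) = a * (v ^ k * b) * v ^ l := by group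
          _ = a * (b * v ^ k) * v ^ l := by rw [hck b hb k]
          _ = (a * b) * (v ^ k * v ^ l) := by group
          _ = (b * a) * (v ^ l * v ^ k) := by rw [hAc a ha b hb, ← zpow_add, ← zpow_add, add_comm]
          _ = b * (a * v ^ l) * v ^ k := by group
          _ = b * (v ^ l * a) * v ^ k := by rw [hck a ha l]
          _ = b * v ^ l * (a * v ^ k) := by group
    · rintro _ ⟨a, ha, k, rfl⟩
      have h2 : Commute a (v ^ k) := (hck a ha k).symm
      rw [h2.mul_pow, hA.2.1.2 a ha, one_mul, ← zpow_natCast, ← zpow_mul, mul_comm, zpow_mul, zpow_natCast, hvp, one_zpow]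
  have h2 : A = D := Subgroup.eq_of_le_of_card_ge hAD h1
  rw [h2]; exact hvD

end CfsgLib.ZJE
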