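import Cfsg.Agent.Lib.ZJE2

/-! The centre of the (elementary abelian version) Thompson subgroup is normal in `p`-stable, constrained groups. -/
set_option autoImplicit false
set_option linter.style.haveILetI false
set_option linter.unusedVariables false

namespace CfsgLib.ZJE

universe u v
variable {G : Type u} [Group G]

open CfsgLib CfsgLib.Coprime CfsgLib.PL1 CfsgLib.PL2 CfsgLib.PL3 CfsgLib.ZJ CfsgLib.ZJ2 CfsgLib.ZJ3 CfsgLib.ZJ4
open scoped commutatorElement Pointwise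

/-- first half: commutator structure of the minimal `B` -/
theorem classtwo {p : ℕ} [hp : Fact p.Prime] {B Y N : Subgroup G} [hBn : B.Normal] [hNn : N.Normal]
    (hYc : ∀ x ∈ Y, ∀ y ∈ Y, x * y = y * x)
    (hBgen : Subgroup.normalClosure ((Y ⊓ B : Subgroup G) : Set G) = B) (hB' : ⁅B, B⁆ ≤ Y)
    (hN : ∀ x ∈ Y ⊓ B, x ^ p ∈ N) (hNY : ∀ x ∈ N, ∀ y ∈ Y, x * y = y * x) :
    (∀ x ∈ B, ∀ y ∈ B, ∀ z ∈ B, (x * y * x⁻¹ * y⁻¹) * z = z * (x * y * x⁻¹ * y⁻¹)) ∧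
    (∀ x ∈ B, ∀ y ∈ B, (x * y * x⁻¹ * y⁻¹) ^ p = 1) ∧ (∀ x ∈ N, ∀ y ∈ B, x * y = y * x) := by
  have h1 : B ≤ Subgroup.centralizer ((⁅B, B⁆ : Subgroup G) : Set G) := by
    rw [← hBgen]
    have : Subgroup.normalClosure ((Y ⊓ B : Subgroup G) : Set G) ≤ Subgroup.centralizer ((⁅B, B⁆ : Subgroup G) : Set G) := by
      apply Subgroup.normalClosure_le_normal
      intro x hx
      have hx' := Subgroup.mem_inf.mp hx
      show x ∈ Subgroup.centralizer ((⁅B, B⁆ : Subgroup G) : Set G)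
      rw [Subgroup.mem_centralizer_iff]
      intro y hy
      exact hYc y (hB' hy) x hx'.1
    rwa [hBgen] at this ⊢
  have h2 : ∀ x ∈ B, ∀ y ∈ B, ∀ z ∈ B, (x * y * x⁻¹ * y⁻¹) * z = z * (x * y * x⁻¹ * y⁻¹) := by
    intro x hx y hy z hz
    exact Subgroup.mem_centralizer_iff.mp (h1 hz) _ (Subgroup.commutator_mem_commutator hx hy)
  have h3 : ∀ x ∈ N, ∀ y ∈ B, x * y = y * x := by
    have h4 : B ≤ Subgroup.centralizer (N : Set G) := by
      have : Subgroup.normalClosure ((Y ⊓ B : Subgroup G) : Set G) ≤ Subgroup.centralizer (N : Set G) := by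
        apply Subgroup.normalClosure_le_normal
        intro x hx
        have hx' := Subgroup.mem_inf.mp hx
        show x ∈ Subgroup.centralizer (N : Set G)
        rw [Subgroup.mem_centralizer_iff]
        intro y hy
        exact hNY y hy x hx'.1
      rwa [hBgen] at this
    intro x hx y hy
    exact Subgroup.mem_centralizer_iff.mp (h4 hy) x hx
  refine ⟨h2, ?_, h3⟩
  -- the subgroup of elements whose commutators have exponent `p`
  have hcommpow : ∀ x ∈ B, ∀ b ∈ B, ∀ n : ℕ, (x * b * x⁻¹ * b⁻¹) ^ n = x ^ n * b * (x ^ n)⁻¹ * b⁻¹ := by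
    intro x hx b hb n
    induction n with
    | zero => simp
    | succ n ih =>
      have hc := h2 x hx b hb
      calc (x * b * x⁻¹ * b⁻¹) ^ (n + 1) = (x * b * x⁻¹ * b⁻¹) ^ n * (x * b * x⁻¹ * b⁻¹) := pow_succ _ _
        _ = (x * b * x⁻¹ * b⁻¹) * (x ^ n * b * (x ^ n)⁻¹ * b⁻¹) := by
            rw [← ih]
            exact ((Commute.refl (x * b * x⁻¹ * b⁻¹)).pow_left n).eq
        _ = (x * b * x⁻¹ * b⁻¹) * x ^ n * (b * (x ^ n)⁻¹ * b⁻¹) := by group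
        _ = x ^ n * (x * b * x⁻¹ * b⁻¹) * (b * (x ^ n)⁻¹ * b⁻¹) := by rw [hc _ (B.pow_mem hx n)]
        _ = x ^ (n + 1) * b * (x ^ (n + 1))⁻¹ * b⁻¹ := by rw [pow_succ]; group
  let E : Subgroup G :=
    { carrier := {x | x ∈ B ∧ ∀ b ∈ B, (x * b * x⁻¹ * b⁻¹) ^ p = 1}
      one_mem' := ⟨B.one_mem, fun b _ => by simp⟩
      mul_mem' := by
        rintro x y ⟨hx, hx'⟩ ⟨hy, hy'⟩
        refine ⟨B.mul_mem hx hy, fun b hb => ?_⟩
        have h5 : x * y * b * (x * y)⁻¹ * b⁻¹ = (y * b * y⁻¹ * b⁻¹) * (x * b * x⁻¹ * b⁻¹) := by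
          have h6 := h2 y hy b hb x hx
          calc x * y * b * (x * y)⁻¹ * b⁻¹ = (x * (y * b * y⁻¹ * b⁻¹)) * b * x⁻¹ * b⁻¹ := by group
            _ = ((y * b * y⁻¹ * b⁻¹) * x) * b * x⁻¹ * b⁻¹ := by rw [h6]
            _ = (y * b * y⁻¹ * b⁻¹) * (x * b * x⁻¹ * b⁻¹) := by group
        have h7 : Commute (y * b * y⁻¹ * b⁻¹) (x * b * x⁻¹ * b⁻¹) :=
          h2 y hy b hb _ (B.mul_mem (B.mul_mem (B.mul_mem hx hb) (B.inv_mem hx)) (B.inv_mem hb))
        rw [h5, h7.mul_pow, hx' b hb, hy' b hb, one_mul]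
      inv_mem' := by
        rintro x ⟨hx, hx'⟩
        refine ⟨B.inv_mem hx, fun b hb => ?_⟩
        have h5 : x⁻¹ * b * x⁻¹⁻¹ * b⁻¹ = (x * b * x⁻¹ * b⁻¹)⁻¹ := by
          have h6 := h2 x hx b hb x hx
          calc x⁻¹ * b * x⁻¹⁻¹ * b⁻¹ = x⁻¹ * (x * b * x⁻¹ * b⁻¹)⁻¹ * x := by group
            _ = (x * b * x⁻¹ * b⁻¹)⁻¹ * (((x * b * x⁻¹ * b⁻¹) * x⁻¹) * (x * b * x⁻¹ * b⁻¹)⁻¹ * x) := by group
            _ = (x * b * x⁻¹ * b⁻¹)⁻¹ * ((x⁻¹ * (x * b * x⁻¹ * b⁻¹)) * (x * b * x⁻¹ * b⁻¹)⁻¹ * x) := by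
                rw [h2 x hx b hb x⁻¹ (B.inv_mem hx)]
            _ = (x * b * x⁻¹ * b⁻¹)⁻¹ := by group
        rw [h5, inv_pow, hx' b hb, inv_one] }
  have hBE : B ≤ E := by
    have h5 : Subgroup.normalClosure ((Y ⊓ B : Subgroup G) : Set G) ≤ E := by
      unfold Subgroup.normalClosure
      rw [Subgroup.closure_le]
      intro x hx
      obtain ⟨z, hz, hzx⟩ := Group.mem_conjugatesOfSet_iff.mp hx
      obtain ⟨g, rfl⟩ := isConj_iff.mp hzx
      obtain ⟨hzY, hzB⟩ := Subgroup.mem_inf.mp hz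
      refine ⟨hBn.conj_mem _ hzB g, fun b hb => ?_⟩
      rw [hcommpow _ (hBn.conj_mem _ hzB g) b hb p]
      have h6 : (g * z * g⁻¹) ^ p ∈ N := by
        have : (g * z * g⁻¹) ^ p = g * z ^ p * g⁻¹ := by
          rw [conj_pow]
        rw [this]
        exact hNn.conj_mem _ (hN z hz) g
      rw [h3 _ h6 b hb]
      group
    rwa [hBgen] at h5
  exact fun x hx y hy => (hBE hx).2 y hy

end CfsgLib.ZJE
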