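import Cfsg.Agent.Lib.ZJE3

/-! The centre of the (elementary abelian version) Thompson subgroup is normal in `p`-stable, constrained groups. -/
set_option autoImplicit false
set_option linter.style.haveILetI false
set_option linter.unusedVariables false

namespace CfsgLib.ZJE

universe u v
variable {G : Type u} [Group G]

open CfsgLib CfsgLib.Coprime CfsgLib.PL1 CfsgLib.PL2 CfsgLib.PL3 CfsgLib.ZJ CfsgLib.ZJ2 CfsgLib.ZJ3 CfsgLib.ZJ4
open scoped commutatorElement Pointwise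

theorem sylow_normalizes {p : ℕ} {D : Subgroup G} {s : G} (hs : s ∈ Subgroup.normalizer (D : Set G)) {x : G}
    (hx : x ∈ Cfsg.centerThompsonOf p D) : s * x * s⁻¹ ∈ Cfsg.centerThompsonOf p D :=
  conj_mem_cT (normalizer_perm hs) (normalizer_perm (inv_mem hs)) hx

set_option maxHeartbeats 1000000 in
theorem step [Finite G] {p : ℕ} [hp : Fact p.Prime] (hp2 : p ≠ 2) (hc : Subgroup.centralizer (Cfsg.pCore p G : Set G) ≤ Cfsg.pCore p G)
    (hst : Stab p G) (S : Sylow p G) (i : ℕ) (hi : (Zi p (S : Subgroup G) i).Normal) : (Zi p (S : Subgroup G) (i + 1)).Normal := by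
  classical
  haveI := hi
  set Z := Zi p (S : Subgroup G) (i + 1) with hZ
  set N := Zi p (S : Subgroup G) i with hN
  have hNZ : N ≤ Z := by
    intro x hx
    refine ⟨hx.1, ?_⟩
    rw [pow_succ, pow_mul, hx.2, one_pow]
  have hZS : Z ≤ S := fun x hx => cT_le hx.1
  have hSZ : (S : Subgroup G) ≤ Subgroup.normalizer (Z : Set G) := by
    intro s hs
    apply CfsgLib.H7Basic.mem_normalizer_of_conj_mem
    intro x hx
    refine ⟨sylow_normalizes (Subgroup.le_normalizer hs) hx.1, ?_⟩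
    rw [conj_pow, hx.2]; group
  have hZcomm : ∀ x ∈ Z, ∀ y ∈ Z, x * y = y * x := fun x hx y hy => cT_comm hx.1 hy.1
  haveI hQn := CfsgLib.Core.pCore_normal p G
  set Q := Cfsg.pCore p G with hQ
  have hQp : IsPGroup p Q := CfsgLib.Core.pCore_isPGroup p G
  have hQS : Q ≤ S := CfsgLib.Core.pCore_le_sylow S
  -- Z ≤ Q
  have hZQ : Z ≤ Q := by
    intro z hz
    have h1 : ⁅⁅Q, Subgroup.zpowers z⁆, Subgroup.zpowers z⁆ = ⊥ := by
      have hzZ : Subgroup.zpowers z ≤ Z := by rwa [Subgroup.zpowers_le]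
      have h2 : ⁅Q, Subgroup.zpowers z⁆ ≤ Z := by
        refine (Subgroup.commutator_mono hQS hzZ).trans ?_
        rw [Subgroup.commutator_comm]
        exact commutator_le_left hSZ
      rw [Subgroup.commutator_eq_bot_iff_le_centralizer]
      intro x hx
      rw [Subgroup.mem_centralizer_iff]
      exact fun y hy => hZcomm y (hzZ hy) x (h2 hx)
    have h2 := hst Q hQp z h1
    haveI := LP_normal p (Subgroup.centralizer (Q : Set G))
    have h3 : LP p (Subgroup.centralizer (Q : Set G)) ≤ Q := by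
      apply CfsgLib.Core.le_pCore inferInstance
      obtain ⟨k, hk⟩ := relIndex_LP (p := p) (Subgroup.centralizer (Q : Set G))
      obtain ⟨j, hj⟩ := IsPGroup.iff_card.mp (hQp.to_le hc)
      apply IsPGroup.of_card (n := k + j)
      rw [← relIndex_mul_card (le_LP p (Subgroup.centralizer (Q : Set G))), hk, hj, pow_add]
    exact h3 h2
  by_contra hnot
  -- minimal B
  obtain ⟨B, ⟨hBn, hBp, hBZ⟩, hmin⟩ := Set.exists_min_image {B : Subgroup G | B.Normal ∧ IsPGroup p B ∧ ¬ (Z ⊓ B).Normal}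
    (fun B => Nat.card B) (Set.toFinite _) ⟨Q, hQn, hQp, by rwa [inf_eq_left.mpr hZQ]⟩
  have hBQ : B ≤ Q := CfsgLib.Core.le_pCore hBn hBp
  have hBS := hBQ.trans hQS
  have hBgen : Subgroup.normalClosure ((Z ⊓ B : Subgroup G) : Set G) = B := by
    have h1 : Subgroup.normalClosure ((Z ⊓ B : Subgroup G) : Set G) ≤ B := Subgroup.normalClosure_le_normal inf_le_right
    apply Subgroup.eq_of_le_of_card_ge h1
    apply hmin
    refine ⟨inferInstance, hBp.to_le h1, ?_⟩
    have h2 : Z ⊓ Subgroup.normalClosure ((Z ⊓ B : Subgroup G) : Set G) = Z ⊓ B :=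
      le_antisymm (inf_le_inf_left _ h1) (le_inf inf_le_left Subgroup.le_normalClosure)
    rw [h2]; exact hBZ
  have hBne : B ≠ ⊥ := by
    intro h
    apply hBZ
    rw [h, inf_bot_eq]
    infer_instance
  -- B'
  haveI hN₁ : (Z ⊓ ⁅B, B⁆ : Subgroup G).Normal := by
    by_contra hcon
    have h1 := hmin ⁅B, B⁆ ⟨inferInstance, hBp.to_le (commutator_lt_self hBp hBne).le, hcon⟩
    exact absurd (CfsgLib.H7Basic.card_lt_card_of_lt (commutator_lt_self hBp hBne)) (not_lt.mpr h1)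
  have hB'Z : ⁅B, B⁆ ≤ Z := by
    set N₁ := Z ⊓ ⁅B, B⁆ with hN₁def
    haveI : (B.map (QuotientGroup.mk' N₁)).Normal := hBn.map _ (QuotientGroup.mk'_surjective _)
    haveI hK : ((Subgroup.centralizer ((B.map (QuotientGroup.mk' N₁) : Subgroup (G ⧸ N₁)) : Set (G ⧸ N₁))).comap (QuotientGroup.mk' N₁)).Normal :=
      inferInstance
    have h1 : Subgroup.normalClosure ((Z ⊓ B : Subgroup G) : Set G) ≤
        (Subgroup.centralizer ((B.map (QuotientGroup.mk' N₁) : Subgroup (G ⧸ N₁)) : Set (G ⧸ N₁))).comap (QuotientGroup.mk' N₁) := by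
      apply Subgroup.normalClosure_le_normal
      intro x hx
      obtain ⟨hxZ, hxB⟩ := Subgroup.mem_inf.mp hx
      show QuotientGroup.mk' N₁ x ∈ Subgroup.centralizer ((B.map (QuotientGroup.mk' N₁) : Subgroup (G ⧸ N₁)) : Set (G ⧸ N₁))
      rw [Subgroup.mem_centralizer_iff]
      rintro _ ⟨y, hy, rfl⟩
      rw [← map_mul, ← map_mul]
      apply QuotientGroup.eq.mpr
      -- (y x)⁻¹ (x y) ∈ N₁
      have h2 : (y * x)⁻¹ * (x * y) = x⁻¹ * y⁻¹ * x⁻¹⁻¹ * y⁻¹⁻¹ := by group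
      rw [h2]
      refine Subgroup.mem_inf.mpr ⟨?_, Subgroup.commutator_mem_commutator (inv_mem hxB) (inv_mem hy)⟩
      have h3 : x⁻¹ * y⁻¹ * x⁻¹⁻¹ * y⁻¹⁻¹ = x⁻¹ * (y⁻¹ * x * y⁻¹⁻¹) := by group
      rw [h3]
      exact mul_mem (inv_mem hxZ) (conj_mem (hSZ (hBS (inv_mem hy))) hxZ)
    rw [hBgen] at h1
    refine le_trans ?_ (inf_le_left : N₁ ≤ Z)
    rw [Subgroup.commutator_le]
    intro x hx y hy
    have h2 := (Subgroup.mem_centralizer_iff.mp (h1 hx)) _ (Subgroup.mem_map_of_mem _ hy)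
    rw [← QuotientGroup.eq_one_iff]
    show QuotientGroup.mk' N₁ ⁅x, y⁆ = 1
    rw [map_commutatorElement, commutatorElement_eq_one_iff_mul_comm]
    exact h2.symm
  have hpowN : ∀ x ∈ Z ⊓ B, x ^ p ∈ N := by
    intro x hx
    obtain ⟨hxZ, -⟩ := Subgroup.mem_inf.mp hx
    refine ⟨pow_mem hxZ.1 _, ?_⟩
    rw [← pow_mul, ← pow_succ']
    exact hxZ.2
  obtain ⟨hcl, hex, hNB⟩ := classtwo (p := p) hZcomm hBgen hB'Z hpowN (fun x hx y hy => hZcomm x (hNZ hx) y hy)
  have hhom : ∀ x ∈ B, ∀ y ∈ B, (x * y) ^ p = x ^ p * y ^ p := fun x hx y hy => class2_pow hp2 hcl hex hx hy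
  -- p-th powers of B are in N
  have hBpow : ∀ x ∈ B, x ^ p ∈ N := by
    let E : Subgroup G :=
      { carrier := {x | x ∈ B ∧ x ^ p ∈ N}
        one_mem' := ⟨B.one_mem, by rw [one_pow]; exact N.one_mem⟩
        mul_mem' := by
          rintro x y ⟨hx, hx'⟩ ⟨hy, hy'⟩
          exact ⟨B.mul_mem hx hy, by rw [hhom x hx y hy]; exact N.mul_mem hx' hy'⟩
        inv_mem' := by
          rintro x ⟨hx, hx'⟩
          exact ⟨B.inv_mem hx, by rw [inv_pow]; exact N.inv_mem hx'⟩ }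
    have hBE : B ≤ E := by
      have h5 : Subgroup.normalClosure ((Z ⊓ B : Subgroup G) : Set G) ≤ E := by
        unfold Subgroup.normalClosure
        rw [Subgroup.closure_le]
        intro x hx
        obtain ⟨z, hz, hzx⟩ := Group.mem_conjugatesOfSet_iff.mp hx
        obtain ⟨g, rfl⟩ := isConj_iff.mp hzx
        refine ⟨hBn.conj_mem _ (Subgroup.mem_inf.mp hz).2 g, ?_⟩
        rw [conj_pow]
        exact hi.conj_mem _ (hpowN z hz) g
      rwa [hBgen] at h5
    exact fun x hx => (hBE hx).2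
  -- V = elements of exponent p in B
  let V : Subgroup G :=
    { carrier := {x | x ∈ B ∧ x ^ p = 1}
      one_mem' := ⟨B.one_mem, one_pow _⟩
      mul_mem' := by
        rintro x y ⟨hx, hx'⟩ ⟨hy, hy'⟩
        exact ⟨B.mul_mem hx hy, by rw [hhom x hx y hy, hx', hy', one_mul]⟩
      inv_mem' := by
        rintro x ⟨hx, hx'⟩
        exact ⟨B.inv_mem hx, by rw [inv_pow, hx', inv_one]⟩ }
  have hVB : V ≤ B := fun x hx => hx.1
  haveI hVn : V.Normal := ⟨fun x hx g => ⟨hBn.conj_mem _ hx.1 g, by rw [conj_pow, hx.2]; group⟩⟩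
  -- commutators with the centralizer of N
  have hcomC : ∀ x ∈ B, ∀ c ∈ Subgroup.centralizer (N : Set G), x⁻¹ * (c * x * c⁻¹) ∈ V := by
    intro x hx c hc'
    refine ⟨B.mul_mem (B.inv_mem hx) (hBn.conj_mem _ hx c), ?_⟩
    rw [hhom _ (B.inv_mem hx) _ (hBn.conj_mem _ hx c), conj_pow, inv_pow]
    have h1 := mem_centralizer_iff'.mp hc' _ (hBpow x hx)
    rw [h1]; group
  -- every conjugate of Z ⊓ B lies in (Z ⊓ B) ⊔ V
  have hconj : ∀ t ∈ Z ⊓ B, ∀ g : G, ∃ t' ∈ Z ⊓ B, ∃ v ∈ V, g * t * g⁻¹ = t' * v := by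
    intro t ht g
    obtain ⟨htZ, htB⟩ := Subgroup.mem_inf.mp ht
    obtain ⟨n, c, rfl, hc', hn⟩ := frat S i g
    refine ⟨n * t * n⁻¹, Subgroup.mem_inf.mpr ⟨⟨hn t htZ.1, by rw [conj_pow, htZ.2]; group⟩, hBn.conj_mem _ htB n⟩,
      n * (t⁻¹ * (c * t * c⁻¹)) * n⁻¹, hVn.conj_mem _ (hcomC t htB c hc') n, ?_⟩
    group
  by_cases hcase : ∃ U ∈ MA p (S : Subgroup G), ¬ V ≤ U
  swap
  · push Not at hcase
    apply hBZ
    have hVZ : V ≤ Z := by
      intro v hv
      have h1 : v ∈ Cfsg.centerThompsonOf p (S : Subgroup G) := by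
        rw [mem_center_iff]
        obtain ⟨A₀, hA₀⟩ := MA_nonempty p (S : Subgroup G)
        refine ⟨(le_sSup hA₀ : A₀ ≤ _) (hcase A₀ hA₀ hv), fun A hA a ha => ?_⟩
        exact comm_of hA.2.1.1 (hcase A hA hv) ha
      exact ⟨h1, by rw [pow_succ', pow_mul, hv.2, one_pow]⟩
    refine ⟨fun t ht g => ?_⟩
    obtain ⟨t', ht', v, hv, h⟩ := hconj t ht g
    rw [h]
    exact (Z ⊓ B).mul_mem ht' (Subgroup.mem_inf.mpr ⟨hVZ hv, hVB hv⟩)
  obtain ⟨U, hU, hBU⟩ := hcase
  -- V' is in every member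
  have hVS : V ≤ S := hVB.trans hBS
  have hV'e : ∀ x ∈ ⁅B, B⁆, x ^ p = 1 := by
    intro x hx
    have h1 : ⁅B, B⁆ ≤ V := by
      rw [Subgroup.commutator_le]
      intro x hx y hy
      exact ⟨Subgroup.commutator_le_left B B (Subgroup.commutator_mem_commutator hx hy), hex x hx y hy⟩
    exact (h1 hx).2
  have hV'A : ∀ A ∈ MA p (S : Subgroup G), ⁅V, V⁆ ≤ A := by
    intro A hA x hx
    have hxB : x ∈ ⁅B, B⁆ := Subgroup.commutator_mono hVB hVB hx
    have hxZ := hB'Z hxB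
    refine mem_of_pow hA (hZS hxZ) (hV'e x hxB) ?_
    intro a ha
    exact ((mem_center_iff.mp hxZ.1).2 A hA a ha).symm
  -- replacement inside S
  haveI hVS' : (V.subgroupOf (S : Subgroup G)).Normal := inferInstance
  have hcommS : ∀ A : Subgroup G, A ≤ S → (⁅V.subgroupOf (S : Subgroup G), V.subgroupOf (S : Subgroup G)⁆ ≤ A.subgroupOf (S : Subgroup G) ↔ ⁅V, V⁆ ≤ A) := by
    intro A hAS
    have h1 : ⁅V, V⁆ = (⁅V.subgroupOf (S : Subgroup G), V.subgroupOf (S : Subgroup G)⁆).map (S : Subgroup G).subtype := by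
      rw [Subgroup.map_commutator, Subgroup.map_subgroupOf_eq_of_le hVS]
    rw [h1, Subgroup.map_le_iff_le_comap]
    rfl
  obtain ⟨A', hA', hA'1, hA'2, hA'3⟩ := replacement_property (G := (S : Subgroup G)) S.2 hp2 p (⊤ : Subgroup (S : Subgroup G))
    (V.subgroupOf (S : Subgroup G)) ⟨U.subgroupOf (S : Subgroup G), by
      rw [MA_map_iff_top, Subgroup.map_subgroupOf_eq_of_le hU.1]; exact hU, (hcommS U hU.1).mpr (hV'A U hU), by
      intro h
      apply hBU
      intro x hx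
      exact h (show (⟨x, hVS hx⟩ : (S : Subgroup G)) ∈ V.subgroupOf (S : Subgroup G) from hx)⟩
  set A := A'.map (S : Subgroup G).subtype with hAdef
  have hA : A ∈ MA p (S : Subgroup G) := MA_map_iff_top.mp hA'
  have hVA : ¬ V ≤ A := by
    intro h
    apply hA'2
    intro x hx
    obtain ⟨y, hy, hyx⟩ := h (show (x : G) ∈ V from hx)
    have : y = x := Subtype.ext hyx
    rwa [← this]
  have hVnA : V ≤ Subgroup.normalizer (A : Set G) := by
    intro b hb
    apply CfsgLib.H7Basic.mem_normalizer_of_conj_mem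
    rintro _ ⟨a, ha, rfl⟩
    have h1 := conj_mem (hA'3 (show (⟨b, hVS hb⟩ : (S : Subgroup G)) ∈ V.subgroupOf (S : Subgroup G) from hb)) ha
    exact ⟨_, h1, rfl⟩
  have hZnA : ∀ t ∈ Z ⊓ B, t ∈ Subgroup.normalizer (A : Set G) := by
    intro t ht
    apply CfsgLib.H7Basic.mem_normalizer_of_conj_mem
    intro a ha
    rw [(mem_center_iff.mp (Subgroup.mem_inf.mp ht).1.1).2 A hA a ha, mul_inv_cancel_right]
    exact ha
  have hBnA : B ≤ Subgroup.normalizer (A : Set G) := by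
    have h5 : Subgroup.normalClosure ((Z ⊓ B : Subgroup G) : Set G) ≤ Subgroup.normalizer (A : Set G) := by
      unfold Subgroup.normalClosure
      rw [Subgroup.closure_le]
      intro x hx
      obtain ⟨z, hz, hzx⟩ := Group.mem_conjugatesOfSet_iff.mp hx
      obtain ⟨g, rfl⟩ := isConj_iff.mp hzx
      obtain ⟨t', ht', v, hv, h⟩ := hconj z hz g
      rw [h]
      exact mul_mem (hZnA t' ht') (hVnA hv)
    rwa [hBgen] at h5
  -- A acts quadratically
  have hquad : ∀ a ∈ A, a ∈ LP p (Subgroup.centralizer (B : Set G)) := by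
    intro a ha
    apply hst B hBp
    have haA : Subgroup.zpowers a ≤ A := by rwa [Subgroup.zpowers_le]
    have h2 : ⁅B, Subgroup.zpowers a⁆ ≤ A := by
      refine (Subgroup.commutator_mono le_rfl haA).trans ?_
      rw [Subgroup.commutator_comm]
      exact commutator_le_left hBnA
    rw [Subgroup.commutator_eq_bot_iff_le_centralizer]
    intro x hx
    rw [Subgroup.mem_centralizer_iff]
    exact fun y hy => comm_of hA.2.1.1 (haA hy) (h2 hx)
  set C := Subgroup.centralizer (B : Set G) with hC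
  set T := (S : Subgroup G) ⊓ LP p C with hT
  have hAT : A ≤ T := le_inf hA.1 hquad
  have hAT' : A ∈ MA p T := ⟨hAT, hA.2.1, fun D hD hD' => hA.2.2 D (hD.trans inf_le_left) hD'⟩
  have hBA : B ≤ Subgroup.centralizer (A : Set G) := by
    have h5 : Subgroup.normalClosure ((Z ⊓ B : Subgroup G) : Set G) ≤ Subgroup.centralizer (A : Set G) := by
      unfold Subgroup.normalClosure
      rw [Subgroup.closure_le]
      intro x hx
      obtain ⟨z, hz, hzx⟩ := Group.mem_conjugatesOfSet_iff.mp hx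
      obtain ⟨g, rfl⟩ := isConj_iff.mp hzx
      obtain ⟨hzZ, hzB⟩ := Subgroup.mem_inf.mp hz
      obtain ⟨n, hn, c, hc', rfl⟩ := exists_mul C S g
      have h2 : c * z * c⁻¹ = z := mem_centralizer_iff'.mp hc' z hzB
      have h3 : n * c * z * (n * c)⁻¹ = n * (c * z * c⁻¹) * n⁻¹ := by group
      rw [h3, h2]
      show n * z * n⁻¹ ∈ Subgroup.centralizer (A : Set G)
      rw [Subgroup.mem_centralizer_iff]
      intro a ha
      have h4 := normalizer_perm (inv_mem hn) A hAT'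
      have h6 := MA_subset inf_le_left hA hAT h4
      have h7 := (mem_center_iff.mp hzZ.1).2 _ h6 (n⁻¹ * a * n⁻¹⁻¹) (Subgroup.mem_map_of_mem (MulAut.conj n⁻¹).toMonoidHom ha)
      have h8 : n * (z * (n⁻¹ * a * n⁻¹⁻¹)) * n⁻¹ = n * (n⁻¹ * a * n⁻¹⁻¹ * z) * n⁻¹ := congrArg (fun y => n * y * n⁻¹) h7
      have h9 : n * (z * (n⁻¹ * a * n⁻¹⁻¹)) * n⁻¹ = n * z * n⁻¹ * a := by group
      have h10 : n * (n⁻¹ * a * n⁻¹⁻¹ * z) * n⁻¹ = a * (n * z * n⁻¹) := by group
      rw [h9, h10] at h8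
      exact h8.symm
    rwa [hBgen] at h5
  apply hVA
  intro v hv
  refine mem_of_pow hA (hVS hv) hv.2 ?_
  intro a ha
  exact Subgroup.mem_centralizer_iff.mp (hBA (hVB hv)) a ha

theorem centerThompson_normal [Finite G] {p : ℕ} [hp : Fact p.Prime] (hp2 : p ≠ 2)
    (hc : Subgroup.centralizer (Cfsg.pCore p G : Set G) ≤ Cfsg.pCore p G)
    (hst : Stab p G) (S : Sylow p G) : (Cfsg.centerThompsonOf p (S : Subgroup G)).Normal := by
  have h1 : ∀ i, (Zi p (S : Subgroup G) i).Normal := by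
    intro i
    induction i with
    | zero =>
      have : Zi p (S : Subgroup G) 0 = ⊥ := by
        rw [eq_bot_iff]
        intro x hx
        have := hx.2
        rw [pow_zero, pow_one] at this
        rw [Subgroup.mem_bot]; exact this
      rw [this]; infer_instance
    | succ i ih => exact step hp2 hc hst S i ih
  obtain ⟨n, hn⟩ := IsPGroup.iff_card.mp S.2
  have h2 : Zi p (S : Subgroup G) n = Cfsg.centerThompsonOf p (S : Subgroup G) := by
    apply le_antisymm
    · exact fun x hx => hx.1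
    · intro x hx
      refine ⟨hx, ?_⟩
      have h3 : (⟨x, cT_le hx⟩ : (S : Subgroup G)) ^ p ^ n = 1 := by
        rw [← hn]; exact pow_card_eq_one'
      exact congrArg Subtype.val h3
  rw [← h2]; exact h1 n

end CfsgLib.ZJE
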