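import Cfsg.Agent.Lib.ZJE4
import Cfsg.Agent.Lib.H7Stab

/-! consequences: `G = O_{p'}(G) N_G(Z(J(P)))` for the elementary abelian version of `J`. -/
set_option autoImplicit false
set_option linter.style.haveILetI false
set_option linter.unusedVariables false

namespace CfsgLib.ZJE

universe u v
variable {G : Type u} [Group G]

open CfsgLib CfsgLib.Coprime CfsgLib.PL1 CfsgLib.PL2 CfsgLib.PL3 CfsgLib.ZJ CfsgLib.ZJ2 CfsgLib.ZJ3 CfsgLib.ZJ4 CfsgLib.PSt
open scoped commutatorElement Pointwise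

theorem tO_map {G' : Type v} [Group G'] {p : ℕ} (f : G →* G') (hf : Function.Injective f) (D : Subgroup G) :
    (sSup (MA p D)).map f = sSup (MA p (D.map f)) := by
  apply le_antisymm
  · rw [Subgroup.map_le_iff_le_comap]
    apply sSup_le
    intro A hA
    rw [← Subgroup.map_le_iff_le_comap]
    exact le_sSup ((MA_map_iff f hf hA.1).mp hA)
  · apply sSup_le
    intro A hA
    have h1 : (A.comap f).map f = A := by
      rw [Subgroup.map_comap_eq]
      exact inf_eq_right.mpr (hA.1.trans (Subgroup.map_le_range f D))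
    have h2 : A.comap f ≤ D := by
      intro x hx
      obtain ⟨y, hy, hyx⟩ := hA.1 hx
      rwa [← hf hyx]
    have h3 : A.comap f ∈ MA p D := by
      rw [MA_map_iff f hf h2, h1]; exact hA
    rw [← h1]
    exact Subgroup.map_mono (le_sSup h3)

theorem cT_map {G' : Type v} [Group G'] {p : ℕ} (f : G →* G') (hf : Function.Injective f) (D : Subgroup G) :
    (Cfsg.centerThompsonOf p D).map f = Cfsg.centerThompsonOf p (D.map f) := by
  unfold Cfsg.centerThompsonOf
  rw [thompsonOf_eq, thompsonOf_eq, ← tO_map f hf]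
  ext x
  constructor
  · rintro ⟨y, hy, rfl⟩
    obtain ⟨hy1, hy2⟩ := Subgroup.mem_inf.mp hy
    refine Subgroup.mem_inf.mpr ⟨Subgroup.mem_map_of_mem _ hy1, ?_⟩
    rw [Subgroup.mem_centralizer_iff]
    rintro _ ⟨z, hz, rfl⟩
    rw [← map_mul, ← map_mul, Subgroup.mem_centralizer_iff.mp hy2 z hz]
  · intro hx
    obtain ⟨⟨y, hy, rfl⟩, hx⟩ := Subgroup.mem_inf.mp hx
    refine ⟨y, Subgroup.mem_inf.mpr ⟨hy, ?_⟩, rfl⟩
    rw [Subgroup.mem_centralizer_iff]
    intro z hz
    apply hf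
    rw [map_mul, map_mul]
    exact Subgroup.mem_centralizer_iff.mp hx _ (Subgroup.mem_map_of_mem _ hz)

theorem cT_eq_map_top {p : ℕ} (D : Subgroup G) : Cfsg.centerThompsonOf p D = (Cfsg.centerThompsonOf p (⊤ : Subgroup D)).map D.subtype := by
  rw [cT_map D.subtype D.subtype_injective, ← MonoidHom.range_eq_map, Subgroup.range_subtype]

theorem cT_map_mk [Finite G] {p : ℕ} [hp : Fact p.Prime] {N : Subgroup G} [hNn : N.Normal] (P : Subgroup G)
    (hPN : P ⊓ N = ⊥) : (Cfsg.centerThompsonOf p P).map (QuotientGroup.mk' N) = Cfsg.centerThompsonOf p (P.map (QuotientGroup.mk' N)) := by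
  have hinj : Function.Injective ((QuotientGroup.mk' N).comp P.subtype) := by
    intro x y hxy
    exact Subtype.ext (injOn_mk hPN x.2 y.2 hxy)
  rw [cT_eq_map_top P, Subgroup.map_map, cT_map _ hinj, ← Subgroup.map_map, ← MonoidHom.range_eq_map, Subgroup.range_subtype]

/-- the image of `Z(J(P))` in `G/O_{p'}(G)` is normal -/
theorem map_normal [Finite G] {p : ℕ} [hp : Fact p.Prime] (hp2 : p ≠ 2) (hc : Cfsg.IsPConstrained p G)
    (hs : Stab p (G ⧸ Cfsg.pPrimeCore p G)) (P : Sylow p G) :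
    ((Cfsg.centerThompsonOf p (P : Subgroup G)).map (QuotientGroup.mk' (Cfsg.pPrimeCore p G))).Normal := by
  have hNc : (Nat.card (Cfsg.pPrimeCore p G)).Coprime p := CfsgLib.Core.card_pPrimeCore_coprime p G
  rw [CfsgLib.PSolvL.isPConstrained_iff] at hc
  have hPN : (P : Subgroup G) ⊓ Cfsg.pPrimeCore p G = ⊥ := inf_eq_bot_of_coprime (card_coprime_of_isPGroup P.2 hNc)
  rw [cT_map_mk (p := p) _ hPN]
  exact centerThompson_normal hp2 hc hs (P.mapSurjective (QuotientGroup.mk'_surjective (Cfsg.pPrimeCore p G)))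

theorem sup_normal [Finite G] {p : ℕ} [hp : Fact p.Prime] (hp2 : p ≠ 2) (hc : Cfsg.IsPConstrained p G)
    (hs : Stab p (G ⧸ Cfsg.pPrimeCore p G)) (P : Sylow p G) :
    (Cfsg.centerThompsonOf p (P : Subgroup G) ⊔ Cfsg.pPrimeCore p G).Normal := by
  have h1 := map_normal hp2 hc hs P
  have h2 : Cfsg.centerThompsonOf p (P : Subgroup G) ⊔ Cfsg.pPrimeCore p G =
      ((Cfsg.centerThompsonOf p (P : Subgroup G)).map (QuotientGroup.mk' (Cfsg.pPrimeCore p G))).comap (QuotientGroup.mk' (Cfsg.pPrimeCore p G)) := by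
    rw [Subgroup.comap_map_eq, QuotientGroup.ker_mk']
  rw [h2]
  exact h1.comap _

theorem glauberman_e [Finite G] {p : ℕ} [hp : Fact p.Prime] (hp2 : p ≠ 2) (hc : Cfsg.IsPConstrained p G)
    (hs : Stab p (G ⧸ Cfsg.pPrimeCore p G)) (P : Sylow p G) :
    Cfsg.pPrimeCore p G ⊔ Subgroup.normalizer (Cfsg.centerThompsonOf p (P : Subgroup G) : Set G) = ⊤ := by
  have hNc : (Nat.card (Cfsg.pPrimeCore p G)).Coprime p := CfsgLib.Core.card_pPrimeCore_coprime p G
  exact frattini_coprime hNc (P.2.to_le cT_le) (map_normal hp2 hc hs P)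

theorem s1458 [Finite G] [hsol : Group.IsSolvable G] (hodd : Odd (Nat.card G)) (p : ℕ) [hp : Fact p.Prime] (S : Sylow p G) :
    (Cfsg.centerThompsonOf p (S : Subgroup G) ⊔ Cfsg.pPrimeCore p G).Normal := by
  by_cases hp2 : p = 2
  · subst hp2
    have h1 : Nat.card S = 1 := by
      rw [S.card_eq_multiplicity, Nat.factorization_eq_zero_of_not_dvd (by rw [Nat.two_dvd_ne_zero]; exact Nat.odd_iff.mp hodd), pow_zero]
    have h2 : (S : Subgroup G) = ⊥ := Subgroup.eq_bot_of_card_eq _ h1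
    have h3 : Cfsg.centerThompsonOf 2 (S : Subgroup G) = ⊥ := by
      rw [eq_bot_iff, ← h2]; exact cT_le
    rw [h3, bot_sup_eq]
    infer_instance
  · have hns : Cfsg.IsNormalizerPStable p (G ⧸ Cfsg.pPrimeCore p G) := by
      apply CfsgLib.ThmA.nstable_of_sl2_free hp2
      exact CfsgLib.ThmA.free_quotient (CfsgLib.H7Stab.not_involves_of_odd hodd hp2) _
    exact sup_normal hp2 (CfsgLib.PSolvL.isPConstrained_of_isPSolvable (CfsgLib.PChain.of_solvable hp.out hsol)) (stab_of_normalizer hns) S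

end CfsgLib.ZJE
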