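import Cfsg.Agent.Lib.ZJE5
import Cfsg.Agent.Lib.ThmA9

/-! Control of strong fusion by `Z(J(P))`, elementary abelian version. -/
set_option autoImplicit false
set_option linter.style.haveILetI false
set_option linter.unusedVariables false

namespace CfsgLib.ZJE

universe u v

open CfsgLib CfsgLib.Coprime CfsgLib.ZJ3 CfsgLib.ZJ4 CfsgLib.PSt CfsgLib.ThmA CfsgLib.CF CfsgLib.DFus
open scoped commutatorElement Pointwise

variable {p : ℕ} [hp : Fact p.Prime]

/-- the functor `Z(J)` -/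
def WT (p : ℕ) : ∀ (Q : Type u) [Group Q], Subgroup Q := fun Q _ => Cfsg.centerThompsonOf p (⊤ : Subgroup Q)

omit hp in
theorem WT_induced {G : Type u} [Group G] [Finite G] (P : Subgroup G) : Cfsg.inducedFunctor (G := G) (WT p) P = Cfsg.centerThompsonOf p P :=
  (cT_eq_map_top P).symm

omit hp in
theorem ZM_le_cT {G : Type u} [Group G] [Finite G] (P : Subgroup G) : ZM p P ≤ Cfsg.centerThompsonOf p P := by
  intro x hx
  rw [mem_center_iff]
  obtain ⟨A₀, hA₀⟩ := MA_nonempty p P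
  exact ⟨(le_sSup hA₀ : A₀ ≤ _) (mem_ZM.mp hx A₀ hA₀), fun A hA a ha => CfsgLib.PL1.comm_of hA.2.1.1 (mem_ZM.mp hx A hA) ha⟩

theorem WT_char : Cfsg.IsCharPFunctor.{u} p (WT p) := by
  refine ⟨?_, ?_⟩
  · intro Q _ _ hQ hnt h
    have h1 : ZM p (⊤ : Subgroup Q) ≠ ⊥ := by
      apply CfsgLib.PSt2.ZM_ne_bot (p := p) _ _ (dvd_refl p)
      · exact IsPGroup.to_subgroup hQ _
      · exact top_ne_bot
    apply h1
    rw [eq_bot_iff, ← h]
    exact ZM_le_cT _
  · intro Q R _ _ _ hQ φ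
    show (Cfsg.centerThompsonOf p (⊤ : Subgroup Q)).map φ.toMonoidHom = Cfsg.centerThompsonOf p (⊤ : Subgroup R)
    rw [cT_map φ.toMonoidHom φ.injective]
    congr 1
    exact Subgroup.map_top_of_surjective _ φ.surjective

theorem fc_free {G : Type u} [Group G] [Finite G] (hp2 : p ≠ 2) (h : ¬ Cfsg.Involves ↥(Cfsg.qd p) G)
    (Y : Type u) [Group Y] (hY : CfsgLib.CF.Sect G Y) : CfsgLib.CF.FC p {WT p} Y := by
  refine CfsgLib.CF.fc_sections_of_normal WT_char (G := G) ?_ Y hY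
  intro Y _ _ hY hc S hS
  obtain ⟨P, rfl⟩ := CfsgLib.SylBridge.isSyl_top_iff.1 hS
  rw [WT_induced]
  obtain ⟨K, f, hf⟩ := hY
  have hfree : ¬ Cfsg.Involves ↥(Cfsg.qd p) Y := fun h1 => h (CfsgLib.Inv.of_section K f hf h1)
  exact centerThompson_normal hp2 hc (stab_of_normalizer (nstable_of_free hp2 hfree)) P

theorem fc_sl2free {G : Type u} [Group G] [Finite G] (hp2 : p ≠ 2) (h : ¬ Cfsg.Involves (Matrix.SpecialLinearGroup (Fin 2) (ZMod p)) G)
    (Y : Type u) [Group Y] (hY : CfsgLib.CF.Sect G Y) : CfsgLib.CF.FC p {WT p} Y := by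
  refine CfsgLib.CF.fc_sections_of_normal WT_char (G := G) ?_ Y hY
  intro Y _ _ hY hc S hS
  obtain ⟨P, rfl⟩ := CfsgLib.SylBridge.isSyl_top_iff.1 hS
  rw [WT_induced]
  obtain ⟨K, f, hf⟩ := hY
  have hfree : ¬ Cfsg.Involves (Matrix.SpecialLinearGroup (Fin 2) (ZMod p)) Y := fun h1 => h (CfsgLib.Inv.of_section K f hf h1)
  exact centerThompson_normal hp2 hc (stab_of_normalizer (nstable_of_sl2_free hp2 hfree)) P

theorem ctl_of_fc {X : Type u} [Group X] [Finite X] (h1 : CfsgLib.CF.FC p {WT p} X) {S : Subgroup X} (hS : IsSyl p S ⊤) :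
    Ctl (Subgroup.normalizer (Cfsg.centerThompsonOf p S : Set X)) S := by
  intro A g hA hAg
  obtain ⟨c, hc, hca⟩ := (h1 S hS) A g trivial hA hAg
  refine ⟨c, ?_, hca⟩
  clear hca
  induction hc with
  | one _ => exact one_mem _
  | @step c n hc hn _ ih =>
    rw [mem_steps_ind] at hn
    obtain ⟨W, hW, -, hnW⟩ := hn
    rw [Set.mem_singleton_iff] at hW
    subst hW
    rw [WT_induced] at hnW
    exact mul_mem hnW ih

theorem s0118 {G : Type*} [Group G] [Finite G] (hp2 : p ≠ 2)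
    (hfree : ¬ ∃ (H K : Subgroup G) (hK : (K.subgroupOf H).Normal), Nonempty ((H ⧸ K.subgroupOf H) ≃* Matrix.SpecialLinearGroup (Fin 2) (ZMod p)))
    (P : Sylow p G) (A : Set G) (hA : A ⊆ (P : Set G)) (g : G) (hAg : (fun a => g⁻¹ * a * g) '' A ⊆ (P : Set G)) :
    ∃ n ∈ Subgroup.normalizer (Cfsg.centerThompsonOf p (P : Subgroup G) : Set G), ∀ a ∈ A, n⁻¹ * a * n = g⁻¹ * a * g := by
  have h : ¬ Cfsg.Involves (Matrix.SpecialLinearGroup (Fin 2) (ZMod p)) G := hfree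
  have h1 := fc_sl2free hp2 h G (Sect.refl G)
  have hS : IsSyl p (P : Subgroup G) ⊤ := CfsgLib.SylBridge.isSyl_top_iff.2 ⟨P, rfl⟩
  obtain ⟨n, hn, hna⟩ := ctl_of_fc h1 hS A g⁻¹ hA (by
    intro a ha
    rw [inv_inv]
    exact hAg ⟨a, ha, rfl⟩)
  refine ⟨n⁻¹, inv_mem hn, fun a ha => ?_⟩
  rw [inv_inv, hna a ha, inv_inv]

end CfsgLib.ZJE
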